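import Cfsg.Statements.S0633
import Mathlib
import Cfsg.Agent.H1.HHB

set_option autoImplicit false
open Cfsg

namespace Cfsg.Agent.S0633

open Cfsg.Agent.H1 Cfsg.Agent.FT Polynomial

/-- Theorem B of Hall and Higman on the minimal polynomial of a p-element of order p^n in a p-solvable linear group on a nonzero vector space in characteristic p with no nontrivial normal p-subgroup: its degree is p^n, except when some p^n₀ - 1 (n₀ ≤ n) is a power of a prime q for which the Sylow q-subgroups are non-abelian, in which case the degree is at least p^(n-n₀)(p^n₀ - 1). -/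
theorem result {F : Type*} [Field F] {p : ℕ} [Fact p.Prime] [CharP F p] {V : Type*} [AddCommGroup V] [Module F V] [FiniteDimensional F V] [Nontrivial V] (H : Subgroup (V ≃ₗ[F] V)) [Finite H] (hsol : Cfsg.IsPSolvable p H) (hOp : Cfsg.pCore p H = ⊥) (x : V ≃ₗ[F] V) (hx : x ∈ H) (n : ℕ) (hn : orderOf x = p ^ n) (r : ℕ) (hr : minpoly F (x : Module.End F V) = (Polynomial.X - 1) ^ r) : r = p ^ n ∨ ∃ n₀ q m : ℕ, 1 ≤ n₀ ∧ n₀ ≤ n ∧ q.Prime ∧ 1 ≤ m ∧ p ^ n₀ - 1 = q ^ m ∧ (∀ Q : Sylow q H, ¬ IsMulCommutative Q) ∧ p ^ (n - n₀) * (p ^ n₀ - 1) ≤ r := by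
  have hp : p.Prime := Fact.out
  have h1 : ((x : Module.End F V) - 1) ^ r = 0 := by simpa [hr] using minpoly.aeval F (x : Module.End F V)
  have h2 : r ≤ p ^ n := by
    have := minpoly.dvd F (x : Module.End F V) (p := (X - C 1) ^ p ^ n) (by
      rw [map_pow, map_sub, aeval_X, C_1, map_one, sub_one_pow_char, ← hn, sub_eq_zero]
      exact (map_pow LinearEquiv.automorphismGroup.toLinearMapMonoidHom x _).symm.trans
        (by rw [pow_orderOf_eq_one, map_one]))
    rw [hr, ← C_1] at this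
    simpa only [natDegree_pow, natDegree_X_sub_C, mul_one] using natDegree_le_of_dvd this
      (pow_ne_zero _ (X_sub_C_ne_zero 1))
  rcases n with _ | n
  · exact .inl (le_antisymm h2 (Nat.pos_of_ne_zero fun e => by simp [e] at h1))
  obtain ⟨q, Q, a1, a2, a3, a4 | ⟨a4, n₀, m, a5⟩⟩ := hh_B (x := ⟨x, hx⟩) (n := n) (r := r)
    (ρ := LinearEquiv.automorphismGroup.toLinearMapMonoidHom.comp H.subtype)
    (LinearEquiv.toLinearMap_injective.comp H.subtype_injective) hsol ((pcore_top' hp).trans hOp)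
    ((Subgroup.orderOf_coe _).symm.trans hn) h1
  · exact .inl (le_antisymm h2 a4)
  refine .inr ⟨n₀, q, m, a5.1, a5.2.1, a1, a5.2.2.1, a5.2.2.2.1, fun S hS => a4 ?_, a5.2.2.2.2⟩
  obtain ⟨g, -, hg⟩ := (syl_top a1 S).syl_subJ a3 le_top
  exact (Ab.cj hS g).mono hg

end Cfsg.Agent.S0633
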