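import Cfsg.Statements.S3762
import Mathlib
import Cfsg.Agent.H3.Extra2
import Cfsg.Agent.H3.Aut

set_option autoImplicit false
open Cfsg

namespace Cfsg.Agent.S3762

/-- Let G be a finite p-group of symplectic type: every characteristic abelian subgroup of G is cyclic. Then G = E ∗ R is a central product of subgroups E and R (they commute elementwise and generate G) where E is extraspecial or trivial, and R is cyclic, or p = 2 and R is dihedral, semidihedral or generalized quaternion of order at least 16. -/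
theorem result {G : Type*} [Group G] [Finite G] {p : ℕ} [Fact p.Prime] (hG : IsPGroup p G) (hsymp : ∀ A : Subgroup G, A.Characteristic → IsMulCommutative A → IsCyclic A) : ∃ E R : Subgroup G, (∀ e ∈ E, ∀ r ∈ R, e * r = r * e) ∧ E ⊔ R = ⊤ ∧ (E = ⊥ ∨ Cfsg.IsExtraspecial p ↥E) ∧ (IsCyclic R ∨ (p = 2 ∧ 16 ≤ Nat.card R ∧ ((∃ m : ℕ, Nonempty (↥R ≃* DihedralGroup m)) ∨ (∃ m : ℕ, Nonempty (↥R ≃* QuaternionGroup m)) ∨ Cfsg.IsQuasiDihedral ↥R))) := by
  open Subgroup Cfsg.Agent.FT Cfsg.Agent.H3 in
  open scoped commutatorElement in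
  · obtain ⟨E, R, h1, h2, h3⟩ := symplectic_type (P := holL (⊤ : Subgroup (MulAut G)) ⊤) (Fact.out : p.Prime)
      (pGrp_of (isPGroup_holL hG ⊤)) fun A hA hn hab => by
        obtain ⟨A, rfl⟩ := exists_holL_eq hA
        exact isCyclic_map _ (hsymp A (characteristic_of_holL (normalizer_holL_top.ge.trans hn))
          ((isMulCommutative_map_iff SemidirectProduct.inl_injective).1 hab))
    obtain ⟨E, rfl⟩ := exists_holL_eq h1.left
    obtain ⟨R, rfl⟩ := exists_holL_eq h1.right
    refine ⟨E, R, fun e he r hr => FT.mem_cen.1 (inl_mem_centralizer_holL.1 (h1.cen (inl_mem_holL.2 hr))) e he,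
      holL_injective ((Subgroup.map_sup _ _ _).trans h1.sup), h2.imp (fun e => holL_injective (e.trans (Subgroup.map_bot _).symm)) ?_,
      h3.imp (isCyclic_map_iff SemidirectProduct.inl_injective).1 ?_⟩
    · rintro ⟨z, h4, h5⟩
      obtain ⟨z, -, rfl⟩ := h4.mem
      exact (h4.of_map SemidirectProduct.inl_injective).isExtraspecial fun e => h5 (isMulCommutative_map _ e)
    · rintro ⟨e, a, b, m, h4, h5⟩
      obtain ⟨a, -, rfl⟩ := h5.a_mem
      obtain ⟨b, -, rfl⟩ := h5.b_mem
      have h6 := MC.of_map SemidirectProduct.inl_injective h5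
      exact ⟨e, h6.card ▸ Nat.pow_le_pow_right two_pos (show 4 ≤ m + 1 by omega),
        h6.iso_cases.imp (⟨_, ·⟩) (Or.imp_left (⟨_, ·⟩))⟩

end Cfsg.Agent.S3762
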