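import Cfsg.Statements.S3362
import Mathlib
import Cfsg.Agent.H19.SS

set_option autoImplicit false
open Cfsg

namespace Cfsg.Agent.S3362

open Cfsg.Agent.H19

def f (i : Fin 8) (p : ℕ) : ℕ := (16080779495706827873203312783664373204315823144861084170001947211866960121559585825841513620022515143491196196106768 >>> (48 * i.val + 4 * p)) % 16

theorem l0 : ssChk 12 f 0 3 4 [4, 5, 6, 7, 8, 9, 10, 11] (fun p => [[], [], [], [], [], [0, 0], [0], [1], [0, 1], [1, 2], [2], [2, 0]].getD p [])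
    (fun i p => ([[[], [], [], [], [], [], [], [], [], [], [], []], [[], [], [], [], [], [], [], [], [], [], [], []], [[], [], [], [], [], [], [], [], [], [], [], []]].getD i []).getD p []) := by
  unfold ssChk; decide +kernel

theorem l1 : ssChk 12 f 3 5 3 [3, 4, 5, 6, 7, 8, 9, 10, 11] (fun p => [[], [], [], [], [3], [3, 3], [4], [1, 3], [0, 1, 3], [4, 4], [2, 3], [2, 4]].getD p [])
    (fun i p => ([[[], [], [], [0], [0], [0], [0], [], [0], [0], [], [1, 2]], [[], [], [], [1], [], [1, 2], [1, 2], [0, 0], [0], [0], [1, 2], [1, 2]], [[], [], [], [2], [], [0, 0], [], [0], [], [0], [0, 0], [0, 0]], [[], [], [], [], [], [], [2, 0], [0], [0, 1], [0, 1], [], [2]], [[], [], [], [], [2, 0], [2], [], [1, 2], [0, 0], [], [2], [2]]].getD i []).getD p []) := by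
  unfold ssChk; decide +kernel

theorem l2 : ssChk 12 f 5 6 0 [0, 3, 4, 5, 6, 7, 8, 9, 10, 11] (fun p => [[], [], [], [5], [3, 5], [3, 3, 5], [4, 5], [1, 3, 5], [0, 1, 3, 5], [4, 4, 5], [2, 3, 5], [2, 4, 5]].getD p [])
    (fun i p => ([[[0], [], [], [1], [1], [1], [1], [], [1], [1], [], [2, 0]], [[1], [], [], [0], [], [2, 0], [2, 0], [0, 0], [1], [1], [2, 0], [2, 0]], [[2], [], [], [0, 1], [], [0, 0], [], [1], [], [1], [0, 0], [0, 0]], [[3], [], [], [], [], [], [1, 2], [1], [2], [2], [], [0, 1]], [[4], [], [], [], [1, 2], [0, 1], [], [2, 0], [0, 0], [], [0, 1], [0, 1]], [[], [], [], [], [0, 4, 0], [3, 0, 0], [3, 3, 1], [2, 4, 0], [0, 4, 0], [2, 4, 0, 1], [0, 4, 0], [4, 3]]].getD i []).getD p []) := by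
  unfold ssChk; decide +kernel

theorem l3 : ssChk 12 f 6 7 1 [0, 1, 3, 4, 5, 6, 7, 8, 9, 10, 11] (fun p => [[6], [], [], [5, 6], [3, 5, 6], [3, 3, 5, 6], [4, 5, 6], [1, 3, 5, 6], [0, 1, 3, 5, 6], [4, 4, 5, 6], [2, 3, 5, 6], [2, 4, 5, 6]].getD p [])
    (fun i p => ([[[1, 2], [0], [], [2], [2], [2], [2], [], [2], [2], [], [0, 1]], [[2], [1], [], [1, 2], [], [0, 1], [0, 1], [0, 0], [2], [2], [0, 1], [0, 1]], [[1], [2], [], [2, 0], [], [0, 0], [], [2], [], [2], [0, 0], [0, 0]], [[3], [3], [], [], [], [], [0], [2], [1], [1], [], [2, 0]], [[4, 4], [4], [], [], [0], [2, 0], [], [0, 1], [0, 0], [], [2, 0], [2, 0]], [[], [5], [], [], [0, 4, 0], [3, 0, 0], [3, 3, 2], [0, 1, 3], [0, 4, 0], [4, 3, 3], [0, 4, 0], [4, 4, 3]], [[], [], [], [5], [5], [5], [5], [5], [2, 5], [5], [5], [2, 5]]].getD i []).getD p []) := by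
  unfold ssChk; decide +kernel

theorem l4 : ssChk 12 f 7 8 2 [0, 1, 2, 3, 4, 5, 6, 7, 8, 9, 10, 11] (fun p => [[6, 7], [7], [], [5, 6, 7], [3, 5, 6, 7], [3, 3, 5, 6, 7], [4, 5, 6, 7], [1, 3, 5, 6, 7], [0, 1, 3, 5, 6, 7], [4, 4, 5, 6, 7], [2, 3, 5, 6, 7], [2, 4, 5, 6, 7]].getD p [])
    (fun i p => ([[[1], [2, 0], [0], [0, 1], [0, 1], [0, 1], [0, 1], [], [0, 1], [0, 1], [], [2]], [[0, 1], [1, 2], [1], [1], [], [2], [2], [0, 0], [0, 1], [0, 1], [2], [2]], [[1, 2], [0, 1], [2], [0], [], [0, 0], [], [0, 1], [], [0, 1], [0, 0], [0, 0]], [[3], [3], [3], [], [], [], [2, 0], [0, 1], [1, 2], [1, 2], [], [0]], [[4, 3], [2, 4, 0, 1], [4], [], [2, 0], [0], [], [2], [0, 0], [], [0], [0]], [[], [5], [5], [], [0, 4, 0], [3, 0, 0], [0, 4, 1], [2, 3], [0, 4, 0], [4, 4, 3], [0, 4, 0], [4, 3, 3]], [[], [], [6], [5], [5], [5], [5], [5], [5, 2], [5], [5], [5, 2]], [[6], [], [], [6], [6], [6], [6, 0],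 [6, 1], [6], [6, 0, 1], [6], [6, 0]]].getD i []).getD p []) := by
  unfold ssChk; decide +kernel

/-- An explicit construction of the Mathieu groups of degrees 11 and 12. On the points 0, …, 11 let s = (3 4 5)(6 7 8)(9 10 11), t = (3 6 9)(4 7 10)(5 8 11), u = (4 6 5 9)(7 8 11 10), v = (4 7 5 11)(6 10 9 8), w = (4 10 5 8)(6 11 9 7), x₁ = (0 3)(6 7)(8 10)(9 11), x₂ = (0 1)(6 9)(7 10)(8 11), x₃ = (1 2)(6 11)(7 9)(8 10) (each written as a product of transpositions). Then the group M₁₂ generated by all eight permutations is sharply 5-transitive on the 12 points and has order 95040, and the group M₁₁ generated by the first seven has order 7920 and is the stabilizer of the point 2 in M₁₂. -/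
theorem result
    (s t u v w x₁ x₂ x₃ : Equiv.Perm (Fin 12))
    (hs : s = Equiv.swap (3 : Fin 12) 5 * Equiv.swap (3 : Fin 12) 4 * Equiv.swap (6 : Fin 12) 8 * Equiv.swap (6 : Fin 12) 7 * Equiv.swap (9 : Fin 12) 11 * Equiv.swap (9 : Fin 12) 10) (ht : t = Equiv.swap (3 : Fin 12) 9 * Equiv.swap (3 : Fin 12) 6 * Equiv.swap (4 : Fin 12) 10 * Equiv.swap (4 : Fin 12) 7 * Equiv.swap (5 : Fin 12) 11 * Equiv.swap (5 : Fin 12) 8)
    (hu : u = Equiv.swap (4 : Fin 12) 9 * Equiv.swap (4 : Fin 12) 5 * Equiv.swap (4 : Fin 12) 6 * Equiv.swap (7 : Fin 12) 10 * Equiv.swap (7 : Fin 12) 11 * Equiv.swap (7 : Fin 12) 8) (hv : v = Equiv.swap (4 : Fin 12) 11 * Equiv.swap (4 : Fin 12) 5 * Equiv.swap (4 : Fin 12) 7 * Equiv.swap (6 : Fin 12) 8 * Equiv.swap (6 : Fin 12) 9 * Equiv.swap (6 : Fin 12) 10) (hw : w = Equiv.swap (4 : Fin 12) 8 * Equiv.swap (4 : Fin 12) 5 * Equiv.swap (4 : Fin 12) 10 * Equiv.swap (6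 : Fin 12) 7 * Equiv.swap (6 : Fin 12) 9 * Equiv.swap (6 : Fin 12) 11)
    (hx₁ : x₁ = Equiv.swap (0 : Fin 12) 3 * Equiv.swap (6 : Fin 12) 7 * Equiv.swap (8 : Fin 12) 10 * Equiv.swap (9 : Fin 12) 11) (hx₂ : x₂ = Equiv.swap (0 : Fin 12) 1 * Equiv.swap (6 : Fin 12) 9 * Equiv.swap (7 : Fin 12) 10 * Equiv.swap (8 : Fin 12) 11)
    (hx₃ : x₃ = Equiv.swap (1 : Fin 12) 2 * Equiv.swap (6 : Fin 12) 11 * Equiv.swap (7 : Fin 12) 9 * Equiv.swap (8 : Fin 12) 10)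
    (M₁₂ M₁₁ : Subgroup (Equiv.Perm (Fin 12))) (hM₁₂ : M₁₂ = Subgroup.closure {s, t, u, v, w, x₁, x₂, x₃})
    (hM₁₁ : M₁₁ = Subgroup.closure {s, t, u, v, w, x₁, x₂}) :
    MulAction.IsMultiplyPretransitive M₁₂ (Fin 12) 5 ∧ (∀ y : Fin 5 ↪ Fin 12, MulAction.stabilizer M₁₂ y = ⊥) ∧
    Nat.card M₁₂ = 95040 ∧ Nat.card M₁₁ = 7920 ∧
    M₁₁ = M₁₂ ⊓ MulAction.stabilizer (Equiv.Perm (Fin 12)) (2 : Fin 12) := by
  let g : Fin 8 → Equiv.Perm (Fin 12) := ![u, v, w, s, t, x₁, x₂, x₃]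
  have hf : ∀ i p, (g i p).val = f i p := by subst_vars; decide +kernel
  obtain ⟨s0, c0⟩ := ss_step g hf 4 l0
  obtain ⟨s1, c1⟩ := ss_step g hf 3 l1
  obtain ⟨s2, c2⟩ := ss_step g hf 0 l2
  obtain ⟨s3, c3⟩ := ss_step g hf 1 l3
  obtain ⟨s4, c4⟩ := ss_step g hf 2 l4
  obtain rfl : M₁₂ = ssL g 8 := by
    rw [hM₁₂, ssL]; congr 1; ext x; simp [g, Fin.exists_fin_succ, eq_comm]; tauto
  obtain rfl : M₁₁ = ssL g 7 := by
    rw [hM₁₁, ssL]; congr 1; ext x; simp [g, Fin.exists_fin_succ, eq_comm]; tauto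
  rw [ssL_zero] at s0 c0
  have k3 : Nat.card (ssL g 7) = 7920 := by rw [c3, c2, c1, c0]; simp
  have k4 : Nat.card (ssL g 8) = 95040 := by rw [c4, k3]; rfl
  let y : Fin 5 ↪ Fin 12 := ⟨![2, 1, 0, 3, 4], by decide⟩
  have sy : MulAction.stabilizer (ssL g 8) y = ⊥ := eq_bot_iff.2 fun a ha => by
    have h := fun i => DFunLike.congr_fun (MulAction.mem_stabilizer_iff.1 ha) i
    exact Subtype.ext (s0.le ⟨s1.le ⟨s2.le ⟨s3.le ⟨s4.le ⟨a.2, h 0⟩, h 1⟩, h 2⟩, h 3⟩, h 4⟩)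
  have tr : MulAction.orbit (ssL g 8) y = Set.univ := Set.eq_of_subset_of_ncard_le (Set.subset_univ _) (by
    have := MulAction.index_stabilizer (ssL g 8) y
    rw [sy, Subgroup.index_bot, k4] at this
    refine le_of_eq_of_le ?_ this.le
    rw [Set.ncard_univ]; simp)
  have := (MulAction.isPretransitive_iff_orbit_eq_univ y).2 tr
  refine ⟨this, fun z => ?_, k4, k3, s4.symm⟩
  obtain ⟨a, rfl⟩ := this.exists_smul_eq y z
  rw [MulAction.stabilizer_smul_eq_stabilizer_map_conj, sy, Subgroup.map_bot]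

end Cfsg.Agent.S3362
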