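import Cfsg.Statements.S5388
import Cfsg.Agent.H25.I1B
import Cfsg.Agent.H25.I1C
import Cfsg.Agent.H25.I1D
import Cfsg.Agent.H25.Op2

set_option autoImplicit false
set_option maxRecDepth 100000
open Cfsg

namespace Cfsg.Agent.S5388
open Cfsg.Agent.H25 Cfsg.Agent.H25.I1 Cfsg.Agent.H25.CenB Cfsg.Agent.H25.Leech Cfsg.Spor
open Cfsg.Agent.H25.I2 (k TK hK hB)
open Cfsg.Agent.H25.Op2 (Om o bas)
open scoped commutatorElement

noncomputable def ι : Co2 →* Co0 := Subgroup.inclusion inf_le_left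
noncomputable def ψ : Co2 →* Co1 := mk1.comp ι

theorem ψ_inj : Function.Injective ψ := (injective_iff_map_eq_one _).2 fun c h => by
  rcases mk1_eq.1 (h.trans (map_one mk1).symm) with e | e
  · exact Subgroup.inclusion_injective _ (e.trans (map_one ι).symm)
  · have : ι c • U = U := c.2.2
    rw [e, one_mul, neg1_smul] at this
    exact absurd this neg_ne_U

theorem ι_k {a : ℕ} (ha : a < 9) : ι (k a) = l0 M0 a := by
  have h := I2.inK _ (gd_mem 0 (show a < I2.MK.length from ha.trans (by decide)))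
  rw [k, lk, dif_pos ⟨ha.trans (by decide), h.2⟩, l0, if_pos (ha.trans (by decide)),
    show gd 0 M0 a = gd 0 I2.MK a by clear h; revert a; decide +kernel]
  rfl

theorem rel {u v : List ℕ} (h : (prepL M0 fun ts => eqW ts 14 u v) = true) : ev (l0 M0) u = ev (l0 M0) v :=
  eqW_sound hM (by rwa [prepL_eq] at h)

noncomputable abbrev t : Co0 := l0 M0 8
noncomputable def S : Finset ℕ := (Finset.Ico 0 (8192 * 24)).filter fun i => φ i = true

theorem cardS : S.card = 240 := by
  have h : ∀ n < 24, fc (8192 * n) 128 = if n = 0 then 240 else 0 := fun n hn => by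
    interval_cases n
    exacts [f0, f1, f2, f3, f4, f5, f6, f7, f8, f9, f10, f11, f12, f13, f14, f15, f16, f17, f18, f19, f20, f21,
      f22, f23]
  have : ∀ n < 24, ((Finset.Ico 0 (8192 * (n + 1))).filter fun i => φ i = true).card = 240 := fun n hn => by
    induction n with
    | zero => exact fc_eq (h 0 hn)
    | succ n ih =>
      rw [cnt_add φ (b := 8192 * (n + 1)) (by omega) (by omega), ih (by omega), mul_add 8192 (n + 1), mul_one,
        fc_eq (h _ hn)]
      rfl
  exact this 23 (by norm_num)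

theorem fx {x : L} (hx : x ∈ SL 32) (h : t • x = x) : ∃ i ∈ S, x = pt (mv i) := by
  obtain ⟨i, hi, rfl⟩ := (od'.2.2 _).1 hx
  obtain ⟨b1, b2⟩ := el_smul (hM _ (gd_mem 0 (show 8 < M0.length by decide))) (od'.2.1 i hi)
  rw [t, l0, if_pos (by decide), inv_smul_eq_iff, b2] at h
  refine ⟨i, Finset.mem_filter.2 ⟨Finset.mem_Ico.2 ⟨by omega, by omega⟩, ?_⟩, rfl⟩
  rw [φ, ← show gd 0 M0 8 = gd 0 I2.MK 8 by decide +kernel, ← (od'.2.1 i hi).inj b1 h]
  exact Nat.beq_refl _

theorem l11 : l0 M0 11 = neg1 := by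
  rw [l0, if_pos (by decide), show gd 0 M0 11 = mneg by decide +kernel, el_mneg]
  exact inv_eq_of_mul_eq_one_right neg1_sq

theorem lift {c : Co0} (h : mk1 c ∈ Subgroup.centralizer {mk1 t}) : c ∈ Subgroup.centralizer {t} := by
  rw [Subgroup.mem_centralizer_singleton_iff, ← map_mul, ← map_mul, eq_comm, mk1_eq] at h
  refine Subgroup.mem_centralizer_singleton_iff.2 (h.resolve_right fun e => ?_).symm
  have h1 : (forceT (prep (gd 0 M0 13)) fun s => allRange (fun i => band (vcb 32 (vn i))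
    (Nat.beq (s.act (vn i)) (vn i))) 0 241) = true := by decide +kernel
  rw [forceT_eq] at h1
  have h2 : l0 M0 13 = t * neg1 := by simpa [l11] using rel (u := [13]) (v := [8, 11]) (by decide +kernel)
  have h3 : ∀ j : Fin 241, ∃ i ∈ S, c • pt (vn j) = pt (mv i) := fun j => by
    have h4 := allRange_sound h1 j (Nat.zero_le _) j.2
    refine fx (SL_smul c (vcb_sound (band_l h4)).2) ?_
    rw [← mul_smul, e, mul_assoc, ← h2, mul_smul, l0, if_pos (by decide), smul_left_cancel_iff, inv_smul_eq_iff,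
      (el_smul (hM _ (gd_mem 0 (by decide))) (vn_spec.1 j j.2)).2, Nat.eq_of_beq_eq_true (band_r h4)]
  choose f h4 h5 using h3
  have := Finset.card_le_card_of_injOn (s := Finset.univ) f (fun j _ => h4 j) fun a _ b _ e =>
    Fin.ext (vn_spec.2 _ a.2 _ b.2 (MulAction.injective c ((h5 a).trans (e ▸ (h5 b).symm))))
  rw [cardS] at this
  simp at this

instance : Finite Co0 := Nat.finite_of_card_ne_zero (by rw [card_Co0]; norm_num)

theorem ub0 : Nat.card (Subgroup.centralizer {t}) ≤ 240 * (512 * 1451520) := by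
  have hU : pt (mv 1012) = U := (show mv 1012 = cU by decide +kernel) ▸ ptU.2
  have := lev_bound (C := Subgroup.centralizer {t}) (pt := fun i => pt (mv i)) (N := 0) (b := 1012) (B := [])
    (S := S) fun c hc => by
      refine fx (hU ▸ SL_smul c (n := 32) sqU) ?_
      rw [← mul_smul, ← Subgroup.mem_centralizer_singleton_iff.1 hc.1, mul_smul, hU, t, ← ι_k (by norm_num)]
      exact congrArg _ (k 8).2.2
  rw [fixB_nil, inf_top_eq, cardS] at this
  refine this.trans (Nat.mul_le_mul_left _ (le_trans ?_ I2.ub))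
  rw [← Subgroup.card_map_of_injective (f := ι) (Subgroup.inclusion_injective _)]
  refine Subgroup.card_le_of_le fun c hc => ⟨⟨c, c.2, show c • U = U from hU ▸ hc.2 1012 (by simp)⟩,
    Subgroup.mem_centralizer_singleton_iff.2 (Subgroup.inclusion_injective (inf_le_left : Co2 ≤ Co0) ?_), rfl⟩
  show ι (_ * _) = ι (_ * _)
  rw [map_mul, map_mul, ι_k (by norm_num)]
  exact Subgroup.mem_centralizer_singleton_iff.1 hc.1

abbrev C := Subgroup.centralizer ({mk1 t} : Set Co1)

theorem ub : Nat.card C ≤ 512 * Nat.card Om := by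
  have h := QuotientGroup.card_preimage_mk (Subgroup.center Co0) (C : Set Co1)
  have h2 : Nat.card (C.comap mk1) ≤ _ := (Subgroup.card_le_of_le fun c hc => lift hc).trans ub0
  rw [show Nat.card (C.comap mk1) = _ from h, card_center] at h2
  rw [Op2.card]
  exact Nat.le_of_mul_le_mul_left h2 (by norm_num)

noncomputable def y (a : ℕ) : Co1 := mk1 (l0 M0 a)
noncomputable def pq (i : ℕ) : OQ Co0 L := OQ.mk Co0 (pt (ve i))

theorem ngt : ∀ j < 240, neg1 • pt (ve j) = pt (ve (239 - j)) := fun j hj => by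
  have := (hE j hj 11 (by decide)).2
  rwa [l11, inv_eq_of_mul_eq_one_right neg1_sq, (by decide +kernel : ∀ j < 240, TE.tgt j 11 = 239 - j) j hj] at this

theorem hP : AM TP y pq := fun i hi a ha => by
  obtain ⟨h1, h2⟩ := (by decide +kernel : ∀ i < 120, ∀ a < 11, TP.tgt i a < 120 ∧
    (TE.tgt i a = TP.tgt i a ∨ TE.tgt i a = 239 - TP.tgt i a)) i hi a ha
  refine ⟨h1, (congrArg (OQ.mk Co0) (hE i (hi.trans (by decide)) a (ha.trans (by decide))).2).trans ?_⟩
  rcases h2 with e | e <;> rw [e]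
  · rfl
  · exact OQ.eq.2 ⟨_, neg1_central, ngt _ (by omega)⟩

theorem pq_inj : ∀ i < 120, ∀ j < 120, pq i = pq j → i = j := fun i hi j hj e => by
  obtain ⟨c, hc, e⟩ := OQ.eq.1 e
  rcases center_cases hc with rfl | rfl
  · exact ve_spec.2 _ (by omega) _ (by omega) (by simpa using e.symm)
  · have := ve_spec.2 _ (by omega) _ (by omega) ((ngt j (by omega)).symm.trans e)
    omega

theorem memC : ∀ a < TP.G, y a ∈ C := fun a ha => Subgroup.mem_centralizer_singleton_iff.2 (by
  have h : (prepL M0 fun ts => allLin (fun a => eqW ts 14 [a, 8] [8, a]) 0 11) = true := by decide +kernel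
  rw [prepL_eq] at h
  simpa [y] using congrArg mk1 (eqW_sound hM (allLin_sound h a (Nat.zero_le _) ha)))

theorem vmS : VM VS bas (o VS.rows) := Op2.vm ⟨rfl, rfl, rfl⟩ (by decide +kernel) (by decide +kernel)
theorem o1 : ∀ a < 9, o VS.rows a = 1 := fun a ha => by
  simpa using vmS.chk2 _ _ ((by decide +kernel : ∀ a < 9, VS.chk2 [a] [] = true) a ha)

theorem memO : ∀ a < TP.G, o VS.rows a ∈ Om := fun a ha => by
  by_cases h : a < 9
  · rw [o1 a h]; exact Om.one_mem
  obtain ⟨u, -, v, -, e⟩ := (by decide +kernel : ∀ a < 11, ¬ a < 9 → ∃ u < 15, ∃ v < 15,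
    VS.chk2 [a, v, u] [u, v] = true) a ha h
  have e := vmS.chk2 _ _ e
  simp only [ev_cons, ev_nil, mul_one] at e
  rw [show o VS.rows a = ⁅o VS.rows u, o VS.rows v⁆ by rw [commutatorElement_def, ← e]; group]
  exact Subgroup.commutator_mem_commutator (Subgroup.mem_top _) (Subgroup.mem_top _)

noncomputable abbrev sp : ℕ → Om := subL Om (o VS.rows)
theorem amS : AM TP sp fun i => vdec VS.n VS.w bas (cp i) := CenB.AM.sub
  (vmS.am (by decide +kernel) (rng_all (VT.amOK_rng (show VS.amOK TP cp 0 0 120 = true by decide +kernel)))) memO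

theorem tb : Lc (2 ^ 11 - 1) sp = ⊤ ∧ IsBase Om TP.N (fun i => vdec VS.n VS.w bas (cp i)) (chS.map OL.b).reverse :=
  base_of_chain (ls := chS) amS (fun i hi j hj e => (by decide +kernel : ∀ i < 120, ∀ j < 120,
    VS.red (cp i) = VS.red (cp j) → i = j) i hi j hj (red_eq vmS.ok vmS.bs e)) (by decide +kernel)
    (Op2.card.trans_le (by decide +kernel))

noncomputable abbrev yc : ℕ → C := subL C y

theorem coe {u : List ℕ} (h : ∀ a ∈ u, a < 9) : (ev yc u : C) = ψ (ev k u) :=
  (map_ev C.subtype _ u).trans (.trans (ev_congr fun a ha => (subL_coe (memC a ((h a ha).trans (by decide)))).trans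
    (congrArg mk1 (ι_k (h a ha)).symm)) (map_ev ψ k u).symm)

theorem sm {u : List ℕ} (h : ∀ a ∈ u, a < 9) : Sm TK u := fun a ha => (h a ha).trans (by decide)

theorem hi : Function.Injective fun i : Fin 512 => (⟨_, bw_mem yc i 9⟩ : Lc (2 ^ 9 - 1) yc) := fun i j e =>
  enum_inj hK vc2_spec.2 I2.en (Subtype.ext (ψ_inj (by
    rw [← coe (bw_lt i 9), ← coe (bw_lt j 9)]; exact congrArg (fun x => x.1.1) e)))

theorem hom : ∃ f : C →* Om, Function.Surjective f ∧ f.ker = Lc (2 ^ 9 - 1) yc ∧ Nat.card f.ker = 512 ∧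
    ∀ a < TP.G, f (yc a) = sp a :=
  hom_of_am (CenB.AM.sub hP memC) pq_inj amS tb.2 tb.1 (by decide)
    (fun a ha => Subtype.ext ((subL_coe (memO a (ha.trans (by decide)))).trans (o1 a ha)))
    (by simpa using Nat.card_le_card_of_injective _ hi) ub


/-- The first Conway group, the automorphism group of the Leech lattice modulo its centre, satisfies the large extraspecial hypothesis of plus type in dimension 8: it has an involution z whose centralizer C has generalized Fitting subgroup Q extraspecial of order 2^9, with C/Q isomorphic to the commutator subgroup of the isometry group of the hyperbolic quadratic form in dimension 8 over the field with two elements, and some conjugate of z other than z lies in Q. -/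
theorem result : ∃ z : Cfsg.Spor.Co1, orderOf z = 2 ∧ ∃ (Q : Subgroup (Subgroup.centralizer ({z} : Set Cfsg.Spor.Co1))) (_ : Q.Normal), Cfsg.generalizedFittingSubgroup (Subgroup.centralizer ({z} : Set Cfsg.Spor.Co1)) = Q ∧ Cfsg.IsExtraspecial 2 Q ∧ Nat.card Q = 2 ^ 9 ∧ Nonempty ((Subgroup.centralizer ({z} : Set Cfsg.Spor.Co1)) ⧸ Q ≃* Cfsg.Omega (ZMod 2) (Cfsg.quadFormPlus 4 (ZMod 2))) ∧ ∃ g : Cfsg.Spor.Co1, (∃ hq : g * z * g⁻¹ ∈ Subgroup.centralizer ({z} : Set Cfsg.Spor.Co1), (⟨g * z * g⁻¹, hq⟩ : Subgroup.centralizer ({z} : Set Cfsg.Spor.Co1)) ∈ Q) ∧ g * z * g⁻¹ ≠ z := by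
  obtain ⟨f, hf, e, hc, -⟩ := hom
  have hE : H29.ES f.ker (yc 8) := e ▸ es_of (by norm_num)
    (fun u v hu hv h => Subtype.ext (by rw [coe hu, coe hv, hK.eqv hB (sm hu) (sm hv) h]))
    (fun u v hu hv h e => hK.neqv vc2_spec.2 hB.1 (sm hu) (sm hv) h (ψ_inj (by rw [← coe hu, ← coe hv, e])))
    hi (e ▸ hc).le I2.es
  have c1 : ∀ a < 9, (yc a : Co1) = ψ (k a) := fun a ha => by simpa using coe (u := [a]) (by simpa using ha)
  have e8 : ψ (k 8) = mk1 t := congrArg mk1 (ι_k (by norm_num))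
  have m9 : ψ (k 9) ∈ C := Subgroup.mem_centralizer_singleton_iff.2 (by
    rw [← e8, ← map_mul, ← map_mul, Subgroup.mem_centralizer_singleton_iff.1 (mem_cen hK hB I2.cm 9 (by decide))])
  have n1 := hK.neqv vc2_spec.2 hB.1 (u := [9, 0]) (v := [0, 9]) (by unfold Sm; decide) (by unfold Sm; decide)
    (by decide +kernel)
  have n2 := hK.neqv vc2_spec.2 hB.1 (u := [9, 0]) (v := [0, 8, 9]) (by unfold Sm; decide) (by unfold Sm; decide)
    (by decide +kernel)
  have n3 := hK.neqv vc2_spec.2 hB.1 (u := qw) (v := [8]) (by unfold Sm; decide) (by unfold Sm; decide)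
    (by decide +kernel)
  have hq : ∀ a ∈ qw, a < 9 := by decide
  have cj : y 12 * mk1 t * (y 12)⁻¹ = (ev yc qw : C) := by
    have := congrArg mk1 (rel (u := [12, 8]) (v := 11 :: qw ++ [12]) (by decide +kernel))
    rw [List.cons_append, ev_cons _ 11, ev_append, l11, map_mul, map_mul,
      show mk1 neg1 = 1 from (QuotientGroup.eq_one_iff _).2 neg1_central, one_mul] at this
    rw [mul_inv_eq_iff_eq_mul, coe hq, ψ, MonoidHom.comp_apply, map_ev ι, ev_congr fun a ha => ι_k (hq a ha)]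
    simpa [y] using this
  refine ⟨mk1 t, ?_, f.ker, inferInstance, fstar_eq (s := ⟨_, m9⟩) (q := yc 0) hf hE (by rw [Op2.card]; norm_num)
    (e ▸ mem_Lc yc (by decide)) (fun h => n1 (ψ_inj ?_)) (fun h => n2 (ψ_inj ?_)), hE.isExtraspecial, hc,
    ⟨QuotientGroup.quotientKerEquivOfSurjective f hf⟩, y 12, ⟨cj ▸ (ev yc qw).2, ?_⟩, fun h => n3 (ψ_inj ?_)⟩
  · rw [← e8, ← c1 8 (by norm_num), Subgroup.orderOf_coe, hE.ord]
  · have : ψ (k 9) * (yc 0 : Co1) = (yc 0 : Co1) * ψ (k 9) := congrArg Subtype.val h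
    rw [c1 0 (by norm_num)] at this
    simpa using this
  · have : ψ (k 9) * (yc 0 : Co1) = (yc 0 : Co1) * ((yc 8 : Co1) * ψ (k 9)) := congrArg Subtype.val h
    rw [c1 0 (by norm_num), c1 8 (by norm_num)] at this
    simpa using this
  · rw [show (⟨_, _⟩ : C) = ev yc qw from Subtype.ext cj, e]
    exact ev_mem fun a ha => mem_Lc yc (by rw [Nat.testBit_two_pow_sub_one]; simpa using hq a ha)
  · rw [← coe hq, ← cj, h, ← e8]; simp

end Cfsg.Agent.S5388
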