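import Cfsg.Statements.S0102
import Mathlib
import Cfsg.Agent.H4.Transfer2

set_option autoImplicit false
open Cfsg

namespace Cfsg.Agent.S0102

/-- A finite perfect group with cyclic Sylow p-subgroups has no perfect central extension whose kernel has order divisible by p. -/
theorem result {G : Type*} {H : Type*} [Group G] [Group H] [Finite G] [Finite H] (hG : commutator G = ⊤) {p : ℕ} [Fact p.Prime] (hcyc : ∀ P : Sylow p G, IsCyclic P) (σ : H →* G) (hσ : Function.Surjective σ) (hz : σ.ker ≤ Subgroup.center H) (hH : commutator H = ⊤) : ¬ p ∣ Nat.card σ.ker := by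
  intro hd
  obtain ⟨w, hw⟩ := exists_prime_orderOf_dvd_card' p hd
  rw [← Subgroup.orderOf_coe] at hw
  obtain ⟨P, hP⟩ := (H4.isPGroup_zpowers_of_orderOf (k := 1) (hw.trans (pow_one p).symm)).exists_le_sylow
  have hcy : IsCyclic ((P : Subgroup H).map σ) := hcyc (P.mapSurjective hσ)
  have hcomm : IsMulCommutative (P : Subgroup H) := by
    refine ⟨⟨fun a b => commutative_of_cyclic_center_quotient (σ.subgroupMap (P : Subgroup H)) ?_ a b⟩⟩
    intro x hx
    have hx' : (x : H) ∈ σ.ker := congrArg Subtype.val hx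
    exact Subgroup.mem_center_iff.mpr fun y => Subtype.ext (Subgroup.mem_center_iff.mp (hz hx') y)
  have h1 := H4.inf_commutator_inf_center_eq_bot hcomm P.card_coprime_index
  have h2 : (w : H) ∈ (P : Subgroup H) ⊓ commutator H ⊓ Subgroup.center H :=
    ⟨⟨hP (Subgroup.mem_zpowers _), hH ▸ Subgroup.mem_top _⟩, hz w.2⟩
  rw [h1, Subgroup.mem_bot] at h2
  rw [h2, orderOf_one] at hw
  exact (Fact.out : p.Prime).one_lt.ne hw

end Cfsg.Agent.S0102
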