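import Cfsg.Statements.S0669
import Mathlib

set_option autoImplicit false
open Cfsg

namespace Cfsg.Agent.S0669

/-- The rank of a transitive action: orbits on ordered pairs correspond to orbits of a point stabiliser. -/
theorem result {G : Type*} [Group G] {Ω : Type*} [Finite Ω] [MulAction G Ω] [MulAction.IsPretransitive G Ω] (a : Ω) : Nat.card (MulAction.orbitRel.Quotient G (Ω × Ω)) = Nat.card (MulAction.orbitRel.Quotient (MulAction.stabilizer G a) Ω) := by
  classical
  refine Nat.card_congr (Equiv.symm (Equiv.ofBijective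
    (Quotient.map' (fun b : Ω => (a, b)) ?_) ⟨?_, ?_⟩))
  · intro x y h
    obtain ⟨g, hg⟩ := h
    exact ⟨g.1, Prod.ext g.2 hg⟩
  · intro x y
    induction x using Quotient.inductionOn'
    induction y using Quotient.inductionOn'
    intro h
    obtain ⟨g, hg⟩ := Quotient.exact' h
    apply Quotient.sound'
    exact ⟨⟨g, congrArg Prod.fst hg⟩, congrArg Prod.snd hg⟩
  · intro x
    induction x using Quotient.inductionOn' with
    | h x =>
      obtain ⟨g, hg⟩ := MulAction.exists_smul_eq G x.1 a
      refine ⟨Quotient.mk'' (g • x.2), Quotient.sound' ⟨g, Prod.ext hg rfl⟩⟩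

end Cfsg.Agent.S0669
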