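import Cfsg.Statements.S3380
import Mathlib
import Cfsg.Agent.H3.Two

set_option autoImplicit false
open Cfsg

namespace Cfsg.Agent.S3380

open Subgroup Cfsg.Agent.FT
open scoped commutatorElement

theorem ex_yz {G : Type*} [Group G] [Finite G] {p : ℕ} (hp : p.Prime) (hG : IsPGroup p G)
    (hnc : ¬ IsCyclic G) (hnq : ∀ n : ℕ, ¬ Nonempty (G ≃* QuaternionGroup n))
    (hnd : ∀ n : ℕ, ¬ Nonempty (G ≃* DihedralGroup n)) (hnsd : ¬ Cfsg.IsQuasiDihedral G) :
    ∃ y z : G, z ≠ 1 ∧ z ^ p = 1 ∧ y ^ p = 1 ∧ (∀ g, Commute g z) ∧ y ∉ ⟪z⟫ ∧ ∀ g : G, ⁅g, y⁆ ∈ ⟪z⟫ := by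
  have hP : PGrp p (⊤ : Subgroup G) := pGrp_of_isPGroup hp (hG.to_subgroup ⊤)
  obtain ⟨A, h1, h2, h3⟩ : ∃ A, A ⊴ (⊤ : Subgroup G) ∧ Ab A ∧ ¬ Cyc A := by
    by_contra! h
    rcases H3.cyc_or_mc hp hP h with h | ⟨-, a, b, m, h⟩
    · exact hnc (cyc_top.1 h)
    · rcases h.iso_cases_top with h | h | h
      exacts [hnd _ h, hnq _ h, hnsd h]
  have e := h2.abelem_Ohm p
  have nc : ¬ Cyc Ω[p](A) := fun h => h3 (h2.cyc_of_card_Ohm (hP.mono le_top) hp (e.card_dvd_of_cyc h))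
  have hN := hP.nil
  obtain ⟨⟨z, hz, hz0, hz'⟩, z1⟩ := ne_bot_iff_exists_ne_one.1
    (hN.meet_center (h1.Ohm p) fun h => nc (h ▸ cyc_bot))
  obtain ⟨y, hy, hy', h⟩ := hN.exists_comm_mem (R := ⟪z⟫) (h1.Ohm p) fun h => nc ((cyc_zpowers z).mono h)
  exact ⟨y, z, fun h => z1 (Subtype.ext h), e.pow hz, e.pow hy, fun g => hz' g (mem_top g), hy', fun g => by
    rw [← commutatorElement_inv]; exact inv_mem (h g (mem_top g)).1⟩

/-- Let a finite p-group G act faithfully and irreducibly on a non-trivial finite vector space V over the field with q elements (q prime), and suppose G is not cyclic, generalized quaternion, dihedral or semidihedral. Then G has a subgroup H of index p and V is the direct sum of p subspaces, each invariant under H, on none of which H acts faithfully, and which every element of G outside H permutes in a single p-cycle. -/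
theorem result
    (q : ℕ) [Fact q.Prime] {V : Type*} [AddCommGroup V] [Module (ZMod q) V] [Finite V] [Nontrivial V]
    {G : Type*} [Group G] [Finite G] (p : ℕ) [Fact p.Prime] (hG : IsPGroup p G)
    (ρ : G →* (V ≃ₗ[ZMod q] V)) (hρ : Function.Injective ρ)
    (hirr : ∀ W : Submodule (ZMod q) V, (∀ g : G, ∀ w ∈ W, ρ g w ∈ W) → W = ⊥ ∨ W = ⊤)
    (hnc : ¬ IsCyclic G) (hnq : ∀ n : ℕ, ¬ Nonempty (G ≃* QuaternionGroup n))
    (hnd : ∀ n : ℕ, ¬ Nonempty (G ≃* DihedralGroup n)) (hnsd : ¬ Cfsg.IsQuasiDihedral G) :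
    ∃ (H : Subgroup G) (W : Fin p → Submodule (ZMod q) V), H.index = p ∧
      iSup W = ⊤ ∧ iSupIndep W ∧
      (∀ h ∈ H, ∀ i, ∀ w ∈ W i, ρ h w ∈ W i) ∧
      (∀ i, ∃ h ∈ H, h ≠ 1 ∧ ∀ w ∈ W i, ρ h w = w) ∧
      ∀ g : G, g ∉ H → ∃ σ : Equiv.Perm (Fin p), orderOf σ = p ∧ ∀ i, (W i).map (ρ g : V →ₗ[ZMod q] V) = W (σ i) := by
  have hp : p.Prime := Fact.out
  obtain ⟨y, z, z1, zp, yp, cz, hy, hc⟩ := ex_yz hp hG hnc hnq hnd hnsd
  have oz : orderOf z = p := orderOf_eq_prime zp z1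
  let F : G → Submodule (ZMod q) V := fun g => LinearMap.ker ((ρ g : V →ₗ[ZMod q] V) - LinearMap.id)
  have mF : ∀ g v, v ∈ F g ↔ ρ g v = v := fun g v => by simp [F, sub_eq_zero]
  have ρm : ∀ g h v, ρ (g * h) v = ρ g (ρ h v) := fun g h v => by simp
  have cF : ∀ g u v, ρ g v ∈ F (g * u * g⁻¹) ↔ v ∈ F u := fun g u v => by
    rw [mF, mF, ← ρm, inv_mul_cancel_right, ρm, (ρ g).injective.eq_iff]
  have fr : ∀ u, u ≠ 1 → (∀ g, Commute g u) → ∀ v, ρ u v = v → v = 0 := fun u h1 h v hv => by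
    rcases hirr (F u) (fun g w hw => by
      have := (cF g u w).2 hw
      rwa [(h g).eq, mul_inv_cancel_right] at this) with e | e
    · exact (Submodule.mem_bot _).1 (e ▸ (mF u v).2 hv)
    · exact absurd (hρ (by rw [map_one]; exact LinearEquiv.ext fun w => (mF u w).1 (e ▸ trivial))) h1
  have cZ : ∀ u ∈ ⟪z⟫, ∀ g, Commute g u := by
    rintro _ ⟨n, rfl⟩ g
    exact (cz g).zpow_right n
  let N : G → V →ₗ[ZMod q] V := fun u => ∑ k ∈ Finset.range p, (ρ (u ^ k) : V →ₗ[ZMod q] V)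
  have hN : ∀ u v, N u v = ∑ k ∈ Finset.range p, ρ (u ^ k) v := fun u v => by simp [N]
  have NF : ∀ u, u ^ p = 1 → ∀ v, ρ u (N u v) = N u v := fun u hu v => by
    rw [hN, map_sum]
    have h1 := Finset.sum_range_succ (fun k => ρ (u ^ k) v) p
    rw [Finset.sum_range_succ', hu, pow_zero, add_left_inj] at h1
    rw [← h1]
    exact Finset.sum_congr rfl fun k _ => by rw [pow_succ', ρm]
  have N0 : ∀ u ∈ ⟪z⟫, u ≠ 1 → ∀ v, N u v = 0 := fun u hu h1 v => fr u h1 (cZ u hu) _ (NF u (by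
    obtain ⟨n, rfl⟩ := hu
    rw [← zpow_natCast, ← zpow_mul, mul_comm, zpow_mul, zpow_natCast, zp, one_zpow]) v)
  have ρp : ∀ u v, ρ u v = v → ∀ k : ℕ, ρ (u ^ k) v = v := fun u v h k => by
    induction k with
    | zero => simp
    | succ k ih => rw [pow_succ, ρm, h, ih]
  have p0 : (p : ZMod q) ≠ 0 := fun h => by
    letI := MulAction.compHom V ρ
    have e : q ∣ p := (ZMod.natCast_eq_zero_iff p q).1 h
    obtain rfl : q = p := (Nat.prime_dvd_prime_iff_eq Fact.out hp).1 e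
    obtain ⟨v, hv, h0⟩ := hG.exists_fixed_point_of_prime_dvd_card_of_fixed_point V (a := 0) (by
      rw [Module.natCard_eq_pow_finrank (K := ZMod q), Nat.card_zmod]
      exact dvd_pow_self _ Module.finrank_pos.ne') fun g => map_zero (ρ g)
    exact h0 (fr z z1 cz v (hv z)).symm
  have ap : ∀ i : ℕ, (y * z ^ i) ^ p = 1 := fun i => by
    rw [((cz y).pow_right i).mul_pow, yp, ← pow_mul, mul_comm i, pow_mul, zp, one_pow, mul_one]
  have a1 : ∀ i : ℕ, y * z ^ i ≠ 1 := fun i h =>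
    hy (eq_inv_of_mul_eq_one_left h ▸ inv_mem (pow_mem (mem_zpowers z) i))
  let W : Fin p → Submodule (ZMod q) V := fun i => F (y * z ^ i.val)
  have hsum : ∀ v, ∑ i : Fin p, N (y * z ^ i.val) v = (p : ZMod q) • v := fun v => by
    simp only [hN]
    rw [Finset.sum_comm, Finset.sum_eq_single 0]
    · simp [Nat.cast_smul_eq_nsmul]
    · intro k hk k0
      have := N0 (z ^ k) (pow_mem (mem_zpowers z) k) (fun h => k0 (Nat.eq_zero_of_dvd_of_lt
        (oz ▸ orderOf_dvd_of_pow_eq_one h) (Finset.mem_range.1 hk))) (ρ (y ^ k) v)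
      rw [← this, hN, Finset.sum_range]
      refine Finset.sum_congr rfl fun i _ => ?_
      rw [((cz y).pow_right i).mul_pow, ← ρm, ← pow_mul, ← pow_mul, mul_comm k, (cz (y ^ k)).pow_right]
    · simp [hp.ne_zero]
  have htop : iSup W = ⊤ := by
    rw [eq_top_iff]
    intro v _
    rw [← Submodule.smul_mem_iff _ p0, ← hsum]
    exact Submodule.sum_mem _ fun i _ => Submodule.mem_iSup_of_mem i ((mF _ _).2 (NF _ (ap i) v))
  let θ : G →* G :=
    { toFun := fun g => ⁅g, y⁆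
      map_one' := by simp
      map_mul' := fun g h => by
        calc _ = g * (⁅h, y⁆ * (y * g⁻¹ * y⁻¹)) := by simp only [commutatorElement_def]; group
          _ = _ := by rw [← (cZ _ (hc h) _).eq, commutatorElement_def g]; group }
  have hθ : ∀ g (i : ℕ), g * (y * z ^ i) * g⁻¹ = y * z ^ i * θ g := fun g i => by
    rw [(cZ (θ g) (hc g) _).eq, mul_assoc g, mul_assoc y, ← ((cz g⁻¹).pow_right i).eq]
    change _ = ⁅g, y⁆ * _
    rw [commutatorElement_def]; group
  refine ⟨θ.ker, W, ?_, htop, fun i => ?_, fun h hh i w hw => ?_, fun i => ?_, fun g hg => ?_⟩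
  · have h1 : Nat.card θ.range ∣ p := by
      rw [← oz, ← Nat.card_zpowers]
      exact card_dvd_of_le (by rintro _ ⟨g, rfl⟩; exact hc g)
    rw [index_ker]
    refine ((Nat.dvd_prime hp).1 h1).resolve_left fun h => ?_
    rw [card_eq_one] at h
    have : iSup W = ⊥ := by
      rw [iSup_eq_bot]
      refine fun i => eq_bot_iff.2 fun v hv => fr _ (a1 i) (fun g => ?_) v ((mF _ _).1 hv)
      have := hθ g i
      rw [mem_bot.1 (h ▸ ⟨g, rfl⟩ : θ g ∈ (⊥ : Subgroup G)), mul_one, mul_inv_eq_iff_eq_mul] at this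
      exact this
    exact top_ne_bot (htop.symm.trans this)
  · rw [Submodule.disjoint_def]
    intro w h1 h2
    have : (⨆ j, ⨆ _ : j ≠ i, W j) ≤ LinearMap.ker (N (y * z ^ i.val)) := by
      refine iSup₂_le fun j hj v hv => ?_
      have hu : z ^ i.val * (z ^ j.val)⁻¹ ∈ ⟪z⟫ :=
        mul_mem (pow_mem (mem_zpowers z) _) (inv_mem (pow_mem (mem_zpowers z) _))
      rw [LinearMap.mem_ker, ← N0 _ hu (fun h => hj (Fin.ext (pow_injOn_Iio_orderOf (by simp [oz])
        (by simp [oz]) (mul_inv_eq_one.1 h).symm))) v, hN, hN]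
      refine Finset.sum_congr rfl fun k _ => ?_
      rw [show y * z ^ i.val = z ^ i.val * (z ^ j.val)⁻¹ * (y * z ^ j.val) by
        rw [← (cZ _ hu _).eq, ((cz _).pow_right _).symm.eq]; group,
        (cZ _ hu _).symm.mul_pow, ρm, ρp _ v ((mF _ _).1 hv)]
    have h3 := this h2
    rw [LinearMap.mem_ker, hN, Finset.sum_congr rfl fun k _ => ρp _ w ((mF _ _).1 h1) k] at h3
    simpa [← Nat.cast_smul_eq_nsmul (ZMod q), p0] using h3
  · have := (cF h _ w).2 hw
    rwa [hθ, show θ h = 1 from hh, mul_one] at this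
  · refine ⟨y * z ^ i.val, ?_, a1 i, fun w hw => (mF _ _).1 hw⟩
    exact commutatorElement_eq_one_iff_commute.2 ((Commute.refl y).mul_left ((cz y).pow_right _).symm)
  · obtain ⟨c, hc1, hc2⟩ : ∃ c < p, z ^ c = θ g := by
      classical
      have := mem_zpowers_iff_mem_range_orderOf.1 (hc g)
      simpa [oz, θ] using this
    have : NeZero p := ⟨hp.ne_zero⟩
    refine ⟨Equiv.addRight ⟨c, hc1⟩, orderOf_eq_prime ?_ fun h => ?_, fun i => ?_⟩
    · have := card_nsmul_eq_zero (x := (⟨c, hc1⟩ : Fin p))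
      rw [Fintype.card_fin] at this
      ext1 i
      simp [Equiv.Perm.coe_pow, this]
    · have : c = 0 := by simpa using congrArg (fun σ : Equiv.Perm (Fin p) => (σ 0).val) h
      exact hg (by rw [MonoidHom.mem_ker, ← hc2, this, pow_zero])
    · have e : W (Equiv.addRight ⟨c, hc1⟩ i) = F (g * (y * z ^ i.val) * g⁻¹) := by
        rw [hθ, ← hc2, mul_assoc, ← pow_add, ← pow_mod_orderOf, oz]
        simp [W, Fin.val_add]
      rw [e]
      ext v
      obtain ⟨v, rfl⟩ := (ρ g).surjective v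
      rw [cF]
      simp [W]

end Cfsg.Agent.S3380
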