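import Cfsg.Statements.S1582
import Mathlib
import Cfsg.Agent.H18.CU43

set_option autoImplicit false
open Cfsg

namespace Cfsg.Agent.S1582

open H25 H25.Leech

/-- The point stabiliser in the rank-3 action of the McLaughlin group on 275 points is isomorphic to PSU(4, 3). -/
theorem result (u v x : ↥Cfsg.leechLattice) (hu : Cfsg.sqNorm (u : Cfsg.GolayPt → ℤ) = 48) (hv : Cfsg.sqNorm (v : Cfsg.GolayPt → ℤ) = 32 ∧ Cfsg.sqNorm ((u - v) : Cfsg.GolayPt → ℤ) = 32) (hx : x ∈ {x : ↥Cfsg.leechLattice | Cfsg.sqNorm (x : Cfsg.GolayPt → ℤ) = 32 ∧ Cfsg.sqNorm ((u - x) : Cfsg.GolayPt → ℤ) = 32 ∧ Cfsg.dotInt (v : Cfsg.GolayPt → ℤ) (x : Cfsg.GolayPt → ℤ) = 16}) (F : Type) [Field F] [Fintype F] (hF : Fintype.card F = 9) : Nonempty (↥(MulAction.stabilizer ↥Cfsg.Co0 u ⊓ MulAction.stabilizer ↥Cfsg.Co0 v ⊓ MulAction.stabilizer ↥Cfsg.Co0 x) ≃* Cfsg.PSU 4 F 3) := by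
  obtain ⟨g, rfl, rfl⟩ := pairMc hu hv
  obtain ⟨x, rfl⟩ := MulAction.surjective g x
  have hx' : x ∈ Cl fun a _ c => a = 16 ∧ c = -24 := by
    obtain ⟨h1, h2, h3⟩ := hx
    rw [sq_sub_iff hu h1] at h2
    simp only [dt, g_dot, g_sq] at h1 h2 h3
    rw [show dotInt (-W).1 x.1 = _ from dt_neg W x] at h2
    exact ⟨h1, h3, by omega⟩
  have h0 : R 11 ∈ Cl fun a _ c => a = 16 ∧ c = -24 := by
    obtain ⟨a, -, c⟩ := root_dot (j := 11) (by decide)
    exact ⟨sqR (by norm_num), a.trans (by decide +kernel), c.trans (by decide +kernel)⟩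
  obtain ⟨k, hk, rfl⟩ := trn K1_Mc fMc _ 11 (by decide +kernel) _ h0 x hx'
  have ho : MulAction.orbit Mc (R 11) = Cl fun a _ c => a = 16 ∧ c = -24 :=
    orbit_Cl K1_Mc fMc _ 11 (by decide +kernel) h0 fun k h =>
      ⟨(g_sq k _).trans h0.1, (dt_fix h.1 _).trans h0.2.1, (dt_fix h.2 _).trans h0.2.2⟩
  have hc := H14.card_eq_orbit_mul_inf Mc (R 11)
  rw [ho, cnt _ (n := 275) (by decide +kernel), card_Mc] at hc
  obtain ⟨f⟩ := H18.CU43.iso hF (fix3 H18.CU43.hfix ptU ptW ⟨rvc 11 (by decide), rfl⟩)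
    (Nat.le_of_mul_le_mul_left (hc.ge.trans_eq (show _ = 275 * 3265920 by norm_num)) (by norm_num))
  have e : St (-W) ⊓ St U ⊓ St (R 11) = Mc ⊓ St (R 11) := Subgroup.ext fun k => by
    simp only [Subgroup.mem_inf, MulAction.mem_stabilizer_iff, g_neg, neg_inj, and_comm]
  have e2 := stEq3 (g * k) (-W) U (R 11)
  rw [mul_smul, mul_smul, mul_smul, g_neg k, show k • W = W from hk.2, show k • U = U from hk.1] at e2
  exact ⟨(e2.symm.trans (MulEquiv.subgroupCongr e)).trans f⟩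

end Cfsg.Agent.S1582
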