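import Cfsg.Statements.S0414
import Cfsg.Agent.S0410
import Cfsg.Agent.L1.DesC

set_option autoImplicit false
open Cfsg

namespace Cfsg.Agent.S0414

open Cfsg.Agent.H14 MulAction
open scoped Pointwise

/-- Aut of an S(3, 6, 22) has order 887040, is 3-transitive, and contains a simple subgroup of index 2. -/
theorem result {α : Type*} [Fintype α] [DecidableEq α] (hα : Fintype.card α = 22) {B : Set (Finset α)} (hB : Cfsg.IsSteinerSystem 3 6 B) : Nat.card (Cfsg.setSystemAut B) = 887040 ∧ MulAction.IsMultiplyPretransitive (Cfsg.setSystemAut B) α 3 ∧ ∃ H : Subgroup (Cfsg.setSystemAut B), H.index = 2 ∧ Cfsg.IsM22 H := by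
  have hR := relst_octads.derive (t := 3) (k := 6) (c := 2) (P := {none, some 0})
    (Finset.subset_univ _) rfl
  obtain ⟨ι, H⟩ := exists_demb hR.sub (S0410.result hα (by
    rw [Fintype.card_coe, Finset.card_univ_sdiff, card_golayPt]; rfl) hB hR.steiner)
  have hne : ∀ a, ι a ≠ none ∧ ι a ≠ some 0 := fun a => by simpa using (H.ran _).mpr ⟨a, rfl⟩
  have hK : ∀ g : M24, g ∈ SP2.K ↔ g • ({none, some 0} : Finset GolayPt) = {none, some 0} :=
    fun g => by rw [SP2_K, set_pair]; rfl
  have h1 : ∀ g ∈ SP2.K, ∃ σ ∈ setSystemAut B, ∀ a, ι (σ a) = g • ι a := fun g hg => by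
    have hg' := (hK g).mp hg
    refine H.restrict (fun x hx => ?_) fun s hs => smul_octP hg' hs
    rw [Finset.mem_sdiff] at hx ⊢
    exact ⟨Finset.mem_univ _, by rw [← hg', Finset.smul_mem_smul_finset_iff]; exact hx.2⟩
  obtain ⟨φ⟩ := aut_equiv SP2.K H.inj _ h1 (fun σ hσ => by
      obtain ⟨g, e, h0, h2, h2'⟩ := H.extend hσ
      have h3 : g none = none := h0 _ (by simp)
      have h4 : g (some 0) = some 0 := h0 _ (by simp)
      rcases mem_M24_of_octP2 h3 h4 h2 h2' with h | h
      · refine ⟨⟨g, h⟩, (hK _).mpr ?_, e⟩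
        rw [m24_smul_set, Finset.smul_finset_insert, Finset.smul_finset_singleton]
        simp [h3, h4]
      · refine ⟨⟨_, h⟩, (hK _).mpr ?_, fun a => ?_⟩
        · rw [m24_smul_set, Finset.smul_finset_insert, Finset.smul_finset_singleton]
          simp [h3, h4, Finset.pair_comm]
        · show _ = Equiv.swap _ _ (g • ι a)
          rw [← e, Equiv.swap_apply_of_ne_of_ne (hne _).1 (hne _).2])
    fun g hg h => eq_one_of_fix9 (P := Finset.univ \ {none, some 0}) (fun p hp => by
      obtain ⟨a, rfl⟩ := (H.ran p).mp hp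
      exact h a) (by decide +kernel)
  have hc : Nat.card (setSystemAut B) = 887040 :=
    (Nat.card_congr φ.symm.toEquiv).trans SP2.card_eq
  have hle : S22s.K ≤ SP2.K := fun g hg => (hK g).mpr (by
    have a : g • (none : GolayPt) = none := hg.1
    have b : g • (some 0 : GolayPt) = some 0 := hg.2
    rw [Finset.smul_finset_insert, Finset.smul_finset_singleton, a, b])
  have ψ : S22s.K ≃* (S22s.K.subgroupOf SP2.K).map φ.toMonoidHom :=
    (Subgroup.subgroupOfEquivOfLe hle).symm.trans (Subgroup.equivMapOfInjective _ _ φ.injective)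
  have hc2 : Nat.card ((S22s.K.subgroupOf SP2.K).map φ.toMonoidHom) = 443520 :=
    (Nat.card_congr ψ.symm.toEquiv).trans S22s.card_eq
  refine ⟨hc, aut_mtrans SP2.K H.inj _ h1 fun x y hx hy => ?_,
    (S22s.K.subgroupOf SP2.K).map φ.toMonoidHom, ?_, ?_, hc2⟩
  · have hi : ∀ z : Fin 3 → α, Function.Injective z →
        Function.Injective (Fin.cons none (Fin.cons (some 0) (ι ∘ z)) : Fin 5 → GolayPt) :=
      fun z hz => Fin.cons_injective_iff.mpr ⟨fun ⟨i, hi⟩ => by
        revert hi
        refine Fin.cases (by simp) (fun j hj => (hne _).1 hj) i,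
        Fin.cons_injective_iff.mpr ⟨fun ⟨i, hi⟩ => (hne _).2 hi, H.inj.comp hz⟩⟩
    obtain ⟨g, hg⟩ := m24_emb le_rfl _ _ (hi x hx) (hi y hy)
    exact ⟨g, hle ⟨hg 0, hg 1⟩, fun i => hg i.succ.succ⟩
  · have := Subgroup.card_mul_index ((S22s.K.subgroupOf SP2.K).map φ.toMonoidHom)
    rw [hc, hc2] at this
    omega
  · have := simple_S22
    exact ψ.symm.isSimpleGroup

end Cfsg.Agent.S0414
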