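import Cfsg.Statements.S0031
import Mathlib
import Cfsg.Agent.H5.Frob

set_option autoImplicit false
open Cfsg

namespace Cfsg.Agent.S0031

open Subgroup Cfsg.Agent.FT Cfsg.Agent.H5b
open scoped commutatorElement

/-- A fixed-point-free automorphism of a finite group maps some Sylow p-subgroup to itself. -/
theorem result {G : Type*} [Group G] [Finite G] (φ : G ≃* G)
    (hφ : MonoidHom.FixedPointFree (φ : G →* G)) (p : ℕ) [Fact p.Prime] :
    ∃ P : Sylow p G, (P : Subgroup G).map (φ : G →* G) = P := by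
  obtain ⟨P⟩ : Nonempty (Sylow p G) := inferInstance
  let Q : Sylow p G := P.mapSurjective (f := (φ : G →* G)) φ.surjective
  obtain ⟨g, hg⟩ := MulAction.exists_smul_eq G P Q
  obtain ⟨y, hy⟩ := hφ.commutatorMap_surjective g⁻¹
  refine ⟨y⁻¹ • P, ?_⟩
  have h1 : (P : Subgroup G).map (φ : G →* G) = H22.cj g P := (congrArg Sylow.toSubgroup hg).symm
  have h2 : ((y⁻¹ • P : Sylow p G) : Subgroup G) = H22.cj y⁻¹ P := rfl
  rw [h2, H22.map_cj, h1, ← H22.cj_mul]
  congr 1
  rw [← inv_inv g, ← hy]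
  simp [div_eq_mul_inv]

end Cfsg.Agent.S0031
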