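import Cfsg.Statements.S0032
import Mathlib
import Cfsg.Agent.H5.Frob

set_option autoImplicit false
open Cfsg

namespace Cfsg.Agent.S0032

open Subgroup Cfsg.Agent.FT Cfsg.Agent.H5b
open scoped commutatorElement

/-- If an automorphism of a finite group fixes only the identity and maps a normal subgroup N into itself, then the only cosets of N it fixes are those in N: a fixed coset xN forces x ∈ N. -/
theorem result {G : Type*} [Group G] [Finite G] (φ : G ≃* G)
    (hφ : MonoidHom.FixedPointFree (φ : G →* G)) (N : Subgroup G) [N.Normal] (hN : ∀ n ∈ N, φ n ∈ N)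
    (x : G) (hx : (φ x)⁻¹ * x ∈ N) : x ∈ N := by
  let f : N → N := fun n => ⟨(φ n)⁻¹ * n, mul_mem (inv_mem (hN n n.2)) n.2⟩
  have key : ∀ a b : G, (φ a)⁻¹ * a = (φ b)⁻¹ * b → a = b := fun a b h => by
    refine mul_inv_eq_one.1 (hφ _ ?_)
    simp only [MonoidHom.coe_coe, map_mul, map_inv]
    calc φ a * (φ b)⁻¹ = φ a * ((φ b)⁻¹ * b) * b⁻¹ := by group
      _ = _ := by rw [← h]; group
  have hf : Function.Injective f := fun a b h => Subtype.ext (key _ _ (congrArg Subtype.val h))
  obtain ⟨n, hn⟩ := Finite.injective_iff_surjective.1 hf ⟨_, hx⟩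
  exact key _ _ (congrArg Subtype.val hn) ▸ n.2

end Cfsg.Agent.S0032
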