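import Cfsg.Statements.S0033
import Mathlib
import Cfsg.Agent.H5.Frob

set_option autoImplicit false
open Cfsg

namespace Cfsg.Agent.S0033

open Subgroup Cfsg.Agent.FT Cfsg.Agent.H5b
open scoped commutatorElement

/-- Thompson's Theorem on fixed-point-free automorphisms: a finite group with an automorphism of prime order fixing only the identity is nilpotent. -/
theorem result {G : Type*} [Group G] [Finite G] (φ : G ≃* G)
    (hφ : MonoidHom.FixedPointFree (φ : G →* G)) (p : ℕ) (hp : p.Prime) (hord : orderOf φ = p) :
    Group.IsNilpotent G := by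
  let ψ : zpowers (φ : MulAut G) →* MulAut G := (zpowers (φ : MulAut G)).subtype
  haveI : Finite (G ⋊[ψ] zpowers (φ : MulAut G)) :=
    Finite.of_equiv _ (SemidirectProduct.equivProd).symm
  let e : G ≃* (SemidirectProduct.inl : G →* G ⋊[ψ] _).range :=
    MonoidHom.ofInjective SemidirectProduct.inl_injective
  let e' : zpowers (φ : MulAut G) ≃* (SemidirectProduct.inr : _ →* G ⋊[ψ] _).range :=
    MonoidHom.ofInjective SemidirectProduct.inr_injective
  have h1 : (#(SemidirectProduct.inr : _ →* G ⋊[ψ] _).range).Prime := by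
    rw [← Nat.card_congr e'.toEquiv, Nat.card_zpowers]
    exact hord ▸ hp
  have : Nil (SemidirectProduct.inl : G →* G ⋊[ψ] _).range := by
    refine nil_of_semiReg ?_ (ne_bot_of_prime_card h1) (semiReg_of_prime h1 ?_)
    · rw [SemidirectProduct.range_inl_eq_ker_rightHom, normalizer_eq_top]
      exact le_top
    · rw [eq_bot_iff]
      rintro _ ⟨⟨t, rfl⟩, ht⟩
      have : ψ ⟨φ, mem_zpowers _⟩ t = t := by
        apply SemidirectProduct.inl_injective (φ := ψ)
        rw [SemidirectProduct.inl_aut, ht _ ⟨_, rfl⟩, map_inv, mul_inv_cancel_right]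
      rw [hφ t this, map_one]
      exact one_mem _
  exact nilpotent_of_mulEquiv e.symm

end Cfsg.Agent.S0033
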