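import Cfsg.Statements.S0034
import Mathlib
import Cfsg.Agent.H6.Frobenius

set_option autoImplicit false
open Cfsg

namespace Cfsg.Agent.S0034

open Cfsg.Agent.H6

/-- For a Frobenius complement H, the set of elements lying in no conjugate of H, together with 1, has exactly as many elements as the index of H, and that index is congruent to 1 modulo the order of H. -/
theorem result {G : Type*} [Group G] [Finite G] (H : Subgroup G) (hH : Cfsg.IsFrobeniusComplement H) :
    Nat.card (Cfsg.frobeniusKernel H) = H.index ∧ H.index % Nat.card H = 1 % Nat.card H := by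
  obtain ⟨N, h1, hN, h2⟩ := exists_frobeniusKernel H hH
  have h3 : Nat.card N = H.index := h2.index_eq_card.symm
  refine ⟨by rw [← h1, ← h3]; rfl, ?_⟩
  have h4 := card_dvd_card_sub_one H N (fun h _ k hk => hN.conj_mem k hk h)
    (fpf_of_isFrobeniusComplement hH h2.disjoint)
  rw [← h3]
  exact ((Nat.modEq_iff_dvd' Nat.card_pos).2 h4).symm

end Cfsg.Agent.S0034
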