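import Cfsg.Statements.S0040
import Mathlib
import Cfsg.Agent.H5.Frob
import Cfsg.Agent.H8.Rank1

set_option autoImplicit false
open Cfsg

namespace Cfsg.Agent.S0040

open Subgroup Cfsg.Agent.FT Cfsg.Agent.H5b
open scoped commutatorElement

/-- Sylow subgroups of Frobenius complements: if H complements a nontrivial normal subgroup K and every nonidentity element of H has trivial centraliser in K, then each Sylow subgroup of H is cyclic or isomorphic to a generalized quaternion group. -/
theorem result {G : Type*} [Group G] [Finite G] (K H : Subgroup G) [K.Normal]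
    (hc : Subgroup.IsComplement' K H) (hK : K ≠ ⊥) (hfpf : ∀ h ∈ H, h ≠ 1 → K ⊓ Subgroup.centralizer {h} = ⊥)
    (p : ℕ) [Fact p.Prime] (P : Sylow p H) :
    IsCyclic P ∨ ∃ n : ℕ, Nonempty (P ≃* QuaternionGroup (2 ^ n)) := by
  have hn : H ≤ N(K) := H22.le_N_of_normal _ _
  by_cases h2 : p = 2
  · subst h2
    refine (H8.cyclic_or_quaternion P.isPGroup' fun s t hs ht => ?_).imp_right fun ⟨n, e⟩ => ⟨_, e⟩
    exact Subtype.ext (Subtype.ext (invol_unique hn hK hfpf s.1.2 t.1.2 (by simpa using hs)
      (by simpa using ht)))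
  have hP : IsPGroup p ((P : Subgroup H).map H.subtype) := P.isPGroup'.map _
  have hp : p.Prime := Fact.out
  refine Or.inl ((H3.isCyclic_map_iff H.subtype_injective).1 (odd_regular_pgroup_cyclic
    ((pGrp_iff hp).2 hP) ?_ hK ((map_subtype_le _).trans hn)
    (SemiReg.mono_right hfpf (map_subtype_le _))))
  obtain ⟨n, e⟩ := H22.pgrp_card hP
  rw [e]
  exact (hp.odd_of_ne_two h2).pow

end Cfsg.Agent.S0040
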