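import Cfsg.Statements.S0048
import Mathlib
import Cfsg.Agent.H7.MGroup
import Cfsg.Agent.H1.Chain

set_option autoImplicit false
open Cfsg

namespace Cfsg.Agent.S0048

/-- In a finite solvable group every maximal subgroup has index a prime power. -/
theorem result {G : Type*} [Group G] [Finite G] [Group.IsSolvable G]
    (M : Subgroup G) (hM : IsCoatom M) : IsPrimePow M.index := by
  have hn : M.normalCore < ⊤ := lt_of_le_of_lt M.normalCore_le hM.1.lt_top
  obtain ⟨K, -, hK⟩ := H7.exists_chief_above hn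
  obtain ⟨p, k, hp, -, h1, -⟩ := hK.exists_prime_pow
  have := hK.normal_right
  have h2 : M ⊔ K = ⊤ := hM.2 _ (lt_of_le_of_ne le_sup_left fun e => hK.lt.not_ge
    (Subgroup.normal_le_normalCore.mpr (e ▸ le_sup_right)))
  have h3 : M.index = M.relIndex K := by
    rw [← Subgroup.relIndex_top_right, ← h2]
    exact H1.relIndex_sup_of_le_normalizer Subgroup.le_normalizer_of_normal
  have h4 : M.index ∣ p ^ k := by
    rw [h3, ← h1]; exact Subgroup.relIndex_dvd_of_le_left _ M.normalCore_le
  obtain ⟨j, -, hj⟩ := (Nat.dvd_prime_pow hp).mp h4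
  refine ⟨p, j, hp.prime, Nat.pos_of_ne_zero ?_, hj.symm⟩
  rintro rfl
  exact hM.1 (Subgroup.index_eq_one.mp hj)

end Cfsg.Agent.S0048
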