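import Cfsg.Statements.S0049
import Mathlib
import Cfsg.Agent.H7.Solv

set_option autoImplicit false
open Cfsg

namespace Cfsg.Agent.S0049

/-- A prime divisor of the order of a finite group also divides the index of the Frattini subgroup. -/
theorem result {G : Type*} [Group G] [Finite G] (p : ℕ) (hp : p.Prime) (hdvd : p ∣ Nat.card G) :
    p ∣ (frattini G).index := by
  by_contra h
  have := Fact.mk hp
  obtain ⟨P⟩ : Nonempty (Sylow p G) := inferInstance
  have hP : (P : Subgroup G) ≤ frattini G := by
    obtain ⟨g, hg⟩ := H7.exists_conj_le_of_not_dvd_index hp P.isPGroup' h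
    intro m hm
    simpa [mul_assoc] using (inferInstance : (frattini G).Normal).conj_mem _ (hg m hm) g
  have hn : (P : Subgroup G).Normal := by
    rw [← Subgroup.normalizer_eq_top_iff]
    apply frattini_nongenerating
    exact Sylow.normalizer_sup_eq_top' P hP
  obtain ⟨K, hK⟩ := Subgroup.exists_right_complement'_of_coprime (N := (P : Subgroup G))
    P.card_coprime_index
  have h1 : K = ⊤ := by
    apply frattini_nongenerating
    rw [eq_top_iff, ← hK.sup_eq_top, sup_comm]
    exact sup_le_sup_left hP _
  have h2 := hK.index_eq_card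
  rw [h1, Subgroup.index_top, P.card_eq_multiplicity, eq_comm, Nat.pow_eq_one] at h2
  exact h2.elim hp.one_lt.ne' (Nat.Prime.factorization_pos_of_dvd hp Nat.card_pos.ne' hdvd).ne'

end Cfsg.Agent.S0049
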