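import Cfsg.Statements.S0053
import Mathlib
import Cfsg.Agent.H1.Coprime2

set_option autoImplicit false
open Cfsg

namespace Cfsg.Agent.S0053

/-- An abelian minimal normal subgroup N of a finite group is complemented exactly when N is not inside the Frattini subgroup. -/
theorem result {G : Type*} [Group G] [Finite G]
    (N : Subgroup G) [N.Normal] [IsMulCommutative N] (hN : N ≠ ⊥)
    (hmin : ∀ M : Subgroup G, M.Normal → M ≤ N → M = ⊥ ∨ M = N) :
    (∃ H : Subgroup G, Subgroup.IsComplement' N H) ↔ ¬ N ≤ frattini G := by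
  constructor
  · rintro ⟨H, hH⟩ hle
    have h1 : H ⊔ frattini G = ⊤ := by
      rw [eq_top_iff, ← hH.sup_eq_top, sup_comm]
      exact sup_le_sup_left hle H
    rw [frattini_nongenerating h1, Subgroup.isComplement'_top_right] at hH
    exact hN hH
  · intro h
    have : ∃ M : Subgroup G, IsCoatom M ∧ ¬ N ≤ M := by
      by_contra! h'
      exact h (le_iInf₂ h')
    obtain ⟨M, hM, hNM⟩ := this
    have hsup : N ⊔ M = ⊤ := hM.2 _ (lt_of_le_of_ne le_sup_right (fun he => hNM (he ▸ le_sup_left)))
    have hn : (N ⊓ M).Normal := by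
      rw [← Subgroup.normalizer_eq_top_iff, eq_top_iff, ← hsup]
      refine sup_le ?_ (H1.le_normalizer_inf Subgroup.le_normalizer_of_normal Subgroup.le_normalizer)
      exact ((Subgroup.le_centralizer N).trans (Subgroup.centralizer_le inf_le_left)).trans
        (Subgroup.centralizer_le_normalizer _)
    have hinf : N ⊓ M = ⊥ := (hmin _ hn inf_le_left).resolve_right (fun he => hNM (inf_eq_left.mp he))
    refine ⟨M, Subgroup.isComplement'_of_disjoint_and_mul_eq_univ (disjoint_iff.mpr hinf) ?_⟩
    rw [← Subgroup.normal_mul, hsup, Subgroup.coe_top]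

end Cfsg.Agent.S0053
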