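import Cfsg.Statements.S0057
import Mathlib
import Cfsg.Agent.H1.Product
import Cfsg.Agent.H3.Basic

set_option autoImplicit false
open Cfsg

namespace Cfsg.Agent.S0057

/-- Under coprime action, if the centraliser of A in K has prime index p in K then the commutator subgroup [K, A] has order exactly p. -/
theorem result {G : Type*} [Group G] [Finite G] (A K : Subgroup G) (hAK : A ≤ Subgroup.normalizer (K : Set G))
    (hcop : (Nat.card A).Coprime (Nat.card K)) (hsolv : Group.IsSolvable A ∨ Group.IsSolvable K)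
    (p : ℕ) (hp : p.Prime) (hidx : (K ⊓ Subgroup.centralizer (A : Set G)).relIndex K = p) :
    Nat.card (⁅K, A⁆ : Subgroup G) = p := by
  have := Fact.mk hp
  set C := K ⊓ Subgroup.centralizer (A : Set G) with hCdef
  set Q : Subgroup G := ⁅K, A⁆ with hQdef
  have hQK : Q ≤ K := H1.commutator_le_left_of_le_normalizer hAK
  have hAQ : A ≤ Subgroup.normalizer (Q : Set G) := Subgroup.normalizer_commutator_ge_right K A
  have hKQ : K ≤ Subgroup.normalizer (Q : Set G) := Subgroup.normalizer_commutator_ge_left K A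
  have hQQ : ⁅Q, A⁆ = Q := H1.commutator_commutator_eq A K hAK hcop
  -- `Q` is a `p`-group
  obtain ⟨P, hP, hAP⟩ := H1.exists_invariant_sylowOf A K hAK hcop hsolv p
  have hKP : ∀ k ∈ K, ∃ x ∈ P, ∃ c ∈ Subgroup.centralizer (A : Set G), k = x * c := by
    intro k hk
    obtain ⟨x, hx, c, hc, h⟩ := H1.exists_mul_of_coprime_relIndex hP.1 (inf_le_left : C ≤ K)
      (by rw [hidx]; exact (H1.isPiNum_compl_singleton_iff hp).mp (H1.hallOf_relIndex hP)) k hk
    exact ⟨x, hx, c, hc.2, h⟩
  have hQP : Q ≤ P := by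
    rw [hQdef, H1.commutator_eq_of_eq_mul_centralizer hP.1 hKP]
    exact H1.commutator_le_left_of_le_normalizer hAP
  have hQp : IsPGroup p Q := (H1.isPGroup_iff_isPiNum.mpr (H1.hallOf_card hP)).to_le hQP
  set D := C ⊓ Q with hDdef
  have hD : D.relIndex Q = p := by
    rw [hDdef, Subgroup.inf_relIndex_right,
      ← H1.relIndex_sup_of_le_normalizer (inf_le_left.trans hKQ), sup_comm,
      H1.commutator_sup_centralizer A K hAK hcop hsolv, hidx]
  have hDQ : D < Q := lt_of_le_of_ne inf_le_right (fun h => by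
    rw [h, Subgroup.relIndex_self] at hD; exact hp.one_lt.ne hD)
  have hlt := H1.lt_inf_normalizer_of_isNilpotent hQp.isNilpotent hDQ
  have hQD : Q ≤ Subgroup.normalizer (D : Set G) :=
    inf_eq_left.mp ((H3.eq_or_eq_of_relIndex_prime hp hlt.le inf_le_left hD).resolve_left hlt.ne')
  have hDA : ⁅D, A⁆ = ⊥ :=
    Subgroup.commutator_eq_bot_iff_le_centralizer.mpr (inf_le_left.trans inf_le_right)
  have hc : ⁅⁅Q, A⁆, D⁆ = ⊥ := by
    apply Subgroup.commutator_commutator_eq_bot_of_rotate
    · rw [Subgroup.commutator_comm A D, hDA, Subgroup.commutator_bot_left]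
    · exact eq_bot_iff.mpr ((Subgroup.commutator_mono
        (H1.commutator_le_left_of_le_normalizer hQD) le_rfl).trans hDA.le)
  rw [hQQ, Subgroup.commutator_eq_bot_iff_le_centralizer] at hc
  obtain ⟨x, hx, hxD⟩ := SetLike.exists_of_lt hDQ
  have hQx : D ⊔ Subgroup.zpowers x = Q :=
    (H3.eq_or_eq_of_relIndex_prime hp le_sup_left (sup_le hDQ.le (Subgroup.zpowers_le.mpr hx))
      hD).resolve_left (fun h => hxD (h ▸ Subgroup.mem_sup_right (Subgroup.mem_zpowers x)))
  have hab : IsMulCommutative Q := hQx ▸ H3.isMulCommutative_sup_zpowers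
    (Subgroup.le_centralizer_iff_isMulCommutative.mp (hDQ.le.trans hc)) (hc hx)
  have hbot := H1.centralizer_inf_commutator_eq_bot A Q hAQ (H1.coprime_of_le hcop le_rfl hQK)
  rw [hQQ] at hbot
  have hD' : D = ⊥ := eq_bot_iff.mpr (hbot ▸ le_inf (le_inf inf_le_right
    (inf_le_left.trans inf_le_right)) inf_le_right)
  rwa [hD', Subgroup.relIndex_bot_left] at hD

end Cfsg.Agent.S0057
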