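import Cfsg.Statements.S0068
import Mathlib
import Cfsg.Agent.H5.Frob

set_option autoImplicit false
open Cfsg

namespace Cfsg.Agent.S0068

open Subgroup Cfsg.Agent.FT Cfsg.Agent.H5b
open scoped commutatorElement

/-- Frobenius complements of even order: if H complements a nontrivial normal subgroup K, each nonidentity element of H has trivial centraliser in K, and H has even order, then H contains a unique involution s, K is abelian, and s inverts every element of K. -/
theorem result {G : Type*} [Group G] [Finite G] (K H : Subgroup G) [K.Normal]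
    (hc : Subgroup.IsComplement' K H) (hK : K ≠ ⊥) (hfpf : ∀ h ∈ H, h ≠ 1 → K ⊓ Subgroup.centralizer {h} = ⊥)
    (heven : 2 ∣ Nat.card H) :
    (∃ s ∈ H, orderOf s = 2 ∧ (∀ t ∈ H, orderOf t = 2 → t = s) ∧ ∀ k ∈ K, s * k * s⁻¹ = k⁻¹) ∧ IsMulCommutative K := by
  have hn : H ≤ N(K) := H22.le_N_of_normal _ _
  haveI : Fact (Nat.Prime 2) := ⟨Nat.prime_two⟩
  obtain ⟨s, hs, h2⟩ := H22.exists_mem_orderOf_eq heven
  have h3 : ∀ k ∈ K, s * k * s⁻¹ = k⁻¹ := fun k hk => conj_eq_inv_of_reg (hn hs)
    (by rw [← pow_two, ← h2, pow_orderOf_eq_one]) (hfpf s hs (by rintro rfl; simp at h2)) hk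
  refine ⟨⟨s, hs, h2, fun t ht h => invol_unique hn hK hfpf ht hs h h2, h3⟩,
    H5.isMulCommutative_of_comm fun a ha b hb => inv_injective ?_⟩
  rw [← h3 _ (mul_mem ha hb), mul_inv_rev, ← h3 a ha, ← h3 b hb]
  group

end Cfsg.Agent.S0068
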