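import Cfsg.Statements.S0073
import Mathlib
import Cfsg.Agent.H4.Ito

set_option autoImplicit false
open Cfsg

namespace Cfsg.Agent.S0073

/-- For a finite non-abelian simple group, either the cube of the least prime divisor of the order divides the order, or 12 does. -/
theorem result {G : Type*} [Group G] [Finite G] [IsSimpleGroup G] (hG : ∃ x y : G, x * y ≠ y * x) : (Nat.card G).minFac ^ 3 ∣ Nat.card G ∨ 12 ∣ Nat.card G := by
  by_contra hne
  rw [not_or] at hne
  obtain ⟨x, y, hxy⟩ := hG
  have hnt : Nontrivial G := inferInstance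
  have hp : (Nat.card G).minFac.Prime := Nat.minFac_prime Finite.one_lt_card.ne'
  set p := (Nat.card G).minFac with hpdef
  have := Fact.mk hp
  obtain ⟨P⟩ : Nonempty (Sylow p G) := inferInstance
  have hpd : p ∣ Nat.card G := Nat.minFac_dvd _
  have hnpc : ¬ Cfsg.HasNormalPComplement p G := by
    intro h
    rcases (H4.pResidual_normal (G := G) p).eq_bot_or_eq_top with e | e
    · have hPG := H4.pResidual_eq_bot_iff.mp e
      rcases (inferInstance : (Subgroup.center G).Normal).eq_bot_or_eq_top with e' | e'
      · exact hPG.bot_lt_center.ne' e'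
      · exact hxy (Subgroup.mem_center_iff.mp (e' ▸ Subgroup.mem_top y) x)
    · apply H4.hasNPC_iff_not_dvd.mp h
      rwa [e, Subgroup.card_top]
  obtain ⟨n, hn⟩ := P.isPGroup'.exists_card_eq
  have hnd : p ^ n ∣ Nat.card G := hn ▸ Subgroup.card_subgroup_dvd_card _
  have hn2 : n ≤ 2 := by
    by_contra h
    exact hne.1 ((pow_dvd_pow p (by omega)).trans hnd)
  obtain ⟨q, hq, hqp, hqd, c, hc1, hc2, hc⟩ := H4.exists_prime_dvd_of_not_hasNPC P hn.dvd hnpc
  have hpq : p < q := lt_of_le_of_ne (Nat.minFac_le_of_dvd hq.two_le hqd) hqp.symm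
  have h2 := hp.two_le
  have hnd1 : ¬ q ∣ p - 1 := fun h => by
    have := Nat.le_of_dvd (by omega) h
    omega
  have hc' : c = 1 ∨ c = 2 := by omega
  rcases hc' with rfl | rfl
  · exact hnd1 (by simpa using hc)
  · have e : p ^ 2 - 1 = (p + 1) * (p - 1) := by
      have := Nat.sq_sub_sq p 1
      simpa using this
    rw [e, hq.dvd_mul] at hc
    have h3 : q = p + 1 := by
      have := Nat.le_of_dvd (by omega) (hc.resolve_right hnd1)
      omega
    have hp2 : p = 2 := by
      rcases hp.eq_two_or_odd' with h | h
      · exact h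
      · have := hq.eq_two_or_odd'
        rw [h3] at this
        rcases this with h4 | h4
        · omega
        · exact absurd h4 (Nat.not_odd_iff_even.mpr h.add_one)
    apply hne.2
    have h4 : 4 ∣ Nat.card G := by
      have : n = 2 := by omega
      rw [this, hp2] at hnd
      exact hnd
    have h5 : 3 ∣ Nat.card G := by
      rw [h3, hp2] at hqd
      exact hqd
    exact Nat.Coprime.mul_dvd_of_dvd_of_dvd (by norm_num : Nat.Coprime 4 3) h4 h5

end Cfsg.Agent.S0073
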