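import Cfsg.Statements.S0076
import Mathlib
import Cfsg.Agent.H4.Frobenius

set_option autoImplicit false
open Cfsg

namespace Cfsg.Agent.S0076

/-- Two P-invariant subsets of a Sylow p-subgroup P that are conjugate in G are conjugate under the normalizer of P. -/
theorem result {G : Type*} [Group G] [Finite G] {p : ℕ} [Fact p.Prime] (P : Sylow p G) (X Y : Set G) (hXP : X ⊆ P) (hYP : Y ⊆ P) (hX : ∀ x ∈ P, (fun y => x * y * x⁻¹) '' X = X) (hY : ∀ x ∈ P, (fun y => x * y * x⁻¹) '' Y = Y) (g : G) (hg : (fun y => g * y * g⁻¹) '' X = Y) : ∃ n ∈ Subgroup.normalizer (P : Set G), (fun y => n * y * n⁻¹) '' X = Y := by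
  have key : ∀ (Z : Set G) (x : G), (fun y => x * y * x⁻¹) '' Z = Z ↔ x ∈ Subgroup.normalizer Z := by
    intro Z x
    constructor
    · intro h y
      constructor
      · intro hy
        exact h ▸ ⟨y, hy, rfl⟩
      · intro hy
        rw [← h] at hy
        obtain ⟨z, hz, e⟩ := hy
        have : z = y := by simpa using e
        exact this ▸ hz
    · intro h
      ext y
      constructor
      · rintro ⟨z, hz, rfl⟩
        exact (h z).mp hz
      · intro hy
        exact ⟨x⁻¹ * y * x, (h _).mpr (by simpa [mul_assoc] using hy), by group⟩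
  obtain ⟨n, hn, c, hc, rfl⟩ := H4.exists_normalizer_mul_of_le_conj P (H := Subgroup.normalizer X)
    (g := g) (fun x hx => (key X x).mp (hX x hx)) (fun x hx => by
      rw [H4.mem_conj_smul, ← key]
      have h1 := hY x hx
      rw [← hg, Set.image_image] at h1
      have h2 := congrArg ((fun y => g⁻¹ * y * g) '' ·) h1
      simp only [Set.image_image] at h2
      convert h2 using 2
      · group
      · ext y
        simp [mul_assoc])
  refine ⟨n, hn, ?_⟩
  rw [← hg]
  conv_lhs => rw [← (key X c).mpr hc, Set.image_image]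
  congr 1
  ext y
  group

end Cfsg.Agent.S0076
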