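import Cfsg.Statements.S0078
import Mathlib
import Cfsg.Agent.H4.Transfer2

set_option autoImplicit false
open Cfsg

namespace Cfsg.Agent.S0078

open scoped Pointwise

/-- In a p-normal group, a Sylow p-subgroup P meets O^p(G) exactly where it meets O^p(V), for any subgroup V containing the normalizer of the centre of P. -/
theorem result {G : Type*} [Group G] [Finite G] {p : ℕ} [Fact p.Prime] (P : Sylow p G) (hn : ∀ Q : Sylow p G, (P : Subgroup G) ⊓ Subgroup.centralizer (P : Set G) ≤ (Q : Subgroup G) → (Q : Subgroup G) ⊓ Subgroup.centralizer (Q : Set G) = (P : Subgroup G) ⊓ Subgroup.centralizer (P : Set G)) (V : Subgroup G) (hV : Subgroup.normalizer (((P : Subgroup G) ⊓ Subgroup.centralizer (P : Set G) : Subgroup G) : Set G) ≤ V) : (P : Subgroup G) ⊓ Cfsg.pResidual p G = (P : Subgroup G) ⊓ (Cfsg.pResidual p V).map V.subtype := by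
  set Z := (P : Subgroup G) ⊓ Subgroup.centralizer (P : Set G) with hZ
  have hW : Cfsg.IsWeaklyClosed Z P := by
    refine ⟨inf_le_left, fun g hg => ?_⟩
    rw [H4.map_conj_eq_smul] at hg ⊢
    have h1 := hn (g⁻¹ • P) (by
      rw [Sylow.coe_subgroup_smul, ← H4.conj_smul_le_conj_smul (g := g), H4.conj_smul_inv_smul]
      exact hg)
    have h2 : ((g⁻¹ • P : Sylow p G) : Set G) =
      ((MulAut.conj g⁻¹ • (P : Subgroup G) : Subgroup G) : Set G) := rfl
    rw [h2, Sylow.coe_subgroup_smul, H4.centralizer_conj_smul, ← H4.conj_smul_inf] at h1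
    conv_lhs => rw [← h1]
    exact H4.conj_smul_inv_smul _ _
  have hZc : Z ≤ Subgroup.centralizer ((P : Subgroup G) : Set G) := inf_le_right
  refine H4.inf_pResidual_eq_of_controls P
    (((Subgroup.le_centralizer_iff.mp hZc).trans (H4.centralizer_le_normalizer' Z)).trans hV)
    fun x hx _ g _ hg => ?_
  obtain ⟨n, hn, e⟩ := H4.weakly_closed_central_controls P hW hZc hx hg
  exact ⟨n, hV hn, e⟩

end Cfsg.Agent.S0078
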