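import Cfsg.Statements.S0079
import Mathlib
import Cfsg.Agent.H4.Focal

set_option autoImplicit false
open Cfsg

namespace Cfsg.Agent.S0079

/-- A nilpotent Hall subgroup has a normal complement exactly when elements of it that are conjugate in the whole group are already conjugate inside it. -/
theorem result {G : Type*} [Group G] [Finite G] (H : Subgroup G) (hH : Group.IsNilpotent H) (hHall : Nat.Coprime (Nat.card H) H.index) : (∃ N : Subgroup G, N.Normal ∧ N.IsComplement' H) ↔ ∀ x ∈ H, ∀ y ∈ H, (∃ g : G, g * x * g⁻¹ = y) → ∃ h ∈ H, h * x * h⁻¹ = y := by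
  constructor
  · rintro ⟨N, hN, hc⟩ x hx y hy ⟨g, rfl⟩
    have hg : g ∈ N ⊔ H := hc.sup_eq_top ▸ Subgroup.mem_top g
    rw [← SetLike.mem_coe, Subgroup.normal_mul] at hg
    obtain ⟨n, hn, u, hu, rfl⟩ := hg
    refine ⟨u, hu, ?_⟩
    set y := u * x * u⁻¹ with hy'
    have hyP : y ∈ H := mul_mem (mul_mem hu hx) (inv_mem hu)
    have e : n * u * x * (n * u)⁻¹ = n * y * n⁻¹ := by rw [hy']; group
    simp only at hy ⊢
    rw [e] at hy ⊢
    have h1 : y⁻¹ * (n * y * n⁻¹) ∈ H := mul_mem (inv_mem hyP) hy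
    have h2 : y⁻¹ * (n * y * n⁻¹) ∈ N := by
      have : y⁻¹ * (n * y * n⁻¹) = (y⁻¹ * n * y⁻¹⁻¹) * n⁻¹ := by group
      rw [this]
      exact mul_mem (hN.conj_mem n hn y⁻¹) (inv_mem hn)
    have h3 := (Subgroup.disjoint_def.mp hc.disjoint) h2 h1
    calc y = y * (y⁻¹ * (n * y * n⁻¹)) := by rw [h3, mul_one]
      _ = n * y * n⁻¹ := by group
  · intro h
    apply H4.exists_normal_complement_of_inf_pResidual hHall
    exact H4.inf_pResidual_eq_bot_of_controls_fusion (H4.isPGroup_card_self H) hHall.symm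
      fun x hx _ g _ hg => h x hx _ hg ⟨g, rfl⟩

end Cfsg.Agent.S0079
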