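import Cfsg.Statements.S0083
import Mathlib
import Cfsg.Agent.H4.Ito

set_option autoImplicit false
open Cfsg

namespace Cfsg.Agent.S0083

/-- For an abelian Sylow p-subgroup P, a normal p-complement exists exactly when the normalizer of P is an internal direct product of P with some subgroup. -/
theorem result {G : Type*} [Group G] [Finite G] {p : ℕ} [Fact p.Prime] (P : Sylow p G) (hP : IsMulCommutative P) : Cfsg.HasNormalPComplement p G ↔ ∃ Q : Subgroup G, Q ≤ Subgroup.centralizer (P : Set G) ∧ Q ⊓ (P : Subgroup G) = ⊥ ∧ Q ⊔ (P : Subgroup G) = Subgroup.normalizer (P : Set G) := by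
  constructor
  · intro h
    refine ⟨Cfsg.pResidual p G ⊓ Subgroup.normalizer (P : Set G), fun g hg =>
      H4.hasNPC_mem_centralizer h P.isPGroup' hg.2 ((H4.hasNPC_mem_pResidual_iff h g).mp hg.1),
      ?_, ?_⟩
    · exact ((H4.hasNPC_iff_disjoint P).mp h).mono_left inf_le_left |>.eq_bot
    · refine le_antisymm (sup_le inf_le_right Subgroup.le_normalizer) fun g hg => ?_
      obtain ⟨k, hk, hkN, s, hs, rfl⟩ :=
        (H4.IsSylowIn.sylow_of_le P Subgroup.le_normalizer).exists_mul_eq_of_forall_coprime
          (K := Cfsg.pResidual p G) (fun x _ hx => H4.mem_pResidual hx) hg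
      exact mul_mem (Subgroup.mem_sup_left ⟨hk, hkN⟩) (Subgroup.mem_sup_right hs)
  · rintro ⟨Q, h1, -, h3⟩
    apply H4.hasNPC_of_normalizer_le_centralizer P
    exact h3.ge.trans (sup_le h1 (H4.le_centralizer_self_of_comm hP))

end Cfsg.Agent.S0083
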