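import Cfsg.Statements.S0084
import Mathlib
import Cfsg.Agent.H4.Ito

set_option autoImplicit false
open Cfsg

namespace Cfsg.Agent.S0084

/-- A group whose Sylow 2-subgroups are Klein four-groups and whose order is prime to 3 has a normal 2-complement. -/
theorem result {G : Type*} [Group G] [Finite G] (T : Sylow 2 G) (hT : IsKleinFour T) (h3 : ¬ 3 ∣ Nat.card G) : Cfsg.HasNormalPComplement 2 G := by
  by_contra h
  obtain ⟨q, hq, -, hqd, c, h1, h2, hc⟩ := H4.exists_prime_dvd_of_not_hasNPC T (n := 2)
    (show Nat.card T ∣ 2 ^ 2 from hT.card_four.dvd) h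
  interval_cases c
  · exact hq.one_lt.ne' (by simpa using hc)
  · exact h3 ((Nat.prime_dvd_prime_iff_eq hq Nat.prime_three).mp hc ▸ hqd)

end Cfsg.Agent.S0084
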