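import Cfsg.Statements.S0086
import Mathlib
import Cfsg.Agent.H4.PComp

set_option autoImplicit false
open Cfsg

namespace Cfsg.Agent.S0086

/-- A normal complement to a Sylow p-subgroup is exactly the set of elements of order prime to p. -/
theorem result {G : Type*} [Group G] [Finite G] {p : ℕ} [Fact p.Prime] (P : Sylow p G) (N : Subgroup G) [N.Normal] (hN : N.IsComplement' (P : Subgroup G)) (x : G) : x ∈ N ↔ Nat.Coprime (orderOf x) p := by
  exact H4.eq_pResidual_of_coprime N (H4.coprime_card_of_isComplement' P hN)
    (H4.isPGroup_quotient_of_sup_eq_top N P.isPGroup' hN.sup_eq_top) ▸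
    H4.hasNPC_mem_pResidual_iff ⟨P, N, inferInstance, hN⟩ x

end Cfsg.Agent.S0086
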