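import Cfsg.Statements.S0087
import Mathlib
import Cfsg.Agent.H4.Ito

set_option autoImplicit false
open Cfsg

namespace Cfsg.Agent.S0087

open scoped Pointwise

/-- A Hall subgroup that is central in its normalizer has a normal complement. -/
theorem result {G : Type*} [Group G] [Finite G] (H : Subgroup G) (hHall : Nat.Coprime (Nat.card H) H.index) (h : Subgroup.normalizer (H : Set G) ≤ Subgroup.centralizer (H : Set G)) : ∃ N : Subgroup G, N.Normal ∧ N.IsComplement' H := by
  have hc : IsMulCommutative H :=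
    ⟨⟨fun a b => Subtype.ext (h (Subgroup.le_normalizer b.2) a a.2)⟩⟩
  have hnil : Group.IsNilpotent H := by
    open scoped IsMulCommutative in infer_instance
  apply H4.exists_normal_complement_of_inf_pResidual hHall
  refine H4.inf_pResidual_eq_bot_of_controls_fusion (H4.isPGroup_card_self H) hHall.symm
    fun x hx _ g _ hg => ⟨1, one_mem _, ?_⟩
  have h1 : H ≤ Subgroup.centralizer {x} := fun y hy =>
    Subgroup.mem_centralizer_singleton_iff.mpr (h (Subgroup.le_normalizer hx) y hy)
  obtain ⟨c, hc, e⟩ := H4.wielandt_nilpotent_hall (MulAut.conj g⁻¹ • H) (Subgroup.centralizer {x}) H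
    h1 (H4.conj_smul_le_iff.mpr fun y hy => Subgroup.mem_centralizer_singleton_iff.mpr (by
      have := h (Subgroup.le_normalizer hg) y hy
      calc g⁻¹ * y * g⁻¹⁻¹ * x = g⁻¹ * (y * (g * x * g⁻¹)) * g := by group
        _ = g⁻¹ * (g * x * g⁻¹ * y) * g := by rw [this]
        _ = _ := by group)) hnil
    (by
      rw [H4.card_conj_smul]
      exact Nat.Coprime.coprime_dvd_right (Subgroup.relIndex_dvd_index_of_le h1) hHall)
  have h2 : c⁻¹ * g⁻¹ ∈ Subgroup.normalizer (H : Set G) := by
    apply H4.mem_normalizer_of_conj_le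
    rw [H4.conj_mul_smul, ← H4.conj_smul_le_conj_smul (g := c), H4.conj_smul_inv_smul]
    exact e
  have h3 := inv_mem (h h2) x hx
  have h4 := Subgroup.mem_centralizer_singleton_iff.mp hc
  calc 1 * x * 1⁻¹ = x * (c⁻¹ * g⁻¹)⁻¹ * c⁻¹ * g⁻¹ := by group
    _ = g * (c * x) * c⁻¹ * g⁻¹ := by rw [h3]; group
    _ = _ := by rw [h4]; group

end Cfsg.Agent.S0087
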