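import Cfsg.Statements.S0092
import Mathlib
import Cfsg.Agent.H4.Cyc2
import Cfsg.Agent.H4.Transfer2

set_option autoImplicit false
open Cfsg

namespace Cfsg.Agent.S0092

/-- If the Sylow p-subgroups of O^p(G) are abelian then G splits over O^p(G). -/
theorem result {G : Type*} [Group G] [Finite G] {p : ℕ} [Fact p.Prime] (h : ∀ Q : Sylow p (Cfsg.pResidual p G), IsMulCommutative Q) : ∃ K : Subgroup G, K.IsComplement' (Cfsg.pResidual p G) := by
  open Subgroup Cfsg.Agent.H22 Cfsg.Agent.H4 in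
  set K := pResidual p G with hK
  obtain ⟨Q'⟩ : Nonempty (Sylow p K) := inferInstance
  set Q := (Q' : Subgroup K).map K.subtype with hQ
  have hS : H18.SylIn p Q K := H18.sylIn_map_subtype Q'
  have hab : IsMulCommutative Q := H3.isMulCommutative_map _ (h Q')
  set M := K ⊓ N[Q] with hM
  have hQM : Q ≤ M := le_inf hS.1 le_normalizer
  have hcop : (Nat.card Q).Coprime (Q.relIndex M) :=
    (pgrp_coprime hS.2 (syl_card_coprime_relIndex (hS.mono hQM inf_le_left))).symm
  have h1 : Q = ⁅Q, M⁆ := by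
    have := congrArg (map K.subtype) (abelian_sylow_inf_pResidual Q' (h Q'))
    rwa [pResidual_pResidual, inf_top_eq, map_commutator, map_N_subtype] at this
  have h2 : Q ⊓ C[M] = ⊥ := by
    have := (commutator_inf_centralizer_of_hall hab hQM inf_le_right hcop).1
    rwa [← h1, ← inf_assoc, inf_idem] at this
  have := normal_subgroupOf_of_le_N (inf_le_right : M ≤ N[Q])
  obtain ⟨L', hL'⟩ := exists_right_complement'_of_coprime (N := Q.subgroupOf M)
    (by rwa [Nat.card_congr (subgroupOfEquivOfLe hQM).toEquiv])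
  set L := L'.map M.subtype with hL
  have hLM : L ≤ M := map_subtype_le _
  have h3 : Q ⊔ L = M := by
    have := congrArg (map M.subtype) hL'.sup_eq_top
    rwa [Subgroup.map_sup, subgroupOf_map_subtype, inf_eq_left.2 hQM, map_subtype_top] at this
  have hLc : (Nat.card L).Coprime (Nat.card Q) := by
    rw [hL, card_subtype, ← hL'.symm.index_eq_card]; exact hcop.symm
  have h4 : Q ⊓ L = ⊥ := inf_eq_bot_of_coprime hLc.symm
  have h5 : N[Q] ≤ Q ⊔ (N[Q] ⊓ N[L]) := fun g hg => by
    obtain ⟨k, hk, e⟩ := H1.exists_conj_le_of_le_sup L (cj g L) Q (hLM.trans inf_le_right)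
      (by rw [h3]; exact cj_le_of_mem_N (mem_N_inf (mem_N_of_normal g K) (le_normalizer hg)) hLM)
      (by rwa [card_cj]) (Or.inr (pgrp_solvable hS.2))
    have e' : k * g ∈ N[L] := mem_N_of_cj_le (by rw [cj_mul]; exact e)
    rw [← inv_mul_cancel_left k g]
    exact mul_mem (mem_sup_left (inv_mem hk)) (mem_sup_right ⟨mul_mem (le_normalizer hk) hg, e'⟩)
  have h6 : (N[Q] ⊓ N[L]) ⊓ K ≤ L := by
    have a1 : Q ⊓ N[L] ≤ C[M] := by
      rw [← h3, C_sup]
      refine le_inf (inf_le_left.trans (isMulComm_iff.1 hab)) (le_C_iff_comm.2 (eq_bot_iff.2 ?_))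
      rw [← h4]
      exact le_inf ((commutator_mono inf_le_left le_rfl).trans (comm_le_of_le_N (hLM.trans inf_le_right)))
        (comm_le_of_le_N' inf_le_right)
    have a2 : (L ⊔ Q) ⊓ N[L] = L := by
      rw [dedekind_N (hLM.trans inf_le_right) le_normalizer, sup_eq_left]
      exact (le_inf inf_le_left a1).trans (h2.le.trans bot_le)
    refine le_trans ?_ a2.le
    rw [sup_comm, h3]
    exact le_inf (le_inf inf_le_right (inf_le_left.trans inf_le_left)) (inf_le_left.trans inf_le_right)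
  obtain ⟨T, hT⟩ := exists_sylIn p (N[Q] ⊓ N[L])
  refine ⟨T, (isComplement'_of_normal_disjoint_sup (disjoint_iff.2 (eq_bot_iff.2 ?_)) ?_).symm⟩
  · by_cases h0 : Q = ⊥
    · have a1 : (Nat.card K).Coprime p := coprime_card_iff_not_dvd.2 ((syl_eq_bot_iff hS).1 h0)
      rw [inf_comm, pgrp_inf_eq_bot hT.2 a1]
    · obtain ⟨n, hn⟩ := pgrp_card hS.2
      have a1 : (Nat.card L).Coprime p := hLc.of_dvd_right (pgrp_dvd_card hS.2 h0)
      rw [← pgrp_inf_eq_bot hT.2 a1]
      exact le_inf inf_le_right ((le_inf (inf_le_right.trans hT.1) inf_le_left).trans h6)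
  · rw [eq_top_iff, ← syl_frattini_sup hS le_top (le_N_of_normal ⊤ K)]
    refine sup_le le_sup_left (inf_le_right.trans (h5.trans (sup_le (hS.1.trans le_sup_left) ?_)))
    rw [← pResidualOf_sup_syl hT]
    exact sup_le_sup_right (pResidualOf_le_iff.2 fun x _ hx => mem_pResidual hx) _

end Cfsg.Agent.S0092
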