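import Cfsg.Statements.S0094
import Mathlib
import Cfsg.Agent.H3.Extra

set_option autoImplicit false
open Cfsg

namespace Cfsg.Agent.S0094

/-- In a special p-group every central element has order dividing p. -/
theorem result {P : Type*} [Group P] [Finite P] {p : ℕ} [Fact p.Prime] (h : Cfsg.IsSpecial p P) (z : P) (hz : z ∈ Subgroup.center P) : z ^ p = 1 := by
  open Subgroup Cfsg.Agent.FT Cfsg.Agent.H3 in
  open scoped commutatorElement in
  · obtain ⟨h1, h2, h3⟩ := h
    have hc : ∀ x y : P, ⁅x, y⁆ ∈ center P := fun x y => h3 ▸ commutator_mem_commutator (mem_top x) (mem_top y)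
    have : commutator P ≤ Ω[p](center P) := commutator_le.2 fun x _ y _ => mem_Ohm (hc x y) (by
      rw [← comm_pow_left (mem_center_iff.1 (hc x y) x), commutatorElement_eq_one_iff_mul_comm]
      exact (mem_center_iff.1 (h2 ▸ pow_mem_frattini h1 x) y).symm)
    exact ((Ab.mem_Ohm_iff (A := center P) inferInstance).1 (this (h3 ▸ hz))).2

end Cfsg.Agent.S0094
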