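import Cfsg.Statements.S0096
import Mathlib
import Cfsg.Agent.H3.Regular

set_option autoImplicit false
open Cfsg

namespace Cfsg.Agent.S0096

/-- For odd p, in a p-group of class at most two the elements of order dividing p generate a subgroup of exponent dividing p. -/
theorem result {P : Type*} [Group P] [Finite P] {p : ℕ} [Fact p.Prime] (hp : p ≠ 2) (hP : IsPGroup p P) (h2 : ⁅commutator P, (⊤ : Subgroup P)⁆ = ⊥) (g : P) (hg : g ∈ Subgroup.closure {x : P | x ^ p = 1}) : g ^ p = 1 := by
  rw [← H3.omegaOne_top] at hg
  exact ((H3.reg_of_class_two hp h2).mem_omegaOne_top_iff hP).mp hg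

end Cfsg.Agent.S0096
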