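import Cfsg.Statements.S0097
import Mathlib
import Cfsg.Agent.H3.Extra

set_option autoImplicit false
open Cfsg

namespace Cfsg.Agent.S0097

/-- For odd p and E extraspecial, the subgroup generated by the elements of order dividing p has exponent dividing p and index at most p. -/
theorem result {E : Type*} [Group E] [Finite E] {p : ℕ} [Fact p.Prime] (hp : p ≠ 2) (h : Cfsg.IsExtraspecial p E) : (Subgroup.closure {x : E | x ^ p = 1}).index ≤ p ∧ ∀ g ∈ Subgroup.closure {x : E | x ^ p = 1}, g ^ p = 1 := by
  open Subgroup Cfsg.Agent.FT Cfsg.Agent.H3 in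
  open scoped commutatorElement in
  · obtain ⟨z, h1, -⟩ := exists_xs_top h
    let φ : E →* E := MonoidHom.mk' (· ^ p) fun x y => h1.mul_pow_odd hp (mem_top x) (mem_top y)
    have e : closure {x : E | x ^ p = 1} = φ.ker := closure_eq φ.ker
    rw [e]
    refine ⟨?_, fun g hg => hg⟩
    rw [index_ker, ← h1.card_z]
    exact card_le (by rintro _ ⟨x, rfl⟩; exact h1.pow_mem (mem_top x))

end Cfsg.Agent.S0097
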