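import Cfsg.Statements.S0099
import Mathlib
import Cfsg.Agent.H3.Extra

set_option autoImplicit false
open Cfsg

namespace Cfsg.Agent.S0099

/-- Among three extraspecial 2-groups of equal order, some two are isomorphic. -/
theorem result {E₁ : Type*} {E₂ : Type*} {E₃ : Type*} [Group E₁] [Group E₂] [Group E₃] [Finite E₁] [Finite E₂] [Finite E₃] (h₁ : Cfsg.IsExtraspecial 2 E₁) (h₂ : Cfsg.IsExtraspecial 2 E₂) (h₃ : Cfsg.IsExtraspecial 2 E₃) (h12 : Nat.card E₁ = Nat.card E₂) (h23 : Nat.card E₂ = Nat.card E₃) : Nonempty (E₁ ≃* E₂) ∨ Nonempty (E₂ ≃* E₃) ∨ Nonempty (E₁ ≃* E₃) := by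
  open Subgroup Cfsg.Agent.FT Cfsg.Agent.H3 in
  open scoped commutatorElement in
  · obtain ⟨z₁, k₁, -⟩ := exists_xs_top h₁
    obtain ⟨z₂, k₂, -⟩ := exists_xs_top h₂
    obtain ⟨z₃, k₃, -⟩ := exists_xs_top h₃
    have : (0 < dl (⊤ : Subgroup E₁) ↔ 0 < dl (⊤ : Subgroup E₂)) ∨ (0 < dl (⊤ : Subgroup E₂) ↔ 0 < dl (⊤ : Subgroup E₃)) ∨
        (0 < dl (⊤ : Subgroup E₁) ↔ 0 < dl (⊤ : Subgroup E₃)) := by tauto
    have h13 := h12.trans h23
    exact this.imp (fun e => (k₁.gi_sign k₂ (by rwa [card_top', card_top']) e).iso_top h12) (Or.imp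
      (fun e => (k₂.gi_sign k₃ (by rwa [card_top', card_top']) e).iso_top h23)
      fun e => (k₁.gi_sign k₃ (by rwa [card_top', card_top']) e).iso_top h13)

end Cfsg.Agent.S0099
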