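import Cfsg.Statements.S0104
import Mathlib
import Cfsg.Agent.H4.Frobenius

set_option autoImplicit false
open Cfsg

namespace Cfsg.Agent.S0104

/-- A subgroup Z of a Sylow p-subgroup P that is normalized by N_G(P) is weakly closed in P exactly when it is normal in every Sylow p-subgroup containing it. -/
theorem result {G : Type*} [Group G] [Finite G] {p : ℕ} [Fact p.Prime] (P : Sylow p G) (Z : Subgroup G) (hZP : Z ≤ (P : Subgroup G)) (hZN : Subgroup.normalizer (P : Set G) ≤ Subgroup.normalizer (Z : Set G)) : Cfsg.IsWeaklyClosed Z P ↔ ∀ R : Sylow p G, Z ≤ (R : Subgroup G) → (R : Subgroup G) ≤ Subgroup.normalizer (Z : Set G) := by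
  have hPN : (P : Subgroup G) ≤ Subgroup.normalizer (Z : Set G) := Subgroup.le_normalizer.trans hZN
  constructor
  · intro hW R hR
    obtain ⟨g, rfl⟩ := MulAction.exists_smul_eq G P R
    rw [Sylow.coe_subgroup_smul] at hR ⊢
    have h1 := hW.2 g⁻¹ (by
      rw [H4.map_conj_eq_smul, ← H4.conj_smul_le_conj_smul (g := g), H4.conj_smul_inv_smul]
      exact hR)
    have h2 : g ∈ Subgroup.normalizer (Z : Set G) :=
      inv_mem_iff.mp (H4.conj_smul_eq_iff_mem_normalizer.mp h1)
    rw [← H4.conj_smul_eq_of_mem h2]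
    exact H4.conj_smul_le_conj_smul.mpr hPN
  · intro h
    refine ⟨hZP, fun g hg => ?_⟩
    rw [H4.map_conj_eq_smul] at hg ⊢
    have h1 := h (g⁻¹ • P) (by
      rw [Sylow.coe_subgroup_smul, ← H4.conj_smul_le_conj_smul (g := g), H4.conj_smul_inv_smul]
      exact hg)
    rw [Sylow.coe_subgroup_smul, ← H4.conj_smul_le_conj_smul (g := g), H4.conj_smul_inv_smul] at h1
    obtain ⟨n, hn, c, hc, rfl⟩ := H4.exists_normalizer_mul_of_le_conj P hPN h1
    exact H4.conj_smul_eq_iff_mem_normalizer.mpr (mul_mem (hZN hn) hc)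

end Cfsg.Agent.S0104
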