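import Cfsg.Statements.S0105
import Mathlib
import Cfsg.Agent.H4.Transfer2

set_option autoImplicit false
open Cfsg

namespace Cfsg.Agent.S0105

/-- With an abelian Sylow p-subgroup P, some quotient of G is isomorphic to the part of P central in N_G(P). -/
theorem result {G : Type*} [Group G] [Finite G] {p : ℕ} [Fact p.Prime] (P : Sylow p G) (hP : IsMulCommutative P) : ∃ (N : Subgroup G) (hN : N.Normal), Nonempty (G ⧸ N ≃* ((P : Subgroup G) ⊓ Subgroup.centralizer (Subgroup.normalizer (P : Set G) : Set G) : Subgroup G)) := by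
  refine ⟨Cfsg.pResidual p G, inferInstance, ⟨(MulEquiv.ofBijective
    ((QuotientGroup.mk' (Cfsg.pResidual p G)).comp (Subgroup.subtype _)) ⟨?_, ?_⟩).symm⟩⟩
  all_goals
    have h1 := H4.abelian_sylow_inf_pResidual P hP
    obtain ⟨h2, h3⟩ := H4.commutator_inf_centralizer_of_hall (A := (P : Subgroup G)) hP
      Subgroup.le_normalizer le_rfl (Nat.Coprime.coprime_dvd_right
        (Subgroup.relIndex_dvd_index_of_le Subgroup.le_normalizer) P.card_coprime_index)
    rw [← h1] at h2 h3
  · rw [injective_iff_map_eq_one]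
    intro x hx
    apply Subtype.ext
    exact Subgroup.mem_bot.mp (h2.le ⟨⟨x.2.1, (QuotientGroup.eq_one_iff _).mp hx⟩, x.2⟩)
  · rw [← MonoidHom.range_eq_top, MonoidHom.range_comp, Subgroup.range_subtype, eq_top_iff,
      ← Subgroup.map_top_of_surjective _ (QuotientGroup.mk'_surjective (Cfsg.pResidual p G)),
      Subgroup.map_le_map_iff, QuotientGroup.ker_mk', ← H4.pResidual_sup_sylow P]
    refine sup_le le_sup_right (h3.ge.trans (sup_le (inf_le_right.trans le_sup_right) le_sup_left))

end Cfsg.Agent.S0105
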