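import Cfsg.Statements.S0106
import Mathlib
import Cfsg.Agent.H4.Cyc2

set_option autoImplicit false
open Cfsg

namespace Cfsg.Agent.S0106

/-- A finite group with generalized quaternion Sylow 2-subgroups either has a normal 2-complement or has a section isomorphic to SL(2,3). -/
theorem result {G : Type*} [Group G] [Finite G] (T : Sylow 2 G) (n : ℕ) (hn : 1 ≤ n) (hT : Nonempty ((T : Subgroup G) ≃* QuaternionGroup (2 ^ n))) : Cfsg.HasNormalPComplement 2 G ∨ ∃ (H K : Subgroup G) (hK : (K.subgroupOf H).Normal), Nonempty ((H ⧸ K.subgroupOf H) ≃* Matrix.SpecialLinearGroup (Fin 2) (ZMod 3)) := by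
  open Subgroup Cfsg.Agent.H22 Cfsg.Agent.H4 in
  rw [or_iff_not_imp_left]
  intro h
  obtain ⟨Q, hQ, q, hq, hq2, g, hg, ⟨k, hk⟩, hc⟩ := exists_prime_pow_elt_of_not_hasNPC T h
  obtain ⟨e⟩ := hT
  obtain ⟨a, b, m, -, hm⟩ := H3.exists_mcq_of_iso' (FT.pGrp_of_isPGroup Nat.prime_two T.isPGroup') (by
    have := Nat.one_lt_two_pow (n := n) (by omega); omega) e
  have ho : (orderOf g).Coprime 2 := hk ▸ ((Nat.coprime_primes hq Nat.prime_two).2 hq2).pow_left k
  obtain ⟨u, h1, h2, -, ht⟩ := cyc2' T.isPGroup' (a := a) hm.relIndex.dvd hQ hg ho hc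
  have hu : u ^ 2 ≠ 1 := fun e => h2 <| by
    rw [hm.eq_z_of_sq (hQ ht.v_mem) (ht.sq.trans e) (by simpa using ht.ne_one)]
    exact hm.z_mem
  have hN : Q ⊔ zpowers g ≤ N[zpowers (g ^ 3)] := by
    refine le_trans (sup_le ?_ ?_) (C_le_N _)
    · exact le_centralizer_iff.1 (zpowers_le.2 ht.cube)
    · rw [zpowers_le, C_zpowers, mem_C1]; group
  have := normal_subgroupOf_of_le_N hN
  refine ⟨Q ⊔ zpowers g, zpowers (g ^ 3), this, ht.sl23_of_surj (QuotientGroup.mk' _)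
    (QuotientGroup.mk'_surjective _) (fun m => (QuotientGroup.eq_one_iff _).2 (mem_zpowers _)) fun m e => hu ?_⟩
  have h3 : u ^ 2 ∈ zpowers (g ^ 3) := mem_subgroupOf.1 ((QuotientGroup.eq_one_iff _).1 e)
  refine eq_one_of_pgrp_of_coprime T.isPGroup' (pow_mem (hQ ht.mem) 2) (ho.of_dvd_left ?_)
  exact (orderOf_dvd_of_mem_zpowers h3).trans (orderOf_pow_dvd 3)

end Cfsg.Agent.S0106
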