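import Cfsg.Statements.S0107
import Mathlib
import Cfsg.Agent.H4.Transfer2
import Cfsg.Agent.H3.Two

set_option autoImplicit false
open Cfsg

namespace Cfsg.Agent.S0107

/-- A finite group with no nontrivial 2-group quotient and dihedral Sylow 2-subgroups of order at least 8 has a single class of involutions. -/
theorem result {G : Type*} [Group G] [Finite G] (T : Sylow 2 G) (n : ℕ) (hn : 2 ≤ n) (hT : Nonempty ((T : Subgroup G) ≃* DihedralGroup (2 ^ n))) (hO : Cfsg.pResidual 2 G = ⊤) (x y : G) (hx : orderOf x = 2) (hy : orderOf y = 2) : ∃ g : G, g * x * g⁻¹ = y := by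
  obtain ⟨e⟩ := hT
  obtain ⟨a, b, h⟩ := H3.exists_mcd_of_iso hn e
  have key : ∀ x : G, orderOf x = 2 → ∃ g : G, g * x * g⁻¹ = a ^ 2 ^ (n - 1) := by
    intro x hx
    have h2 : x ^ 2 = 1 := hx ▸ pow_orderOf_eq_one x
    obtain ⟨g, hg⟩ := H4.exists_conj_mem_of_pResidual_eq_top hO T h.toMC.relIndex h2
    refine ⟨g, h.toMC.eq_z hg (by rw [conj_pow, h2]; group) fun e => ?_⟩
    have : x = 1 := by simpa using e
    simp [this] at hx
  obtain ⟨g, hg⟩ := key x hx
  obtain ⟨k, hk⟩ := key y hy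
  refine ⟨k⁻¹ * g, ?_⟩
  calc k⁻¹ * g * x * (k⁻¹ * g)⁻¹ = k⁻¹ * (g * x * g⁻¹) * k := by group
    _ = y := by rw [hg, ← hk]; group

end Cfsg.Agent.S0107
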