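import Cfsg.Statements.S0108
import Mathlib
import Cfsg.Agent.H5.NPC

set_option autoImplicit false
open Cfsg

namespace Cfsg.Agent.S0108

open Subgroup Cfsg.Agent.H22 Cfsg.Agent.H5b
open Cfsg.Agent.H18 hiding cj mem_cj conj_mem_cj conj_mem_cj_iff cj_le_iff cj_cj cj_one cj_inv_cj
  cj_cj_inv cj_mono cj_inf cj_sup cj_eq_iff cj_eq_of_mem cj_eq_of_normal cj_top card_cj isPGroup_cj
open scoped commutatorElement

/-- The Thompson normal p-complement Theorem, in the form stating that for odd p, G has a normal p-complement exactly when the normalizer of the Thompson subgroup J(P) and the centralizer of the centre of P both have one. -/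
theorem result {G : Type*} [Group G] [Finite G] {p : ℕ} [Fact p.Prime] (hp : p ≠ 2) (P : Sylow p G) : Cfsg.HasNormalPComplement p G ↔ (Cfsg.HasNormalPComplement p (Subgroup.normalizer (Cfsg.thompsonSubgroupOf p (P : Subgroup G) : Set G)) ∧ Cfsg.HasNormalPComplement p (Subgroup.centralizer (((P : Subgroup G) ⊓ Subgroup.centralizer (P : Set G)) : Set G))) := by
  refine ⟨fun h => ⟨H4.hasNPC_subgroup h _, H4.hasNPC_subgroup h _⟩, fun h => ?_⟩
  rw [thompsonOf_eq_Jn] at h
  exact hasNPC_thompson hp (Or.inr rfl) (sylIn_top P) h.1 h.2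

end Cfsg.Agent.S0108
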