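import Cfsg.Statements.S0109
import Mathlib
import Cfsg.Agent.H5.NPC

set_option autoImplicit false
open Cfsg

namespace Cfsg.Agent.S0109

open Subgroup Cfsg.Agent.H22 Cfsg.Agent.H5b
open Cfsg.Agent.H18 hiding cj mem_cj conj_mem_cj conj_mem_cj_iff cj_le_iff cj_cj cj_one cj_inv_cj
  cj_cj_inv cj_mono cj_inf cj_sup cj_eq_iff cj_eq_of_mem cj_eq_of_normal cj_top card_cj isPGroup_cj
open scoped commutatorElement

/-- The Thompson factorization Theorem for solvable groups states that, with p odd (and abelian Sylow 2-subgroups when p = 3) and no nontrivial normal subgroup of order prime to p, every element of G is a product of an element normalizing J(P) and an element centralizing the elements of order dividing p in the centre of P. -/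
theorem result {G : Type*} [Group G] [Finite G] {p : ℕ} [Fact p.Prime] (hp : p ≠ 2) (hs : Group.IsSolvable G) (h3 : p = 3 → ∀ T : Sylow 2 G, IsMulCommutative T) (hF : ∀ N : Subgroup G, N.Normal → Nat.Coprime (Nat.card N) p → N = ⊥) (P : Sylow p G) (g : G) : ∃ a ∈ Subgroup.normalizer (Cfsg.thompsonSubgroupOf p (P : Subgroup G) : Set G), ∃ c ∈ Subgroup.centralizer {x : G | x ∈ (P : Subgroup G) ∧ (∀ y ∈ (P : Subgroup G), x * y = y * x) ∧ x ^ p = 1}, g = a * c := by
  have hq : QF p G := qf_of_pSolvable hp (H1.isPSolvable_of_isSolvable Fact.out hs) fun h => ab2_of_sylow (h3 h)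
  have hO : pPrimeCore p G = ⊥ := by
    have := H2.pPrimeCore_characteristic (p := p) (G := G)
    exact hF _ inferInstance H2.pPrimeCore_coprime
  have hc := (isPConstrained_iff_of_bot hO).1
    (isPConstrained_of_pSolvable (H1.isPSolvable_of_isSolvable Fact.out hs))
  obtain ⟨a, ha, c, hc, e⟩ := thompson_factorization hp (Or.inr rfl) hc hq.stab (sylIn_top P) g
  refine ⟨a, by rwa [thompsonOf_eq_Jn], c, fun x hx => mem_C.1 hc x ?_, e.symm⟩
  exact mem_omegaOneCenter.2 ⟨⟨hx.1, mem_C.2 fun y hy => (hx.2.1 y hy).symm⟩, hx.2.2⟩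

end Cfsg.Agent.S0109
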