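import Cfsg.Statements.S0112
import Mathlib
import Cfsg.Agent.H3.Two

set_option autoImplicit false
open Cfsg

namespace Cfsg.Agent.S0112

/-- A p-group with a self-centralizing subgroup of order p^2 is of maximal class. -/
theorem result {X : Type*} [Group X] [Finite X] {p : ℕ} [Fact p.Prime] (n : ℕ) (hX : Nat.card X = p ^ n) (A : Subgroup X) (hA : Nat.card A = p ^ 2) (hC : Subgroup.centralizer (A : Set X) = A) : Group.nilpotencyClass X = n - 1 := by
  open Subgroup Cfsg.Agent.FT Cfsg.Agent.H3 in
  open scoped commutatorElement in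
  · have h := maxCl_of_cen_sq (S := ⊤) Fact.out (card_top'.trans hX) le_top hA (inf_le_right.trans hC.le)
    exact (maxCl_top_iff hX h.two_le).1 h

end Cfsg.Agent.S0112
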