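import Cfsg.Statements.S0113
import Mathlib
import Cfsg.Agent.H3.Two

set_option autoImplicit false
open Cfsg

namespace Cfsg.Agent.S0113

/-- A 2-group of maximal class contains a cyclic subgroup of index 2. -/
theorem result {X : Type*} [Group X] [Finite X] (n : ℕ) (hn : 3 ≤ n) (hX : Nat.card X = 2 ^ n) (hc : Group.nilpotencyClass X = n - 1) : ∃ C : Subgroup X, IsCyclic C ∧ C.index = 2 := by
  open Subgroup Cfsg.Agent.FT Cfsg.Agent.H3 in
  open scoped commutatorElement in
  · obtain ⟨m, rfl⟩ := Nat.exists_eq_add_of_le' (show 1 ≤ n by omega)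
    obtain ⟨a, b, h⟩ := ((maxCl_top_iff hX (by omega)).2 hc).mc (by omega)
    exact ⟨⟪a⟫, cyc_zpowers a, (relIndex_top_right _).symm.trans h.relIndex⟩

end Cfsg.Agent.S0113
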