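import Cfsg.Statements.S0114
import Mathlib
import Cfsg.Agent.H3.Two

set_option autoImplicit false
open Cfsg

namespace Cfsg.Agent.S0114

/-- The central quotient of a 2-group of maximal class is dihedral. -/
theorem result {X : Type*} [Group X] [Finite X] (n : ℕ) (hn : 3 ≤ n) (hX : Nat.card X = 2 ^ n) (hc : Group.nilpotencyClass X = n - 1) : Nonempty (X ⧸ Subgroup.center X ≃* DihedralGroup (2 ^ (n - 2))) := by
  open Subgroup Cfsg.Agent.FT Cfsg.Agent.H3 in
  open scoped commutatorElement in
  · obtain ⟨m, rfl⟩ := Nat.exists_eq_add_of_le' (show 1 ≤ n by omega)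
    obtain ⟨a, b, h⟩ := ((maxCl_top_iff hX (by omega)).2 hc).mc (by omega)
    obtain ⟨h1, h2, h3, h4⟩ := h.map_ker (k := m - 1) (QuotientGroup.mk' (center X)) (by omega) fun x _ => by
      rw [← h.center, center_top']; exact QuotientGroup.eq_one_iff x
    have := H10.nonempty_equiv_dihedral (by rw [← sq, h3]) h4 h2 (by
      have h5 := card_eq_card_quotient_mul_card_subgroup (center X)
      rw [← center_top', h.card_center, center_top', hX, pow_succ] at h5
      rw [h1, ← pow_succ', Nat.sub_add_cancel (by omega)]
      omega)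
    rwa [h1] at this

end Cfsg.Agent.S0114
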