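import Cfsg.Statements.S0115
import Mathlib
import Cfsg.Agent.H3.Two

set_option autoImplicit false
open Cfsg

namespace Cfsg.Agent.S0115

/-- A 2-group of order 2^n, n ≥ 3, is of maximal class exactly when its commutator quotient is a Klein four-group. -/
theorem result {X : Type*} [Group X] [Finite X] (n : ℕ) (hn : 3 ≤ n) (hX : Nat.card X = 2 ^ n) : Group.nilpotencyClass X = n - 1 ↔ IsKleinFour (X ⧸ commutator X) := by
  open Subgroup Cfsg.Agent.FT Cfsg.Agent.H3 in
  open scoped commutatorElement in
  · have hT : #(⊤ : Subgroup X) = 2 ^ n := card_top'.trans hX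
    rw [← maxCl_top_iff hX (by omega)]
    refine ⟨fun h => ?_, fun h => ?_⟩
    · have h1 : Nat.card (X ⧸ commutator X) = 4 := (relIndex_top_right _).symm.trans h.relIndex_der
      have h2 : ∀ x : X ⧸ commutator X, x ^ 2 = 1 := by
        rintro ⟨x⟩
        exact (QuotientGroup.eq_one_iff (x ^ 2)).2 ((h.Phi_eq hn).le (h.pGrp.pow_mem_Phi (mem_top x)))
      haveI : Nontrivial (X ⧸ commutator X) := Finite.one_lt_card_iff_nontrivial.1 (by omega)
      exact ⟨h1, (Monoid.exponent_eq_prime_iff Nat.prime_two).2 fun g hg => orderOf_eq_prime (h2 g) hg⟩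
    · obtain ⟨k, rfl⟩ := Nat.exists_eq_add_of_le' hn
      obtain ⟨a, b, h⟩ := taussky_aux k hT ((relIndex_top_right _).trans h.card_four)
      exact h.maxCl

end Cfsg.Agent.S0115
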