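import Cfsg.Statements.S0116
import Mathlib
import Cfsg.Agent.H4.Alperin

set_option autoImplicit false
open Cfsg

namespace Cfsg.Agent.S0116

/-- The Alperin fusion Theorem states that conjugation between subsets of a Sylow p-subgroup P factors through normalizers of tame intersections P ∩ Q_i with other Sylow p-subgroups, carrying the subset along step by step. -/
theorem result {G : Type*} [Group G] [Finite G] {p : ℕ} [Fact p.Prime] (P : Sylow p G) (A : Set G) (g : G) (hA : A ⊆ (P : Set G)) (hAg : (fun a => g⁻¹ * a * g) '' A ⊆ (P : Set G)) : ∃ (n : ℕ) (Q : Fin n → Sylow p G) (x : Fin n → G), (List.ofFn x).prod = g ∧ (∀ i : Fin n, x i ∈ Subgroup.normalizer ((((P : Subgroup G) ⊓ (Q i : Subgroup G)) : Subgroup G) : Set G) ∧ ¬ p ∣ ((P : Subgroup G) ⊓ Subgroup.normalizer ((((P : Subgroup G) ⊓ (Q i : Subgroup G)) : Subgroup G) : Set G)).relIndex (Subgroup.normalizer ((((P : Subgroup G) ⊓ (Q i : Subgroup G)) : Subgroup G) : Set G))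 ∧ ¬ p ∣ ((Q i : Subgroup G) ⊓ Subgroup.normalizer ((((P : Subgroup G) ⊓ (Q i : Subgroup G)) : Subgroup G) : Set G)).relIndex (Subgroup.normalizer ((((P : Subgroup G) ⊓ (Q i : Subgroup G)) : Subgroup G) : Set G))) ∧ (∀ h : 0 < n, A ⊆ (((P : Subgroup G) ⊓ (Q ⟨0, h⟩ : Subgroup G) : Subgroup G) : Set G)) ∧ ∀ i : Fin n, ∀ h : i.val + 1 < n, (fun a => (((List.ofFn x).take (i.val + 1)).prod)⁻¹ * a * ((List.ofFn x).take (i.val + 1)).prod) '' A ⊆ (((P : Subgroup G) ⊓ (Q ⟨i.val + 1, h⟩ : Subgroup G) : Subgroup G) : Set G) := by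
  have key := H4.fusionChain_of_local P (fun T x => x ∈ Subgroup.normalizer (T : Set G) ∧
      ∃ Q : Sylow p G, T = (P : Subgroup G) ⊓ (Q : Subgroup G) ∧
        ¬ p ∣ ((P : Subgroup G) ⊓ Subgroup.normalizer (T : Set G)).relIndex
          (Subgroup.normalizer (T : Set G)) ∧
        ¬ p ∣ ((Q : Subgroup G) ⊓ Subgroup.normalizer (T : Set G)).relIndex
          (Subgroup.normalizer (T : Set G)))
    (fun T x h => ⟨⟨inv_mem h.1, h.2⟩, h.1⟩) ?_ A g hA hAg
  · obtain ⟨n, T, x, e, hF, hc⟩ := key.exists_fin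
    choose Q hQ h1 h2 using fun i => (hF i).2
    refine ⟨n, Q, x, e, fun i => ?_, fun h => ?_, fun i h => ?_⟩
    · rw [← hQ i]
      exact ⟨(hF i).1, h1 i, h2 i⟩
    · rw [← hQ]
      simpa using hc ⟨0, h⟩
    · rw [← hQ]
      exact hc ⟨i.val + 1, h⟩
  · intro B hB hS _ x hx e
    refine H4.FusionChain.single ⟨hx, x⁻¹ • P, e, hS.not_dvd, ?_⟩ subset_rfl
    have := (hS.conj_of_mem (Subgroup.le_normalizer (inv_mem hx))).not_dvd
    rwa [H4.conj_smul_inf, H4.conj_smul_eq_of_mem (inv_mem hx)] at this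

end Cfsg.Agent.S0116
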