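import Cfsg.Statements.S0117
import Mathlib
import Cfsg.Agent.H5.NPC

set_option autoImplicit false
open Cfsg

namespace Cfsg.Agent.S0117

open Subgroup Cfsg.Agent.H22 Cfsg.Agent.H5b
open Cfsg.Agent.H18 hiding cj mem_cj conj_mem_cj conj_mem_cj_iff cj_le_iff cj_cj cj_one cj_inv_cj
  cj_cj_inv cj_mono cj_inf cj_sup cj_eq_iff cj_eq_of_mem cj_eq_of_normal cj_top card_cj isPGroup_cj
open scoped commutatorElement

/-- The Glauberman–Thompson Theorem states that for odd p, a single p-local subgroup, the normalizer of the centre of the Thompson subgroup of a Sylow p-subgroup, decides whether G has a normal p-complement. -/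
theorem result {G : Type*} [Group G] [Finite G] {p : ℕ} [Fact p.Prime] (hp : p ≠ 2) (P : Sylow p G) : Cfsg.HasNormalPComplement p G ↔ Cfsg.HasNormalPComplement p (Subgroup.normalizer (Cfsg.centerThompsonOf p (P : Subgroup G) : Set G)) := by
  refine ⟨fun h => H4.hasNPC_subgroup h _, fun h => ?_⟩
  rw [centerThompsonOf_eq] at h
  exact hasNPC_of_ZJn hp (Or.inr rfl) (sylIn_top P) h

end Cfsg.Agent.S0117
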