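import Cfsg.Statements.S0119
import Mathlib
import Cfsg.Agent.H3.Aut

set_option autoImplicit false
open Cfsg

namespace Cfsg.Agent.S0119

/-- If a p'-group A of automorphisms of a p-group G satisfies G = [G, A] and acts trivially on every characteristic abelian subgroup, then G is special with centre equal to the fixed points of A. -/
theorem result {G : Type*} [Group G] [Finite G] {p : ℕ} [Fact p.Prime] (hG : IsPGroup p G) (A : Subgroup (MulAut G)) (hA : Nat.Coprime (Nat.card A) p) (hGA : Subgroup.closure {x : G | ∃ g : G, ∃ a ∈ A, x = g⁻¹ * a g} = ⊤) (hchar : ∀ H : Subgroup G, H.Characteristic → IsMulCommutative H → ∀ a ∈ A, ∀ h ∈ H, a h = h) : Cfsg.IsSpecial p G ∧ (∀ g : G, (g ∈ Subgroup.center G ↔ ∀ a ∈ A, a g = g)) := by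
  have h1 : ⁅H3.holL (⊤ : Subgroup (MulAut G)) ⊤, H3.holR (A.subgroupOf ⊤)⁆ = H3.holL ⊤ ⊤ := by
    rw [H3.commutator_holL_holR]
    congr 1
    refine top_le_iff.mp (hGA.ge.trans ((Subgroup.closure_le _).mpr ?_))
    rintro _ ⟨g, a, ha, rfl⟩
    exact Subgroup.subset_closure ⟨g, Subgroup.mem_top g, ⟨a, Subgroup.mem_top a⟩, ha, rfl⟩
  have h2 : Nat.card (H3.holR (A.subgroupOf ⊤)) = Nat.card A := by
    rw [H3.card_holR, Nat.card_congr (Subgroup.subgroupOfEquivOfLe le_top).toEquiv]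
  obtain ⟨h3, h4, h5⟩ := H3.special_of_centralizes_abelian (H3.isPGroup_holL (Γ := ⊤) hG ⊤)
    (by rw [H3.normalizer_holL_top]; exact le_top) (by rwa [h2]) h1 (by
      intro W hW hn hab
      obtain ⟨U, rfl⟩ := H3.exists_holL_eq hW
      rw [H3.normalizer_holL_top] at hn
      refine H3.holR_le_centralizer_holL.mpr fun γ hγ x hx => hchar U (H3.characteristic_of_holL hn) ?_ _ hγ x hx
      rw [← Subgroup.le_centralizer_iff_isMulCommutative] at hab ⊢
      exact fun u hu => H3.inl_mem_centralizer_holL.mp (hab (H3.inl_mem_holL.mpr hu)))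
  rw [H3.holL_inf_centralizer, top_inf_eq, Subgroup.coe_top, Subgroup.centralizer_univ] at h3 h4 h5
  rw [H3.map_frattini_holL hG, H3.map_frattini_top] at h3
  rw [← Subgroup.map_commutator] at h4
  refine ⟨⟨hG, H3.holL_injective h3, H3.holL_injective h4⟩, fun g => ?_⟩
  rw [← H3.inl_mem_holL (Γ := ⊤), ← h5, Subgroup.mem_inf, H3.inl_mem_holL, H3.inl_mem_centralizer_holR]
  exact ⟨fun h a ha => h.2 ⟨a, Subgroup.mem_top a⟩ ha, fun h => ⟨Subgroup.mem_top g, fun γ hγ => h _ hγ⟩⟩

end Cfsg.Agent.S0119
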