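import Cfsg.Statements.S0125
import Mathlib
import Cfsg.Agent.H4.PComp
import Cfsg.Agent.H4.SylowIn

set_option autoImplicit false
open Cfsg

namespace Cfsg.Agent.S0125

/-- The centralizer of a self-centralizing normal subgroup A of a Sylow p-subgroup is the direct product of A with a normal p'-subgroup. -/
theorem result {G : Type*} [Group G] [Finite G] {p : ℕ} [Fact p.Prime] (R : Sylow p G) (A : Subgroup G) (hAR : A ≤ (R : Subgroup G)) (hAn : (R : Subgroup G) ≤ Subgroup.normalizer (A : Set G)) (hC : (R : Subgroup G) ⊓ Subgroup.centralizer (A : Set G) = A) : ∃ H : Subgroup G, H ≤ Subgroup.centralizer (A : Set G) ∧ Nat.Coprime (Nat.card H) p ∧ Subgroup.centralizer (A : Set G) ≤ Subgroup.normalizer (H : Set G) ∧ H ⊓ A = ⊥ ∧ H ⊔ A = Subgroup.centralizer (A : Set G) := by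
  set C := Subgroup.centralizer (A : Set G) with hCdef
  have hS : H4.IsSylowIn p A C := by
    have := (H4.IsSylowIn.sylow_of_le R hAn).inf_of_normal_le (H4.centralizer_le_normalizer' A)
      (fun g hg => by
        rw [← H4.conj_smul_eq_iff_mem_normalizer, ← H4.centralizer_conj_smul,
          H4.conj_smul_eq_iff_mem_normalizer.mpr hg])
    rwa [hC] at this
  have hnpc : Cfsg.HasNormalPComplement p C := by
    apply H4.hasNPC_of_sylow_le_center hS.toSylow
    intro x hx
    exact Subgroup.mem_center_iff.mpr fun y => Subtype.ext (y.2 x hx).symm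
  have hcomp := H4.hasNPC_isComplement' hnpc hS.toSylow
  refine ⟨(Cfsg.pResidual p C).map C.subtype, Subgroup.map_subtype_le _, ?_, ?_, ?_, ?_⟩
  · rw [Subgroup.card_map_of_injective C.subtype_injective]
    exact H4.hasNPC_iff_pResidual.mp hnpc
  · rw [← Subgroup.normal_subgroupOf_iff_le_normalizer (Subgroup.map_subtype_le _),
      Subgroup.subgroupOf, Subgroup.comap_map_eq_self_of_injective C.subtype_injective]
    infer_instance
  · rw [← hS.map_toSylow, ← Subgroup.map_inf _ _ _ C.subtype_injective, hcomp.disjoint.eq_bot,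
      Subgroup.map_bot]
  · conv_lhs => rw [← hS.map_toSylow]
    rw [← Subgroup.map_sup, hcomp.sup_eq_top, ← MonoidHom.range_eq_map, Subgroup.range_subtype]

end Cfsg.Agent.S0125
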