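import Cfsg.Statements.S0140
import Mathlib
import Cfsg.Agent.H6.Values

set_option autoImplicit false
open Cfsg

namespace Cfsg.Agent.S0140

open Cfsg.Agent.H6

/-- Every value of the character of a complex representation of a finite group is an algebraic integer. -/
theorem result {G : Type*} [Group G] [Finite G] {V : Type*} [AddCommGroup V] [Module ℂ V] [FiniteDimensional ℂ V] (ρ : Representation ℂ G V) (g : G) : IsIntegral ℤ (ρ.character g) := by
  exact isIntegral_character ρ g

end Cfsg.Agent.S0140
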