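import Cfsg.Statements.S0160
import Mathlib
import Cfsg.Agent.H6.Except

set_option autoImplicit false
open Cfsg

namespace Cfsg.Agent.S0160

open Cfsg.Agent.H6

/-- A finite group has as many real-valued irreducible complex characters as conjugacy classes closed under taking inverses. -/
theorem result {G : Type*} [Group G] [Finite G] : Nat.card {χ : Cfsg.IrrCharacter G // ∀ g : G, ((χ : G → ℂ) g).im = 0} = Nat.card {C : ConjClasses G // ∀ g : G, ConjClasses.mk g = C → IsConj g g⁻¹} := by
  rw [← card_irr_fixed_eq (fun g : G => g⁻¹) fun χ hχ => by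
    simpa only [isIrr_inv hχ] using isIrr_conj hχ]
  exact Nat.card_congr (Equiv.subtypeEquivRight fun χ => by
    simp only [isIrr_inv χ.2, Complex.conj_eq_iff_im])

end Cfsg.Agent.S0160
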