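import Cfsg.Statements.S0162
import Mathlib
import Cfsg.Agent.H6.Except

set_option autoImplicit false
open Cfsg

namespace Cfsg.Agent.S0162

open Cfsg.Agent.H6

/-- If a finite group has odd order, its order is congruent to its number of conjugacy classes modulo 16. -/
theorem result {G : Type*} [Group G] [Finite G] (hodd : Odd (Nat.card G)) : Nat.card G ≡ Nat.card (ConjClasses G) [MOD 16] := by
  choose d hd0 hd using fun χ : IrrCharacter G => isIrr_degree χ.2
  have h1 : ∑ χ : IrrCharacter G, d χ ^ 2 = Nat.card G := by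
    have := sum_irr_degree_sq G
    simp only [hd] at this
    exact_mod_cast this
  let c : IrrCharacter G → IrrCharacter G :=
    fun χ => ⟨fun g => (starRingEnd ℂ) ((χ : G → ℂ) g), isIrr_conj χ.2⟩
  have h2 : ∀ χ, d (c χ) = d χ := fun χ => by
    have := hd (c χ)
    simp only [c, hd χ, map_natCast] at this
    exact_mod_cast this.symm
  have h3 : ∑ χ : IrrCharacter G, ((d χ : ZMod 16) ^ 2 - 1) = 0 := by
    refine Finset.sum_involution (fun χ _ => c χ) (fun χ _ => ?_) (fun χ _ h hc => h ?_)
      (fun _ _ => Finset.mem_univ _) (fun χ _ => Subtype.ext (funext fun g => by simp [c]))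
    · obtain ⟨k, hk⟩ := Odd.of_dvd_nat hodd (degree_dvd_card χ.2 (hd χ))
      rw [h2, hk]
      push_cast
      generalize (k : ZMod 16) = x
      revert x
      decide
    · have h4 := irr_eq_one_of_odd_of_real hodd χ.2 (congrArg Subtype.val hc)
      have h5 : (d χ : ℂ) = 1 := (hd χ).symm.trans (congrFun h4 1)
      have h6 : d χ = 1 := by exact_mod_cast h5
      simp [h6]
  rw [← ZMod.natCast_eq_natCast_iff, ← h1, ← card_irr_eq_card_conjClasses, ← sub_eq_zero, ← h3,
    Finset.sum_sub_distrib, Nat.card_eq_fintype_card]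
  simp

end Cfsg.Agent.S0162
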