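import Cfsg.Statements.S0166
import Mathlib
import Cfsg.Agent.H7.Field

set_option autoImplicit false
open Cfsg

namespace Cfsg.Agent.S0166

open Cfsg.Agent.H7

/-- Brauer's splitting field Theorem: a complex representation of a finite group of exponent m is equivalent to a representation by matrices with entries in ℚ adjoined exp(2πi/m). -/
theorem result {G : Type*} [Group G] [Finite G] (n : ℕ) (ρ : Representation ℂ G (Fin n → ℂ)) : ∃ σ : Representation ℂ G (Fin n → ℂ), Nonempty (ρ.Equiv σ) ∧ ∀ g : G, ∀ i j : Fin n, LinearMap.toMatrix' (σ g) i j ∈ Algebra.adjoin ℚ ({Complex.exp (2 * Real.pi * Complex.I / (Monoid.exponent G : ℂ))} : Set ℂ) := by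
  set ζ := Complex.exp (2 * Real.pi * Complex.I / (Monoid.exponent G : ℂ))
  have h0 : Monoid.exponent G ≠ 0 := Monoid.exponent_ne_zero_of_finite
  have hζ : IsPrimitiveRoot ζ (Monoid.exponent G) := Complex.isPrimitiveRoot_exp _ h0
  have hint : IsAlgebraic ℚ ζ := ((hζ.isIntegral h0.bot_lt).tower_top (A := ℚ)).isAlgebraic
  let K := IntermediateField.adjoin ℚ {ζ}
  obtain ⟨m, σ, hσ⟩ := charK_of_roots (K := K) (fun z hz => by
    have : NeZero (Monoid.exponent G) := ⟨h0⟩
    obtain ⟨i, -, rfl⟩ := hζ.eq_pow_of_pow_eq_one hz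
    exact ⟨⟨ζ ^ i, pow_mem (IntermediateField.mem_adjoin_simple_self ℚ ζ) i⟩, rfl⟩) (char_of_rep ρ)
  obtain rfl : m = n := by simpa using hσ 1
  refine ⟨repExt σ, H6.nonempty_equiv_of_character_eq _ _
    (funext fun g => ((character_repExt σ g).trans (hσ g)).symm), fun g i j => ?_⟩
  rw [toMatrix_repExt, ← IntermediateField.adjoin_simple_toSubalgebra_of_isAlgebraic hint]
  exact Subtype.prop _

end Cfsg.Agent.S0166
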