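import Cfsg.Statements.S0167
import Mathlib
import Cfsg.Agent.H6.Except

set_option autoImplicit false
open Cfsg

namespace Cfsg.Agent.S0167

open Cfsg.Agent.H6

/-- An element g of a finite group is a commutator if and only if the sum over the irreducible characters χ of χ g / χ 1 is nonzero. -/
theorem result {G : Type*} [Group G] [Finite G] (g : G) : (∃ a b : G, g = a * b * a⁻¹ * b⁻¹) ↔ ∑ᶠ χ : Cfsg.IrrCharacter G, (χ : G → ℂ) g / (χ : G → ℂ) 1 ≠ 0 := by
  have := Fintype.ofFinite G
  have h := congrArg (starRingEnd ℂ) (card_commutator_eq_sum g)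
  simp only [map_natCast, map_mul, map_sum, map_div₀, Complex.conj_conj] at h
  rw [Finset.sum_congr rfl fun χ _ => by rw [isCharacter_conj_one (isCharacter_of_irr χ.2)]] at h
  rw [finsum_eq_sum_of_fintype, ← mul_ne_zero_iff_left (card_ne_zero_complex G), ← h,
    Nat.cast_ne_zero, Nat.card_ne_zero, and_iff_left Subtype.finite, nonempty_subtype]
  exact ⟨fun ⟨a, b, h⟩ => ⟨(a, b), h.symm⟩, fun ⟨p, h⟩ => ⟨p.1, p.2, h.symm⟩⟩

end Cfsg.Agent.S0167
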