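import Cfsg.Statements.S0168
import Mathlib
import Cfsg.Agent.H6.Except

set_option autoImplicit false
open Cfsg

namespace Cfsg.Agent.S0168

open Cfsg.Agent.H6

/-- The Burnside–Brauer Theorem. Let χ be the character of a faithful complex representation of a finite group, taking m distinct values. Then every irreducible character has nonzero inner product with χ ^ i for some i < m. -/
theorem result {G : Type*} [Group G] [Fintype G] {V : Type*} [AddCommGroup V] [Module ℂ V] [FiniteDimensional ℂ V] (ρ : Representation ℂ G V) (hfaithful : Function.Injective ρ) (ψ : G → ℂ) (hψ : Cfsg.IsIrrCharacter G ψ) : ∃ i : ℕ, i < Nat.card (Set.range ρ.character) ∧ Cfsg.classInner (fun g => ρ.character g ^ i) ψ ≠ 0 := by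
  classical
  by_contra hcon
  push Not at hcon
  let S : Finset ℂ := Finset.univ.image ρ.character
  have hS : Nat.card (Set.range ρ.character) = S.card := by
    rw [Nat.card_coe_set_eq, ← Set.ncard_coe_finset]
    congr 1
    simp [S]
  have h1 : ρ.character 1 ∈ S := Finset.mem_image_of_mem _ (Finset.mem_univ 1)
  let p : Polynomial ℂ := ∏ a ∈ S.erase (ρ.character 1), (Polynomial.X - Polynomial.C a)
  have hdeg : p.natDegree < S.card := by
    rw [Polynomial.natDegree_finsetProd_X_sub_C_eq_card, Finset.card_erase_of_mem h1]
    exact Nat.sub_lt (Finset.card_pos.2 ⟨_, h1⟩) one_pos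
  have h2 : classInner (fun g => p.eval (ρ.character g)) ψ = 0 := by
    have : (fun g => p.eval (ρ.character g)) =
        ∑ i ∈ Finset.range S.card, p.coeff i • fun g => ρ.character g ^ i := by
      funext g
      rw [Polynomial.eval_eq_sum_range' hdeg]
      simp
    rw [this, classInner_sum_left]
    refine Finset.sum_eq_zero fun i hi => ?_
    rw [classInner_smul_left, hcon i (hS ▸ Finset.mem_range.1 hi), mul_zero]
  rw [classInner, Finset.sum_eq_single 1 (fun g _ hg => ?_) (by simp)] at h2
  · refine mul_ne_zero (inv_ne_zero (card_ne_zero_complex G)) (mul_ne_zero ?_ ?_) h2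
    · rw [Polynomial.eval_prod, Finset.prod_ne_zero_iff]
      intro a ha
      simpa [sub_eq_zero, -Representation.char_one] using (Finset.mem_erase.1 ha).1.symm
    · simpa using isIrr_one_ne_zero hψ
  · rw [Polynomial.eval_prod, Finset.prod_eq_zero (i := ρ.character g), zero_mul]
    · refine Finset.mem_erase.2 ⟨fun h => hg ?_, Finset.mem_image_of_mem _ (Finset.mem_univ g)⟩
      have := (mem_charKer_iff (isCharacter_character ρ)).2 h
      rwa [(charKer_eq_bot_iff_injective ρ).2 hfaithful, Subgroup.mem_bot] at this
    · simp

end Cfsg.Agent.S0168
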