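import Cfsg.Statements.S0173
import Mathlib
import Cfsg.Agent.H6.Except

set_option autoImplicit false
open Cfsg

namespace Cfsg.Agent.S0173

open Cfsg.Agent.H6

/-- Brauer's permutation lemma for a single automorphism: the number of conjugacy classes mapped to themselves equals the number of irreducible complex characters χ with χ ∘ α = χ. -/
theorem result {G : Type*} [Group G] [Finite G] (α : G ≃* G) : Nat.card {C : ConjClasses G // ConjClasses.map α.toMonoidHom C = C} = Nat.card {χ : Cfsg.IrrCharacter G // (χ : G → ℂ) ∘ α = (χ : G → ℂ)} := by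
  have h := card_irr_fixed_eq α fun χ hχ => isIrr_comp_equiv α hχ
  refine Eq.trans ?_ (h.symm.trans ?_)
  · refine Nat.card_congr (Equiv.subtypeEquivRight fun C => ?_)
    obtain ⟨x, rfl⟩ := ConjClasses.mk_surjective C
    change ConjClasses.mk (α x) = _ ↔ _
    simp only [ConjClasses.mk_eq_mk_iff_isConj]
    exact ⟨fun h g hg => (hg.trans h.symm).trans (α.toMonoidHom.map_isConj hg.symm),
      fun h => (h x (IsConj.refl x)).symm⟩
  · exact Nat.card_congr (Equiv.subtypeEquivRight fun χ => funext_iff.symm)

end Cfsg.Agent.S0173
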