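import Cfsg.Statements.S0175
import Mathlib
import Cfsg.Agent.H7.MGroup
import Cfsg.Agent.H6.Central

set_option autoImplicit false
open Cfsg

namespace Cfsg.Agent.S0175

open Cfsg.Agent.H7

/-- Taketa's Theorem on M-groups: if every irreducible complex character of a finite group is induced from a linear character (a homomorphism to ℂˣ) of some subgroup, the group is solvable. -/
theorem result {G : Type*} [Group G] [Fintype G] (hM : ∀ χ : G → ℂ, Cfsg.IsIrrCharacter G χ → ∃ (H : Subgroup G) (lam : H →* ℂˣ), χ = Cfsg.indFun H (fun h => (lam h : ℂ))) : Group.IsSolvable G := by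
  have hM' : ∀ χ : G → ℂ, IsIrrCharacter G χ → IsMonomial χ := fun χ hχ => by
    obtain ⟨U, lam, h⟩ := hM χ hχ
    exact ⟨U, lam, by rw [h, ind_subtype]⟩
  have key := derivedSeries_le_charKer hM' id le_rfl (fun _ _ _ _ _ _ _ _ h => h)
  refine ⟨Nat.card G, ?_⟩
  by_contra hne
  obtain ⟨χ, hχ, h⟩ := H6.exists_irr_not_le_charKer hne
  obtain ⟨d, hd⟩ := char_one_nat (irr_char hχ)
  exact h ((derivedSeries_antitone G
    (Nat.le_of_dvd Nat.card_pos (H6.degree_dvd_card hχ hd))).trans (key d hχ hd))

end Cfsg.Agent.S0175
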