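import Cfsg.Statements.S0178
import Mathlib
import Cfsg.Agent.H6.Except

set_option autoImplicit false
open Cfsg

namespace Cfsg.Agent.S0178

open Cfsg.Agent.H6

/-- The degree of an irreducible complex representation of a finite group is at most the index of any abelian subgroup. -/
theorem result {G : Type*} [Group G] [Finite G] {V : Type*} [AddCommGroup V] [Module ℂ V] [FiniteDimensional ℂ V] (ρ : Representation ℂ G V) [ρ.IsIrreducible] (A : Subgroup G) (hA : ∀ a ∈ A, ∀ b ∈ A, a * b = b * a) : Module.finrank ℂ V ≤ A.index := by
  have := Fintype.ofFinite G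
  have := Fintype.ofFinite A
  have h := isIrrCharacter_character ρ
  obtain ⟨θ, hθ, h1⟩ := exists_irr_under A h
  refine degree_le_of_constituent (isCharacter_indFun A (isCharacter_of_irr hθ)) h ?_ ρ.char_one ?_
  · rwa [classInner_indFun_left A θ (isClassFunction_of_irr h), Ne, classInner_eq_zero_comm]
  · rw [indFun_one, isIrr_degree_one_of_comm (fun a b => Subtype.ext (hA a a.2 b b.2)) hθ, mul_one]

end Cfsg.Agent.S0178
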