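import Cfsg.Statements.S0180
import Mathlib
import Cfsg.Agent.H6.Except

set_option autoImplicit false
open Cfsg

namespace Cfsg.Agent.S0180

open Cfsg.Agent.H6

/-- Every irreducible complex character of a finite group takes only rational values if and only if g is conjugate to g ^ m for every element g and every m coprime to the group order. -/
theorem result {G : Type*} [Group G] [Finite G] : (∀ χ : Cfsg.IrrCharacter G, ∀ g : G, ∃ q : ℚ, (χ : G → ℂ) g = (q : ℂ)) ↔ ∀ m : ℕ, m.Coprime (Nat.card G) → ∀ g : G, IsConj g (g ^ m) := by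
  constructor
  · intro h m hm g
    obtain ⟨τ, hτ⟩ := exists_ringEquiv_map_isGen hm
    refine (isConj_iff_forall_irr _ _).2 fun χ hχ => ?_
    obtain ⟨q, hq⟩ := h ⟨χ, hχ⟩ g
    rw [← hτ χ (isGen_of_irr hχ), show χ g = q from hq, map_ratCast]
  · intro h χ g
    refine exists_rat_of_fixed (isGen_isIntegral (isGen_of_irr χ.2) g).tower_top fun τ => ?_
    obtain ⟨m, hm, h1⟩ := exists_pow_map_isGen (G := G) τ.toRingHom
    exact (h1 _ (isGen_of_irr χ.2) g).trans
      (isClassFunction_eq_of_isConj (isClassFunction_of_irr χ.2) (h m hm g)).symm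

end Cfsg.Agent.S0180
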