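import Cfsg.Statements.S0186
import Mathlib
import Cfsg.Agent.H6.Misc

set_option autoImplicit false
open Cfsg

namespace Cfsg.Agent.S0186

open Cfsg.Agent.H6

/-- Let G be a finite simple group of order n and p a prime dividing n. If G has more than n / p^2 conjugacy classes, then every Sylow p-subgroup of G is abelian. -/
theorem result {G : Type*} [Group G] [Finite G] [IsSimpleGroup G] (p : ℕ) [Fact p.Prime] (hp : p ∣ Nat.card G) (hmany : Nat.card G < p ^ 2 * Nat.card (ConjClasses G)) (P : Sylow p G) (a b : G) (ha : a ∈ P) (hb : b ∈ P) : a * b = b * a := by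
  classical
  have hpp : p.Prime := Fact.out
  obtain ⟨k, hk⟩ := P.2.exists_card_eq
  by_cases h2 : p ^ 2 ∣ Nat.card G
  swap
  · have hk2 : k ≤ 1 := by
      by_contra h
      exact h2 ((pow_dvd_pow p (by omega)).trans (hk ▸ Subgroup.card_subgroup_dvd_card _))
    have : IsCyclic P := isCyclic_of_card_dvd_prime (p := p) (by
      rw [hk]
      simpa using pow_dvd_pow p hk2)
    have := IsCyclic.isMulCommutative (α := P)
    exact congrArg Subtype.val (mul_comm' (⟨a, ha⟩ : P) ⟨b, hb⟩)
  choose d hd0 hd using fun χ : IrrCharacter G => isIrr_degree χ.2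
  obtain ⟨χ, hχ1, hχ⟩ : ∃ χ : IrrCharacter G, χ ≠ trivIrr G ∧ d χ < p := by
    by_contra hcon
    push Not at hcon
    have h1 : ∑ χ : IrrCharacter G, d χ ^ 2 = Nat.card G := by
      have := sum_irr_degree_sq G
      simp only [hd] at this
      exact_mod_cast this
    rw [← Finset.add_sum_erase _ _ (Finset.mem_univ (trivIrr G))] at h1
    have h3 := Finset.card_nsmul_le_sum (Finset.univ.erase (trivIrr G)) (fun χ => d χ ^ 2) (p ^ 2)
      fun χ hχ => Nat.pow_le_pow_left (hcon χ (Finset.mem_erase.1 hχ).1) 2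
    rw [Finset.card_erase_of_mem (Finset.mem_univ _), Finset.card_univ, ← Nat.card_eq_fintype_card,
      card_irr_eq_card_conjClasses, smul_eq_mul] at h3
    obtain ⟨m, hm⟩ := h2
    have h4 : m < Nat.card (ConjClasses G) := by
      rw [hm] at hmany
      exact lt_of_mul_lt_mul_left hmany (Nat.zero_le _)
    have h5 : m * p ^ 2 ≤ (Nat.card (ConjClasses G) - 1) * p ^ 2 :=
      Nat.mul_le_mul_right _ (by omega)
    have h6 := pow_pos (hd0 (trivIrr G)) 2
    rw [mul_comm] at hm
    omega
  have h1 := charKer_eq_bot_of_simple χ.2 fun h => hχ1 (Subtype.ext h)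
  refine congrArg Subtype.val (comm_of_faithful_of_degree_lt
    (isCharacter_restrict (P : Subgroup G) (isCharacter_of_irr χ.2))
    (by rw [charKer_restrict _ (isCharacter_of_irr χ.2), h1, Subgroup.bot_subgroupOf])
    (hd χ) (fun q hq hqP => ?_) ⟨a, ha⟩ ⟨b, hb⟩)
  rw [hk] at hqP
  rwa [(Nat.prime_dvd_prime_iff_eq hq hpp).1 (hq.dvd_of_dvd_pow hqP)]

end Cfsg.Agent.S0186
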