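import Cfsg.Statements.S0197
import Mathlib
import Cfsg.Agent.H23.GL23
import Cfsg.Agent.H20.Simple
-- import your own Cfsg.Agent.* helpers here

set_option autoImplicit false
open Cfsg

namespace Cfsg.Agent.S0197

/-- If a finite simple group has an involution whose centralizer is isomorphic to the general linear group GL(2, 3), then the group has order 5616 or 7920. -/
theorem result {G : Type*} [Group G] [Finite G] [IsSimpleGroup G] (t : G) (ht : orderOf t = 2) (e : Subgroup.centralizer ({t} : Set G) ≃* Matrix.GeneralLinearGroup (Fin 2) (ZMod 3)) : Nat.card G = 5616 ∨ Nat.card G = 7920 := by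
  refine H23.GL23.card_eq ht e (H20.simple_index_ne_two fun h => ?_)
  have : ∀ a b : H23.GL23.K, a * b = b * a := fun a b => by
    obtain ⟨a, rfl⟩ := e.surjective a
    obtain ⟨b, rfl⟩ := e.surjective b
    rw [← map_mul, ← map_mul]
    exact congrArg e (Subtype.ext (h.is_comm.comm _ _))
  obtain ⟨a, ha⟩ := H23.GL23.exists_en (n := 31) (by decide)
  obtain ⟨b, hb⟩ := H23.GL23.exists_en (n := 37) (by decide)
  have := congrArg H23.GL23.en (this a b)
  rw [H23.GL23.en_mul, H23.GL23.en_mul, ha, hb] at this
  exact absurd this (by decide)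

end Cfsg.Agent.S0197
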