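import Cfsg.Statements.S0201
import Mathlib
import Cfsg.Agent.H8.Q8Char
import Cfsg.Agent.H2.Fitting

set_option autoImplicit false
open Cfsg

namespace Cfsg.Agent.S0201

/-- Brauer–Suzuki Theorem: if a Sylow 2-subgroup of a finite group is generalized quaternion (of order at least 8) and the group has no nontrivial normal subgroup of odd order, then its centre has order 2. -/
theorem result {G : Type*} [Group G] [Finite G] (S : Sylow 2 G) (n : ℕ) (e : (S : Subgroup G) ≃* QuaternionGroup (2 ^ (n + 1))) (hO : ∀ N : Subgroup G, N.Normal → Odd (Nat.card N) → N = ⊥) : Nat.card (Subgroup.center G) = 2 := by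
  cases n with
  | zero =>
    obtain ⟨z, h⟩ := H8.exists_q8 e
    have h1 : Cfsg.oddCore G = ⊥ := hO _ (by have := H2.pPrimeCore_characteristic (G := G) (p := 2); infer_instance)
      H2.odd_card_oddCore
    rw [h.center_eq (Subgroup.mem_center_iff.2 fun g => commutatorElement_eq_one_iff_mul_comm.1
      (by simpa [h1] using h.commutator_mem g)) hO, Nat.card_zpowers, h.ord]
  | succ n =>
    obtain ⟨x, y, h⟩ := H6.exists_quatData e
    rw [H6.quat_center_eq S h hO, Nat.card_zpowers, H6.quat_orderOf_pow S h]

end Cfsg.Agent.S0201
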