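import Cfsg.Statements.S0204
import Mathlib
import Cfsg.Agent.H8.ZStar2
import Cfsg.Agent.FT.Main

set_option autoImplicit false
open Cfsg

namespace Cfsg.Agent.S0204

/-- A non-cyclic finite simple group contains a subgroup which is a Klein four-group; this combines the Odd Order Theorem, Burnside's transfer argument for cyclic Sylow 2-subgroups and the Brauer–Suzuki Theorem. -/
theorem result {G : Type*} [Group G] [Finite G] [IsSimpleGroup G] (hG : ¬ IsCyclic G) : ∃ E : Subgroup G, IsKleinFour E := by
  by_contra h
  have h1 : ¬ Odd (Nat.card G) := fun ho => hG (by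
    have := FT.odd_order_solvable ho
    have h2 := IsSimpleGroup.comm_iff_isSolvable.2 this
    let _ : CommGroup G := { (inferInstance : Group G) with mul_comm := h2 }
    infer_instance)
  have : Fact (Nat.Prime 2) := ⟨Nat.prime_two⟩
  obtain ⟨z, hz⟩ := exists_prime_orderOf_dvd_card' 2 (even_iff_two_dvd.1 (Nat.not_odd_iff_even.1 h1))
  refine hG (isCyclic_of_prime_card (p := 2) (H8.not_simple_of_isolated (u := z) ⟨hz, fun g hg => ?_⟩))
  by_contra e
  exact h ⟨_, H8.isKleinFour_closure hz (by rw [H8.orderOf_conj', hz]) (Ne.symm e) hg⟩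

end Cfsg.Agent.S0204
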