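import Cfsg.Statements.S0210
import Mathlib
import Cfsg.Agent.H20.Invol

set_option autoImplicit false
open Cfsg

namespace Cfsg.Agent.S0210

open Cfsg.Agent.H20

/-- If x, y are involutions whose product has even order, no element of the subgroup generated by x and y conjugates x to y. -/
theorem result {G : Type*} [Group G] [Finite G] (x y : G) (hx : orderOf x = 2) (hy : orderOf y = 2) (heven : Even (orderOf (x * y))) (d : G) (hd : d ∈ Subgroup.closure ({x, y} : Set G)) : d * x * d⁻¹ ≠ y := by
  have hx' := mul_self_of_orderOf_two hx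
  have hy' := mul_self_of_orderOf_two hy
  rw [closure_pair_eq hx'] at hd
  obtain ⟨k, hk⟩ := conj_mul_zpow_of_inverts hx' (inverts_mul_left hx' hy') d hd 0
  rw [zpow_zero, mul_one] at hk
  intro h
  rw [hk] at h
  have h1 : (x * y) ^ (0 + 2 * k) = (x * y) ^ (1 : ℤ) := by
    rw [zpow_one]
    calc (x * y) ^ (0 + 2 * k) = (x * x) * (x * y) ^ (0 + 2 * k) := by rw [hx', one_mul]
      _ = x * y := by rw [mul_assoc, h]
  rw [zpow_eq_zpow_iff_modEq] at h1
  have h2 : (2 : ℤ) ∣ orderOf (x * y) := by exact_mod_cast heven.two_dvd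
  have h3 := (h1.of_dvd h2).dvd
  omega

end Cfsg.Agent.S0210
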