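import Cfsg.Statements.S0211
import Mathlib
import Cfsg.Agent.H20.Invol

set_option autoImplicit false
open Cfsg

namespace Cfsg.Agent.S0211

open Cfsg.Agent.H20

/-- Let x, y be involutions with xy of even order n and z = (xy)^(n/2). Then xz is conjugate to x by an element of the subgroup generated by x, y if and only if 4 divides n. -/
theorem result {G : Type*} [Group G] [Finite G] (x y : G) (hx : orderOf x = 2) (hy : orderOf y = 2) (heven : Even (orderOf (x * y))) : (∃ d ∈ Subgroup.closure ({x, y} : Set G), d * x * d⁻¹ = x * (x * y) ^ (orderOf (x * y) / 2)) ↔ 4 ∣ orderOf (x * y) := by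
  have hx' := mul_self_of_orderOf_two hx
  have hy' := mul_self_of_orderOf_two hy
  rw [closure_pair_eq hx']
  obtain ⟨m, hm⟩ := heven
  have hm' : orderOf (x * y) / 2 = m := by omega
  rw [hm']
  constructor
  · rintro ⟨d, hd, h⟩
    obtain ⟨k, hk⟩ := conj_mul_zpow_of_inverts hx' (inverts_mul_left hx' hy') d hd 0
    rw [zpow_zero, mul_one, h, mul_right_inj, ← zpow_natCast, zpow_eq_zpow_iff_modEq] at hk
    have h2 : (2 : ℤ) ∣ orderOf (x * y) := by rw [hm]; push_cast; omega
    have h3 := (hk.of_dvd h2).dvd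
    omega
  · intro h4
    obtain ⟨a, rfl⟩ : ∃ a, m = 2 * a := ⟨m / 2, by omega⟩
    refine ⟨(x * y) ^ (-(a : ℤ)), zpow_mem (Subgroup.subset_closure (by simp)) _, ?_⟩
    have := zpow_conj_mul_zpow_of_inverts (inverts_mul_left hx' hy') 0 a
    rw [zpow_zero, mul_one] at this
    rw [this, ← zpow_natCast]; simp

end Cfsg.Agent.S0211
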