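import Cfsg.Statements.S0212
import Mathlib
import Cfsg.Agent.H20.Simple

set_option autoImplicit false
open Cfsg

namespace Cfsg.Agent.S0212

open Cfsg.Agent.H20

/-- The Brauer–Fowler bound: if G is a finite simple group and t an involution of G whose centralizer has order n, then |G| ≤ (2n^2)!. -/
theorem result {G : Type*} [Group G] [Finite G] [IsSimpleGroup G] (t : G) (ht : orderOf t = 2) : Nat.card G ≤ Nat.factorial (2 * (Nat.card (Subgroup.centralizer ({t} : Set G))) ^ 2) := by
  set n := Nat.card (Subgroup.centralizer ({t} : Set G)) with hn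
  have hn2 : 2 ≤ n := by
    have h := (Subgroup.centralizer ({t} : Set G)).orderOf_dvd_natCard
      (mem_cent_iff.mpr (Commute.refl t))
    rw [ht] at h
    exact Nat.le_of_dvd Nat.card_pos h
  by_cases hG : IsMulCommutative G
  · have h1 : n = Nat.card G := by
      have : Subgroup.centralizer ({t} : Set G) = ⊤ := by
        rw [eq_top_iff]; intro g _
        exact mem_cent_iff.mpr (hG.is_comm.comm g t)
      rw [hn, this, Subgroup.card_top]
    rw [← h1]
    exact le_trans (by nlinarith) (Nat.self_le_factorial _)
  obtain ⟨H, hH, h⟩ := brauer_fowler_index (even_card_of_involution ht)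
    (by rw [simple_center_eq_bot hG]; simp)
  refine (Nat.le_of_dvd (Nat.factorial_pos _) (simple_card_dvd_factorial hH)).trans
    (Nat.factorial_le ?_)
  rcases h with h | h
  · nlinarith
  · have h1 := card_inv_mul_card_cent_ge ht
    rw [← hn] at h1
    set m := Nat.card {u : G // orderOf u = 2}
    have h2 : Nat.card G * (Nat.card G + m) ≤ (m * n) * (m * n + m) := by gcongr
    have h3 : m ^ 2 * (2 * H.index) < m ^ 2 * (n * (n + 1)) := by nlinarith
    have h4 := lt_of_mul_lt_mul_left h3 (Nat.zero_le _)
    nlinarith

end Cfsg.Agent.S0212
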