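import Cfsg.Statements.S0213
import Mathlib
import Cfsg.Agent.H20.Count

set_option autoImplicit false
open Cfsg

namespace Cfsg.Agent.S0213

open Cfsg.Agent.H20

/-- Thompson Order Formula, two-class case: if every involution of the finite group G is conjugate to exactly one of the non-conjugate involutions x₁, x₂, and nᵢ is the number of pairs (u, v) with u conjugate to x₁, v conjugate to x₂ and xᵢ in the cyclic group generated by uv, then |G| = |C(x₂)| n₁ + |C(x₁)| n₂. -/
theorem result {G : Type*} [Group G] [Finite G] (x₁ x₂ : G) (h₁ : orderOf x₁ = 2) (h₂ : orderOf x₂ = 2) (hnc : ¬ IsConj x₁ x₂) (hall : ∀ t : G, orderOf t = 2 → IsConj x₁ t ∨ IsConj x₂ t) : Nat.card G = Nat.card (Subgroup.centralizer ({x₂} : Set G)) * Nat.card {p : G × G // IsConj x₁ p.1 ∧ IsConj x₂ p.2 ∧ x₁ ∈ Subgroup.zpowers (p.1 * p.2)} + Nat.card (Subgroup.centralizer ({x₁} : Set G)) * Nat.card {p : G × G // IsConj x₁ p.1 ∧ IsConj x₂ p.2 ∧ x₂ ∈ Subgroup.zpowers (p.1 * p.2)} := by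
  classical
  haveI := Fintype.ofFinite G
  have h := thompson_order_sum h₁ h₂ hnc
  have e : (Finset.univ.filter fun w : G => orderOf w = 2) =
      (Finset.univ.filter fun w : G => IsConj x₁ w) ∪
        (Finset.univ.filter fun w : G => IsConj x₂ w) := by
    ext w
    simp only [Finset.mem_filter, Finset.mem_univ, true_and, Finset.mem_union]
    refine ⟨hall w, ?_⟩
    rintro (h | h)
    · rw [← orderOf_eq_of_isConj h, h₁]
    · rw [← orderOf_eq_of_isConj h, h₂]
  rw [e, Finset.sum_union (by
    rw [Finset.disjoint_filter]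
    exact fun w _ h h' => hnc (h.trans h'.symm)),
    Finset.sum_const_nat (m := thompsonCount x₁ x₂ x₁) (fun w hw =>
      (thompsonCount_isConj (Finset.mem_filter.mp hw).2).symm),
    Finset.sum_const_nat (m := thompsonCount x₁ x₂ x₂) (fun w hw =>
      (thompsonCount_isConj (Finset.mem_filter.mp hw).2).symm),
    ← natCard_subtype_eq_filter, ← natCard_subtype_eq_filter] at h
  have e1 := card_isConj_mul_card_cent x₁
  have e2 := card_isConj_mul_card_cent x₂
  change Nat.card G = _ * thompsonCount x₁ x₂ x₁ + _ * thompsonCount x₁ x₂ x₂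
  have hpos : 0 < Nat.card G := Nat.card_pos
  apply Nat.eq_of_mul_eq_mul_left hpos
  generalize Nat.card {g : G // IsConj x₁ g} = a at *
  generalize Nat.card {g : G // IsConj x₂ g} = b at *
  generalize Nat.card (Subgroup.centralizer ({x₁} : Set G)) = c at *
  generalize Nat.card (Subgroup.centralizer ({x₂} : Set G)) = d at *
  calc Nat.card G * Nat.card G = (a * c) * (b * d) := by rw [e1, e2]
    _ = (a * b) * c * d := by ring
    _ = (a * c) * (d * thompsonCount x₁ x₂ x₁) + (b * d) * (c * thompsonCount x₁ x₂ x₂) := by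
      rw [h]; ring
    _ = _ := by rw [e1, e2]; ring

end Cfsg.Agent.S0213
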