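import Cfsg.Statements.S0218
import Mathlib
import Cfsg.Agent.H3.Two

set_option autoImplicit false
open Cfsg

namespace Cfsg.Agent.S0218

/-- The generalized quaternion group of order 2^(n+3) contains exactly one element of order 2. -/
theorem result (n : ℕ) : Nat.card {x : QuaternionGroup (2 ^ (n + 1)) // orderOf x = 2} = 1 := by
  open Subgroup Cfsg.Agent.FT Cfsg.Agent.H3 in
  open scoped commutatorElement in
  · have h := mcq_quaternion (m := n + 2) (by omega)
    exact Nat.card_eq_one_iff_exists.2 ⟨⟨_, h.ord_z⟩, fun y => Subtype.ext (h.eq_z_of_sq (mem_top _)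
      (by have := pow_orderOf_eq_one y.1; rwa [y.2] at this) fun e => by simpa [e] using y.2)⟩

end Cfsg.Agent.S0218
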