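import Cfsg.Statements.S0220
import Mathlib
import Cfsg.Agent.H20.SE
import Cfsg.Agent.H20.Simple

set_option autoImplicit false
open Cfsg

namespace Cfsg.Agent.S0220

open Cfsg.Agent.H20

/-- If x is an involution of a finite group G and a Sylow 2-subgroup of the centralizer of x is cyclic, then G has a subgroup of index 2; in particular G is not simple unless it has order 2. -/
theorem result {G : Type*} [Group G] [Finite G] (x : G) (hx : orderOf x = 2) (S : Sylow 2 ↥(Subgroup.centralizer ({x} : Set G))) (hS : IsCyclic (S : Subgroup ↥(Subgroup.centralizer ({x} : Set G)))) : ∃ H : Subgroup G, H.index = 2 := by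
  have hR := H18.sylIn_map_subtype S
  set R := (S : Subgroup ↥(Subgroup.centralizer ({x} : Set G))).map
    (Subgroup.centralizer ({x} : Set G)).subtype
  have hc : IsCyclic R :=
    isCyclic_of_surjective _ (Subgroup.equivMapOfInjective _ _ (Subgroup.subtype_injective _)).surjective
  have hxR : x ∈ R := hR.le_of_normal (N := Subgroup.zpowers x)
    (Subgroup.zpowers_le.mpr (mem_cent_iff.mpr (Commute.refl x)))
    (isPGroup_zpowers_of_mul_self (mul_self_of_orderOf_two hx)) (by
      rintro g hg _ ⟨n, rfl⟩
      exact ⟨n, by simp only [← conj_zpow, mem_cent_iff_conj.mp hg]⟩) (Subgroup.mem_zpowers x)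
  obtain ⟨c, hc'⟩ := (Subgroup.isCyclic_iff_exists_zpowers_eq_top R).mp hc
  have hN : Subgroup.normalizer (R : Set G) ≤ Subgroup.centralizer {x} := by
    intro g hg
    have h1 := H22.conj_mem_of_N hg hxR
    rw [← hc'] at h1 hxR
    rw [mem_cent_iff_conj, (eq_pow_half_of_mem_zpowers (by rw [orderOf_conj, hx]) h1).2,
      ← (eq_pow_half_of_mem_zpowers hx hxR).2]
  obtain ⟨T, hT⟩ := (sylIn_top_of_sylIn_normalizer
    (hR.mono Subgroup.le_normalizer hN)).exists_sylow_top
  exact exists_index_two_of_cyclic_sylow (even_card_of_involution hx) T (hT ▸ hc)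

end Cfsg.Agent.S0220
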