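import Cfsg.Statements.S0221
import Mathlib
import Cfsg.Agent.H2.Sig2

set_option autoImplicit false
open Cfsg

namespace Cfsg.Agent.S0221

open Cfsg.Agent.FT Subgroup
open scoped commutatorElement

/-- Let G be a finite group with no subgroup of index 2 whose 2-rank is at least 3 (it contains an elementary abelian subgroup of order 8). Then the centralizer of every involution of G also contains an elementary abelian subgroup of order 8. -/
theorem result {G : Type*} [Group G] [Finite G] (hno : ∀ H : Subgroup G, H.index ≠ 2) (hrank : ∃ E : Subgroup G, Nat.card E = 8 ∧ ∀ e ∈ E, e ^ 2 = 1) (x : G) (hx : orderOf x = 2) : ∃ E : Subgroup G, E ≤ Subgroup.centralizer ({x} : Set G) ∧ Nat.card E = 8 ∧ ∀ e ∈ E, e ^ 2 = 1 := by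
  obtain ⟨E, h8, hE⟩ := hrank
  have h1 : ∀ e ∈ E, e⁻¹ = e := fun e he => inv_eq_of_mul_eq_one_right (by rw [← pow_two, hE e he])
  have hA : E8 E := ⟨abelem_iff.2 ⟨ab_iff_forall.2 fun a ha b hb => by
    rw [← h1 _ (mul_mem ha hb), mul_inv_rev, h1 a ha, h1 b hb], hE⟩, h8.ge⟩
  obtain ⟨A, hA', h2⟩ := rk3_of_no_index_two (fun N _ => hno N) hA x hx
  obtain ⟨B, -, h3, h4⟩ := hA'.pGrp.exists_between (n := 3) Nat.prime_two bot_le (by rw [card_bot']; norm_num) hA'.le
  exact ⟨B, h3.trans h2, h4, fun e he => hA'.el.pow (h3 he)⟩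

end Cfsg.Agent.S0221
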