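import Cfsg.Statements.S0226
import Mathlib
import Cfsg.Agent.H20.Count

set_option autoImplicit false
open Cfsg

namespace Cfsg.Agent.S0226

open Cfsg.Agent.H20

/-- A finite group of even order has an odd number of involutions. -/
theorem result {G : Type*} [Group G] [Finite G] (heven : Even (Nat.card G)) : Odd (Nat.card {t : G // orderOf t = 2}) := by
  classical
  haveI := Fintype.ofFinite G
  let f : Function.End G := fun g => g⁻¹
  have hf : f ^ 2 ^ 1 = 1 := by
    funext g
    exact inv_inv g
  have h1 := Equiv.Perm.card_fixedPoints_modEq hf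
  have h2 : Fintype.card f.fixedPoints = Nat.card {t : G // orderOf t = 2} + 1 := by
    rw [natCard_subtype_eq_filter, ← Finset.card_insert_of_notMem (a := (1 : G)) (by simp),
      ← Set.toFinset_card]
    congr 1
    ext g
    simp only [Set.mem_toFinset, Function.mem_fixedPoints, Function.IsFixedPt, f,
      Finset.mem_insert, Finset.mem_filter, Finset.mem_univ, true_and, orderOf_two_iff,
      inv_eq_iff_mul_eq_one]
    by_cases h : g = 1 <;> simp [h]
  rw [h2, ← Nat.card_eq_fintype_card] at h1
  obtain ⟨m, hm⟩ := heven
  rw [Nat.odd_iff]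
  unfold Nat.ModEq at h1
  omega

end Cfsg.Agent.S0226
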