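import Cfsg.Statements.S0227
import Mathlib
import Cfsg.Agent.H8.Glaub
import Cfsg.Agent.FT.Main

set_option autoImplicit false
open Cfsg

namespace Cfsg.Agent.S0227

/-- Let G be a finite group with no nontrivial normal subgroup of odd order, S a Sylow 2-subgroup, and C the group of automorphisms of G that fix every element of S. Then every Sylow 2-subgroup of C is abelian and has a normal complement in C; in particular C is solvable. -/
theorem result {G : Type*} [Group G] [Finite G] (hO : ∀ N : Subgroup G, N.Normal → Odd (Nat.card N) → N = ⊥) (S : Sylow 2 G) (C : Subgroup (MulAut G)) (hC : ∀ φ : MulAut G, φ ∈ C ↔ ∀ s : G, s ∈ S → φ s = s) : (∀ T : Sylow 2 ↥C, (∀ a b : ↥T, a * b = b * a) ∧ ∃ N : Subgroup ↥C, N.Normal ∧ Subgroup.IsComplement' N (T : Subgroup ↥C)) ∧ Group.IsSolvable ↥C := by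
  have hO' : oddCore G = ⊥ := hO _ inferInstance H2.odd_card_oddCore
  have h1 : ∀ T : Sylow 2 C, Subgroup.normalizer ((T : Subgroup C) : Set C) ≤
      Subgroup.centralizer ((T : Subgroup C) : Set C) := fun T ν hν t ht => Subtype.ext <|
    H8.glaub_comm hO' S (T.2.map C.subtype) (by rintro _ ⟨t, -, rfl⟩; exact (hC _).1 t.2)
      (Subgroup.le_normalizer_map _ ⟨ν, hν, rfl⟩) ((hC _).1 ν.2) _ ⟨t, ht, rfl⟩
  have h2 : ∀ T : Sylow 2 C, ∀ a b : T, a * b = b * a := fun T a b =>
    Subtype.ext (h1 T (Subgroup.le_normalizer b.2) a a.2)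
  have h3 := fun T : Sylow 2 C =>
    (H4.hasNPC_iff_sylow T).1 (H4.hasNPC_of_normalizer_le_centralizer T (h1 T))
  refine ⟨fun T => ⟨h2 T, h3 T⟩, ?_⟩
  obtain ⟨T⟩ : Nonempty (Sylow 2 C) := inferInstance
  obtain ⟨N, hN, h⟩ := h3 T
  have h4 : Group.IsSolvable N := FT.odd_order_solvable (by
    rw [← h.index_eq_card, ← Nat.not_even_iff_odd, even_iff_two_dvd]
    exact T.not_dvd_index)
  have h5 : Group.IsSolvable (T : Subgroup C) := Group.isSolvable_of_comm (h2 T)
  exact (Group.isSolvable_iff_subgroup_quotient N).2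
    ⟨h4, Group.isSolvable_of_surjective (f := h.symm.QuotientMulEquiv.symm.toMonoidHom) (MulEquiv.surjective _)⟩

end Cfsg.Agent.S0227
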