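import Cfsg.Statements.S0228
import Cfsg.Agent.H10.SmallId
import Cfsg.Agent.FT.Cyc
-- import your own Cfsg.Agent.* helpers here

set_option autoImplicit false
open Cfsg

namespace Cfsg.Agent.S0228

/-- A group of order 12 in which no involution is central is isomorphic to the alternating group on four letters. -/
theorem result {G : Type*} [Group G] [Finite G] (hG : Nat.card G = 12) (hz : ∀ z : G, orderOf z = 2 → z ∉ Subgroup.center G) : Nonempty (G ≃* alternatingGroup (Fin 4)) := by
  have : Fact (Nat.Prime 3) := ⟨by norm_num⟩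
  obtain ⟨x, hx⟩ := exists_prime_orderOf_dvd_card' (G := G) 3 (by rw [hG]; norm_num)
  have hc : Nat.card (Subgroup.zpowers x) = 3 := by rw [Nat.card_zpowers, hx]
  have hi : (Subgroup.zpowers x).index = 4 := by
    have := (Subgroup.zpowers x).card_mul_index
    rw [hc, hG] at this
    omega
  refine H10.nonempty_equiv_alternating_of_core _ hi ?_ (by rw [hG]; rfl)
  by_contra hne
  have hle := (Subgroup.zpowers x).normalCore_le
  have hcc : Nat.card (Subgroup.zpowers x).normalCore = 3 := by
    have hd := Subgroup.card_dvd_of_le hle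
    rw [hc] at hd
    rcases (Nat.dvd_prime (by norm_num)).mp hd with h | h
    · exact absurd (Subgroup.card_eq_one.mp h) hne
    · exact h
  have heq := Subgroup.eq_of_le_of_card_ge hle (by omega)
  have hN : (Subgroup.zpowers x).Normal := heq ▸ inferInstance
  have hr := FT.relIndex_cen_dvd_pred (X := Subgroup.zpowers x) (A := ⊤) (p := 3) (by norm_num) hc
    (by rw [Subgroup.normalizer_eq_top_iff.mpr hN])
  rw [Subgroup.relIndex_top_right] at hr
  set C := Subgroup.centralizer ((Subgroup.zpowers x : Subgroup G) : Set G) with hC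
  have h2 : 2 ∣ Nat.card C := by
    have h1 := C.card_mul_index
    rw [hG] at h1
    rcases (Nat.dvd_prime (by norm_num)).mp hr with h | h <;> rw [h] at h1 <;> omega
  obtain ⟨t, ht⟩ := exists_prime_orderOf_dvd_card' (G := C) 2 h2
  have ht' : orderOf (t : G) = 2 := by rw [Subgroup.orderOf_coe, ht]
  apply hz t ht'
  have hp : IsPGroup 2 (Subgroup.zpowers (t : G)) :=
    IsPGroup.of_card (n := 1) (by rw [Nat.card_zpowers, ht']; rfl)
  obtain ⟨T, hT⟩ := hp.exists_le_sylow
  have hT4 : Nat.card (T : Subgroup G) = 2 ^ 2 := by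
    rw [Sylow.card_eq_multiplicity, hG]
    congr 1
    rw [show 12 = 2 ^ 2 * 3 by norm_num, Nat.factorization_mul (by norm_num) (by norm_num),
      Nat.Prime.factorization_pow Nat.prime_two]
    simp [Nat.Prime.factorization (show Nat.Prime 3 by norm_num)]
  have hcomm := IsPGroup.isMulCommutative_of_card_eq_prime_sq hT4
  set D := Subgroup.centralizer ({(t : G)} : Set G) with hD
  have h3 : 3 ∣ Nat.card D := by
    rw [← hc]
    apply Subgroup.card_dvd_of_le
    intro y hy
    exact Subgroup.mem_centralizer_singleton_iff.mpr (t.2 y hy)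
  have h4 : 2 ^ 2 ∣ Nat.card D := by
    rw [← hT4]
    apply Subgroup.card_dvd_of_le
    intro y hy
    exact Subgroup.mem_centralizer_singleton_iff.mpr
      (congrArg Subtype.val (hcomm.is_comm.comm ⟨y, hy⟩ ⟨t, hT (Subgroup.mem_zpowers _)⟩))
  have hD12 : Nat.card D = Nat.card G := by
    apply Nat.dvd_antisymm D.card_subgroup_dvd_card
    rw [hG]; omega
  have : D = ⊤ := Subgroup.eq_top_of_card_eq _ hD12
  rw [Subgroup.mem_center_iff]
  intro g
  exact Subgroup.mem_centralizer_singleton_iff.mp (show g ∈ D by rw [this]; trivial)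

end Cfsg.Agent.S0228
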