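import Cfsg.Statements.S0230
import Mathlib
import Cfsg.Agent.H20.Count

set_option autoImplicit false
open Cfsg

namespace Cfsg.Agent.S0230

open Cfsg.Agent.H20

/-- Let G be a finite group with two non-conjugate involutions, and let t be an involution whose centralizer has maximal order among centralizers of involutions. Then |G| < |C_G(t)|^3. -/
theorem result {G : Type*} [Group G] [Finite G] (s t : G) (hs : orderOf s = 2) (ht : orderOf t = 2) (hnc : ¬ IsConj s t) (hmax : ∀ u : G, orderOf u = 2 → Nat.card (Subgroup.centralizer ({u} : Set G)) ≤ Nat.card (Subgroup.centralizer ({t} : Set G))) : Nat.card G < Nat.card (Subgroup.centralizer ({t} : Set G)) ^ 3 := by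
  classical
  haveI := Fintype.ofFinite G
  set n := Nat.card (Subgroup.centralizer ({t} : Set G)) with hn
  have h1 : (Finset.univ.filter fun u : G => IsConj s u) ⊆
      (Finset.univ.filter fun z : G => orderOf z = 2 ∧ Commute z t).biUnion
        fun z => Finset.univ.filter fun u : G => u ∈ Subgroup.centralizer ({z} : Set G) := by
    intro u hu
    simp only [Finset.mem_filter, Finset.mem_univ, true_and, Finset.mem_biUnion] at hu ⊢
    have hu2 := mul_self_of_orderOf_two (x := u) (by rw [← orderOf_eq_of_isConj hu, hs])
    have ht2 := mul_self_of_orderOf_two ht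
    have heven : Even (orderOf (u * t)) := by
      rw [← Nat.not_odd_iff_even]
      exact fun h => hnc (hu.trans (isConj_of_odd_orderOf_mul hu2 ht2 h))
    obtain ⟨h1, h2, h3⟩ := half_pow_spec hu2 ht2 heven
    exact ⟨_, ⟨h1, h3⟩, mem_cent_iff.mpr h2.symm⟩
  have h2 := (Finset.card_le_card h1).trans (Finset.card_biUnion_le_card_mul _ _ n (by
    intro z hz
    simp only [Finset.mem_filter, Finset.mem_univ, true_and] at hz
    rw [← natCard_subtype_eq_filter]
    exact hmax z hz.1))
  rw [← natCard_subtype_eq_filter, ← natCard_subtype_eq_filter] at h2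
  have h3 : Nat.card {z : G // orderOf z = 2 ∧ Commute z t} < n :=
    natCard_subtype_lt (a := 1) (fun t ht => mem_cent_iff.mpr ht.2) (one_mem _) (by simp)
  have h4 := hmax s hs
  have h5 : 0 < n := Nat.card_pos
  rw [← card_isConj_mul_card_cent s]
  calc _ ≤ Nat.card {z : G // orderOf z = 2 ∧ Commute z t} * n * n := Nat.mul_le_mul h2 h4
    _ < n * n * n := by gcongr
    _ = n ^ 3 := by ring

end Cfsg.Agent.S0230
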