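import Cfsg.Statements.S0231
import Mathlib
import Cfsg.Agent.H20.SE

set_option autoImplicit false
open scoped Pointwise
open Cfsg

namespace Cfsg.Agent.S0231

open Cfsg.Agent.H20

/-- Let T be a Sylow 2-subgroup of the finite group G which is not normal and which intersects every other Sylow 2-subgroup trivially. Then G has a single conjugacy class of involutions. -/
theorem result {G : Type*} [Group G] [Finite G] (T : Sylow 2 G) (hnn : ¬ (T : Subgroup G).Normal) (hTI : ∀ g : G, MulAut.conj g • (T : Subgroup G) ≠ T → MulAut.conj g • (T : Subgroup G) ⊓ T = ⊥) (s t : G) (hs : orderOf s = 2) (ht : orderOf t = 2) : IsConj s t := by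
  refine se_isConj (se_normalizer_of_TI T hnn fun g t htT ht hg => ?_) hs ht
  by_contra hgN
  have h1 := hTI g (fun h => hgN (conjMap_eq_iff_mem_normalizer.mp h))
  have h2 : g * t * g⁻¹ ∈ (MulAut.conj g • (T : Subgroup G)) ⊓ T :=
    ⟨conj_mem_conjMap.mpr htT, hg⟩
  rw [h1, Subgroup.mem_bot] at h2
  exact ne_one_of_orderOf_two (by rw [orderOf_conj, ht]) h2

end Cfsg.Agent.S0231
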