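import Cfsg.Statements.S0232
import Mathlib
import Cfsg.Agent.H20.Simple

set_option autoImplicit false
open Cfsg

namespace Cfsg.Agent.S0232

open Cfsg.Agent.H20

/-- A finite group G of even order greater than 2 has a proper subgroup H with |G| < |H|^3. -/
theorem result {G : Type*} [Group G] [Finite G] (heven : Even (Nat.card G)) (hgt : 2 < Nat.card G) : ∃ H : Subgroup G, H ≠ ⊤ ∧ Nat.card G < (Nat.card H) ^ 3 := by
  induction hn : Nat.card G using Nat.strong_induction_on generalizing G with
  | _ n ih =>
  subst hn
  have two : ∀ H : Subgroup G, H.index = 2 → H ≠ ⊤ ∧ Nat.card G < Nat.card H ^ 3 := by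
    intro H hH
    refine ⟨fun h => by simp [h] at hH, ?_⟩
    have := H.index_mul_card
    rw [hH] at this
    rw [← this] at hgt ⊢
    have h2 : 2 ≤ Nat.card H := by omega
    have h3 : 2 * 2 ≤ Nat.card H * Nat.card H := Nat.mul_le_mul h2 h2
    nlinarith
  by_cases hZ : Odd (Nat.card (Subgroup.center G))
  · obtain ⟨H, hH, h⟩ := brauer_fowler_index heven hZ
    rcases h with h | h
    · exact ⟨H, two H h⟩
    obtain ⟨t, ht⟩ := exists_involution_of_even heven
    have hC : Subgroup.centralizer ({t} : Set G) ≠ ⊤ := by
      intro h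
      rw [Subgroup.centralizer_eq_top_iff_subset, Set.singleton_subset_iff] at h
      exact (odd_card_iff.mp hZ) t h ht
    have h1 := card_inv_mul_card_cent_ge ht
    set n := Nat.card (Subgroup.centralizer ({t} : Set G)) with hn
    set m := Nat.card {u : G // orderOf u = 2}
    have h2 : Nat.card G * (Nat.card G + m) ≤ (m * n) * (m * n + m) := by gcongr
    have h3 : m ^ 2 * (2 * H.index) < m ^ 2 * (n * (n + 1)) := by nlinarith
    have h4 := lt_of_mul_lt_mul_left h3 (Nat.zero_le _)
    have h5 : 0 < n := Nat.card_pos
    have h6 : H.index < n * n := by nlinarith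
    have h7 : 0 < Nat.card H := Nat.card_pos
    rcases le_total n (Nat.card H) with h8 | h8
    · refine ⟨H, hH, ?_⟩
      rw [← H.index_mul_card]
      calc H.index * Nat.card H < n * n * Nat.card H := by gcongr
        _ ≤ Nat.card H * Nat.card H * Nat.card H := by gcongr
        _ = _ := by ring
    · refine ⟨_, hC, ?_⟩
      rw [← H.index_mul_card, ← hn]
      calc H.index * Nat.card H < n * n * Nat.card H := by gcongr
        _ ≤ n * n * n := by gcongr
        _ = _ := by ring
  · rw [Nat.not_odd_iff_even] at hZ
    obtain ⟨z, hzZ, hz⟩ := exists_involution_mem_of_even hZ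
    have hle : Subgroup.zpowers z ≤ Subgroup.center G := Subgroup.zpowers_le.mpr hzZ
    haveI : (Subgroup.zpowers z).Normal := ⟨fun n hn g => by
      rw [Subgroup.mem_center_iff.mp (hle hn) g]; simpa using hn⟩
    have hc : Nat.card (Subgroup.zpowers z) = 2 := by rw [Nat.card_zpowers, hz]
    have hq : Nat.card G = Nat.card (G ⧸ Subgroup.zpowers z) * 2 := by
      rw [← hc, ← Subgroup.card_eq_card_quotient_mul_card_subgroup]
    by_cases he : Even (Nat.card (G ⧸ Subgroup.zpowers z))
    · by_cases h2 : 2 < Nat.card (G ⧸ Subgroup.zpowers z)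
      · obtain ⟨K, hK, hK'⟩ := ih _ (by omega) he h2 rfl
        refine ⟨K.comap (QuotientGroup.mk' _), ?_, ?_⟩
        · intro h
          apply hK
          rw [← Subgroup.index_eq_one, ← Subgroup.index_comap_of_surjective _
            (QuotientGroup.mk'_surjective _), h, Subgroup.index_top]
        · have h3 := (K.comap (QuotientGroup.mk' (Subgroup.zpowers z))).index_mul_card
          rw [Subgroup.index_comap_of_surjective _ (QuotientGroup.mk'_surjective _), hq,
            ← K.index_mul_card, mul_assoc] at h3
          have h4 := Nat.eq_of_mul_eq_mul_left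
            (Nat.pos_of_ne_zero Subgroup.index_ne_zero_of_finite) h3
          rw [h4, hq, mul_pow]
          omega
      · refine ⟨Subgroup.zpowers z, two _ ?_⟩
        obtain ⟨a, ha⟩ := he
        rw [Subgroup.index_eq_card]
        omega
    · obtain ⟨T⟩ : Nonempty (Sylow 2 G) := inferInstance
      have hT : Nat.card T = 2 := by
        rw [T.card_eq_multiplicity, hq, Nat.factorization_mul Nat.card_pos.ne' two_ne_zero]
        simp [Nat.factorization_eq_zero_of_not_dvd (mt even_iff_two_dvd.mpr he),
          Nat.prime_two.factorization_self]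
      obtain ⟨H, hH⟩ := exists_index_two_of_cyclic_sylow heven T (isCyclic_of_prime_card hT)
      exact ⟨H, two H hH⟩

end Cfsg.Agent.S0232
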