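import Cfsg.Statements.S0234
import Mathlib
import Cfsg.Agent.H6.Square
import Cfsg.Agent.H6.Kernel
-- import your own Cfsg.Agent.* helpers here

set_option autoImplicit false
open Cfsg

namespace Cfsg.Agent.S0234

open Cfsg.Agent.H6 Subgroup

/-- In a finite simple group G of even order greater than 2, the number n of involutions satisfies 3n < |G|. -/
theorem result {G : Type*} [Group G] [Finite G] [IsSimpleGroup G] (heven : Even (Nat.card G)) (hgt : 2 < Nat.card G) : 3 * Nat.card {t : G // orderOf t = 2} < Nat.card G := by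
  classical
  have := Fintype.ofFinite G
  have hn : ¬ ∀ a b : G, a * b = b * a := fun h => by
    let _ : CommGroup G := { mul_comm := h }
    have := (IsSimpleGroup.prime_card (α := G)).even_iff.1 heven
    omega
  have hz : center G = ⊥ := (inferInstance : (center G).Normal).eq_bot_or_eq_top.resolve_right fun e =>
    hn fun a b => mem_center_iff.1 (e.ge (mem_top b)) a
  have hc : commutator G = ⊤ := (inferInstance : (commutator G).Normal).eq_bot_or_eq_top.resolve_left fun e =>
    hn fun a b => commutatorElement_eq_one_iff_mul_comm.1 (e.le (commutator_mem_commutator (mem_top a) (mem_top b)))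
  have lin : ∀ χ, IsIrrCharacter G χ → χ 1 = 1 → χ = fun _ => 1 := fun χ h h1 =>
    irr_eq_one_of_charKer_eq_top h (top_le_iff.1 (hc ▸ (degree_eq_one_iff_commutator_le h).1 h1))
  have := Fact.mk Nat.prime_two
  obtain ⟨t, ht⟩ := exists_prime_orderOf_dvd_card' (G := G) 2 heven.two_dvd
  have t2 : t * t = 1 := by rw [← pow_two, ← ht, pow_orderOf_eq_one]
  choose d hd hd1 using fun χ : IrrCharacter G => isIrr_degree χ.2
  have h3 : ∀ χ, χ ≠ trivIrr G → 3 ≤ d χ := fun χ h => by
    by_contra! k
    have := hd χ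
    have h' : χ.1 ≠ fun _ => 1 := fun e => h (Subtype.ext e)
    obtain e | e : d χ = 1 ∨ d χ = 2 := by omega
    · exact h' (lin _ χ.2 (by rw [hd1, e, Nat.cast_one]))
    have k1 : χ.1 1 = 2 := by rw [hd1, e, Nat.cast_two]
    have k2 : (χ.1 1 ^ 2 - χ.1 (1 * 1)) / 2 = 1 := by rw [mul_one, k1]; norm_num
    have k3 := congrFun (lin _ (isIrr_of_degree_one (isCharacter_altSq (isCharacter_of_irr χ.2)) k2) k2) t
    simp only [t2, k1] at k3
    have k4 : ‖χ.1 t‖ ^ 2 = ‖χ.1 1‖ ^ 2 := by
      rw [← norm_pow, ← norm_pow, k1]; congr 1; linear_combination 2 * k3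
    have k5 := (mem_charCenter_iff (isCharacter_of_irr χ.2)).2 ((pow_left_inj₀ (norm_nonneg _) (norm_nonneg _) two_ne_zero).1 k4)
    rw [charCenter_eq_center χ.2 (charKer_eq_bot_of_simple χ.2 h'), hz, mem_bot] at k5
    simp [k5] at ht
  have s1 : ∑ χ, d χ ^ 2 = Nat.card G := by
    have := sum_irr_degree_sq G
    simp only [hd1] at this
    exact_mod_cast this
  have s2 : Nat.card {s : G // s * s = 1} ≤ ∑ χ, d χ := by
    have := congrArg Complex.re (card_sqrt_eq_sum (1 : G))
    simp only [hd1, Complex.natCast_re, Complex.re_sum, map_natCast] at this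
    have k : (Nat.card {s : G // s * s = 1} : ℝ) ≤ ∑ χ, (d χ : ℝ) := this.le.trans (Finset.sum_le_sum fun χ _ => by
      rcases fsInd_trichotomy χ.2 with e | e | e <;> simp [e])
    exact_mod_cast k
  have s3 : Nat.card {t : G // orderOf t = 2} + 1 ≤ Nat.card {s : G // s * s = 1} := by
    rw [← Finite.card_option]
    refine Nat.card_le_card_of_injective (fun o => o.elim ⟨1, mul_one 1⟩ fun x =>
      ⟨x.1, (pow_two _).symm.trans (orderOf_dvd_iff_pow_eq_one.1 x.2.dvd)⟩) ?_
    rintro (_ | ⟨x, hx⟩) (_ | ⟨y, hy⟩) h <;> simp only [Option.elim, Subtype.mk.injEq] at h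
    · rfl
    · simp [← h] at hy
    · simp [h] at hx
    · simp [h]
  have d1 : d (trivIrr G) = 1 := by exact_mod_cast (hd1 (trivIrr G)).symm.trans (trivIrr_apply 1)
  rw [← Finset.add_sum_erase _ _ (Finset.mem_univ (trivIrr G)), d1] at s1 s2
  have s4 : 3 * ∑ χ ∈ Finset.univ.erase (trivIrr G), d χ ≤ ∑ χ ∈ Finset.univ.erase (trivIrr G), d χ ^ 2 := by
    rw [Finset.mul_sum]
    exact Finset.sum_le_sum fun χ h => by rw [sq]; exact Nat.mul_le_mul_right _ (h3 χ (Finset.mem_erase.1 h).1)
  omega

end Cfsg.Agent.S0234
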