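import Cfsg.Statements.S0239
import Mathlib
import Cfsg.Agent.H20.Count

set_option autoImplicit false
open Cfsg

namespace Cfsg.Agent.S0239

open Cfsg.Agent.H20

/-- If some nontrivial element x of a finite group G is conjugate to x⁻¹, then |G| is even. -/
theorem result {G : Type*} [Group G] [Finite G] (x : G) (hx : x ≠ 1) (hreal : IsConj x x⁻¹) : Even (Nat.card G) := by
  obtain ⟨g, hg⟩ := isConj_iff.mp hreal
  by_cases h : x * x = 1
  · exact even_card_of_involution (orderOf_two_of h hx)
  · have := card_extCent hg h
    exact even_iff_two_dvd.mpr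
      ((Dvd.intro _ this.symm).trans (Subgroup.card_subgroup_dvd_card _))

end Cfsg.Agent.S0239
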