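import Cfsg.Statements.S0240
import Mathlib
import Cfsg.Agent.H20.Count

set_option autoImplicit false
open Cfsg

namespace Cfsg.Agent.S0240

open Cfsg.Agent.H20

/-- Let G be a finite group with n involutions and H a subgroup with |H|·(n+1) > |G|. Then some nontrivial h ∈ H is strongly real in G: an involution t of G satisfies t h t⁻¹ = h⁻¹. -/
theorem result {G : Type*} [Group G] [Finite G] (H : Subgroup G) (hH : Nat.card G < Nat.card H * (Nat.card {t : G // orderOf t = 2} + 1)) : ∃ h : G, h ∈ H ∧ h ≠ 1 ∧ ∃ t : G, orderOf t = 2 ∧ t * h * t⁻¹ = h⁻¹ := by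
  classical
  haveI := Fintype.ofFinite G
  have h1 : Fintype.card (G ⧸ H) <
      (insert (1 : G) (Finset.univ.filter fun t : G => orderOf t = 2)).card := by
    rw [Finset.card_insert_of_notMem (by simp), ← natCard_subtype_eq_filter,
      ← Nat.card_eq_fintype_card, ← Subgroup.index_eq_card]
    rw [← H.card_mul_index] at hH
    exact lt_of_mul_lt_mul_left hH (Nat.zero_le _)
  obtain ⟨a, ha, b, hb, hab, h⟩ := Finset.exists_ne_map_eq_of_card_lt_of_maps_to
    (t := Finset.univ) (f := fun g : G => (g : G ⧸ H)) h1 (by simp)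
  rw [QuotientGroup.eq] at h
  simp only [Finset.mem_insert, Finset.mem_filter, Finset.mem_univ, true_and] at ha hb
  have hne : a⁻¹ * b ≠ 1 := fun h1 => hab (inv_mul_eq_one.mp h1)
  refine ⟨_, h, hne, ?_⟩
  rcases ha with rfl | ha
  · rcases hb with rfl | hb
    · exact absurd rfl hab
    · exact ⟨b, hb, by simp [inv_eq_self_of_orderOf_two hb, mul_self_of_orderOf_two hb]⟩
  · refine ⟨a, ha, ?_⟩
    rw [inv_eq_self_of_orderOf_two ha]
    rcases hb with rfl | hb
    · simp [inv_eq_self_of_orderOf_two ha, mul_self_of_orderOf_two ha]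
    · have := inverts_mul_left (mul_self_of_orderOf_two ha) (mul_self_of_orderOf_two hb)
      rwa [inv_eq_self_of_orderOf_two ha] at this

end Cfsg.Agent.S0240
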