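import Cfsg.Statements.S0241
import Mathlib
import Cfsg.Agent.H20.Count

set_option autoImplicit false
open Cfsg

namespace Cfsg.Agent.S0241

open Cfsg.Agent.H20

/-- If x ≠ 1 is conjugate to x⁻¹ in a finite group G and |C_G(x)| is odd, then some involution t satisfies t x t⁻¹ = x⁻¹. -/
theorem result {G : Type*} [Group G] [Finite G] (x : G) (hx : x ≠ 1) (hreal : IsConj x x⁻¹) (hodd : Odd (Nat.card (Subgroup.centralizer ({x} : Set G)))) : ∃ t : G, orderOf t = 2 ∧ t * x * t⁻¹ = x⁻¹ := by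
  obtain ⟨g, hg⟩ := isConj_iff.mp hreal
  have h : x * x ≠ 1 := fun h =>
    odd_card_iff.mp hodd x (mem_cent_iff.mpr (Commute.refl x)) (orderOf_two_of h hx)
  have h1 := card_extCent hg h
  obtain ⟨t, ht, ht2⟩ := exists_involution_mem_of_even (H := extCent x)
    (even_iff_two_dvd.mpr (Dvd.intro _ h1.symm))
  refine ⟨t, ht2, (mem_extCent.mp ht).resolve_left fun h2 => ?_⟩
  exact odd_card_iff.mp hodd t (mem_cent_iff_conj.mpr h2) ht2

end Cfsg.Agent.S0241
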