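import Cfsg.Statements.S0255
import Mathlib
import Cfsg.Agent.H10.SmallIso2

set_option autoImplicit false
open Cfsg

namespace Cfsg.Agent.S0255

/-- PSL_2(7) is isomorphic to PSL_3(2). -/
theorem result {F K : Type*} [Field F] [Fintype F] [Field K] [Fintype K] (hF : Fintype.card F = 7) (hK : Fintype.card K = 2) : Nonempty (Matrix.ProjectiveSpecialLinearGroup (Fin 2) F ≃* Matrix.ProjectiveSpecialLinearGroup (Fin 3) K) := by
  rw [← Nat.card_eq_fintype_card] at hF hK
  obtain ⟨e⟩ := H10.PSL2_seven_equiv hF hK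
  exact ⟨e.trans (H10.slEquivPsl (H10.center_SL_eq_bot_of_card_two hK (by norm_num)))⟩

end Cfsg.Agent.S0255
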