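import Cfsg.Statements.S0264
import Mathlib
import Cfsg.Agent.H10.SL

set_option autoImplicit false
open Cfsg

namespace Cfsg.Agent.S0264

/-- GL_n(F)' = SL_n(F) (as the kernel of det), for every field F and every n, except n = 2 over the field of two elements. -/
theorem result {F : Type*} [Field F] (n : ℕ) (h : n = 2 → ∃ a : F, a ≠ 0 ∧ a ≠ 1) : commutator (Matrix.GeneralLinearGroup (Fin n) F) = (Matrix.GeneralLinearGroup.det : Matrix.GeneralLinearGroup (Fin n) F →* Fˣ).ker := by
  rcases Nat.lt_or_ge n 2 with h2 | h2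
  · refine le_antisymm H10.commutator_GL_le_ker_det ?_
    rw [← H10.range_toGL_eq_ker_det]
    rintro _ ⟨M, rfl⟩
    have : Subsingleton (Fin n) := Fin.subsingleton_iff_le_one.2 (by omega)
    rw [Subsingleton.elim M 1, map_one]
    exact Subgroup.one_mem _
  · rcases h2.eq_or_lt with rfl | h3
    · exact H10.commutator_GL_eq_ker_det (Or.inr (h rfl))
    · exact H10.commutator_GL_eq_ker_det (Or.inl (by simp; omega))

end Cfsg.Agent.S0264
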