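import Cfsg.Statements.S0266
import Mathlib
import Cfsg.Agent.H10.PGL2

set_option autoImplicit false
open scoped MatrixGroups
open Cfsg

namespace Cfsg.Agent.S0266

/-- PGL_2(F) is sharply 3-transitive on the projective line: it is 3-transitive and the stabiliser of three distinct points is trivial. -/
theorem result {F : Type*} [Field F] : MulAction.IsMultiplyPretransitive (Matrix.ProjGenLinGroup (Fin 2) F) (Projectivization F (Fin 2 → F)) 3 ∧ ∀ (g : Matrix.ProjGenLinGroup (Fin 2) F) (a b c : Projectivization F (Fin 2 → F)), a ≠ b → a ≠ c → b ≠ c → g • a = a → g • b = b → g • c = c → g = 1 := by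
  refine ⟨⟨fun x y => ?_⟩, fun g a b c h1 h2 h3 => H10.pgl_fix3 g a b c h1 h2 h3⟩
  obtain ⟨g, g1, g2, g3⟩ := H10.exists_frame (x := x 0) (y := x 1) (z := x 2)
    (x.injective.ne (by decide)) (x.injective.ne (by decide)) (x.injective.ne (by decide))
  obtain ⟨h, h1, h2, h3⟩ := H10.exists_frame (x := y 0) (y := y 1) (z := y 2)
    (y.injective.ne (by decide)) (y.injective.ne (by decide)) (y.injective.ne (by decide))
  refine ⟨h * g⁻¹, ?_⟩
  ext i
  fin_cases i
  · change (h * g⁻¹) • x 0 = y 0
    rw [← g1, mul_smul, inv_smul_smul, h1]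
  · change (h * g⁻¹) • x 1 = y 1
    rw [← g2, mul_smul, inv_smul_smul, h2]
  · change (h * g⁻¹) • x 2 = y 2
    rw [← g3, mul_smul, inv_smul_smul, h3]

end Cfsg.Agent.S0266
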