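import Cfsg.Statements.S0267
import Mathlib
import Cfsg.Agent.H10.SL2b

set_option autoImplicit false
open Cfsg

namespace Cfsg.Agent.S0267

/-- SL_2(q) is 3-transitive on the q+1 points of the projective line if and only if q is even. -/
theorem result {F : Type*} [Field F] [Fintype F] : MulAction.IsMultiplyPretransitive (Matrix.SpecialLinearGroup (Fin 2) F) (Projectivization F (Fin 2 → F)) 3 ↔ ringChar F = 2 := by
  constructor
  · intro h
    by_contra h2
    obtain ⟨a, ha⟩ := FiniteField.exists_nonsquare h2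
    have ha0 : a ≠ 0 := by rintro rfl; exact ha (by simp)
    have inj : ∀ b : F, b ≠ 0 → Function.Injective ![H10.inf F, H10.pt 0, H10.pt b] := by
      intro b hb i j hij
      have e1 := H10.pt_ne_inf (0 : F)
      have e2 := H10.pt_ne_inf b
      have e3 : H10.pt (0 : F) ≠ H10.pt b := fun h => hb (H10.pt_injective h).symm
      fin_cases i <;> fin_cases j <;> simp_all [eq_comm]
    obtain ⟨g, hg⟩ := h.exists_smul_eq ⟨_, inj 1 one_ne_zero⟩ ⟨_, inj a ha0⟩
    have h0 : H10.slPi F g • H10.inf F = H10.inf F := DFunLike.congr_fun hg 0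
    have h1 : H10.slPi F g • H10.pt (0 : F) = H10.pt 0 := DFunLike.congr_fun hg 1
    have h2 : H10.slPi F g • H10.pt (1 : F) = H10.pt a := DFunLike.congr_fun hg 2
    have h3 : H10.slPi F g = H10.aff (Units.mk0 a ha0) 0 :=
      H10.pgl_ext3 (H10.pt_ne_inf (0 : F)).symm (H10.pt_ne_inf (1 : F)).symm
        (fun h => zero_ne_one (H10.pt_injective h)) (by rw [h0, H10.aff_smul_inf])
        (by rw [h1, H10.aff_smul_pt]; simp) (by rw [h2, H10.aff_smul_pt]; simp)
    exact ha ((H10.aff_mem_pslSub_iff (Units.mk0 a ha0) 0).1 ⟨g, h3⟩)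
  · intro h2
    refine ⟨fun x y => ?_⟩
    obtain ⟨g, g1, g2, g3⟩ := H10.exists_frame (x := x 0) (y := x 1) (z := x 2)
      (x.injective.ne (by decide)) (x.injective.ne (by decide)) (x.injective.ne (by decide))
    obtain ⟨h, h1, h2', h3⟩ := H10.exists_frame (x := y 0) (y := y 1) (z := y 2)
      (y.injective.ne (by decide)) (y.injective.ne (by decide)) (y.injective.ne (by decide))
    obtain ⟨k, hk⟩ := Matrix.ProjGenLinGroup.mk_surjective (h * g⁻¹)
    obtain ⟨s, hs⟩ := (H10.mk_mem_pslSub_iff k).2 (FiniteField.isSquare_of_char_two h2 _)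
    rw [hk] at hs
    refine ⟨s, ?_⟩
    ext i
    fin_cases i
    · change H10.slPi F s • x 0 = y 0
      rw [hs, ← g1, mul_smul, inv_smul_smul, h1]
    · change H10.slPi F s • x 1 = y 1
      rw [hs, ← g2, mul_smul, inv_smul_smul, h2']
    · change H10.slPi F s • x 2 = y 2
      rw [hs, ← g3, mul_smul, inv_smul_smul, h3]

end Cfsg.Agent.S0267
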