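import Cfsg.Statements.S0268
import Mathlib
import Cfsg.Agent.H10.SL2

set_option autoImplicit false
open Cfsg

namespace Cfsg.Agent.S0268

/-- For q odd, -1 is the unique involution of SL_2(q). -/
theorem result {F : Type*} [Field F] [Fintype F] (hF : Odd (Fintype.card F)) (g : Matrix.SpecialLinearGroup (Fin 2) F) (h1 : g ≠ 1) (h2 : g * g = 1) : (g : Matrix (Fin 2) (Fin 2) F) = -1 := by
  rw [(H10.sl2_involution (H10.two_ne_zero_of_odd (by rwa [Nat.card_eq_fintype_card])) h2).resolve_left h1]
  rfl

end Cfsg.Agent.S0268
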