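import Cfsg.Statements.S0294
import Mathlib
import Cfsg.Agent.H11.Omega
import Cfsg.Agent.S0288
import Cfsg.Agent.S0791

set_option autoImplicit false
open Cfsg

namespace Cfsg.Agent.S0294

/-- gcd(4, q^m + 1) |PΩ^-_{2m}(q)| = q^(m(m-1)) (q^m + 1) prod_{i=1}^{m-1} (q^(2i) - 1), m at least 4 (type ²D_m). -/
theorem result {F : Type*} [Field F] [Fintype F] {q : ℕ} (hF : Fintype.card F = q) (m : ℕ) (hm : 4 ≤ m) (a b : F) (hab : ∀ z₁ z₂ : F, z₁ ^ 2 + a * z₁ * z₂ + b * z₂ ^ 2 = 0 → z₁ = 0 ∧ z₂ = 0) : Nat.gcd 4 (q ^ m + 1) * Nat.card (Cfsg.POmega F (Cfsg.quadFormMinus (m - 1) F a b)) = q ^ (m * (m - 1)) * (q ^ m + 1) * ∏ i ∈ Finset.range (m - 1), (q ^ (2 * (i + 1)) - 1) := by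
  have h := H11.isQuad_minus (m - 1) F a b
  have hB := H11.bMinus_sep (m - 1) hab
  have hex := h.nonExc_of_finrank hB (by simp; omega)
  have e1 := S0288.result hF m (by omega) a b hab
  rw [Nat.card_congr (H11.oEquiv h).toEquiv, ← (commutator _).card_mul_index,
    ← (Subgroup.center _).card_mul_index, mul_assoc 2, mul_assoc 2] at e1
  rw [Nat.card_congr (H11.pomegaEquiv h).toEquiv, ← Subgroup.index_eq_card]
  by_cases h2 : (2 : F) = 0
  · have hev : q ^ m % 2 = 0 := by
      have := FiniteField.even_card_of_char_two (H11.ringChar_eq_two_of h2)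
      rw [← Nat.even_iff, Nat.even_pow, Nat.even_iff, ← hF]
      exact ⟨this, by omega⟩
    rw [h.index_commutator_of_char_two hB hex h2 (by simp),
      h.center_commutator_eq_bot hB hex (by simp; omega) (Or.inl h2), Subgroup.card_bot] at e1
    rw [h.center_commutator_eq_bot hB hex (by simp; omega) (Or.inl h2),
      show Nat.gcd 4 (q ^ m + 1) = 1 by
        rw [Nat.gcd_rec]; rcases (by omega : (q ^ m + 1) % 4 = 1 ∨ (q ^ m + 1) % 4 = 3) with h | h <;> rw [h] <;> rfl]
    omega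
  · have hodd : Odd q := by
      rw [Nat.odd_iff, ← hF]; exact FiniteField.odd_card_of_char_ne_two (H11.ringChar_ne_two_of h2)
    have hneg := S0791.result hF hodd m (by omega) a b hab
    rw [H11.exists_mem_Omega_iff h (g₀ := h.negI) (by simp [Matrix.neg_mulVec])] at hneg
    rw [h.index_commutator_of_odd hB h2 (by simp)] at e1
    have hodd' := Nat.odd_iff.mp (hodd.pow (n := m))
    by_cases h4 : q ^ m % 4 = 3
    · rw [h.card_center_commutator_two hB h2 (by simp; omega) (hneg.mpr h4)] at e1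
      rw [show Nat.gcd 4 (q ^ m + 1) = 4 by rw [Nat.gcd_rec, show (q ^ m + 1) % 4 = 0 by omega]; rfl]
      omega
    · have hc := h.center_commutator_eq_bot hB hex (by simp; omega) (Or.inr (hneg.not.mpr h4))
      rw [hc, Subgroup.card_bot] at e1
      rw [hc, show Nat.gcd 4 (q ^ m + 1) = 2 by rw [Nat.gcd_rec, show (q ^ m + 1) % 4 = 2 by omega]; rfl]
      omega

end Cfsg.Agent.S0294
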