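import Cfsg.Statements.S0307
import Mathlib
import Cfsg.Agent.H10.SL

set_option autoImplicit false
open Cfsg

namespace Cfsg.Agent.S0307

/-- PSL_n(q) is normal in PGL_n(q) with cyclic quotient of order gcd(n, q-1): the image of the natural map PSL_n → PGL_n is the kernel of a surjective homomorphism onto the cyclic group of that order. -/
theorem result {F : Type*} [Field F] [Fintype F] {q : ℕ} (hF : Fintype.card F = q) (n : ℕ) (hn : 1 ≤ n) : ∃ g : Matrix.ProjGenLinGroup (Fin n) F →* Multiplicative (ZMod (Nat.gcd n (q - 1))), Function.Surjective g ∧ g.ker = (Matrix.ProjectiveSpecialLinearGroup.toPGL : Matrix.ProjectiveSpecialLinearGroup (Fin n) F →* Matrix.ProjGenLinGroup (Fin n) F).range := by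
  subst hF
  have : Nonempty (Fin n) := ⟨⟨0, hn⟩⟩
  let R : Subgroup Fˣ := (powMonoidHom n : Fˣ →* Fˣ).range
  have hc : Nat.card (Fˣ ⧸ R) = Nat.gcd n (Fintype.card F - 1) := by
    rw [← Subgroup.index, IsCyclic.index_powMonoidHom_range, H10.card_units_eq, Nat.gcd_comm]
  have hcyc : IsCyclic (Fˣ ⧸ R) := isCyclic_of_surjective _ (QuotientGroup.mk'_surjective R)
  let e : Multiplicative (ZMod (Nat.gcd n (Fintype.card F - 1))) ≃* Fˣ ⧸ R := hc ▸ zmodCyclicMulEquiv hcyc
  let g : Matrix.ProjGenLinGroup (Fin n) F →* Fˣ ⧸ R :=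
    Matrix.ProjGenLinGroup.lift ((QuotientGroup.mk' R).comp Matrix.GeneralLinearGroup.det) (by
      refine MonoidHom.ext fun u => ?_
      simp only [MonoidHom.comp_apply, Matrix.GeneralLinearGroup.det_scalar, Fintype.card_fin,
        MonoidHom.one_apply, QuotientGroup.mk'_apply, QuotientGroup.eq_one_iff]
      exact ⟨u, rfl⟩)
  refine ⟨e.symm.toMonoidHom.comp g, e.symm.surjective.comp fun x => ?_, ?_⟩
  · obtain ⟨u, rfl⟩ := QuotientGroup.mk_surjective x
    obtain ⟨A, rfl⟩ := Matrix.GeneralLinearGroup.det_surjective (n := Fin n) u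
    exact ⟨Matrix.ProjGenLinGroup.mk A, rfl⟩
  · ext x
    induction x using Matrix.ProjGenLinGroup.induction_on with | mk A =>
    have h1 : Matrix.ProjGenLinGroup.mk A ∈ (e.symm.toMonoidHom.comp g).ker ↔ A.det ∈ R := by
      simp [MonoidHom.mem_ker, g]
    rw [h1]
    constructor
    · rintro ⟨u, hu⟩
      have h2 : A * Matrix.GeneralLinearGroup.scalar (Fin n) u⁻¹ ∈
          (Matrix.GeneralLinearGroup.det : GL (Fin n) F →* Fˣ).ker := by
        simp [MonoidHom.mem_ker, ← hu]
      rw [← H10.range_toGL_eq_ker_det] at h2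
      obtain ⟨M, hM⟩ := h2
      refine ⟨QuotientGroup.mk M, ?_⟩
      rw [Matrix.ProjectiveSpecialLinearGroup.toPGL_mk, hM, map_mul,
        Matrix.ProjGenLinGroup.mk_scalar, mul_one]
    · rintro ⟨M, hM⟩
      obtain ⟨M, rfl⟩ := QuotientGroup.mk_surjective M
      rw [Matrix.ProjectiveSpecialLinearGroup.toPGL_mk, Matrix.ProjGenLinGroup.mk_eq_mk_iff] at hM
      obtain ⟨u, rfl⟩ := hM
      exact ⟨u, by simp⟩

end Cfsg.Agent.S0307
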