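import Cfsg.Statements.S0313
import Mathlib
import Cfsg.Agent.H12.BN

set_option autoImplicit false
open Cfsg

namespace Cfsg.Agent.S0313

open Cfsg.Agent.H12

/-- Two standard parabolic subgroups of a group with a (B,N)-pair which are conjugate in `G` coincide. -/
theorem result {G : Type*} [Group G] (P : Cfsg.BNPair G) {J K : Set G}
    (hJ : J ⊆ P.S) (hK : K ⊆ P.S) (g : G)
    (h : (P.parabolic J).map (MulAut.conj g).toMonoidHom = P.parabolic K) :
    P.parabolic J = P.parabolic K := by
  have h1 : g ∈ P.parabolic K := by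
    refine bn_mem_of_conj_le (P := P) (H := P.parabolic K) le_sup_left fun b hb => ?_
    rw [← h]
    exact ⟨b, Subgroup.mem_sup_left hb, rfl⟩
  ext x
  constructor
  · intro hx
    have h2 : g * x * g⁻¹ ∈ P.parabolic K := by
      rw [← h]
      exact ⟨x, hx, rfl⟩
    have := mul_mem (mul_mem (inv_mem h1) h2) h1
    simpa [mul_assoc] using this
  · intro hx
    have h2 : g * x * g⁻¹ ∈ P.parabolic K := mul_mem (mul_mem h1 hx) (inv_mem h1)
    rw [← h] at h2
    obtain ⟨y, hy, hxy⟩ := h2
    have : y = x := by simpa using hxy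
    exact this ▸ hy

end Cfsg.Agent.S0313
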