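import Cfsg.Statements.S0314
import Mathlib
import Cfsg.Agent.H12.BN

set_option autoImplicit false
open Cfsg

namespace Cfsg.Agent.S0314

open Cfsg.Agent.H12

/-- Distinct sets of distinguished generators give distinct standard parabolic subgroups. -/
theorem result {G : Type*} [Group G] (P : Cfsg.BNPair G) {J K : Set G}
    (hJ : J ⊆ P.S) (hK : K ⊆ P.S) (h : P.parabolic J = P.parabolic K) : J = K := by
  rw [bn_parabolic_eq hJ, bn_parabolic_eq hK] at h
  have h1 := bnPar_le_iff.1 h.le
  have h2 := bnPar_le_iff.1 h.ge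
  ext x
  exact ⟨fun hx => h1 (a := ⟨x, hJ hx⟩) hx, fun hx => h2 (a := ⟨x, hK hx⟩) hx⟩

end Cfsg.Agent.S0314
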