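import Cfsg.Statements.S0316
import Mathlib
import Cfsg.Agent.H12.BN

set_option autoImplicit false
open Cfsg

namespace Cfsg.Agent.S0316

open Cfsg.Agent.H12

/-- The map `J ↦ P_J` is a lattice isomorphism from the power set of the set of distinguished generators onto the
subgroups containing `B`. -/
theorem result {G : Type*} [Group G] (P : Cfsg.BNPair G) :
    ∃ e : Set P.S ≃o {M : Subgroup G // P.B ≤ M},
      ∀ J : Set P.S, ((e J : {M : Subgroup G // P.B ≤ M}) : Subgroup G) = P.parabolic (Subtype.val '' J) := by
  refine ⟨{ toFun := fun J => ⟨bnPar P J, B_le_bnPar J⟩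
            invFun := fun M => {s : P.S | (s : G) ∈ M.1}
            left_inv := fun J => Set.ext fun s => simple_mem_bnPar_iff
            right_inv := fun M => Subtype.ext (bn_eq_bnPar M.2).symm
            map_rel_iff' := fun {J K} => bnPar_le_iff }, fun J => bnPar_eq J⟩

end Cfsg.Agent.S0316
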