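import Cfsg.Statements.S0320
import Mathlib
import Cfsg.Agent.H12.BN

set_option autoImplicit false
open Cfsg

namespace Cfsg.Agent.S0320

open Cfsg.Agent.H12

/-- The Weyl group `W = N / (B ⊓ N)` of a (B,N)-pair, with its distinguished involutions, is a Coxeter system. -/
theorem result {G : Type*} [Group G] (P : Cfsg.BNPair G)
    [hN : ((P.B ⊓ P.N).subgroupOf P.N).Normal] :
    ∃ (M : CoxeterMatrix P.S) (cs : CoxeterSystem M (P.N ⧸ (P.B ⊓ P.N).subgroupOf P.N)),
      ∀ s : P.S, cs.simple s = QuotientGroup.mk (⟨(s : G), P.subset s.2⟩ : P.N) := by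
  let M : CoxeterMatrix P.S :=
    { M := Matrix.of fun s t => orderOf (bns P s * bns P t)
      isSymm := by
        ext s t
        simp only [Matrix.transpose_apply, Matrix.of_apply]
        rw [← orderOf_inv, mul_inv_rev, bns_inv, bns_inv]
      diagonal := fun s => by simp [bns_mul_self]
      off_diagonal := fun s t hst => by
        simp only [Matrix.of_apply, ne_eq, orderOf_eq_one_iff]
        rw [mul_eq_one_iff_eq_inv, bns_inv]
        exact fun h => hst (bns_injective h) }
  obtain ⟨cs, hcs⟩ := (bnExch P).exists_coxeterSystem M (fun _ _ => rfl)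
  exact ⟨M, cs, hcs⟩

end Cfsg.Agent.S0320
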