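import Cfsg.Statements.S0321
import Mathlib
import Cfsg.Agent.H12.BN

set_option autoImplicit false
open Cfsg

namespace Cfsg.Agent.S0321

open Cfsg.Agent.H12

/-- For `n ∈ N` not in `B`, the union `B ∪ B n B` is (the underlying set of) a subgroup exactly when `n` agrees
modulo `B ⊓ N` with one of the distinguished representatives; thus the distinguished involutions are
determined by `B` and `N`. -/
theorem result {G : Type*} [Group G] (P : Cfsg.BNPair G) {n : G}
    (hn : n ∈ P.N) (hnB : n ∉ P.B) :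
    (∃ H : Subgroup G, (H : Set G) = (P.B : Set G) ∪ DoubleCoset.doubleCoset n (P.B : Set G) P.B) ↔ ∃ s ∈ P.S, s⁻¹ * n ∈ P.B := by
  rw [← bnCell_mk (P := P) ⟨n, hn⟩]
  constructor
  · rintro ⟨H, hH⟩
    have hB : P.B ≤ H := fun b hb => by
      rw [← SetLike.mem_coe, hH]; exact Or.inl hb
    have hnH : n ∈ H := by
      rw [← SetLike.mem_coe, hH]; exact Or.inr (self_mem_bnCell (P := P) ⟨n, hn⟩)
    obtain ⟨a, ha, hw⟩ := bn_invGen.exists_reduced ((⟨n, hn⟩ : P.N) : bnW P)
    have h1 := bn_letters_mem hB a (by rw [hw, ha]) ⟨n, hn⟩ hw.symm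
      (fun b hb => mul_mem (mul_mem hnH (hB hb)) (inv_mem hnH))
    rcases a with _ | ⟨i, a⟩
    · exact absurd (bn_mk_eq_one_iff.1 hw.symm) hnB
    · have h2 : (i : G) ∈ (H : Set G) := h1 i (by simp)
      rw [hH] at h2
      rcases h2 with h2 | h2
      · exact absurd h2 (bn_not_mem_B i.2)
      · exact ⟨i, i.2, bn_mk_eq_iff.1 (eq_of_mem_bnCell (simple_mem_bnCell i) h2)⟩
  · rintro ⟨s, hs, hsn⟩
    have h1 : ((⟨n, hn⟩ : P.N) : bnW P) = bns P ⟨s, hs⟩ := (bn_mk_eq_iff.2 hsn).symm
    rw [h1]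
    refine ⟨{ carrier := (P.B : Set G) ∪ bnCell P (bns P ⟨s, hs⟩)
              one_mem' := Or.inl (one_mem _)
              mul_mem' := ?_
              inv_mem' := ?_ }, rfl⟩
    · rintro x y (hx | hx) (hy | hy)
      · exact Or.inl (mul_mem hx hy)
      · exact Or.inr (mul_mem_bnCell hx hy)
      · exact Or.inr (mul_mem_bnCell' hy hx)
      · rcases bn_mul_mem _ hx hy with h | h
        · rw [bns_mul_self, mem_bnCell_one] at h
          exact Or.inl h
        · exact Or.inr h
    · rintro x (hx | hx)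
      · exact Or.inl (inv_mem hx)
      · right
        rw [← bns_inv]
        exact inv_mem_bnCell hx

end Cfsg.Agent.S0321
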