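import Cfsg.Statements.S0322
import Mathlib
import Cfsg.Agent.H12.BN

set_option autoImplicit false
open Cfsg

namespace Cfsg.Agent.S0322

open Cfsg.Agent.H12

/-- A group with a (B,N)-pair of rank one acts doubly transitively on the left cosets of `B`. -/
theorem result {G : Type*} [Group G] (P : Cfsg.BNPair G) (h : P.rank = 1) : MulAction.IsMultiplyPretransitive G (G ⧸ P.B) 2 := by
  obtain ⟨hsub, ⟨s⟩⟩ := Nat.card_eq_one_iff_unique.1 h
  have h1 : ∀ w : bnW P, w = 1 ∨ w = bns P s := by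
    intro w
    obtain ⟨a, rfl⟩ := bn_invGen.exists_word w
    induction a with
    | nil => exact Or.inl rfl
    | cons i a ih =>
      rw [wprod_cons, Subsingleton.elim i s]
      rcases ih with h | h
      · right; rw [h, mul_one]
      · left; rw [h, bns_mul_self]
  have h2 : ∀ g : G, g ∉ P.B → g ∈ bnCell P (bns P s) := by
    intro g hg
    obtain ⟨w, hw⟩ := exists_mem_bnCell (P := P) g
    rcases h1 w with rfl | rfl
    · exact absurd (mem_bnCell_one.1 hw) hg
    · exact hw
  rw [MulAction.is_two_pretransitive_iff]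
  intro a b c d hab hcd
  obtain ⟨x, rfl⟩ := QuotientGroup.mk_surjective a
  obtain ⟨y, rfl⟩ := QuotientGroup.mk_surjective b
  obtain ⟨z, rfl⟩ := QuotientGroup.mk_surjective c
  obtain ⟨u, rfl⟩ := QuotientGroup.mk_surjective d
  rw [Ne, QuotientGroup.eq] at hab hcd
  obtain ⟨b₁, hb₁, b₂, hb₂, e⟩ := exists_of_mem_bnCell (h2 _ hab) (h2 _ hcd)
  refine ⟨z * b₁ * x⁻¹, ?_, ?_⟩
  · rw [MulAction.Quotient.smul_mk, QuotientGroup.eq]
    simpa using hb₁
  · rw [MulAction.Quotient.smul_mk, QuotientGroup.eq]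
    have : (z * b₁ * x⁻¹ • y)⁻¹ * u = b₂ := by
      rw [eq_mul_of_inv_mul_eq e, smul_eq_mul]; group
    simpa [mul_assoc, ← this] using hb₂

end Cfsg.Agent.S0322
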