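import Cfsg.Statements.S0323
import Mathlib


set_option autoImplicit false
open scoped Pointwise
open Cfsg

namespace Cfsg.Agent.S0323


/-- A doubly transitive action on a set with at least three points yields a (B,N)-pair of rank one:
`B` is the stabiliser of a point `x`, `N` the setwise stabiliser of a pair `{x, y}`. -/
theorem result {G Ω : Type*} [Group G] [MulAction G Ω]
    (h2 : MulAction.IsMultiplyPretransitive G Ω 2) {x y z : Ω} (hxy : x ≠ y) (hyz : y ≠ z) (hxz : x ≠ z) :
    ∃ P : Cfsg.BNPair G, P.B = MulAction.stabilizer G x ∧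
      P.N = MulAction.stabilizer G ({x, y} : Set Ω) ∧ P.rank = 1 := by
  rw [MulAction.is_two_pretransitive_iff] at h2
  obtain ⟨s, hsx, hsy⟩ := h2 hxy hxy.symm
  have hN : ∀ n : G, n ∈ MulAction.stabilizer G ({x, y} : Set Ω) ↔
      (n • x = x ∧ n • y = y) ∨ (n • x = y ∧ n • y = x) := by
    intro n
    rw [MulAction.mem_stabilizer_iff, ← Set.image_smul, Set.image_pair, Set.pair_eq_pair_iff]
  have hsN : s ∈ MulAction.stabilizer G ({x, y} : Set Ω) := (hN s).2 (Or.inr ⟨hsx, hsy⟩)
  have hBN : ∀ t ∈ MulAction.stabilizer G x ⊓ MulAction.stabilizer G ({x, y} : Set Ω),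
      t • x = x ∧ t • y = y := by
    intro t ht
    rcases (hN t).1 ht.2 with h | h
    · exact h
    · exact absurd (ht.1.symm.trans h.1) hxy
  have hcell : ∀ g n : G, g • x ≠ x → n • x ≠ x →
      ∃ b ∈ MulAction.stabilizer G x, ∃ b' ∈ MulAction.stabilizer G x, g = b * n * b' := by
    intro g n hg hn
    obtain ⟨b, hb, hb'⟩ := h2 hn.symm hg.symm
    refine ⟨b, hb, n⁻¹ * b⁻¹ * g, ?_, by group⟩
    rw [MulAction.mem_stabilizer_iff, mul_smul, mul_smul, ← hb', inv_smul_smul, inv_smul_smul]
  have hsx' : s • x ≠ x := by rw [hsx]; exact hxy.symm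
  refine ⟨{ B := MulAction.stabilizer G x
            N := MulAction.stabilizer G ({x, y} : Set Ω)
            S := {s}
            sup_eq_top := ?_
            conj_mem := ?_
            subset := ?_
            sq_mem := ?_
            inj := ?_
            closure_sup := ?_
            mul_mem_union := ?_
            conj_ne := ?_ }, rfl, rfl, by simp [Cfsg.BNPair.rank]⟩
  · rw [eq_top_iff]
    rintro g -
    by_cases hg : g • x = x
    · exact Subgroup.mem_sup_left hg
    · obtain ⟨b, hb, b', hb', rfl⟩ := hcell g s hg hsx'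
      exact mul_mem (mul_mem (Subgroup.mem_sup_left hb) (Subgroup.mem_sup_right hsN))
        (Subgroup.mem_sup_left hb')
  · intro n hn t ht
    obtain ⟨h3, h4⟩ := hBN t ht
    rw [MulAction.mem_stabilizer_iff, mul_smul, mul_smul]
    rcases (hN _).1 (inv_mem hn) with h | h
    · rw [h.1, h3, ← h.1, smul_inv_smul, h.1]
    · rw [h.1, h4, ← h.1, smul_inv_smul]
  · rintro _ rfl
    exact hsN
  · rintro _ rfl
    rw [MulAction.mem_stabilizer_iff, mul_smul, hsx, hsy]
  · rintro _ rfl _ rfl _
    rfl
  · apply le_antisymm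
    · refine sup_le ((Subgroup.closure_le _).2 ?_) inf_le_right
      rintro _ rfl
      exact hsN
    · intro n hn
      rcases (hN n).1 hn with h | h
      · exact Subgroup.mem_sup_right ⟨h.1, hn⟩
      · have : n = s * (s⁻¹ * n) := by group
        rw [this]
        refine mul_mem (Subgroup.mem_sup_left (Subgroup.subset_closure rfl))
          (Subgroup.mem_sup_right ⟨?_, Subgroup.mul_mem _ (Subgroup.inv_mem _ hsN) hn⟩)
        change (s⁻¹ * n) • x = x
        rw [mul_smul, h.1, ← hsx, inv_smul_smul]
  · intro s' hs' n hn b hb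
    rw [show s' = s from hs']
    rcases (hN n).1 hn with h | h
    · left
      exact DoubleCoset.mem_doubleCoset.2 ⟨1, one_mem _, n⁻¹ * b * n,
        (MulAction.stabilizer G x).mul_mem ((MulAction.stabilizer G x).mul_mem
          ((MulAction.stabilizer G x).inv_mem h.1) hb) h.1, by group⟩
    · by_cases hg : (s * b * n) • x = x
      · left
        have : (s * n) ∈ MulAction.stabilizer G x := by
          rw [MulAction.mem_stabilizer_iff, mul_smul, h.1, hsy]
        exact DoubleCoset.mem_doubleCoset.2 ⟨1, one_mem _, (s * n)⁻¹ * (s * b * n),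
          (MulAction.stabilizer G x).mul_mem (inv_mem this) hg, by group⟩
      · right
        exact DoubleCoset.mem_doubleCoset.2 (hcell _ n hg (by rw [h.1]; exact hxy.symm))
  · intro s' hs' hc
    rw [show s' = s from hs'] at hc
    obtain ⟨b, hb, hb'⟩ := h2 hxy hxz
    have : s * b * s ∈ (MulAction.stabilizer G x : Set G) := by
      rw [← hc]; exact ⟨b, hb, rfl⟩
    change (s * b * s) • x = x at this
    rw [mul_smul, mul_smul, hsx, hb', ← hsy] at this
    exact hyz (MulAction.injective s this).symm

end Cfsg.Agent.S0323
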