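import Cfsg.Statements.S0326
import Mathlib

set_option autoImplicit false
open Cfsg

namespace Cfsg.Agent.S0326

/-- The Suzuki–Tits ovoid over a finite field with `q` elements has `q² + 1` points. -/
theorem result {F : Type*} [Field F] [Fintype F] (m : ℕ) :
    Nat.card (Cfsg.suzukiOvoid F m) = Fintype.card F ^ 2 + 1 := by
  let v : Option (F × F) → Fin 4 → F := fun p => p.elim ![1, 0, 0, 0]
    fun p => ![p.1 * p.2 + p.1 ^ (2 ^ (m + 1) + 2) + p.2 ^ (2 ^ (m + 1)), p.2, p.1, 1]
  have hv : ∀ p, v p ≠ 0 := by
    intro p h
    cases p with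
    | none => simpa [v] using congrFun h 0
    | some p => simpa [v] using congrFun h 3
  have hmem : ∀ p, Projectivization.mk F (v p) (hv p) ∈ Cfsg.suzukiOvoid F m := by
    intro p
    refine ⟨_, hv p, rfl, ?_⟩
    cases p with
    | none => exact Or.inl rfl
    | some p => exact Or.inr ⟨p.1, p.2, rfl⟩
  have : Nat.card (Option (F × F)) = Nat.card (Cfsg.suzukiOvoid F m) := by
    refine Nat.card_eq_of_bijective (fun p => ⟨_, hmem p⟩) ⟨?_, ?_⟩
    · intro p p' h
      have h1 := congrArg Subtype.val h
      simp only [Projectivization.mk_eq_mk_iff] at h1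
      obtain ⟨c, hc⟩ := h1
      have h1 := congrFun hc 1
      have h2 := congrFun hc 2
      have h3 := congrFun hc 3
      cases p with
      | none =>
        cases p' with
        | none => rfl
        | some p' => simp [v, Units.smul_def] at h3
      | some p =>
        cases p' with
        | none => simp [v, Units.smul_def] at h3
        | some p' =>
          simp [v, Units.smul_def] at h1 h2 h3
          subst h3
          simp at h1 h2
          rw [Prod.ext h2 h1]
    · rintro ⟨_, w, hw, rfl, rfl | ⟨x, y, rfl⟩⟩
      · exact ⟨none, rfl⟩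
      · exact ⟨some (x, y), rfl⟩
  rw [← this, Finite.card_option, Nat.card_prod, Nat.card_eq_fintype_card, sq]

end Cfsg.Agent.S0326
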