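import Cfsg.Statements.S0327
import Mathlib
import Cfsg.Agent.H13.SzBasic

set_option autoImplicit false
open Cfsg

namespace Cfsg.Agent.S0327

/-- The Suzuki group (`m ≥ 1`) is a Zassenhaus group on the `q² + 1` points of the Suzuki–Tits ovoid. -/
theorem result {F : Type*} [Field F] [Fintype F] {m : ℕ} (hm : 1 ≤ m)
    (hF : Fintype.card F = 2 ^ (2 * m + 1)) :
    Cfsg.IsZassenhausGroup (Cfsg.Sz F m) (Cfsg.suzukiOvoid F m) := by
  have hF' : Nat.card F = 2 ^ (2 * m + 1) := by rw [Nat.card_eq_fintype_card, hF]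
  set S := H13.szDataA hm hF' with hS
  set e := H13.szPtEquiv hm hF' with he
  have hsm : ∀ (g : Cfsg.Sz F m) (p : S.Pt), e (g • p) = g • e p := H13.szPtEquiv_smul hm hF'
  have hfix : ∀ (g : Cfsg.Sz F m) (p q : S.Pt), g • e p = e q ↔ g • p = q := by
    intro g p q
    rw [← hsm, e.apply_eq_iff_eq]
  refine ⟨⟨fun {g k} h => S.faithful.eq_of_smul_eq_smul fun p => e.injective ?_⟩, ?_, ?_, ?_, ?_⟩
  · rw [hsm, hsm, h]
  · have h2 := S.two_pretransitive
    rw [MulAction.is_two_pretransitive_iff] at h2 ⊢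
    intro a b c d hab hcd
    obtain ⟨a, rfl⟩ := e.surjective a
    obtain ⟨b, rfl⟩ := e.surjective b
    obtain ⟨c, rfl⟩ := e.surjective c
    obtain ⟨d, rfl⟩ := e.surjective d
    obtain ⟨g, h1, h2⟩ := h2 (e.injective.ne_iff.1 hab) (e.injective.ne_iff.1 hcd)
    exact ⟨g, (hfix _ _ _).2 h1, (hfix _ _ _).2 h2⟩
  · intro g a b c hab hbc hac ha hb hc
    obtain ⟨a, rfl⟩ := e.surjective a
    obtain ⟨b, rfl⟩ := e.surjective b
    obtain ⟨c, rfl⟩ := e.surjective c
    exact S.eq_one_of_fix_three' (e.injective.ne_iff.1 hab) (e.injective.ne_iff.1 hbc)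
      (e.injective.ne_iff.1 hac) ((hfix _ _ _).1 ha) ((hfix _ _ _).1 hb) ((hfix _ _ _).1 hc)
  · obtain ⟨ω, h0, h1⟩ := S.exists_ne_zero_one
    refine ⟨S.h (Units.mk0 ω h0), fun h => h1 ?_, e S.inf, e (S.pt 0 0), e.injective.ne (S.inf_ne_pt 0 0),
      (hfix _ _ _).2 (S.h_smul_inf _), (hfix _ _ _).2 (S.h_smul_zero _)⟩
    have := S.h_injective (h.trans (map_one S.h).symm)
    simpa using congrArg Units.val this
  · intro N hN htr
    haveI := S.isSimpleGroup
    rcases hN.eq_bot_or_eq_top with h | h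
    · exfalso
      obtain ⟨⟨n, hn⟩, hn'⟩ := htr.exists_smul_eq (e S.inf) (e (S.pt 0 0))
      rw [h, Subgroup.mem_bot] at hn
      subst hn
      exact S.inf_ne_pt 0 0 (e.injective ((one_smul _ _).symm.trans hn'))
    · refine ⟨e S.inf, fun hb => S.u_one_ne_one ?_⟩
      have : (⟨S.u 0 1, h ▸ Subgroup.mem_top _⟩ : N) ∈ MulAction.stabilizer N (e S.inf) :=
        (hfix _ _ _).2 (S.u_smul_inf 0 1)
      rw [hb, Subgroup.mem_bot] at this
      exact congrArg Subtype.val this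

end Cfsg.Agent.S0327
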