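import Cfsg.Statements.S0333
import Mathlib
import Cfsg.Agent.H13.SzPart
import Cfsg.Agent.H13.SzModels

set_option autoImplicit false
open Cfsg

namespace Cfsg.Agent.S0333

/-- With `q = 2^(2m+1)` and `r = 2^m`, the Suzuki group has cyclic subgroups of orders `q + 2r + 1` and
`q - 2r + 1`; each is the centraliser of each of its non-identity elements and has index `4` in its normaliser. -/
theorem result {F : Type*} [Field F] [Fintype F] {m : ℕ} (hm : 1 ≤ m)
    (hF : Fintype.card F = 2 ^ (2 * m + 1)) :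
    ∀ k ∈ ({2 ^ (2 * m + 1) + 2 ^ (m + 1) + 1, 2 ^ (2 * m + 1) - 2 ^ (m + 1) + 1} : Set ℕ),
      ∃ U : Subgroup (Cfsg.Sz F m), IsCyclic U ∧ Nat.card U = k ∧
        (∀ u ∈ U, u ≠ 1 → Subgroup.centralizer {u} = U) ∧ Nat.card (Subgroup.normalizer (U : Set (Cfsg.Sz F m))) = 4 * k := by
  intro k hk
  let S := H13.szDataA (F := F) hm (by rw [Nat.card_eq_fintype_card, hF])
  have h1 : S.TorusOrder k := Or.inr hk
  obtain ⟨A, hA, rfl⟩ := h1.exists_isTorus
  refine ⟨A, hA.isCyclic, rfl, hA.isCC.cent, ?_⟩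
  rcases hA.card with ⟨h, -⟩ | ⟨-, h⟩
  · exfalso
    have h5 := hA.order.five_le
    have hc : Nat.Coprime (Nat.card A) (Nat.card A) := by
      rcases hk with hk | hk
      · nth_rewrite 1 [h]
        rw [hk]
        exact S.coprime_sub_one_plus
      · nth_rewrite 1 [h]
        rw [hk]
        exact S.coprime_sub_one_minus
    rw [Nat.coprime_self] at hc
    omega
  · exact h

end Cfsg.Agent.S0333
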