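import Cfsg.Statements.S0335
import Mathlib
import Cfsg.Agent.H13.SzBasic

set_option autoImplicit false
open Cfsg

namespace Cfsg.Agent.S0335

/-- The Suzuki–Tits point set is an ovoid: any three distinct points of it are projectively independent
(no line of projective 3-space meets it in more than two points). -/
theorem result {F : Type*} [Field F] [Fintype F] {m : ℕ} (hm : 1 ≤ m)
    (hF : Fintype.card F = 2 ^ (2 * m + 1)) (p : Fin 3 ↪ Cfsg.suzukiOvoid F m) :
    Projectivization.Independent (fun i => (p i : Projectivization F (Fin 4 → F))) := by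
  have hF' : Nat.card F = 2 ^ (2 * m + 1) := by rw [Nat.card_eq_fintype_card, hF]
  set S := H13.szDataA hm hF' with hS
  set e := H13.szPtEquiv hm hF' with he
  set r : Fin 3 → S.Pt := fun i => e.symm (p i) with hr
  have hri : Function.Injective r := e.symm.injective.comp p.injective
  have h1 : (fun i => (p i : Projectivization F (Fin 4 → F))) =
      fun i => Projectivization.mk F (S.vec (r i)) (S.vec_ne_zero _) := by
    funext i
    rw [← H13.szPtEquiv_coe hm hF', hr]
    simp [he]
  rw [h1]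
  refine Projectivization.Independent.mk _ _ ?_
  obtain ⟨g, hg0, hg1⟩ := S.exists_smul_pair (hri.ne (show (0 : Fin 3) ≠ 1 by decide))
  have h2 : g⁻¹ • r 2 ≠ S.inf := by
    intro h
    rw [inv_smul_eq_iff, hg0] at h
    exact absurd (hri h) (by decide)
  obtain ⟨x, y, hxy⟩ := S.exists_pt h2
  have h3 : ¬ (x = 0 ∧ y = 0) := by
    rintro ⟨rfl, rfl⟩
    rw [inv_smul_eq_iff, hg1] at hxy
    exact absurd (hri hxy) (by decide)
  obtain ⟨c0, hc0, e0⟩ := S.smul_spec g⁻¹ (r 0)
  obtain ⟨c1, hc1, e1⟩ := S.smul_spec g⁻¹ (r 1)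
  obtain ⟨c2, hc2, e2⟩ := S.smul_spec g⁻¹ (r 2)
  rw [← hg0, inv_smul_smul, hg0, S.vec_inf] at e0
  rw [← hg1, inv_smul_smul, hg1, S.vec_pt] at e1
  rw [hxy, S.vec_pt] at e2
  rw [Fintype.linearIndependent_iff]
  intro c hc
  have h4 := congrArg (Matrix.mulVec (S.ρ g⁻¹)) hc
  rw [Fin.sum_univ_three, Matrix.mulVec_add, Matrix.mulVec_add, Matrix.mulVec_smul, Matrix.mulVec_smul,
    Matrix.mulVec_smul, e0, e1, e2, Matrix.mulVec_zero] at h4
  have a0 := congrFun h4 0
  have a1 := congrFun h4 1
  have a2 := congrFun h4 2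
  have a3 := congrFun h4 3
  simp [H13.szf, hc2] at a0 a1 a2 a3
  have b2 : c 2 = 0 := by tauto
  simp [b2, hc0, hc1] at a0 a3
  intro i
  fin_cases i <;> simp [a0, a3, b2]

end Cfsg.Agent.S0335
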