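import Cfsg.Statements.S0341
import Mathlib
import Cfsg.Agent.H16.Zass2
import Cfsg.Agent.H28.Wielandt

set_option autoImplicit false
open Cfsg

namespace Cfsg.Agent.S0341

open MulAction H16

/-- If a finite group acts faithfully and doubly transitively, no non-identity element fixes three points, some
non-identity element fixes two points, and some normal subgroup acts regularly, then the number of points
is `2^p` with `p` prime. -/
theorem result {G Ω : Type*} [Group G]
    [MulAction G Ω] [Fintype Ω] [FaithfulSMul G Ω] (h2 : MulAction.IsMultiplyPretransitive G Ω 2)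
    (h3 : ∀ g : G, ∀ a b c : Ω, a ≠ b → b ≠ c → a ≠ c → g • a = a → g • b = b → g • c = c → g = 1)
    (hfix : ∃ g : G, g ≠ 1 ∧ ∃ a b : Ω, a ≠ b ∧ g • a = a ∧ g • b = b)
    (N : Subgroup G) [N.Normal] (hNt : MulAction.IsPretransitive N Ω)
    (hNr : ∀ a : Ω, MulAction.stabilizer N a = ⊥) :
    ∃ p : ℕ, p.Prime ∧ Fintype.card Ω = 2 ^ p := by
  have z : Z3 G Ω := ⟨inferInstance, h2, h3⟩
  have := z.finite
  rw [← Nat.card_eq_fintype_card]
  obtain ⟨g, hg, a, b, hab, ha, hb⟩ := hfix
  have h4 : 4 ≤ Nat.card Ω := by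
    obtain ⟨c, hc⟩ := exists_smul_ne (α := Ω) hg
    have h1 : c ≠ a := by rintro rfl; exact hc ha
    have h2 : c ≠ b := by rintro rfl; exact hc hb
    have h3 : g • c ≠ a := fun e => h1 (smul_left_cancel g (e.trans ha.symm))
    have h4 : g • c ≠ b := fun e => h2 (smul_left_cancel g (e.trans hb.symm))
    have := Nat.card_le_card_of_injective _ (inj_four hab h1.symm h3.symm h2.symm h4.symm hc.symm)
    simpa using this
  have h3' : 3 ≤ Nat.card Ω := by omega
  have hNc := card_eq_of_regular a (hNr a)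
  obtain ⟨hcomm, p, hp, hexp⟩ := elemAb_of_two_trans h2 N (hNr a)
  obtain ⟨β, hβN, hβ⟩ := reg_exists N a b
  have hβ1 : β ≠ 1 := by rintro rfl; exact hab (by simpa using hβ)
  have hC : ∀ h ∈ St2 G a b, h ≠ 1 → ∀ x, x ∈ N ⊓ Subgroup.centralizer {h} ↔ x = 1 ∨ x = β := by
    intro h hh h1 x
    constructor
    · rintro ⟨hxN, hx⟩
      have hx' : x * h = h * x := Subgroup.mem_centralizer_singleton_iff.1 hx
      have : h • x • a = x • a := by rw [← mul_smul, ← hx', mul_smul, hh.1]
      rcases z.fix_cases hab hh h1 this with e | e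
      · exact Or.inl (reg_eq_one (hNr a) hxN e)
      · exact Or.inr (reg_inj (hNr a) hxN hβN (e.trans hβ.symm))
    · rintro (rfl | rfl)
      · exact Subgroup.one_mem _
      · refine ⟨hβN, Subgroup.mem_centralizer_singleton_iff.2 ?_⟩
        have := (reg_conj_iff (hNr a) hh.1 hβN hβN).1 (by rw [hβ]; exact hh.2)
        rw [mul_inv_eq_iff_eq_mul] at this
        exact this.symm
  have hC2 : ∀ h ∈ St2 G a b, h ≠ 1 → Nat.card ↥(N ⊓ Subgroup.centralizer {h}) = 2 := by
    intro h hh h1
    have : ((N ⊓ Subgroup.centralizer {h} : Subgroup G) : Set G) = {1, β} := by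
      ext x
      simpa using hC h hh h1 x
    rw [← SetLike.coe_sort_coe, Nat.card_coe_set_eq, this, Set.ncard_pair hβ1.symm]
  have hp2 : p = 2 := by
    have h1 := Subgroup.orderOf_dvd_natCard _ ((hC g ⟨ha, hb⟩ hg β).2 (Or.inr rfl))
    have : Fact p.Prime := ⟨hp⟩
    rw [hC2 g ⟨ha, hb⟩ hg, orderOf_eq_prime (hexp β hβN) hβ1] at h1
    exact (Nat.prime_dvd_prime_iff_eq hp Nat.prime_two).1 h1
  subst hp2
  by_cases he : Even (Nat.card (St2 G a b))
  · obtain ⟨h, hh, h1, hh2⟩ := exists_invol_of_even he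
    refine ⟨2, Nat.prime_two, le_antisymm ?_ h4⟩
    letI : CommGroup N := { (inferInstance : Group N) with mul_comm := hcomm.is_comm.comm }
    let f : N →* N := MonoidHom.id N * (MulAut.conjNormal h : N ≃* N).toMonoidHom
    have hf : ∀ x : N, (f x : G) = x * (h * x * h⁻¹) := fun x => rfl
    have hinv : h⁻¹ = h := inv_eq_of_mul_eq_one_right hh2
    have hk : Nat.card f.ker ≤ 2 := by
      rw [← hC2 h hh h1]
      refine Nat.card_le_card_of_injective (fun x => ⟨x.1.1, x.1.2, ?_⟩)
        fun x y e => Subtype.ext (Subtype.ext (Subtype.mk.inj e))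
      have e1 : (x.1 : G) * (h * x.1 * h⁻¹) = 1 := by rw [← hf, x.2]; rfl
      have e2 := hexp _ x.1.2
      rw [pow_two, ← e1] at e2
      have e3 := mul_left_cancel e2
      rw [eq_mul_inv_iff_mul_eq] at e3
      exact Subgroup.mem_centralizer_singleton_iff.2 e3
    have hr : Nat.card f.range ≤ 2 := by
      rw [← hC2 h hh h1]
      refine Nat.card_le_card_of_injective (fun x => ⟨x.1.1, x.1.2, ?_⟩)
        fun x y e => Subtype.ext (Subtype.ext (Subtype.mk.inj e))
      obtain ⟨_, y, rfl⟩ := x
      refine Subgroup.mem_centralizer_singleton_iff.2 ?_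
      have e1 : (y : G) * (h * y * h⁻¹) = (h * y * h⁻¹) * y :=
        congrArg Subtype.val (mul_comm y (MulAut.conjNormal h y))
      change (f y : G) * h = h * f y
      rw [hf]
      conv_rhs => rw [e1]
      rw [hinv]
      calc (y : G) * (h * y * h) * h = y * h * y * (h * h) := by group
        _ = (h * h) * y * h * y := by rw [hh2]; group
        _ = _ := by group
    rw [← hNc, ← Subgroup.card_mul_index f.ker, Subgroup.index_ker]
    calc _ ≤ 2 * 2 := Nat.mul_le_mul hk hr
      _ = 2 ^ 2 := rfl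
  · have hne : Nat.card (St2 G a b) ≠ 1 := by
      rw [Ne, Subgroup.card_eq_one]
      intro e
      exact hg (Subgroup.mem_bot.1 (e ▸ (mem_St2.2 ⟨ha, hb⟩)))
    obtain ⟨r, hr, hrd⟩ := Nat.exists_prime_and_dvd hne
    have : Fact r.Prime := ⟨hr⟩
    obtain ⟨h, hh⟩ := exists_prime_orderOf_dvd_card' r hrd
    have h1 : (h : G) ≠ 1 := by
      intro e
      rw [show h = 1 from Subtype.ext e, orderOf_one] at hh
      exact hr.one_lt.ne hh
    have hs := z.split h3' a
    have hle : Subgroup.zpowers (h : G) ≤ St2 G a b := Subgroup.zpowers_le.2 h.2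
    have hsol : Group.IsSolvable N := by
      letI : CommGroup N := { (inferInstance : Group N) with mul_comm := hcomm.is_comm.comm }
      infer_instance
    obtain ⟨m, hm⟩ := card_eq_pow_of_exponent Nat.prime_two hexp
    have key := H28.card_eq_pow_of_inf_eq_bot (K := zker G a) (R := Subgroup.zpowers (h : G))
      (U := N) (by rw [hs.normalizer_eq (z.zker_ne_bot h3' a)]; exact hle.trans inf_le_left)
      (fun y hy y1 x hx e => by
        by_contra hx1
        exact y1 (z.eq_one_of_comm h3' hab hx hx1 (hle hy).2 e))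
      (by rw [Subgroup.normalizer_eq_top]; exact le_top) hsol
      (by
        have hd : Nat.card ↥(zker G a ⊔ Subgroup.zpowers (h : G)) ∣ Nat.card (stabilizer G a) :=
          Subgroup.card_dvd_of_le (sup_le hs.le (hle.trans inf_le_left))
        refine Nat.Coprime.coprime_dvd_right hd ?_
        rw [z.card_stabilizer h3' hab, hm]
        apply Nat.Coprime.pow_left
        rw [Nat.coprime_two_left, Nat.odd_mul]
        refine ⟨?_, Nat.not_even_iff_odd.1 he⟩
        have hm0 : m ≠ 0 := by rintro rfl; omega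
        rw [← hNc, hm]
        exact Nat.Even.sub_odd Nat.one_le_two_pow ((Nat.even_pow' hm0).2 even_two) odd_one)
      (by
        rw [eq_bot_iff]
        rintro x ⟨hxN, hx⟩
        obtain ⟨⟨u, hu⟩, hu1⟩ := Subgroup.ne_bot_iff_exists_ne_one.1 (z.zker_ne_bot h3' a)
        have := z.mem_zker_of_comm h3' hu (fun e => hu1 (Subtype.ext e)) (hx u hu).symm
        exact reg_eq_one (hNr a) hxN (hs.le x this))
    rw [Subgroup.zpowers_eq_closure, Subgroup.centralizer_closure, hC2 h h.2 h1,
      ← Subgroup.zpowers_eq_closure, Nat.card_zpowers, Subgroup.orderOf_coe, hh] at key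
    exact ⟨r, hr, by rw [← hNc, key]⟩

end Cfsg.Agent.S0341
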