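import Cfsg.Statements.S0345
import Mathlib
import Cfsg.Agent.H16.Sharp3

set_option autoImplicit false
open Cfsg

namespace Cfsg.Agent.S0345

/-- In a finite simple Zassenhaus group the stabiliser `H` of two points `a ≠ b` is cyclic, and some involution
interchanging `a` and `b` inverts every element of `H`. -/
theorem result {G Ω : Type*} [Group G] [Finite G] [MulAction G Ω] [Finite Ω]
    (hZ : Cfsg.IsZassenhausGroup G Ω) [IsSimpleGroup G]
    {a b : Ω} (hab : a ≠ b) :
    IsCyclic ↥(MulAction.stabilizer G a ⊓ MulAction.stabilizer G b) ∧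
      ∃ v : G, orderOf v = 2 ∧ v • a = b ∧ v • b = a ∧ ∀ h ∈ MulAction.stabilizer G a ⊓ MulAction.stabilizer G b, v * h * v⁻¹ = h⁻¹ := by
  have z := H16.z3_of_zass hZ
  have h3 : 3 ≤ Nat.card Ω := by have := H16.four_le_card_of_zass hZ; omega
  obtain ⟨s, hs, hsa, hsb⟩ := z.exists_invol_swap hab
  have key : ∀ h ∈ H16.St2 G a b, s * h * s⁻¹ = h⁻¹ := by
    rcases Nat.even_or_odd (Nat.card (H16.St2 G a b)) with he | ho
    · exact (z.inverts_of_half_even h3 hab he (H16.zass_half_of_even hZ hab he).le hsa hsb).2.2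
    · exact z.inverts_of_odd h3 hab ho (fun q hq hd => H16.not_hasNPC_of_simple hZ hq
        (hd.trans (Subgroup.card_subgroup_dvd_card _))) hsa hsb
  exact ⟨z.isCyclic_St2_of_inverts h3 hab key, s,
    H16.orderOf_eq_two_iff'.2 ⟨by rintro rfl; exact hab (by simpa using hsa), hs⟩, hsa, hsb, key⟩

end Cfsg.Agent.S0345
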