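import Cfsg.Statements.S0346
import Mathlib
import Cfsg.Agent.H16.ZFeit2

set_option autoImplicit false
open Cfsg

namespace Cfsg.Agent.S0346

/-- The number of points of a finite simple Zassenhaus group is `p^k + 1` for some prime power `p^k` (the regular normal
subgroup of a point stabiliser is a `p`-group). -/
theorem result {G Ω : Type*} [Group G] [Finite G] [MulAction G Ω] [Fintype Ω]
    (hZ : Cfsg.IsZassenhausGroup G Ω) [IsSimpleGroup G] :
    IsPrimePow (Fintype.card Ω - 1) := by
  have z := H16.z3_of_zass hZ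
  have h4 := H16.four_le_card_of_zass hZ
  have h3 : 3 ≤ Nat.card Ω := by omega
  have : Nontrivial Ω := Finite.one_lt_card_iff_nontrivial.1 (by omega)
  obtain ⟨a, b, hab⟩ := exists_pair_ne Ω
  have hc := z.card_zker h3 a
  have key : ∀ p : ℕ, p.Prime → IsPGroup p (H16.zker G a) → IsPrimePow (Fintype.card Ω - 1) := by
    intro p hp h
    have := Fact.mk hp
    obtain ⟨n, hn⟩ := h.exists_card_eq
    rw [← Nat.card_eq_fintype_card, ← hc, Nat.add_sub_cancel, hn]
    refine hp.isPrimePow.pow ?_
    rintro rfl
    rw [pow_zero] at hn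
    omega
  have key2 : Nat.card Ω - 2 ≤ 2 * Nat.card (H16.St2 G a b) → IsPrimePow (Fintype.card Ω - 1) := by
    intro h
    obtain ⟨-, p, hp, h1⟩ := z.elemAb_zker h3 hab h
    exact key p hp fun u => ⟨1, Subtype.ext (by simpa using h1 u u.2)⟩
  rcases Nat.even_or_odd (Nat.card (H16.St2 G a b)) with he | ho
  · exact key2 (z.card_le_of_even hab he)
  · rcases H16.feit_zass hZ hab ho with h | h
    · exact key2 (by omega)
    · exact key 2 Nat.prime_two h.1

end Cfsg.Agent.S0346
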