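import Cfsg.Statements.S0353
import Cfsg.Agent.S0407
import Cfsg.Agent.L1.DesC

set_option autoImplicit false
open Cfsg

namespace Cfsg.Agent.S0353

open Cfsg.Agent.H14 MulAction
open scoped Pointwise

/-- In an S(5, 8, 24), the symmetric difference of two blocks meeting in four points is a block. -/
theorem result {α : Type*} [Fintype α] [DecidableEq α] (hα : Fintype.card α = 24) {B : Set (Finset α)} (hB : Cfsg.IsSteinerSystem 5 8 B) {b c : Finset α} (hb : b ∈ B) (hc : c ∈ B) (h4 : (b ∩ c).card = 4) : symmDiff b c ∈ B := by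
  obtain ⟨e, he⟩ := iso_iff (S0407.result hα card_golayPt hB steiner_octads)
  rw [he] at hb hc ⊢
  rw [Finset.image_symmDiff _ _ e.injective]
  refine ⟨symmDiff_mem_gcode hb.1 hc.1, ?_⟩
  have h1 := card_symmDiff_add (b.image e) (c.image e)
  rw [← Finset.image_inter _ _ e.injective, Finset.card_image_of_injective (b ∩ c) e.injective,
    (mem_octads.mp hb).2, (mem_octads.mp hc).2, h4] at h1
  show Finset.card _ = 8
  omega

end Cfsg.Agent.S0353
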