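import Cfsg.Statements.S0362
import Mathlib
import Cfsg.Agent.H14.Golay

set_option autoImplicit false
open Cfsg

namespace Cfsg.Agent.S0362

/-- The length-24 code is self-orthogonal: the dot product over ZMod 2 of any two of its words vanishes (with dimension 12 this makes it self-dual). -/
theorem result (v w : Cfsg.GolayPt → ZMod 2) (hv : v ∈ Cfsg.golayCode) (hw : w ∈ Cfsg.golayCode) : ∑ i, v i * w i = 0 := by
  have h := H14.gcode_inter_even (H14.support_mem_gcode.mpr hv) (H14.support_mem_gcode.mpr hw)
  rw [← (ZMod.natCast_eq_zero_iff_even).mpr h, Finset.card_eq_sum_ones, Nat.cast_sum,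
    ← Finset.sum_subset (Finset.subset_univ (support₂ v ∩ support₂ w))]
  · refine Finset.sum_congr rfl fun i hi => ?_
    simp only [support₂, Finset.mem_inter, Finset.mem_filter, Finset.mem_univ, true_and] at hi
    have key : ∀ a b : ZMod 2, a ≠ 0 ∧ b ≠ 0 → a * b = ((1 : ℕ) : ZMod 2) := by decide
    exact key _ _ hi
  · intro i _ hi
    simp only [support₂, Finset.mem_inter, Finset.mem_filter, Finset.mem_univ, true_and] at hi
    have key : ∀ a b : ZMod 2, ¬ (a ≠ 0 ∧ b ≠ 0) → a * b = 0 := by decide
    exact key _ _ hi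

end Cfsg.Agent.S0362
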