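import Cfsg.Statements.S0363
import Mathlib
import Cfsg.Agent.H14.Golay
import Cfsg.Agent.H14.Steiner

set_option autoImplicit false
open Cfsg

namespace Cfsg.Agent.S0363

/-- The octads of the length-24 code form a Steiner system S(5, 8, 24) on the 24 points. -/
theorem result : Cfsg.IsSteinerSystem 5 8 Cfsg.octads := by
  refine H14.steiner_of_count (fun b hb => hb.2) (fun b hb c hc h => H14.octad_eq_of_five hb hc h) ?_
  rw [H14.ncard_octads, H14.card_golayPt]
  decide +kernel

end Cfsg.Agent.S0363
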