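import Cfsg.Statements.S0365
import Mathlib
import Cfsg.Agent.H14.M24f

set_option autoImplicit false
open Cfsg

namespace Cfsg.Agent.S0365

/-- The permutation group preserving the length-24 code is simple. -/
theorem result : IsSimpleGroup Cfsg.M24 := by
  exact H14.simple_M24

end Cfsg.Agent.S0365
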