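import Cfsg.Statements.S0371
import Mathlib
import Cfsg.Agent.H14.M24

set_option autoImplicit false
open Cfsg

namespace Cfsg.Agent.S0371

/-- Multiplication by a nonzero square residue modulo 23, fixing the extra point, lies in the group of the length-24 code. -/
theorem result (u : (ZMod 23)ˣ) (hu : IsSquare u) : Equiv.optionCongr (Units.mulLeft u) ∈ Cfsg.M24 := by
  obtain ⟨v, rfl⟩ := hu
  refine H14.mem_M24_of_forall fun s hs => ?_
  obtain ⟨w, hw, rfl⟩ := hs
  have key : ∀ w ∈ golayCode,
      (fun p => w ((Equiv.optionCongr (Units.mulLeft (v * v))).symm p)) ∈ golayCode := by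
    intro w hw
    induction hw using Submodule.span_induction with
    | mem x hx =>
      apply Submodule.subset_span
      rcases hx with ⟨t, rfl⟩ | rfl
      · left
        refine ⟨(v * v : (ZMod 23)ˣ) * t, ?_⟩
        funext p
        cases p with
        | none => rfl
        | some x =>
          have e : (∃ r : ZMod 23, x = r ^ 2 + (v * v : (ZMod 23)ˣ) * t) ↔
              ∃ r : ZMod 23, ((v * v)⁻¹ : (ZMod 23)ˣ) * x = r ^ 2 + t := by
            have hv : (v : ZMod 23) * (v⁻¹ : (ZMod 23)ˣ) = 1 := v.mul_inv
            rw [mul_inv, Units.val_mul, Units.val_mul]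
            constructor
            · rintro ⟨r, rfl⟩
              refine ⟨(v⁻¹ : (ZMod 23)ˣ) * r, ?_⟩
              linear_combination (((v : ZMod 23) * (v⁻¹ : (ZMod 23)ˣ) + 1) * t) * hv
            · rintro ⟨r, h⟩
              refine ⟨v * r, ?_⟩
              linear_combination ((v : ZMod 23) * v) * h -
                (((v : ZMod 23) * (v⁻¹ : (ZMod 23)ˣ) + 1) * x) * hv
          show (if _ then _ else _) = (if _ then _ else _)
          exact if_congr e rfl rfl
      · right; rfl
    | zero => exact golayCode.zero_mem
    | add x y _ _ hx hy => exact golayCode.add_mem hx hy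
    | smul c x _ hx => exact golayCode.smul_mem c hx
  refine ⟨_, key w hw, ?_⟩
  ext p
  rw [← Finset.inv_smul_mem_iff]
  simp only [support₂, Finset.mem_filter, Finset.mem_univ, true_and]
  rfl

end Cfsg.Agent.S0371
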