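import Cfsg.Statements.S0375
import Cfsg.Agent.L1.AG

set_option autoImplicit false
open Cfsg

namespace Cfsg.Agent.S0375

open Cfsg.Agent.H14 Finset
open scoped symmDiff

/-- A doubly even self-dual binary code of length 24 with no words of weight 4 is equivalent to the length-24 code built from the squares modulo 23. -/
theorem result (C : Submodule (ZMod 2) (Fin 24 → ZMod 2)) (hdim : Module.finrank (ZMod 2) C = 12) (horth : ∀ v ∈ C, ∀ w ∈ C, ∑ i, v i * w i = 0) (h4 : ∀ w ∈ C, 4 ∣ hammingNorm w) (hno4 : ∀ w ∈ C, hammingNorm w ≠ 4) : ∃ e : Fin 24 ≃ Cfsg.GolayPt, ∀ w : Cfsg.GolayPt → ZMod 2, w ∈ Cfsg.golayCode ↔ (fun i => w (e i)) ∈ C := by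
  obtain ⟨e, he, -⟩ := (ag_of_code C hdim horth fun w hw h0 => by
    have h1 := h4 w hw
    have h2 := hno4 w hw
    have h3 : hammingNorm w ≠ 0 := fun h => h0 (hammingNorm_eq_zero.mp h)
    omega).iso (by simp)
  refine ⟨e, fun w => ?_⟩
  rw [← support_mem_gcode, ← SetLike.mem_coe, ← support₂_mem, he]
  refine Eq.to_iff (congrArg (· ∈ GCode) ?_)
  ext x
  simp only [mem_image, mem_support₂]
  exact ⟨fun h => ⟨e.symm x, by simpa using h, by simp⟩, by rintro ⟨a, h, rfl⟩; exact h⟩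

end Cfsg.Agent.S0375
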