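import Cfsg.Statements.S0377
import Mathlib
import Cfsg.Agent.H14.M24f

set_option autoImplicit false
open Cfsg

namespace Cfsg.Agent.S0377

/-- A point stabiliser in the group of the length-24 code is simple. -/
theorem result (p : Cfsg.GolayPt) : IsSimpleGroup (MulAction.stabilizer Cfsg.M24 p) := by
  obtain ⟨g, rfl⟩ := H14.m24_one none p
  haveI : IsSimpleGroup (MulAction.stabilizer M24 (none : GolayPt)) := H14.simple_S23
  exact (MulAction.stabilizerEquivStabilizer (g := g) (a := (none : GolayPt)) rfl).symm.isSimpleGroup

end Cfsg.Agent.S0377
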