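import Cfsg.Statements.S0378
import Mathlib
import Cfsg.Agent.H14.M24

set_option autoImplicit false
open Cfsg

namespace Cfsg.Agent.S0378

/-- A two-point stabiliser in the group of the length-24 code has order 443520 = 2^7·3^2·5·7·11. -/
theorem result (p q : Cfsg.GolayPt) (hpq : p ≠ q) : Nat.card ↥(MulAction.stabilizer Cfsg.M24 p ⊓ MulAction.stabilizer Cfsg.M24 q) = 443520 := by
  obtain ⟨g, rfl, rfl⟩ := H14.m24_two (show (none : GolayPt) ≠ some 0 by decide) hpq
  rw [← H14.stabilizer_prod, ← Prod.smul_mk,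
    ← Nat.card_congr (MulAction.stabilizerEquivStabilizer (g := g) rfl).toEquiv, H14.stabilizer_prod]
  exact H14.S22.card_eq

end Cfsg.Agent.S0378
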