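import Cfsg.Statements.S0379
import Mathlib
import Cfsg.Agent.H14.M24f

set_option autoImplicit false
open Cfsg

namespace Cfsg.Agent.S0379

/-- A two-point stabiliser in the group of the length-24 code is simple. -/
theorem result (p q : Cfsg.GolayPt) (hpq : p ≠ q) : IsSimpleGroup ↥(MulAction.stabilizer Cfsg.M24 p ⊓ MulAction.stabilizer Cfsg.M24 q) := by
  obtain ⟨g, rfl, rfl⟩ := H14.m24_two (show (none : GolayPt) ≠ some 0 by decide) hpq
  haveI : IsSimpleGroup ↥(MulAction.stabilizer M24 (none : GolayPt) ⊓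
    MulAction.stabilizer M24 (some 0 : GolayPt)) := H14.simple_S22
  exact (H14.stabEquiv2 g _ _).symm.isSimpleGroup

end Cfsg.Agent.S0379
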