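import Cfsg.Statements.S0380
import Cfsg.Agent.L1.Iso
import Cfsg.Agent.H10.Congr

set_option autoImplicit false
open Cfsg

namespace Cfsg.Agent.S0380

open Cfsg.Agent.H14 MulAction
open scoped Pointwise

instance factIrr : Fact (∀ r : ZMod 2, r ^ 2 ≠ 1 + 1 * r) := ⟨by decide⟩

/-- The field with four elements. -/
abbrev K := QuadraticAlgebra (ZMod 2) 1 1

instance fintypeK : Fintype K := Fintype.ofEquiv _ (QuadraticAlgebra.equivProd (R := ZMod 2) 1 1).symm

theorem card_K : Fintype.card K = 4 := by decide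

/-- the number of a field element. -/
def num (x : K) : ℕ := x.re.val + 2 * x.im.val

/-- the label of a vector. -/
def code (w : Fin 3 → K) : ℕ :=
  get 5 0x54185a11637b6514d90e93db162a055d083426ce22e836c9f183145b212ea98e23d4c231ea29ce60 (num (w 0) + 4 * num (w 1) + 16 * num (w 2))

theorem iso : Nonempty (S21s.K ≃* Matrix.ProjectiveSpecialLinearGroup (Fin 3) K) := by
  have hV : ∀ w, w ≠ 0 → code w < 24 := by decide +kernel
  refine S21s.iso_psl A24.toModel A24.compat_self code hV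
    (fun T hT => ?_) (fun g hg h => S21s.mem_of_labels (CSub.triv A24) _ A24.compat_self code hV
      (fuel := 25) (lv := [(2, [0xb99a4744561bca8acd703b13255020]), (3, [0xbaad2838d45cdf11a185692a938820]), (4,
      [0xbbd8459e29b39559b606920b418820, 0xb92924d4b65c5b33a1867a9d018820]), (5,
      [0xbc12ba18ad946c79b11553dc418820])])
      (by decide +kernel) (by decide +kernel) hg h) (by decide +kernel) ?_
  · rcases List.mem_pair.mp hT with rfl | rfl
    · exact ⟨!![⟨0, 1⟩, ⟨1, 0⟩, ⟨0, 1⟩; ⟨1, 0⟩, ⟨0, 1⟩, ⟨1, 1⟩; ⟨1, 1⟩, ⟨1, 0⟩, ⟨1, 0⟩], by decide +kernel, by decide +kernel⟩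
    · exact ⟨!![⟨0, 1⟩, ⟨1, 1⟩, ⟨0, 1⟩; ⟨1, 1⟩, ⟨0, 1⟩, ⟨0, 0⟩; ⟨0, 0⟩, ⟨0, 1⟩, ⟨1, 1⟩], by decide +kernel, by decide +kernel⟩
  · have h1 := H10.card_SL_fin (F := K) 3 (by norm_num)
    rw [H10.card_center_SL_fin 3 (by norm_num)]
    simp only [card_K, Fin.prod_univ_three] at h1 ⊢
    show _ ≤ 20160 * _
    norm_num at h1 ⊢
    omega

/-- A three-point stabiliser in the group of the length-24 code is isomorphic to PSL(3, F) for the field F with 4 elements. -/
theorem result (p q r : Cfsg.GolayPt) (hpq : p ≠ q) (hpr : p ≠ r) (hqr : q ≠ r) (F : Type) [Field F] [Fintype F] (hF : Fintype.card F = 4) : Nonempty (↥(MulAction.stabilizer Cfsg.M24 p ⊓ MulAction.stabilizer Cfsg.M24 q ⊓ MulAction.stabilizer Cfsg.M24 r) ≃* Matrix.ProjectiveSpecialLinearGroup (Fin 3) F) := by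
  obtain ⟨k, rfl, rfl, rfl⟩ := m24_three (p := none) (q := some 0) (r := some 1) (by decide)
    (by decide) (by decide) hpq hpr hqr
  obtain ⟨e⟩ := H10.nonempty_ringEquiv_of_card_eq (K := K) (L := F) (by
    rw [Nat.card_eq_fintype_card, Nat.card_eq_fintype_card, hF, card_K])
  exact ⟨((stabEquiv3 k (none : GolayPt) (some 0 : GolayPt) (some 1 : GolayPt)).symm.trans
    iso.some).trans (H10.pslCongr e)⟩

end Cfsg.Agent.S0380
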