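import Cfsg.Statements.S0381
import Cfsg.Agent.L1.Fix

set_option autoImplicit false
open Cfsg

namespace Cfsg.Agent.S0381

open Cfsg.Agent.H14 MulAction
open scoped Pointwise

/-- The pointwise stabiliser of an octad in the group of the length-24 code has order 16 and every element of it squares to the identity. -/
theorem result (o : Finset Cfsg.GolayPt) (ho : o ∈ Cfsg.octads) : Nat.card ↥(Cfsg.M24 ⊓ fixingSubgroup (Equiv.Perm Cfsg.GolayPt) (o : Set Cfsg.GolayPt)) = 16 ∧ ∀ g ∈ Cfsg.M24 ⊓ fixingSubgroup (Equiv.Perm Cfsg.GolayPt) (o : Set Cfsg.GolayPt), g * g = 1 := by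
  obtain ⟨k, rfl⟩ := m24_octad o0_mem ho
  have key : ∀ g : M24, (g : Equiv.Perm GolayPt) ∈ M24 ⊓ fixingSubgroup (Equiv.Perm GolayPt)
      ((k • o0 : Finset GolayPt) : Set GolayPt) ↔ k⁻¹ * g * k⁻¹⁻¹ ∈ S18.K := fun g => by
    rw [mem_S18, ← inv_smul_smul k o0, fix_conj_iff, inv_smul_smul, Subgroup.mem_inf,
      mem_fixingSubgroup_iff]
    exact ⟨fun h => h.2, fun h => ⟨g.2, h⟩⟩
  refine ⟨(Nat.card_congr (permEquiv inf_le_left k⁻¹ key).toEquiv).trans S18.card_eq,
    fun g hg => ?_⟩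
  have h := (S18_fix ((key ⟨g, hg.1⟩).mp hg)).1
  rw [← MulAut.conj_apply, ← map_mul, EmbeddingLike.map_eq_one_iff] at h
  exact congrArg Subtype.val h

end Cfsg.Agent.S0381
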