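import Cfsg.Statements.S0383
import Mathlib
import Cfsg.Agent.H14.M24f

set_option autoImplicit false
open scoped Pointwise
open Cfsg

namespace Cfsg.Agent.S0383

/-- A dodecad stabiliser in the group of the length-24 code is simple. -/
theorem result (d : Finset Cfsg.GolayPt) (hd : d ∈ Cfsg.dodecads) : IsSimpleGroup (MulAction.stabilizer Cfsg.M24 d) := by
  obtain ⟨g, rfl⟩ := H14.m24_dodecad H14.d0_mem hd
  haveI : IsSimpleGroup (MulAction.stabilizer M24 H14.d0) := H14.simple_SD
  exact (MulAction.stabilizerEquivStabilizer (g := g) (a := H14.d0) rfl).symm.isSimpleGroup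

end Cfsg.Agent.S0383
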