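import Cfsg.Statements.S0384
import Mathlib
import Cfsg.Agent.H14.M24f

set_option autoImplicit false
open scoped Pointwise
open Cfsg

namespace Cfsg.Agent.S0384

/-- A dodecad stabiliser is sharply 5-transitive on the dodecad. -/
theorem result (d : Finset Cfsg.GolayPt) (hd : d ∈ Cfsg.dodecads) (x y : Fin 5 ↪ Cfsg.GolayPt) (hx : ∀ i, x i ∈ d) (hy : ∀ i, y i ∈ d) : ∃! g : MulAction.stabilizer Cfsg.M24 d, ∀ i, ((g : Cfsg.M24) : Equiv.Perm Cfsg.GolayPt) (x i) = y i := by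
  obtain ⟨g, hg, h⟩ := H14.m12_five hd x y hx hy
  refine ⟨⟨g, hg⟩, h, fun k hk => Subtype.ext ?_⟩
  have := H14.m12_sharp hd x hx (Subgroup.mul_mem _ (Subgroup.inv_mem _ hg) k.2) fun i => by
    rw [mul_smul, inv_smul_eq_iff, h]; exact hk i
  exact (inv_mul_eq_one.mp this).symm

end Cfsg.Agent.S0384
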