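import Cfsg.Statements.S0385
import Cfsg.Agent.L1.DesC

set_option autoImplicit false
open Cfsg

namespace Cfsg.Agent.S0385

open Cfsg.Agent.H14 MulAction
open scoped Pointwise

/-- The 6-point intersections of octads with a fixed dodecad form a Steiner system S(5, 6, 12) on the dodecad. -/
theorem result (d : Finset Cfsg.GolayPt) (hd : d ∈ Cfsg.dodecads) : Cfsg.IsSteinerSystem 5 6 {h : Finset {p : Cfsg.GolayPt // p ∈ d} | ∃ o ∈ Cfsg.octads, (o ∩ d).card = 6 ∧ h = Finset.subtype (fun p => p ∈ d) o} := by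
  convert (relst_hexads hd).steiner using 1
  ext h
  constructor
  · rintro ⟨o, ho, h6, rfl⟩
    have e : (Finset.subtype (fun p => p ∈ d) o).image Subtype.val = o ∩ d := by
      ext x; simp [and_comm]
    show _ ∈ hexadsOn d
    rw [e]
    exact ⟨h6, o, ho, rfl⟩
  · rintro ⟨h6, o, ho, e⟩
    refine ⟨o, ho, by rw [e]; exact h6, ?_⟩
    ext x
    rw [Finset.mem_subtype]
    have : (x : GolayPt) ∈ o ∩ d ↔ (x : GolayPt) ∈ h.image Subtype.val := by rw [e]
    rw [Finset.mem_inter, Subtype.val_injective.mem_finset_image] at this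
    rw [← this]
    exact ⟨fun a => a.1, fun a => ⟨a, x.2⟩⟩

end Cfsg.Agent.S0385
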