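import Cfsg.Statements.S0389
import Mathlib
import Cfsg.Agent.H14.M24f

set_option autoImplicit false
open scoped Pointwise
open Cfsg

namespace Cfsg.Agent.S0389

/-- The stabiliser of a dodecad and a point on it is 3-transitive on the complementary dodecad. -/
theorem result (d : Finset Cfsg.GolayPt) (hd : d ∈ Cfsg.dodecads) (p : Cfsg.GolayPt) (hp : p ∈ d) (x y : Fin 3 ↪ Cfsg.GolayPt) (hx : ∀ i, x i ∉ d) (hy : ∀ i, y i ∉ d) : ∃ g ∈ MulAction.stabilizer Cfsg.M24 d ⊓ MulAction.stabilizer Cfsg.M24 p, ∀ i, (g : Equiv.Perm Cfsg.GolayPt) (x i) = y i := by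
  obtain ⟨k, rfl, rfl⟩ := H14.m24_dod_one hd hp
  obtain ⟨g, hg, h⟩ := H14.m11_three (k⁻¹ • x) (k⁻¹ • y)
    (fun i hi => hx i (Finset.inv_smul_mem_iff.mp hi)) fun i hi => hy i (Finset.inv_smul_mem_iff.mp hi)
  refine ⟨k * g * k⁻¹, ⟨H14.conj_mem_stabilizer hg.1, H14.conj_mem_stabilizer hg.2⟩, fun i => ?_⟩
  have : g • k⁻¹ • x i = k⁻¹ • y i := h i
  show (k * g * k⁻¹) • x i = y i
  rw [mul_smul, mul_smul, this, smul_inv_smul]

end Cfsg.Agent.S0389
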