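import Cfsg.Statements.S0402
import Mathlib
import Cfsg.Agent.H25.Co2

set_option autoImplicit false
open Cfsg

namespace Cfsg.Agent.S0402
open H25.Leech

/-- Stabiliser of a minimal vector is simple of order 42305421312000. -/
theorem result (v : Cfsg.leechLattice) (hv : Cfsg.sqNorm (v : Cfsg.GolayPt → ℤ) = 32) : Cfsg.IsCo2 (MulAction.stabilizer Cfsg.Co0 v) := by
  obtain ⟨g, rfl⟩ := trans32 sqU hv
  haveI := simple_C2
  exact ⟨(stEq1 g U).symm.isSimpleGroup, (Nat.card_congr (stEq1 g U).toEquiv).symm.trans card_C2⟩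

end Cfsg.Agent.S0402
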