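import Cfsg.Statements.S0406
import Cfsg.Agent.S0407
import Cfsg.Agent.L1.AG
import Cfsg.Agent.H25.Leech2

set_option autoImplicit false
open Matrix
open Cfsg

namespace Cfsg.Agent.S0406

open Cfsg.Agent.H14 Cfsg.Agent.H25.Leech Finset
open scoped symmDiff

attribute [-simp] Fintype.sum_option Fintype.prod_option

variable {M : Type*} [AddCommGroup M] {b : M →+ M →+ ℤ} {φ : M →+ V}

/-- coordinates with respect to a frame. -/
structure Fr (b : M →+ M →+ ℤ) (φ : M →+ V) : Prop where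
  dot : ∀ x y, dotInt (φ x) (φ y) = 8 * b x y
  four : ∀ y : V, (2 : ℤ) ∣ ∑ i, y i → ∃ x, φ x = (4 : ℤ) • y
  par : ∀ x i j, (2 : ℤ) ∣ φ x i - φ x j

theorem Fr.sq (h : Fr b φ) (x : M) : ∑ i, φ x i ^ 2 = 8 * b x x := by
  rw [← h.dot, dot_self]; rfl

theorem Fr.tw (h : Fr b φ) (e : GolayPt ≃ GolayPt) (ε : V) (hε : ∀ i, ε i = 1 ∨ ε i = -1) :
    ∃ ψ : M →+ V, Fr b ψ ∧ ∀ x i, ψ x (e i) = ε i * φ x i := by
  let ψ : M →+ V := AddMonoidHom.mk' (fun x i => ε (e.symm i) * φ x (e.symm i)) fun x y => by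
    ext i; simp [mul_add]
  have hψ : ∀ x i, ψ x (e i) = ε i * φ x i := fun x i => by simp [ψ]
  refine ⟨ψ, ⟨fun x y => ?_, fun y hy => ?_, fun x i j => ?_⟩, hψ⟩
  · rw [← h.dot, dotInt, dotInt, ← e.sum_comp]
    refine sum_congr rfl fun i _ => ?_
    rw [hψ, hψ]
    rcases hε i with a | a <;> rw [a] <;> ring
  · obtain ⟨x, hx⟩ := h.four (fun i => ε i * y (e i)) (by
      rw [← e.sum_comp] at hy
      have : (2 : ℤ) ∣ ∑ i, (ε i * y (e i) - y (e i)) := dvd_sum fun i _ => by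
        rcases hε i with a | a <;> rw [a] <;> omega
      rw [sum_sub_distrib] at this
      omega)
    refine ⟨x, funext fun i => ?_⟩
    obtain ⟨i, rfl⟩ := e.surjective i
    rw [hψ, hx]
    simp only [Pi.smul_apply, smul_eq_mul]
    rcases hε i with a | a <;> rw [a] <;> ring
  · obtain ⟨i, rfl⟩ := e.surjective i
    obtain ⟨j, rfl⟩ := e.surjective j
    have := h.par x i j
    rw [hψ, hψ]
    rcases hε i with a | a <;> rcases hε j with a' | a' <;> rw [a, a'] <;> omega

/-- the code of the lattice. -/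
def cw' (φ : M →+ V) (c : Finset GolayPt) : Prop := ∃ x, ∀ i, (4 : ℤ) ∣ φ x i - 2 * ic c i

theorem cw_empty : cw' φ ∅ := ⟨0, fun i => by simp [ic]⟩

theorem cw_add {c d : Finset GolayPt} (hc : cw' φ c) (hd : cw' φ d) : cw' φ (c ∆ d) := by
  obtain ⟨x, hx⟩ := hc
  obtain ⟨y, hy⟩ := hd
  refine ⟨x + y, fun i => ?_⟩
  have a := hx i
  have a' := hy i
  rw [map_add, Pi.add_apply]
  by_cases h1 : i ∈ c <;> by_cases h2 : i ∈ d <;> simp [ic, mem_symmDiff, h1, h2] at a a' ⊢ <;> omega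

theorem Fr.cw_card (h : Fr b φ) (hb : EL b) {c : Finset GolayPt} (hc : cw' φ c) :
    4 ∣ c.card ∧ c.card ≠ 4 := by
  rcases c.eq_empty_or_nonempty with rfl | ⟨k, hk⟩
  · simp
  obtain ⟨x, hx⟩ := hc
  choose y hy using hx
  have : ∃ x', ∀ i, φ x' i ^ 2 = 4 * ic c i := by
    by_cases h2 : (2 : ℤ) ∣ ∑ i, y i
    · obtain ⟨x', hx'⟩ := h.four y h2
      refine ⟨x - x', fun i => ?_⟩
      have : φ (x - x') i = 2 * ic c i := by
        rw [map_sub, hx']; have := hy i; simp only [Pi.sub_apply, Pi.smul_apply, smul_eq_mul]; omega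
      rw [this]; unfold ic; split_ifs <;> norm_num
    · obtain ⟨x', hx'⟩ := h.four (y + Pi.single k 1) (by
        simp only [Pi.add_apply, sum_add_distrib, sum_pi_single', mem_univ, if_true]; omega)
      refine ⟨x - x', fun i => ?_⟩
      have : φ (x - x') i = 2 * ic c i - 4 * (Pi.single k 1 : V) i := by
        rw [map_sub, hx']; have := hy i
        simp only [Pi.sub_apply, Pi.smul_apply, smul_eq_mul, Pi.add_apply]; omega
      rw [this]
      by_cases e : i = k
      · subst e; simp [ic, hk]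
      · rw [Pi.single_eq_of_ne e]; unfold ic; split_ifs <;> norm_num
  obtain ⟨x', hx'⟩ := this
  have h1 := h.sq x'
  rw [sum_congr rfl fun i _ => hx' i, ← mul_sum, sum_ic] at h1
  have := hb.even x'
  have := hb.no2 x'
  omega

theorem two_mod_four {v : V} (h : ∀ i, (4 : ℤ) ∣ v i - 2) : 96 ≤ ∑ i, v i ^ 2 := by
  have : ∑ _i : GolayPt, (4 : ℤ) ≤ ∑ i, v i ^ 2 := sum_le_sum fun i _ => by
    have := h i
    rcases (by omega : v i ≤ -2 ∨ 2 ≤ v i) with a | a <;> nlinarith
  simpa [card24] using this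

variable [Module.Free ℤ M] [Module.Finite ℤ M]

theorem frame (hb : EL b) (hr : Module.finrank ℤ M = 24) {x : M}
    (h48 : {y | b y y = 8 ∧ ∃ z, x - y = 2 • z}.ncard = 48) : ∃ R : Finset M, R.card = 24 ∧
      (∀ y ∈ R, b y y = 8 ∧ ∃ z, x - y = 2 • z) ∧ ∀ y ∈ R, ∀ y' ∈ R, y ≠ y' → b y y' = 0 := by
  have hf : {y | b y y = 8 ∧ ∃ z, x - y = 2 • z}.Finite :=
    Set.finite_of_ncard_ne_zero (by rw [h48]; norm_num)
  obtain ⟨R, h1, h2, h3⟩ := exists_orth hb.symm hf.toFinset fun y hy y' hy' => by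
    obtain ⟨a, z, hz⟩ := hf.mem_toFinset.mp hy
    obtain ⟨a', z', hz'⟩ := hf.mem_toFinset.mp hy'
    rcases hb.short a.le a'.le ⟨z' - z, by rw [smul_sub, ← hz, ← hz']; abel⟩ with c | c | c
    · exact Or.inl c
    · exact Or.inr (Or.inl c)
    · exact Or.inr (Or.inr c.2.2)
  have h4 : ∀ y ∈ R, b y y = 8 ∧ ∃ z, x - y = 2 • z := fun y hy => hf.mem_toFinset.mp (h1 hy)
  have h5 := orth_card h2 fun y hy => by rw [(h4 y hy).1]; norm_num
  rw [← Set.ncard_eq_toFinset_card _ hf, h48] at h3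
  exact ⟨R, by omega, h4, h2⟩

theorem exists_fr (hb : EL b) (hr : Module.finrank ℤ M = 24) {x : M}
    (h48 : {y | b y y = 8 ∧ ∃ z, x - y = 2 • z}.ncard = 48) : ∃ φ : M →+ V, Fr b φ := by
  classical
  obtain ⟨R, h1, h2, h3⟩ := frame hb hr h48
  have e : GolayPt ≃ R := Fintype.equivOfCardEq (by rw [card24, Fintype.card_coe, h1])
  let v : GolayPt → M := fun i => e i
  have hv : ∀ i j, b (v i) (v j) = if i = j then 8 else 0 := fun i j => by
    split_ifs with a
    · subst a; exact (h2 _ (e i).2).1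
    · exact h3 _ (e i).2 _ (e j).2 fun c => a (e.injective (Subtype.ext c))
  have hz : ∀ i j, ∃ z, v i - v j = 2 • z := fun i j => by
    obtain ⟨z, hz⟩ := (h2 _ (e i).2).2
    obtain ⟨z', hz'⟩ := (h2 _ (e j).2).2
    exact ⟨z' - z, by rw [smul_sub, ← hz, ← hz']; simp only [v]; abel⟩
  let φ : M →+ V := AddMonoidHom.mk' (fun x i => b x (v i)) fun x y => by ext i; simp
  have hφ : ∀ x i, φ x i = b x (v i) := fun _ _ => rfl
  have h8 : ∀ x, (8 : ℤ) • x = ∑ i, φ x i • v i := fun x => by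
    by_contra hne
    have h0 : ∀ j, b ((8 : ℤ) • x - ∑ i, φ x i • v i) (v j) = 0 := fun j => by
      simp only [map_sub, map_zsmul, map_sum, AddMonoidHom.sub_apply, AddMonoidHom.smul_apply,
        AddMonoidHom.finsetSum_apply, hv, smul_eq_mul, mul_ite, mul_zero, sum_ite_eq', mem_univ,
        if_true, hφ]
      ring
    generalize hw : (8 : ℤ) • x - ∑ i, φ x i • v i = w at h0
    have hw0 : w ≠ 0 := by rw [← hw]; exact sub_ne_zero.mpr hne
    have h0' : ∀ y ∈ R, b w y = 0 := fun y hy => by simpa [v] using h0 (e.symm ⟨y, hy⟩)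
    have hwR : w ∉ R := fun c => by have := hb.pos w hw0; have := h0' w c; omega
    have := orth_card (b := b) (R := insert w R) (fun y hy y' hy' c => by
      rcases mem_insert.mp hy with rfl | a <;> rcases mem_insert.mp hy' with rfl | a'
      · exact absurd rfl c
      · exact h0' _ a'
      · rw [hb.symm]; exact h0' _ a
      · exact h3 _ a _ a' c) fun y hy => by
      rcases mem_insert.mp hy with rfl | hy
      · exact (hb.pos _ hw0).ne'
      · rw [(h2 y hy).1]; norm_num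
    rw [card_insert_of_notMem hwR] at this
    omega
  refine ⟨φ, fun x y => ?_, fun y hy => ?_, fun x i j => ?_⟩
  · have := congrArg (fun t => b t y) (h8 x)
    simp only [map_zsmul, map_sum, AddMonoidHom.smul_apply, AddMonoidHom.finsetSum_apply,
      smul_eq_mul] at this
    rw [this]
    exact sum_congr rfl fun i _ => by rw [hφ y, hb.symm y]
  · have h4 : ∀ i, ∃ w, ∀ j, φ w j = 4 * ((if i = j then 1 else 0) + if none = j then 1 else 0) :=
      fun i => by
        obtain ⟨z, hz⟩ := hz i none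
        refine ⟨z + v none, fun j => ?_⟩
        have := congrArg (fun t => b t (v j)) hz
        simp only [map_sub, map_nsmul, AddMonoidHom.sub_apply, AddMonoidHom.smul_apply, hv,
          nsmul_eq_mul] at this
        rw [hφ, map_add, AddMonoidHom.add_apply, hv]
        split_ifs at this ⊢ <;> push_cast at this <;> omega
    choose w hw using h4
    obtain ⟨k, hk⟩ := hy
    refine ⟨∑ i, y i • w i - k • w none, funext fun j => ?_⟩
    simp only [map_sub, map_sum, map_zsmul, Pi.sub_apply, Finset.sum_apply, Pi.smul_apply, hw,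
      smul_eq_mul, mul_add, sum_add_distrib, ← sum_mul, hk, mul_ite, mul_one, mul_zero,
      sum_ite_eq', mem_univ, if_true]
    split_ifs
    · rw [← sum_mul, hk]; ring
    · simp [mul_comm]
  · obtain ⟨z, hz⟩ := hz i j
    rw [hφ, hφ, ← map_sub, hz, map_nsmul]
    exact ⟨b x z, by simp⟩

theorem Fr.steiner (h : Fr b φ) (hb : EL b) (hr : Module.finrank ℤ M = 24)
    (h48 : ∀ x, b x x = 8 → {y | b y y = 8 ∧ ∃ z, x - y = 2 • z}.ncard = 48) :
    IsSteinerSystem 5 8 {c | cw' φ c ∧ c.card = 8} := by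
  classical
  have hmin : ∀ c d, cw' φ (c ∆ d) → c ≠ d → 8 + 2 * (c ∩ d).card ≤ c.card + d.card :=
    fun c d hc hne => by
      have h1 := h.cw_card hb hc
      have h2 : (c ∆ d).card ≠ 0 := fun e => hne (symmDiff_eq_bot.mp (card_eq_zero.mp e))
      have := card_symmDiff_add c d
      omega
  refine ⟨fun c hc => hc.2, fun s hs => ?_⟩
  suffices ∃ c, (cw' φ c ∧ c.card = 8) ∧ s ⊆ c by
    obtain ⟨c, hc⟩ := this
    refine ⟨c, hc, fun d hd => ?_⟩
    by_contra hne
    have h1 := hmin d c (cw_add hd.1.1 hc.1.1) hne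
    have h2 := card_le_card (subset_inter hd.2 hc.2)
    have := hc.1.2
    have := hd.1.2
    omega
  obtain ⟨p, hp⟩ : s.Nonempty := card_pos.mp (by omega)
  have hT : (s.erase p).card = 4 := by rw [card_erase_of_mem hp, hs]
  have hpT : p ∉ s.erase p := notMem_erase p s
  rw [← insert_erase hp]
  generalize s.erase p = T at hT hpT
  obtain ⟨w, hw⟩ := h.four (ic T) (by rw [sum_ic, hT]; norm_num)
  have hw8 : b w w = 8 := by
    have h1 := h.dot w w
    rw [dot_self, hw, sq_zsmul, sq_ic, hT] at h1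
    push_cast at h1; omega
  obtain ⟨R, h1, h2, h3⟩ := frame hb hr (h48 w hw8)
  obtain ⟨y, hy, hyp⟩ : ∃ y ∈ R, φ y p ≠ 0 := by
    by_contra hc
    push Not at hc
    obtain ⟨v, hv⟩ := h.four (Pi.single p 2) (by simp)
    have hv' : ∀ y, 8 * b y v = φ y p * 8 := fun y => by
      rw [← h.dot, hv, dot_zsmul, dot_single]; ring
    have hvp : φ v p = 8 := by rw [hv]; simp
    have h0 : ∀ y ∈ R, b y v = 0 := fun y hy => by have := hv' y; rw [hc y hy] at this; omega
    have hvR : v ∉ R := fun c => by have := hc v c; omega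
    have := orth_card (b := b) (R := insert v R) (fun y hy y' hy' c => by
      rcases mem_insert.mp hy with rfl | a <;> rcases mem_insert.mp hy' with rfl | a'
      · exact absurd rfl c
      · rw [hb.symm]; exact h0 _ a'
      · exact h0 _ a
      · exact h3 _ a _ a' c) fun y hy => by
      rcases mem_insert.mp hy with rfl | hy
      · have := hv' y; omega
      · rw [(h2 y hy).1]; norm_num
    rw [card_insert_of_notMem hvR] at this
    omega
  obtain ⟨hy8, z, hz⟩ := h2 y hy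
  have hsq := h.sq y
  have hc : ∀ i, φ y i = 4 * ic T i - 2 * φ z i := fun i => by
    have := congrArg (fun t => φ t i) hz
    simp only [map_sub, map_nsmul, hw, Pi.sub_apply, Pi.smul_apply, smul_eq_mul,
      nsmul_eq_mul] at this
    push_cast at this; omega
  have hev : (2 : ℤ) ∣ φ z p := by
    by_contra c
    have := two_mod_four (v := φ y) fun i => by have := h.par z i p; rw [hc]; omega
    omega
  have hev' : ∀ i, (2 : ℤ) ∣ φ z i := fun i => by have := h.par z i p; omega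
  choose t ht using hev'
  let N := univ.filter fun i => φ y i ≠ 0
  let T' := univ.filter fun i => ¬ (2 : ℤ) ∣ ic T i - t i
  have hN : N.card ≤ 4 := by
    have : ∑ i ∈ N, (16 : ℤ) ≤ ∑ i, φ y i ^ 2 := le_trans (sum_le_sum fun i hi => by
      have a := (mem_filter.mp hi).2
      have := hc i
      have := ht i
      rcases (by omega : φ y i ≤ -4 ∨ 4 ≤ φ y i) with a | a <;> nlinarith)
      (sum_le_sum_of_subset_of_nonneg (subset_univ _) fun _ _ _ => sq_nonneg _)
    rw [sum_const, nsmul_eq_mul] at this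
    omega
  have hT' : T' ⊆ N := fun i hi => mem_filter.mpr ⟨mem_univ _, by
    have a := (mem_filter.mp hi).2
    have := hc i
    have := ht i
    omega⟩
  have hpN : p ∈ N := mem_filter.mpr ⟨mem_univ _, hyp⟩
  have hcw : cw' φ (T ∆ T') := ⟨z, fun i => by
    rw [ht i]
    by_cases a : i ∈ T <;> by_cases a' : (2 : ℤ) ∣ t i <;>
      simp [ic, mem_symmDiff, T', a, a'] <;> (try split_ifs) <;> omega⟩
  have hne : T ≠ T' := fun e => by
    have := card_le_card (insert_subset hpN (e ▸ hT'))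
    rw [card_insert_of_notMem hpT] at this
    omega
  have h4 := hmin _ _ hcw hne
  have h5 := card_le_card hT'
  have h6 := card_symmDiff_add T T'
  have h7 : T' = N := eq_of_subset_of_card_le hT' (by omega)
  refine ⟨T ∆ T', ⟨hcw, by omega⟩, insert_subset (mem_symmDiff.mpr (Or.inr ⟨h7 ▸ hpN, hpT⟩))
    fun i hi => mem_symmDiff.mpr (Or.inl ⟨hi, fun c => ?_⟩)⟩
  have : 0 < (T ∩ T').card := card_pos.mpr ⟨i, mem_inter.mpr ⟨hi, c⟩⟩
  omega

theorem exists_good (hb : EL b) (hr : Module.finrank ℤ M = 24)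
    (hsh : ∀ x, ∃ y, b y y ≤ 8 ∧ ∃ z, x - y = 2 • z)
    (h48 : ∀ x, b x x = 8 → {y | b y y = 8 ∧ ∃ z, x - y = 2 • z}.ncard = 48) {x : M}
    (hx : b x x = 8) : ∃ ψ : M →+ V, Fr b ψ ∧ ∀ x, ψ x ∈ L := by
  obtain ⟨φ₀, h₀⟩ := exists_fr hb hr (h48 x hx)
  obtain ⟨e, he⟩ := iso_iff (S0407.result card_golayPt card_golayPt (h₀.steiner hb hr h48)
    steiner_octads)
  obtain ⟨φ, h, hφ⟩ := h₀.tw e 1 fun _ => Or.inl rfl
  have h1 : octads ⊆ {c | cw' φ c} := fun o ho => by
    have e3 : (o.image e.symm).image e = o := by rw [image_image]; simp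
    obtain ⟨x, hx⟩ := ((he (o.image e.symm)).mpr (by rwa [e3])).1
    refine ⟨x, fun i => ?_⟩
    obtain ⟨i, rfl⟩ := e.surjective i
    have e4 : ic o (e i) = ic (o.image e.symm) i := by
      conv_lhs => rw [← e3]
      simp only [ic, e.injective.mem_finset_image]
    rw [hφ, e4]
    simpa using hx i
  have h2 : ∀ c, cw' φ c → c ∈ GCode := fun c hc => gcode_of_orth_all fun o ho => by
    have a := (h.cw_card hb hc).1
    have a' := (h.cw_card hb (cw_add hc (h1 ho))).1
    have := card_symmDiff_add c o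
    rw [(mem_octads.mp ho).2] at this
    exact ⟨(c ∩ o).card / 2, by omega⟩
  obtain ⟨x₀, hx₀⟩ := gcode_subset (K := {c | cw' φ c}) cw_empty (fun _ a _ c => cw_add a c) h1
    univ_mem_gcode
  obtain ⟨y, hy, z, hz⟩ := hsh x₀
  have hodd : ∀ i, ¬ (2 : ℤ) ∣ φ z i := fun p c => by
    have := two_mod_four (v := φ y) fun i => by
      have a := congrArg (fun t => φ t i) hz
      have a' := hx₀ i
      have := h.par z i p
      simp only [map_sub, map_nsmul, Pi.sub_apply, Pi.smul_apply, nsmul_eq_mul, ic, mem_univ,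
        if_true] at a a'
      push_cast at a; omega
    have := h.sq y
    omega
  obtain ⟨ψ, hψ, hψ'⟩ := h.tw (Equiv.refl _) (fun i => if φ z i % 4 = 1 then 1 else -1) fun i => by
    split_ifs <;> simp
  simp only [Equiv.refl_apply] at hψ'
  have hz1 : ∀ i, (4 : ℤ) ∣ ψ z i - 1 := fun i => by
    have := hodd i
    rw [hψ']; split_ifs <;> omega
  have hev : ∀ x, (∀ i, (2 : ℤ) ∣ ψ x i) → ψ x ∈ L := fun x hx => by
    refine mem_iff.mpr ⟨0, univ.filter fun i => ¬ (4 : ℤ) ∣ ψ x i, h2 _ ⟨x, fun i => ?_⟩,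
      fun i => ?_, ?_⟩
    · have a := hx i
      have a' := hψ' x i
      simp only [ic, mem_filter, mem_univ, true_and]
      split_ifs at a' ⊢ <;> omega
    · have a := hx i
      simp only [ic, mem_filter, mem_univ, true_and]
      split_ifs <;> omega
    · have a := hψ.dot x z
      have : (8 : ℤ) ∣ ∑ i, (ψ x i * ψ z i - ψ x i) := dvd_sum fun i _ => by
        obtain ⟨s, hs⟩ := hx i
        obtain ⟨t, ht⟩ := hz1 i
        exact ⟨s * t, by rw [← mul_sub_one, ht, hs]; ring⟩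
      rw [sum_sub_distrib] at this
      rw [dotInt] at a
      omega
  have hzL : ψ z ∈ L := by
    refine mem_iff.mpr ⟨1, ∅, empty_mem_gcode, fun i => by simpa [ic] using hz1 i, ?_⟩
    choose t ht using hz1
    have a := hψ.sq z
    have e1 : ∀ i, ψ z i = 4 * t i + 1 := fun i => by have := ht i; omega
    have e2 : ∀ i, (4 * t i + 1) ^ 2 = 16 * t i ^ 2 + 8 * t i + 1 := fun i => by ring
    simp only [e1, e2, sum_add_distrib, ← mul_sum, sum_const, card_univ, card24] at a ⊢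
    have := hb.even z
    simp only [nsmul_eq_mul] at a ⊢
    push_cast at a ⊢
    omega
  refine ⟨ψ, hψ, fun x => ?_⟩
  by_cases c : (2 : ℤ) ∣ ψ x none
  · exact hev x fun i => by have := hψ.par x i none; omega
  · have := hev (x - z) fun i => by
      have := hψ.par x i none
      have := hz1 i
      rw [map_sub, Pi.sub_apply]; omega
    rw [map_sub] at this
    simpa using L.add_mem this hzL

/-- A rank-24 even lattice with no roots and the stated numbers of vectors of norms 4, 6, 8 is isomorphic to the Leech lattice. -/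
theorem result (B : Matrix (Fin 24) (Fin 24) ℤ) (hsymm : B.IsSymm) (hpos : ∀ x : Fin 24 → ℤ, x ≠ 0 → 0 < x ⬝ᵥ (B *ᵥ x)) (heven : ∀ x : Fin 24 → ℤ, (2 : ℤ) ∣ x ⬝ᵥ (B *ᵥ x)) (h2 : ∀ x : Fin 24 → ℤ, x ⬝ᵥ (B *ᵥ x) ≠ 2) (h4 : {x : Fin 24 → ℤ | x ⬝ᵥ (B *ᵥ x) = 4}.ncard = 196560) (h6 : {x : Fin 24 → ℤ | x ⬝ᵥ (B *ᵥ x) = 6}.ncard = 16773120) (h8 : {x : Fin 24 → ℤ | x ⬝ᵥ (B *ᵥ x) = 8}.ncard = 398034000) : ∃ f : (Fin 24 → ℤ) ≃+ Cfsg.leechLattice, ∀ x : Fin 24 → ℤ, Cfsg.sqNorm ((f x : Cfsg.leechLattice) : Cfsg.GolayPt → ℤ) = 8 * (x ⬝ᵥ (B *ᵥ x)) := by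
  have hb := mform_EL hsymm hpos heven h2
  have hr : Module.finrank ℤ (Fin 24 → ℤ) = 24 := by simp
  obtain ⟨h1, h3⟩ := hb.mod2 hr h4 h6 h8
  obtain ⟨x, hx⟩ := Set.nonempty_of_ncard_ne_zero (by rw [h8]; norm_num)
  obtain ⟨ψ, hψ, hL⟩ := exists_good hb hr h1 h3 hx
  have hsq : ∀ x, sqNorm (ψ x) = 8 * (x ⬝ᵥ (B *ᵥ x)) := fun x => hψ.sq x
  have hi : Function.Injective ψ := (injective_iff_map_eq_zero ψ).mpr fun x h => by
    by_contra c
    have a := hsq x
    have := hpos x c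
    rw [h] at a
    simp [sqNorm] at a
    omega
  have hS : ψ '' {x | x ⬝ᵥ (B *ᵥ x) = 4} = Sh 32 := Set.eq_of_subset_of_ncard_le (by
    rintro _ ⟨x, hx, rfl⟩
    exact ⟨hL x, by rw [hsq, hx]; rfl⟩)
    (by rw [Set.ncard_image_of_injective _ hi, h4, ncard_Sh32]) (Sh_finite (by norm_num))
  have hle : L ≤ ψ.range := by
    rw [← closure_min, AddSubgroup.closure_le, ← hS]
    rintro _ ⟨x, -, rfl⟩; exact ⟨x, rfl⟩
  refine ⟨AddEquiv.ofBijective (ψ.codRestrict L hL) ⟨fun a c e => hi (congrArg Subtype.val e),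
    fun v => ?_⟩, hsq⟩
  obtain ⟨x, hx⟩ := hle v.2
  exact ⟨x, Subtype.ext hx⟩

end Cfsg.Agent.S0406
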