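import Cfsg.Statements.S0412
import Cfsg.Agent.S0407
import Cfsg.Agent.L1.DesC

set_option autoImplicit false
open Cfsg

namespace Cfsg.Agent.S0412

open Cfsg.Agent.H14 MulAction
open scoped Pointwise

/-- Aut of an S(5, 8, 24) is simple of order 244823040 and 5-transitive on points. -/
theorem result {α : Type*} [Fintype α] [DecidableEq α] (hα : Fintype.card α = 24) {B : Set (Finset α)} (hB : Cfsg.IsSteinerSystem 5 8 B) : Cfsg.IsM24 (Cfsg.setSystemAut B) ∧ MulAction.IsMultiplyPretransitive (Cfsg.setSystemAut B) α 5 := by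
  have hiso : SetSystemIso B {b : Finset (Finset.univ : Finset GolayPt) |
      b.image Subtype.val ∈ octads} :=
    S0407.result hα (by simp [card_golayPt]) hB relst_octads.steiner
  obtain ⟨ι, H⟩ := exists_demb relst_octads.sub hiso
  have h1 : ∀ g ∈ (⊤ : Subgroup M24), ∃ σ ∈ setSystemAut B, ∀ a, ι (σ a) = g • ι a :=
    fun g _ => H.restrict (fun _ _ => Finset.mem_univ _) fun s hs => (m24_smul_octads g).mpr hs
  obtain ⟨φ⟩ := aut_equiv ⊤ H.inj _ h1 (fun σ hσ => by
      obtain ⟨g, e, -, h2, -⟩ := H.extend hσ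
      refine ⟨⟨g, ?_⟩, trivial, e⟩
      rw [M24_eq_aut_octads]
      exact mem_stabilizer_of_maps (Set.toFinite _) h2)
    fun g _ h => m24_ext fun p => by
      obtain ⟨a, rfl⟩ := (H.ran p).mp (Finset.mem_univ _)
      exact h a
  have ψ := φ.symm.trans Subgroup.topEquiv
  refine ⟨⟨?_, (Nat.card_congr ψ.toEquiv).trans card_M24⟩, aut_mtrans ⊤ H.inj _ h1 fun x y hx hy => ?_⟩
  · have := simple_M24
    exact ψ.isSimpleGroup
  · obtain ⟨g, hg⟩ := m24_emb le_rfl (ι ∘ x) (ι ∘ y) (H.inj.comp hx) (H.inj.comp hy)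
    exact ⟨g, trivial, hg⟩

end Cfsg.Agent.S0412
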