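import Cfsg.Statements.S0413
import Cfsg.Agent.S0409
import Cfsg.Agent.L1.DesC

set_option autoImplicit false
open Cfsg

namespace Cfsg.Agent.S0413

open Cfsg.Agent.H14 MulAction
open scoped Pointwise

/-- Aut of an S(4, 7, 23) is simple of order 10200960 and 4-transitive. -/
theorem result {α : Type*} [Fintype α] [DecidableEq α] (hα : Fintype.card α = 23) {B : Set (Finset α)} (hB : Cfsg.IsSteinerSystem 4 7 B) : Cfsg.IsM23 (Cfsg.setSystemAut B) ∧ MulAction.IsMultiplyPretransitive (Cfsg.setSystemAut B) α 4 := by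
  have hR := relst_octads.derive (t := 4) (k := 7) (c := 1) (P := {none}) (Finset.subset_univ _) rfl
  obtain ⟨ι, H⟩ := exists_demb hR.sub (S0409.result hα (by
    rw [Fintype.card_coe, Finset.card_univ_sdiff, card_golayPt]; rfl) hB hR.steiner)
  have hne : ∀ a, ι a ≠ none := fun a => by simpa using (H.ran _).mpr ⟨a, rfl⟩
  have h1 : ∀ g ∈ S23s.K, ∃ σ ∈ setSystemAut B, ∀ a, ι (σ a) = g • ι a := fun g hg => by
    have hg' : g • (none : GolayPt) = none := hg
    refine H.restrict (fun x hx => ?_) fun s hs => smul_octP (by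
      rw [Finset.smul_finset_singleton, hg']) hs
    simp only [Finset.mem_sdiff, Finset.mem_univ, Finset.mem_singleton, true_and] at hx ⊢
    rwa [← hg', smul_left_cancel_iff]
  obtain ⟨φ⟩ := aut_equiv S23s.K H.inj _ h1 (fun σ hσ => by
      obtain ⟨g, e, h0, h2, -⟩ := H.extend hσ
      have h3 : g none = none := h0 _ (by simp)
      exact ⟨⟨g, mem_M24_of_octP1 h3 h2⟩, h3, e⟩)
    fun g hg h => m24_ext fun p => by
      by_cases hp : p = none
      · subst hp; exact hg
      · obtain ⟨a, rfl⟩ := (H.ran p).mp (by simpa using hp)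
        exact h a
  refine ⟨⟨?_, (Nat.card_congr φ.symm.toEquiv).trans S23s.card_eq⟩,
    aut_mtrans S23s.K H.inj _ h1 fun x y hx hy => ?_⟩
  · have := simple_S23
    exact φ.symm.isSimpleGroup
  · have hi : ∀ z : Fin 4 → α, Function.Injective z →
        Function.Injective (Fin.cons none (ι ∘ z) : Fin 5 → GolayPt) := fun z hz =>
      Fin.cons_injective_iff.mpr ⟨fun ⟨i, hi⟩ => hne _ hi, H.inj.comp hz⟩
    obtain ⟨g, hg⟩ := m24_emb le_rfl _ _ (hi x hx) (hi y hy)
    exact ⟨g, hg 0, fun i => hg i.succ⟩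

end Cfsg.Agent.S0413
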