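import Cfsg.Statements.S0418
import Mathlib
import Cfsg.Agent.H16.PrimeDeg2
import Cfsg.Agent.H16.NormalMult

set_option autoImplicit false
open Cfsg

namespace Cfsg.Agent.S0418

/-- A sharply 4-transitive group of degree 11 is simple of order 7920. -/
theorem result {α : Type*} [Fintype α] [DecidableEq α] (hα : Fintype.card α = 11) (G : Subgroup (Equiv.Perm α)) [MulAction.IsMultiplyPretransitive G α 4] (hsharp : ∀ x : Fin 4 ↪ α, MulAction.stabilizer G x = ⊥) : Cfsg.IsM11 G := by
  haveI : Fact (Nat.Prime 11) := ⟨by norm_num⟩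
  have hα' : Nat.card α = 11 := by rw [Nat.card_eq_fintype_card, hα]
  have h4 : MulAction.IsMultiplyPretransitive G α 4 := inferInstance
  have h : Nat.card G = 7920 := by
    rw [H16.card_of_sharp h4 (by omega) hsharp, hα']; rfl
  have : MulAction.IsPretransitive G α :=
    MulAction.is_one_pretransitive_iff.1 (H16.mtrans_mono h4 (by omega) (by omega))
  obtain ⟨P⟩ : Nonempty (Sylow 11 G) := inferInstance
  have h1 := H16.card_eq_prime_deg hα' P
  have h2 := H16.relIndex_normalizer_dvd_prime_deg hα' P
  have h3 := card_sylow_modEq_one 11 G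
  refine ⟨H16.simple_of_prime_deg hα' P ?_ ?_, h⟩
  all_goals
    rw [h] at h1
    generalize (P : Subgroup G).relIndex _ = k at h1 h2 ⊢
    generalize Nat.card (Sylow 11 G) = m at h1 h3 ⊢
    have h4 := Nat.le_of_dvd (by norm_num) h2
    unfold Nat.ModEq at h3
    interval_cases k <;> first | omega | norm_num

end Cfsg.Agent.S0418
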