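import Cfsg.Statements.S4300
import Mathlib
import Cfsg.Agent.H16.RegNormal

set_option autoImplicit false
open Cfsg

namespace Cfsg.Agent.S4300

/-- Let G act faithfully and primitively on a set X, and suppose the stabilizer of some point is a simple group. Then either G is simple, or G has a normal subgroup, neither trivial nor the whole group, that acts regularly on X (transitively with trivial point stabilizers). -/
theorem result {G : Type*} [Group G] {X : Type*} [MulAction G X] [FaithfulSMul G X]
    (hprim : MulAction.IsPreprimitive G X) (x : X) (hsimple : IsSimpleGroup (MulAction.stabilizer G x)) :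
    IsSimpleGroup G ∨ ∃ N : Subgroup G, N.Normal ∧ N ≠ ⊥ ∧ N ≠ ⊤ ∧
      MulAction.IsPretransitive N X ∧ ∀ y : X, MulAction.stabilizer N y = ⊥ := by
  open MulAction in
  by_contra hc
  push Not at hc
  obtain ⟨hns, hc⟩ := hc
  apply hns
  have hnt : Nontrivial G := by
    have := hsimple.toNontrivial
    exact (stabilizer G x).subtype_injective.nontrivial
  refine ⟨fun N hN => ?_⟩
  by_contra h
  push Not at h
  have ht := H16.normal_trans (α := X) N h.1
  rcases hsimple.eq_bot_or_eq_top_of_normal (N.subgroupOf (stabilizer G x)) inferInstance with e | e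
  · obtain ⟨y, hy⟩ := hc N hN h.1 h.2 ht
    apply hy
    apply H16.stabilizer_eq_bot_of_one (a := x)
    rw [eq_bot_iff]
    intro n hn
    have : (⟨n, hn⟩ : stabilizer G x) ∈ N.subgroupOf (stabilizer G x) := n.2
    rw [e, Subgroup.mem_bot, Subtype.ext_iff] at this
    exact Subtype.ext this
  · apply h.2
    rw [← H16.sup_stabilizer_eq_top N x, eq_comm, sup_eq_left]
    exact Subgroup.subgroupOf_eq_top.1 e

end Cfsg.Agent.S4300
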