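import Cfsg.Statements.S0419
import Mathlib
import Cfsg.Agent.H16.Sharp4
import Cfsg.Agent.S4300
import Cfsg.Agent.S0054

set_option autoImplicit false
open Cfsg

namespace Cfsg.Agent.S0419

/-- A sharply 5-transitive group of degree 12 is simple of order 95040. -/
theorem result {α : Type*} [Fintype α] [DecidableEq α] (hα : Fintype.card α = 12) (G : Subgroup (Equiv.Perm α)) [MulAction.IsMultiplyPretransitive G α 5] (hsharp : ∀ x : Fin 5 ↪ α, MulAction.stabilizer G x = ⊥) : Cfsg.IsM12 G := by
  haveI : Fact (Nat.Prime 11) := ⟨by norm_num⟩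
  have hα' : Nat.card α = 12 := by rw [Nat.card_eq_fintype_card, hα]
  have h5 : MulAction.IsMultiplyPretransitive G α 5 := inferInstance
  have h : Nat.card G = 95040 := by
    rw [H16.card_of_sharp h5 (by omega) hsharp, hα']; rfl
  have htr := H16.trans_of_mtrans h5 (by omega) (by omega)
  obtain ⟨a⟩ : Nonempty α := (Nat.card_pos_iff.1 (by omega)).1
  have hs : IsSimpleGroup (MulAction.stabilizer G a) := by
    have h11 : Nat.card (SubMulAction.ofStabilizer G a) = 11 := by
      rw [H16.card_ofStabilizer, hα']
    have h4 : MulAction.IsMultiplyPretransitive (MulAction.stabilizer G a)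
      (SubMulAction.ofStabilizer G a) 4 := SubMulAction.ofStabilizer.isMultiplyPretransitive.1 h5
    have hc := H16.card_of_sharp h4 (by omega) (H16.sharp_ofStabilizer hsharp a)
    have := H16.trans_of_mtrans h4 (by omega) (by omega)
    have := H16.faithful_ofStabilizer (G := G) a
    obtain ⟨P⟩ : Nonempty (Sylow 11 (MulAction.stabilizer G a)) := inferInstance
    have h1 := H16.card_eq_prime_deg h11 P
    have h2 := H16.relIndex_normalizer_dvd_prime_deg h11 P
    have h3 := card_sylow_modEq_one 11 (MulAction.stabilizer G a)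
    rw [hc, h11] at h1
    refine H16.simple_of_prime_deg h11 P ?_ ?_
    all_goals
      generalize (P : Subgroup (MulAction.stabilizer G a)).relIndex _ = k at h1 h2 ⊢
      generalize Nat.card (Sylow 11 (MulAction.stabilizer G a)) = m at h1 h3 ⊢
      have h4 := Nat.le_of_dvd (by norm_num) h2
      unfold Nat.ModEq at h3
      simp [Nat.descFactorial] at h1
      interval_cases k <;> first | omega | norm_num
  refine ⟨?_, h⟩
  rcases Cfsg.Agent.S4300.result (H16.prim_of_mtrans h5 (by omega) (by omega)) a hs with h | h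
  · exact h
  obtain ⟨N, hN, -, -, ht, hr⟩ := h
  have : Nonempty α := ⟨a⟩
  obtain ⟨-, p, hp, hpN⟩ := Cfsg.Agent.S0054.result (H16.mtrans_mono h5 (by omega) (by omega)) N ht hr
  have hc : Nat.card N = 12 := (H16.card_eq_of_regular a (hr a)).trans hα'
  exfalso
  have key : ∀ q : ℕ, q.Prime → q ∣ 12 → q = p := by
    intro q hq hd
    have := Fact.mk hq
    obtain ⟨x, hx⟩ := exists_prime_orderOf_dvd_card' (G := N) q (hc ▸ hd)
    have : orderOf x ∣ p := orderOf_dvd_of_pow_eq_one (Subtype.ext (hpN x x.2))
    rw [hx] at this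
    exact (Nat.prime_dvd_prime_iff_eq hq hp).1 this
  have := (key 2 Nat.prime_two (by norm_num)).trans (key 3 Nat.prime_three (by norm_num)).symm
  omega

end Cfsg.Agent.S0419
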