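import Cfsg.Statements.S0425
import Cfsg.Agent.S0408
import Cfsg.Agent.L1.DesC
import Cfsg.Agent.L1.Quart

set_option autoImplicit false
open Cfsg

namespace Cfsg.Agent.S0425

open Cfsg.Agent.H14 MulAction
open scoped Pointwise

/-- Aut of an S(5, 6, 12) is simple of order 95040 and sharply 5-transitive on points. -/
theorem result {α : Type*} [Fintype α] [DecidableEq α] (hα : Fintype.card α = 12) {B : Set (Finset α)} (hB : Cfsg.IsSteinerSystem 5 6 B) : Cfsg.IsM12 (Cfsg.setSystemAut B) ∧ MulAction.IsMultiplyPretransitive (Cfsg.setSystemAut B) α 5 ∧ ∀ x : Fin 5 ↪ α, MulAction.stabilizer (Cfsg.setSystemAut B) x = ⊥ := by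
  have hR := relst_hexads d0_mem
  obtain ⟨ι, H⟩ := exists_demb hR.sub (S0408.result hα (by
    rw [Fintype.card_coe, card_d0]) hB hR.steiner)
  have hm : ∀ a, ι a ∈ d0 := fun a => (H.ran _).mpr ⟨a, rfl⟩
  have h1 : ∀ g ∈ SDs.K, ∃ σ ∈ setSystemAut B, ∀ a, ι (σ a) = g • ι a := fun g hg => by
    have hg' : g • d0 = d0 := hg
    exact H.restrict (fun x hx => smul_mem_of_stab hg hx) fun s hs => hg' ▸ smul_hexadsOn g hs
  have ht : ∀ x y : Fin 5 → α, Function.Injective x → Function.Injective y →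
      ∃ g ∈ SDs.K, ∀ i, g • ι (x i) = ι (y i) := fun x y hx hy =>
    m12_emb d0_mem le_rfl (ι ∘ x) (ι ∘ y) (H.inj.comp hx) (H.inj.comp hy) (fun _ => hm _)
      fun _ => hm _
  have h2 : ∀ σ ∈ setSystemAut B, ∃ g ∈ SDs.K, ∀ a, ι (σ a) = g • ι a := by
    obtain ⟨C, hC, rfl⟩ := std12 hα hB
    exact aut_of_base _ H.inj _ h1 ht (fun i : Fin 5 => C.pt i)
      (fun i j e => Fin.ext (C.pt_inj (by omega) (by omega) e))
      fun σ hσ h => autfix12 hC hσ fun i hi => h ⟨i, hi⟩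
  obtain ⟨φ⟩ := aut_equiv SDs.K H.inj _ h1 h2
    fun g hg h => eq_one_of_fix9 (P := d0) (fun p hp => by
      obtain ⟨a, rfl⟩ := (H.ran p).mp hp
      exact h a) (by rw [card_d0]; norm_num)
  refine ⟨⟨?_, (Nat.card_congr φ.symm.toEquiv).trans SDs.card_eq⟩,
    aut_mtrans SDs.K H.inj _ h1 ht, fun x => ?_⟩
  · have := simple_SD
    exact φ.symm.isSimpleGroup
  · rw [eq_bot_iff]
    intro σ hσ
    obtain ⟨g, hg, e⟩ := h2 σ.1 σ.2
    have h3 : g = 1 := m12_sharp d0_mem (x.trans ⟨ι, H.inj⟩) (fun _ => hm _) hg fun i => by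
      show g • ι (x i) = ι (x i)
      rw [← e]
      exact congrArg ι (DFunLike.congr_fun (mem_stabilizer_iff.mp hσ) i)
    rw [Subgroup.mem_bot]
    ext a
    apply H.inj
    rw [e, h3, one_smul]; rfl

end Cfsg.Agent.S0425
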