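import Cfsg.Statements.S0426
import Cfsg.Agent.S0411
import Cfsg.Agent.L1.DesC
import Cfsg.Agent.L1.Quart

set_option autoImplicit false
open Cfsg

namespace Cfsg.Agent.S0426

open Cfsg.Agent.H14 MulAction
open scoped Pointwise

/-- Aut of an S(4, 5, 11) is simple of order 7920 and sharply 4-transitive on points. -/
theorem result {α : Type*} [Fintype α] [DecidableEq α] (hα : Fintype.card α = 11) {B : Set (Finset α)} (hB : Cfsg.IsSteinerSystem 4 5 B) : Cfsg.IsM11 (Cfsg.setSystemAut B) ∧ MulAction.IsMultiplyPretransitive (Cfsg.setSystemAut B) α 4 ∧ ∀ x : Fin 4 ↪ α, MulAction.stabilizer (Cfsg.setSystemAut B) x = ⊥ := by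
  have h0 : (some 0 : GolayPt) ∈ d0 := by decide +kernel
  have hR := (relst_hexads d0_mem).derive (t := 4) (k := 5) (c := 1) (P := {some 0})
    (Finset.singleton_subset_iff.mpr h0) rfl
  obtain ⟨ι, H⟩ := exists_demb hR.sub (S0411.result hα (by
    rw [Fintype.card_coe]; decide +kernel) hB hR.steiner)
  have hm : ∀ a, ι a ∈ d0 ∧ ι a ≠ some 0 := fun a => by simpa using (H.ran _).mpr ⟨a, rfl⟩
  have h1 : ∀ g ∈ SD0s.K, ∃ σ ∈ setSystemAut B, ∀ a, ι (σ a) = g • ι a := fun g hg => by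
    have hg' : g • d0 = d0 := hg.1
    have hg0 : g • (some 0 : GolayPt) = some 0 := hg.2
    have hg1 : g • ({some 0} : Finset GolayPt) = {some 0} := by simp [hg0]
    refine H.restrict (fun x hx => ?_) fun s hs => ⟨?_, ?_⟩
    · rw [Finset.mem_sdiff] at hx ⊢
      exact ⟨smul_mem_of_stab hg.1 hx.1, by
        rw [← hg1, Finset.smul_mem_smul_finset_iff]; exact hx.2⟩
    · rw [Finset.disjoint_singleton_right, ← hg0, Finset.smul_mem_smul_finset_iff]
      exact Finset.disjoint_singleton_right.mp hs.1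
    · rw [← hg1, ← Finset.smul_finset_union]
      exact hg' ▸ smul_hexadsOn g hs.2
  have hi : ∀ z : Fin 4 → α, Function.Injective z →
      Function.Injective (Fin.cons (some 0) (ι ∘ z) : Fin 5 → GolayPt) := fun z hz =>
    Fin.cons_injective_iff.mpr ⟨fun ⟨i, hi⟩ => (hm _).2 hi, H.inj.comp hz⟩
  have hd : ∀ (z : Fin 4 → α) i, (Fin.cons (some 0) (ι ∘ z) : Fin 5 → GolayPt) i ∈ d0 :=
    fun z i => Fin.cases h0 (fun j => (hm _).1) i
  have ht : ∀ x y : Fin 4 → α, Function.Injective x → Function.Injective y →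
      ∃ g ∈ SD0s.K, ∀ i, g • ι (x i) = ι (y i) := fun x y hx hy => by
    obtain ⟨g, hg, e⟩ := m12_emb d0_mem le_rfl _ _ (hi x hx) (hi y hy) (hd x) (hd y)
    exact ⟨g, ⟨hg, e 0⟩, fun i => e i.succ⟩
  have h2 : ∀ σ ∈ setSystemAut B, ∃ g ∈ SD0s.K, ∀ a, ι (σ a) = g • ι a := by
    obtain ⟨C, hC, rfl⟩ := std11 hα hB
    exact aut_of_base _ H.inj _ h1 ht (fun i : Fin 4 => C.pt i)
      (fun i j e => Fin.ext (C.pt_inj (by omega) (by omega) e))
      fun σ hσ h => autfix11 hC hσ fun i hi => h ⟨i, hi⟩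
  obtain ⟨φ⟩ := aut_equiv SD0s.K H.inj _ h1 h2
    fun g hg h => eq_one_of_fix9 (P := d0 \ {some 0}) (fun p hp => by
      obtain ⟨a, rfl⟩ := (H.ran p).mp hp
      exact h a) (by decide +kernel)
  refine ⟨⟨?_, (Nat.card_congr φ.symm.toEquiv).trans SD0s.card_eq⟩,
    aut_mtrans SD0s.K H.inj _ h1 ht, fun x => ?_⟩
  · have := simple_SD0
    exact φ.symm.isSimpleGroup
  · rw [eq_bot_iff]
    intro σ hσ
    obtain ⟨g, hg, e⟩ := h2 σ.1 σ.2
    have h3 : g = 1 := m12_sharp d0_mem ⟨_, hi x x.injective⟩ (hd x) hg.1 fun i => by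
      refine Fin.cases hg.2 (fun j => ?_) i
      show g • ι (x j) = ι (x j)
      rw [← e]
      exact congrArg ι (DFunLike.congr_fun (mem_stabilizer_iff.mp hσ) j)
    rw [Subgroup.mem_bot]
    ext a
    apply H.inj
    rw [e, h3, one_smul]; rfl

end Cfsg.Agent.S0426
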