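import Cfsg.Statements.S0434
import Mathlib
import Cfsg.Agent.H23.M11b
-- import your own Cfsg.Agent.* helpers here

set_option autoImplicit false
open Cfsg

namespace Cfsg.Agent.S0434

/-- Sylow 3-normalisers in a simple group of order 7920 have order 144 (so there are 55 Sylow 3-subgroups). -/
theorem result {G : Type*} [Group G] [Finite G] (hG : Cfsg.IsM11 G) (P : Sylow 3 G) : Nat.card (Subgroup.normalizer ((P : Subgroup G) : Set G)) = 144 := by
  have := hG.1
  have h1 := (Subgroup.normalizer ((P : Subgroup G) : Set G)).card_mul_index
  have h2 := P.card_eq_index_normalizer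
  rw [H23.M11.card_sylow3 hG.2] at h2
  change _ = (Subgroup.normalizer ((P : Subgroup G) : Set G)).index at h2
  rw [← h2, hG.2] at h1
  omega

end Cfsg.Agent.S0434
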