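import Cfsg.Statements.S0439
import Mathlib
import Cfsg.Agent.H19.Tr1

set_option autoImplicit false
open Cfsg

namespace Cfsg.Agent.S0439

open Cfsg.Agent.H19


/-- In the symmetric group of degree n ≥ 2, the set of transpositions is a conjugacy class of 3-transpositions which generates the group. -/
theorem result (n : ℕ) (hn : 2 ≤ n) : Cfsg.IsThreeTranspositionClass {σ : Equiv.Perm (Fin n) | σ.IsSwap} := by
  refine ⟨t3_iff.2 ⟨?_, ?_, ?_⟩, ?_, Equiv.Perm.closure_isSwap⟩
  · rintro _ ⟨x, y, _, rfl⟩; simp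
  · rintro _ ⟨x, y, h, rfl⟩ e; exact h (Equiv.swap_eq_one_iff.1 e)
  · rintro _ ⟨x, y, h, rfl⟩ _ ⟨z, w, h', rfl⟩ nc
    have key : ∀ x y z : Fin n, x ≠ y → x ≠ z → y ≠ z →
        J (Equiv.swap x y) (Equiv.swap x z) = J (Equiv.swap x z) (Equiv.swap x y) := by
      intro x y z h1 h2 h3
      simp only [J, ← Equiv.swap_apply_apply, Equiv.swap_apply_left,
        Equiv.swap_apply_of_ne_of_ne h2.symm h3.symm, Equiv.swap_apply_of_ne_of_ne h1.symm h3]
      exact Equiv.swap_comm _ _
    by_cases xz : x = z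
    · subst xz
      exact key _ _ _ h h' fun e => nc (by rw [e]; exact Commute.refl _)
    by_cases xw : x = w
    · subst xw
      rw [Equiv.swap_comm z x] at nc ⊢
      exact key _ _ _ h xz fun e => nc (by rw [e]; exact Commute.refl _)
    by_cases yz : y = z
    · subst yz
      rw [Equiv.swap_comm x y]
      exact key _ _ _ h.symm h' xw
    by_cases yw : y = w
    · subst yw
      rw [Equiv.swap_comm x y, Equiv.swap_comm z y]
      exact key _ _ _ h.symm yz xz
    exact absurd (Equiv.Perm.disjoint_swap_swap (by simp [h, h', xz, xw, yz, yw])).commute nc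
  · have h01 : (⟨0, by omega⟩ : Fin n) ≠ ⟨1, by omega⟩ := by simp
    refine ⟨Equiv.swap ⟨0, by omega⟩ ⟨1, by omega⟩, ⟨_, _, h01, rfl⟩, ?_⟩
    ext σ
    constructor
    · rintro ⟨x, y, h, rfl⟩; exact Equiv.Perm.isConj_swap h01 h
    · intro h
      obtain ⟨g, rfl⟩ := isConj_iff.1 h
      exact ⟨_, _, g.injective.ne h01, (Equiv.swap_apply_apply _ _ _).symm⟩

end Cfsg.Agent.S0439
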