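import Cfsg.Statements.S0442
import Mathlib
import Cfsg.Agent.H19.Tr1

set_option autoImplicit false
open Cfsg

namespace Cfsg.Agent.S0442

open Cfsg.Agent.H19

theorem inv_pow_conj {G : Type*} [Group G] {a b : G} (ha : a * a = 1) (hb : b * b = 1) (m : ℕ) :
    a * (a * b) ^ m = ((a * b) ^ m)⁻¹ * a := by
  have : a * (a * b) * a⁻¹ = (a * b)⁻¹ := by
    rw [← mul_assoc, ha, one_mul, mul_inv_rev, inv_of_sq hb]
  rw [← inv_pow, ← this, conj_pow]; simp

theorem even_case {G : Type*} [Group G] {a b : G} (ha : a * a = 1) (hb : b * b = 1) (m : ℕ)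
    (h : (a * b) ^ (2 * m) = 1) : Commute ((a * b) ^ m) a := by
  have h1 : ((a * b) ^ m)⁻¹ = (a * b) ^ m := inv_of_sq (by rw [← pow_add, ← two_mul, h])
  have := inv_pow_conj ha hb m
  rw [h1] at this
  exact this.symm

/-- A standard trick for producing elements of an involution centraliser: for an involution a and an element g, let b be the conjugate g⁻¹ * a * g. If a * b has odd order 2m + 1 then g * (a * b) ^ m commutes with a; if a * b has even order 2m then (a * b) ^ m and (a * (g * a * g⁻¹)) ^ m commute with a. -/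
theorem result {G : Type*} [Group G] (a g : G) (ha : orderOf a = 2) : (∀ m : ℕ, orderOf (a * (g⁻¹ * a * g)) = 2 * m + 1 → Commute (g * (a * (g⁻¹ * a * g)) ^ m) a) ∧ (∀ m : ℕ, orderOf (a * (g⁻¹ * a * g)) = 2 * m → Commute ((a * (g⁻¹ * a * g)) ^ m) a ∧ Commute ((a * (g * a * g⁻¹)) ^ m) a) := by
  have a2 : a * a = 1 := by rw [← pow_two, ← ha, pow_orderOf_eq_one]
  have b2 : ∀ g : G, (g * a * g⁻¹) * (g * a * g⁻¹) = 1 := fun g => by
    rw [← J_def, ← J_map_mul, a2, J_map_one]
  have b2' : (g⁻¹ * a * g) * (g⁻¹ * a * g) = 1 := by simpa using b2 g⁻¹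
  refine ⟨fun m hm => ?_, fun m hm => ⟨even_case a2 b2' m (by rw [← hm, pow_orderOf_eq_one]), ?_⟩⟩
  · set b := g⁻¹ * a * g with hb
    have h1 := inv_pow_conj a2 b2' m
    have h2 : (a * b) ^ m * ((a * b) ^ m * (a * b)) = 1 := by
      rw [← pow_succ, ← pow_add, ← pow_orderOf_eq_one (a * b), hm]; congr 1; omega
    have h3 : (a * b) ^ m * a = b * (a * b) ^ m := by
      have h4 : b * (a * b) ^ m * b⁻¹ = ((a * b) ^ m)⁻¹ := by
        rw [← conj_pow, ← inv_pow]; congr 1
        rw [inv_of_sq b2', mul_inv_rev, inv_of_sq a2, inv_of_sq b2', mul_assoc b, mul_assoc a, b2',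
          mul_one]
      rw [mul_inv_eq_iff_eq_mul] at h4
      rw [h4, eq_inv_mul_iff_mul_eq, ← mul_assoc, ← mul_inv_eq_one, inv_of_sq b2']
      simpa only [mul_assoc] using h2
    show g * (a * b) ^ m * a = a * (g * (a * b) ^ m)
    rw [mul_assoc, h3, hb]; simp [mul_assoc]
  · refine even_case a2 (b2 g) m ?_
    have : a * (g * a * g⁻¹) = J (a * g) (a * (g⁻¹ * a * g)) := by
      simp only [J, mul_inv_rev, inv_of_sq a2, mul_assoc, mul_inv_cancel_left, a2, mul_one]
    rw [this, J, conj_pow, ← hm, pow_orderOf_eq_one]; simp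

end Cfsg.Agent.S0442
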