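import Cfsg.Statements.S0443
import Mathlib


set_option autoImplicit false
open Cfsg

namespace Cfsg.Agent.S0443


/-- Two definitions of a 2-central involution agree: an element t of order 2 of a finite group lies in the centre of some Sylow 2-subgroup if and only if its centraliser contains some Sylow 2-subgroup. -/
theorem result {G : Type*} [Group G] [Finite G] (t : G) (ht : orderOf t = 2) : Cfsg.IsTwoCentralInvolution t ↔ ∃ P : Sylow 2 G, (P : Subgroup G) ≤ Subgroup.centralizer ({t} : Set G) := by
  constructor
  · rintro ⟨-, P, -, h⟩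
    exact ⟨P, fun x hx => by simpa [Subgroup.mem_centralizer_iff] using (h x hx).symm⟩
  · rintro ⟨P, hP⟩
    have hc : ∀ x ∈ P, x * t = t * x := fun x hx => by
      simpa [Subgroup.mem_centralizer_iff, eq_comm] using hP hx
    refine ⟨ht, P, ?_, hc⟩
    have hz : IsPGroup 2 (Subgroup.zpowers t) :=
      IsPGroup.of_card (n := 1) (by rw [Nat.card_zpowers, ht]; rfl)
    have hn : Subgroup.zpowers t ≤ Subgroup.normalizer ((P : Subgroup G) : Set G) := by
      rw [Subgroup.zpowers_le]
      refine Subgroup.centralizer_le_normalizer _ ?_
      intro x hx; exact hc x hx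
    have := P.is_maximal' (IsPGroup.to_sup_of_normal_right' hz P.isPGroup' hn) le_sup_right
    have h2 : t ∈ Subgroup.zpowers t ⊔ (P : Subgroup G) :=
      Subgroup.mem_sup_left (Subgroup.mem_zpowers t)
    rwa [this] at h2

end Cfsg.Agent.S0443
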