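import Cfsg.Statements.S0444
import Mathlib
import Cfsg.Agent.H19.CoxA

set_option autoImplicit false
open Cfsg

namespace Cfsg.Agent.S0444

open Cfsg.Agent.H19


/-- Two members of a set of 3-transpositions which do not commute generate a subgroup isomorphic to the symmetric group on three letters. -/
theorem result {G : Type*} [Group G] {E : Set G} (hE : Cfsg.IsThreeTranspositionSet E) {d e : G} (hd : d ∈ E) (he : e ∈ E) (h : ¬ Commute d e) : Nonempty (Subgroup.closure ({d, e} : Set G) ≃* Equiv.Perm (Fin 3)) := by
  have t := t3_iff.1 hE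
  let s : ℕ → G := fun i => if i = 0 then d else e
  have c : CoxA s 2 := t.coxA (fun i _ => by by_cases h : i = 0 <;> simp [s, h, hd, he])
    (fun i hi => by obtain rfl : i = 0 := by omega
                    simpa [s] using h) (fun i j h1 h2 => by omega)
  obtain ⟨φ, h1, h2⟩ := c.exists_hom
  have inj := inj_perm3 φ (by
    rw [h1 0 (by norm_num), h1 1 (by norm_num)]
    intro e; simp only [s] at e; simp at e; exact h (by rw [e]))
  have : s '' Set.Iio 2 = {d, e} := by
    ext x; simp only [Set.mem_image, Set.mem_Iio, Set.mem_insert_iff, Set.mem_singleton_iff]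
    constructor
    · rintro ⟨i, _, rfl⟩; by_cases h : i = 0 <;> simp [s, h]
    · rintro (rfl | rfl)
      · exact ⟨0, by norm_num, rfl⟩
      · exact ⟨1, by norm_num, rfl⟩
  rw [← this, ← h2]
  exact ⟨(MonoidHom.ofInjective inj).symm⟩

end Cfsg.Agent.S0444
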