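import Cfsg.Statements.S2572
import Mathlib
import Cfsg.Agent.H10.Cent

set_option autoImplicit false
open Cfsg

namespace Cfsg.Agent.S2572

open Polynomial

/-- Centraliser of a transvection in GL_n(q), n ≥ 2: if t − 1 has rank one and square zero, the centraliser of t in GL_n(q) has order q^(2n−3) (q − 1) |GL_(n−2)(q)| (a group of order q^(2n−3) extended by GL_1(q) × GL_(n−2)(q)). -/
theorem result {F : Type*} [Field F] [Fintype F] {q n : ℕ} (hF : Fintype.card F = q) (hn : 2 ≤ n) (t : GL (Fin n) F) (ht : Cfsg.IsTransvection (t : Matrix (Fin n) (Fin n) F)) : Nat.card ↥(Subgroup.centralizer ({t} : Set (GL (Fin n) F))) = q ^ (2 * n - 3) * (q - 1) * ∏ i : Fin (n - 2), (q ^ (n - 2) - q ^ (i : ℕ)) := by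
  subst hF
  obtain ⟨n, rfl⟩ := Nat.exists_eq_add_of_le' hn
  have h2 : (t.1 - 1) ^ 2 = 0 := by rw [sq, ht.2]
  have h3 : L0.ty t.1 = (2 ::ₘ Multiset.replicate n 1).map fun j => (X - 1) ^ j := by
    obtain ⟨A, hA⟩ := L0.exists_ty_eq (n := Fin (n + 2)) (F := F)
      (s := (2 ::ₘ Multiset.replicate n 1).map fun j => (X - 1) ^ j) (fun u hu => by
        obtain ⟨j, hj, rfl⟩ := Multiset.mem_map.mp hu
        exact L0.prim_X_sub_one_pow (by simp [Multiset.mem_replicate] at hj; omega))
      (by simp [L0.natDegree_X_sub_one, add_comm])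
    have h4 : (A - 1) ^ 2 = 0 := (L0.sub_one_pow_eq_zero_iff _ _).mpr fun u hu => by
      obtain ⟨j, hj, rfl⟩ := Multiset.mem_map.mp (hA ▸ hu)
      simp [Multiset.mem_replicate] at hj
      exact ⟨j, by omega, by omega, rfl⟩
    have h5 := L0.rank_sub_one_add ⟨2, h4⟩
    rw [← hA]
    exact L0.ty_eq_of_sq_zero h2 h4 (by simp [hA] at h5; rw [ht.1]; omega)
  refine Eq.trans (Nat.card_congr (Equiv.subtypeEquivRight fun g => ?_))
    ((H10.card_CI_mat t.1).trans ((H10.card_CI_gl (M := 3) (fun j hj => by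
      simp [Multiset.mem_replicate] at hj; omega) h3).trans ?_))
  · rw [Subgroup.mem_centralizer_singleton_iff, ← Units.val_inj]; rfl
  · rw [Finset.prod_range_succ, Finset.prod_range_succ, Finset.prod_range_one,
      show (2 ::ₘ Multiset.replicate n 1).count 0 = 0 by simp [Multiset.count_replicate],
      show (2 ::ₘ Multiset.replicate n 1).count 1 = n by simp,
      show (2 ::ₘ Multiset.replicate n 1).count 2 = 1 by simp [Multiset.count_replicate]]
    simp [H10.cexp, Finset.sum_range_succ, Multiset.count_replicate, show 2 * (n + 2) - 3 = 2 * n + 1 by omega]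
    rw [mul_right_comm, mul_assoc, pow_succ]
    rfl

end Cfsg.Agent.S2572
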