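import Cfsg.Statements.S0445
import Mathlib
import Cfsg.Agent.S2572

set_option autoImplicit false
open Cfsg

namespace Cfsg.Agent.S0445

/-- In the special linear group of dimension 5 over the field with two elements, the centraliser of a transvection has order 21504 = 2 ^ 7 · 168 (it is an extension of an extraspecial group of order 2 ^ 7 by the simple group of order 168). -/
theorem result (s : Matrix.SpecialLinearGroup (Fin 5) (ZMod 2)) (hs : (s : Matrix (Fin 5) (Fin 5) (ZMod 2)) = Matrix.transvection 0 1 1) : Nat.card (Subgroup.centralizer ({s} : Set (Matrix.SpecialLinearGroup (Fin 5) (ZMod 2)))) = 21504 := by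
  have h := S2572.result (F := ZMod 2) (ZMod.card 2) (n := 5) (by omega) s.toGL
    ⟨by
      rw [Matrix.SpecialLinearGroup.coe_GL_coe_matrix, hs, Matrix.transvection, add_sub_cancel_left,
        Matrix.single_eq_single_vecMulVec_single]
      refine le_antisymm (Matrix.rank_vecMulVec_le _ _) (le_trans (le_of_eq ?_)
        (Matrix.rank_submatrix_le _ (fun _ : Fin 1 => 0) fun _ : Fin 1 => 1))
      exact (Matrix.rank_one (n := Fin 1) (R := ZMod 2)).symm.trans
        (congrArg Matrix.rank (by decide)),
    by rw [Matrix.SpecialLinearGroup.coe_GL_coe_matrix, hs]; decide⟩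
  refine Eq.trans (Nat.card_eq_of_bijective (fun g => ⟨g.1.toGL, by
    rw [Subgroup.mem_centralizer_singleton_iff, ← map_mul, ← map_mul,
      Subgroup.mem_centralizer_singleton_iff.mp g.2]⟩) ⟨fun a b e => ?_, fun g => ?_⟩)
    (h.trans (by decide))
  · exact Subtype.ext (Matrix.SpecialLinearGroup.toGL_injective (congrArg Subtype.val e))
  · have h1 : g.1.1.det = 1 := by
      have := g.1.det_ne_zero; revert this; generalize g.1.1.det = a; decide +revert
    exact ⟨⟨⟨g.1.1, h1⟩, Subgroup.mem_centralizer_singleton_iff.mpr (Subtype.ext (congrArg Units.val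
      (Subgroup.mem_centralizer_singleton_iff.mp g.2)))⟩, Subtype.ext (Units.ext (Matrix.SpecialLinearGroup.coe_GL_coe_matrix _))⟩

end Cfsg.Agent.S0445
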