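import Cfsg.Statements.S0460
import Mathlib
import Cfsg.Agent.H25.ONS

set_option autoImplicit false
open Cfsg

namespace Cfsg.Agent.S0460

/-- The O'Nan group exists as a transitive permutation group of degree 122760: simple of order 460815505920, point stabiliser of order 3753792, and containing simple subgroups of orders 175560 and 7920. -/
theorem result : ∃ H : Subgroup (Equiv.Perm (Fin 122760)), Cfsg.IsON H ∧ MulAction.IsPretransitive H (Fin 122760) ∧ Nat.card (MulAction.stabilizer H (0 : Fin 122760)) = 3753792 ∧ (∃ K : Subgroup H, Cfsg.IsJ1 K) ∧ (∃ K : Subgroup H, Cfsg.IsM11 K) := by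
  haveI := H15.ON.simple
  obtain ⟨K, ⟨e⟩, h1, ⟨f⟩⟩ := H25.exists_perm_rep (H15.gp H15.ON.E H15.ON.hs) H15.ON.stab0.2 (by norm_num)
  have tr : ∀ n, (∃ L : Subgroup H25.ON.G0, IsSimpleGroup L ∧ Nat.card L = n) →
      ∃ L : Subgroup K, IsSimpleGroup L ∧ Nat.card L = n := fun n ⟨L, a, b⟩ =>
    have q := L.equivMapOfInjective e.toMonoidHom e.injective
    ⟨L.map e.toMonoidHom, q.symm.isSimpleGroup, (Nat.card_congr q.toEquiv).symm.trans b⟩
  exact ⟨K, ⟨e.symm.isSimpleGroup, (Nat.card_congr e.toEquiv).symm.trans H25.ON.hcard⟩, h1,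
    (Nat.card_congr f.toEquiv).symm.trans H15.ON.card_hs, tr _ H25.ON.subJ, tr _ H25.ON.subM⟩

end Cfsg.Agent.S0460
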