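import Cfsg.Statements.S0481
import Mathlib
import Cfsg.Agent.H29.Large

set_option autoImplicit false
open Cfsg

namespace Cfsg.Agent.S0481

open Cfsg.Agent.H22 Cfsg.Agent.H18 Subgroup

/-- Large extraspecial subgroups: let z be an involution of a finite group G whose centraliser C contains a normal 2-subgroup Q with centre of order 2 and all squares central, such that every element of G centralising Q lies in Q. Then C contains a Sylow 2-subgroup of G, and any involution of G whose centraliser contains a Sylow 2-subgroup of G is conjugate to z. -/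
theorem result {G : Type*} [Group G] [Finite G] (z : G) (hz : orderOf z = 2) (Q : Subgroup G) (hQC : Q ≤ Subgroup.centralizer ({z} : Set G)) (hQn : ∀ g ∈ Subgroup.centralizer ({z} : Set G), ∀ q ∈ Q, g * q * g⁻¹ ∈ Q) (hQ2 : IsPGroup 2 Q) (hZ : Nat.card (Subgroup.center Q) = 2) (hsq : ∀ x : Q, x ^ 2 ∈ Subgroup.center Q) (hlarge : Subgroup.centralizer (Q : Set G) ≤ Q) : (∃ P : Sylow 2 G, (P : Subgroup G) ≤ Subgroup.centralizer ({z} : Set G)) ∧ ∀ u : G, orderOf u = 2 → (∃ P : Sylow 2 G, (P : Subgroup G) ≤ Subgroup.centralizer ({u} : Set G)) → IsConj z u := by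
  have hzQ : z ∈ Q ⊓ C[Q] := have : z ∈ C[Q] := mem_C.2 fun q hq => H29.mem_C1.1 (hQC hq); ⟨hlarge this, this⟩
  have e : zpowers z = Q ⊓ C[Q] := eq_of_le_of_card_ge (zpowers_le.2 hzQ) (by
    rw [← card_center_eq, hZ, Nat.card_zpowers, hz])
  have zz := H20.mul_self_of_orderOf_two hz
  obtain ⟨S, hS⟩ := exists_sylIn 2 (centralizer ({z} : Set G))
  have h1 : Q ≤ S := syl_le_of_N hS hQC hQ2 (hS.1.trans fun g hg => mem_N_of_cj_le (cj_le_iff'.2 (hQn g hg)))
  have h2 : S ⊓ C[S] = zpowers z := le_antisymm (fun u hu => e ▸ ⟨hlarge (C_anti h1 hu.2), C_anti h1 hu.2⟩)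
    (zpowers_le.2 ⟨h1 hzQ.1, mem_C.2 fun s hs => H29.mem_C1.1 (hS.1 hs)⟩)
  have h3 : N[S] ≤ centralizer {z} := by
    rw [← H29.N_zp2 zz, ← h2]; exact le_N_inf le_rfl (N_le_N_C S)
  have h4 : SylIn 2 S ⊤ := sylIn_of_inf_N le_top ⟨le_inf le_top le_normalizer, hS.2,
    fun T h4 h5 h6 => hS.3 T (h4.trans (inf_le_right.trans h3)) h5 h6⟩
  obtain ⟨P, rfl⟩ := h4.exists_sylow_top
  refine ⟨⟨P, hS.1⟩, fun u hu ⟨P', hP'⟩ => ?_⟩
  have uu := H20.mul_self_of_orderOf_two hu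
  obtain ⟨g, -, hg⟩ := syl_exists_cj_eq (sylIn_top P') h4
  have h5 : u ∈ (P' : Subgroup G) ⊓ C[(P' : Subgroup G)] := ⟨zpowers_le.1 (syl_le_of_N (sylIn_top P') le_top
    (H20.isPGroup_zpowers_of_mul_self uu) (H29.le_N_zpowers hP')), mem_C.2 fun s hs => H29.mem_C1.1 (hP' hs)⟩
  have h6 := conj_mem_cj (g := g) h5
  rw [cj_inf, cj_C, hg, h2, H29.mem_zp2 zz] at h6
  exact (isConj_iff.2 ⟨g, h6.resolve_left (by simpa using H20.ne_one_of_orderOf_two hu)⟩).symm

end Cfsg.Agent.S0481
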