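import Cfsg.Statements.S0496
import Cfsg.Agent.H23.Sv2
-- import your own Cfsg.Agent.* helpers here

set_option autoImplicit false
open Cfsg

namespace Cfsg.Agent.S0496

theorem range1 : (List.range' 1 1092).all (fun n => H23.Sv.kill n ||
    [60, 168, 360, 504, 660, 1092].contains n) = true := by decide +kernel

/-- A non-abelian finite simple group of order at most 1092 has order 60, 168, 360, 504, 660 or 1092. -/
theorem result {G : Type*} [Group G] [Finite G] [IsSimpleGroup G]
    (hG : ¬ IsMulCommutative G) (h : Nat.card G ≤ 1092) :
    Nat.card G = 60 ∨ Nat.card G = 168 ∨ Nat.card G = 360 ∨ Nat.card G = 504 ∨ Nat.card G = 660 ∨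
      Nat.card G = 1092 := by
  simpa using H23.Sv.mem_of_range hG range1 Nat.card_pos (by omega)

end Cfsg.Agent.S0496
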