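import Cfsg.Statements.S0499
import Cfsg.Agent.H23.Sv1
-- import your own Cfsg.Agent.* helpers here

set_option autoImplicit false
open Cfsg

namespace Cfsg.Agent.S0499

/-- A non-abelian finite simple group of even order has order divisible by 12, 16 or 56. -/
theorem result {G : Type*} [Group G] [Finite G] [IsSimpleGroup G]
    (hG : ¬ IsMulCommutative G) (h2 : Even (Nat.card G)) :
    12 ∣ Nat.card G ∨ 16 ∣ Nat.card G ∨ 56 ∣ Nat.card G := by
  have h4 := H23.four_dvd_card hG
  by_cases h16 : 16 ∣ Nat.card G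
  · exact Or.inr (Or.inl h16)
  obtain ⟨P⟩ := Sylow.nonempty (p := 2) (G := G)
  have hn : ¬ HasNormalPComplement 2 G := fun ⟨Q, N, hN, hc⟩ => by
    obtain ⟨H, -, hH⟩ := H20.exists_index_of_normal_complement Q (even_iff_two_dvd.1 h2) N hc
    exact H20.simple_index_ne_two hG H hH
  have key : ∀ n, ¬ 2 ^ (n + 1) ∣ Nat.card G → Nat.card (P : Subgroup G) ∣ 2 ^ n := fun n h => by
    rw [P.card_eq_multiplicity]
    refine pow_dvd_pow _ (not_lt.1 fun hh => h ?_)
    exact (Nat.prime_two.pow_dvd_iff_le_factorization Nat.card_pos.ne').2 hh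
  by_cases h8 : 8 ∣ Nat.card G
  · obtain ⟨q, hq, -, hd, c, h1, h3, hc⟩ := H4.exists_prime_dvd_of_not_hasNPC P (key 3 h16) hn
    interval_cases c
    · exact absurd (Nat.dvd_one.1 hc) hq.ne_one
    · obtain rfl := (Nat.prime_dvd_prime_iff_eq hq Nat.prime_three).1 hc
      omega
    · obtain rfl := (Nat.prime_dvd_prime_iff_eq hq (by norm_num : Nat.Prime 7)).1 hc
      omega
  · obtain ⟨q, hq, -, hd, c, h1, h3, hc⟩ := H4.exists_prime_dvd_of_not_hasNPC P (key 2 h8) hn
    interval_cases c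
    · exact absurd (Nat.dvd_one.1 hc) hq.ne_one
    · obtain rfl := (Nat.prime_dvd_prime_iff_eq hq Nat.prime_three).1 hc
      omega

end Cfsg.Agent.S0499
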