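import Cfsg.Statements.S0518
import Mathlib
import Cfsg.Agent.H22.JC3

set_option autoImplicit false
open Cfsg

namespace Cfsg.Agent.S0518

/-- Let G be a finite group of characteristic 2 type with trivial 2-core in which every 2-local subgroup is solvable
and, for every Sylow 2-subgroup S, the centralizer of the set of central involutions of S lies in the normalizer of S.
Then either G has a strongly embedded subgroup, or the subgroup generated by the elements of odd order has two distinct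
maximal 2-local subgroups, each isomorphic to the symmetric group of degree 4, whose intersection has order 8. -/
theorem result {G : Type*} [Group G] [Finite G]
    (hL : Cfsg.IsCharacteristicTwoType G) (hO : Cfsg.pCore 2 G = ⊥)
    (hN : ∀ N : Subgroup G, Cfsg.IsTwoLocal N → Group.IsSolvable N)
    (hZ : ∀ S : Sylow 2 G,
      Subgroup.centralizer {z : G | z ∈ (S : Subgroup G) ∧ z ^ 2 = 1 ∧ ∀ s ∈ (S : Subgroup G), s * z = z * s} ≤
        Subgroup.normalizer ((S : Subgroup G) : Set G))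
    (H : Subgroup G) (hH : H = Subgroup.closure {g : G | Odd (orderOf g)}) :
    (∃ K : Subgroup G, Cfsg.IsStronglyEmbedded K) ∨
      ∃ M₁ M₂ : Subgroup H, M₁ ≠ M₂ ∧ Cfsg.IsMaximalTwoLocal M₁ ∧ Cfsg.IsMaximalTwoLocal M₂ ∧
        Nonempty (M₁ ≃* Equiv.Perm (Fin 4)) ∧ Nonempty (M₂ ≃* Equiv.Perm (Fin 4)) ∧ Nat.card ↥(M₁ ⊓ M₂) = 8 := by
  open Subgroup Cfsg.Agent.FT Cfsg.Agent.P22 in
  open scoped commutatorElement Pointwise in
have z : ZN G := zn_of hL hN fun S => by
  refine le_trans (centralizer_le ?_) (hZ S)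
  rintro y ⟨h1, h2, h3⟩
  exact subset_closure ⟨⟨h1, fun s hs => h3 s hs⟩, h2⟩
have e : piGen {2}ᶜ ⊤ = H := by
  rw [hH, ← oddGen_eq ⊤]; simp
obtain ⟨S, hS⟩ := exists_syl 2 (⊤ : Subgroup G)
have h1 : S ≠ ⊥ := by
  rintro rfl
  have := hS.not_dvd Nat.prime_two
  rw [relIndex_bot_left, card_top] at this
  exact this hL.1.two_dvd
by_cases hn : IsStronglyEmbedded N(H5b.Jn 2 S)
· exact Or.inl ⟨_, hn⟩
obtain ⟨T, K, L, K', L', c⟩ := z.exists_pair (pcore_top_eq hO) hS h1 hn
have iso : ∀ {K L K' L' : Subgroup G}, Pair T K L K' L' → Nonempty (L.subgroupOf H ≃* Equiv.Perm (Fin 4)) := by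
  intro K L K' L' c
  obtain ⟨f⟩ := c.iso
  rw [e] at f
  rw [← inf_subgroupOf_left]
  exact ⟨(subgroupOfEquivOfLe inf_le_left).trans f⟩
refine Or.inr ⟨L.subgroupOf H, L'.subgroupOf H, fun h => c.ne ?_, c.isMax e, c.symm.isMax e, iso c, iso c.symm, ?_⟩
· refine (c.h'.top.eq' c.h.top fun k hk => ?_).symm
  have hk' : k ∈ H := e ▸ c.K_le hk
  have : (⟨k, hk'⟩ : H) ∈ L'.subgroupOf H := h ▸ c.h.top.hK hk
  exact this
· rw [← so_inf, c.am.inf c.ne, card_so', inf_comm, ← e, c.card_inf]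

end Cfsg.Agent.S0518
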