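import Cfsg.Statements.S0519
import Mathlib
import Cfsg.Agent.H3.Two

set_option autoImplicit false
open Cfsg

namespace Cfsg.Agent.S0519

/-- Let P be a finite p-group in which every abelian normal subgroup is cyclic, but which has a non-cyclic abelian
subgroup. Then p = 2 and P is generalized quaternion, dihedral of order at least 16, or quasi-dihedral. -/
theorem result {P : Type*} [Group P] [Finite P] (p : ℕ) [Fact p.Prime]
    (hP : IsPGroup p P) (hn : ∀ A : Subgroup P, A.Normal → IsMulCommutative A → IsCyclic A)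
    (hm : ∃ B : Subgroup P, IsMulCommutative B ∧ ¬ IsCyclic B) :
    p = 2 ∧ ((∃ n : ℕ, Nonempty (P ≃* QuaternionGroup n)) ∨ (∃ n : ℕ, 8 ≤ n ∧ Nonempty (P ≃* DihedralGroup n)) ∨
      Cfsg.IsQuasiDihedral P) := by
  open Subgroup Cfsg.Agent.FT Cfsg.Agent.H3 in
  open scoped commutatorElement in
  · obtain ⟨B, hB, hB'⟩ := hm
    obtain h | ⟨rfl, a, b, m, h⟩ := cyc_or_mc (S := ⊤) Fact.out (pGrp_top hP) fun A h => hn A (nml_top_iff.1 h)
    · exact absurd (h.mono le_top) hB'
    refine ⟨rfl, ?_⟩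
    rcases h.cases with h | h | ⟨b', h⟩
    · refine Or.inr (Or.inl ⟨_, ?_, nonempty_top_equiv.1 h.iso⟩)
      have : m ≠ 2 := by
        rintro rfl
        refine (h.pnElem h.sq).self.not_cyc (hn _ (nml_top_iff.1 (nml_of_der_le ?_ le_top)) (h.pnElem h.sq).ab)
        rw [h.der]; exact le_sup_left
      exact Nat.pow_le_pow_right two_pos (show 3 ≤ m by have := h.two_le; omega)
    · exact Or.inl ⟨_, nonempty_top_equiv.1 h.iso⟩
    · exact Or.inr (Or.inr h.qd_top)

end Cfsg.Agent.S0519
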