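import Cfsg.Statements.S0520
import Mathlib
import Cfsg.Agent.H20.SE
import Cfsg.Agent.H3.Cyclic
import Cfsg.Agent.H22.Red

set_option autoImplicit false
open Cfsg

namespace Cfsg.Agent.S0520

open Cfsg.Agent.H22

theorem kf_iff {G : Type*} [Group G] {U : Subgroup G} :
    IsKleinFour U ↔ IsElementaryAbelian 2 U ∧ Nat.card U = 4 := by
  refine ⟨fun h => ⟨⟨IsKleinFour.isMulCommutative, fun a ha => ?_⟩, h.card_four⟩, fun h => ⟨h.2, ?_⟩⟩
  · have := Monoid.pow_exponent_eq_one (⟨a, ha⟩ : U)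
    rw [h.exponent_two] at this
    exact congrArg Subtype.val this
  · haveI : Finite U := Nat.finite_of_card_ne_zero (by rw [h.2]; norm_num)
    haveI : Nontrivial U := Finite.one_lt_card_iff_nontrivial.1 (by rw [h.2]; norm_num)
    exact (Monoid.exponent_eq_prime_iff Nat.prime_two).2 fun g hg =>
      orderOf_eq_prime (Subtype.ext (h.1.2 g g.2)) hg

theorem kf_map {G H : Type*} [Group G] [Group H] {f : G →* H} (hf : Function.Injective f) {U : Subgroup G} :
    IsKleinFour (U.map f) ↔ IsKleinFour U := by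
  rw [kf_iff, kf_iff, elemAb_map_inj hf, Subgroup.card_map_of_injective hf]

/-- the commuting relation on four-groups -/
def R {G : Type*} [Group G] (A B : Subgroup G) : Prop :=
  IsKleinFour A ∧ IsKleinFour B ∧ ∀ a ∈ A, ∀ b ∈ B, a * b = b * a

theorem R_map {G H : Type*} [Group G] [Group H] {f : G →* H} (hf : Function.Injective f) {A B : Subgroup G}
    (h : Relation.ReflTransGen R A B) : Relation.ReflTransGen R (A.map f) (B.map f) :=
  by
  induction h with
  | refl => exact .refl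
  | tail _ h ih =>
    refine ih.tail ⟨(kf_map hf).2 h.1, (kf_map hf).2 h.2.1, ?_⟩
    rintro _ ⟨a, ha, rfl⟩ _ ⟨b, hb, rfl⟩
    rw [← map_mul, h.2.2 a ha b hb, map_mul]

theorem R_symm {G : Type*} [Group G] {A B : Subgroup G} (h : Relation.ReflTransGen R A B) :
    Relation.ReflTransGen R B A :=
  haveI : Std.Symm (R (G := G)) := ⟨fun _ _ h => ⟨h.2.1, h.1, fun a ha b hb => (h.2.2 b hb a ha).symm⟩⟩
  Relation.ReflTransGen.stdSymm.symm _ _ h

/-- Let G be a finite group of 2-rank at least 2 and S a Sylow 2-subgroup whose commuting graph of Klein four-subgroups is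
connected. Then the commuting graph of Klein four-subgroups of G is disconnected if and only if the 2-generated core — the
subgroup generated by the normalizers N_G(Q) of the subgroups Q of S that contain a Klein four-group — is a proper
subgroup of G. -/
theorem result {G : Type*} [Group G] [Finite G] (h2 : ¬ Cfsg.PRankLE 2 1 G)
    (S : Sylow 2 G) (hS : Cfsg.IsFourConnected (S : Subgroup G)) :
    ¬ Cfsg.IsFourConnected G ↔
      (⨆ Q : {Q : Subgroup G // Q ≤ (S : Subgroup G) ∧ ¬ Cfsg.PRankLE 2 1 Q},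
          Subgroup.normalizer ((Q : Subgroup G) : Set G)) ≠ ⊤ := by
  set Γ := ⨆ Q : {Q : Subgroup G // Q ≤ (S : Subgroup G) ∧ ¬ Cfsg.PRankLE 2 1 Q},
    Subgroup.normalizer ((Q : Subgroup G) : Set G) with hΓ
  have hcj : ∀ (g : G) {A B : Subgroup G}, Relation.ReflTransGen R A B →
      Relation.ReflTransGen R (cj g A) (cj g B) := fun g _ _ h => R_map (MulAut.conj g).injective h
  have kcj : ∀ (g : G) {A : Subgroup G}, IsKleinFour A → IsKleinFour (cj g A) := fun g _ h =>
    (kf_map (MulAut.conj g).injective).2 h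
  have hrk : ∀ {Q : Subgroup G}, ¬ PRankLE 2 1 Q ↔ ∃ U ≤ Q, IsKleinFour U := by
    intro Q
    simp only [H3.not_pRankLE_subgroup_iff, kf_iff]
    norm_num
  have hSy := H18.sylIn_top S
  have hin : ∀ {U : Subgroup G}, IsKleinFour U → ∃ g, cj g U ≤ S := fun h =>
    (syl_exists_cj_le hSy le_top (elemAb_pgrp (kf_iff.1 h).1)).imp fun _ h => h.2
  obtain ⟨V, hVS, hV⟩ : ∃ V ≤ (S : Subgroup G), IsKleinFour V := by
    obtain ⟨A, h1, h3⟩ := H3.not_pRankLE_iff.1 h2
    obtain ⟨g, hg⟩ := hin (kf_iff.2 ⟨h1, h3⟩)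
    exact ⟨_, hg, kcj g (kf_iff.2 ⟨h1, h3⟩)⟩
  have hle : ∀ X ≤ (S : Subgroup G), ¬ PRankLE 2 1 X → N[X] ≤ Γ := fun X h1 h3 =>
    le_iSup (fun Q : {Q : Subgroup G // Q ≤ (S : Subgroup G) ∧ ¬ Cfsg.PRankLE 2 1 Q} =>
      Subgroup.normalizer ((Q : Subgroup G) : Set G)) ⟨X, h1, h3⟩
  have hS' : ∀ U ≤ (S : Subgroup G), IsKleinFour U → Relation.ReflTransGen R V U := fun U hU h => by
    have k : ∀ {U : Subgroup G}, U ≤ S → IsKleinFour U → IsKleinFour (U.subgroupOf S) := fun hU h =>
      (kf_map (S : Subgroup G).subtype_injective).1 (by rwa [Subgroup.map_subgroupOf_eq_of_le hU])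
    have := R_map (S : Subgroup G).subtype_injective (hS _ _ (k hVS hV) (k hU h))
    rwa [Subgroup.map_subgroupOf_eq_of_le hU, Subgroup.map_subgroupOf_eq_of_le hVS] at this
  rw [not_iff_not]
  constructor
  · intro hG
    have hSΓ : H18.SylIn 2 (S : Subgroup G) Γ :=
      hSy.mono (Subgroup.le_normalizer.trans (hle S le_rfl (hrk.2 ⟨V, hVS, hV⟩))) le_top
    have hall : ∀ U : Subgroup G, Relation.ReflTransGen R V U → U ≤ Γ := fun U h => by
      induction h with
      | refl => exact hVS.trans hSΓ.1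
      | tail _ h ih =>
        obtain ⟨g, hg, h3⟩ := syl_exists_cj_le hSΓ ih (elemAb_pgrp (kf_iff.1 h.1).1)
        have h4 := hle _ h3 (hrk.2 ⟨_, le_rfl, kcj g h.1⟩)
        rw [← cj_N, cj_le_iff, cj_eq_of_mem (inv_mem hg)] at h4
        exact le_trans (fun b hb => C_le_N _ (mem_C.2 fun a ha => h.2.2 a ha b hb)) h4
    refine eq_top_iff.2 fun g _ => H20.mem_of_normalizer_le (p := 2) (fun X => ¬ PRankLE 2 1 X)
      (fun X Y h h1 => ?_) (fun g X h => ?_) hSΓ hle (elemAb_pgrp (kf_iff.1 hV).1) (hrk.2 ⟨V, le_rfl, hV⟩)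
      (hVS.trans hSΓ.1) (le_cj_iff.2 (hall _ (hG _ _ hV (kcj g⁻¹ hV))))
    · obtain ⟨U, h3, h4⟩ := hrk.1 h1
      exact hrk.2 ⟨U, h3.trans h, h4⟩
    · obtain ⟨U, h3, h4⟩ := hrk.1 h
      exact hrk.2 ⟨_, cj_mono g h3, kcj g h4⟩
  · intro hG
    let H : Subgroup G :=
      { carrier := {g | Relation.ReflTransGen R V (cj g V)}
        one_mem' := by simp only [Set.mem_ofPred_eq, cj_one]; exact .refl
        mul_mem' := fun {a b} ha hb => by
          simp only [Set.mem_ofPred_eq, cj_mul]; exact Relation.ReflTransGen.trans ha (hcj a hb)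
        inv_mem' := fun {a} ha => by
          have := hcj a⁻¹ ha
          rw [cj_inv_cj] at this
          exact R_symm this }
    have hH : Γ ≤ H := iSup_le fun Q g hg => by
      obtain ⟨U, h3, h4⟩ := hrk.1 Q.2.2
      exact (hS' _ ((cj_le_of_mem_N hg h3).trans Q.2.1) (kcj g h4)).trans
        (R_symm (hcj g (hS' U (h3.trans Q.2.1) h4)))
    have key : ∀ U : Subgroup G, IsKleinFour U → Relation.ReflTransGen R V U := fun U h => by
      obtain ⟨g, hg⟩ := hin h
      have := hcj g⁻¹ (hS' _ hg (kcj g h))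
      rw [cj_inv_cj] at this
      exact Relation.ReflTransGen.trans (hH (hG ▸ Subgroup.mem_top g⁻¹)) this
    exact fun A B hA hB => (R_symm (key A hA)).trans (key B hB)

end Cfsg.Agent.S0520
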