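import Cfsg.Statements.S0521
import Cfsg.Agent.H23.DerCyc

set_option autoImplicit false
open Cfsg

namespace Cfsg.Agent.S0521

/-- Let X be a finite solvable group of odd order, p a prime and S a Sylow p-subgroup of X whose commutator subgroup is
cyclic. Then the product of the largest normal subgroup of X of order prime to p with S is a normal subgroup of X. -/
theorem result {X : Type*} [Group X] [Finite X] [Group.IsSolvable X]
    (hX : Odd (Nat.card X)) (p : ℕ) [Fact p.Prime] (S : Sylow p X) (hS : IsCyclic (commutator (S : Subgroup X))) :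
    (Cfsg.pPrimeCore p X ⊔ (S : Subgroup X)).Normal := by
  have hp : p.Prime := Fact.out
  have h := H23.plen1_of_der_cyc (M := (⊤ : Subgroup X)) hp (by rwa [Subgroup.card_top]) (FT.sol_top.2 ‹_›)
    (FT.syl_top hp S) (by rw [FT.der_eq_map]; exact (FT.subtypeEquiv _).isCyclic.1 hS)
  have h1 := (FT.plen1_iff_nml hp (FT.syl_top hp S)).1 h
  rw [FT.pcore_top, FT.piCore_compl_singleton hp] at h1
  exact Subgroup.normalizer_eq_top_iff.1 (top_le_iff.1 h1.nrm)

end Cfsg.Agent.S0521
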