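import Cfsg.Statements.S0522
import Cfsg.Agent.H23.Trans

set_option autoImplicit false
open Cfsg

namespace Cfsg.Agent.S0522

/-- Transitivity Theorem (odd-order setting). Let X be a finite group of odd order in which the normalizer of every
nontrivial p-subgroup is solvable, P a Sylow p-subgroup, and B an abelian subgroup of P, normalized by P, with
C_P(B) = B and containing an elementary abelian subgroup of order p^3. Then for every prime q ≠ p, any two q-subgroups
that are maximal among the q-subgroups normalized by B are conjugate by an element of the centralizer of B. -/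
theorem result {X : Type*} [Group X] [Finite X] (hX : Odd (Nat.card X)) (p : ℕ)
    [Fact p.Prime] (hloc : ∀ T : Subgroup X, IsPGroup p T → T ≠ ⊥ → Group.IsSolvable (Subgroup.normalizer (T : Set X)))
    (P : Sylow p X) (B : Subgroup X) (hBP : B ≤ (P : Subgroup X))
    (hBn : ∀ x ∈ (P : Subgroup X), ∀ b ∈ B, x * b * x⁻¹ ∈ B) (hBa : IsMulCommutative B)
    (hBc : (P : Subgroup X) ⊓ Subgroup.centralizer (B : Set X) = B)
    (hB3 : ∃ E : Subgroup X, E ≤ B ∧ (∀ e ∈ E, e ^ p = 1) ∧ p ^ 3 ≤ Nat.card E)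
    (q : ℕ) [Fact q.Prime] (hqp : q ≠ p) (Q₁ Q₂ : Subgroup X)
    (h₁ : IsPGroup q Q₁ ∧ B ≤ Subgroup.normalizer (Q₁ : Set X) ∧
      ∀ R : Subgroup X, IsPGroup q R → B ≤ Subgroup.normalizer (R : Set X) → Q₁ ≤ R → R = Q₁)
    (h₂ : IsPGroup q Q₂ ∧ B ≤ Subgroup.normalizer (Q₂ : Set X) ∧
      ∀ R : Subgroup X, IsPGroup q R → B ≤ Subgroup.normalizer (R : Set X) → Q₂ ≤ R → R = Q₂) :
    ∃ c ∈ Subgroup.centralizer (B : Set X), Q₂ = Q₁.map (MulAut.conj c).toMonoidHom := by
  have hp : p.Prime := Fact.out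
  have hB : FT.PGrp p B := (FT.syl_top hp P).pi.mono hBP
  have hPn : (P : Subgroup X) ≤ Subgroup.normalizer (B : Set X) := FT.le_nrm_iff.2 hBn
  have hs : FT.Syl p B (Subgroup.centralizer (B : Set X)) := by
    have := ((FT.syl_top hp P).subl hPn le_top).inf_nml ⟨FT.cen_le_nrm B, FT.norms_cent le_rfl⟩
    rwa [hBc] at this
  obtain ⟨E, hE, hE1, hE2⟩ := hB3
  have hE3 : FT.Abelem p E := FT.abelem_iff.2 ⟨FT.Ab.mono hBa hE, hE1⟩
  obtain ⟨n, hn⟩ := hE3.pnElem hp hE
  have h3 : 3 ≤ FT.prank p B := by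
    rw [hn.card, Nat.pow_le_pow_iff_right hp.one_lt] at hE2
    exact hE2.trans hn.le_prank
  obtain ⟨k, hk, e⟩ := H23.transitivity hp hqp (fun T hT h1 => by
      have := hloc T hT.isPGroup h1
      exact H5b.isPConstrained_of_pSolvable (H1.isPSolvable_of_isSolvable hp this))
    (fun e S hS => by
      have : S = ⊥ := hS.eq_bot (FT.p'grp_of_not_dvd fun h => by
        subst e; exact (Odd.of_dvd_nat hX (h.trans S.card_subgroup_dvd_card)).not_two_dvd_nat dvd_rfl)
      simp [this]) hB hBa h3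
    (fun x hx hx' => hs.mem_of_cen hx hx' hx) Q₁ Q₂
    (FT.maxNormed_iff.2 ⟨FT.pGrp_of_isPGroup Fact.out h₁.1, h₁.2.1, fun R hR => h₁.2.2 R hR.isPGroup⟩)
    (FT.maxNormed_iff.2 ⟨FT.pGrp_of_isPGroup Fact.out h₂.1, h₂.2.1, fun R hR => h₂.2.2 R hR.isPGroup⟩)
  exact ⟨k, FT.pcore_le _ _ hk, e⟩

end Cfsg.Agent.S0522
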