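import Cfsg.Statements.S0530
import Mathlib
import Cfsg.Agent.H1.Supersolv

set_option autoImplicit false
open Cfsg

namespace Cfsg.Agent.S0530

/-- A finite group whose order is twice a prime power is supersolvable. -/
theorem result {G : Type*} [Group G] [Finite G] (p n : ℕ) (hp : p.Prime) (hG : Nat.card G = 2 * p ^ n) : Cfsg.IsSupersolvable G := by
  obtain ⟨P, -, hP⟩ := FT.exists_card_pow_le (H := (⊤ : Subgroup G)) (n := n) hp
    (by rw [FT.card_top', hG]; exact dvd_mul_left _ _)
  have hi : P.index = 2 := by
    have := P.card_mul_index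
    rw [hP, hG, mul_comm 2] at this
    exact Nat.eq_of_mul_eq_mul_left (pow_pos hp.pos n) this
  exact H1.ssol_top.1 (H1.ssol_of_nil_index_two (FT.nml_top_iff.2 (Subgroup.normal_of_index_eq_two hi))
    (FT.pGrp_of_card hp hP).nil (by rw [Subgroup.relIndex_top_right, hi]))

end Cfsg.Agent.S0530
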