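import Cfsg.Statements.S0534
import Mathlib
import Cfsg.Agent.H1.Prim

set_option autoImplicit false
open Cfsg

namespace Cfsg.Agent.S0534

/-- Let G be a finite solvable group and A a finite abelian group such that every prime dividing the order of A divides the order of G and, for each prime p dividing the order of G, the exponent of p in the order of A is one less than its exponent in the order of G. Then G × A has a subgroup of every order dividing its order. -/
theorem result {G A : Type*} [Group G] [CommGroup A] [Finite G] [Finite A] [Group.IsSolvable G] (hA : ∀ p : ℕ, p.Prime → p ∣ Nat.card A → p ∣ Nat.card G) (hexp : ∀ p : ℕ, p.Prime → p ∣ Nat.card G → (Nat.card A).factorization p + 1 = (Nat.card G).factorization p) : Cfsg.HasSubgroupOfEveryOrder (G × A) := by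
  intro d hd
  rw [Nat.card_prod] at hd
  have hG0 : Nat.card G ≠ 0 := Nat.card_pos.ne'
  have hA0 : Nat.card A ≠ 0 := Nat.card_pos.ne'
  have hd0 : d ≠ 0 := ne_zero_of_dvd_ne_zero (mul_ne_zero hG0 hA0) hd
  obtain ⟨H, hH⟩ := FT.Hall_exists {p | (Nat.card G).factorization p ≤ d.factorization p} (FT.sol_top.2 ‹Group.IsSolvable G›)
  have hc := hH.card
  rw [FT.card_top'] at hc
  have hfac : ∀ p, p.Prime → (Nat.card H).factorization p =
      if (Nat.card G).factorization p ≤ d.factorization p then (Nat.card G).factorization p else 0 := by
    intro p hp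
    split_ifs with h
    · have := hH.partn_card (ρ := {p}) (Set.singleton_subset_iff.2 h)
      rw [FT.partn_singleton hp, FT.partn_singleton hp, FT.card_top'] at this
      exact Nat.pow_right_injective hp.two_le this
    · exact Nat.factorization_eq_zero_of_not_dvd (hH.pi.not_dvd' hp h)
  have h1 : Nat.card H ∣ d := (Nat.factorization_prime_le_iff_dvd (FT.card_ne_zero H) hd0).1 fun p hp => by
    rw [hfac p hp]; split_ifs with h <;> omega
  obtain ⟨e, rfl⟩ := h1
  have he0 : e ≠ 0 := right_ne_zero_of_mul hd0
  have h2 : e ∣ Nat.card A := (Nat.factorization_prime_le_iff_dvd he0 hA0).1 fun p hp => by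
    have a1 := (Nat.factorization_prime_le_iff_dvd hd0 (mul_ne_zero hG0 hA0)).2 hd p hp
    have a2 := hfac p hp
    rw [Nat.factorization_mul (FT.card_ne_zero H) he0, Finsupp.add_apply] at a1 a2
    rw [Nat.factorization_mul hG0 hA0, Finsupp.add_apply] at a1
    split_ifs at a2 with h
    · omega
    · have := hexp p hp (Nat.dvd_of_factorization_pos (by omega))
      omega
  obtain ⟨B, -, hB⟩ := (H1.ssol_of_nil (FT.nil_top.2 (inferInstance : Group.IsNilpotent A))).exists_card
    (d := e) (by rwa [FT.card_top'])
  exact ⟨H.prod B, by rw [Nat.card_congr (Subgroup.prodEquiv H B).toEquiv, Nat.card_prod, hB]⟩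

end Cfsg.Agent.S0534
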