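import Cfsg.Statements.S0535
import Mathlib
import Cfsg.Agent.H1.Prim

set_option autoImplicit false
open Cfsg

namespace Cfsg.Agent.S0535

/-- Suppose that for every nontrivial subgroup H of a finite group and every prime p dividing the order of H there is a proper subgroup of H whose index in H is a power of p. Then the group is solvable. -/
theorem result {G : Type*} [Group G] [Finite G] (h : ∀ H : Subgroup G, H ≠ ⊥ → ∀ p : ℕ, p.Prime → p ∣ Nat.card H → ∃ K : Subgroup H, K ≠ ⊤ ∧ ∃ k : ℕ, K.index = p ^ k) : Group.IsSolvable G := by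
  refine H7.isSolvable_of_hall_compl _ rfl fun p hp => ?_
  obtain ⟨H, -, ⟨k, hk⟩, hmin⟩ := FT.exists_min (A := (⊤ : Subgroup G)) (fun H => ∃ k, H.index = p ^ k)
    ⟨0, by simp⟩
  refine ⟨H, ⟨k, hk⟩, fun hd => ?_⟩
  obtain ⟨K, hK, j, hj⟩ := h H (FT.ne_bot_of_prime_dvd hp hd) p hp hd
  have := hmin (K.map H.subtype) ⟨j + k, by rw [Subgroup.index_map_subtype, hj, hk, pow_add]⟩
    (Subgroup.map_subtype_le K)
  exact hK (by rw [← FT.so_map K, this, Subgroup.subgroupOf_self])

end Cfsg.Agent.S0535
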