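import Cfsg.Statements.S0537
import Mathlib
import Cfsg.Agent.H1.Prim

set_option autoImplicit false
open Cfsg

namespace Cfsg.Agent.S0537

/-- A finite non-abelian group in which every proper subgroup is abelian is either of prime-power order, or is generated by a cyclic Sylow p-subgroup and a normal Sylow q-subgroup that is elementary abelian, for distinct primes p and q. -/
theorem result {G : Type*} [Group G] [Finite G] (hna : ¬ IsMulCommutative G) (h : ∀ H : Subgroup G, H ≠ ⊤ → IsMulCommutative H) : (∃ p : ℕ, p.Prime ∧ IsPGroup p G) ∨ ∃ p q : ℕ, p.Prime ∧ q.Prime ∧ p ≠ q ∧ ∃ (P : Sylow p G) (Q : Sylow q G), IsCyclic P ∧ (Q : Subgroup G).Normal ∧ Cfsg.IsElementaryAbelian q (Q : Subgroup G) ∧ (P : Subgroup G) ⊔ Q = ⊤ := by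
  by_cases hn : Group.IsNilpotent G
  · left
    by_contra hc
    refine hna (FT.ab_top.1 (H1.ab_of_nil_of_not_pgrp (FT.nil_top.2 hn) (fun H hH => h H hH.ne) fun p hp hP => ?_))
    exact hc ⟨p, hp, hP.isPGroup.of_equiv Subgroup.topEquiv⟩
  right
  obtain ⟨p, q, Q, g, hp, hq, hpq, hQ, hP, hsd, hc⟩ := H1.min_non_nil_structure hn fun H hH => FT.Ab.nil (h H hH)
  have hab := H1.abelem_of_min_non_ab h hQ.pi (hQ.pi.cop_of_ne hP.pi hpq.symm) hsd hc
  obtain ⟨P, hP'⟩ := (FT.syl_top_iff hp).1 hP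
  obtain ⟨Q, rfl⟩ := (FT.syl_top_iff hq).1 hQ
  refine ⟨p, q, hp, hq, hpq, P, Q, ?_, FT.nml_top_iff.1 hsd.nml, hab, by rw [hP', sup_comm, hsd.sup]⟩
  rw [hP']
  infer_instance

end Cfsg.Agent.S0537
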