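import Cfsg.Statements.S0546
import Mathlib
import Cfsg.Agent.H1.SysNorm

set_option autoImplicit false
open Cfsg

namespace Cfsg.Agent.S0546

/-- The normal closure of a system normalizer of a finite solvable group is the whole group. -/
theorem result {G : Type*} [Group G] [Finite G] [Group.IsSolvable G] (K : Nat.Primes → Subgroup G) (hK : Cfsg.IsComplementSystem K) : Subgroup.normalClosure ((Cfsg.systemNormalizer K : Subgroup G) : Set G) = ⊤ := by
  exact (H1.csys_top.2 hK).sup_sn (FT.sol_top.2 ‹_›) (FT.nml_top_iff.2 inferInstance)
    (inf_le_right.trans Subgroup.le_normalClosure)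

end Cfsg.Agent.S0546
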