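import Cfsg.Statements.S0548
import Mathlib
import Cfsg.Agent.H16.RegNormal
import Cfsg.Agent.S0547

set_option autoImplicit false
open Cfsg

namespace Cfsg.Agent.S0548

/-- Let a finite solvable group G act faithfully and primitively on a set, let M be a minimal normal subgroup and H the stabilizer of a point. Then H is a complement to M, no non-identity element of H centralizes M, and the only subgroups of M normalized by H are the trivial subgroup and M. -/
theorem result {G : Type*} [Group G] [Finite G] [Group.IsSolvable G] {Ω : Type*} [MulAction G Ω] [FaithfulSMul G Ω] (hprim : MulAction.IsPreprimitive G Ω) (M : Subgroup G) [M.Normal] (hM : M ≠ ⊥) (hmin : ∀ K : Subgroup G, K.Normal → K ≤ M → K = ⊥ ∨ K = M) (ω : Ω) : Subgroup.IsComplement' M (MulAction.stabilizer G ω) ∧ MulAction.stabilizer G ω ⊓ Subgroup.centralizer (M : Set G) = ⊥ ∧ ∀ K : Subgroup G, K ≤ M → MulAction.stabilizer G ω ≤ Subgroup.normalizer (K : Set G) → K = ⊥ ∨ K = M := by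
  open MulAction in
  have ht := H16.normal_trans (α := Ω) M hM
  have hc := S0547.comm_of_minNormal M hM hmin
  have hreg := H16.stabilizer_eq_bot_of_comm (α := Ω) M hc
  refine ⟨?_, ?_, ?_⟩
  · apply Subgroup.isComplement'_of_disjoint_and_mul_eq_univ
    · rw [disjoint_iff, eq_bot_iff]
      intro x hx
      exact H16.reg_eq_one (hreg ω) hx.1 hx.2
    · rw [Set.eq_univ_iff_forall]
      intro g
      obtain ⟨n, hn, h, hh, rfl⟩ := H16.exists_mul_stabilizer M ω g
      exact Set.mul_mem_mul hn hh
  · rw [eq_bot_iff]
    intro x hx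
    exact H16.eq_one_of_centralizes_trans M hx.2 hx.1
  · intro K hK hn
    apply hmin K _ hK
    rw [← Subgroup.normalizer_eq_top_iff, eq_top_iff, ← H16.sup_stabilizer_eq_top M ω]
    refine sup_le ?_ hn
    intro m hm
    rw [Subgroup.mem_normalizer_iff]
    intro k
    have key : ∀ k ∈ M, m * k * m⁻¹ = k := fun k hk => by
      rw [mul_inv_eq_iff_eq_mul]
      exact congrArg Subtype.val (hc.is_comm.comm ⟨m, hm⟩ ⟨k, hk⟩)
    constructor
    · intro hk; rwa [key k (hK hk)]
    · intro hk
      have : k ∈ M := by
        have := M.mul_mem (M.mul_mem (M.inv_mem hm) (hK hk)) hm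
        simpa [mul_assoc] using this
      rwa [key k this] at hk

end Cfsg.Agent.S0548
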