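import Cfsg.Statements.S0550
import Mathlib
import Cfsg.Agent.H1.Prim

set_option autoImplicit false
open Cfsg

namespace Cfsg.Agent.S0550

/-- Let U be a maximal subgroup with trivial normal core in a finite group G, and A ≠ B two minimal normal subgroups. Then A is the centralizer of B and B that of A, U complements each of them, A and B are non-abelian, and A, B and (A ⊔ B) ∩ U are pairwise isomorphic. -/
theorem result {G : Type*} [Group G] [Finite G] (U : Subgroup G) (hU : IsCoatom U) (hcore : U.normalCore = ⊥) (A B : Subgroup G) [A.Normal] [B.Normal] (hA : A ≠ ⊥) (hB : B ≠ ⊥) (hAmin : ∀ K : Subgroup G, K.Normal → K ≤ A → K = ⊥ ∨ K = A) (hBmin : ∀ K : Subgroup G, K.Normal → K ≤ B → K = ⊥ ∨ K = B) (hAB : A ≠ B) : Subgroup.centralizer (B : Set G) = A ∧ Subgroup.centralizer (A : Set G) = B ∧ Subgroup.IsComplement' A U ∧ Subgroup.IsComplement' B U ∧ ¬ IsMulCommutative A ∧ Nonempty (A ≃* B) ∧ Nonempty (A ≃* ↥((A ⊔ B) ⊓ U)) := by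
  have h := H1.coreFree_top hU hcore
  have nA : FT.Nml A ⊤ := FT.nml_top_iff.2 ‹_›
  have nB : FT.Nml B ⊤ := FT.nml_top_iff.2 ‹_›
  have hi : A ⊓ B = ⊥ := (hAmin _ inferInstance inf_le_left).resolve_right fun e =>
    hAB ((hBmin A ‹_› (e.ge.trans inf_le_right)).resolve_left hA)
  have c1 := FT.cents_of_norms_of_inf (le_top.trans nA.nrm) (le_top.trans nB.nrm) hi
  have c2 := FT.centsC c1
  have e1 := h.eq_cen nB hB nA hA c1
  have e2 := h.eq_cen nA hA nB hB c2
  rw [top_inf_eq] at e1 e2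
  have s1 := h.sd nB hB nA hA c1
  have s2 := h.sd nA hA nB hB c2
  have d := FT.dp_sup c2 hi
  have t1 := s1.inf_left (le_sup_left : A ≤ A ⊔ B)
  have t2 := s2.inf_left (le_sup_right : B ≤ A ⊔ B)
  rw [inf_top_eq] at t1 t2
  have i1 := d.symm.sd.quoEquiv.trans t2.quoEquiv.symm
  have i2 := d.sd.quoEquiv.trans t1.quoEquiv.symm
  refine ⟨e1.symm, e2.symm, s1.isComplement'_top, s2.isComplement'_top, fun hab => hA ?_, ⟨i1.trans i2.symm⟩, ⟨i1⟩⟩
  exact FT.eq_bot_of_le (le_inf le_rfl ((FT.Ab.le_cen hab).trans e2.ge)) hi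

end Cfsg.Agent.S0550
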