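import Cfsg.Statements.S0552
import Mathlib
import Cfsg.Agent.H1.Prim

set_option autoImplicit false
open Cfsg

namespace Cfsg.Agent.S0552

/-- Let σ be an automorphism of a finite solvable group G fixing every element of the Fitting subgroup. If σ is not the identity then the order of σ and the order of G have a common prime factor. -/
theorem result {G : Type*} [Group G] [Finite G] [Group.IsSolvable G] (σ : G ≃* G) (hσ : ∀ x ∈ Cfsg.fittingSubgroup G, σ x = x) (hne : σ ≠ MulEquiv.refl G) : ¬ (orderOf σ).Coprime (Nat.card G) := by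
  intro hc
  refine hne (MulEquiv.ext fun g => ?_)
  have hF := FT.cent_sub_Fitting (FT.sol_top.2 ‹Group.IsSolvable G›)
  have hn := FT.fitting_nml (⊤ : Subgroup G)
  rw [FT.fitting_top] at hF hn
  have hz : g⁻¹ * σ g ∈ fittingSubgroup G := hF ⟨trivial, FT.mem_cen.2 fun x hx => by
    have := hσ _ (hn.conj_mem (Subgroup.mem_top g) hx)
    rw [map_mul, map_mul, map_inv, hσ x hx] at this
    calc x * (g⁻¹ * σ g) = g⁻¹ * (g * x * g⁻¹) * σ g := by group
      _ = g⁻¹ * σ g * x := by rw [← this]; group⟩
  have key : ∀ n : ℕ, (σ ^ n : MulAut G) g = g * (g⁻¹ * σ g) ^ n := by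
    intro n
    induction n with
    | zero => simp
    | succ n ih =>
      rw [pow_succ', MulAut.mul_apply, ih, map_mul, hσ _ (pow_mem hz n), pow_succ', ← mul_assoc,
        mul_inv_cancel_left]
  have h1 := key (orderOf σ)
  rw [pow_orderOf_eq_one, MulAut.one_apply, left_eq_mul] at h1
  have := Nat.eq_one_of_dvd_coprimes hc (orderOf_dvd_of_pow_eq_one h1) (orderOf_dvd_natCard _)
  exact (inv_mul_eq_one.1 (orderOf_eq_one_iff.1 this)).symm

end Cfsg.Agent.S0552
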