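import Cfsg.Statements.S0553
import Mathlib
import Cfsg.Agent.H1.Prim

set_option autoImplicit false
open Cfsg

namespace Cfsg.Agent.S0553

/-- Let G be a nontrivial finite solvable group in which every maximal subgroup has order coprime to its index. Then for some prime p dividing the order of G the Sylow p-subgroups of G are normal. -/
theorem result {G : Type*} [Group G] [Finite G] [Group.IsSolvable G] [Nontrivial G] (h : ∀ M : Subgroup G, IsCoatom M → (Nat.card M).Coprime M.index) : ∃ p : ℕ, p.Prime ∧ p ∣ Nat.card G ∧ ∀ P : Sylow p G, (P : Subgroup G).Normal := by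
  obtain ⟨p, P, hp, hd, hP, hn⟩ := H1.exists_nml_syl_of_maxIn_hall (FT.sol_top.2 ‹Group.IsSolvable G›) top_ne_bot
    fun H hH => ⟨le_top, by rw [Subgroup.relIndex_top_right]; exact h H (FT.maxIn_top_iff.1 hH)⟩
  refine ⟨p, hp, by rwa [FT.card_top'] at hd, fun Q => ?_⟩
  rw [hP.uniq_of_nml hn.nrm (FT.syl_top hp Q)]
  exact FT.nml_top_iff.1 hn

end Cfsg.Agent.S0553
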