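import Cfsg.Statements.S0555
import Mathlib
import Cfsg.Agent.FT.Cyc

set_option autoImplicit false
open Cfsg

namespace Cfsg.Agent.S0555

open Cfsg.Agent.FT in
theorem der_cents {G : Type*} [Group G] {H A : Subgroup G} (h : Cyc H) (hA : A ≤ N(H)) : ⁅A, A⁆ ≤ C(H) := by
  have hab : IsMulCommutative (MulAut H) :=
    ⟨⟨fun a b => (IsCyclic.mulAutMulEquiv H).injective (by rw [map_mul, map_mul, mul_comm])⟩⟩
  have := (ab_pmap_iff (f := H.normalizerMonoidHom) hA).1 ((ab_top.2 hab).mono le_top)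
  intro x hx
  obtain ⟨hx', e⟩ := mem_pker.1 (this hx)
  rw [pfun_of_mem _ hx'] at e
  refine mem_cen.2 fun y hy => ?_
  have : x * y * x⁻¹ = y := congrArg (fun σ : MulAut H => (σ ⟨y, hy⟩ : G)) e
  rw [← mul_inv_eq_iff_eq_mul.1 this]

open Cfsg.Agent.FT in
theorem aux {G : Type*} [Group G] {D : Subgroup G} (hD : D ⊴ ⊤) (hle : D ≤ ⁅(⊤ : Subgroup G), (⊤ : Subgroup G)⁆)
    (h1 : Cyc (D /ₛ ⁅D, D⁆)) (h2 : Cyc (⁅D, D⁆ /ₛ ⁅⁅D, D⁆, ⁅D, D⁆⁆)) : ⁅D, D⁆ ≤ ⁅⁅D, D⁆, ⁅D, D⁆⁆ := by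
  have all : ∀ X : Subgroup G, X ≤ N(⁅⁅D, D⁆, ⁅D, D⁆⁆) := fun X => le_top.trans hD.der.der.nrm
  have c := der_cents h2 (quo_norms _ hD.der.nrm)
  rw [← quo_der (all ⊤)] at c
  obtain ⟨x, hx, hx'⟩ := (cyc_quo_iff (der_nml D).nrm).1 h1
  refine der_le_of_ab_quo (all D) (ab_of_cyc_quo (K := ⁅D, D⁆ /ₛ ⁅⁅D, D⁆, ⁅D, D⁆⁆)
    (le_inf (quo_mono _ (der_le D)) (centsC ((quo_mono _ hle).trans c))) ?_)
  refine (cyc_quo_iff (quo_norms _ (der_nml D).nrm)).2 ⟨_, mem_quo_of_mem (all ⊤ (Subgroup.mem_top x)) hx, ?_⟩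
  rw [← quo_zpowers (all ⊤ (Subgroup.mem_top x)), ← quo_sup (all _) (all _)]
  exact quo_mono _ hx'

/-- Let i ≥ 1. If in the derived series of a group the quotient of the i-th term by the (i+1)-st and the quotient of the (i+1)-st by the (i+2)-nd are both cyclic, then the (i+1)-st and (i+2)-nd terms coincide. -/
theorem result {G : Type*} [Group G] (i : ℕ) (hi : 1 ≤ i) (h₁ : IsCyclic (↥(derivedSeries G i) ⧸ (derivedSeries G (i + 1)).subgroupOf (derivedSeries G i))) (h₂ : IsCyclic (↥(derivedSeries G (i + 1)) ⧸ (derivedSeries G (i + 2)).subgroupOf (derivedSeries G (i + 1)))) : derivedSeries G (i + 1) = derivedSeries G (i + 2) := by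
  have hn : ∀ j, FT.Nml (derivedSeries G j) ⊤ := fun j => FT.nml_top_iff.2 inferInstance
  refine le_antisymm (aux (hn i) (derivedSeries_antitone G hi) ?_ ?_) (derivedSeries_antitone G (Nat.le_succ _))
  · exact isCyclic_of_surjective _ (FT.quotEquiv (le_top.trans (hn (i + 1)).nrm)).surjective
  · exact isCyclic_of_surjective _ (FT.quotEquiv (A := derivedSeries G (i + 1))
      (le_top.trans (hn (i + 2)).nrm)).surjective

end Cfsg.Agent.S0555
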