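import Cfsg.Statements.S0557
import Mathlib
import Cfsg.Agent.H4.Focal

set_option autoImplicit false
open Cfsg

namespace Cfsg.Agent.S0557

/-- Let H be a subgroup of a finite group G with order coprime to its index. If iterating the focal-subgroup construction starting from H reaches the trivial subgroup after finitely many steps, then H has a normal complement in G. -/
theorem result {G : Type*} [Group G] [Finite G] (H : Subgroup G) (hHall : (Nat.card H).Coprime H.index) (n : ℕ) (hfoc : (fun K : Subgroup G => Subgroup.focalSubgroup K)^[n] H = ⊥) : ∃ N : Subgroup G, N.Normal ∧ Subgroup.IsComplement' N H := by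
  apply H4.exists_normal_complement_of_inf_pResidual hHall
  have h1 := H4.inf_pResidual_le_focal (H4.isPGroup_card_self H) hHall.symm
  have h2 : ∀ k, H ⊓ Cfsg.pResidual (Nat.card H) G ≤
      (fun K : Subgroup G => Subgroup.focalSubgroup K)^[k] H := by
    intro k
    induction k with
    | zero => exact inf_le_left
    | succ k ih =>
      rw [Function.iterate_succ_apply']
      refine h1.trans (Subgroup.closure_mono ?_)
      rintro _ ⟨h3, x, hx, u, rfl⟩
      exact ⟨ih h3, x, ih hx, u, rfl⟩
  exact le_bot_iff.mp (hfoc ▸ h2 n)

end Cfsg.Agent.S0557
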