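import Cfsg.Statements.S0558
import Mathlib
import Cfsg.Agent.H4.Cyc2

set_option autoImplicit false
open Cfsg

namespace Cfsg.Agent.S0558

/-- Let H be a subgroup of a finite group G that is not a Sylow subgroup of G for any prime, and suppose that for every prime p dividing the order of H and every Sylow p-subgroup P of H the normalizer of P in G is exactly H. Then some normal subgroup of G is a complement to H. -/
theorem result {G : Type*} [Group G] [Finite G] (H : Subgroup G) (hnot : ∀ p : ℕ, p.Prime → ∀ P : Sylow p G, (P : Subgroup G) ≠ H) (hnorm : ∀ p : ℕ, p.Prime → p ∣ Nat.card H → ∀ P : Sylow p H, Subgroup.normalizer (((P : Subgroup H).map H.subtype : Subgroup G) : Set G) = H) : ∃ N : Subgroup G, N.Normal ∧ Subgroup.IsComplement' N H := by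
  open Subgroup Cfsg.Agent.H22 Cfsg.Agent.H4 in
  have h1 : ∀ q : ℕ, q.Prime → q ∣ Nat.card H → ∀ R, H18.SylIn q R H → N[R] = H ∧ H18.SylIn q R ⊤ := by
    intro q hq hd R hR
    have := Fact.mk hq
    obtain ⟨T, hT⟩ := hR.exists_sylow
    have := hnorm q hq hd T
    rw [hT, subgroupOf_map_subtype, inf_eq_left.2 hR.1] at this
    exact ⟨this, sylIn_of_inf_N le_top (by rwa [this, top_inf_eq])⟩
  have h2 : ∀ p : ℕ, p.Prime → p ∣ Nat.card H → HasNormalPComplement p G := by
    intro p hp hd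
    have := Fact.mk hp
    obtain ⟨R, hR⟩ := exists_sylIn p H
    obtain ⟨a1, a2⟩ := h1 p hp hd R hR
    obtain ⟨P, rfl⟩ := a2.exists_sylow_top
    obtain ⟨q, hq, hqd, hqp⟩ : ∃ q : ℕ, q.Prime ∧ q ∣ Nat.card H ∧ q ≠ p := by
      by_contra h
      push Not at h
      exact hnot p hp P (hR.eq_of_isPGroup (IsPGroup.of_card (Nat.eq_prime_pow_of_unique_prime_dvd
        Nat.card_pos.ne' fun hq hd => h _ hq hd)))
    have := Fact.mk hq
    have hc : ∀ r : ℕ, r.Prime → r ≠ p → ∀ T, H18.SylIn r T H → T ≤ C[(P : Subgroup G)] := by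
      intro r hr hrp T hT
      have := Fact.mk hr
      by_cases h0 : T = ⊥
      · simp [h0]
      have hrd := (pgrp_dvd_card hT.2 h0).trans (card_dvd_of_le hT.1)
      rw [le_C_iff_comm, eq_bot_iff, ← disjoint_iff.1 (IsPGroup.disjoint_of_ne r p hrp _ _ hT.2 hR.2)]
      exact le_inf (comm_le_of_le_N (hR.1.trans (h1 r hr hrd T hT).1.ge))
        (comm_le_of_le_N' (hT.1.trans a1.ge))
    have hH : H ≤ C[(P : Subgroup G)] ⊔ P := le_of_forall_syl fun r hr => by
      by_cases hrp : r = p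
      · exact ⟨P, hrp ▸ hR, le_sup_right⟩
      · obtain ⟨T, hT⟩ := exists_sylIn r H
        exact ⟨T, hT, (hc r hr hrp T hT).trans le_sup_left⟩
    obtain ⟨T, hT⟩ := exists_sylIn q H
    obtain ⟨b1, b2⟩ := h1 q hq hqd T hT
    refine hasNPC_of_forall_le_sylow P fun Q hQ _ g hg ho => ?_
    have hTQ : T ≤ C[Q] := (hc q hq hqp T hT).trans (C_anti hQ)
    have b3 := syl_frattini_sup (b2.mono hTQ le_top) (C_le_N Q) (N_le_N_C Q)
    refine pResidualOf_le_of_le_sup (Q := P ⊓ N[Q]) (P.isPGroup'.to_le inf_le_left)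
      (inf_le_right.trans (N_le_N_C Q)) ?_ (mem_pResidualOf hg ho)
    rw [b1] at b3
    refine b3.ge.trans (sup_le le_sup_left fun x hx => ?_)
    obtain ⟨a, ha, b, hb, rfl⟩ := (mem_sup_of_le_N (C_le_N _)).1 (hH hx.2)
    have ha' := C_anti hQ ha
    exact mul_mem (mem_sup_left ha') (mem_sup_right ⟨hb, (mul_mem_cancel_left (C_le_N Q ha')).1 hx.1⟩)
  refine exists_normal_complement_of_inf_pResidual (Nat.coprime_of_dvd fun q hq hd hi => ?_) ?_
  · have := Fact.mk hq
    obtain ⟨R, hR⟩ := exists_sylIn q H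
    have := (h1 q hq hd R hR).2.not_dvd_relIndex
    rw [relIndex_top_right] at this
    exact this (hi.trans (index_dvd_of_le hR.1))
  · refine eq_bot_iff.2 fun x hx => ?_
    by_contra h0
    obtain ⟨p, hp, hd⟩ := Nat.exists_prime_and_dvd (mt orderOf_eq_one_iff.1 h0)
    have := Fact.mk hp
    have hd' := hd.trans (orderOf_dvd_card_of_mem hx.1)
    have h3 : pResidual (Nat.card H) G ≤ pResidual p G :=
      (closure_le _).2 fun y hy => mem_pResidual (Nat.Coprime.of_dvd_right hd' hy)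
    exact (hp.coprime_iff_not_dvd).1 ((hasNPC_mem_pResidual_iff (h2 p hp hd') x).1 (h3 hx.2)).symm hd

end Cfsg.Agent.S0558
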