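import Cfsg.Statements.S0563
import Mathlib
import Cfsg.Agent.H1.KW

set_option autoImplicit false
open Pointwise
open Cfsg

namespace Cfsg.Agent.S0563

/-- If a finite group G is the product AB of two nilpotent subgroups of coprime orders, then G is solvable, and for every Sylow p-subgroup P of A and Sylow q-subgroup Q of B the product set PQ is a subgroup. -/
theorem result {G : Type*} [Group G] [Finite G] (A B : Subgroup G) (hA : Group.IsNilpotent A) (hB : Group.IsNilpotent B) (hcop : (Nat.card A).Coprime (Nat.card B)) (hAB : ∀ g : G, ∃ a ∈ A, ∃ b ∈ B, g = a * b) : Group.IsSolvable G ∧ ∀ (p q : ℕ) [Fact p.Prime] [Fact q.Prime] (P : Sylow p A) (Q : Sylow q B), ∃ S : Subgroup G, (S : Set G) = (((P : Subgroup A).map A.subtype : Subgroup G) : Set G) * (((Q : Subgroup B).map B.subtype : Subgroup G) : Set G) := by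
  have hm := H1.mulEq_top hAB
  have hs := H1.kegel_wielandt hm hA hB
  refine ⟨FT.sol_top.1 hs, fun p q hp hq P Q => ?_⟩
  have hP := FT.syl_map_subtype hp.out P
  have hQ := FT.syl_map_subtype hq.out Q
  have hc : FT.Cop A B := hcop
  obtain ⟨S, hS⟩ := H1.mulEq_hall_perm hm hs (FT.Nil.hall_nml hA hP) (FT.Nil.hall_nml hB hQ)
    (hP.isHall.trans' (hm.hall_left (FT.piGrp_piOf A) hc.pi').isHall)
    (hQ.isHall.trans' (hm.hall_right (FT.piGrp_piOf A) hc.pi').isHall)
  exact ⟨S, H1.mulEq_coe hS⟩

end Cfsg.Agent.S0563
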