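import Cfsg.Statements.S0565
import Mathlib
import Cfsg.Agent.H1.KW

set_option autoImplicit false
open Cfsg

namespace Cfsg.Agent.S0565

/-- Let the finite group G be the product AB of nilpotent subgroups A and B, not both equal to G. Then there is a proper normal subgroup of G containing A or containing B. -/
theorem result {G : Type*} [Group G] [Finite G] (A B : Subgroup G) (hA : Group.IsNilpotent A) (hB : Group.IsNilpotent B) (hAB : ∀ g : G, ∃ a ∈ A, ∃ b ∈ B, g = a * b) (hproper : A ≠ ⊤ ∨ B ≠ ⊤) : ∃ N : Subgroup G, N.Normal ∧ N ≠ ⊤ ∧ (A ≤ N ∨ B ≤ N) := by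
  obtain ⟨N, h1, h2, h3⟩ := H1.exists_nml_ge_factor _ rfl (H1.mulEq_top hAB)
    (H1.kegel_wielandt (H1.mulEq_top hAB) hA hB) hA hB hproper
  exact ⟨N, FT.nml_top_iff.1 h1, h2, h3⟩

end Cfsg.Agent.S0565
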