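import Cfsg.Statements.S0570
import Mathlib
import Cfsg.Agent.H1.SysNorm

set_option autoImplicit false
open Cfsg

namespace Cfsg.Agent.S0570

/-- Let G be a finite group with a nilpotent normal subgroup F such that G modulo F is nilpotent (nilpotent length at most two). Then a subgroup of G is a Carter subgroup if and only if it is the system normalizer of some Hall complement system. -/
theorem result {G : Type*} [Group G] [Finite G] (F : Subgroup G) [F.Normal] (hF : Group.IsNilpotent F) (hGF : Group.IsNilpotent (G ⧸ F)) (C : Subgroup G) : Cfsg.IsCarterSubgroup C ↔ ∃ K : Nat.Primes → Subgroup G, Cfsg.IsComplementSystem K ∧ C = Cfsg.systemNormalizer K := by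
  have hn : FT.Nml F ⊤ := FT.nml_top_iff.2 ‹_›
  have h2 := H1.nil_quo_top.2 hGF
  have hs : FT.Sol (⊤ : Subgroup G) := FT.sol_of_quo hn.nrm (FT.Nil.sol hF) h2.sol
  refine ⟨fun hC => ?_, ?_⟩
  · obtain ⟨K, h3, h4⟩ := (H1.carter_top.2 hC).exists_csys hs
    have := (h3.carter_of_nil hn hF h2).eq_of_nil h4 le_top hC.1
    exact ⟨K, H1.csys_top.1 h3, by rw [← this, top_inf_eq]⟩
  · rintro ⟨K, hK, rfl⟩
    have := (H1.csys_top.2 hK).carter_of_nil hn hF h2
    rwa [top_inf_eq, H1.carter_top] at this

end Cfsg.Agent.S0570
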