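import Cfsg.Statements.S0571
import Mathlib
import Cfsg.Agent.H1.Factor

set_option autoImplicit false
open Cfsg

namespace Cfsg.Agent.S0571

/-- If a finite group G is the product AB of two cyclic subgroups (every element is a product ab), then G is supersolvable. -/
theorem result {G : Type*} [Group G] [Finite G] (A B : Subgroup G) [IsCyclic A] [IsCyclic B] (hAB : ∀ g : G, ∃ a ∈ A, ∃ b ∈ B, g = a * b) : Cfsg.IsSupersolvable G := by
  exact H1.ssol_top.1 (H1.ssol_of_cyc_mul _ rfl (H1.mulEq_top hAB) ‹IsCyclic A› ‹IsCyclic B›)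

end Cfsg.Agent.S0571
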