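import Cfsg.Statements.S0574
import Mathlib
import Cfsg.Agent.H1.KW

set_option autoImplicit false
open Cfsg

namespace Cfsg.Agent.S0574

/-- Let the finite group G be the product AB of an abelian subgroup A and a subgroup B of nilpotency class at most two, and let Ω be the number of prime factors, with multiplicity, of the order of the commutator subgroup of B. Then the term of index 2(1 + Ω) of the derived series of G is trivial. -/
theorem result {G : Type*} [Group G] [Finite G] (A B : Subgroup G) [IsMulCommutative A] (hB : commutator ↥B ≤ Subgroup.center ↥B) (hAB : ∀ g : G, ∃ a ∈ A, ∃ b ∈ B, g = a * b) : derivedSeries G (2 * (1 + (Nat.card ↥(commutator ↥B)).primeFactorsList.length)) = ⊥ := by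
  have hm := H1.mulEq_top hAB
  have hA : FT.Ab A := ‹IsMulCommutative A›
  have hn : FT.Nil B := (FT.clsLE_two'.2 (by
    rw [FT.der_eq_map, FT.center_eq_map]; exact Subgroup.map_mono hB)).nil
  have := H1.iter_der_ab_nil B hm (H1.kegel_wielandt hm hA.nil hn) hA hn
  rw [FT.der_eq_map B, FT.card_map_inj B.subtype_injective] at this
  rw [H1.derivedSeries_eq_iter]; exact this

end Cfsg.Agent.S0574
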