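import Cfsg.Statements.S0576
import Mathlib
import Cfsg.Agent.H1.Prim

set_option autoImplicit false
open Cfsg

namespace Cfsg.Agent.S0576

/-- Let H be a normal subgroup of a finite group G with H contained in the Frattini subgroup of G. Then the group of inner automorphisms of H is contained in the Frattini subgroup of the automorphism group of H. -/
theorem result {G : Type*} [Group G] [Finite G] (H : Subgroup G) [H.Normal] (hH : H ≤ frattini G) : (MulAut.conj : ↥H →* MulAut ↥H).range ≤ frattini (MulAut ↥H) := by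
  rw [frattini, Order.radical]
  refine le_iInf₂ fun M hM => ?_
  by_contra hc
  have hn : (MulAut.conj : H →* MulAut H).range.Normal := ⟨by
    rintro _ ⟨x, rfl⟩ σ
    exact ⟨σ x, MulEquiv.ext fun y => by simp⟩⟩
  have hs : (MulAut.conj : H →* MulAut H).range ⊔ M = ⊤ := hM.2 _ (right_lt_sup.2 hc)
  have hK : M.comap (MulAut.conjNormal : G →* MulAut H) = ⊤ := by
    refine frattini_nongenerating (top_le_iff.1 fun g _ => ?_)
    obtain ⟨_, ⟨x, rfl⟩, m, hm, e⟩ := (FT.mem_sup_norm (le_top.trans (FT.nml_top_iff.2 hn).nrm)).1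
      (hs.ge (Subgroup.mem_top (MulAut.conjNormal g)))
    have h1 : (x : G)⁻¹ * g ∈ M.comap (MulAut.conjNormal : G →* MulAut H) := by
      rw [Subgroup.mem_comap, map_mul, map_inv, e, MulAut.conjNormal_val, inv_mul_cancel_left]
      exact hm
    simpa using mul_mem (Subgroup.mem_sup_right (hH x.2)) (Subgroup.mem_sup_left h1)
  refine hc ?_
  rintro _ ⟨x, rfl⟩
  have : (x : G) ∈ M.comap (MulAut.conjNormal : G →* MulAut H) := hK ▸ Subgroup.mem_top _
  rwa [Subgroup.mem_comap, MulAut.conjNormal_val] at this

end Cfsg.Agent.S0576
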