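import Cfsg.Statements.S0577
import Mathlib
import Cfsg.Agent.H1.Prim

set_option autoImplicit false
open Cfsg

namespace Cfsg.Agent.S0577

/-- Let G be a finite minimal non-nilpotent group and Q a normal Sylow q-subgroup of G, and let D be the commutator subgroup of Q regarded in G (a normal subgroup). Then G modulo D is non-abelian and all its proper subgroups are abelian. -/
theorem result {G : Type*} [Group G] [Finite G] (hG : Cfsg.IsMinimalNonNilpotent G) (q : ℕ) [Fact q.Prime] (hq : q ∣ Nat.card G) (Q : Sylow q G) (hQ : (Q : Subgroup G).Normal) (D : Subgroup G) [D.Normal] (hD : D = (commutator ↥(Q : Subgroup G)).map (Q : Subgroup G).subtype) : ¬ IsMulCommutative (G ⧸ D) ∧ ∀ K : Subgroup (G ⧸ D), K ≠ ⊤ → IsMulCommutative K := by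
  obtain ⟨p, r, R, g, hp, hr, hpr, hR, hP, hsd, hc⟩ := H1.min_non_nil_structure hG.1 hG.2
  have hQs := FT.syl_top Fact.out Q
  have hQn : FT.Nml (Q : Subgroup G) ⊤ := FT.nml_top_iff.2 hQ
  rw [← FT.der_eq_map] at hD
  obtain rfl : q = r := by
    rw [← FT.card_top', hsd.card] at hq
    refine ((Nat.Prime.dvd_mul Fact.out).1 hq).elim (hR.pi.eq_prime Fact.out) fun h => ?_
    obtain rfl := hP.pi.eq_prime Fact.out h
    rw [hQs.uniq_of_nml hQn.nrm hP] at hc
    exact absurd (hQn.cents_of_cop hsd.nml (hQs.pi.cop_of_ne hR.pi hpr)) hc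
  obtain rfl := hQs.uniq_of_nml hQn.nrm hR
  refine ⟨fun hab => hc (FT.coprime_nil_cent_der hR.pi.nil (hR.pi.cop_of_ne hP.pi hpr.symm) ?_), fun K hK => ?_⟩
  · rw [← hD]
    exact (Subgroup.commutator_mono le_top le_top).trans (Subgroup.Normal.quotient_commutative_iff_commutator_le.1 hab)
  · have hne : K.comap (QuotientGroup.mk' D) ≠ ⊤ := fun e => hK (by
      rw [← Subgroup.map_comap_eq_self_of_surjective (QuotientGroup.mk'_surjective D) K, e,
        Subgroup.map_top_of_surjective _ (QuotientGroup.mk'_surjective D)])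
    have := H1.der_le_der_of_nil hsd hR.pi (hP.pi.p' hpr) (FT.ab_zpowers g) le_top (hG.2 _ hne)
    rw [← Subgroup.map_comap_eq_self_of_surjective (QuotientGroup.mk'_surjective D) K]
    refine FT.ab_iff_der.2 ?_
    rw [← Subgroup.map_commutator, Subgroup.map_eq_bot_iff, QuotientGroup.ker_mk']
    exact this.trans hD.ge

end Cfsg.Agent.S0577
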