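import Cfsg.Statements.S0581
import Mathlib
import Cfsg.Agent.H4.Ito

set_option autoImplicit false
open Pointwise
open Cfsg

namespace Cfsg.Agent.S0581

/-- Let H be a nilpotent subgroup of a finite group G whose order is coprime to its index, and K a subgroup every prime divisor of whose order divides the order of H. Then K lies in some conjugate of H. -/
theorem result {G : Type*} [Group G] [Finite G] (H K : Subgroup G) (hH : Group.IsNilpotent H) (hHall : (Nat.card H).Coprime H.index) (hK : ∀ p : ℕ, p.Prime → p ∣ Nat.card K → p ∣ Nat.card H) : ∃ x : G, K ≤ MulAut.conj x • H := by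
  obtain ⟨x, -, hx⟩ := H4.wielandt_nilpotent_hall K ⊤ H le_top le_top hH (by
    rw [Subgroup.relIndex_top_right, Nat.coprime_iff_gcd_eq_one]
    by_contra hne
    obtain ⟨r, hr, hrd⟩ := Nat.exists_prime_and_dvd hne
    exact hr.one_lt.ne' (Nat.eq_one_of_dvd_coprimes hHall
      (hK r hr (hrd.trans (Nat.gcd_dvd_left _ _))) (hrd.trans (Nat.gcd_dvd_right _ _))))
  exact ⟨x, hx⟩

end Cfsg.Agent.S0581
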