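import Cfsg.Statements.S0585
import Mathlib
import Cfsg.Agent.H1.Prim

set_option autoImplicit false
open Cfsg

namespace Cfsg.Agent.S0585

/-- If the Frattini subgroup of a finite group G is trivial, then every abelian normal subgroup of G has a complement in G. -/
theorem result {G : Type*} [Group G] [Finite G] (hΦ : frattini G = ⊥) (A : Subgroup G) [A.Normal] [IsMulCommutative A] : ∃ H : Subgroup G, Subgroup.IsComplement' A H := by
  obtain ⟨H, hH⟩ := H1.exists_sd_of_inf_Phi (FT.nml_top_iff.2 ‹A.Normal›) ‹_› (by rw [H1.Phi_top, hΦ, inf_bot_eq])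
  exact ⟨H, hH.isComplement'_top⟩

end Cfsg.Agent.S0585
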