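import Cfsg.Statements.S0586
import Mathlib
import Cfsg.Agent.H1.Prim

set_option autoImplicit false
open Cfsg

namespace Cfsg.Agent.S0586

/-- If the Frattini subgroup of a finite group G is trivial, then the Fitting subgroup of G equals the join of all abelian minimal normal subgroups of G. -/
theorem result {G : Type*} [Group G] [Finite G] (hΦ : frattini G = ⊥) : Cfsg.fittingSubgroup G = sSup {N : Subgroup G | N.Normal ∧ N ≠ ⊥ ∧ IsMulCommutative N ∧ ∀ K : Subgroup G, K.Normal → K ≤ N → K = ⊥ ∨ K = N} := by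
  rw [← FT.fitting_top]
  have hle : sSup {N : Subgroup G | N.Normal ∧ N ≠ ⊥ ∧ IsMulCommutative N ∧
      ∀ K : Subgroup G, K.Normal → K ≤ N → K = ⊥ ∨ K = N} ≤ fittingOf ⊤ :=
    sSup_le fun N hN => FT.Ab.le_fitting hN.2.2.1 (FT.nml_top_iff.2 hN.1)
  refine le_antisymm (H1.fitting_le_of_Phi (by rw [H1.Phi_top, hΦ]) ⟨le_top, ?_⟩ hle fun N hN _ hab =>
    le_sSup ⟨FT.nml_top_iff.1 ⟨le_top, hN.nrm⟩, hN.ne, hab, H1.minNml_top_min hN⟩) hle
  rw [sSup_eq_iSup']
  exact FT.norms_iSup fun N => (FT.nml_top_iff.2 N.2.1).nrm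

end Cfsg.Agent.S0586
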