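import Cfsg.Statements.S0587
import Mathlib
import Cfsg.Agent.H1.Prim

set_option autoImplicit false
open Cfsg

namespace Cfsg.Agent.S0587

/-- Let G be a finite group whose largest normal p-subgroup L is nontrivial, and M a maximal subgroup of G with trivial normal core. Then L is elementary abelian, M is a complement to L, L is a minimal normal subgroup of G, the centralizer of L is L, and for every prime q such that the largest normal q-subgroup of M is nontrivial, the order of L is congruent to 1 modulo q and q ≠ p. -/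
theorem result {G : Type*} [Group G] [Finite G] (p : ℕ) [Fact p.Prime] (hL : Cfsg.pCore p G ≠ ⊥) (M : Subgroup G) (hM : IsCoatom M) (hcore : M.normalCore = ⊥) : Cfsg.IsElementaryAbelian p (Cfsg.pCore p G) ∧ Subgroup.IsComplement' (Cfsg.pCore p G) M ∧ (∀ K : Subgroup G, K.Normal → K ≤ Cfsg.pCore p G → K = ⊥ ∨ K = Cfsg.pCore p G) ∧ Subgroup.centralizer ((Cfsg.pCore p G : Subgroup G) : Set G) = Cfsg.pCore p G ∧ ∀ (q : ℕ) [Fact q.Prime], Cfsg.pCore q ↥M ≠ ⊥ → Nat.card (Cfsg.pCore p G) % q = 1 % q ∧ q ≠ p := by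
  have h := H1.coreFree_top hM hcore
  have hp : p.Prime := Fact.out
  have e : piCoreOf {p} (⊤ : Subgroup G) = pCore p G := by rw [FT.pcore_top, FT.piCore_singleton hp]
  have hn := FT.pcore_nml {p} (⊤ : Subgroup G)
  have hP := FT.pcore_pi {p} (⊤ : Subgroup G)
  rw [e] at hn hP
  obtain ⟨h1, h2, h3, h4⟩ := h.nil_nml hn hP.nil hL
  obtain ⟨r, hr, hab⟩ := h2.abelem hP.sol
  obtain rfl := (hab.pGrp hr).eq_of_pgrp hP hL
  refine ⟨hab, h3.isComplement'_top, H1.minNml_top_min h2, by rwa [top_inf_eq] at h4, fun q hq hQ => ?_⟩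
  have hQ1 : piCoreOf {q} M ≠ ⊥ := by
    rw [FT.pcore_singleton hq.out, Ne, Subgroup.map_eq_bot_iff_of_injective _ M.subtype_injective]
    exact hQ
  have hc := h.inf_cen hn hP.nil hL (FT.pcore_nml {q} M) hQ1
  have hm := H4.card_modEq_card_inf_centralizer (FT.pcore_pi {q} M).isPGroup (le_top.trans hn.nrm)
  rw [hc, Subgroup.card_bot] at hm
  refine ⟨hm, ?_⟩
  rintro rfl
  exact hr.one_lt.ne' (Nat.dvd_one.1 ((hm.dvd_iff dvd_rfl).1 (hP.dvd hL)))

end Cfsg.Agent.S0587
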