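import Cfsg.Statements.S0588
import Mathlib
import Cfsg.Agent.H1.Prim

set_option autoImplicit false
open Cfsg

namespace Cfsg.Agent.S0588

/-- If a subgroup H of a finite group G contains the centralizer of every non-identity element of H, then the order of H is coprime to its index. -/
theorem result {G : Type*} [Group G] [Finite G] (H : Subgroup G) (h : ∀ x ∈ H, x ≠ 1 → Subgroup.centralizer ({x} : Set G) ≤ H) : (Nat.card H).Coprime H.index := by
  have := (H1.isHall_of_cen1_le le_top fun x hx h1 => inf_le_right.trans (h x hx h1)).cop
  rwa [Subgroup.relIndex_top_right] at this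

end Cfsg.Agent.S0588
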