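import Cfsg.Statements.S0589
import Mathlib
import Cfsg.Agent.H1.Prim

set_option autoImplicit false
open Pointwise
open Cfsg

namespace Cfsg.Agent.S0589

/-- Let H be a Frobenius complement in a finite group G and L a subgroup of G whose order divides the order of H. Then L is contained in some conjugate of H. -/
theorem result {G : Type*} [Group G] [Finite G] (H : Subgroup G) (hH : Cfsg.IsFrobeniusComplement H) (L : Subgroup G) (hL : Nat.card L ∣ Nat.card H) : ∃ x : G, L ≤ MulAut.conj x • H := by
  obtain ⟨K, -, -, hK⟩ := H5b.exists_frob_of_compl hH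
  obtain ⟨x, -, h⟩ := hK.sd.subJ (le_top : L ≤ ⊤) (Nat.Coprime.coprime_dvd_right hL hK.cop)
    (.inl (H5b.frob_ker_nil hK).sol)
  exact ⟨x, h⟩

end Cfsg.Agent.S0589
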