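import Cfsg.Statements.S0590
import Mathlib
import Cfsg.Agent.H5.PLen

set_option autoImplicit false
open Cfsg

namespace Cfsg.Agent.S0590

open Subgroup Cfsg.Agent.H18 Cfsg.Agent.H22 Cfsg.Agent.H5b
open scoped commutatorElement

/-- Quadratic action on an elementary abelian p-group forces the acting group modulo the kernel of the action to be elementary abelian. -/
theorem result {G : Type*} [Group G] [Finite G] {p : ℕ} [Fact p.Prime] (V H : Subgroup G) (hV : Cfsg.IsElementaryAbelian p V) (hHV : H ≤ Subgroup.normalizer (V : Set G)) (hq : ⁅⁅V, H⁆, H⁆ = ⊥) : ⁅H, H⁆ ≤ Subgroup.centralizer (V : Set G) ∧ ∀ a ∈ H, a ^ p ∈ Subgroup.centralizer (V : Set G) := by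
  obtain ⟨hVC, hVp⟩ := elemAb_iff.1 hV
  constructor
  · rw [le_C_iff_comm, eq_bot_iff]
    refine three_subgroups (le_N_of_normal _ _) (le_N_of_normal _ _) (le_N_of_normal _ _) ?_ hq.le
    rw [commutator_comm H V]; exact hq.le
  · intro a ha
    rw [mem_C]
    intro v hv
    have h1 : Commute a ⁅a, v⁆ := by
      have h2 : ⁅a, v⁆ ∈ ⁅V, H⁆ := by rw [commutator_comm]; exact commutator_mem_commutator ha hv
      exact (mem_C.1 (le_C_iff_comm'.2 hq ha) _ h2).symm
    have h3 := H3.comm_pow_left h1 p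
    rw [hVp _ (H3.comm_mem_of_mem_normalizer_left (hHV ha) hv),
      commutatorElement_eq_one_iff_mul_comm] at h3
    exact h3.symm

end Cfsg.Agent.S0590
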