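import Cfsg.Statements.S0591
import Mathlib
import Cfsg.Agent.H5.PLen

set_option autoImplicit false
open Cfsg

namespace Cfsg.Agent.S0591

open Subgroup Cfsg.Agent.H18 Cfsg.Agent.H22 Cfsg.Agent.H5b
open scoped commutatorElement

/-- For a quadratically acting element a on an elementary abelian p-group V, the fixed points C_V(a) have order at least the square root of the order of V. -/
theorem result {G : Type*} [Group G] [Finite G] {p : ℕ} [Fact p.Prime] (V : Subgroup G) (hV : Cfsg.IsElementaryAbelian p V) (a : G) (ha : a ∈ Subgroup.normalizer (V : Set G)) (hq : ⁅⁅V, Subgroup.zpowers a⁆, Subgroup.zpowers a⁆ = ⊥) : Nat.card V ≤ Nat.card ↥(V ⊓ Subgroup.centralizer (Subgroup.zpowers a : Set G)) ^ 2 := by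
  obtain ⟨hVC, hVp⟩ := elemAb_iff.1 hV
  have hmem : ∀ v ∈ V, ⁅v, a⁆ ∈ V ⊓ C[zpowers a] := fun v hv =>
    ⟨H3.comm_mem_of_mem_normalizer_right ha hv,
      le_C_iff_comm.2 hq (commutator_mem_commutator hv (mem_zpowers a))⟩
  let φ : V →* ↥(V ⊓ C[zpowers a]) := MonoidHom.mk' (fun v => ⟨⁅(v : G), a⁆, hmem v v.2⟩)
    (fun x y => Subtype.ext (by
      show ⁅(x : G) * y, a⁆ = ⁅(x : G), a⁆ * ⁅(y : G), a⁆
      rw [H3.comm_mul_left_of_commute (mem_C.1 (hVC (hmem y y.2).1) _ x.2)]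
      exact mem_C.1 (hVC (hmem x x.2).1) _ (hmem y y.2).1))
  have h1 : Nat.card φ.ker ≤ Nat.card ↥(V ⊓ C[zpowers a]) := by
    rw [← H1.card_map_subtype]
    apply card_le_of_le
    rintro _ ⟨x, hx, rfl⟩
    refine ⟨x.2, ?_⟩
    rw [C_zpowers]
    exact mem_centralizer_singleton_iff.2
      (commutatorElement_eq_one_iff_mul_comm.1 (congrArg Subtype.val hx))
  have h2 : φ.ker.index ≤ Nat.card ↥(V ⊓ C[zpowers a]) := by
    rw [index_ker]
    exact card_le_card_group _
  rw [← card_mul_index φ.ker, sq]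
  exact Nat.mul_le_mul h1 h2

end Cfsg.Agent.S0591
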