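import Cfsg.Statements.S0592
import Mathlib
import Cfsg.Agent.H5.QdFree2

set_option autoImplicit false
open Cfsg

namespace Cfsg.Agent.S0592

open Subgroup Cfsg.Agent.H18 Cfsg.Agent.H22 Cfsg.Agent.H5b
open scoped commutatorElement

open Polynomial in
theorem exists_eigen {K : Type*} [Field K] [Fintype K] {p : ℕ} [Fact p.Prime] [CharP K p]
    {W : Type*} [AddCommGroup W] [Module K W] [FiniteDimensional K W] [Nontrivial W]
    {x : Module.End K W} {e k : ℕ} (hx : x ^ (p ^ e * k) = 1) (hk : k ∣ Fintype.card K - 1)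
    (hn : ¬ IsNilpotent (x - 1)) : ∃ (c : K) (v : W), c ≠ 1 ∧ v ≠ 0 ∧ x v = c • v := by
  have hq : 0 < Fintype.card K - 1 := Nat.sub_pos_of_lt Fintype.one_lt_card
  haveI : CharP (Module.End K W) p :=
    charP_of_injective_algebraMap (algebraMap K (Module.End K W)).injective p
  have h1 : minpoly K x ∣ (X ^ Fintype.card K - X) ^ p ^ e := by
    refine minpoly.dvd K x ?_
    obtain ⟨m, hm⟩ := hk
    have h2 : Fintype.card K = k * m + 1 := by omega
    rw [map_pow, map_sub, map_pow, aeval_X,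
      sub_pow_char_pow_of_commute p _ ((Commute.refl x).pow_left _), ← pow_mul, h2, add_mul,
      pow_add, mul_right_comm, mul_comm k, pow_mul, hx, one_pow, one_mul, one_mul, sub_self]
  have h0 : (X ^ Fintype.card K - X : K[X]) ≠ 0 :=
    FiniteField.X_pow_card_sub_X_ne_zero K Fintype.one_lt_card
  have h2 : (X ^ Fintype.card K - X : K[X]).Splits := by
    simpa using (FiniteField.isSplittingField_sub K K).splits
  have hm := minpoly.ne_zero (Algebra.IsIntegral.isIntegral (R := K) x)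
  obtain ⟨g, hg, hX⟩ := exists_eq_pow_rootMultiplicity_mul_and_not_dvd _ hm (1 : K)
  have hgm : g ∣ minpoly K x := hg ▸ dvd_mul_left _ _
  have hs : g.Splits := (h2.pow _).of_dvd (pow_ne_zero _ h0) (hgm.trans h1)
  have hgu : g.degree ≠ 0 := fun hu => by
    obtain ⟨c, hc, rfl⟩ := Polynomial.isUnit_iff.mp (isUnit_iff_degree_eq_zero.mpr hu)
    have := minpoly.aeval K x
    rw [hg, map_mul, map_pow, map_sub, aeval_X, aeval_C, aeval_C, map_one] at this
    exact hn ⟨_, (IsUnit.mul_left_eq_zero (hc.map _)).mp this⟩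
  obtain ⟨c, hc⟩ := hs.exists_eval_eq_zero hgu
  obtain ⟨v, hv⟩ := (Module.End.hasEigenvalue_of_isRoot
    (IsRoot.dvd (show g.IsRoot c from hc) hgm)).exists_hasEigenvector
  exact ⟨c, v, fun h => hX (dvd_iff_isRoot.mpr (h ▸ hc)), hv.2, hv.apply_eq_smul⟩

/-- Two quadratically acting generators of a linear group that is not a p-group, with the p'-part of the order of their product dividing q - 1, give a homomorphism onto a subgroup of SL(2, q) that is not a p-group. -/
theorem result {K : Type*} [Field K] [Fintype K] {p : ℕ} [Fact p.Prime] [CharP K p] {W : Type*} [AddCommGroup W] [Module K W] [FiniteDimensional K W] [Finite W] [Nontrivial W] (H : Subgroup (W ≃ₗ[K] W)) (a b : W ≃ₗ[K] W) (hH : H = Subgroup.closure {a, b}) (ha : ∀ w : W, a (a w - w) = a w - w) (hb : ∀ w : W, b (b w - w) = b w - w) (hnp : ¬ IsPGroup p H) (hk : ∃ e k : ℕ, orderOf (a * b) = p ^ e * k ∧ k ∣ Fintype.card K - 1) : ∃ φ : H →* Matrix.SpecialLinearGroup (Fin 2) K, ¬ IsPGroup p φ.range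 := by
  subst hH
  let ρ : (W ≃ₗ[K] W) →* Module.End K W := LinearEquiv.automorphismGroup.toLinearMapMonoidHom
  have hρ : Function.Injective ρ := fun _ _ h => LinearEquiv.toLinearMap_injective h
  have hq : ∀ a : W ≃ₗ[K] W, (∀ w : W, a (a w - w) = a w - w) → Quad ρ a := fun a ha =>
    LinearMap.ext fun w => sub_eq_zero.mpr (ha w)
  have ha' := hq a ha
  have hb' := hq b hb
  have hσ : (ρ a - 1) * (ρ b - 1) + (ρ b - 1) * (ρ a - 1) = ρ (a * b) + ρ (a * b)⁻¹ - 2 := by
    rw [mul_inv_rev, map_mul, map_mul, ha'.map_inv, hb'.map_inv, ← one_add_one_eq_two]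
    noncomm_ring
  have hi : ρ (a * b)⁻¹ * ρ (a * b) = 1 := by rw [← map_mul, inv_mul_cancel, map_one]
  obtain ⟨e, k, hek, hk⟩ := hk
  obtain ⟨c, v, hc1, hv, hxv⟩ := exists_eigen (x := ρ (a * b)) (p := p) (e := e)
    (by rw [← map_pow, ← hek, pow_orderOf_eq_one, map_one]) hk fun h => by
      refine hnp (isPGroup_closure_of_nilpotent hρ ha' hb' ?_)
      have h1 : ρ (a * b) + ρ (a * b)⁻¹ - 2 = (ρ (a * b)⁻¹ * (ρ (a * b) - 1)) * (ρ (a * b) - 1) := by
        rw [mul_sub (ρ (a * b)⁻¹), hi, sub_mul, mul_one, mul_sub (ρ (a * b)⁻¹), hi,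
          ← one_add_one_eq_two]
        noncomm_ring
      rw [hσ, h1]
      refine Commute.isNilpotent_mul_left (Commute.mul_left ?_ (Commute.refl _)) h
      exact Commute.sub_right ((Commute.refl (a * b)).inv_left.map ρ) (Commute.one_right _)
  have h1 : c • ρ (a * b)⁻¹ v = v := by
    rw [← map_smul, ← hxv, ← Module.End.mul_apply, hi, Module.End.one_apply]
  have hc0 : c ≠ 0 := by
    rintro rfl
    exact hv (by rw [← h1, zero_smul])
  have h2 : ρ (a * b)⁻¹ v = c⁻¹ • v := by rw [eq_inv_smul_iff₀ hc0, h1]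
  have h3 : ((ρ a - 1) * (ρ b - 1) + (ρ b - 1) * (ρ a - 1)) v = (c + c⁻¹ - 2) • v := by
    rw [hσ, LinearMap.sub_apply, LinearMap.add_apply, hxv, h2, sub_smul, add_smul, two_smul,
      ← one_add_one_eq_two, LinearMap.add_apply, Module.End.one_apply]
  have hs : c + c⁻¹ - 2 ≠ 0 := fun h => by
    have : (c - 1) ^ 2 = 0 := by
      have h4 := mul_inv_cancel₀ hc0
      linear_combination c * h - h4
    exact hc1 (sub_eq_zero.mp (pow_eq_zero_iff two_ne_zero |>.mp this))
  obtain ⟨ι, hι, h4, h5⟩ := exists_plane_of ha' hb' (Polynomial.aeval (c + c⁻¹ - 2))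
    (fun x => ⟨Polynomial.C x, by simp⟩) (by simpa using hs) hv fun q hq => by
      rw [Module.End.aeval_apply_of_hasEigenvector ⟨Module.End.mem_eigenspace_iff.mpr h3, hv⟩,
        ← Polynomial.coe_aeval_eq_eval, hq, zero_smul]
  obtain ⟨φ, -, h6, h7⟩ := exists_hom_of_plane hι h4 h5
  exact ⟨φ, not_isPGroup_of_mem (p := p) (by simpa using hs) ⟨_, h6⟩ ⟨_, h7⟩⟩

end Cfsg.Agent.S0592
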