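import Cfsg.Statements.S0594
import Mathlib
import Cfsg.Agent.H5.QdFree2

set_option autoImplicit false
open Cfsg

namespace Cfsg.Agent.S0594

open Subgroup Cfsg.Agent.H18 Cfsg.Agent.H22 Cfsg.Agent.H5b
open scoped commutatorElement

/-- For odd p, two quadratic generators of a faithful group that is not a p-group, one of which acts nontrivially on a normal subgroup of order prime to p, force p = 3 and a section isomorphic to SL(2,3). -/
theorem result {G : Type*} [Group G] [Finite G] {p : ℕ} [Fact p.Prime] (hp : p ≠ 2) (V H : Subgroup G) (hV : Cfsg.IsElementaryAbelian p V) (hHV : H ≤ Subgroup.normalizer (V : Set G)) (hf : H ⊓ Subgroup.centralizer (V : Set G) = ⊥) (a b : G) (hab : H = Subgroup.closure {a, b}) (ha : ⁅⁅V, Subgroup.zpowers a⁆, Subgroup.zpowers a⁆ = ⊥) (hb : ⁅⁅V, Subgroup.zpowers b⁆, Subgroup.zpowers b⁆ = ⊥) (hnp : ¬ IsPGroup p H) (Q : Subgroup G) (hQH : Q ≤ H) (hQn : H ≤ Subgroup.normalizer (Q : Set G)) (hQ : (Nat.card Q).Coprime p) (hQa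 : ⁅Q, Subgroup.zpowers a⁆ ≠ ⊥) : p = 3 ∧ ∃ (K L : Subgroup G) (hL : (L.subgroupOf K).Normal), K ≤ H ∧ Nonempty ((K ⧸ L.subgroupOf K) ≃* Matrix.SpecialLinearGroup (Fin 2) (ZMod 3)) := by
  subst hab
  have h3 : p = 3 := by
    obtain ⟨W, _, _, r, hr⟩ := exists_faithful_rep hV hHV hf
    haveI := normal_subgroupOf_of_le_N hQn
    refine (quad_coprime hp (ConjRep.char_zero (p := p) (W := W)) hr
      (r.quad_of (h := ⟨a, subset_closure (by simp)⟩) ha) (Q := Q.subgroupOf _) ?_ ?_ ?_).1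
    · rwa [Nat.card_congr (subgroupOfEquivOfLe hQH).toEquiv]
    · exact mem_N_of_normal _ _
    · rw [C_subgroupOf hQH]
      exact fun h => hQa (le_C_iff_comm'.mp (zpowers_le.mpr h))
  subst h3
  exact ⟨rfl, exists_section_le_of_involves (involves_SL2_of_pair hp hV hHV hf ha hb hnp)⟩

end Cfsg.Agent.S0594
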