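import Cfsg.Statements.S0601
import Mathlib
import Cfsg.Agent.H5.PLen
import Cfsg.Agent.S0600

set_option autoImplicit false
open Cfsg

namespace Cfsg.Agent.S0601

open Subgroup Cfsg.Agent.H18 Cfsg.Agent.H22 Cfsg.Agent.H5b
open scoped commutatorElement

/-- When O_p(G) contains its centralizer, the normal closure of Ω₁(Z(S)) is elementary abelian and G has no nontrivial normal p-subgroup modulo its centralizer. -/
theorem result {G : Type*} [Group G] [Finite G] {p : ℕ} [Fact p.Prime] (hc : Subgroup.centralizer (Cfsg.pCore p G : Set G) ≤ Cfsg.pCore p G) : (⨆ S : Sylow p G, Cfsg.omegaOne p (((S : Subgroup G)) ⊓ Subgroup.centralizer ((S : Subgroup G) : Set G))).Normal ∧ Cfsg.IsElementaryAbelian p (⨆ S : Sylow p G, Cfsg.omegaOne p (((S : Subgroup G)) ⊓ Subgroup.centralizer ((S : Subgroup G) : Set G))) ∧ ∀ D : Subgroup G, D.Normal → Subgroup.centralizer ((⨆ S : Sylow p G, Cfsg.omegaOne p (((S : Subgroup G)) ⊓ Subgroup.centralizer ((S : Subgroup G) : Set G)) : Subgroup G) : Set G) ≤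 D → (∃ k : ℕ, (Subgroup.centralizer ((⨆ S : Sylow p G, Cfsg.omegaOne p (((S : Subgroup G)) ⊓ Subgroup.centralizer ((S : Subgroup G) : Set G)) : Subgroup G) : Set G)).relIndex D = p ^ k) → D = Subgroup.centralizer ((⨆ S : Sylow p G, Cfsg.omegaOne p (((S : Subgroup G)) ⊓ Subgroup.centralizer ((S : Subgroup G) : Set G)) : Subgroup G) : Set G) := by
  set V := ⨆ S : Sylow p G, omegaOne p ((S : Subgroup G) ⊓ C[(S : Subgroup G)]) with hV
  have hn : V.Normal := by
    rw [normal_iff_top_le_N, le_N_iff_cj]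
    intro g _
    rw [hV, cj_iSup]
    refine iSup_le fun S => ?_
    rw [cj_omegaOne, cj_inf, cj_C]
    exact le_iSup (fun S : Sylow p G => omegaOne p ((S : Subgroup G) ⊓ C[(S : Subgroup G)]))
      (g • S)
  have hle : V ≤ omegaOneCenter p (pCore p G) := iSup_le fun S =>
    omegaOne_mono (le_inf (inf_le_right.trans ((C_anti (pCore_le_sylow S)).trans hc))
      (inf_le_right.trans (C_anti (pCore_le_sylow S))))
  have he : IsElementaryAbelian p V := elemAb_le (elemAb_omegaOneCenter _) hle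
  refine ⟨hn, he, fun D hD hCD ⟨k, hk⟩ => le_antisymm ?_ hCD⟩
  have h1 := S0600.result V he (le_antisymm (iSup_le fun S => le_trans
    (le_inf (le_iSup (fun S : Sylow p G => omegaOne p ((S : Subgroup G) ⊓ C[(S : Subgroup G)])) S)
      ((omegaOne_le _).trans inf_le_right))
      (le_iSup (fun S : Sylow p G => V ⊓ C[(S : Subgroup G)]) S)) (iSup_le fun _ => inf_le_left))
  rw [← H1.map_mk_eq_bot_iff, eq_bot_iff, ← h1]
  exact H22.le_pCore (hD.map _ (QuotientGroup.mk'_surjective _))
    (IsPGroup.of_card (by rw [H1.card_map_mk, hk]))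

end Cfsg.Agent.S0601
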