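import Cfsg.Statements.S0602
import Mathlib
import Cfsg.Agent.H5.ZJ

set_option autoImplicit false
open Cfsg

namespace Cfsg.Agent.S0602

open Subgroup Cfsg.Agent.H18 Cfsg.Agent.H22 Cfsg.Agent.H5b
open scoped commutatorElement

/-- The Thompson subgroup is characteristic, and nontrivial as soon as p divides the group order. -/
theorem result {G : Type*} [Group G] [Finite G] {p : ℕ} [Fact p.Prime] : (Cfsg.thompsonSubgroup p G).Characteristic ∧ (p ∣ Nat.card G → Cfsg.thompsonSubgroup p G ≠ ⊥) := by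
  rw [← Jn_top]
  refine ⟨(isFn_Jn p).characteristic ⊤, fun hd h => ?_⟩
  obtain ⟨x, hx⟩ := exists_prime_orderOf_dvd_card' p hd
  have h1 := mem_Jn_of_C (n := p) (mem_top x) (hx ▸ pow_orderOf_eq_one x)
    (by rw [h]; exact le_centralizer_iff.1 bot_le (mem_top x))
  rw [h, mem_bot] at h1
  rw [h1, orderOf_one] at hx
  exact (Fact.out : p.Prime).one_lt.ne hx

end Cfsg.Agent.S0602
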