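import Cfsg.Statements.S0604
import Mathlib
import Cfsg.Agent.H5.ZJ

set_option autoImplicit false
open Cfsg

namespace Cfsg.Agent.S0604

open Subgroup Cfsg.Agent.H18 Cfsg.Agent.H22 Cfsg.Agent.H5b
open scoped commutatorElement

/-- The Thompson subgroup of G is the join of the Thompson subgroups of its Sylow p-subgroups. -/
theorem result {G : Type*} [Group G] [Finite G] {p : ℕ} [Fact p.Prime] : Cfsg.thompsonSubgroup p G = ⨆ S : Sylow p G, Cfsg.thompsonSubgroupOf p (S : Subgroup G) := by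
  rw [← Jn_top]
  apply le_antisymm
  · rw [Jn_le_iff]
    intro A hA
    obtain ⟨S, hS⟩ := (elemAb_pgrp hA.ab).exists_le_sylow
    refine le_trans ?_ (le_iSup _ S)
    rw [thompsonOf_eq_Jn]
    exact (hA.mono le_top hS).le_Jn
  · refine iSup_le fun S => ?_
    obtain ⟨A, hA⟩ := exists_maxAb p (⊤ : Subgroup G)
    obtain ⟨g, -, hg⟩ := syl_exists_cj_le (sylIn_top S) le_top (elemAb_pgrp hA.ab)
    have h1 := hA.cj g
    rw [cj_eq_of_normal] at h1
    rw [thompsonOf_eq_Jn]
    exact h1.Jn_le le_top hg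

end Cfsg.Agent.S0604
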