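import Cfsg.Statements.S0607
import Mathlib
import Cfsg.Agent.H22.FF

set_option autoImplicit false
open Cfsg

namespace Cfsg.Agent.S0607

/-- The replacement Theorem for the Thompson subgroup: from A of maximal order among elementary abelian p-subgroups one obtains A₀ = [V, A] C_A([V, A]) of the same kind, quadratic on V and nontrivial on V when A is. -/
theorem result {G : Type*} [Group G] [Finite G] {p : ℕ} [Fact p.Prime] (V : Subgroup G) [V.Normal] (hV : Cfsg.IsElementaryAbelian p V) (A : Subgroup G) (hA : A ∈ Cfsg.maxElementaryAbelianSubgroups p G) : (⁅V, A⁆ ⊔ (A ⊓ Subgroup.centralizer ((⁅V, A⁆ : Subgroup G) : Set G))) ∈ Cfsg.maxElementaryAbelianSubgroups p G ∧ ⁅⁅V, ⁅V, A⁆ ⊔ (A ⊓ Subgroup.centralizer ((⁅V, A⁆ : Subgroup G) : Set G))⁆, ⁅V, A⁆ ⊔ (A ⊓ Subgroup.centralizer ((⁅V, A⁆ : Subgroup G) : Set G))⁆ = ⊥ ∧ (⁅V, A⁆ ≠ ⊥ → ⁅V, ⁅V, A⁆ ⊔ (A ⊓ Subgroup.centralizer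 ((⁅V, A⁆ : Subgroup G) : Set G))⁆ ≠ ⊥) := by
  open Subgroup Cfsg.Agent.FT Cfsg.Agent.P22 in
  open scoped commutatorElement Pointwise in
  have hn : ∀ X : Subgroup G, X ≤ N(V) := fun X => (nml_top_iff.2 inferInstance).nrm.trans' le_top
  obtain ⟨h1, -, h3⟩ := maxAb_repl (H5b.maxAb_top_iff.2 hA) Fact.out hV le_top (hn A) le_rfl
  have hab := Abelem.ab hV
  have hVA : ⁅V, A⁆ ≤ V := comm_le_left (hn A)
  have e : ⁅V, ⁅V, A⁆ ⊔ A ⊓ C(⁅V, A⁆)⁆ = ⁅V, A ⊓ C(⁅V, A⁆)⁆ := by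
    rw [comm_sup_ab' (hn _) (hn _), comm_eq_bot.2 (hab.cents hVA le_rfl), bot_sup_eq]
  refine ⟨H5b.maxAb_top_iff.1 h1, ?_, e ▸ h3⟩
  rw [e]
  exact comm_eq_bot'.2 ((sup_le (hab.cents hVA hVA) inf_le_right).trans (cen_anti (commSS le_rfl inf_le_left)))

end Cfsg.Agent.S0607
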