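import Cfsg.Statements.S0617
import Mathlib
import Cfsg.Agent.H22.FF

set_option autoImplicit false
open Cfsg

namespace Cfsg.Agent.S0617

/-- Structure Theorem for failure of factorization: a faithful group generated by best offenders, with self-centralizing p'-core, is a direct product of copies of SL(2, p) (p = 2 or 3), each acting on its own plane in V, which is the direct product of these planes and C_V(H). -/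
theorem result {G : Type*} [Group G] [Finite G] {p : ℕ} [Fact p.Prime] (V H : Subgroup G) (hV : Cfsg.IsElementaryAbelian p V) (hHV : H ≤ Subgroup.normalizer (V : Set G)) (hf : H ⊓ Subgroup.centralizer (V : Set G) = ⊥) (hS1 : Subgroup.centralizer (Cfsg.pPrimeCore p ↥H : Set ↥H) ≤ Cfsg.pPrimeCore p ↥H) (hS3 : H = ⨆ A : {A : Subgroup G // A ≤ H ∧ Cfsg.IsBestOffenderOn p V A}, (A : Subgroup G)) (hH1 : H ≠ ⊥) : (p = 2 ∨ p = 3) ∧ (∀ E : {E : Subgroup G // ∃ A : Subgroup G, A ≤ H ∧ Cfsg.IsBestOffenderOn p V A ∧ ⁅V, A⁆ ≠ ⊥ ∧ (∀ B : Subgroup G, B ≤ A → Cfsg.IsBestOffenderOn p V B → ⁅V, B⁆ ≠ ⊥ → B = A) ∧ E = ⁅((Cfsg.pPrimeCore p ↥H).map H.subtype), A⁆ ⊔ A}, H ≤ Subgroup.normalizer ((E : Subgroup G) : Set G) ∧ Nonempty (↥(E : Subgroup G) ≃* Matrix.SpecialLinearGroup (Fin 2) (ZMod p)) ∧ Nat.card ↥(⁅V, (E : Subgroup G)⁆) = p ^ 2) ∧ iSupIndep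 (fun E : {E : Subgroup G // ∃ A : Subgroup G, A ≤ H ∧ Cfsg.IsBestOffenderOn p V A ∧ ⁅V, A⁆ ≠ ⊥ ∧ (∀ B : Subgroup G, B ≤ A → Cfsg.IsBestOffenderOn p V B → ⁅V, B⁆ ≠ ⊥ → B = A) ∧ E = ⁅((Cfsg.pPrimeCore p ↥H).map H.subtype), A⁆ ⊔ A} => (E : Subgroup G)) ∧ (⨆ E : {E : Subgroup G // ∃ A : Subgroup G, A ≤ H ∧ Cfsg.IsBestOffenderOn p V A ∧ ⁅V, A⁆ ≠ ⊥ ∧ (∀ B : Subgroup G, B ≤ A → Cfsg.IsBestOffenderOn p V B → ⁅V, B⁆ ≠ ⊥ → B = A) ∧ E = ⁅((Cfsg.pPrimeCore p ↥H).map H.subtype), A⁆ ⊔ A}, (E : Subgroup G)) = H ∧ iSupIndep (fun o : Option {E : Subgroup G // ∃ A : Subgroup G, A ≤ H ∧ Cfsg.IsBestOffenderOn p V A ∧ ⁅V, A⁆ ≠ ⊥ ∧ (∀ B : Subgroup G, B ≤ A → Cfsg.IsBestOffenderOn p V B → ⁅V, B⁆ ≠ ⊥ → B = A) ∧ E = ⁅((Cfsg.pPrimeCore p ↥H).map H.subtype), A⁆ ⊔ A} => o.elim (V ⊓ Subgroup.centralizer (H : Set G)) (fun E => ⁅V, (E : Subgroup G)⁆)) ∧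 (V ⊓ Subgroup.centralizer (H : Set G)) ⊔ (⨆ E : {E : Subgroup G // ∃ A : Subgroup G, A ≤ H ∧ Cfsg.IsBestOffenderOn p V A ∧ ⁅V, A⁆ ≠ ⊥ ∧ (∀ B : Subgroup G, B ≤ A → Cfsg.IsBestOffenderOn p V B → ⁅V, B⁆ ≠ ⊥ → B = A) ∧ E = ⁅((Cfsg.pPrimeCore p ↥H).map H.subtype), A⁆ ⊔ A}, ⁅V, (E : Subgroup G)⁆) = V := by
  open Subgroup Cfsg.Agent.FT Cfsg.Agent.P22 in
  open scoped commutatorElement Pointwise in
  have h := ffs_of hV hHV hf hS1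
  have hg := h.tGen' hS3
  obtain ⟨A₀, hA₀, t₀⟩ := FFS.exists_trv hg hH1
  generalize (pPrimeCore p H).map H.subtype = F at h ⊢
  have mk : ∀ A, A ≤ H → Trv p V A → ∃ A' : Subgroup G, A' ≤ H ∧ IsBestOffenderOn p V A' ∧ ⁅V, A'⁆ ≠ ⊥ ∧
      (∀ B : Subgroup G, B ≤ A' → IsBestOffenderOn p V B → ⁅V, B⁆ ≠ ⊥ → B = A') ∧ ⁅F, A⁆ ⊔ A = ⁅F, A'⁆ ⊔ A' :=
    fun A hA t => have m := t.minO h.prime h.hV.ab (hA.trans hHV); ⟨A, hA, m.1, m.2.1, m.2.2, rfl⟩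
  refine ⟨h.two_or_three hA₀ t₀, ?_, ?_, ?_, ?_, ?_⟩
  · rintro ⟨_, A, hA, h1, h2, h3, rfl⟩
    have t := h.trv_of_min hA ⟨h1, h2, h3⟩
    exact ⟨(h.E_nml hg hA t).nrm, h.E_iso hA t, h.card_W hA t⟩
  · rintro ⟨_, A, hA, h1, h2, h3, rfl⟩
    have t := h.trv_of_min hA ⟨h1, h2, h3⟩
    refine disjoint_iff.2 (inf_eq_bot_mono (h.E_faithful hA t) le_rfl (iSup₂_le ?_))
    rintro ⟨_, B, hB, k1, k2, k3, rfl⟩ hne
    exact centsC (h.pair hA t hB (h.trv_of_min hB ⟨k1, k2, k3⟩) fun e => hne (Subtype.ext e)).2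
  · refine le_antisymm (iSup_le ?_) (hg _ fun A hA t => le_iSup_of_le ⟨_, mk A hA t⟩ le_sup_right)
    rintro ⟨_, A, hA, -, -, -, rfl⟩
    exact h.E_le hA
  · rintro (_ | ⟨_, A, hA, h1, h2, h3, rfl⟩)
    · refine disjoint_iff.2 (h.cen_inf fun W hW => iSup₂_le ?_)
      rintro (_ | ⟨_, B, hB, k1, k2, k3, rfl⟩) hne
      · exact absurd rfl hne
      · exact hW B hB (h.trv_of_min hB ⟨k1, k2, k3⟩)
    · have t := h.trv_of_min hA ⟨h1, h2, h3⟩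
      refine disjoint_iff.2 (inf_eq_bot_mono (h.dp hA t).inf le_rfl (iSup₂_le ?_))
      rintro (_ | ⟨_, B, hB, k1, k2, k3, rfl⟩) hne
      · exact inf_le_inf_left _ (cen_anti (h.E_le hA))
      · exact le_inf (h.W_le hB) (h.pair hB (h.trv_of_min hB ⟨k1, k2, k3⟩) hA t
          fun e => hne (congrArg some (Subtype.ext e.symm))).2
  · refine le_antisymm (sup_le inf_le_left (iSup_le ?_)) (h.V_le hg le_sup_left fun A hA t =>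
      le_sup_of_le_right (le_iSup_of_le ⟨_, mk A hA t⟩ le_rfl))
    rintro ⟨_, A, hA, -, -, -, rfl⟩
    exact h.W_le hA

end Cfsg.Agent.S0617
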