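import Cfsg.Statements.S0619
import Mathlib
import Cfsg.Agent.H22.Hol
import Cfsg.Agent.H2.Cores

set_option autoImplicit false
open Cfsg

namespace Cfsg.Agent.S0619

/-- For a p-separable group and a normal elementary abelian p-subgroup V with no nontrivial normal p-subgroup modulo its centralizer C, the Thompson subgroup J(G) moves Ω₁(Z(J(C))) only inside V. -/
theorem result {G : Type*} [Group G] [Finite G] {p : ℕ} [Fact p.Prime] (hsep : Cfsg.IsPSolvable p G) (V : Subgroup G) [V.Normal] (hV : Cfsg.IsElementaryAbelian p V) (hO : Cfsg.pCore p (G ⧸ Subgroup.centralizer (V : Set G)) = ⊥) : ⁅Cfsg.omegaOne p (Cfsg.centerThompsonOf p (Subgroup.centralizer (V : Set G))), Cfsg.thompsonSubgroup p G⁆ ≤ V := by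
  open Subgroup Cfsg.Agent.FT Cfsg.Agent.P22 in
  open scoped commutatorElement Pointwise in
  have hp : p.Prime := Fact.out
  have hn : ∀ X : Subgroup G, X ≤ N(V) := fun X => le_top.trans (nml_top_iff.2 inferInstance).nrm
  have hO' : O[{p}](bar V ⊤) = ⊥ := by
    obtain ⟨_, ⟨e⟩⟩ := quot_equiv_pmap (K := C(V)) (act V) (hn ⊤) (by rw [pker_act])
    let e' : (G ⧸ C(V)) ≃* ((⊤ : Subgroup G) ⧸ C(V).subgroupOf ⊤) :=
      QuotientGroup.congr _ _ topEquiv.symm (by
        ext x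
        exact ⟨fun ⟨y, hy, e⟩ => e ▸ hy, fun hx => ⟨x, hx, rfl⟩⟩)
    rw [pcore_singleton hp, ← H22.pCore_map_equiv' (e'.trans e), hO, Subgroup.map_bot, Subgroup.map_bot]
  have h := ffs_bar hp hV (hn ⊤) (H1.isPSolvable_subgroup hp hsep ⊤) hO'
  rw [← H5b.Jn_top, H5b.centerThompsonOf_eq, commC]
  rw [H5b.Jn, sSup_eq_iSup']
  refine H5.commutator_iSup_le (fun _ => hn _) fun ⟨A, hA⟩ => ?_
  change H5b.MaxAb p ⊤ A at hA
  change ⁅A, Ω[p](Z(H5b.Jn p C(V)))⁆ ≤ V
  have hb := maxAb_bo hA hV le_top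
  have h1 := ms_bar (V := V) (hn A)
  rw [h.ms_eq (pmap_mono _ le_top) (hb.bar (hn A)), card_til le_rfl] at h1
  have e : V ⊓ C(A ⊓ C(V)) = V := inf_eq_left.2 (centsC inf_le_right)
  have h2 := maxAb_of_ms hA hV le_top (inf_le_left : A ⊓ C(V) ≤ A) (le_inf inf_le_right (inf_le_left.trans (Abelem.ab hV).le_cen)) (by rw [← h1, ms, e])
  rw [e] at h2
  have h3 := Ohm_ZJ_le (h2.mono le_top (sup_le inf_le_right (Abelem.ab hV).le_cen))
  rw [commC]
  refine (commSS h3 le_rfl).trans (comm_sup_le (hn _) ?_ (comm_le_left (hn _)))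
  exact (comm_eq_bot.2 (inf_le_left.trans hA.le_C)).le.trans bot_le

end Cfsg.Agent.S0619
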