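import Cfsg.Statements.S0620
import Mathlib
import Cfsg.Agent.H22.Hol
import Cfsg.Agent.H2.Cores

set_option autoImplicit false
open Cfsg

namespace Cfsg.Agent.S0620

/-- Under coprime action of an elementary abelian q-group X on a p-separable group K with trivial p'-core, K is generated by the normalizer of J(S), the centralizer of Ω₁(Z(S)) and the fixed points of X. -/
theorem result {G : Type*} [Group G] [Finite G] {p : ℕ} [Fact p.Prime] {q : ℕ} [Fact q.Prime] (K X : Subgroup G) (hXK : X ≤ Subgroup.normalizer (K : Set G)) (hX : Cfsg.IsElementaryAbelian q X) (hq : ¬ q ∣ Nat.card K) (hsep : Cfsg.IsPSolvable p ↥K) (hO : Cfsg.pPrimeCore p ↥K = ⊥) (S : Sylow p ↥K) : (Subgroup.normalizer (Cfsg.thompsonSubgroupOf p (S : Subgroup ↥K) : Set ↥K) ⊔ Subgroup.centralizer (Cfsg.omegaOne p ((S : Subgroup ↥K) ⊓ Subgroup.centralizer ((S : Subgroup ↥K) : Set ↥K)) : Set ↥K) ⊔ (Subgroup.centralizer (X : Set G)).subgroupOf K) = ⊤ := by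
  open Subgroup Cfsg.Agent.FT Cfsg.Agent.P22 in
  open scoped commutatorElement Pointwise in
  have hp : p.Prime := Fact.out
  have hq' : q.Prime := Fact.out
  have hO' : O[{p}ᶜ](K) = ⊥ := by rw [pcore_compl_singleton hp, hO, Subgroup.map_bot]
  have h := ffs_Vz hp hsep hO'
  have hV := abelem_Vz (cen_pcore_le hp hsep hO')
  have hn := (Vz_nml p K).nrm
  have hXV : X ≤ N(Vz p K) := norms_Vz hXK
  have hS := syl_map_subtype hp S
  have hZ := le_Vz hS
  set V := Vz p K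
  have inj := K.subtype_injective
  apply map_injective inj
  rw [Subgroup.map_sup, Subgroup.map_sup, map_subtype_nrm, map_subtype_cen, map_Ohm_inj inj, map_subcent_inj inj,
    H5b.thompsonOf_eq_Jn, H5b.map_Jn inj, map_subtype_top, subgroupOf_map_subtype]
  set T := (S : Subgroup K).map K.subtype
  set L := K ⊓ N(H5b.Jn p T) ⊔ K ⊓ C(Ω[p](Z(T))) ⊔ C(X) ⊓ K
  have hL : L ≤ K := sup_le (sup_le inf_le_left inf_le_left) inf_le_right
  refine le_antisymm hL ?_
  have hTL : T ≤ L := le_sup_of_le_left (le_sup_of_le_left (le_inf hS.le (Jn_nml p T).nrm))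
  have cop : Cop K X := (p'grp_of_not_dvd hq).cop' (Abelem.pGrp hX hq')
  have hJ : bar V (H5b.Jn p K) ≤ bar V L := h.barJ_le hV hn le_rfl (Vz_le p K) fun A hA tA => by
    have hAH : A ≤ bar V K := hA.trans (pmap_mono _ (H5b.Jn_le p K))
    obtain ⟨f, hf, hB⟩ := h.exists_cj_le hAH tA (hS.pmap _ hn)
    have tB := tA.cj (h.nFV hf)
    have hBH := hB.trans (pmap_mono _ hS.le)
    have eE := h.E_eq_of_le hAH tA tB (le_sup_right.trans (h.cj_le hAH hf))
    refine (le_sup_right.trans eE.ge).trans ?_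
    generalize cj f A = B at hB tB hBH
    obtain ⟨φ, -, h1, h2, h3⟩ := h.diag hBH tB hq' (Abelem.pmap hX _) (fun e => hq (e.trans (card_pmap_dvd _ _)))
      (bar_norms V X) (pmap_norms _ hXK) (norms_pcore _ (pmap_norms _ hXK))
    have : ¬ ⁅O[{p}ᶜ](bar V K), B⁆ ≤ C(B) := fun e => h.not_cen hBH (tB.pGrp hp) (tB.ne_bot hp)
      (centsC (coprime_cents_of_comm_cents (hBH.trans h.nF.nrm) (h.pF.cop' (tB.pGrp hp)) e))
    obtain ⟨x, hx, hxB⟩ := SetLike.not_le_iff_exists.1 this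
    let m : ↥(⁅til V V, ⁅O[{p}ᶜ](bar V K), B⁆ ⊔ B⁆ ⊔ (⁅O[{p}ᶜ](bar V K), B⁆ ⊔ B)) := ⟨x, mem_sup_right (mem_sup_left hx)⟩
    have hd : φ m ∈ bar V L := by
      refine pmap_mono _ (le_sup_of_le_right (inf_comm K C(X)).le) ?_
      rw [show pmap (act V) (K ⊓ C(X)) = _ from bar_subcent_cop hn hXV hXK cop (Abelem.sol hX)]
      exact ⟨h3 _ (pmap_norms _ hXK) m (h.nF.le (h.comm_le_F hBH hx)), h1 m⟩
    have hBL : B ≤ bar V L := hB.trans (pmap_mono _ hTL)
    rw [← h.E_eq hBH tB (h.comm_le_F hBH hx) hxB]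
    refine sup_le hBL ?_
    have e : cj x B = cj (φ m) B := by
      rw [← mul_inv_cancel_left x (φ m), ← cj_cj, cj_of_mem_cen (cen_anti (le_sup_of_le_right le_sup_right) (h2 m))]
    rw [e]
    exact cj_le_of_mem hd hBL
  rw [← (Jn_frattini hS (Jn_nml p K) (Jn_syl_le hp hS)).sup]
  exact sup_le (le_of_bar_le (H5b.Jn_le p K) hL hn
    (le_sup_of_le_left (le_sup_of_le_right (inf_le_inf_left _ (cen_anti hZ)))) hJ) (le_sup_of_le_left le_sup_left)

end Cfsg.Agent.S0620
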