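import Cfsg.Statements.S0621
import Mathlib
import Cfsg.Agent.H22.Hol
import Cfsg.Agent.H2.Cores

set_option autoImplicit false
open Cfsg

namespace Cfsg.Agent.S0621

/-- Let K be p-separable with O_p'(K) = 1, normalized by an elementary abelian q-group X for a prime q not dividing the order of K. If the Thompson factorization fails in K, then p is 2 or 3 and the fixed points of X contain a plane W of order p² and a subgroup inducing SL(2, p) on it. -/
theorem result {G : Type*} [Group G] [Finite G] {p : ℕ} [Fact p.Prime] {q : ℕ} [Fact q.Prime] (K X : Subgroup G) (hXK : X ≤ Subgroup.normalizer (K : Set G)) (hX : Cfsg.IsElementaryAbelian q X) (hq : ¬ q ∣ Nat.card K) (hsep : Cfsg.IsPSolvable p ↥K) (hO : Cfsg.pPrimeCore p ↥K = ⊥) (hnf : ¬ Cfsg.IsThompsonFactorizable p ↥K) : (p = 2 ∨ p = 3) ∧ ∃ W D : Subgroup G, W ≤ K ⊓ Subgroup.centralizer (X : Set G) ∧ D ≤ K ⊓ Subgroup.centralizer (X : Set G) ∧ Cfsg.IsElementaryAbelian p W ∧ Nat.card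 W = p ^ 2 ∧ D ≤ Subgroup.normalizer (W : Set G) ∧ ∃ hn : ((Subgroup.centralizer (W : Set G)).subgroupOf D).Normal, Nonempty ((↥D ⧸ (Subgroup.centralizer (W : Set G)).subgroupOf D) ≃* Matrix.SpecialLinearGroup (Fin 2) (ZMod p)) := by
  open Subgroup Cfsg.Agent.FT Cfsg.Agent.P22 in
  open scoped commutatorElement Pointwise in
  have hp : p.Prime := Fact.out
  have hq' : q.Prime := Fact.out
  have hO' : O[{p}ᶜ](K) = ⊥ := by rw [pcore_compl_singleton hp, hO, Subgroup.map_bot]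
  have h := ffs_Vz hp hsep hO'
  have hV := abelem_Vz (cen_pcore_le hp hsep hO')
  have hn := (Vz_nml p K).nrm
  have hXV : X ≤ N(Vz p K) := norms_Vz hXK
  have hB := h.exists_trv_J hV hn le_rfl (Vz_le p K) fun e => hnf (tf_of_J_le e)
  have hVK := Vz_le p K
  set V := Vz p K
  obtain ⟨B, hB, tB⟩ := hB
  have hBH : B ≤ bar V K := hB.trans (pmap_mono _ (H5b.Jn_le p K))
  have cop : Cop K X := (p'grp_of_not_dvd hq).cop' (Abelem.pGrp hX hq')
  obtain ⟨φ, inj, h1, -, h3⟩ := h.diag hBH tB hq' (Abelem.pmap hX _) (fun e => hq (e.trans (card_pmap_dvd _ _)))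
    (bar_norms V X) (pmap_norms _ hXK) (norms_pcore _ (pmap_norms _ hXK))
  have iso := (h.E_iso hBH tB).some
  have cW := h.card_W hBH tB
  have hf := h.E_faithful hBH tB
  have hE := h.E_le hBH
  have hW := h.W_le hBH
  have nW := norm_comm_right (til V V) (⁅O[{p}ᶜ](bar V K), B⁆ ⊔ B)
  refine ⟨h.two_or_three hBH tB, ?_⟩
  generalize ⁅O[{p}ᶜ](bar V K), B⁆ ⊔ B = E at *
  generalize ⁅til V V, E⁆ = W at *
  have l1 : ∀ (A L : Subgroup (Hol V)), A ≤ L → bar V X ≤ N(L) → pmap φ A ≤ L ⊓ C(bar V X) := fun A L hA hL u hu => by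
    obtain ⟨x, hx, hxD, rfl⟩ := mem_pmap.1 hu
    rw [pfun_of_mem _ hxD]
    exact ⟨h3 L hL _ (hA hx), h1 _⟩
  have hk : pker φ = ⊥ := by rw [pker, (MonoidHom.ker_eq_bot_iff _).2 inj, Subgroup.map_bot]
  have hi : ∀ A, pker φ ⊓ A = ⊥ := fun A => by rw [hk, bot_inf_eq]
  have a1 := l1 W _ hW (bar_norms V X)
  rw [til_subcent le_rfl hXV] at a1
  obtain ⟨W', hW', eW⟩ := exists_til a1 inf_le_left
  have a2 := l1 E _ hE (pmap_norms _ hXK)
  rw [← bar_subcent_cop hn hXV hXK cop (Abelem.sol hX)] at a2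
  obtain ⟨D, hD, -, eD⟩ := exists_bar a2
  have hDV : D ≤ N(V) := hD.trans (inf_le_left.trans hn)
  have hWV : W' ≤ V := hW'.trans inf_le_left
  refine ⟨W', D, hW'.trans (inf_le_inf_right _ hVK), hD, hV.mono hWV, ?_, ?_, ?_⟩
  · rw [← card_til hWV, eW, card_pmap_of_inf le_sup_left (hi _), cW]
  · rw [← bar_norms_iff hDV hWV, eW, eD]
    exact pmap_norms φ nW
  · obtain ⟨hn', ⟨e⟩⟩ := quot_equiv_pmap (K := C(W')) (act V) hDV (by
      rw [pker_act]
      refine le_antisymm (le_inf inf_le_left ((bar_eq_bot (inf_le_left.trans hDV)).1 ?_))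
        (inf_le_inf_left _ (cen_anti hWV))
      rw [← bar_subcent hWV hDV, eW, eD, eq_bot_iff]
      intro u hu
      obtain ⟨x, hx, hxD, rfl⟩ := mem_pmap.1 hu.1
      have : ⟪x⟫ ≤ C(W) := by
        rw [← comm_eq_bot, eq_bot_iff, ← hk, ← pmap_cents_iff (zpowers_le.2 hxD) le_sup_left, pmap_zpowers _ hxD]
        exact zpowers_le.2 hu.2
      rw [eq_one_of_mem_inf hf hx (this (mem_zpowers x)), pfun_one]
      exact one_mem _)
    exact ⟨hn', ⟨e.trans ((MulEquiv.subgroupCongr eD).trans ((pmapEquiv le_sup_right (hi _)).symm.trans iso))⟩⟩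

end Cfsg.Agent.S0621
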