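import Cfsg.Statements.S0623
import Mathlib
import Cfsg.Agent.H5.WS

set_option autoImplicit false
open Cfsg

namespace Cfsg.Agent.S0623

open Subgroup Cfsg.Agent.H22 Cfsg.Agent.H5b
open Cfsg.Agent.H18 hiding cj mem_cj conj_mem_cj conj_mem_cj_iff cj_le_iff cj_cj cj_one cj_inv_cj
  cj_cj_inv cj_mono cj_inf cj_sup cj_eq_iff cj_eq_of_mem cj_eq_of_normal cj_top card_cj isPGroup_cj
open scoped commutatorElement

/-- No element of a finite p-group acts quadratically and nontrivially on the stable normal closure W(S). -/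
theorem result {S : Type*} [Group S] [Finite S] {p : ℕ} [Fact p.Prime] (hS : IsPGroup p S) (x : S) (hq : ⁅⁅Cfsg.stableNormalClosure p S, Subgroup.zpowers x⁆, Subgroup.zpowers x⁆ = ⊥) : ⁅Cfsg.stableNormalClosure p S, Subgroup.zpowers x⁆ = ⊥ := by
  exact le_C_iff_comm'.1 (zpowers_le.2 (noQuad_snc x trivial hq))

end Cfsg.Agent.S0623
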