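import Cfsg.Statements.S0624
import Mathlib
import Cfsg.Agent.H5.WS

set_option autoImplicit false
open Cfsg

namespace Cfsg.Agent.S0624

open Subgroup Cfsg.Agent.H22 Cfsg.Agent.H5b
open Cfsg.Agent.H18 hiding cj mem_cj conj_mem_cj conj_mem_cj_iff cj_le_iff cj_cj cj_one cj_inv_cj
  cj_cj_inv cj_mono cj_inf cj_sup cj_eq_iff cj_eq_of_mem cj_eq_of_normal cj_top card_cj isPGroup_cj
open scoped commutatorElement

/-- The analogue of the ZJ-Theorem: in an action-p-stable group whose largest normal p-subgroup contains its centralizer, the characteristic subgroup W(S) of a Sylow p-subgroup S is normal. -/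
theorem result {G : Type*} [Group G] [Finite G] {p : ℕ} [Fact p.Prime] (hst : Cfsg.IsActionPStable p G) (hc : Subgroup.centralizer (Cfsg.pCore p G : Set G) ≤ Cfsg.pCore p G) (S : Sylow p G) : (((Cfsg.stableNormalClosure p ↥(S : Subgroup G)).map (S : Subgroup G).subtype)).Normal := by
  have hS := sylIn_top S
  refine WS_normal hc hS (le_pCore_of_stableOnSection hc hst.2.1 (quad_of_le_N (elemAb_WS _).1
    ((H21.pCore_le_syl hS).trans ((isFn_WS p).le_N _)))) hst.1 ?_
  have := hst.2.2 S
  rw [thompsonOf_eq_Jn, map_omegaCenterThompson] at this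
  exact N_J_le_N_WS hc hS this

end Cfsg.Agent.S0624
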