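import Cfsg.Statements.S0625
import Mathlib
import Cfsg.Agent.H5.Stable

set_option autoImplicit false
open Cfsg

namespace Cfsg.Agent.S0625

open Subgroup Cfsg.Agent.H18 Cfsg.Agent.H22 Cfsg.Agent.H5b
open scoped commutatorElement

/-- A p-separable group with p at least 5 is p-stable in the action sense. -/
theorem result {G : Type*} [Group G] [Finite G] {p : ℕ} [Fact p.Prime] (hp : 5 ≤ p) (hsep : Cfsg.IsPSolvable p G) : Cfsg.IsActionPStable p G := by
  exact isActionPStable_of_qf (qf_subgroup_of_pSolvable (by omega) hsep (by omega))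

end Cfsg.Agent.S0625
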