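import Cfsg.Statements.S0627
import Mathlib
import Cfsg.Agent.H5.WS

set_option autoImplicit false
open Cfsg

namespace Cfsg.Agent.S0627

open Subgroup Cfsg.Agent.H22 Cfsg.Agent.H5b
open Cfsg.Agent.H18 hiding cj mem_cj conj_mem_cj conj_mem_cj_iff cj_le_iff cj_cj cj_one cj_inv_cj
  cj_cj_inv cj_mono cj_inf cj_sup cj_eq_iff cj_eq_of_mem cj_eq_of_normal cj_top card_cj isPGroup_cj
open scoped commutatorElement

/-- In a p-separable group with p at least 5, the normalizer of W(S) supplements the largest normal subgroup of order prime to p. -/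
theorem result {G : Type*} [Group G] [Finite G] {p : ℕ} [Fact p.Prime] (hp : 5 ≤ p) (hsep : Cfsg.IsPSolvable p G) (S : Sylow p G) : Cfsg.pPrimeCore p G ⊔ Subgroup.normalizer (((Cfsg.stableNormalClosure p ↥(S : Subgroup G)).map (S : Subgroup G).subtype) : Set G) = ⊤ := by
  have h := qf_subgroup_of_pSolvable (p := p) (by omega)
    (H1.isPSolvable_quotient Fact.out hsep (pPrimeCore p G)) (by omega)
  exact ((isFn_WS p).sup_normal_of_quotient S H2.pPrimeCore_coprime (WS_normal_of_stab
    (isPConstrained_iff.1 (isPConstrained_of_pSolvable hsep)) (sylIn_top _)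
    (QF.of_top (h ⊤)).stab (h _).stab)).2

end Cfsg.Agent.S0627
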