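import Cfsg.Statements.S0628
import Mathlib
import Cfsg.Agent.H5.WS

set_option autoImplicit false
open Cfsg

namespace Cfsg.Agent.S0628

open Subgroup Cfsg.Agent.H22 Cfsg.Agent.H5b
open Cfsg.Agent.H18 hiding cj mem_cj conj_mem_cj conj_mem_cj_iff cj_le_iff cj_cj cj_one cj_inv_cj
  cj_cj_inv cj_mono cj_inf cj_sup cj_eq_iff cj_eq_of_mem cj_eq_of_normal cj_top card_cj isPGroup_cj
open scoped commutatorElement

/-- The normal p-complement Theorem of Thompson in the form with W(S): for odd p, G has a normal p-complement as soon as the normalizer of the characteristic subgroup W(S) of a Sylow p-subgroup S has one. -/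
theorem result {G : Type*} [Group G] [Finite G] {p : ℕ} [Fact p.Prime] (hp : p ≠ 2) (S : Sylow p G) (hN : Cfsg.HasNormalPComplement p ↥(Subgroup.normalizer (((Cfsg.stableNormalClosure p ↥(S : Subgroup G)).map (S : Subgroup G).subtype) : Set G))) : Cfsg.HasNormalPComplement p G := by
  refine hasNPC_of_fn (isFn_WS p) (fun _ _ _ _ => WS_ne_bot) (fun X _ _ hc T hT hm => ?_)
    (sylIn_top S) hN
  have hst := stab_of_coatom hp hT hm
  refine WS_normal hc hT (hst.le_pCore hc (hT.isP.to_le ((isFn_WS p).le T)) (elemAb_WS T).1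
    ((H21.pCore_le_syl hT).trans ((isFn_WS p).le_N T)))
    (fun V _ hV => hst.isPStableOn V (elemAb_pgrp hV)) ?_
  by_cases h : N[Jn p T] = ⊤
  · haveI := WS_normal_of_J_normal hc hT (normal_of_top_le_N h.ge) fun V _ hV =>
      hst.isPStableOn V (hT.isP.to_le (hV.trans ((isFn_omega_ZJn p p).le T)))
    exact le_N_of_normal _ _
  · exact (le_of_coatom hm _ ((isFn_Jn p).le_N T) h).trans ((isFn_WS p).le_N T)

end Cfsg.Agent.S0628
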