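import Cfsg.Statements.S0629
import Mathlib
import Cfsg.Agent.H5.PLen

set_option autoImplicit false
open Cfsg

namespace Cfsg.Agent.S0629

open Subgroup Cfsg.Agent.H18 Cfsg.Agent.H22 Cfsg.Agent.H5b
open scoped commutatorElement

/-- A group in which the centralizer of a Sylow p-subgroup of O_{p',p}(G) is p-solvable is p-constrained. -/
theorem result {G : Type*} [Group G] [Finite G] {p : ℕ} [Fact p.Prime] (P : Sylow p ↥(Cfsg.pPrimePCore p G)) (hsol : Cfsg.IsPSolvable p ↥(Subgroup.centralizer (((P : Subgroup ↥(Cfsg.pPrimePCore p G)).map (Cfsg.pPrimePCore p G).subtype : Subgroup G) : Set G))) : Cfsg.IsPConstrained p G := by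
  rw [isPConstrained_iff]
  have hk : (QuotientGroup.mk' (pPrimeCore p G)).ker = pPrimeCore p G := QuotientGroup.ker_mk' _
  have e := map_C_of_coprime_ker (QuotientGroup.mk'_surjective (pPrimeCore p G))
    (by rw [hk]; exact H2.pPrimeCore_coprime) (P.isPGroup'.map (pPrimePCore p G).subtype)
  rw [map_sylow_pPrimePCore (QuotientGroup.mk'_surjective _) hk] at e
  have h1 := ((H1.isPSolvable_iff (Fact.out : p.Prime)).1 hsol).map
    (QuotientGroup.mk' (pPrimeCore p G))
  rw [e] at h1
  rw [← piCore_singleton] at h1 ⊢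
  exact le_piCore_of_le_centralizer
    (by rw [piCore_compl_singleton]; exact H2.pPrimeCore_quotient_self) _ h1 le_rfl

end Cfsg.Agent.S0629
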