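import Cfsg.Statements.S0632
import Mathlib
import Cfsg.Agent.H5.PLen

set_option autoImplicit false
open Cfsg

namespace Cfsg.Agent.S0632

open Subgroup Cfsg.Agent.H18 Cfsg.Agent.H22 Cfsg.Agent.H5b
open scoped commutatorElement

theorem concl_iff {G : Type*} [Group G] {p : ℕ} {A P : Subgroup G} (hA : A ≤ N[P]) :
    (A.subgroupOf N[P]).map (QuotientGroup.mk' (C[P].subgroupOf N[P])) ≤ pCore p _ ↔
      A ≤ opm p N[P] C[P] := by
  rw [opm_eq_map, map_le_iff_le_comap]
  constructor
  · intro h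
    rw [← map_subgroupOf_eq_of_le hA]
    exact map_mono h
  · intro h x hx
    obtain ⟨y, hy, e⟩ := h hx
    rwa [← Subtype.ext e]

/-- For a group with a nontrivial normal p-subgroup, p-stability passes to and from the quotient by the largest normal subgroup of order prime to p. -/
theorem result {G : Type*} [Group G] [Finite G] {p : ℕ} [Fact p.Prime] (hO : Cfsg.pCore p G ≠ ⊥) : Cfsg.IsPStable p G ↔ Cfsg.IsPStable p (G ⧸ Cfsg.pPrimeCore p G) := by
  set K := pPrimeCore p G with hK
  set f := QuotientGroup.mk' K with hf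
  have hs : Function.Surjective f := QuotientGroup.mk'_surjective K
  have hker : f.ker = K := QuotientGroup.ker_mk' K
  have hKc : (Nat.card K).Coprime p := H2.pPrimeCore_coprime
  have hkc : (Nat.card f.ker).Coprime p := by rw [hker]; exact hKc
  have hb : pPrimeCore p (G ⧸ K) = ⊥ := H2.pPrimeCore_quotient_self
  have hpp : pPrimePCore p (G ⧸ K) = pCore p (G ⧸ K) := by
    rw [pPrimePCore_eq, opMod_congr hb, opMod_bot]
  have hO' : pCore p (G ⧸ K) ≠ ⊥ := fun h => hO (by
    have h1 := H2.pCore_map_le (p := p) hs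
    rw [h, le_bot_iff, Subgroup.map_eq_bot_iff] at h1
    rw [← pgrp_inf_eq_bot pgrp_pCore hkc]
    exact (inf_eq_left.2 h1).symm)
  constructor
  · rintro ⟨h1, -, h⟩
    refine ⟨h1, hO', fun A P hA hP hAP hPO hn hq => ?_⟩
    rw [hb, bot_sup_eq] at hn
    have hAN : A ≤ N[P] := le_N_of_normal _ _
    obtain ⟨T, hT⟩ := exists_sylIn p ((A ⊔ P).comap f)
    have hpow : ∀ x ∈ (A ⊔ P).comap f, ∃ k : ℕ, x ^ p ^ k ∈ K := fun x hx => by
      obtain ⟨k, hk⟩ := pgrp_iff.1 (pgrp_sup hA hP hAN) _ hx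
      exact ⟨k, by rw [← hker, MonoidHom.mem_ker, map_pow, hk]⟩
    have hle := le_sup_syl hT (le_N_of_normal _ K) hpow
    have key : ∀ X ≤ A ⊔ P, (T ⊓ X.comap f).map f = X := fun X hX => by
      refine le_antisymm ((map_mono inf_le_right).trans (map_comap_le _ _)) fun y hy => ?_
      obtain ⟨x, rfl⟩ := hs y
      obtain ⟨a, ha, t, ht, rfl⟩ := (mem_sup_of_le_N' (le_N_of_normal _ _)).1 (hle (hX hy))
      have e : f (a * t) = f t := by rw [map_mul, (hker.ge ha : f a = 1), one_mul]
      exact ⟨t, ⟨ht, show f t ∈ X from e ▸ hy⟩, e.symm⟩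
    have hA' := key A le_sup_left
    have hP' := key P le_sup_right
    set A₀ := T ⊓ A.comap f
    set P₀ := T ⊓ P.comap f
    have hP₀ : IsPGroup p P₀ := hT.isP.to_le inf_le_left
    have hN₀ : A₀ ≤ N[P₀] := inf_le_left.trans (le_N_inf le_normalizer (le_N_of_normal _ _))
    have h2 := h A₀ P₀ (hT.isP.to_le inf_le_left) hP₀ (fun a ha x hx => conj_mem_of_N (hN₀ ha) hx)
      (inf_le_right.trans (comap_mono (hpp ▸ hPO)))
      (by
        have : K ⊔ P₀ = P.comap f := by rw [← hP', comap_map_eq, hker, sup_comm]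
        rw [this]; infer_instance)
      (by
        rw [eq_bot_iff, ← pgrp_inf_eq_bot hT.isP hkc]
        refine le_inf ((commutator_mono ((commutator_mono inf_le_left inf_le_left).trans
          (commutator_le_self T)) inf_le_left).trans (commutator_le_self T)) ?_
        rw [← Subgroup.map_eq_bot_iff, map_commutator, map_commutator, hA', hP', hq])
    rw [concl_iff hN₀] at h2
    rw [concl_iff hAN, ← hA', ← hP', ← map_N_of_coprime_ker hs hkc hP₀]
    refine (map_mono h2).trans (le_opm (map_mono (opm_le _ _))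
      (map_le_N_map _ (le_N_opm le_normalizer (N_le_N_C _))) ?_)
    rintro _ ⟨x, hx, rfl⟩
    obtain ⟨k, hk⟩ := pow_mem_of_mem_opm (N_le_N_C _) hx
    exact ⟨k, by rw [← map_pow]; exact map_C_le _ _ (mem_map_of_mem f hk)⟩
  · rintro ⟨h1, -, h⟩
    refine ⟨h1, hO, fun A P hA hP hAP hPO hn hq => ?_⟩
    have hAN : A ≤ N[P] := fun a ha => H5.mem_normalizer_of_conj_mem (hAP a ha)
    have hAN' : A.map f ≤ N[P.map f] := map_le_N_map _ hAN
    have h2 := h (A.map f) (P.map f) (hA.map _) (hP.map _)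
      (fun a ha x hx => conj_mem_of_N (hAN' ha) hx)
      (by rw [hpp, map_le_iff_le_comap]; exact hPO)
      (by
        have := hn.map f hs
        rwa [Subgroup.map_sup, (Subgroup.map_eq_bot_iff _).2 hker.ge, ← hb] at this)
      (by rw [← map_commutator, ← map_commutator, hq, Subgroup.map_bot])
    rw [concl_iff hAN'] at h2
    rw [concl_iff hAN]
    refine (le_inf hAN (map_le_iff_le_comap.1 h2)).trans (le_opm inf_le_left
      (le_N_inf le_normalizer ?_) ?_)
    · refine le_trans ?_ (comap_N_le f _)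
      rw [← map_le_iff_le_comap]
      exact (map_N_le _ _).trans (le_N_opm le_normalizer (N_le_N_C _))
    · rintro x ⟨hx, hx'⟩
      obtain ⟨k, hk⟩ := pow_mem_of_mem_opm (N_le_N_C _) hx'
      refine ⟨k, zpowers_le.1 (le_C_iff_comm.2 ?_)⟩
      rw [eq_bot_iff, ← pgrp_inf_eq_bot hP hkc]
      refine le_inf (comm_le_of_le_N' (zpowers_le.2 (pow_mem hx _))) ?_
      rw [← Subgroup.map_eq_bot_iff, map_commutator, ← le_C_iff_comm, MonoidHom.map_zpowers,
        zpowers_le, map_pow]
      exact hk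

end Cfsg.Agent.S0632
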