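import Cfsg.Statements.S0634
import Mathlib
import Cfsg.Agent.H5.PLen

set_option autoImplicit false
open Cfsg

namespace Cfsg.Agent.S0634

open Subgroup Cfsg.Agent.H18 Cfsg.Agent.H22 Cfsg.Agent.H5b
open scoped commutatorElement

/-- In a p-soluble group each p-factor of the upper p-series contains its own centralizer in the corresponding quotient. -/
theorem result {G : Type*} [Group G] [Finite G] {p : ℕ} [Fact p.Prime] (hsol : Cfsg.IsPSolvable p G) (k : ℕ) : Subgroup.centralizer ((((Cfsg.upperPSeries p G (2 * k + 2)).1.map (QuotientGroup.mk' (Cfsg.upperPSeries p G (2 * k + 1)).1)) : Subgroup (G ⧸ (Cfsg.upperPSeries p G (2 * k + 1)).1)) : Set (G ⧸ (Cfsg.upperPSeries p G (2 * k + 1)).1)) ≤ (Cfsg.upperPSeries p G (2 * k + 2)).1.map (QuotientGroup.mk' (Cfsg.upperPSeries p G (2 * k + 1)).1) := by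
  have h1 : pPrimeCore p (G ⧸ (upperPSeries p G (2 * k + 1)).1) = ⊥ := by
    rw [← map_op'Mod, H1.map_mk_eq_bot_iff, op'Mod_congr (upper_odd k), upper_odd,
      ← H1.map_mk_eq_bot_iff, map_op'Mod]
    exact pPrimeCore_quotient_op'Mod _
  rw [upper_even, map_opMod]
  exact centralizer_pCore_le (H1.isPSolvable_quotient Fact.out hsol _) h1

end Cfsg.Agent.S0634
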