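import Cfsg.Statements.S0642
import Mathlib
import Cfsg.Agent.H3.Regular

set_option autoImplicit false
open Cfsg

namespace Cfsg.Agent.S0642

open scoped commutatorElement

/-- Among finite 2-groups the regular ones are exactly the abelian ones. -/
theorem result {G : Type*} [Group G] [Finite G] (hG : IsPGroup 2 G) : Cfsg.IsRegularPGroup 2 G ↔ ∀ a b : G, a * b = b * a := by
  refine ⟨fun h a b => ?_, fun h => (H3.reg_of_comm ⟨⟨h⟩⟩).isRegularPGroup hG⟩
  obtain ⟨c, hc, h1⟩ := H3.reg_of_isRegularPGroup h a b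
  set H := Subgroup.closure ({a, b} : Set G) with hH
  set N := Cfsg.powerClosure 2 1 ⁅H, H⁆
  have hn : H ≤ Subgroup.normalizer (N : Set G) :=
    le_trans (Subgroup.le_normalizer.trans (fun g hg => H3.mem_normalizer_of_map_conj_eq (by
      rw [Subgroup.map_commutator, H3.map_conj_eq_of_mem_normalizer hg])))
      (H3.normalizer_le_normalizer_powerClosure 2 1 ⁅H, H⁆)
  have ha : a ∈ H := H3.left_mem_closure_pair a b
  have hb : b ∈ H := H3.right_mem_closure_pair a b
  have e : ⁅b, a⁆ = (a * b * b) * c * (a * b * b)⁻¹ * 1 := by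
    have h2 : c = (a ^ 2 * b ^ 2)⁻¹ * (a * b) ^ 2 := by rw [h1]; group
    rw [h2, commutatorElement_def, pow_two, pow_two, pow_two]; group
  have h2 : ⁅a, b⁆ ∈ N := by
    rw [← commutatorElement_inv, e, mul_one]
    exact inv_mem (H3.conj_mem_of_mem_normalizer (hn (mul_mem (mul_mem ha hb) hb)) hc)
  have h3 : ⁅H, H⁆ ≤ N := H3.commutator_closure_pair_le (hn ha) (hn hb) h2
  have h4 : (⊥ : Subgroup G) = ⁅H, H⁆ := by
    refine H3.eq_of_le_sup_map_frattini bot_le (h3.trans ?_)
    rw [H3.map_frattini_eq_sup_powerClosure (hG.to_subgroup _), bot_sup_eq]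
    exact le_sup_right
  have h5 : ⁅a, b⁆ ∈ (⊥ : Subgroup G) := h4 ▸ Subgroup.commutator_mem_commutator ha hb
  exact commutatorElement_eq_one_iff_mul_comm.mp (Subgroup.mem_bot.mp h5)

end Cfsg.Agent.S0642
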