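import Cfsg.Statements.S0645
import Mathlib
import Cfsg.Agent.H3.Two

set_option autoImplicit false
open Cfsg

namespace Cfsg.Agent.S0645

/-- Classification of p-groups with a cyclic maximal subgroup, odd p: a non-abelian one of order p^n has generators a of order p^(n-1) and b of order p, b outside the cyclic subgroup generated by a, with b a b⁻¹ = a^(1 + p^(n-2)). -/
theorem result {G : Type*} [Group G] [Finite G] {p : ℕ} [Fact p.Prime] (hp : p ≠ 2) (n : ℕ) (hn : 3 ≤ n) (hG : Nat.card G = p ^ n) (C : Subgroup G) (hC : IsCyclic C) (hCi : C.index = p) (hna : ∃ x y : G, x * y ≠ y * x) : ∃ a b : G, orderOf a = p ^ (n - 1) ∧ orderOf b = p ∧ b ∉ Subgroup.zpowers a ∧ b * a * b⁻¹ = a ^ (1 + p ^ (n - 2)) := by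
  open Subgroup Cfsg.Agent.FT Cfsg.Agent.H3 in
  open scoped commutatorElement in
  · obtain ⟨u, rfl⟩ := cyc_iff.1 hC
    obtain ⟨x, y, hxy⟩ := hna
    have hT : #(⊤ : Subgroup G) = p ^ n := card_top'.trans hG
    obtain ⟨m, b, h | h⟩ := mc_or_mod_of_relIndex (S := ⊤) Fact.out (pGrp_of_card Fact.out hT) (mem_top u)
      ((relIndex_top_right _).trans hCi) fun e => hxy (e.comm (mem_top x) (mem_top y))
    · exact absurd h.1 hp
    obtain rfl : n = m + 1 := Nat.pow_right_injective h.prime.two_le (hT.symm.trans h.card)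
    refine ⟨u, b, h.ord, orderOf_eq_prime h.pow fun e => h.nmem (e ▸ one_mem _), h.nmem, ?_⟩
    rw [h.conj, pow_add, pow_one]; rfl

end Cfsg.Agent.S0645
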