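import Cfsg.Statements.S0646
import Mathlib
import Cfsg.Agent.H3.Two

set_option autoImplicit false
open Cfsg

namespace Cfsg.Agent.S0646

/-- Classification of non-abelian 2-groups with a cyclic maximal subgroup: dihedral, generalized quaternion, and for order at least 16 the modular group and the semidihedral group, each given by generators a (of index 2) and b with the stated relations. -/
theorem result {G : Type*} [Group G] [Finite G] (n : ℕ) (hn : 3 ≤ n) (hG : Nat.card G = 2 ^ n) (C : Subgroup G) (hC : IsCyclic C) (hCi : C.index = 2) (hna : ∃ x y : G, x * y ≠ y * x) : ∃ a b : G, orderOf a = 2 ^ (n - 1) ∧ b ∉ Subgroup.zpowers a ∧ ((b ^ 2 = 1 ∧ b * a * b⁻¹ = a⁻¹) ∨ (b ^ 2 = a ^ (2 ^ (n - 2)) ∧ b * a * b⁻¹ = a⁻¹) ∨ (4 ≤ n ∧ b ^ 2 = 1 ∧ b * a * b⁻¹ = a ^ (1 + 2 ^ (n - 2))) ∨ (4 ≤ n ∧ b ^ 2 = 1 ∧ b * a * b⁻¹ = a ^ (2 ^ (n - 2) - 1))) := by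
  open Subgroup Cfsg.Agent.FT Cfsg.Agent.H3 in
  open scoped commutatorElement in
  · obtain ⟨u, rfl⟩ := cyc_iff.1 hC
    obtain ⟨x, y, hxy⟩ := hna
    have hT : #(⊤ : Subgroup G) = 2 ^ n := card_top'.trans hG
    obtain ⟨m, b, h | h⟩ := mc_or_mod_of_relIndex (S := ⊤) Nat.prime_two (pGrp_of_card Nat.prime_two hT) (mem_top u)
      ((relIndex_top_right _).trans hCi) fun e => hxy (e.comm (mem_top x) (mem_top y))
    · obtain rfl : n = m + 1 := Nat.pow_right_injective le_rfl (hT.symm.trans h.2.card)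
      rcases h.2.cases with h | h | ⟨b', h⟩
      · exact ⟨u, b, h.ord, h.nmem, Or.inl ⟨h.sq, h.inv⟩⟩
      · exact ⟨u, b, h.ord, h.nmem, Or.inr (Or.inl ⟨h.sq, h.inv⟩)⟩
      · exact ⟨u, b', h.ord, h.nmem, Or.inr (Or.inr (Or.inr ⟨by have := h.three_le; omega, h.sq, h.sd.trans h.sd_eq⟩))⟩
    obtain rfl : n = m + 1 := Nat.pow_right_injective h.prime.two_le (hT.symm.trans h.card)
    refine ⟨u, b, h.ord, h.nmem, Or.inr (Or.inr (Or.inl ⟨by have := h.three_le rfl; omega, h.pow, ?_⟩))⟩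
    rw [h.conj, pow_add, pow_one]; rfl

end Cfsg.Agent.S0646
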