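import Cfsg.Statements.S0657
import Mathlib
import Cfsg.Agent.H5.QdFree

set_option autoImplicit false
open Cfsg

namespace Cfsg.Agent.S0657

open Subgroup Cfsg.Agent.H18 Cfsg.Agent.H22 Cfsg.Agent.H5b
open scoped commutatorElement

/-- For odd p, a group that fails to be p-stable modulo its largest normal subgroup of order prime to p, and whose upper p-series does not stop there, has a section isomorphic to SL(2, p). -/
theorem result {G : Type*} [Group G] [Finite G] {p : ℕ} [Fact p.Prime] (hp : p ≠ 2) (hO : Cfsg.pPrimeCore p G < Cfsg.pPrimePCore p G) (hns : ¬ Cfsg.IsPStable p (G ⧸ Cfsg.pPrimeCore p G)) : ∃ (K L : Subgroup G) (hL : (L.subgroupOf K).Normal), K ≤ ⊤ ∧ Nonempty ((K ⧸ L.subgroupOf K) ≃* Matrix.SpecialLinearGroup (Fin 2) (ZMod p)) := by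
  by_contra h
  have h1 : ¬ Involves (Matrix.SpecialLinearGroup (Fin 2) (ZMod p)) G :=
    fun ⟨K, L, hL, e⟩ => h ⟨K, L, hL, le_top, e⟩
  refine hns (isPStable_of_qf hp (fun h0 => hO.ne ?_) fun H => qf_of_not_involves hp
    (not_involves_of_sec h1 ((H21.Sec.quotient _).trans (H21.Sec.subgroup H))))
  unfold pPrimePCore
  rw [h0, MonoidHom.comap_bot, QuotientGroup.ker_mk']

end Cfsg.Agent.S0657
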