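import Cfsg.Statements.S0658
import Mathlib
import Cfsg.Agent.H5.ZJ

set_option autoImplicit false
open Cfsg

namespace Cfsg.Agent.S0658

open Subgroup Cfsg.Agent.H18 Cfsg.Agent.H22 Cfsg.Agent.H5b
open scoped commutatorElement

/-- In a group of characteristic p type all of whose p-locals are p-stable (p odd), the normalizer of Z(J(P)) contains the normalizer of every nontrivial subgroup of the Sylow p-subgroup P. -/
theorem result {G : Type*} [Group G] [Finite G] {p : ℕ} [Fact p.Prime] (hp : p ≠ 2) (hloc : ∀ Q : Subgroup G, IsPGroup p Q → Q ≠ ⊥ → Cfsg.pPrimeCore p ↥(Subgroup.normalizer (Q : Set G)) = ⊥ ∧ Cfsg.IsPConstrained p ↥(Subgroup.normalizer (Q : Set G)) ∧ Cfsg.IsPStable p ↥(Subgroup.normalizer (Q : Set G))) (P : Sylow p G) (Q : Subgroup G) (hQP : Q ≤ (P : Subgroup G)) (hQ1 : Q ≠ ⊥) : Subgroup.normalizer (Q : Set G) ≤ Subgroup.normalizer (Cfsg.centerThompsonAOf ((P : Subgroup G)) : Set G) := by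
  rw [centerThompsonAOf_eq]
  set M := N[ZJn 0 (P : Subgroup G)] with hM
  have hPM : SylIn p (P : Subgroup G) M := (sylIn_top P).mono ((isFn_ZJn 0).le_N _) le_top
  have zj : ∀ Q R : Subgroup G, IsPGroup p Q → Q ≠ ⊥ → SylIn p R N[Q] → N[Q] ≤ N[ZJn 0 R] := by
    intro Q R h1 h2 hR
    obtain ⟨h3, h4, h5⟩ := hloc Q h1 h2
    obtain ⟨T, hT⟩ := hR.exists_sylow
    haveI := ZJn_sylow_normal hp (Or.inl rfl) ((isPConstrained_iff_of_bot h3).1 h4)
      (stab_of_isPStable h5 h3) T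
    have := le_N_map_subtype (ZJn 0 (T : Subgroup N[Q]))
    rwa [(isFn_ZJn 0).map_subtype, hT, map_subgroupOf_eq_of_le hR.le] at this
  have key : ∀ R : Subgroup G, R ≤ M → IsPGroup p R → R ≠ ⊥ → ∀ Q : Subgroup G, IsPGroup p Q →
      Q ≠ ⊥ → R ≤ N[Q] → N[Q] ≤ M := by
    intro R
    induction R using subgroup_gt_induction with
    | h R ih =>
    intro hRM hR hR1 Q hQ hQ1 hRQ
    obtain ⟨R', hR', hRR'⟩ := exists_sylIn_ge hR (le_inf hRM hRQ)
    rcases hRR'.lt_or_eq with hlt | rfl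
    · exact ih R' hlt (hR'.le.trans inf_le_left) hR'.isP hlt.ne_bot Q hQ hQ1
        (hR'.le.trans inf_le_right)
    obtain ⟨R₁, hR₁, hRR₁⟩ := exists_sylIn_ge hR hRM
    rcases hRR₁.lt_or_eq with hlt | rfl
    · have h1 := pgrp_lt_inf_N hR₁.isP hlt
      have h2 : ∀ X : Subgroup G, IsPGroup p X → X ≠ ⊥ → N[R] ≤ N[X] → N[X] ≤ M := fun X a b c =>
        ih _ h1 (inf_le_left.trans hR₁.le) (hR₁.isP.to_le inf_le_left) h1.ne_bot X a b
          (inf_le_right.trans c)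
      have h3 : SylIn p R N[Q] := sylIn_of_inf_N hRQ (hR'.mono (le_inf hRQ le_normalizer)
        (le_inf (inf_le_right.trans (h2 R hR hR1 le_rfl)) inf_le_left))
      exact (zj Q R hQ hQ1 h3).trans (h2 _ (hR.to_le ((isFn_ZJn 0).le R))
        (ZJn_ne_bot hR hR1 (Or.inl rfl)) ((isFn_ZJn 0).N_le R))
    · obtain ⟨g, hg, e⟩ := syl_exists_cj_eq hPM hR₁
      have h3 : SylIn p R N[Q] := by
        refine SylIn.mono ?_ hRQ le_top
        rw [← e]; exact sylIn_cj_mem (sylIn_top P) (mem_top g)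
      refine (zj Q R hQ hQ1 h3).trans ?_
      rw [← e, ← (isFn_ZJn 0).cj, cj_eq_of_mem_N hg]
  exact key Q (hQP.trans hPM.le) (P.isPGroup'.to_le hQP) hQ1 Q (P.isPGroup'.to_le hQP) hQ1
    le_normalizer

end Cfsg.Agent.S0658
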