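import Cfsg.Statements.S0660
import Mathlib
import Cfsg.Agent.H5.PLen
import Cfsg.Agent.H1.Coprime2

set_option autoImplicit false
open Cfsg

namespace Cfsg.Agent.S0660

open Subgroup Cfsg.Agent.H18 Cfsg.Agent.H22 Cfsg.Agent.H5b
open scoped commutatorElement

/-- Under a coprime action on an abelian group, an invariant subgroup that is complemented admits an invariant complement. -/
theorem result {G : Type*} [Group G] [Finite G] (V A U : Subgroup G) (hVab : IsMulCommutative V) (hAV : A ≤ Subgroup.normalizer (V : Set G)) (hcop : (Nat.card A).Coprime (Nat.card V)) (hUV : U ≤ V) (hAU : A ≤ Subgroup.normalizer (U : Set G)) (W : Subgroup G) (hWV : W ≤ V) (hUW : U ⊓ W = ⊥) (hUWV : U ⊔ W = V) : ∃ W' : Subgroup G, W' ≤ V ∧ A ≤ Subgroup.normalizer (W' : Set G) ∧ U ⊓ W' = ⊥ ∧ U ⊔ W' = V := by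
  set H := V ⊔ A with hH
  have hVH : V ≤ H := le_sup_left
  have hUH : U ≤ H := hUV.trans hVH
  have hVC : V ≤ C[V] := isMulComm_iff.1 hVab
  have hHU : H ≤ N[U] := sup_le (hVC.trans ((C_anti hUV).trans (C_le_N _))) hAU
  have hHV : H ≤ N[V] := sup_le le_normalizer hAV
  haveI := normal_subgroupOf_of_le_N hHU
  haveI : IsMulCommutative (U.subgroupOf H) := by
    have := H5.isMulCommutative_of_le hVab hUV
    infer_instance
  obtain ⟨L, hL⟩ := H1.gaschutz_exists (U.subgroupOf H) (V.subgroupOf H)
    (comap_mono hUV) (by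
      have h1 : V.relIndex H ∣ Nat.card A := by
        rw [hH, sup_comm, H5.relIndex_sup_of_le_normalizer hAV]
        exact relIndex_dvd_card _ _
      have h2 : Nat.card (U.subgroupOf H) ∣ Nat.card V := by
        rw [← H1.card_map_subtype]
        exact card_dvd_of_le ((map_subgroupOf_eq_of_le hUH).le.trans hUV)
      exact Nat.Coprime.coprime_dvd_left h2 (Nat.Coprime.coprime_dvd_right h1 hcop.symm))
    (W.subgroupOf H) (by
      rw [subgroupOf, subgroupOf, ← comap_inf, inf_comm, hUW, MonoidHom.comap_bot, ker_subtype])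
    (by rw [← subgroupOf_sup hUH (hWV.trans hVH), hUWV])
  have h1 : U ⊔ L.map H.subtype = H := by
    have := congrArg (Subgroup.map H.subtype) hL.sup_eq_top
    rwa [Subgroup.map_sup, map_subgroupOf_eq_of_le hUH, map_subtype_top] at this
  have h2 : U ⊓ L.map H.subtype = ⊥ := by
    have := congrArg (Subgroup.map H.subtype) hL.disjoint.eq_bot
    rwa [map_inf _ _ _ H.subtype_injective, map_subgroupOf_eq_of_le hUH, Subgroup.map_bot] at this
  have hLH : L.map H.subtype ≤ H := map_subtype_le _
  refine ⟨L.map H.subtype ⊓ V, inf_le_right, ?_, ?_, ?_⟩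
  · refine le_sup_right.trans (h1.ge.trans (sup_le ?_ ?_))
    · exact hUV.trans (hVC.trans ((C_anti inf_le_right).trans (C_le_N _)))
    · exact le_N_inf le_normalizer (hLH.trans hHV)
  · rw [← inf_assoc, h2, bot_inf_eq]
  · rw [← dedekind_N' (hLH.trans hHU) hUV, h1, inf_eq_right.2 hVH]

end Cfsg.Agent.S0660
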