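import Cfsg.Statements.S0662
import Mathlib
import Cfsg.Agent.H3.Extra2
import Cfsg.Agent.H3.Aut

set_option autoImplicit false
open Cfsg

namespace Cfsg.Agent.S0662

/-- In a p-group of maximal class of order at least p³ the normal subgroups of index at least p² are exactly the terms of the lower central series, and there are exactly p + 1 normal subgroups of index p. -/
theorem result {G : Type*} [Group G] [Finite G] {p : ℕ} [Fact p.Prime] (n : ℕ) (hG : Nat.card G = p ^ n) (hcl : Group.nilpotencyClass G = n - 1) (hn : 3 ≤ n) : (∀ (N : Subgroup G) [N.Normal] (r : ℕ), 2 ≤ r → N.index = p ^ r → N = (⊤ : Subgroup G).lowerCentralSeries (r - 1)) ∧ Nat.card {N : Subgroup G // N.Normal ∧ N.index = p} = p + 1 := by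
  open Subgroup Cfsg.Agent.FT Cfsg.Agent.H3 in
  open scoped commutatorElement in
  · have hp : p.Prime := Fact.out
    have h := (maxCl_top_iff hG (by omega)).2 hcl
    refine ⟨fun N hN r hr e => ?_, ?_⟩
    · obtain ⟨h1, h2⟩ := card_eq_pow_of_relIndex hp le_top h.card ((relIndex_top_right _).trans e)
      rw [h.eq_lcs (nml_top_iff.2 hN) h2 (by omega), show n - 1 - (n - r) = r - 1 by omega]
    · have h1 := card_of_relIndex le_top (h.Phi_eq hn ▸ h.relIndex_der)
      rw [← card_between hp (Phi_nml ⊤) h1 fun x hx => h.pGrp.pow_mem_Phi hx]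
      refine Nat.card_congr (Equiv.subtypeEquivRight fun B => ⟨fun e => ⟨?_, le_top, ?_⟩, fun e => ?_⟩)
      · exact (maxIn_top_iff.2 (isCoatom_of_index_prime hp e.2)).Phi_le
      · refine Nat.eq_of_mul_eq_mul_left hp.pos ?_
        rw [← mul_assoc, ← pow_two, ← h1, card_top', ← B.index_mul_card, e.2]
      · have : B.index = p := (relIndex_top_right _).symm.trans (relIndex_of_card_mul le_top (by rw [h1, e.2.2]; ring))
        exact ⟨normal_of_index_eq_p (IsPGroup.of_card hG) this, this⟩

end Cfsg.Agent.S0662
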