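import Cfsg.Statements.S0667
import Mathlib
import Cfsg.Agent.H5.ZJ
import Cfsg.Agent.S0632

set_option autoImplicit false
open Cfsg

namespace Cfsg.Agent.S0667

open Subgroup Cfsg.Agent.H18 Cfsg.Agent.H22 Cfsg.Agent.H5b
open scoped commutatorElement

/-- Glauberman's Theorem in the p-constrained, p-stable vocabulary: for odd p such a group is the product of its largest normal subgroup of order prime to p with the normalizer of Z(J(P)), and Z(J(P)) is normal when that p'-subgroup is trivial. -/
theorem result {G : Type*} [Group G] [Finite G] {p : ℕ} [Fact p.Prime] (hp : p ≠ 2) (hc : Cfsg.IsPConstrained p G) (hs : Cfsg.IsPStable p G) (P : Sylow p G) : Cfsg.pPrimeCore p G ⊔ Subgroup.normalizer (Cfsg.centerThompsonAOf ((P : Subgroup G)) : Set G) = ⊤ ∧ (Cfsg.pPrimeCore p G = ⊥ → (Cfsg.centerThompsonAOf ((P : Subgroup G))).Normal) := by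
  rw [centerThompsonAOf_eq]
  have h := ZJn_factorization hp (Or.inl rfl) hc
    (stab_of_isPStable ((S0632.result hs.2.1).1 hs) H2.pPrimeCore_quotient_self) P
  refine ⟨h.2, fun hb => ?_⟩
  have := h.1
  rwa [hb, bot_sup_eq] at this

end Cfsg.Agent.S0667
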