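import Cfsg.Statements.S0668
import Mathlib
import Cfsg.Agent.H16.PermMod

set_option autoImplicit false
open Cfsg

namespace Cfsg.Agent.S0668

/-- The equivariant linear maps between the permutation modules of two finite `G`-sets form a space whose dimension is the number of `G`-orbits on the product of the two sets. -/
theorem result {G : Type*} [Group G] {K : Type*} [Field K] {Ω₁ Ω₂ : Type*} [Fintype Ω₁] [Fintype Ω₂] [MulAction G Ω₁] [MulAction G Ω₂] : Module.finrank K ((Cfsg.permRep K G Ω₁).linHom (Cfsg.permRep K G Ω₂)).invariants = Nat.card (MulAction.orbitRel.Quotient G (Ω₁ × Ω₂)) := by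
  classical
  let Q := MulAction.orbitRel.Quotient G (Ω₁ × Ω₂)
  let mk : Ω₁ × Ω₂ → Q := fun x => Quotient.mk'' x
  have hmk : ∀ (g : G) x, mk (g • x) = mk x := fun g x =>
    Quotient.sound' (by
      change (MulAction.orbitRel G _).r _ _
      rw [MulAction.orbitRel_apply]; exact ⟨g, rfl⟩)
  let φ : (Q → K) →ₗ[K] ((Ω₁ → K) →ₗ[K] (Ω₂ → K)) :=
    { toFun := fun F => Matrix.toLin' (Matrix.of fun y x => F (mk (x, y)))
      map_add' := fun F F' => by rw [← map_add]; rfl
      map_smul' := fun c F => by rw [RingHom.id_apply, ← map_smul]; rfl }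
  have hφ : ∀ F v y, φ F v y = ∑ x, F (mk (x, y)) * v x := by
    intro F v y
    simp [φ, Matrix.mulVec, dotProduct]
  have hinj : Function.Injective φ := by
    rw [injective_iff_map_eq_zero]
    intro F hF
    funext q
    induction q using Quotient.inductionOn' with
    | h z =>
      have := hφ F (Pi.single z.1 1) z.2
      rw [hF, Finset.sum_eq_single z.1] at this
      · simpa using this.symm
      · intro x _ hx; simp [hx]
      · simp
  have hr : LinearMap.range φ = ((Cfsg.permRep K G Ω₁).linHom (Cfsg.permRep K G Ω₂)).invariants := by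
    ext T
    rw [Representation.mem_invariants]
    constructor
    · rintro ⟨F, rfl⟩ g
      apply LinearMap.ext; intro v; funext y
      rw [Representation.linHom_apply]
      change φ F (Cfsg.permRep K G Ω₁ g⁻¹ v) (g⁻¹ • y) = _
      rw [hφ, hφ]
      refine Fintype.sum_equiv (MulAction.toPerm g) _ _ fun x => ?_
      rw [H16.permRep_apply, inv_inv, ← hmk g]
      simp
    · intro hT
      have key : ∀ (g : G) (z : Ω₁ × Ω₂), T (Pi.single (g • z.1) 1) (g • z.2) =
          T (Pi.single z.1 1) z.2 := by
        intro g z
        conv_lhs => rw [← hT g]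
        rw [Representation.linHom_apply]
        change T (Cfsg.permRep K G Ω₁ g⁻¹ _) (g⁻¹ • g • z.2) = _
        rw [inv_smul_smul]
        refine congrFun (congrArg T ?_) _
        funext x
        rw [H16.permRep_apply, inv_inv]
        by_cases hx : x = z.1
        · simp [hx]
        · have : g • x ≠ g • z.1 := fun e => hx (smul_left_cancel g e)
          simp [hx, this]
      refine ⟨Quotient.lift (fun z : Ω₁ × Ω₂ => T (Pi.single z.1 1) z.2) ?_, ?_⟩
      · rintro z w ⟨g, rfl⟩
        exact key g w
      · apply LinearMap.ext; intro v; funext y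
        rw [hφ]
        conv_rhs => rw [← Finset.univ_sum_single v, map_sum, Finset.sum_apply]
        refine Finset.sum_congr rfl fun x _ => ?_
        have : (Pi.single x (v x) : Ω₁ → K) = v x • Pi.single x 1 := by
          funext z; by_cases hz : z = x <;> simp [hz]
        rw [this, map_smul, mul_comm]; rfl
  rw [← hr, LinearMap.finrank_range_of_inj hinj]
  haveI : Finite Q := Quotient.finite _
  haveI := Fintype.ofFinite Q
  rw [Module.finrank_fintype_fun_eq_card, Nat.card_eq_fintype_card]

end Cfsg.Agent.S0668
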