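import Cfsg.Statements.S0677
import Mathlib
import Cfsg.Agent.H16.PrimeDeg
import Cfsg.Agent.S0675

set_option autoImplicit false
open Cfsg

namespace Cfsg.Agent.S0677

theorem card_mod_two_of_invol {β : Type*} [DecidableEq β] (S : Finset β) (σ : β → β)
    (h1 : ∀ x ∈ S, σ x ∈ S) (h2 : ∀ x ∈ S, σ (σ x) = x) :
    S.card % 2 = (S.filter fun x => σ x = x).card % 2 := by
  have h := Finset.card_filter_add_card_filter_not (s := S) (fun x => σ x = x)
  have h3 : ∑ x ∈ S.filter (fun x => ¬ σ x = x), (1 : ZMod 2) = 0 := by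
    apply Finset.sum_involution (fun x _ => σ x)
    · intro x _; decide
    · intro x hx _; exact (Finset.mem_filter.1 hx).2
    · intro x hx
      rw [Finset.mem_filter] at hx ⊢
      exact ⟨h1 x hx.1, by rw [h2 x hx.1]; exact fun e => hx.2 e.symm⟩
    · intro x hx; exact h2 x (Finset.mem_filter.1 hx).1
  rw [Finset.sum_const, nsmul_eq_mul, mul_one, ZMod.natCast_eq_zero_iff] at h3
  omega

/-- In a transitive permutation group of prime degree `p` whose Sylow `p`-normaliser has even order, the point stabilisers are the only subgroups of index `p`. -/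
theorem result {α : Type*} [Fintype α] [DecidableEq α] {p : ℕ} [Fact p.Prime] (hα : Fintype.card α = p) (G : Subgroup (Equiv.Perm α)) [MulAction.IsPretransitive G α] (P : Sylow p G) (heven : Even (Nat.card (Subgroup.normalizer ((P : Subgroup G) : Set G)))) (H : Subgroup G) (hH : H.index = p) : ∃ a : α, H = MulAction.stabilizer G a := by
  classical
  have hp : p.Prime := Fact.out
  have hα' : Nat.card α = p := by rw [Nat.card_eq_fintype_card, hα]
  have hGH : Nat.card G = p * Nat.card H := by rw [← hH, Subgroup.index_mul_card]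
  have hpH : ¬ p ∣ Nat.card H := by
    intro h
    apply H16.not_sq_dvd_card (G := G) hα'
    rw [hGH, pow_two]; exact Nat.mul_dvd_mul_left p h
  have hord : ∀ g ∈ H, g ^ p = 1 → g = 1 := by
    intro g hg h
    rcases (Nat.dvd_prime hp).1 (orderOf_dvd_of_pow_eq_one h) with h1 | h1
    · exact orderOf_eq_one_iff.1 h1
    · exact absurd (h1 ▸ Subgroup.orderOf_dvd_natCard H hg) hpH
  suffices hfix : ∃ a : α, ∀ h ∈ H, h • a = a by
    obtain ⟨a, ha⟩ := hfix
    refine ⟨a, Subgroup.eq_of_le_of_card_ge (fun h hh => ha h hh) (le_of_eq ?_)⟩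
    have := H16.card_eq_card_mul_stabilizer (G := G) a
    rw [hα', hGH] at this
    exact (Nat.eq_of_mul_eq_mul_left hp.pos this).symm
  have hne : Nonempty α := Fintype.card_pos_iff.1 (hα ▸ hp.pos)
  rcases Cfsg.Agent.S0675.result (hα ▸ hp) G with hs | h2
  · -- solvable case
    by_cases hH1 : H = ⊥
    · obtain ⟨a⟩ := hne
      exact ⟨a, fun h hh => by rw [hH1, Subgroup.mem_bot] at hh; rw [hh, one_smul]⟩
    have htop : (⊤ : Subgroup G) ≠ ⊥ := fun h => hH1 (eq_bot_iff.2 (h ▸ le_top))
    obtain ⟨M, hMn, hM, -, hmin⟩ := H16.exists_minNormal_le ⊤ htop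
    have hcomm : IsMulCommutative M := by
      have h1 : ⁅M, M⁆ < M := Group.IsSolvable.commutator_lt_of_ne_bot hM
      rcases hmin ⁅M, M⁆ inferInstance h1.le with h | h
      · exact Subgroup.le_centralizer_iff_isMulCommutative.1
          (Subgroup.commutator_eq_bot_iff_le_centralizer.1 h)
      · exact absurd h h1.ne
    have : MulAction.IsPreprimitive G α := MulAction.IsPreprimitive.of_prime_card (hα' ▸ hp)
    have := H16.normal_trans (α := α) M hM
    obtain ⟨a0⟩ := hne
    have hMc : Nat.card M = p :=
      (H16.card_eq_of_regular a0 (H16.stabilizer_eq_bot_of_comm M hcomm a0)).trans hα'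
    obtain ⟨c, e, -, -, haff⟩ := H16.exists_coord_normalizer hα' M hMc
    rw [Subgroup.normalizer_eq_top] at haff
    have htr : ∀ g ∈ H, ∀ b, (∀ j, g • e j = e (j + b)) → b = 0 := by
      intro g hg b hb
      have h1 : ∀ (n : ℕ) j, g ^ n • e j = e (j + n * b) := by
        intro n j
        induction n with
        | zero => simp
        | succ n ih => rw [pow_succ', mul_smul, ih, hb]; congr 1; push_cast; ring
      have h2 : g = 1 := hord g hg (H16.eq_one_of_smul_eq (α := α) fun x => by
        obtain ⟨j, rfl⟩ := e.surjective x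
        rw [h1]; simp)
      have := hb 0
      rw [h2, one_smul, zero_add] at this
      exact (e.injective this).symm
    obtain ⟨h, hh1⟩ := Subgroup.ne_bot_iff_exists_ne_one.1 hH1
    obtain ⟨a, b, hab⟩ := haff h (Subgroup.mem_top _)
    have ha : 1 - a ≠ 0 := by
      intro ha
      have ha1 : a = 1 := by linear_combination -ha
      have hb := htr h h.2 b (fun j => by rw [hab, ha1, one_mul])
      apply hh1
      apply Subtype.ext
      apply H16.eq_one_of_smul_eq (α := α)
      intro x
      obtain ⟨j, rfl⟩ := e.surjective x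
      rw [hab, ha1, hb]; simp
    refine ⟨e (b / (1 - a)), fun k hk => ?_⟩
    obtain ⟨a', b', hab'⟩ := haff k (Subgroup.mem_top _)
    have := htr ((h * k) * (k * h)⁻¹) (H.mul_mem (H.mul_mem h.2 hk) (H.inv_mem (H.mul_mem hk h.2)))
      ((a * b' + b) - (a' * b + b')) (fun j => by
        obtain ⟨i, hi⟩ := e.surjective ((k * h)⁻¹ • e j)
        rw [mul_smul _ (k * h)⁻¹, ← hi, mul_smul, hab', hab]
        rw [eq_inv_smul_iff, mul_smul, hab, hab'] at hi
        rw [← e.injective hi]; congr 1; ring)
    rw [hab']; congr 1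
    field_simp
    linear_combination -this
  · -- doubly transitive case
    by_contra hno
    push Not at hno
    obtain ⟨a0⟩ := hne
    let B := MulAction.orbit H a0
    have hB : ∀ h ∈ H, ∀ x, h • x ∈ B ↔ x ∈ B := fun h hh x => by
      constructor
      · rintro ⟨k, hk⟩
        refine ⟨(⟨h, hh⟩ : H)⁻¹ * k, ?_⟩
        simp only at hk ⊢
        rw [mul_smul, hk]; exact inv_smul_smul (⟨h, hh⟩ : H) x
      · rintro ⟨k, rfl⟩
        exact ⟨⟨h, hh⟩ * k, mul_smul _ _ _⟩
    have hBu : ∃ x, x ∉ B := by
      by_contra hc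
      push Not at hc
      apply hpH
      have := H16.ncard_orbit_dvd (G := H) a0
      rwa [show MulAction.orbit H a0 = Set.univ from Set.eq_univ_of_forall hc, Set.ncard_univ,
        hα'] at this
    obtain ⟨h0, hh0, hne0⟩ := hno a0
    have ha0 : a0 ∈ B := MulAction.mem_orbit_self a0
    have ha1 : h0 • a0 ∈ B := (hB h0 hh0 a0).2 ha0
    have hp2 : p ≠ 2 := by
      rintro rfl
      obtain ⟨x, hx⟩ := hBu
      have : ({a0, h0 • a0, x} : Finset α).card = 3 := by
        rw [Finset.card_eq_three]
        exact ⟨a0, h0 • a0, x, hne0.symm, fun e => hx (e ▸ ha0), fun e => hx (e ▸ ha1), rfl⟩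
      have := Finset.card_le_univ ({a0, h0 • a0, x} : Finset α)
      omega
    have h2ne : (2 : ZMod p) ≠ 0 := by
      intro h0
      have : ((2 : ℕ) : ZMod p) = 0 := by exact_mod_cast h0
      rw [ZMod.natCast_eq_zero_iff] at this
      exact hp2 ((Nat.prime_dvd_prime_iff_eq hp Nat.prime_two).1 this)
    have hP := H16.card_sylow_prime_deg hα' P
    obtain ⟨c, e, hcP, he, haff⟩ := H16.exists_coord_normalizer hα' (P : Subgroup G) hP
    obtain ⟨t0, ht0⟩ := exists_prime_orderOf_dvd_card'
      (G := Subgroup.normalizer ((P : Subgroup G) : Set G)) 2 (even_iff_two_dvd.1 heven)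
    have ht : orderOf (t0 : G) = 2 := by rw [Subgroup.orderOf_coe, ht0]
    obtain ⟨a, b, hab⟩ := haff t0 t0.2
    have hrefl := H16.reflection_of_invol hp2 ht hab
    generalize (t0 : G) = t at ht hrefl
    have hcp : c ^ p = 1 := by
      have := pow_card_eq_one' (x := (⟨c, hcP⟩ : (P : Subgroup G)))
      rw [hP] at this
      exact congrArg Subtype.val this
    have hc1 : c ≠ 1 := by
      intro h
      have := he 0
      rw [h, one_smul, zero_add] at this
      exact one_ne_zero (e.injective this)
    have hdec : ∀ g : G, ∃ n : ZMod p, ∃ h ∈ H, g = h * c ^ n.val := by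
      intro g
      obtain ⟨e', h0, he'⟩ := H16.exists_coord_at (α := G ⧸ H) (c := c⁻¹) hH
        (by rw [inv_pow, hcp, inv_one]) (a := ((1 : G) : G ⧸ H)) (by
          intro h
          rw [MulAction.Quotient.smul_mk, QuotientGroup.eq] at h
          exact hc1 (hord c (by simpa using h) hcp))
      obtain ⟨j, hj⟩ := e'.surjective ((g⁻¹ : G) : G ⧸ H)
      have := H16.coord_pow he' j.val 0
      rw [h0, zero_add, ZMod.natCast_zmod_val, hj, MulAction.Quotient.smul_mk, eq_comm,
        QuotientGroup.eq] at this
      exact ⟨j, _, this, by simp⟩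
    obtain ⟨m, h1, hh1, hm⟩ := hdec t
    have hsym : ∀ j, e j ∈ B ↔ e (b + m - j) ∈ B := by
      intro j
      have := hrefl (j - m)
      rw [hm, mul_smul, H16.coord_pow he, ZMod.natCast_zmod_val, sub_add_cancel] at this
      rw [← hB h1 hh1, this, show b - (j - m) = b + m - j by ring]
    set s := b + m with hs
    let lam : ZMod p → ℕ := fun d => (Finset.univ.filter fun x => e x ∈ B ∧ e (x + d) ∈ B).card
    let N : ZMod p → ℕ := fun d => Nat.card {g : G // g • e 0 ∈ B ∧ g • e d ∈ B}
    have hN : ∀ d, N d = Nat.card H * lam d := by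
      intro d
      have hsurj : Function.Surjective fun z : H × ZMod p => (z.1 : G) * c ^ z.2.val := by
        intro g
        obtain ⟨n, h, hh, rfl⟩ := hdec g
        exact ⟨(⟨h, hh⟩, n), rfl⟩
      have hbij : Function.Bijective fun z : H × ZMod p => (z.1 : G) * c ^ z.2.val :=
        hsurj.bijective_of_nat_card_le (by rw [Nat.card_prod, Nat.card_zmod, hGH, mul_comm])
      have e1 : {g : G // g • e 0 ∈ B ∧ g • e d ∈ B} ≃
          {z : H × ZMod p // e z.2 ∈ B ∧ e (z.2 + d) ∈ B} :=
        ((Equiv.ofBijective _ hbij).subtypeEquiv (fun z => by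
          simp only [Equiv.ofBijective_apply, mul_smul, hB _ z.1.2, H16.coord_pow he,
            ZMod.natCast_zmod_val, zero_add, add_comm d])).symm
      have e2 : {z : H × ZMod p // e z.2 ∈ B ∧ e (z.2 + d) ∈ B} ≃
          H × {x : ZMod p // e x ∈ B ∧ e (x + d) ∈ B} :=
        ⟨fun z => (z.1.1, ⟨z.1.2, z.2⟩), fun z => ⟨(z.1, z.2.1), z.2.2⟩, fun _ => rfl, fun _ => rfl⟩
      simp only [N, lam]
      rw [Nat.card_congr (e1.trans e2), Nat.card_prod]
      congr 1
      rw [Nat.card_eq_fintype_card, Fintype.card_subtype]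
    have hlam : ∀ d d', d ≠ 0 → d' ≠ 0 → lam d = lam d' := by
      intro d d' hd hd'
      obtain ⟨k, hk0, hk⟩ := H16.two_trans h2 (e.injective.ne hd.symm) (e.injective.ne hd'.symm)
      have : N d' = N d := Nat.card_congr ((Equiv.mulRight k).subtypeEquiv (fun g => by
        simp only [Equiv.coe_mulRight, mul_smul, hk, hk0]))
      rw [hN, hN] at this
      exact (Nat.eq_of_mul_eq_mul_left Nat.card_pos this).symm
    have hpar : ∀ y, lam (s - 2 * y) % 2 = if e y ∈ B then 1 else 0 := by
      intro y
      simp only [lam]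
      rw [card_mod_two_of_invol _ (fun x => 2 * y - x)]
      · have : ((Finset.univ.filter fun x => e x ∈ B ∧ e (x + (s - 2 * y)) ∈ B).filter
            fun x => 2 * y - x = x) = if e y ∈ B then {y} else ∅ := by
          ext x
          have h3 : 2 * y - x = x ↔ x = y := by
            constructor
            · intro h
              have : 2 * (x - y) = 0 := by linear_combination -h
              exact sub_eq_zero.1 ((mul_eq_zero.1 this).resolve_left h2ne)
            · rintro rfl; ring
          simp only [Finset.mem_filter, Finset.mem_univ, true_and, h3]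
          have h4 : y + (s - 2 * y) = s - y := by ring
          split_ifs with hy
          · simp only [Finset.mem_singleton]
            exact ⟨fun h => h.2, fun h => by
              subst h; exact ⟨⟨hy, by rw [h4, ← hsym]; exact hy⟩, rfl⟩⟩
          · simp only [Finset.notMem_empty, iff_false]
            rintro ⟨⟨h, -⟩, rfl⟩
            exact hy h
        rw [this]; split_ifs <;> simp
      · intro x hx
        simp only [Finset.mem_filter, Finset.mem_univ, true_and] at hx ⊢
        constructor
        · rw [hsym]; convert hx.2 using 2; ring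
        · rw [hsym]; convert hx.1 using 2; ring
      · intro x _; ring
    have hconst : ∀ y y', y ≠ s / 2 → y' ≠ s / 2 → e y ∈ B → e y' ∈ B := by
      intro y y' hy hy' hB1
      have k : ∀ y, y ≠ s / 2 → s - 2 * y ≠ 0 := fun y hy h => hy (by
        field_simp; linear_combination -h)
      have k1 := hpar y
      rw [hlam _ _ (k y hy) (k y' hy'), hpar, if_pos hB1] at k1
      by_contra h
      simp [h] at k1
    have hall : ∀ x, x ≠ e (s / 2) → x ∈ B := by
      intro x hx
      obtain ⟨y', rfl⟩ := e.surjective x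
      have hy' : y' ≠ s / 2 := fun h => hx (by rw [h])
      by_cases h : a0 = e (s / 2)
      · obtain ⟨y, hy⟩ := e.surjective (h0 • a0)
        exact hconst y y' (fun h' => hne0 (by rw [← hy, h', h])) hy' (hy ▸ ha1)
      · obtain ⟨y, hy⟩ := e.surjective a0
        exact hconst y y' (fun h' => h (by rw [← hy, h'])) hy' (hy ▸ ha0)
    obtain ⟨x, hx⟩ := hBu
    have hx' : x = e (s / 2) := by by_contra h; exact hx (hall x h)
    obtain ⟨k, hk, hkx⟩ := hno x
    exact hx ((hB k hk x).1 (hall _ (hx' ▸ hkx)))

end Cfsg.Agent.S0677
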