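import Cfsg.Statements.S0679
import Mathlib
import Cfsg.Agent.H16.D11
import Cfsg.Agent.H16.D11b
import Cfsg.Agent.S0676
import Cfsg.Agent.S0498

set_option autoImplicit false
open Cfsg

namespace Cfsg.Agent.S0679

open MulAction Subgroup Equiv Cfsg.Agent.H16 Cfsg.Agent.H16.D11

/-- A non-solvable transitive permutation group on 11 points that does not contain the alternating group is either sharply 4-transitive (of order 7920) or isomorphic to the projective special linear group of degree 2 over the field with 11 elements. -/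
theorem result {α : Type*} [Fintype α] [DecidableEq α] (hα : Fintype.card α = 11) (G : Subgroup (Equiv.Perm α)) [MulAction.IsPretransitive G α] (hG : ¬ Group.IsSolvable G) (hA : ¬ alternatingGroup α ≤ G) : (MulAction.IsMultiplyPretransitive G α 4 ∧ ∀ x : Fin 4 ↪ α, MulAction.stabilizer G x = ⊥) ∨ Nonempty (G ≃* Matrix.ProjectiveSpecialLinearGroup (Fin 2) (ZMod 11)) := by
  have : Fact (Nat.Prime 11) := ⟨by norm_num⟩
  have cn : Nat.card α = 11 := by rw [Nat.card_eq_fintype_card, hα]
  by_cases he : G ≤ alternatingGroup α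
  · obtain ⟨_, h | h⟩ := even hα hA hG he
    · exact .inr (S0498.result 11 (.inl rfl) (by rw [h]; norm_num) (ZMod.card 11))
    · exact .inl (sharp7920 cn h)
  exfalso
  have : Nontrivial α := Fintype.one_lt_card_iff_nontrivial.1 (by omega)
  let H := G ⊓ alternatingGroup α
  have i2 : H.relIndex G = 2 := by
    rw [inf_relIndex_left]
    exact ((Nat.dvd_prime Nat.prime_two).1 (alternatingGroup.index_eq_two (α := α) ▸
      relIndex_dvd_index_of_normal _ G)).resolve_left fun h => he (relIndex_eq_one.1 h)
  have c2 := H4.card_mul_relIndex (show H ≤ G from inf_le_left)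
  have : IsPretransitive H α := ⟨fun a b => by
    obtain ⟨g, hg⟩ := (trans_of_coprime_index (α := α) (H.subgroupOf G)
      (by rw [cn, ← relIndex, i2]; norm_num)).exists_smul_eq a b
    exact ⟨⟨g.1.1, g.2⟩, hg⟩⟩
  rw [i2] at c2
  obtain ⟨-, h | h⟩ := even (G := H) hα (fun h => hA (h.trans inf_le_left)) (fun h => hG
    (Group.isSolvable_of_ker_le_range (inclusion (show H ≤ G from inf_le_left))
      (Perm.sign.comp G.subtype) fun g hg => ⟨⟨g, g.2, hg⟩, rfl⟩)) inf_le_right
  · obtain ⟨P⟩ : Nonempty (Sylow 11 G) := inferInstance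
    have c := card_eq_prime_deg cn P
    have de := relIndex_normalizer_dvd_prime_deg cn P
    have m := card_sylow_modEq_one 11 G
    have cN := H4.card_mul_relIndex (le_normalizer (H := (P : Subgroup G)))
    have h3 := fun h => descFactorial_dvd_card (S0676.result hα G hG P h) (by omega)
    rw [← cN, card_sylow_prime_deg cn P, cn, show Nat.descFactorial 11 3 = 990 by decide] at h3
    generalize (P : Subgroup G).relIndex (normalizer ((P : Subgroup G) : Set G)) = e at *
    have := Nat.le_of_dvd (by omega) de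
    rw [Nat.ModEq] at m
    obtain rfl : e = 10 := by interval_cases e <;> omega
    have := h3 (by decide)
    omega
  obtain ⟨t4, s4⟩ := sharp7920 cn h
  have sh : ∀ g : G, Perm.sign (g : Perm α) = 1 → ∀ s : Finset α, 4 ≤ s.card →
      (∀ x ∈ s, g • x = x) → g = 1 := fun g hg s hs h => Subtype.ext
    (congrArg (fun z : H => (z : Perm α)) (sharp_finset s4 s hs ⟨g, g.2, hg⟩ h))
  replace t4 := mtrans_of_le (show H ≤ G from inf_le_left) t4
  obtain ⟨x⟩ : Nonempty (Fin 4 ↪ α) := Function.Embedding.nonempty_of_card_le (by simp; omega)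
  have cx := card_eq_descFactorial_mul t4 x
  obtain ⟨d, hd⟩ : ∃ d, Nat.card (stabilizer G x) = d := ⟨_, rfl⟩
  replace cx : Nat.card G = 7920 * d := cx.trans (by rw [cn]; exact congrArg _ hd)
  obtain ⟨⟨t, ht⟩, o⟩ := exists_prime_orderOf_dvd_card' (G := stabilizer G x) 2 (by omega)
  rw [← Subgroup.orderOf_coe] at o
  change orderOf t = 2 at o
  have fx : ∀ y ∈ Finset.univ.map x, t • y = y := fun y hy => by
    obtain ⟨i, -, rfl⟩ := Finset.mem_map.1 hy
    exact congrArg (fun f : Fin 4 ↪ α => f i) ht
  have n5 : nfix α t = 5 := by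
    have h1 := nfix_mod hα (g := t) (o ▸ Nat.prime_two)
    have h2 := nfix_le11 hα hA (g := t) (o ▸ Nat.prime_two) (by omega)
    have h3 := Set.ncard_le_ncard (s := (Finset.univ.map x : Set α)) (t := fixedBy α t) fx
    rw [Set.ncard_coe_finset, Finset.card_map, Finset.card_fin, ← nfix_eq_ncard] at h3
    rw [o] at h1 h2
    by_contra h4
    have h5 := sign2 hα o
    rw [show nfix α t = 7 by omega] at h5
    rw [sh t h5 _ (by simp) fx, orderOf_one] at o
    omega
  have ho : orbit (centralizer ({t} : Set G)) (x 0) = fixedBy α t := by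
    have f0 : t • x 0 = x 0 := fx _ (Finset.mem_map_of_mem _ (Finset.mem_univ _))
    refine Set.Subset.antisymm ?_ fun b hb => ?_
    · rintro _ ⟨c, rfl⟩
      change t • (c : G) • x 0 = (c : G) • x 0
      rw [← mul_smul, c.2 t rfl, mul_smul, f0]
    obtain ⟨g, hg⟩ := mtrans_finset_eq t4 (Finset.univ.map x) (by simp) (swap (x 0) b)
      (swap _ _).injective.injOn
    have tt : t * t = 1 := by rw [← sq, ← o, pow_orderOf_eq_one]
    have := sh (t * (g⁻¹ * t * g)) (by
      change (Perm.sign.comp G.subtype) (t * (g⁻¹ * t * g)) = 1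
      rw [map_mul, map_mul, map_mul, map_inv, inv_mul_cancel_comm, Int.units_mul_self])
      (Finset.univ.map x) (by simp) fun y hy => by
      have : t • g • y = g • y := by
        rw [hg y hy, swap_apply_def]
        split_ifs
        exacts [hb, f0, fx y hy]
      rw [mul_smul, mul_smul, mul_smul, this, inv_smul_smul, fx y hy]
    refine ⟨⟨g, mem_centralizer_singleton_iff.2 ?_⟩,
      (hg _ (Finset.mem_map_of_mem _ (Finset.mem_univ _))).trans (swap_apply_left _ _)⟩
    rw [mul_left_cancel (tt.trans this.symm), ← mul_assoc, ← mul_assoc, mul_inv_cancel, one_mul,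
      ← mul_left_cancel (tt.trans this.symm)]
  have d := ncard_orbit_dvd (G := centralizer ({t} : Set G)) (x 0)
  rw [ho, ← nfix_eq_ncard, n5] at d
  have : Fact (Nat.Prime 5) := ⟨by norm_num⟩
  obtain ⟨y, hy⟩ := exists_prime_orderOf_dvd_card' 5 d
  rw [← Subgroup.orderOf_coe] at hy
  have := comm5 hα hA hy (y.2 t rfl)
  omega

end Cfsg.Agent.S0679
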