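import Cfsg.Statements.S0680
import Mathlib
import Cfsg.Agent.H16.NormalMult

set_option autoImplicit false
open Cfsg

namespace Cfsg.Agent.S0680

/-- A finite sharply doubly transitive permutation group has degree a prime power `p ^ j`; a Sylow `p`-subgroup is normal, elementary abelian and regular, and consists of the identity together with the elements without fixed points. (Frobenius' Theorem is not needed.) -/
theorem result {α : Type*} [Fintype α] [DecidableEq α] (G : Subgroup (Equiv.Perm α)) [MulAction.IsMultiplyPretransitive G α 2] (hsharp : ∀ x : Fin 2 ↪ α, MulAction.stabilizer G x = ⊥) (h2 : 2 ≤ Fintype.card α) : ∃ p j : ℕ, p.Prime ∧ 1 ≤ j ∧ Fintype.card α = p ^ j ∧ ∀ (hp : Fact p.Prime) (P : Sylow p G), (P : Subgroup G).Normal ∧ IsMulCommutative (P : Subgroup G) ∧ (∀ x ∈ (P : Subgroup G), x ^ p = 1) ∧ MulAction.IsPretransitive (P : Subgroup G) α ∧ (∀ a : α, MulAction.stabilizer (P : Subgroup G) a = ⊥) ∧ ∀ g : G, g ∈ (P : Subgroup G) ↔ g = 1 ∨ ∀ a : α, g • a ≠ a := by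
  open MulAction in
  have h2' : IsMultiplyPretransitive G α 2 := inferInstance
  have : Nontrivial α := Fintype.one_lt_card_iff_nontrivial.1 h2
  have : IsPretransitive G α := isPretransitive_of_is_two_pretransitive
  obtain ⟨K, hKn, hK, ht, hr⟩ := H16.exists_frob_kernel (G := G) (α := α)
    fun g a b hab ha hb => H16.sharp_two hsharp hab ha hb
  obtain ⟨a⟩ : Nonempty α := inferInstance
  obtain ⟨hc, p, hp, he⟩ := H16.elemAb_of_two_trans h2' K (hr a)
  obtain ⟨j, hj⟩ := H16.card_eq_pow_of_exponent hp he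
  have hcard := H16.card_eq_of_regular a (hr a)
  rw [hj, Nat.card_eq_fintype_card] at hcard
  have hj1 : 1 ≤ j := by
    rcases j with _ | j
    · rw [pow_zero] at hcard; omega
    · omega
  refine ⟨p, j, hp, hj1, hcard.symm, fun _ P => ?_⟩
  have hPK : (P : Subgroup G) = K := by
    have hKp : IsPGroup p K := IsPGroup.of_card hj
    have h1 : K ≤ P := hKp.le_sylow_of_normal P
    refine le_antisymm (fun g hg => (hK g).2 ?_) h1
    by_contra hc
    push Not at hc
    obtain ⟨hg1, x, hx⟩ := hc
    obtain ⟨k, hk⟩ := P.isPGroup' ⟨g, hg⟩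
    have h3 := H16.nfix_modEq (α := α) hp (g := g) (congrArg Subtype.val hk)
    have h4 : H16.nfix α g = 1 := by
      rw [H16.nfix_eq_ncard, Set.ncard_eq_one]
      refine ⟨x, Set.eq_singleton_iff_unique_mem.2 ⟨hx, fun y hy => ?_⟩⟩
      by_contra hne
      exact hg1 (H16.sharp_two hsharp hne hy hx)
    rw [h4, Nat.card_eq_fintype_card, ← hcard] at h3
    have h5 := (h3.trans ((Nat.modEq_zero_iff_dvd).2 (dvd_pow_self p (by omega))))
    rw [Nat.modEq_zero_iff_dvd, Nat.dvd_one] at h5
    exact hp.one_lt.ne' h5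
  rw [hPK]
  exact ⟨hKn, hc, he, ht, hr, hK⟩

end Cfsg.Agent.S0680
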