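import Cfsg.Statements.S0681
import Mathlib
import Cfsg.Agent.H16.Prim

set_option autoImplicit false
open Cfsg

namespace Cfsg.Agent.S0681

theorem zero_mul' {F : Type*} [Cfsg.NearField F] (a : F) : (0 : F) * a = 0 := by
  have := Cfsg.NearField.right_distrib (0 : F) 0 a
  rw [add_zero] at this
  exact left_eq_add.1 this

theorem neg_mul' {F : Type*} [Cfsg.NearField F] (a b : F) : (-a) * b = -(a * b) := by
  have := Cfsg.NearField.right_distrib (-a) a b
  rw [neg_add_cancel, zero_mul'] at this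
  exact eq_neg_of_add_eq_zero_left this.symm

theorem mul_ne_zero' {F : Type*} [Cfsg.NearField F] {a b : F} (ha : a ≠ 0) (hb : b ≠ 0) :
    a * b ≠ 0 := by
  intro h
  obtain ⟨c, hc, -⟩ := Cfsg.NearField.exists_inv b hb
  apply ha
  rw [← mul_one a, ← hc, ← mul_assoc, h, zero_mul']

theorem sub_mul' {F : Type*} [Cfsg.NearField F] (a b c : F) : (a - b) * c = a * c - b * c := by
  rw [sub_eq_add_neg, Cfsg.NearField.right_distrib, neg_mul', sub_eq_add_neg]

theorem exists_perm {F : Type*} [Cfsg.NearField F] {a : F} (ha : a ≠ 0) (b : F) :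
    ∃ σ : Equiv.Perm F, ∀ x, σ x = x * a + b := by
  obtain ⟨c, hc, hc'⟩ := Cfsg.NearField.exists_inv a ha
  exact ⟨⟨fun x => x * a + b, fun y => (y - b) * c,
    fun x => by simp [mul_assoc, hc], fun y => by simp [mul_assoc, hc']⟩, fun x => rfl⟩

/-- The affine maps `x ↦ x * a + b`, `a ≠ 0`, of a near-field form a sharply doubly transitive permutation group. -/
theorem result {F : Type*} [Cfsg.NearField F] : ∃ H : Subgroup (Equiv.Perm F), (∀ σ : Equiv.Perm F, σ ∈ H ↔ ∃ a b : F, a ≠ 0 ∧ ∀ x : F, σ x = x * a + b) ∧ MulAction.IsMultiplyPretransitive H F 2 ∧ ∀ x : Fin 2 ↪ F, MulAction.stabilizer H x = ⊥ := by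
  let H : Subgroup (Equiv.Perm F) :=
    { carrier := {σ | ∃ a b : F, a ≠ 0 ∧ ∀ x : F, σ x = x * a + b}
      one_mem' := ⟨1, 0, Cfsg.NearField.zero_ne_one.symm, fun x => by simp⟩
      mul_mem' := by
        rintro σ τ ⟨a, b, ha, hσ⟩ ⟨c, d, hc, hτ⟩
        refine ⟨c * a, d * a + b, mul_ne_zero' hc ha, fun x => ?_⟩
        simp [hσ, hτ, Cfsg.NearField.right_distrib, mul_assoc, add_assoc]
      inv_mem' := by
        rintro σ ⟨a, b, ha, hσ⟩
        obtain ⟨c, hc, hc'⟩ := Cfsg.NearField.exists_inv a ha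
        refine ⟨c, -b * c, ?_, fun x => ?_⟩
        · rintro rfl
          rw [Cfsg.NearField.mul_zero] at hc
          exact Cfsg.NearField.zero_ne_one hc
        · apply σ.injective
          rw [Equiv.Perm.inv_def, Equiv.apply_symm_apply, hσ, ← Cfsg.NearField.right_distrib,
            mul_assoc, hc', mul_one, neg_add_cancel_right] }
  refine ⟨H, fun σ => Iff.rfl, ?_, ?_⟩
  · rw [MulAction.is_two_pretransitive_iff]
    intro x y z w hxy hzw
    obtain ⟨c, hc, hc'⟩ := Cfsg.NearField.exists_inv (x - y) (sub_ne_zero.2 hxy)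
    have hc0 : c ≠ 0 := by
      rintro rfl
      rw [Cfsg.NearField.mul_zero] at hc
      exact Cfsg.NearField.zero_ne_one hc
    have ha : c * (z - w) ≠ 0 := mul_ne_zero' hc0 (sub_ne_zero.2 hzw)
    obtain ⟨σ, hσ⟩ := exists_perm ha (-(y * (c * (z - w))) + w)
    have h1 : x * (c * (z - w)) - y * (c * (z - w)) = z - w := by
      rw [← sub_mul', ← mul_assoc, hc, one_mul]
    refine ⟨⟨σ, _, _, ha, hσ⟩, ?_, ?_⟩
    · change σ x = z
      rw [hσ, ← add_assoc, ← sub_eq_add_neg, h1, sub_add_cancel]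
    · change σ y = w
      rw [hσ, add_neg_cancel_left]
  · apply H16.sharp_two_of
    rintro x y hxy ⟨σ, a, b, ha, hσ⟩ hx hy
    change σ x = x at hx
    change σ y = y at hy
    rw [hσ] at hx hy
    have h1 : (x - y) * a = (x - y) * 1 := by
      rw [sub_mul', mul_one, eq_sub_of_add_eq hx, eq_sub_of_add_eq hy]
      simp
    obtain ⟨c, hc, hc'⟩ := Cfsg.NearField.exists_inv (x - y) (sub_ne_zero.2 hxy)
    have ha1 : a = 1 := by
      have := congrArg (c * ·) h1
      simpa [← mul_assoc, hc'] using this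
    rw [ha1, mul_one] at hx
    have hb : b = 0 := by simpa using hx
    ext z
    simp [hσ, ha1, hb]

end Cfsg.Agent.S0681
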