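import Cfsg.Statements.S0682
import Mathlib
import Cfsg.Agent.H16.BigOrb
import Cfsg.Agent.S0681

set_option autoImplicit false
open Cfsg

namespace Cfsg.Agent.S0682

/-- A finite near-field has prime-power order; its additive group is commutative of prime exponent. -/
theorem result {F : Type*} [Cfsg.NearField F] [Finite F] : ∃ p j : ℕ, p.Prime ∧ 1 ≤ j ∧ Nat.card F = p ^ j ∧ (∀ x y : F, x + y = y + x) ∧ ∀ x : F, p • x = 0 := by
  obtain ⟨hc, p, hp, h⟩ := H16.elemAb_of_aut_trans (F := Multiplicative F) (by
    intro x y hx hy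
    obtain ⟨c, hc, hc'⟩ := Cfsg.NearField.exists_inv x.toAdd hx
    have hc0 : c ≠ 0 := by
      rintro rfl
      rw [Cfsg.NearField.mul_zero] at hc
      exact Cfsg.NearField.zero_ne_one hc
    obtain ⟨d, hd, hd'⟩ := Cfsg.NearField.exists_inv _ (S0681.mul_ne_zero' hc0 (b := y.toAdd) hy)
    refine ⟨AddEquiv.toMultiplicative
      { toFun := fun z => z * (c * y.toAdd)
        invFun := fun z => z * d
        left_inv := fun z => by simp only [mul_assoc z, hd, mul_one]
        right_inv := fun z => by simp only [mul_assoc z, hd', mul_one]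
        map_add' := fun a b => Cfsg.NearField.right_distrib a b _ }, ?_⟩
    change x.toAdd * (c * y.toAdd) = y.toAdd
    rw [← mul_assoc, hc, one_mul])
  have := Fact.mk hp
  obtain ⟨j, hj⟩ := (IsPGroup.iff_card (p := p) (G := Multiplicative F)).1
    fun n => ⟨1, by simpa using h n⟩
  have hj' : Nat.card F = p ^ j := hj
  refine ⟨p, j, hp, ?_, hj', fun x y => hc.is_comm.comm (Multiplicative.ofAdd x)
    (Multiplicative.ofAdd y), fun x => h (Multiplicative.ofAdd x)⟩
  have : Nontrivial F := ⟨0, 1, Cfsg.NearField.zero_ne_one⟩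
  have := Finite.one_lt_card (α := F)
  rcases j with _ | j
  · rw [pow_zero] at hj'; omega
  · omega

end Cfsg.Agent.S0682
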