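import Cfsg.Statements.S0683
import Mathlib
import Cfsg.Agent.H16.BigOrb

set_option autoImplicit false
open Cfsg

namespace Cfsg.Agent.S0683

/-- A finite sharply doubly transitive permutation group is the affine group of a near-field: the permuted set carries a near-field structure for which the group consists exactly of the maps `x ↦ x * a + b` with `a ≠ 0`. -/
theorem result {α : Type*} [Fintype α] [DecidableEq α] (H : Subgroup (Equiv.Perm α)) [MulAction.IsMultiplyPretransitive H α 2] (hsharp : ∀ x : Fin 2 ↪ α, MulAction.stabilizer H x = ⊥) (h2 : 2 ≤ Fintype.card α) : ∃ _ : Cfsg.NearField α, ∀ σ : Equiv.Perm α, σ ∈ H ↔ ∃ a b : α, a ≠ 0 ∧ ∀ x : α, σ x = x * a + b := by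
  open MulAction in
  have h2' : IsMultiplyPretransitive H α 2 := inferInstance
  have : Nontrivial α := Fintype.one_lt_card_iff_nontrivial.1 h2
  have : IsPretransitive H α := isPretransitive_of_is_two_pretransitive
  obtain ⟨K, hKn, hK, ht, hr⟩ := H16.exists_frob_kernel (G := H) (α := α)
    fun g a b hab ha hb => H16.sharp_two hsharp hab ha hb
  obtain ⟨o, e, hoe⟩ := exists_pair_ne α
  obtain ⟨hc, -⟩ := H16.elemAb_of_two_trans h2' K (hr o)
  let E : K ≃ α := Equiv.ofBijective _ (H16.bijective_smul_of_regular o (hr o))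
  have hE : ∀ k : K, E k = (k : H) • o := fun _ => rfl
  have hE' : ∀ x : α, ((E.symm x : K) : H) • o = x := fun x => by rw [← hE, E.apply_symm_apply]
  letI A : AddGroup α := (E.symm.trans Additive.ofMul).addGroup
  have hadd : ∀ x y : α, x + y = ((E.symm x : K) : H) • ((E.symm y : K) : H) • o := by
    intro x y
    change E (E.symm x * E.symm y) = _
    rw [hE, Subgroup.coe_mul, mul_smul]
  have hzero : (0 : α) = o := by
    change E 1 = o
    rw [hE]; simp
  have hadd' : ∀ x y : α, x + y = ((E.symm y : K) : H) • x := by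
    intro x y
    rw [hadd, ← mul_smul, ← Subgroup.coe_mul, hc.is_comm.comm, Subgroup.coe_mul, mul_smul, hE']
  have hex : ∀ a : α, ∃ h : H, a ≠ o → h • o = o ∧ h • e = a := by
    intro a
    by_cases ha : a = o
    · exact ⟨1, fun h => absurd ha h⟩
    · obtain ⟨h, h1⟩ := H16.two_trans h2' hoe (Ne.symm ha)
      exact ⟨h, fun _ => h1⟩
  choose m hm using hex
  have huniq : ∀ (h : H) (a : α), h • o = o → h • e = a → a ≠ o ∧ m a = h := by
    intro h a h1 h2
    have ha : a ≠ o := by
      rw [← h2, ← h1]; simpa using hoe.symm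
    refine ⟨ha, ?_⟩
    have : h⁻¹ * m a = 1 := H16.sharp_two hsharp hoe
      (by rw [mul_smul, (hm a ha).1, inv_smul_eq_iff, h1])
      (by rw [mul_smul, (hm a ha).2, inv_smul_eq_iff, h2])
    exact (inv_mul_eq_one.1 this).symm
  let mul : α → α → α := fun x a => if a = o then o else m a • x
  have hmul : ∀ x a, a ≠ o → mul x a = m a • x := fun x a ha => if_neg ha
  have hmul0 : ∀ x, mul x o = o := fun x => if_pos rfl
  have h0mul : ∀ a, mul o a = o := fun a => by
    by_cases ha : a = o
    · rw [ha, hmul0]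
    · rw [hmul _ _ ha, (hm a ha).1]
  have hme : m e = 1 := (huniq 1 e (by simp) (by simp)).2
  letI M : Monoid α :=
    { mul := mul
      one := e
      mul_assoc := fun x a b => by
        change mul (mul x a) b = mul x (mul a b)
        by_cases hb : b = o
        · rw [hb, hmul0, hmul0, hmul0]
        by_cases ha : a = o
        · rw [ha, hmul0, h0mul, hmul0]
        obtain ⟨h1, h2⟩ := huniq (m b * m a) (m b • a)
          (by rw [mul_smul, (hm a ha).1, (hm b hb).1]) (by rw [mul_smul, (hm a ha).2])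
        rw [hmul _ _ hb, hmul _ _ ha, hmul _ _ hb, hmul _ _ h1, h2, mul_smul]
      one_mul := fun a => by
        change mul e a = a
        by_cases ha : a = o
        · rw [ha, hmul0]
        · rw [hmul _ _ ha, (hm a ha).2]
      mul_one := fun a => by
        change mul a e = a
        rw [hmul _ _ hoe.symm, hme, one_smul] }
  have hlin : ∀ h : H, h • o = o → ∀ x y : α, h • (x + y) = h • x + h • y := by
    intro h ho x y
    have h1 : E.symm (h • y) = ⟨h * E.symm y * h⁻¹, hKn.conj_mem _ (E.symm y).2 h⟩ := by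
      rw [Equiv.symm_apply_eq, hE, H16.conj_smul_of_fix ho, hE']
    rw [hadd', hadd', h1]
    simp [mul_smul]
  refine ⟨{ A, M with
    right_distrib := fun a b c => ?_
    mul_zero := fun a => ?_
    zero_ne_one := ?_
    exists_inv := fun a ha => ?_ }, fun σ => ?_⟩
  · change mul (a + b) c = mul a c + mul b c
    by_cases hc : c = o
    · rw [hc, hmul0, hmul0, hmul0, ← hzero, add_zero]
    · rw [hmul _ _ hc, hmul _ _ hc, hmul _ _ hc, hlin _ (hm c hc).1]
  · change mul a 0 = 0
    rw [hzero, hmul0]
  · rw [hzero]; exact hoe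
  · change a ≠ 0 at ha
    rw [hzero] at ha
    obtain ⟨h1, h2⟩ := huniq (m a)⁻¹ ((m a)⁻¹ • e) (by rw [inv_smul_eq_iff, (hm a ha).1]) rfl
    refine ⟨(m a)⁻¹ • e, ?_, ?_⟩
    · change mul a _ = e
      rw [hmul _ _ h1, h2, inv_smul_eq_iff, (hm a ha).2]
    · change mul _ a = e
      rw [hmul _ _ ha, smul_inv_smul]
  · change σ ∈ H ↔ ∃ a b : α, a ≠ 0 ∧ ∀ x : α, σ x = mul x a + b
    rw [hzero]
    constructor
    · intro hσ
      obtain ⟨k, hk, h, hh, e1⟩ := H16.exists_mul_stabilizer K o (⟨σ, hσ⟩ : H)
      obtain ⟨h1, h2⟩ := huniq h (h • e) hh rfl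
      refine ⟨h • e, E ⟨k, hk⟩, h1, fun x => ?_⟩
      rw [hmul _ _ h1, h2, hadd', E.symm_apply_apply, ← mul_smul, ← e1]
      rfl
    · rintro ⟨a, b, ha, h⟩
      have : σ = ((E.symm b : K) : H) * m a := by
        ext x
        rw [h, hmul _ _ ha, hadd']
        rfl
      rw [this]
      exact H.mul_mem (Subtype.prop _) (Subtype.prop _)

end Cfsg.Agent.S0683
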