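import Cfsg.Statements.S0685
import Mathlib
import Cfsg.Agent.H16.NearField

set_option autoImplicit false
open Cfsg

namespace Cfsg.Agent.S0685

/-- In a linear group over the prime field that is regular on non-zero vectors and has no irreducible cyclic normal subgroup, a maximal normal abelian subgroup is properly contained in its centraliser, which is non-abelian. -/
theorem result {p : ℕ} [Fact p.Prime] {V : Type*} [AddCommGroup V] [Module (ZMod p) V] [Finite V] (H : Subgroup (V ≃ₗ[ZMod p] V)) (hreg : ∀ v w : V, v ≠ 0 → w ≠ 0 → ∃! h : H, (h : V ≃ₗ[ZMod p] V) v = w) (hI : ∀ A : Subgroup H, A.Normal → IsCyclic A → ∃ W : Submodule (ZMod p) V, W ≠ ⊥ ∧ W ≠ ⊤ ∧ ∀ a ∈ A, ∀ v ∈ W, ((a : H) : V ≃ₗ[ZMod p] V) v ∈ W) (A : Subgroup H) (hAn : A.Normal) (hAc : IsMulCommutative A) (hAmax : ∀ B : Subgroup H, B.Normal → IsMulCommutative B → A ≤ B → B = A) : A < Subgroup.centralizer (A : Set H) ∧ ¬ IsMulCommutative (Subgroup.centralizer (A : Set H)) := by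
  obtain ⟨_, hf, ht⟩ := H16.free_trans_of_regular hreg
  have := H16.nontrivial_of_sub (hI ⊥ inferInstance inferInstance).choose_spec.1
  obtain ⟨U, h1, h2, h3⟩ := hI A hAn (hf.noInt'.isCyclic_of_comm A)
  have h4 := ht.lt_centralizer hf.injective A h1 h2 h3
  exact ⟨h4, H16.MaxNA.ncomm ⟨hAn, hAc, hAmax⟩ h4⟩

end Cfsg.Agent.S0685
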