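import Cfsg.Statements.S0691
import Mathlib

set_option autoImplicit false
open Cfsg

namespace Cfsg.Agent.S0691

open Matrix Subgroup

/-- quadruples -/
abbrev T := ℕ × ℕ × ℕ × ℕ

section
variable {p : ℕ}

/-- product -/
def mu (p : ℕ) (x y : T) : T :=
  ((x.1 * y.1 + x.2.1 * y.2.2.1) % p, (x.1 * y.2.1 + x.2.1 * y.2.2.2) % p,
    (x.2.2.1 * y.1 + x.2.2.2 * y.2.2.1) % p, (x.2.2.1 * y.2.1 + x.2.2.2 * y.2.2.2) % p)

/-- the matrix -/
def toM (p : ℕ) (x : T) : Matrix (Fin 2) (Fin 2) (ZMod p) := !![x.1, x.2.1; x.2.2.1, x.2.2.2]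

/-- equality test -/
def eq4 (x y : T) : Bool :=
  x.1.beq y.1 && x.2.1.beq y.2.1 && x.2.2.1.beq y.2.2.1 && x.2.2.2.beq y.2.2.2

theorem eq4_iff {x y : T} : eq4 x y = true ↔ x = y := by simp [eq4, Prod.ext_iff, and_assoc]

/-- every entry is new, reduced and a product of a generator and a later entry -/
def reach (p : ℕ) (t : List T) : List T → Bool
  | [] => true
  | x :: r => (eq4 x (1, 0, 0, 1) || r.any fun y => t.any fun s => eq4 x (mu p s y)) &&
    !r.any (eq4 x) && (x.1.blt p && x.2.1.blt p && x.2.2.1.blt p && x.2.2.2.blt p) && reach p t r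

/-- the list is closed under the generators -/
def clo (p : ℕ) (t l : List T) : Bool :=
  l.any (eq4 (1, 0, 0, 1)) && t.all fun s => l.all fun x => l.any (eq4 (mu p s x))

theorem toM_mu (x y : T) : toM p (mu p x y) = toM p x * toM p y := by simp [toM, mu]

theorem toM_one : toM p (1, 0, 0, 1) = 1 := by simp [toM, Matrix.one_fin_two]

variable [Fact p.Prime]

theorem enum (g : List (GL (Fin 2) (ZMod p))) (t : List T) (h : g.map (↑) = t.map (toM p))
    (l : List T) (h1 : reach p t l = true) (h2 : clo p t l = true) :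
    Nat.card (Subgroup.closure {a | a ∈ g}) = l.length ∧
      ∀ a ∈ Subgroup.closure {a | a ∈ g}, ∃ x ∈ l, ↑a = toM p x := by
  simp only [clo, Bool.and_eq_true, List.any_eq_true, List.all_eq_true, eq4_iff,
    exists_eq_right'] at h2
  have a1 : ∀ a ∈ Subgroup.closure {a | a ∈ g}, ∃ x ∈ l, ↑a = toM p x := fun a ha => by
    replace ha : a ∈ Submonoid.closure {a | a ∈ g} := by
      rw [← closure_toSubmonoid_of_finite]; exact ha
    induction ha using Submonoid.closure_induction_left with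
    | one => exact ⟨_, h2.1, toM_one.symm⟩
    | mul_left a ha b _ ih =>
      obtain ⟨s, hs, e'⟩ := List.mem_map.1 (h ▸ List.mem_map_of_mem ha)
      obtain ⟨x, hx, e⟩ := ih
      exact ⟨_, h2.2 s hs x hx, by rw [toM_mu, e', ← e]; rfl⟩
  have a2 : ∀ l, reach p t l = true → l.Nodup ∧ ∀ x ∈ l, (x.1 < p ∧ x.2.1 < p ∧ x.2.2.1 < p ∧
      x.2.2.2 < p) ∧ ∃ a ∈ Subgroup.closure {a | a ∈ g}, ↑a = toM p x := fun l hl => by
    induction l with
    | nil => simp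
    | cons x r ih =>
      simp only [reach, Bool.and_eq_true, Bool.or_eq_true, List.any_eq_true, eq4_iff,
        Bool.not_eq_true', ← Bool.not_eq_true, exists_eq_right', Nat.blt_eq, and_assoc] at hl
      obtain ⟨e, hx, b1, b2, b3, b4, hr⟩ := hl
      refine ⟨List.nodup_cons.2 ⟨hx, (ih hr).1⟩, List.forall_mem_cons.2 ⟨⟨⟨b1, b2, b3, b4⟩, ?_⟩,
        (ih hr).2⟩⟩
      rcases e with rfl | ⟨y, hy, s, hs, rfl⟩
      · exact ⟨1, one_mem _, toM_one.symm⟩
      obtain ⟨a, ha, e⟩ := ((ih hr).2 y hy).2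
      obtain ⟨b, hb, e'⟩ := List.mem_map.1 (h ▸ List.mem_map_of_mem (f := toM p) hs)
      exact ⟨b * a, mul_mem (subset_closure hb) ha, by rw [toM_mu, ← e', ← e]; rfl⟩
  obtain ⟨nd, a2⟩ := a2 l h1
  refine ⟨?_, a1⟩
  choose f hf e using a1
  rw [← List.toFinset_card_of_nodup nd, ← Fintype.card_coe, ← Nat.card_eq_fintype_card]
  refine Nat.card_congr (Equiv.ofBijective (fun a => ⟨f a a.2, List.mem_toFinset.2 (hf a a.2)⟩)
    ⟨fun a b h => Subtype.ext (Units.ext ?_), fun ⟨x, hx⟩ => ?_⟩)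
  · rw [e a a.2, e b b.2, show f a a.2 = f b b.2 from congrArg Subtype.val h]
  · obtain ⟨⟨b1, b2, b3, b4⟩, a, ha, e'⟩ := a2 x (List.mem_toFinset.1 hx)
    obtain ⟨⟨c1, c2, c3, c4⟩, -⟩ := a2 _ (hf a ha)
    have := fun i j => congrFun (congrFun ((e a ha).symm.trans e') i) j
    have k : ∀ {m n : ℕ}, m < p → n < p → (m : ZMod p) = n → m = n := fun h1 h2 h =>
      Nat.ModEq.eq_of_lt_of_lt ((ZMod.natCast_eq_natCast_iff _ _ _).1 h) h1 h2
    exact ⟨⟨a, ha⟩, Subtype.ext (Prod.ext (k c1 b1 (this 0 0)) (Prod.ext (k c2 b2 (this 0 1))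
      (Prod.ext (k c3 b3 (this 1 0)) (k c4 b4 (this 1 1)))))⟩

/-- `s • x` has no eigenvalue one, or is the identity -/
def fr (p s : ℕ) (x : T) : Bool :=
  !((s * x.1 + (p - 1)) * (s * x.2.2.2 + (p - 1)) % p).beq (s * x.2.1 * (s * x.2.2.1) % p) ||
    eq4 (mu p (s, 0, 0, s) x) (1, 0, 0, 1)

theorem reg (H : Subgroup (GL (Fin 2) (ZMod p))) (hc : p ^ 2 - 1 ≤ Nat.card H)
    (h : ∀ a ∈ H, ∃ (s : ℕ) (x : T), ↑a = (s : ZMod p) • toM p x ∧ fr p s x = true) :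
    Nat.card H = p ^ 2 - 1 ∧ ∀ v w : Fin 2 → ZMod p, v ≠ 0 → w ≠ 0 →
      ∃! a : H, (a : GL (Fin 2) (ZMod p)).val *ᵥ v = w := by
  have cV : Nat.card {v : Fin 2 → ZMod p // v ≠ 0} = p ^ 2 - 1 := by
    rw [Nat.card_eq_fintype_card, Fintype.card_subtype_compl]; simp
  have key : ∀ v : Fin 2 → ZMod p, v ≠ 0 → ∃ f : H → {v : Fin 2 → ZMod p // v ≠ 0},
      Function.Injective f ∧ ∀ a, (f a).1 = (a : GL (Fin 2) (ZMod p)).val *ᵥ v := fun v hv => by
    refine ⟨fun a => ⟨(a : GL (Fin 2) (ZMod p)).val *ᵥ v, fun e => hv ?_⟩, fun a b e => ?_,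
      fun _ => rfl⟩
    · rw [← one_mulVec v, ← (a : GL (Fin 2) (ZMod p)).inv_mul, ← mulVec_mulVec, e, mulVec_zero]
    obtain ⟨s, x, e1, e2⟩ := h _ (mul_mem (inv_mem b.2) a.2)
    have : ((s : ZMod p) • toM p x - 1) *ᵥ v = 0 := by
      rw [sub_mulVec, ← e1, Units.val_mul, ← mulVec_mulVec, show _ *ᵥ v = _ *ᵥ v from
        congrArg Subtype.val e, mulVec_mulVec, Units.inv_mul, sub_self]
    have := Matrix.exists_mulVec_eq_zero_iff.1 ⟨v, hv, this⟩
    simp only [fr, Bool.or_eq_true, Bool.not_eq_true', ← Bool.not_eq_true, Nat.beq_eq,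
      eq4_iff] at e2
    have e3 := e2.resolve_left (not_not.2 ((ZMod.natCast_eq_natCast_iff' _ _ _).1 (by
      simpa [toM, det_fin_two, sub_eq_zero, Nat.cast_sub (Fact.out : p.Prime).one_le,
        ← sub_eq_add_neg] using this)))
    refine Subtype.ext (inv_mul_eq_one.1 (Units.ext (e1.trans ?_))).symm
    rw [Units.val_one, ← toM_one, ← e3, toM_mu]
    simp [toM]
  refine ⟨le_antisymm ?_ hc, fun v w hv hw => ?_⟩
  · obtain ⟨f, hf, -⟩ := key 1 one_ne_zero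
    exact cV ▸ Nat.card_le_card_of_injective f hf
  · obtain ⟨f, hf, e⟩ := key v hv
    obtain ⟨a, ha⟩ := (hf.bijective_of_nat_card_le (cV ▸ hc)).2 ⟨w, hw⟩
    exact ⟨a, (e a).symm.trans (congrArg Subtype.val ha),
      fun b hb => hf (Subtype.ext ((e b).trans (hb.trans (congrArg Subtype.val ha).symm)))⟩

end

/-- the elements -/
def L : List T := [
  (4,1,2,2), (4,4,3,2), (2,3,4,4), (2,2,1,4), (1,1,2,3), (3,4,3,1), (3,2,1,1), (1,3,4,3),
  (1,4,3,3), (3,1,2,1), (4,3,4,2), (0,1,4,0), (3,0,0,2), (3,3,4,1), (4,2,1,2), (2,4,3,4),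
  (0,3,3,0), (2,1,2,4), (0,2,2,0), (4,0,0,4), (1,2,1,3), (0,4,1,0), (2,0,0,3), (1,0,0,1)]



theorem chk : reach 5 [(2, 0, 0, 3), (0, 4, 1, 0), (1, 2, 1, 3)] L = true ∧
    clo 5 [(2, 0, 0, 3), (0, 4, 1, 0), (1, 2, 1, 3)] L = true ∧ L.all (fr 5 1) = true := by
  decide +kernel

/-- An exceptional sharply doubly transitive group of degree 5^2: the listed matrices generate a subgroup of GL(2,5) of order 24 acting regularly on the non-zero vectors. -/
theorem result (A : Matrix.GeneralLinearGroup (Fin 2) (ZMod 5)) (B : Matrix.GeneralLinearGroup (Fin 2) (ZMod 5)) (C : Matrix.GeneralLinearGroup (Fin 2) (ZMod 5)) (hA : (A : Matrix (Fin 2) (Fin 2) (ZMod 5)) = !![2, 0; 0, -2]) (hB : (B : Matrix (Fin 2) (Fin 2) (ZMod 5)) = !![0, -1; 1, 0]) (hC : (C : Matrix (Fin 2) (Fin 2) (ZMod 5)) = !![1, 2; 1, -2]) : Nat.card (Subgroup.closure ({A, B, C} : Set (Matrix.GeneralLinearGroup (Fin 2) (ZMod 5)))) = 24 ∧ ∀ v w : Fin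 2 → ZMod 5, v ≠ 0 → w ≠ 0 → ∃! h : Subgroup.closure ({A, B, C} : Set (Matrix.GeneralLinearGroup (Fin 2) (ZMod 5))), Matrix.mulVec ((h : Matrix.GeneralLinearGroup (Fin 2) (ZMod 5)) : Matrix (Fin 2) (Fin 2) (ZMod 5)) v = w := by
  have : Fact (Nat.Prime 5) := ⟨by norm_num⟩
  obtain ⟨c, h⟩ := enum [A, B, C] _ (by simp only [List.map, hA, hB, hC]; rfl) L chk.1 chk.2.1
  rw [show {a | a ∈ [A, B, C]} = {A, B, C} by ext; simp] at c h
  exact reg _ c.ge fun a ha => (h a ha).elim fun x hx =>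
    ⟨1, x, by rw [Nat.cast_one, one_smul, hx.2], List.all_eq_true.1 chk.2.2 x hx.1⟩

end Cfsg.Agent.S0691
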