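import Cfsg.Statements.S0693
import Mathlib
import Cfsg.Agent.S0691

set_option autoImplicit false
open Cfsg

namespace Cfsg.Agent.S0693

open S0691 Subgroup

/-- the elements -/
def L : List T := [
  (3,7,7,56), (7,56,56,52), (41,14,40,18), (34,17,43,25), (52,3,3,7), (45,41,41,40),
  (43,25,25,42), (53,21,21,5), (48,40,40,10), (42,34,34,43), (56,52,52,3), (40,18,18,45),
  (18,45,19,41), (25,42,16,34), (41,40,14,18), (34,43,17,25), (38,53,54,21), (19,48,49,40),
  (21,5,6,38), (40,10,11,19), (14,18,18,19), (17,25,25,16), (38,30,31,54), (19,41,41,14),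
  (16,34,34,17), (6,38,38,54), (11,19,19,49), (29,38,5,31), (54,21,21,6), (49,40,40,11),
  (31,54,21,29), (32,25,24,28), (54,29,28,38), (25,28,27,35), (18,19,45,41), (25,16,42,34),
  (21,6,5,38), (40,11,10,19), (21,29,28,5), (38,54,53,21), (19,49,48,40), (5,31,30,21),
  (34,32,31,24), (30,54,21,28), (31,25,24,27), (24,28,27,34), (28,38,5,30), (27,35,34,31),
  (30,21,54,28), (5,38,38,53), (10,19,19,48), (28,5,38,30), (27,34,35,31), (5,30,31,21),
  (34,31,32,24), (31,24,25,27), (21,28,29,5), (24,27,28,34), (39,14,48,46), (4,36,11,55),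
  (58,55,30,1), (46,11,45,39), (54,28,29,38), (25,27,28,35), (29,5,38,31), (28,34,35,32),
  (35,31,32,25), (31,21,54,29), (32,24,25,28), (45,39,13,48), (23,4,4,11), (4,58,58,30),
  (48,46,20,45), (11,55,55,23), (30,1,1,4), (45,13,39,48), (28,35,34,32), (38,31,30,54),
  (35,32,31,25), (20,45,11,13), (55,23,48,4), (1,4,29,58), (13,48,14,20), (4,11,36,55),
  (58,30,55,1), (46,45,11,39), (9,49,15,49), (39,48,14,46), (14,20,46,11), (36,55,55,48),
  (55,1,1,29), (11,13,39,14), (48,4,4,36), (29,58,58,55), (14,46,20,11), (10,9,10,15),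
  (11,39,13,14), (15,49,50,10), (49,10,44,9), (55,48,23,4), (1,29,4,58), (13,14,48,20),
  (50,10,44,10), (20,11,45,13), (10,15,49,50), (49,49,50,44), (44,9,10,49), (49,50,49,44),
  (48,20,46,45), (44,10,9,49), (10,49,15,50), (50,44,10,10), (0,1,58,0), (49,44,10,9),
  (10,10,9,15), (15,50,49,10), (58,0,0,58), (9,15,49,49), (0,58,1,0), (1,0,0,1)]
theorem chk : reach 59 [(0, 58, 1, 0), (9, 15, 49, 49)] L = true ∧
    clo 59 [(0, 58, 1, 0), (9, 15, 49, 49)] L = true ∧
    ((List.range 29).all fun k => L.all (fr 59 (4 ^ k % 59))) = true := by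
  decide +kernel

theorem p4 : (4 : ZMod 59) ^ 29 = 1 := by decide +kernel

/-- An exceptional sharply doubly transitive group of degree 59^2: the listed matrices generate a subgroup of GL(2,59) of order 3480 acting regularly on the non-zero vectors. -/
theorem result (A : Matrix.GeneralLinearGroup (Fin 2) (ZMod 59)) (B : Matrix.GeneralLinearGroup (Fin 2) (ZMod 59)) (C : Matrix.GeneralLinearGroup (Fin 2) (ZMod 59)) (hA : (A : Matrix (Fin 2) (Fin 2) (ZMod 59)) = !![0, -1; 1, 0]) (hB : (B : Matrix (Fin 2) (Fin 2) (ZMod 59)) = !![9, 15; -10, -10]) (hC : (C : Matrix (Fin 2) (Fin 2) (ZMod 59)) = !![4, 0; 0, 4]) : Nat.card (Subgroup.closure ({A, B, C} : Set (Matrix.GeneralLinearGroup (Fin 2) (ZMod 59)))) = 3480 ∧ ∀ v w : Fin 2 → ZMod 59, v ≠ 0 → w ≠ 0 → ∃! h : Subgroup.closure ({A, B, C} : Set (Matrix.GeneralLinearGroup (Fin 2) (ZMod 59))), Matrix.mulVec ((h : Matrix.GeneralLinearGroup (Fin 2) (ZMod 59)) : Matrix (Fin 2) (Fin 2) (ZMod 59)) v = w := by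
  have : Fact (Nat.Prime 59) := ⟨by norm_num⟩
  have : Fact (Nat.Prime 29) := ⟨by norm_num⟩
  obtain ⟨c, h⟩ := enum [A, B] _ (by simp only [List.map, hA, hB]; rfl) S0693.L chk.1 chk.2.1
  rw [show {a | a ∈ [A, B]} = {A, B} by ext; simp] at c h
  have hC' : (C : Matrix (Fin 2) (Fin 2) (ZMod 59)) = (4 : ZMod 59) • 1 := by
    rw [hC, Matrix.one_fin_two]; simp
  have oC : orderOf C = 29 := orderOf_eq_prime
    (Units.ext (by rw [Units.val_pow_eq_pow_val, hC', smul_pow, p4]; simp)) fun e => by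
      have := congrFun (congrFun hC 0) 0
      rw [e] at this
      exact absurd this (by simp; decide)
  refine reg _ (Nat.le_of_dvd Nat.card_pos (Nat.Coprime.mul_dvd_of_dvd_of_dvd
    (show Nat.Coprime 29 120 by norm_num) ?_ ?_)) fun a ha => ?_
  · exact oC ▸ Subgroup.orderOf_dvd_natCard _ (subset_closure (by simp))
  · exact (c.symm.dvd :).trans (card_dvd_of_le (Subgroup.closure_mono (by simp [Set.insert_subset_iff])))
  have : ∃ b ∈ Subgroup.closure {A, B}, ∃ k : ℕ,
      (a : Matrix (Fin 2) (Fin 2) (ZMod 59)) = (4 : ZMod 59) ^ k • ↑b := by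
    replace ha : a ∈ Submonoid.closure {A, B, C} := by
      rw [← closure_toSubmonoid_of_finite]; exact ha
    induction ha using Submonoid.closure_induction_left with
    | one => exact ⟨1, one_mem _, 0, by simp⟩
    | mul_left a ha b _ ih =>
      obtain ⟨b', hb, k, e⟩ := ih
      rcases ha with rfl | rfl | rfl
      · exact ⟨a * b', mul_mem (subset_closure (by simp)) hb, k, by simp [e]⟩
      · exact ⟨a * b', mul_mem (subset_closure (by simp)) hb, k, by simp [e]⟩
      · exact ⟨_, hb, k + 1, by rw [Units.val_mul, hC', e, pow_succ]; simp [smul_smul]⟩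
  obtain ⟨b, hb, k, e⟩ := this
  obtain ⟨x, hx, e'⟩ := h b hb
  exact ⟨4 ^ (k % 29) % 59, x, by rw [e, e', pow_eq_pow_mod k p4]; simp,
    List.all_eq_true.1 (List.all_eq_true.1 chk.2.2 _ (by simp [Nat.mod_lt])) x hx⟩

end Cfsg.Agent.S0693
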