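import Cfsg.Statements.S0694
import Mathlib

set_option autoImplicit false
open Cfsg

namespace Cfsg.Agent.S0694

/-- the geometric sum -/
def S (q : ℕ) : ℕ → ℕ
  | 0 => 0
  | i + 1 => q * S q i + 1

theorem S_mul {q : ℕ} (hq : 1 ≤ q) (i : ℕ) : S q i * (q - 1) + 1 = q ^ i := by
  obtain ⟨d, rfl⟩ := Nat.exists_eq_add_of_le hq
  induction i with
  | zero => simp [S]
  | succ i ih => rw [pow_succ, ← ih]; simp [S]; ring

theorem S_add (q i j : ℕ) : S q (i + j) = q ^ j * S q i + S q j := by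
  induction j with
  | zero => simp [S]
  | succ j ih => rw [← add_assoc, S, S, ih]; ring

theorem mod_iff {q n : ℕ} (hq : 2 ≤ q) (i : ℕ) : q ^ i ≡ 1 [MOD n * (q - 1)] ↔ n ∣ S q i := by
  rw [← S_mul (by omega), Nat.ModEq.comm, Nat.modEq_iff_dvd' (by omega), Nat.add_sub_cancel,
    Nat.mul_dvd_mul_iff_right (by omega)]

theorem lte {q r : ℕ} (hq : 2 ≤ q) (hr : r.Prime) (h : r ∣ q - 1) (h4 : r = 2 → 4 ∣ q - 1)
    (i k : ℕ) : r ^ k ∣ S q i ↔ r ^ k ∣ i := by
  have e : ((q - 1 : ℕ) : ℤ) = q - 1 := by rw [Nat.cast_sub (by omega)]; rfl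
  have hx : ¬ (r : ℤ) ∣ q := fun h' => hr.one_lt.ne' (Nat.dvd_one.1 (by
    have := Nat.dvd_sub (Int.natCast_dvd_natCast.1 h') h
    rwa [show q - (q - 1) = 1 by omega] at this))
  have key : emultiplicity (r : ℤ) ((q : ℤ) ^ i - 1 ^ i) =
      emultiplicity (r : ℤ) ((q : ℤ) - 1) + emultiplicity (r : ℤ) (i : ℤ) := by
    rcases hr.eq_two_or_odd' with rfl | ho
    · exact Int.two_pow_sub_pow' i (e ▸ Int.natCast_dvd_natCast.2 (h4 rfl)) hx
    · rw [Int.emultiplicity_pow_sub_pow hr ho (e ▸ Int.natCast_dvd_natCast.2 h) hx,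
        Int.natCast_emultiplicity]
  have e2 : (q : ℤ) ^ i - 1 ^ i = ((q - 1) * S q i : ℕ) := by
    have := congrArg (Nat.cast : ℕ → ℤ) (S_mul (show 1 ≤ q by omega) i)
    push_cast at this ⊢
    rw [← this]; ring
  rw [e2, ← e, Int.natCast_emultiplicity, Int.natCast_emultiplicity, Int.natCast_emultiplicity,
    emultiplicity_mul hr.prime] at key
  rw [pow_dvd_iff_le_emultiplicity, pow_dvd_iff_le_emultiplicity,
    ENat.add_right_injective_of_ne_top (finiteMultiplicity_iff_emultiplicity_ne_top.1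
      (Nat.finiteMultiplicity_iff.2 ⟨hr.ne_one, by omega⟩)) key]

/-- The Dickson pair condition: for a prime power `q` and `n > 1`, (every prime factor of `n` divides `q - 1`, and `4 ∣ n → 4 ∣ q - 1`) holds exactly when `q ^ n ≡ 1` modulo `n * (q - 1)` but `q ^ i` is not, for `0 < i < n`. -/
theorem result (q n : ℕ) (hq : IsPrimePow q) (hn : 1 < n) : ((∀ r : ℕ, r.Prime → r ∣ n → r ∣ q - 1) ∧ (4 ∣ n → 4 ∣ q - 1)) ↔ (q ^ n ≡ 1 [MOD n * (q - 1)] ∧ ∀ i : ℕ, 0 < i → i < n → ¬ q ^ i ≡ 1 [MOD n * (q - 1)]) := by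
  have q2 := hq.two_le
  simp only [mod_iff q2]
  refine ⟨fun ⟨h, h4⟩ => ?_, fun ⟨h1, h2⟩ => ?_⟩
  · have key : ∀ i, n ∣ S q i ↔ n ∣ i := fun i => by
      rw [Nat.dvd_iff_prime_pow_dvd_dvd, Nat.dvd_iff_prime_pow_dvd_dvd i]
      refine forall₄_congr fun r k hr hk => ?_
      rcases k with _ | k
      · simp
      have hr' := h r hr ((dvd_pow_self r k.succ_ne_zero).trans hk)
      by_cases c : r = 2 → 4 ∣ q - 1
      · exact lte q2 hr hr' c i _
      obtain ⟨rfl, c'⟩ : r = 2 ∧ ¬ 4 ∣ q - 1 := Classical.not_imp.1 c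
      clear c
      obtain rfl : k = 0 := by_contra fun e => c' (h4 ((pow_dvd_pow 2 (by omega : 2 ≤ k + 1)).trans hk))
      have : S q i % 2 = i % 2 := by
        induction i with
        | zero => rfl
        | succ i ih => rw [S, Nat.add_mod, Nat.mul_mod, ih, show q % 2 = 1 by omega]; omega
      omega
    exact ⟨(key n).2 dvd_rfl, fun i h0 hi e => (Nat.le_of_dvd h0 ((key i).1 e)).not_gt hi⟩
  have cop : n.Coprime q := by
    obtain ⟨m, rfl⟩ : ∃ m, n = m + 1 := ⟨n - 1, by omega⟩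
    exact (show q.Coprime (S q (m + 1)) by simp [S]).symm.coprime_dvd_left h1
  have : NeZero n := ⟨by omega⟩
  have lt : ∀ i j : Fin n, i < j → (S q i : ZMod n) ≠ S q j := fun i j hij e => by
    obtain ⟨d, hd⟩ := Nat.exists_eq_add_of_le' (show (i : ℕ) ≤ j from hij.le)
    rw [hd, S_add, Nat.cast_add, eq_comm, add_eq_right, ZMod.natCast_eq_zero_iff] at e
    exact h2 d (by have : (i : ℕ) < j := hij; omega) (by omega)
      ((cop.pow_right _).dvd_of_dvd_mul_left e)
  have su : ∀ j : ℕ, ∃ i, S q i ≡ j [MOD n] := fun j => by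
    obtain ⟨i, hi⟩ := (Function.Injective.bijective_of_nat_card_le
      (f := fun i : Fin n => (S q i : ZMod n)) (fun i j e => by_contra fun h =>
        (lt_or_gt_of_ne h).elim (fun h => lt i j h e) fun h => lt j i h e.symm) (by simp)).2 j
    exact ⟨i, (ZMod.natCast_eq_natCast_iff _ _ _).1 hi⟩
  have pr : ∀ r : ℕ, r.Prime → r ∣ n → r ∣ q - 1 := fun r hr hd => by
    by_contra hn
    obtain ⟨j, -, hj⟩ := Nat.exists_mul_mod_eq_of_coprime (r - 1)
      ((Nat.Prime.coprime_iff_not_dvd hr).2 hn).symm hr.ne_zero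
    obtain ⟨i, hi⟩ := su j
    have : q ^ i ≡ 0 [MOD r] := by
      rw [← S_mul (by omega)]
      refine (((hi.of_dvd hd).mul_right _).add_right 1).trans ?_
      rw [mul_comm]
      refine (Nat.ModEq.add_right 1 hj).trans ?_
      rw [Nat.sub_add_cancel hr.one_le]
      exact Nat.modEq_zero_iff_dvd.2 dvd_rfl
    exact hr.one_lt.ne' (Nat.eq_one_of_dvd_coprimes cop hd
      (hr.dvd_of_dvd_pow (Nat.modEq_zero_iff_dvd.1 this)))
  refine ⟨pr, fun h4 => by_contra fun c => ?_⟩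
  have := pr 2 Nat.prime_two (by omega)
  obtain ⟨i, hi⟩ := su 2
  have e : ∀ i, S q i % 4 = i % 2 := fun i => by
    induction i with
    | zero => rfl
    | succ i ih =>
      rw [S, Nat.add_mod, Nat.mul_mod, ih, show q % 4 = 3 by omega, Nat.add_mod i]
      rcases Nat.mod_two_eq_zero_or_one i with e | e <;> rw [e]
  have := hi.of_dvd h4
  rw [Nat.ModEq, e] at this
  omega

end Cfsg.Agent.S0694
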