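import Cfsg.Statements.S0699
import Mathlib
import Cfsg.Agent.H16.NormalMult

set_option autoImplicit false
open Cfsg

namespace Cfsg.Agent.S0699

/-- Wagner's Theorem: a non-trivial normal subgroup of a triply transitive permutation group of odd degree at least 5 is triply transitive. -/
theorem result {α : Type*} [Fintype α] [DecidableEq α] (G : Subgroup (Equiv.Perm α)) (hodd : Odd (Fintype.card α)) (h5 : 5 ≤ Fintype.card α) (hG : MulAction.IsMultiplyPretransitive G α 3) (N : Subgroup G) [N.Normal] (hN : N ≠ ⊥) : MulAction.IsMultiplyPretransitive N α 3 := by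
  open MulAction Pointwise in
  rw [← Nat.card_eq_fintype_card] at hodd h5
  have hp := H16.prim_of_mtrans hG (by omega) (by omega)
  have hNt : IsPretransitive N α := H16.normal_trans N hN
  have h2 : IsMultiplyPretransitive N α 2 := by
    rcases H16.jordan_normal 1 G α (by omega) hG N hN with h | ⟨-, h1, h2⟩
    · exact h
    · exfalso
      obtain ⟨a⟩ : Nonempty α := (Nat.card_pos_iff.1 (by omega)).1
      obtain ⟨m, hm⟩ := H16.card_eq_pow_of_exponent Nat.prime_two h2
      rw [H16.card_eq_of_regular a (H16.stabilizer_eq_bot_of_comm N h1 a)] at hm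
      rcases m with _ | m
      · omega
      · rw [hm, pow_succ] at hodd
        exact (Nat.not_odd_iff_even.2 (by simp)) hodd
  obtain ⟨a⟩ : Nonempty α := (Nat.card_pos_iff.1 (by omega)).1
  obtain ⟨b, hb, -⟩ := H16.exists_ne_ne (by omega) a a
  -- an element of `N` swapping two points and fixing any third
  have hsw : ∀ d : α, d ≠ a → d ≠ b → ∃ t : N, t • a = b ∧ t • b = a ∧ t • d = d := by
    obtain ⟨s, h1, h2⟩ := H16.two_trans h2 hb.symm hb
    obtain ⟨m, k, h3, h4, h5⟩ := H16.exists_two_elt_swap h1 h2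
    obtain ⟨c, hc⟩ := H16.exists_fixed_of_not_dvd (α := α) Nat.prime_two h3
      (by rw [← even_iff_two_dvd]; exact Nat.not_even_iff_odd.2 hodd)
    have hca : a ≠ c := by rintro rfl; exact hb (h4.symm.trans hc)
    have hcb : b ≠ c := by rintro rfl; exact hb (hc.symm.trans h5)
    intro d hda hdb
    obtain ⟨g, g1, g2, g3⟩ := H16.three_trans hG hb.symm hca hcb hb.symm hda.symm hdb.symm
    have key : ∀ x y : α, s ^ m • x = y → (g * (s ^ m : N) * g⁻¹) • g • x = g • y := by
      intro x y e
      rw [mul_smul, mul_smul, inv_smul_smul, ← e]; rfl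
    refine ⟨⟨g * (s ^ m : N) * g⁻¹, Subgroup.Normal.conj_mem inferInstance _ (s ^ m).2 g⟩, ?_, ?_, ?_⟩
    · have := key _ _ h4; rwa [g1, g2] at this
    · have := key _ _ h5; rwa [g1, g2] at this
    · have := key _ _ hc; rwa [g3] at this
  apply H16.three_trans_of_two h2 hb.symm
  intro c d hca hcb hda hdb
  by_contra hne
  set H := fixingSubgroup N (({a, b} : Finset α) : Set α) with hH
  have hHm : ∀ g : N, g ∈ H ↔ g • a = a ∧ g • b = b := by
    intro g; rw [hH, H16.mem_fixing]; simp
  -- all orbits of `H` off `{a, b}` have the same length, which is odd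
  have hlen : ∀ x y : α, x ≠ a → x ≠ b → y ≠ a → y ≠ b →
      (orbit H x).ncard ≤ (orbit H y).ncard := by
    intro x y xa xb ya yb
    obtain ⟨g, g1, g2, g3⟩ := H16.three_trans hG hb.symm xa.symm xb.symm hb.symm ya.symm yb.symm
    apply Set.ncard_le_ncard_of_injOn (fun z => g • z) _ (MulAction.injective g).injOn
    rintro _ ⟨h, rfl⟩
    have hh := (hHm h).1 h.2
    refine ⟨⟨⟨g * h.1.1 * g⁻¹, Subgroup.Normal.conj_mem inferInstance _ h.1.2 g⟩,
      (hHm _).2 ⟨?_, ?_⟩⟩, ?_⟩
    · change (g * h.1.1 * g⁻¹) • a = a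
      rw [H16.conj_smul_of_fix g1, show h.1.1 • a = a from hh.1, g1]
    · change (g * h.1.1 * g⁻¹) • b = b
      rw [H16.conj_smul_of_fix g2, show h.1.1 • b = b from hh.2, g2]
    · change (g * h.1.1 * g⁻¹) • y = g • h.1.1 • x
      rw [← g3, mul_smul, mul_smul, inv_smul_smul]
  have hodd' : ∀ x : α, x ≠ a → x ≠ b → ¬ 2 ∣ (orbit H x).ncard := by
    intro x xa xb
    obtain ⟨P⟩ : Nonempty (Sylow 2 H) := inferInstance
    obtain ⟨y, hy, hyP⟩ := H16.exists_fixed_of_pgroup Nat.prime_two (P : Subgroup H) P.isPGroup'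
      ({a, b}ᶜ : Set α) (Set.toFinite _) (by
        intro g _ z hz
        have hg := (hHm g).1 g.2
        simp only [Set.mem_compl_iff, Set.mem_insert_iff, Set.mem_singleton_iff, not_or] at hz ⊢
        exact ⟨fun e => hz.1 (MulAction.injective g.1 (e.trans hg.1.symm)),
          fun e => hz.2 (MulAction.injective g.1 (e.trans hg.2.symm))⟩) (by
        have := Set.ncard_add_ncard_compl ({a, b} : Set α)
        rw [Set.ncard_pair hb.symm] at this
        obtain ⟨m, hm⟩ := hodd
        omega)
    simp only [Set.mem_compl_iff, Set.mem_insert_iff, Set.mem_singleton_iff, not_or] at hy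
    rw [le_antisymm (hlen x y xa xb hy.1 hy.2) (hlen y x hy.1 hy.2 xa xb), ← index_stabilizer]
    intro h
    exact P.not_dvd_index (h.trans (Subgroup.index_dvd_of_le hyP))
  obtain ⟨i, hi⟩ := H16.generous_orbits h2 Nat.prime_two le_rfl {a, b} (Finset.card_pair hb.symm)
    (by
      intro x hx g hg
      have hgx : g • x ∉ ({a, b} : Finset α) := by
        rw [← hg]; rwa [Finset.smul_mem_smul_finset_iff]
      simp only [Finset.mem_insert, Finset.mem_singleton, not_or] at hx hgx
      have h3 : ({g • a, g • b} : Set α) = {a, b} := by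
        have := congrArg (fun s : Finset α => (s : Set α)) hg
        simpa [Set.smul_set_insert] using this
      rcases Set.pair_eq_pair_iff.1 h3 with h | h
      · exact ⟨g, by simp [h.1, h.2], rfl⟩
      · obtain ⟨t, t1, t2, t3⟩ := hsw (g • x) hgx.1 hgx.2
        exact ⟨t * g, by simp [mul_smul, h.1, h.2, t1, t2], by rw [mul_smul, t3]⟩)
    ![c, d] (by intro i; fin_cases i <;> simp [hca, hcb, hda, hdb]) (by
      have h1 : d ∉ orbit H c := by
        rintro ⟨g, hg⟩
        exact hne ⟨g, ((hHm g).1 g.2).1, ((hHm g).1 g.2).2, hg⟩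
      have h2 : c ∉ orbit H d := fun h => h1 (mem_orbit_symm.1 h)
      intro i j hij
      fin_cases i <;> fin_cases j
      exacts [absurd rfl hij, h1, h2, absurd rfl hij])
  fin_cases i
  · exact hodd' c hca hcb hi
  · exact hodd' d hda hdb hi

end Cfsg.Agent.S0699
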