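import Cfsg.Statements.S0700
import Mathlib
import Cfsg.Agent.H16.BigOrb
import Cfsg.Agent.H16.RegNormal
import Cfsg.Agent.FT.Card

set_option autoImplicit false
open Cfsg

namespace Cfsg.Agent.S0700

open MulAction Subgroup Cfsg.Agent.H16 Cfsg.Agent.FT

section
variable {G α : Type*} [Group G] [MulAction G α] [Finite G] [Finite α] [FaithfulSMul G α]

theorem frob_of_imprim (h2 : IsMultiplyPretransitive G α 2) (N : Subgroup G) [hN : N.Normal]
    {B : Set α} (hB : IsBlock N B) (h : ¬ IsTrivialBlock B) :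
    ∀ g ∈ N, ∀ a b : α, a ≠ b → g • a = a → g • b = b → g = 1 := by
  let Blk : Set α → Prop := fun C => ∀ n ∈ N, ∀ x ∈ C, n • x ∈ C → ∀ y ∈ C, n • y ∈ C
  let l : α → α → Set α := fun x y => {z | ∀ C, Blk C → x ∈ C → y ∈ C → z ∈ C}
  have bl : ∀ x y, Blk (l x y) := fun x y n hn u hu hu' v hv C hC hx hy =>
    hC n hn u (hu C hC hx hy) (hu' C hC hx hy) v (hv C hC hx hy)
  have l1 : ∀ x y, x ∈ l x y := fun x y C _ h _ => h
  have l2 : ∀ x y, y ∈ l x y := fun x y C _ _ h => h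
  have le : ∀ x y u v, x ≠ y → u ≠ v → (l x y).ncard ≤ (l u v).ncard := by
    intro x y u v hxy huv
    obtain ⟨g, rfl, rfl⟩ := two_trans h2 hxy huv
    refine Set.ncard_le_ncard_of_injOn (g • ·) (fun z hz C hC hx hy => ?_)
      fun s _ t _ => smul_left_cancel g
    refine hz {w | g • w ∈ C} (fun n hn s hs hs' t ht => ?_) hx hy
    have e : ∀ w : α, g • n • w = (g * n * g⁻¹) • g • w := fun w => by simp [mul_smul]
    show g • n • t ∈ C
    rw [e]
    exact hC _ (hN.conj_mem n hn g) _ hs (e s ▸ hs') _ ht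
  have un : ∀ x y s t, x ≠ y → s ≠ t → s ∈ l x y → t ∈ l x y → l s t = l x y :=
    fun x y s t hxy hst hs ht =>
      Set.eq_of_subset_of_ncard_le (fun z hz => hz _ (bl x y) hs ht) (le _ _ _ _ hxy hst)
  simp only [IsTrivialBlock, not_or, Set.not_subsingleton_iff] at h
  obtain ⟨⟨a, ha, b, hb, hab⟩, hu⟩ := h
  have bB : Blk B := fun n hn x hx hx' y hy => by
    have := hB.smul_eq_of_mem (g := ⟨n, hn⟩) hx hx'
    rw [← this]; exact Set.smul_mem_smul_set (a := (⟨n, hn⟩ : N)) hy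
  have pr : ∀ x y, x ≠ y → ∃ w, w ∉ l x y := fun x y hxy => by
    by_contra! hw
    refine hu (Set.eq_of_subset_of_ncard_le (Set.subset_univ _) ?_)
    rw [← Set.eq_univ_of_forall hw]
    exact (le _ _ _ _ hxy hab).trans (Set.ncard_le_ncard fun z hz => hz B bB ha hb)
  have key : ∀ n ∈ N, ∀ x y, x ≠ y → n • x = x → n • y = y → ∀ z ∉ l x y, n • z = z := by
    intro n hn x y hxy hx hy z hz
    by_contra hne
    have zx : x ≠ z := fun e => hz (e ▸ l1 x y)
    have zy : y ≠ z := fun e => hz (e ▸ l2 x y)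
    have e1 := un x z _ _ zx hne (bl x z n hn x (l1 _ _) (hx.symm ▸ l1 _ _) z (l2 _ _)) (l2 _ _)
    have e2 := un y z _ _ zy hne (bl y z n hn y (l1 _ _) (hy.symm ▸ l1 _ _) z (l2 _ _)) (l2 _ _)
    have e3 := un x z x y zx hxy (l1 _ _) (e1 ▸ e2 ▸ l1 y z)
    exact hz (e3 ▸ l2 x z)
  intro n hn x y hxy hx hy
  refine eq_one_of_smul_eq (α := α) fun z => ?_
  by_cases hz : z ∈ l x y
  swap
  · exact key n hn x y hxy hx hy z hz
  obtain ⟨w, hw⟩ := pr x y hxy
  have wx : x ≠ w := fun e => hw (e ▸ l1 x y)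
  by_cases zx : x = z
  · exact zx ▸ hx
  refine key n hn x w wx hx (key n hn x y hxy hx hy w hw) z fun hz' => hw ?_
  rw [← un x y x z hxy zx (l1 _ _) hz, un x w x z wx zx (l1 _ _) hz']
  exact l2 _ _

theorem simple_of_prim [Nontrivial α] (h2 : IsMultiplyPretransitive G α 2) (N : Subgroup G)
    [hN : N.Normal] (h0 : N ≠ ⊥) (hmin : ∀ M : Subgroup G, M.Normal → M ≤ N → M = ⊥ ∨ M = N)
    (hp : IsPreprimitive N α) : IsSimpleGroup N := by
  have := (nontrivial_iff_ne_bot N).2 h0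
  refine ⟨fun L hL => or_iff_not_imp_left.2 fun hL0 => ?_⟩
  have nL : N ≤ N(L.map N.subtype) := by
    rintro n hn
    refine mem_normalizer_fintype ?_
    rintro _ ⟨l, hl, rfl⟩
    exact ⟨_, hL.conj_mem l hl ⟨n, hn⟩, rfl⟩
  obtain ⟨M, ⟨M0, ML, nM⟩, mn⟩ := Set.Finite.exists_minimal
    (s := {M : Subgroup G | M ≠ ⊥ ∧ M ≤ L.map N.subtype ∧ N ≤ N(M)}) (Set.toFinite _)
    ⟨L.map N.subtype, fun e => hL0 ((map_eq_bot_iff_of_injective _ N.subtype_injective).1 e),
      le_rfl, nL⟩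
  have MN : M ≤ N := ML.trans (map_subtype_le L)
  have cN : ∀ g, cj g N = N := fun g => cj_of_mem_nrm (normalizer_eq_top N ▸ mem_top g)
  have MN' : ∀ g, cj g M ≤ N := fun g => cN g ▸ cj_mono g MN
  have nM' : ∀ g, N ≤ N(cj g M) := fun g => cN g ▸ cj_norms.2 nM
  have tr : ∀ g, IsPretransitive (cj g M) α := fun g => by
    have : ((cj g M).subgroupOf N).Normal := (normal_subgroupOf_iff_le_normalizer (MN' g)).2 (nM' g)
    have := normal_trans (α := α) ((cj g M).subgroupOf N) (by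
      rw [Ne, subgroupOf_eq_bot, disjoint_iff, inf_eq_left.2 (MN' g), cj_eq_bot]; exact M0)
    refine ⟨fun x y => ?_⟩
    obtain ⟨n, hn⟩ := this.exists_smul_eq x y
    exact ⟨⟨n.1.1, n.2⟩, hn⟩
  have tr1 : IsPretransitive M α := cj_one M ▸ tr 1
  have dis : ∀ g ∉ N(M), M ⊓ cj g M = ⊥ := fun g hg => by
    by_contra hne
    have := mn (y := M ⊓ cj g M) ⟨hne, inf_le_left.trans ML,
      (le_inf nM (nM' g)).trans (inf_normalizer_le_normalizer_inf)⟩ inf_le_left
    exact hg (cj_eq_self.1 (eq_of_le_of_card_ge (this.trans inf_le_right) (card_cj g M).le).symm)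
  have com : ∀ g ∉ N(M), ∀ m ∈ M, ∀ n ∈ cj g M, m * n = n * m := fun g hg m hm n hn => by
    have : m * n * m⁻¹ * n⁻¹ ∈ M ⊓ cj g M :=
      ⟨by simpa [mul_assoc] using
        mul_mem hm ((mem_normalizer_iff.1 (nM (MN' g hn)) _).1 (inv_mem hm)),
      (cj g M).mul_mem ((mem_normalizer_iff.1 (nM' g (MN hm)) _).1 hn) ((cj g M).inv_mem hn)⟩
    rw [dis g hg, mem_bot, mul_inv_eq_one, mul_inv_eq_iff_eq_mul] at this
    exact this
  by_cases hn : ∀ g, g ∈ N(M)
  · have := (hmin M (normalizer_eq_top_iff.1 (eq_top_iff.2 fun g _ => hn g)) MN).resolve_left M0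
    refine eq_top_iff.2 fun x _ => ?_
    obtain ⟨y, hy, e⟩ := ML (this.ge x.2)
    exact (Subtype.ext e : y = x) ▸ hy
  exfalso
  push Not at hn
  obtain ⟨g0, hg0⟩ := hn
  have two : ∀ g ∉ N(M), ∀ h ∉ N(M), h⁻¹ * g ∈ N(M) := fun g hg h hh => by
    have := tr h
    refine cj_eq_cj_iff.1 (eq_of_le_of_card_ge (fun c hc => ?_) (by rw [card_cj, card_cj]))
    exact mem_of_centralizes_of_trans (α := α) M (cj h M) (com h hh) fun m hm => com g hg m hm c hc
  obtain ⟨a⟩ : Nonempty α := inferInstance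
  have reg : stabilizer M a = ⊥ := by
    have := tr g0
    refine eq_bot_iff.2 fun m hm => Subtype.ext ?_
    exact eq_one_of_centralizes_trans (α := α) (cj g0 M) (fun n hn => (com g0 hg0 m m.2 n hn).symm) hm
  have ab := (elemAb_of_big_orbits' M fun x hx x1 => by
    set S := {y | ∃ g ∈ N(M), g * x * g⁻¹ = y}
    obtain ⟨n, hn, h, hh, rfl⟩ := exists_mul_stabilizer M a g0
    have hh' : h ∉ N(M) := fun e => hg0 (mul_mem (le_normalizer hn) e)
    have xa : x • a ≠ a := fun e => x1 (reg_eq_one reg hx e)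
    have : ({a}ᶜ : Set α) ⊆ (fun y => y • a) '' S ∪ (fun y => h • y • a) '' S := by
      intro z hz
      obtain ⟨k, k1, k2⟩ := two_trans h2 xa.symm (Ne.symm hz)
      by_cases hk : k ∈ N(M)
      · exact .inl ⟨_, ⟨k, hk, rfl⟩, (conj_smul_of_fix k1).trans k2⟩
      · refine .inr ⟨_, ⟨_, two k hk h hh', rfl⟩, ?_⟩
        have : (h⁻¹ * k) • a = a := by rw [mul_smul, k1, inv_smul_eq_iff]; exact hh.symm
        simp only
        rw [conj_smul_of_fix this, mul_smul, smul_inv_smul, k2]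
    have := (Set.ncard_le_ncard this).trans ((Set.ncard_union_le _ _).trans
      (add_le_add (Set.ncard_image_le (Set.toFinite _)) (Set.ncard_image_le (Set.toFinite _))))
    rw [Set.ncard_compl, Set.ncard_singleton] at this
    rw [card_eq_of_regular a reg]
    omega).1
  have : cj g0 M ≤ M := fun c hc =>
    mem_of_centralizes_comm_trans (α := α) M ab fun m hm => com g0 hg0 m hm c hc
  exact hg0 (mem_nrm_of_cj_le this)

end

/-- Burnside's Theorem on doubly transitive groups: a minimal normal subgroup of a finite doubly transitive permutation group is elementary abelian and regular, or simple and primitive. -/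
theorem result {α : Type*} [Fintype α] [DecidableEq α] (G : Subgroup (Equiv.Perm α)) (hG : MulAction.IsMultiplyPretransitive G α 2) (N : Subgroup G) [N.Normal] (hN : N ≠ ⊥) (hmin : ∀ M : Subgroup G, M.Normal → M ≤ N → M = ⊥ ∨ M = N) : (IsMulCommutative N ∧ (∃ p : ℕ, p.Prime ∧ ∀ n ∈ N, n ^ p = 1) ∧ ∀ a : α, MulAction.stabilizer N a = ⊥) ∨ (IsSimpleGroup N ∧ MulAction.IsPreprimitive N α) := by
  have : Nontrivial α := by
    obtain ⟨⟨n, hn⟩, h1⟩ := ne_bot_iff_exists_ne_one.1 hN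
    obtain ⟨a, ha⟩ := exists_smul_ne (α := α) (g := n) fun e => h1 (Subtype.ext e)
    exact ⟨_, _, ha⟩
  have := prim_of_mtrans hG le_rfl (Finite.one_lt_card (α := α))
  have := normal_trans (α := α) N hN
  obtain ⟨a⟩ : Nonempty α := inferInstance
  by_cases hr : stabilizer N a = ⊥
  · obtain ⟨h1, h2⟩ := elemAb_of_two_trans hG N hr
    exact .inl ⟨h1, h2, stabilizer_eq_bot_of_one hr⟩
  have hp : IsPreprimitive N α := ⟨fun {B} hB => by
    by_contra h
    obtain ⟨K, hK, KN, -, tr, reg⟩ := exists_frob_kernel_of_normal N (frob_of_imprim hG N hB h)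
    rcases hmin K hK KN with rfl | rfl
    · obtain ⟨b, hb⟩ := exists_ne a
      obtain ⟨⟨k, hk⟩, e⟩ := tr.exists_smul_eq a b
      obtain rfl := mem_bot.1 hk
      exact hb (e.symm.trans (one_smul _ a))
    · exact hr (reg a)⟩
  exact .inr ⟨simple_of_prim hG N hN hmin hp, hp⟩

end Cfsg.Agent.S0700
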