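import Cfsg.Statements.S0701
import Mathlib

set_option autoImplicit false
open Cfsg

namespace Cfsg.Agent.S0701

/-- The centraliser in the full symmetric group of a transitive permutation group `G` is semiregular, and it is transitive if and only if `G` is regular. -/
theorem result {α : Type*} (G : Subgroup (Equiv.Perm α)) [MulAction.IsPretransitive G α] : (∀ c ∈ Subgroup.centralizer (G : Set (Equiv.Perm α)), ∀ a : α, c a = a → c = 1) ∧ (MulAction.IsPretransitive (Subgroup.centralizer (G : Set (Equiv.Perm α))) α ↔ ∀ a : α, MulAction.stabilizer G a = ⊥) := by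
  have h1 : ∀ c ∈ Subgroup.centralizer (G : Set (Equiv.Perm α)), ∀ a : α, c a = a → c = 1 := by
    intro c hc a ha
    ext b
    obtain ⟨g, hg⟩ := MulAction.exists_smul_eq G a b
    have h := Subgroup.mem_centralizer_iff.1 hc g.1 g.2
    have h2 : (g.1 * c) a = (c * g.1) a := by rw [h]
    change g.1 a = b at hg
    simp only [Equiv.Perm.coe_mul, Function.comp_apply, ha, hg] at h2
    simp [← h2]
  refine ⟨h1, ?_, ?_⟩
  · intro ht a
    rw [eq_bot_iff]
    intro g hg
    rw [Subgroup.mem_bot]
    ext b
    obtain ⟨c, hc⟩ := ht.exists_smul_eq a b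
    have h := Subgroup.mem_centralizer_iff.1 c.2 g.1 g.2
    have h2 : (g.1 * c.1) a = (c.1 * g.1) a := by rw [h]
    change c.1 a = b at hc
    change g.1 a = a at hg
    simp only [Equiv.Perm.coe_mul, Function.comp_apply, hc, hg] at h2
    simp [h2]
  · intro hreg
    constructor
    intro a b
    have hbij : ∀ x : α, Function.Bijective (fun g : G => g • x) := by
      intro x
      refine ⟨fun g h hgh => ?_, fun y => MulAction.exists_smul_eq G x y⟩
      have : h⁻¹ * g ∈ MulAction.stabilizer G x := by
        rw [MulAction.mem_stabilizer_iff, mul_smul, inv_smul_eq_iff]; exact hgh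
      rw [hreg, Subgroup.mem_bot, inv_mul_eq_one] at this
      exact this.symm
    let c : Equiv.Perm α := (Equiv.ofBijective _ (hbij a)).symm.trans (Equiv.ofBijective _ (hbij b))
    have hc : ∀ g : G, c (g • a) = g • b := by
      intro g
      have : (Equiv.ofBijective _ (hbij a)).symm (g • a) = g := by
        rw [Equiv.symm_apply_eq]; rfl
      simp only [c, Equiv.trans_apply, this]; rfl
    refine ⟨⟨c, ?_⟩, ?_⟩
    · rw [Subgroup.mem_centralizer_iff]
      intro g hg
      ext x
      obtain ⟨h, rfl⟩ := (hbij a).2 x
      have e1 := hc h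
      have e2 := hc (⟨g, hg⟩ * h)
      simp only [mul_smul] at e2
      change g (c (h • a)) = c (g (h • a))
      rw [e1]
      exact e2.symm
    · have := hc 1
      simpa using this

end Cfsg.Agent.S0701
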