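import Cfsg.Statements.S0702
import Mathlib
import Cfsg.Agent.H16.Centr

set_option autoImplicit false
open Cfsg

namespace Cfsg.Agent.S0702

/-- For a transitive permutation group `G` on a finite set, the centraliser of `G` in the symmetric group is isomorphic to `N_G(G_ω)/G_ω`, and its orbit of `ω` is the set of fixed points of `G_ω`. -/
theorem result {α : Type*} [Finite α] (G : Subgroup (Equiv.Perm α)) [MulAction.IsPretransitive G α] (a : α) : Nonempty (Subgroup.centralizer (G : Set (Equiv.Perm α)) ≃* Subgroup.normalizer ((MulAction.stabilizer G a : Subgroup G) : Set G) ⧸ (MulAction.stabilizer G a).subgroupOf (Subgroup.normalizer ((MulAction.stabilizer G a : Subgroup G) : Set G))) ∧ MulAction.orbit (Subgroup.centralizer (G : Set (Equiv.Perm α))) a = MulAction.fixedPoints (MulAction.stabilizer G a) α := by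
  open MulAction in
  have hex : ∀ b : α, stabilizer G a = stabilizer G b →
      ∃ c : Subgroup.centralizer (G : Set (Equiv.Perm α)), c.1 a = b := by
    intro b hb
    obtain ⟨c, hc, hcb⟩ := H16.exists_equivariant_perm hb
    refine ⟨⟨c, ?_⟩, hcb⟩
    rw [Subgroup.mem_centralizer_iff]
    intro g hg
    ext x
    exact (hc ⟨g, hg⟩ x).symm
  have hcomm : ∀ (c : Subgroup.centralizer (G : Set (Equiv.Perm α))) (g : G) (x : α),
      c.1 (g • x) = g • c.1 x := by
    intro c g x
    exact (congrArg (fun e : Equiv.Perm α => e x)
      (Subgroup.mem_centralizer_iff.1 c.2 g.1 g.2)).symm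
  have huniq : ∀ c d : Subgroup.centralizer (G : Set (Equiv.Perm α)), c.1 a = d.1 a → c = d := by
    intro c d h
    ext x
    obtain ⟨g, rfl⟩ := exists_smul_eq G a x
    rw [hcomm, hcomm, h]
  have hst : ∀ c : Subgroup.centralizer (G : Set (Equiv.Perm α)),
      stabilizer G a = stabilizer G (c.1 a) := by
    intro c
    ext g
    rw [mem_stabilizer_iff, mem_stabilizer_iff, ← hcomm, c.1.apply_eq_iff_eq]
  have hnorm : ∀ n : G, n ∈ Subgroup.normalizer ((stabilizer G a : Subgroup G) : Set G) ↔
      stabilizer G a = stabilizer G (n⁻¹ • a) := by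
    intro n
    rw [Subgroup.mem_normalizer_iff, Subgroup.ext_iff]
    apply forall_congr'
    intro g
    simp only [mem_stabilizer_iff, mul_smul, eq_inv_smul_iff]
  constructor
  · choose f hf using fun n : Subgroup.normalizer ((stabilizer G a : Subgroup G) : Set G) =>
      hex _ ((hnorm n.1).1 n.2)
    let φ : Subgroup.normalizer ((stabilizer G a : Subgroup G) : Set G) →*
        Subgroup.centralizer (G : Set (Equiv.Perm α)) := MonoidHom.mk' f (by
      intro n m
      apply huniq
      rw [hf]
      change _ = (f n).1 ((f m).1 a)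
      rw [hf, hcomm, hf, ← mul_smul]
      simp)
    have hsurj : Function.Surjective φ := by
      intro c
      obtain ⟨g, hg⟩ := exists_smul_eq G (c.1 a) a
      have hg' : g⁻¹ • a = c.1 a := by rw [inv_smul_eq_iff, hg]
      refine ⟨⟨g, (hnorm g).2 (hg' ▸ hst c)⟩, huniq _ _ ?_⟩
      change (f _).1 a = _
      rw [hf, hg']
    have hker : φ.ker = (stabilizer G a).subgroupOf _ := by
      ext n
      rw [MonoidHom.mem_ker, Subgroup.mem_subgroupOf, mem_stabilizer_iff]
      constructor
      · intro h
        have := hf n
        change (φ n).1 a = _ at this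
        rw [h, eq_inv_smul_iff] at this
        exact this
      · intro h
        apply huniq
        change (f n).1 a = a
        rw [hf, inv_smul_eq_iff, h]
    exact ⟨(QuotientGroup.quotientKerEquivOfSurjective φ hsurj).symm.trans
      (QuotientGroup.quotientMulEquivOfEq hker)⟩
  · ext b
    constructor
    · rintro ⟨c, rfl⟩ g
      exact (hst c).le g.2
    · intro hb
      obtain ⟨c, hc⟩ := hex b (H16.stabilizer_eq_of_le fun g hg => hb ⟨g, hg⟩)
      exact ⟨c, hc⟩

end Cfsg.Agent.S0702
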