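import Cfsg.Statements.S0703
import Mathlib
import Cfsg.Agent.H16.Centr

set_option autoImplicit false
open Cfsg

namespace Cfsg.Agent.S0703

/-- An abelian transitive minimal normal subgroup `M` of a permutation group on a finite set is self-centralising in the symmetric group, regular, elementary abelian, and is the unique minimal normal subgroup. -/
theorem result {α : Type*} [Finite α] (G : Subgroup (Equiv.Perm α)) (M : Subgroup G) [M.Normal] (hM : M ≠ ⊥) (hmin : ∀ L : Subgroup G, L.Normal → L ≤ M → L = ⊥ ∨ L = M) (hab : IsMulCommutative M) (htrans : MulAction.IsPretransitive M α) : Subgroup.centralizer ((M.map G.subtype : Subgroup (Equiv.Perm α)) : Set (Equiv.Perm α)) = M.map G.subtype ∧ (∀ a : α, MulAction.stabilizer M a = ⊥) ∧ (∃ p : ℕ, p.Prime ∧ ∀ m ∈ M, m ^ p = 1) ∧ ∀ L : Subgroup G, L.Normal → L ≠ ⊥ → (∀ L' : Subgroup G, L'.Normal → L' ≤ L → L' = ⊥ ∨ L' = L) → L = M := by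
  have ht := H16.trans_map_subtype (α := α) G M
  have hab' : IsMulCommutative (M.map G.subtype) := Subgroup.map_isMulCommutative M G.subtype
  refine ⟨le_antisymm ?_ ?_, H16.stabilizer_eq_bot_of_comm M hab,
    H16.minNormal_comm_exponent M hM hmin hab, ?_⟩
  · intro c hc
    exact H16.mem_of_centralizes_comm_trans (α := α) _ hab' (Subgroup.mem_centralizer_iff.1 hc)
  · exact Subgroup.le_centralizer _
  · intro L hL hL0 hLmin
    by_contra hne
    have h := H16.minNormal_inf_eq_bot hLmin hmin hne
    apply hL0
    rw [← h, eq_comm, inf_eq_left]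
    intro x hx
    exact H16.mem_of_centralizes_comm_trans (α := α) M hab
      (fun n hn => (H16.comm_of_inf_eq_bot h hx hn).symm)

end Cfsg.Agent.S0703
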