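import Cfsg.Statements.S0704
import Mathlib
import Cfsg.Agent.H16.Centr

set_option autoImplicit false
open Cfsg

namespace Cfsg.Agent.S0704

/-- Two distinct transitive minimal normal subgroups `M`, `N` of a permutation group are regular, non-abelian, isomorphic, each other's centraliser in the symmetric group, and the only minimal normal subgroups. -/
theorem result {α : Type*} (G : Subgroup (Equiv.Perm α)) (M N : Subgroup G) [M.Normal] [N.Normal] (hM : M ≠ ⊥) (hN : N ≠ ⊥) (hMmin : ∀ L : Subgroup G, L.Normal → L ≤ M → L = ⊥ ∨ L = M) (hNmin : ∀ L : Subgroup G, L.Normal → L ≤ N → L = ⊥ ∨ L = N) (hMN : M ≠ N) (hMt : MulAction.IsPretransitive M α) (hNt : MulAction.IsPretransitive N α) : (∀ a : α, MulAction.stabilizer M a = ⊥) ∧ (∀ a : α, MulAction.stabilizer N a = ⊥) ∧ ¬ IsMulCommutative M ∧ Nonempty (M ≃* N) ∧ Subgroup.centralizer ((M.map G.subtype : Subgroup (Equiv.Perm α)) : Set (Equiv.Perm α)) = N.map G.subtype ∧ Subgroup.centralizer ((N.map G.subtype : Subgroup (Equiv.Perm α)) : Set (Equiv.Perm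 α)) = M.map G.subtype ∧ ∀ L : Subgroup G, L.Normal → L ≠ ⊥ → (∀ L' : Subgroup G, L'.Normal → L' ≤ L → L' = ⊥ ∨ L' = L) → L = M ∨ L = N := by
  open MulAction in
  have hMt' := H16.trans_map_subtype (α := α) G M
  have hNt' := H16.trans_map_subtype (α := α) G N
  have hbot := H16.minNormal_inf_eq_bot hMmin hNmin hMN
  have hc : ∀ m ∈ M, ∀ n ∈ N, m * n = n * m := fun m hm n hn => H16.comm_of_inf_eq_bot hbot hm hn
  have hc' : ∀ m ∈ M.map G.subtype, ∀ n ∈ N.map G.subtype, m * n = n * m := by
    rintro _ ⟨m, hm, rfl⟩ _ ⟨n, hn, rfl⟩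
    exact congrArg Subtype.val (hc m hm n hn)
  have hMr : ∀ a : α, stabilizer M a = ⊥ := by
    intro a
    rw [eq_bot_iff]
    intro m hm
    exact Subtype.ext (H16.eq_one_of_centralizes_trans N (fun n hn => (hc _ m.2 n hn).symm) hm)
  have hNr : ∀ a : α, stabilizer N a = ⊥ := by
    intro a
    rw [eq_bot_iff]
    intro n hn
    exact Subtype.ext (H16.eq_one_of_centralizes_trans M (fun m hm => hc m hm _ n.2) hn)
  refine ⟨hMr, hNr, ?_, ?_, le_antisymm ?_ ?_, le_antisymm ?_ ?_, ?_⟩
  · intro hab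
    apply hN
    rw [← hbot, eq_comm, inf_eq_right]
    intro n hn
    exact H16.mem_of_centralizes_comm_trans (α := α) M hab fun m hm => hc m hm n hn
  · obtain ⟨m, hm⟩ := (Subgroup.ne_bot_iff_exists_ne_one).1 hM
    obtain ⟨a, -⟩ := H16.exists_smul_ne (α := α) hm
    let eM := Equiv.ofBijective _ (H16.bijective_smul_of_regular a (hMr a))
    let eN := Equiv.ofBijective _ (H16.bijective_smul_of_regular a (hNr a))
    let e : M ≃ N := (Equiv.inv M).trans (eM.trans eN.symm)
    have he : ∀ x : M, (e x : G) • a = (x : G)⁻¹ • a := by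
      intro x
      change eN (e x) = eM x⁻¹
      simp [e]
    refine ⟨{ e with map_mul' := fun x y => ?_ }⟩
    apply eN.injective
    change (e (x * y) : G) • a = ((e x : G) * (e y : G)) • a
    rw [he, mul_smul, he, ← mul_smul (e x : G), ← hc _ (M.inv_mem y.2) _ (e x).2, mul_smul, he,
      ← mul_smul]
    simp
  · intro c h
    exact H16.mem_of_centralizes_of_trans (α := α) _ _ hc' (Subgroup.mem_centralizer_iff.1 h)
  · intro n hn
    exact Subgroup.mem_centralizer_iff.2 fun m hm => hc' m hm n hn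
  · intro c h
    exact H16.mem_of_centralizes_of_trans (α := α) _ _ (fun n hn m hm => (hc' m hm n hn).symm)
      (Subgroup.mem_centralizer_iff.1 h)
  · intro m hm
    exact Subgroup.mem_centralizer_iff.2 fun n hn => (hc' m hm n hn).symm
  · intro L hL hL0 hLmin
    by_contra hne
    push Not at hne
    have h1 := H16.minNormal_inf_eq_bot hLmin hMmin hne.1
    have h2 := H16.minNormal_inf_eq_bot hLmin hNmin hne.2
    apply hL0
    rw [← h2, eq_comm, inf_eq_left]
    intro x hx
    exact H16.mem_of_centralizes_of_trans (α := α) M N hc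
      (fun m hm => (H16.comm_of_inf_eq_bot h1 hx hm).symm)

end Cfsg.Agent.S0704
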