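import Cfsg.Statements.S0705
import Mathlib
import Cfsg.Agent.H16.Prim

set_option autoImplicit false
open scoped Pointwise
open Cfsg

namespace Cfsg.Agent.S0705

/-- A generously `k`-transitive permutation group (every `(k+1)`-subset has its full symmetric group induced by the setwise stabiliser) of degree greater than `k` is `k`-transitive, and for a `k`-subset the setwise and pointwise stabilisers have the same orbits outside it. -/
theorem result {α : Type*} [Fintype α] [DecidableEq α] (G : Subgroup (Equiv.Perm α)) {k : ℕ} (hk : k < Fintype.card α) (hgen : ∀ s : Finset α, s.card = k + 1 → ∀ σ : Equiv.Perm ↥s, ∃ g ∈ G, ∀ x : ↥s, g (x : α) = σ x) : MulAction.IsMultiplyPretransitive G α k ∧ ∀ s : Finset α, s.card = k → ∀ a b : α, a ∉ s → b ∉ s → (∃ g ∈ G, g • s = s ∧ g a = b) → ∃ g ∈ G, (∀ x ∈ s, g x = x) ∧ g a = b := by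
  have key : ∀ t : Finset α, t.card = k + 1 → ∀ σ : Equiv.Perm α, (∀ x, σ x ∈ t ↔ x ∈ t) →
      ∃ g ∈ G, ∀ x ∈ t, g x = σ x := by
    intro t ht σ hσ
    obtain ⟨g, hg, h⟩ := hgen t ht (σ.subtypePerm hσ)
    exact ⟨g, hg, fun x hx => h ⟨x, hx⟩⟩
  constructor
  · have h1 : ∀ σ : Equiv.Perm α, ∀ s : Finset α, s.card = k → ∃ g ∈ G, ∀ x ∈ s, g x = σ x := by
      intro σ
      induction σ using Equiv.Perm.swap_induction_on' with
      | one => intro s _; exact ⟨1, G.one_mem, fun x _ => rfl⟩
      | mul_swap σ a b hab ih =>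
        intro s hs
        obtain ⟨g, hg, h⟩ := ih (s.image (Equiv.swap a b))
          (by rw [Finset.card_image_of_injective _ (Equiv.injective _), hs])
        have : ∃ g' ∈ G, ∀ x ∈ s, g' x = Equiv.swap a b x := by
          by_cases hn : a ∉ s ∧ b ∉ s
          · exact ⟨1, G.one_mem, fun x hx => by
              rw [Equiv.swap_apply_of_ne_of_ne (by rintro rfl; exact hn.1 hx)
                (by rintro rfl; exact hn.2 hx)]; rfl⟩
          · have hc : (insert a (insert b s)).card ≤ k + 1 := by
              rw [not_and_or, not_not, not_not] at hn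
              rcases hn with hn | hn
              · rw [Finset.insert_eq_of_mem (Finset.mem_insert_of_mem hn), ← hs]
                exact Finset.card_insert_le _ _
              · rw [Finset.insert_eq_of_mem hn, ← hs]
                exact Finset.card_insert_le _ _
            obtain ⟨t, ht1, -, ht⟩ := Finset.exists_subsuperset_card_eq
              (Finset.subset_univ (insert a (insert b s))) hc (by simpa using hk)
            have ha : a ∈ t := ht1 (by simp)
            have hb : b ∈ t := ht1 (by simp)
            obtain ⟨g', hg', h'⟩ := key t ht (Equiv.swap a b) (fun x => by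
              rw [Equiv.swap_apply_def]; split_ifs <;> simp_all)
            exact ⟨g', hg', fun x hx => h' x (ht1 (by simp [hx]))⟩
        obtain ⟨g', hg', h'⟩ := this
        refine ⟨g * g', G.mul_mem hg hg', fun x hx => ?_⟩
        rw [Equiv.Perm.mul_apply, h' x hx, h _ (Finset.mem_image_of_mem _ hx)]
        rfl
    rw [H16.mtrans_iff]
    intro x y hx hy
    obtain ⟨σ, hσ⟩ := H16.mtrans_iff.1 (Equiv.Perm.isMultiplyPretransitive α k) x y hx hy
    obtain ⟨g, hg, h⟩ := h1 σ (Finset.univ.image x)
      (by rw [Finset.card_image_of_injective _ hx]; simp)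
    exact ⟨⟨g, hg⟩, fun i => by rw [← hσ i]; exact h _ (by simp)⟩
  · rintro s hs a b ha hb ⟨g, hg, hgs, hab⟩
    have hinv : ∀ x, g⁻¹ x ∈ s ↔ x ∈ s := by
      intro x
      conv_rhs => rw [← hgs]
      rw [← Finset.inv_smul_mem_iff]; rfl
    obtain ⟨h, hh, h1⟩ := key (insert b s) (by rw [Finset.card_insert_of_notMem hb, hs])
      (Equiv.Perm.ofSubtype (g⁻¹.subtypePerm hinv)) (fun x => by
        by_cases hx : x ∈ s
        · rw [Equiv.Perm.ofSubtype_apply_of_mem _ hx]
          exact iff_of_true (Finset.mem_insert_of_mem ((hinv x).2 hx)) (Finset.mem_insert_of_mem hx)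
        · rw [Equiv.Perm.ofSubtype_apply_of_not_mem _ hx])
    refine ⟨h * g, G.mul_mem hh hg, fun x hx => ?_, ?_⟩
    · have hx' : g x ∈ s := by rw [← hinv]; simpa
      rw [Equiv.Perm.mul_apply, h1 _ (Finset.mem_insert_of_mem hx'),
        Equiv.Perm.ofSubtype_apply_of_mem _ hx']
      simp
    · rw [Equiv.Perm.mul_apply, hab, h1 _ (Finset.mem_insert_self _ _),
        Equiv.Perm.ofSubtype_apply_of_not_mem _ hb]

end Cfsg.Agent.S0705
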