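import Cfsg.Statements.S0707
import Mathlib
import Cfsg.Agent.H16.Prim

set_option autoImplicit false
open Cfsg

namespace Cfsg.Agent.S0707

/-- In a primitive permutation group, distinct points have distinct stabilisers unless the group is regular of prime degree. -/
theorem result {α : Type*} (G : Subgroup (Equiv.Perm α)) [MulAction.IsPreprimitive G α] (h : ¬ (Nat.card α).Prime ∨ ∃ a : α, MulAction.stabilizer G a ≠ ⊥) {a b : α} (hab : a ≠ b) : MulAction.stabilizer G a ≠ MulAction.stabilizer G b := by
  intro he
  have : Nontrivial α := ⟨a, b, hab⟩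
  have hc := MulAction.IsPreprimitive.isCoatom_stabilizer_of_isPreprimitive G a
  have ha := H16.stabilizer_eq_bot_of_le hab he.le
  rcases h with h | ⟨c, hc⟩
  · apply h
    rw [ha] at hc
    rw [← H16.card_eq_of_regular a ha]
    exact H16.prime_card_of_coatom_bot hc
  · exact hc (H16.stabilizer_eq_bot_of_one ha c)

end Cfsg.Agent.S0707
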