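import Cfsg.Statements.S4301
import Mathlib
import Cfsg.Agent.H16.Basic

set_option autoImplicit false
open Cfsg

namespace Cfsg.Agent.S4301

open MulAction Subgroup Cfsg.Agent.H16

/-- the double coset lemma behind transitive extensions -/
theorem ext_cases {Γ : Type*} [Group Γ] {G H : Subgroup Γ} {g h : Γ} (hg : g ∈ G) (hH : H ≤ G)
    (dc : ∀ x ∈ G, x ∈ H ∨ ∃ a ∈ H, ∃ b ∈ H, x = a * g * b) (h2 : h ^ 2 ∈ G)
    (h3 : (g * h) ^ 3 ∈ G) (hn : ∀ f ∈ H, h * f * h ∈ G) :
    ∀ x ∈ closure ((G : Set Γ) ∪ {h}), x ∈ G ∨ ∃ a ∈ G, ∃ b ∈ G, x = a * h * b := by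
  have key : ∀ f ∈ G, h * f * h ∈ G ∨ ∃ a ∈ G, ∃ b ∈ G, h * f * h = a * h * b := by
    intro f hf
    rcases dc f hf with e | ⟨a, ha, b, hb, rfl⟩
    · exact .inl (hn f e)
    · refine .inr ⟨h * a * h * (h ^ 2)⁻¹ * g⁻¹ * (g * h) ^ 3 * (h ^ 2)⁻¹,
        mul_mem (mul_mem (mul_mem (mul_mem (hn a ha) (inv_mem h2)) (inv_mem hg)) h3) (inv_mem h2),
        g⁻¹ * (h ^ 2)⁻¹ * (h * b * h),
        mul_mem (mul_mem (inv_mem hg) (inv_mem h2)) (hn b hb), ?_⟩
      simp only [pow_succ, pow_zero, one_mul]; group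
  intro x hx
  induction hx using closure_induction'' with
  | one => exact .inl (one_mem _)
  | mem k hk =>
    rcases hk with hk | rfl
    · exact .inl hk
    · exact .inr ⟨1, one_mem _, 1, one_mem _, by simp⟩
  | inv_mem k hk =>
    rcases hk with hk | rfl
    · exact .inl (inv_mem hk)
    · exact .inr ⟨1, one_mem _, _, inv_mem h2, by group⟩
  | mul k l _ _ hk hl =>
    rcases hk with hk | ⟨a, ha, b, hb, rfl⟩ <;> rcases hl with hl | ⟨c, hc, d, hd, rfl⟩
    · exact .inl (mul_mem hk hl)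
    · exact .inr ⟨_, mul_mem hk hc, d, hd, by group⟩
    · exact .inr ⟨a, ha, _, mul_mem hb hl, by group⟩
    · rcases key _ (mul_mem hb hc) with e | ⟨u, hu, v, hv, e⟩
      · exact .inl (by simpa [mul_assoc] using mul_mem (mul_mem ha e) hd)
      · refine .inr ⟨_, mul_mem ha hu, _, mul_mem hv hd, ?_⟩
        calc _ = a * (h * (b * c) * h) * d := by group
          _ = _ := by rw [e]; group

theorem exists_emb {X : Type*} {k : ℕ} (hk : 2 ≤ k) (hkX : Nonempty (Fin k ↪ X)) {a b : X}
    (hab : a ≠ b) : ∃ e : Fin k ↪ X, e ⟨0, by omega⟩ = a ∧ e ⟨1, by omega⟩ = b := by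
  classical
  obtain ⟨e⟩ := hkX
  let σ := Equiv.swap (e ⟨0, by omega⟩) a
  let τ := Equiv.swap (σ (e ⟨1, by omega⟩)) b
  refine ⟨e.trans (σ.trans τ).toEmbedding, ?_, by simp [τ]⟩
  have : σ (e ⟨1, by omega⟩) ≠ a := fun h => by
    have := σ.injective (h.trans (Equiv.swap_apply_left _ a).symm)
    simp at this
  simp only [Function.Embedding.trans_apply, Equiv.coe_toEmbedding, Equiv.trans_apply, σ,
    Equiv.swap_apply_left]
  exact Equiv.swap_apply_of_ne_of_ne this.symm hab

/-- One-point extension of a multiply transitive group. Let X be a set and G a group of permutations of Option X (the set X with one extra point ∗ = none) all of whose elements fix ∗, such that G is k-transitive on the points of X for some k ≥ 2, X having at least k points. Suppose a permutation h of Option X and an element g of G satisfy: h interchanges ∗ with a point x of X and fixes a point y of X; g interchanges x and y; (g h)³ and h² lie in G; and for every f in G fixing x, the product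 h f h lies in G and fixes x. Then an element of the group generated by G and h fixes ∗ exactly when it lies in G, and that group acts (k+1)-transitively on Option X. -/
theorem result {X : Type*} (G : Subgroup (Equiv.Perm (Option X))) (hfix : ∀ f ∈ G, f none = none)
    (k : ℕ) (hk : 2 ≤ k) (hkX : Nonempty (Fin k ↪ X))
    (htrans : ∀ a b : Fin k ↪ X, ∃ f ∈ G, ∀ i, f (some (a i)) = some (b i))
    (h g : Equiv.Perm (Option X)) (hg : g ∈ G) (x y : X)
    (h1 : h none = some x) (h2 : h (some x) = none) (h3 : h (some y) = some y)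
    (h4 : g (some x) = some y) (h5 : g (some y) = some x)
    (h6 : (g * h) ^ 3 ∈ G) (h7 : h ^ 2 ∈ G)
    (h8 : ∀ f ∈ G, f (some x) = some x → h * f * h ∈ G ∧ (h * f * h) (some x) = some x) :
    (∀ f ∈ Subgroup.closure ((G : Set (Equiv.Perm (Option X))) ∪ {h}), f none = none ↔ f ∈ G) ∧
      MulAction.IsMultiplyPretransitive (Subgroup.closure ((G : Set (Equiv.Perm (Option X))) ∪ {h})) (Option X) (k + 1) := by
  have two : ∀ a b c d : X, a ≠ b → c ≠ d → ∃ f ∈ G, f (some a) = some c ∧ f (some b) = some d := by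
    intro a b c d hab hcd
    obtain ⟨e, e0, e1⟩ := exists_emb hk hkX hab
    obtain ⟨e', e0', e1'⟩ := exists_emb hk hkX hcd
    obtain ⟨f, hf, h⟩ := htrans e e'
    exact ⟨f, hf, by rw [← e0, ← e0', h], by rw [← e1, ← e1', h]⟩
  have hxy : y ≠ x := by rintro rfl; simp [h3] at h2
  have ns : ∀ f ∈ G, ∀ z : X, f (some z) ≠ none := fun f hf z e =>
    absurd (f.injective (e.trans (hfix f hf).symm)) (by simp)
  have dc := ext_cases (H := G ⊓ stabilizer _ (some x)) hg inf_le_left (fun f hf => by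
    by_cases e : f (some x) = some x
    · exact .inl ⟨hf, e⟩
    obtain ⟨z, hz⟩ := Option.ne_none_iff_exists'.1 (ns f hf x)
    obtain ⟨a, ha, a1, a2⟩ := two x y x z hxy.symm fun e' => e (e' ▸ hz)
    refine .inr ⟨a, ⟨ha, a1⟩, (a * g)⁻¹ * f, ⟨G.mul_mem (G.inv_mem (G.mul_mem ha hg)) hf, ?_⟩,
      by group⟩
    show (a * g)⁻¹ (f (some x)) = some x
    rw [Equiv.Perm.inv_eq_iff_eq, hz, Equiv.Perm.mul_apply, h4, a2]) h7 h6
    fun f hf => (h8 f hf.1 hf.2).1
  refine ⟨fun f hf => ⟨fun e => ?_, hfix f⟩, mtrans_iff.2 fun a b ha hb => ?_⟩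
  · rcases dc f hf with e' | ⟨a, ha, b, hb, rfl⟩
    · exact e'
    · rw [Equiv.Perm.mul_apply, Equiv.Perm.mul_apply, hfix b hb, h1] at e
      exact absurd e (ns a ha x)
  set L := closure ((G : Set (Equiv.Perm (Option X))) ∪ {h})
  have mG : ∀ f ∈ G, f ∈ L := fun f hf => subset_closure (.inl hf)
  have mh : h ∈ L := subset_closure (.inr rfl)
  have mv : ∀ a : Fin (k + 1) → Option X, Function.Injective a →
      ∃ u ∈ L, ∃ e : Fin k ↪ X, u (a 0) = none ∧ ∀ i, u (a i.succ) = some (e i) := by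
    intro a ha
    have : ∃ u ∈ L, u (a 0) = none := by
      cases e : a 0 with
      | none => exact ⟨1, one_mem _, rfl⟩
      | some z =>
        by_cases hz : z = x
        · exact ⟨h, mh, hz ▸ h2⟩
        · obtain ⟨f, hf, f1, -⟩ := two z x x y hz hxy.symm
          exact ⟨h * f, mul_mem mh (mG f hf), by rw [Equiv.Perm.mul_apply, f1, h2]⟩
    obtain ⟨u, hu, e⟩ := this
    have : ∀ i : Fin k, ∃ z, u (a i.succ) = some z := fun i =>
      Option.ne_none_iff_exists'.1 fun e' =>
        Fin.succ_ne_zero i (ha (u.injective (e'.trans e.symm)))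
    choose z hz using this
    exact ⟨u, hu, ⟨z, fun i j hij =>
      Fin.succ_injective _ (ha (u.injective (by rw [hz, hz, hij])))⟩, e, hz⟩
  obtain ⟨u, hu, e, u0, u1⟩ := mv a ha
  obtain ⟨v, hv, e', v0, v1⟩ := mv b hb
  obtain ⟨f, hf, hf'⟩ := htrans e e'
  refine ⟨⟨v⁻¹ * f * u, mul_mem (mul_mem (inv_mem hv) (mG f hf)) hu⟩, fun i => ?_⟩
  show v⁻¹ (f (u (a i))) = b i
  rw [Equiv.Perm.inv_eq_iff_eq]
  induction i using Fin.cases with
  | zero => rw [u0, v0, hfix f hf]
  | succ i => rw [u1, v1, hf']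

end Cfsg.Agent.S4301
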