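import Cfsg.Statements.S0709
import Mathlib
import Cfsg.Agent.H16.Basic
import Cfsg.Agent.S4301

set_option autoImplicit false
open Cfsg

namespace Cfsg.Agent.S0709

open MulAction Subgroup Cfsg.Agent.H16

/-- the chain of subgroups -/
def W {Γ : Type*} [Group Γ] (B : Subgroup Γ) (s : ℕ → Γ) (i : ℕ) : Subgroup Γ :=
  closure ((B : Set Γ) ∪ {x | ∃ j, 1 ≤ j ∧ j + 1 ≤ i ∧ x = s j})

section
variable {Γ : Type*} [Group Γ] {B : Subgroup Γ} {s : ℕ → Γ} {i j : ℕ}

theorem B_le : B ≤ W B s i := fun _ hx => subset_closure (.inl hx)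
theorem s_mem (h1 : 1 ≤ j) (h : j + 1 ≤ i) : s j ∈ W B s i := subset_closure (.inr ⟨j, h1, h, rfl⟩)
theorem W_le {K : Subgroup Γ} (hB : B ≤ K) (h : ∀ j, 1 ≤ j → j + 1 ≤ i → s j ∈ K) : W B s i ≤ K :=
  (closure_le _).2 (by rintro x (hx | ⟨j, h1, h2, rfl⟩); exacts [hB hx, h j h1 h2])
theorem W_mono (h : i ≤ j) : W B s i ≤ W B s j := W_le B_le fun _ h1 h2 => s_mem h1 (h2.trans h)
theorem W_one : W B s 1 = B := le_antisymm (W_le le_rfl fun j h1 h2 => by omega) B_le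
theorem W_succ : W B s (i + 1) ≤ closure ((W B s i : Set Γ) ∪ {s i}) :=
  W_le (fun _ hx => subset_closure (.inl (B_le hx))) fun j h1 h2 => by
    rcases (Nat.le_of_succ_le_succ h2).eq_or_lt with rfl | h
    · exact subset_closure (.inr rfl)
    · exact subset_closure (.inl (s_mem h1 h))
end

/-- Witt's Lemma for constructing transitive extensions. Points `q 1, …, q t` (`t ≥ 2`) of a finite set are given; `G` fixes `q i` for `i ≥ 3` and is doubly transitive on the remaining points; `s 1 ∈ G` swaps `q 1, q 2`; for `2 ≤ i ≤ t-1`, `s i` swaps `q i, q (i+1)` and fixes the other `q j`; with `H` the stabiliser of `q 1, q 2` in `G`: `s i ^ 2 ∈ H`, `(s i * s (i+1)) ^ 3 ∈ H`, `(s i * s j) ^ 2 ∈ H` for `j ≥ i + 2`, and `s i` (`i ≥ 2`) normalises the stabiliser of `q 2` in `G`. Then `G` and the `s i` generate a `t`-transitive group whose pointwise stabiliser of the `q`'s is `H`. -/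
theorem result {α : Type*} [Fintype α] [DecidableEq α] (t : ℕ) (ht : 2 ≤ t) (q : ℕ → α) (hq : ∀ i j : ℕ, 1 ≤ i → i ≤ t → 1 ≤ j → j ≤ t → q i = q j → i = j) (G : Subgroup (Equiv.Perm α)) (hfix : ∀ g ∈ G, ∀ i : ℕ, 3 ≤ i → i ≤ t → g (q i) = q i) (h2 : ∀ a b c d : α, (∀ i, 3 ≤ i → i ≤ t → a ≠ q i ∧ b ≠ q i ∧ c ≠ q i ∧ d ≠ q i) → a ≠ b → c ≠ d → ∃ g ∈ G, g a = c ∧ g b = d) (s : ℕ → Equiv.Perm α) (hs1 : s 1 ∈ G) (hs1q : s 1 (q 1) = q 2 ∧ s 1 (q 2) = q 1) (hsq : ∀ i : ℕ, 2 ≤ i → i + 1 ≤ t → s i (q i) = q (i + 1) ∧ s i (q (i + 1)) = q i ∧ ∀ j : ℕ, 1 ≤ j → j ≤ t → j ≠ i → j ≠ i + 1 → s i (q j) = q j) (H : Subgroup (Equiv.Perm α)) (hH : H = G ⊓ MulAction.stabilizer (Equiv.Perm α) (q 1) ⊓ MulAction.stabilizer (Equiv.Perm α) (q 2)) (hsq2 : ∀ i : ℕ, 1 ≤ i → i + 1 ≤ t → s i ^ 2 ∈ H) (hbraid : ∀ i : ℕ, 1 ≤ i → i + 2 ≤ t → (s i * s (i + 1)) ^ 3 ∈ H) (hcomm : ∀ i j : ℕ, 1 ≤ i → i + 2 ≤ j → j + 1 ≤ t → (s i * s j) ^ 2 ∈ H ∧ (s j *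 s i) ^ 2 ∈ H) (hnorm : ∀ i : ℕ, 2 ≤ i → i + 1 ≤ t → ∀ g ∈ G ⊓ MulAction.stabilizer (Equiv.Perm α) (q 2), s i * g * (s i)⁻¹ ∈ G ⊓ MulAction.stabilizer (Equiv.Perm α) (q 2)) : MulAction.IsMultiplyPretransitive ↥(Subgroup.closure ((G : Set (Equiv.Perm α)) ∪ {x | ∃ i : ℕ, 2 ≤ i ∧ i + 1 ≤ t ∧ x = s i})) α t ∧ Subgroup.closure ((G : Set (Equiv.Perm α)) ∪ {x | ∃ i : ℕ, 2 ≤ i ∧ i + 1 ≤ t ∧ x = s i}) ⊓ fixingSubgroup (Equiv.Perm α) {x | ∃ i : ℕ, 1 ≤ i ∧ i ≤ t ∧ x = q i} = H := by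
  set B := G ⊓ stabilizer (Equiv.Perm α) (q 2) with hB
  have HB : H ≤ B := fun x hx => by rw [hH] at hx; exact ⟨hx.1.1, hx.2⟩
  have qne : ∀ i j, 1 ≤ i → i ≤ t → 1 ≤ j → j ≤ t → i ≠ j → q i ≠ q j :=
    fun i j a b c d h e => h (hq i j a b c d e)
  have q12 : q 1 ≠ q 2 := qne 1 2 le_rfl (by omega) (by omega) ht (by omega)
  have sq : ∀ i, 1 ≤ i → i + 1 ≤ t → s i (q i) = q (i + 1) ∧ s i (q (i + 1)) = q i ∧
      ∀ j, i + 1 < j → j ≤ t → s i (q j) = q j := by
    intro i h1 h2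
    rcases h1.eq_or_lt with rfl | h1
    · exact ⟨hs1q.1, hs1q.2, fun j a b => hfix _ hs1 j a b⟩
    · exact ⟨(hsq i h1 h2).1, (hsq i h1 h2).2.1,
        fun j a b => (hsq i h1 h2).2.2 j (by omega) b (by omega) (by omega)⟩
  have fx : ∀ i j, 1 ≤ i → i < j → j ≤ t → ∀ g ∈ W B s i, g (q j) = q j := by
    intro i j h1 hij hj g hg
    refine W_le (K := stabilizer _ (q j)) (fun g hg => ?_) (fun l a b => ?_) hg
    · rcases (show 2 ≤ j by omega).eq_or_lt with rfl | h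
      · exact hg.2
      · exact hfix g hg.1 j h hj
    · exact (sq l a (by omega)).2.2 j (by omega) hj
  have av : ∀ g ∈ G, ∀ j, (j = 1 ∨ j = 2) → ∀ i, 3 ≤ i → i ≤ t → g (q j) ≠ q i :=
    fun g hg j hj i a b e => qne j i (by omega) (by omega) (by omega) b (by omega)
      (g.injective (e.trans (hfix g hg i a b).symm))
  have av1 := av 1 (one_mem _) 1 (.inl rfl)
  have av2 := av 1 (one_mem _) 2 (.inr rfl)
  have dcG : ∀ x ∈ G, x ∈ B ∨ ∃ a ∈ B, ∃ b ∈ B, x = a * s 1 * b := by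
    intro x hx
    by_cases e : x (q 2) = q 2
    · exact .inl ⟨hx, e⟩
    obtain ⟨a, ha, a1, a2⟩ := h2 (q 2) (q 1) (q 2) (x (q 2))
      (fun i a b => ⟨av2 i a b, av1 i a b, av2 i a b, av x hx 2 (.inr rfl) i a b⟩) q12.symm (Ne.symm e)
    refine .inr ⟨a, ⟨ha, a1⟩, (a * s 1)⁻¹ * x, ⟨G.mul_mem (G.inv_mem (G.mul_mem ha hs1)) hx, ?_⟩,
      by group⟩
    show (a * s 1)⁻¹ (x (q 2)) = q 2
    rw [Equiv.Perm.inv_eq_iff_eq, Equiv.Perm.mul_apply, hs1q.2, a2]
  have W2 : W B s 2 = G := by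
    refine le_antisymm (W_le inf_le_left fun j a b => (show 1 = j by omega) ▸ hs1) fun x hx => ?_
    rcases dcG x hx with e | ⟨a, ha, b, hb, rfl⟩
    · exact B_le e
    · exact mul_mem (mul_mem (B_le ha) (s_mem le_rfl le_rfl)) (B_le hb)
  have dc : ∀ i, 1 ≤ i → i + 1 ≤ t → ∀ x ∈ W B s (i + 1),
      x ∈ W B s i ∨ ∃ a ∈ W B s i, ∃ b ∈ W B s i, x = a * s i * b := by
    intro i h1
    induction i, h1 using Nat.le_induction with
    | base => intro _; rw [W_one, W2]; exact dcG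
    | succ i h1 ih =>
      intro hi x hx
      have s2 : ∀ k, s (i + 1) ^ 2 ∈ W B s k := fun k => B_le (HB (hsq2 _ (by omega) hi))
      refine S4301.ext_cases (s_mem h1 le_rfl) (W_mono i.le_succ) (ih (by omega)) (s2 _)
        (B_le (HB (hbraid i h1 hi))) (fun f hf => ?_) x (W_succ hx)
      have : f ∈ (W B s i).comap (MulAut.conj (s (i + 1))).toMonoidHom := by
        refine W_le (K := (W B s i).comap _)
          (fun g hg => mem_comap.2 (B_le (hnorm _ (by omega) hi g hg))) (fun j a b => ?_) hf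
        have := mul_mem (mul_mem (B_le (s := s) (i := i) (HB (hcomm j (i + 1) a (by omega) hi).2))
          (inv_mem (s_mem a b))) (inv_mem (s2 i))
        show s (i + 1) * s j * (s (i + 1))⁻¹ ∈ W B s i
        convert this using 1
        simp only [pow_succ, pow_zero, one_mul]; group
      have := mul_mem (W_mono i.le_succ this) (s2 _)
      convert this using 1
      simp [pow_succ, mul_assoc]
  have stab : ∀ i, 1 ≤ i → i + 1 ≤ t → ∀ x ∈ W B s (i + 1), x (q (i + 1)) = q (i + 1) →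
      x ∈ W B s i := by
    intro i h1 hi x hx e
    rcases dc i h1 hi x hx with e' | ⟨a, ha, b, hb, rfl⟩
    · exact e'
    · rw [Equiv.Perm.mul_apply, Equiv.Perm.mul_apply, fx i _ h1 i.lt_succ_self hi b hb,
        (sq i h1 hi).2.1] at e
      exact absurd (a.injective (e.trans (fx i _ h1 i.lt_succ_self hi a ha).symm))
        (qne _ _ h1 (by omega) (by omega) hi (by omega))
  have U : ∀ i, 2 ≤ i → i ≤ t → ∀ z, (∀ j, i < j → j ≤ t → z ≠ q j) →
      ∃ g ∈ W B s i, g z = q i := by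
    intro i h1
    induction i, h1 using Nat.le_induction with
    | base =>
      intro _ z hz
      by_cases e : z = q 2
      · exact ⟨1, one_mem _, e⟩
      obtain ⟨g, hg, e, -⟩ := h2 z (q 2) (q 2) (q 1)
        (fun i a b => ⟨hz i a b, av2 i a b, av2 i a b, av1 i a b⟩) e q12.symm
      exact ⟨g, W2 ▸ hg, e⟩
    | succ i h1 ih =>
      intro hi z hz
      by_cases e : z = q (i + 1)
      · exact ⟨1, one_mem _, e⟩
      obtain ⟨g, hg, e⟩ := ih (by omega) z fun j a b => by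
        rcases (Nat.succ_le_of_lt a).eq_or_lt with rfl | h
        exacts [e, hz j h b]
      exact ⟨s i * g, mul_mem (s_mem (by omega) le_rfl) (W_mono i.le_succ hg),
        by rw [Equiv.Perm.mul_apply, e, (sq i (by omega) hi).1]⟩
  have T : ∀ i, 2 ≤ i → i ≤ t → ∀ a : ℕ → α,
      (∀ j k, 1 ≤ j → j ≤ i → 1 ≤ k → k ≤ i → a j = a k → j = k) →
      (∀ k j, 1 ≤ k → k ≤ i → i < j → j ≤ t → a k ≠ q j) →
      ∃ g ∈ W B s i, ∀ k, 1 ≤ k → k ≤ i → g (a k) = q k := by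
    intro i h1
    induction i, h1 using Nat.le_induction with
    | base =>
      intro _ a ha hz
      obtain ⟨g, hg, e1, e2⟩ := h2 (a 1) (a 2) (q 1) (q 2)
        (fun i c d => ⟨hz 1 i le_rfl (by omega) c d, hz 2 i (by omega) le_rfl c d, av1 i c d, av2 i c d⟩)
        (fun e => by simpa using ha 1 2 le_rfl (by omega) (by omega) le_rfl e) q12
      refine ⟨g, W2 ▸ hg, fun k c d => ?_⟩
      obtain rfl | rfl : k = 1 ∨ k = 2 := by omega
      exacts [e1, e2]
    | succ i h1 ih =>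
      intro hi a ha hz
      obtain ⟨u, hu, e⟩ := U (i + 1) (by omega) hi (a (i + 1)) fun j => hz _ j (by omega) le_rfl
      obtain ⟨g, hg, e'⟩ := ih (by omega) (fun k => u (a k))
        (fun j k c d c' d' h => ha j k c (by omega) c' (by omega) (u.injective h))
        fun k j c d c' d' h => by
          rcases (Nat.succ_le_of_lt c').eq_or_lt with rfl | h'
          · have := ha k (i + 1) c (by omega) (by omega) le_rfl (u.injective (h.trans e.symm))
            omega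
          · exact hz k j c (by omega) h' d'
              (u.injective (h.trans (fx _ j (by omega) h' d' u hu).symm))
      refine ⟨g * u, mul_mem (W_mono i.le_succ hg) hu, fun k c d => ?_⟩
      rcases d.eq_or_lt with rfl | d
      · rw [Equiv.Perm.mul_apply, e, fx i _ (by omega) i.lt_succ_self hi g hg]
      · exact e' k c (by omega)
  have eL : closure ((G : Set (Equiv.Perm α)) ∪ {x | ∃ i : ℕ, 2 ≤ i ∧ i + 1 ≤ t ∧ x = s i}) =
      W B s t := by
    refine le_antisymm ((closure_le _).2 ?_) (W_le (fun x hx => subset_closure (.inl hx.1))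
      fun j a b => ?_)
    · rintro x (hx | ⟨j, a, b, rfl⟩)
      · exact W_mono ht (W2 ▸ hx)
      · exact s_mem (by omega) b
    · rcases a.eq_or_lt with rfl | a
      exacts [subset_closure (.inl hs1), subset_closure (.inr ⟨j, a, b, rfl⟩)]
  rw [eL]
  refine ⟨mtrans_iff.2 fun x y hx hy => ?_, le_antisymm (fun x hx => ?_) fun x hx => ?_⟩
  · have mv : ∀ x : Fin t → α, Function.Injective x → ∃ g ∈ W B s t, ∀ i, g (x i) = q (i + 1) := by
      intro x hx
      obtain ⟨g, hg, e⟩ := T t ht le_rfl (fun n => x ⟨(n - 1) % t, Nat.mod_lt _ (by omega)⟩)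
        (fun j k a b c d h => by
          have := congrArg Fin.val (hx h)
          simp only [Nat.mod_eq_of_lt (show j - 1 < t by omega),
            Nat.mod_eq_of_lt (show k - 1 < t by omega)] at this
          omega) fun k j a b c d => by omega
      refine ⟨g, hg, fun i => ?_⟩
      have := e (i + 1) (by omega) i.2
      simpa [Nat.mod_eq_of_lt i.2] using this
    obtain ⟨u, hu, e⟩ := mv x hx
    obtain ⟨v, hv, e'⟩ := mv y hy
    refine ⟨⟨v⁻¹ * u, mul_mem (inv_mem hv) hu⟩, fun i => ?_⟩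
    show v⁻¹ (u (x i)) = y i
    rw [Equiv.Perm.inv_eq_iff_eq, e, e']
  · have hf : ∀ i, 1 ≤ i → i ≤ t → x (q i) = q i :=
      fun i a b => (mem_fixingSubgroup_iff _).1 hx.2 _ ⟨i, a, b, rfl⟩
    have : ∀ i, 1 ≤ i → i ≤ t → x ∈ W B s i → x ∈ W B s 1 := by
      intro i h1
      induction i, h1 using Nat.le_induction with
      | base => exact fun _ h => h
      | succ i h1 ih => exact fun a h => ih (by omega) (stab i h1 a x h (hf _ (by omega) a))
    have := this t (by omega) le_rfl hx.1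
    rw [W_one] at this
    rw [hH]
    exact ⟨⟨this.1, hf 1 le_rfl (by omega)⟩, this.2⟩
  · refine ⟨B_le (HB hx), (mem_fixingSubgroup_iff _).2 ?_⟩
    rintro _ ⟨i, a, b, rfl⟩
    rcases a.eq_or_lt with rfl | a
    · rw [hH] at hx; exact hx.1.2
    · exact fx 1 i le_rfl a b x (B_le (HB hx))

end Cfsg.Agent.S0709
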