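import Cfsg.Statements.S0710
import Mathlib
import Cfsg.Agent.H16.PrimeDeg2

set_option autoImplicit false
open Cfsg

namespace Cfsg.Agent.S0710

/-- No transitive permutation group on 13 points has order `13 * 12 * 11 * 10 * 9 * 8`. -/
theorem result {α : Type*} [Fintype α] [DecidableEq α] (hα : Fintype.card α = 13) (G : Subgroup (Equiv.Perm α)) [MulAction.IsPretransitive G α] : Nat.card G ≠ 13 * 12 * 11 * 10 * 9 * 8 := by
  intro h
  haveI : Fact (Nat.Prime 13) := ⟨by norm_num⟩
  have hα' : Nat.card α = 13 := by rw [Nat.card_eq_fintype_card, hα]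
  obtain ⟨P⟩ : Nonempty (Sylow 13 G) := inferInstance
  have h1 := H16.card_eq_prime_deg hα' P
  have h2 := H16.relIndex_normalizer_dvd_prime_deg hα' P
  have h3 := card_sylow_modEq_one 13 G
  rw [h] at h1
  generalize (P : Subgroup G).relIndex _ = k at h1 h2
  generalize Nat.card (Sylow 13 G) = m at h1 h3
  have h4 := Nat.le_of_dvd (by norm_num) h2
  unfold Nat.ModEq at h3
  interval_cases k <;> omega

end Cfsg.Agent.S0710
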