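import Cfsg.Statements.S0712
import Mathlib
import Cfsg.Agent.H16.Prim

set_option autoImplicit false
open Cfsg

namespace Cfsg.Agent.S0712

/-- Jordan: a primitive group in which the pointwise stabiliser of a set `s` is doubly transitive on the complement of `s` (which has at least 2 points) is `(|s| + 2)`-transitive. -/
theorem result {α : Type*} [Fintype α] [DecidableEq α] (G : Subgroup (Equiv.Perm α)) (hG : MulAction.IsPreprimitive G α) (s : Set α) {m : ℕ} (hsm : s.ncard = m) (hm : m + 2 ≤ Fintype.card α) (h2 : MulAction.IsMultiplyPretransitive (fixingSubgroup G s) (SubMulAction.ofFixingSubgroup G s) 2) : MulAction.IsMultiplyPretransitive G α (m + 2) := by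
  open MulAction in
  rcases eq_or_lt_of_le hm with he | hlt
  · -- the complement of `s` is a pair that is swapped
    have hc : (sᶜ).ncard = 2 := by
      have := Set.ncard_add_ncard_compl s
      rw [Nat.card_eq_fintype_card] at this
      omega
    obtain ⟨a, b, hab, hs⟩ := Set.ncard_eq_two.1 hc
    have ha : a ∈ SubMulAction.ofFixingSubgroup G s := by
      rw [SubMulAction.mem_ofFixingSubgroup_iff, ← Set.mem_compl_iff, hs]; simp
    have hb : b ∈ SubMulAction.ofFixingSubgroup G s := by
      rw [SubMulAction.mem_ofFixingSubgroup_iff, ← Set.mem_compl_iff, hs]; simp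
    obtain ⟨g, h1, h2⟩ := H16.two_trans h2 (a := ⟨a, ha⟩) (b := ⟨b, hb⟩) (c := ⟨b, hb⟩)
      (d := ⟨a, ha⟩) (by simpa) (by simpa using hab.symm)
    have h1' : g.1.1 a = b := congrArg Subtype.val h1
    have h2' : g.1.1 b = a := congrArg Subtype.val h2
    have hsw : g.1.1 = Equiv.swap a b := by
      ext x
      by_cases hxa : x = a
      · rw [hxa, h1', Equiv.swap_apply_left]
      by_cases hxb : x = b
      · rw [hxb, h2', Equiv.swap_apply_right]
      rw [Equiv.swap_apply_of_ne_of_ne hxa hxb]
      have hx : x ∈ s := by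
        by_contra hx
        rw [← Set.mem_compl_iff, hs] at hx
        simp [hxa, hxb] at hx
      exact (mem_fixingSubgroup_iff _).1 g.2 x hx
    have := Equiv.Perm.subgroup_eq_top_of_isPreprimitive_of_isSwap_mem hG g.1.1
      ⟨a, b, hab, hsw⟩ g.1.2
    subst this
    rw [H16.mtrans_iff]
    intro x y hx hy
    obtain ⟨σ, hσ⟩ := H16.mtrans_iff.1 (Equiv.Perm.isMultiplyPretransitive α (m + 2)) x y hx hy
    exact ⟨⟨σ, trivial⟩, hσ⟩
  · rcases m with _ | n
    · have hs : s = ∅ := by rwa [Set.ncard_eq_zero] at hsm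
      subst hs
      rw [is_two_pretransitive_iff]
      intro a b c d hab hcd
      obtain ⟨g, h1, h2⟩ := H16.two_trans h2 (a := ⟨a, by simp [SubMulAction.mem_ofFixingSubgroup_iff]⟩)
        (b := ⟨b, by simp [SubMulAction.mem_ofFixingSubgroup_iff]⟩)
        (c := ⟨c, by simp [SubMulAction.mem_ofFixingSubgroup_iff]⟩)
        (d := ⟨d, by simp [SubMulAction.mem_ofFixingSubgroup_iff]⟩) (by simpa) (by simpa)
      exact ⟨g.1, congrArg Subtype.val h1, congrArg Subtype.val h2⟩
    · have hp := isPreprimitive_of_is_two_pretransitive h2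
      have h3 := hG.isMultiplyPreprimitive hsm (by rw [Nat.card_eq_fintype_card]; omega) hp
      have h4 : IsMultiplyPretransitive G α (n + 2) := inferInstance
      have h5 := H16.mtrans_mono h4 (Nat.le_succ (n + 1)) (by rw [Nat.card_eq_fintype_card]; omega)
      obtain ⟨a, ha⟩ : ∃ a, a ∉ s := by
        by_contra hc
        push Not at hc
        rw [Set.eq_univ_iff_forall.2 hc, Set.ncard_univ, Nat.card_eq_fintype_card] at hsm
        omega
      apply H16.mtrans_succ_of_one h4 (insert a s.toFinite.toFinset)
      · rw [Finset.card_insert_of_notMem (by simpa), ← Set.ncard_eq_toFinset_card, hsm]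
      intro b c hb hc
      simp only [Finset.mem_insert, Set.Finite.mem_toFinset, not_or] at hb hc
      obtain ⟨g, h1, h2⟩ := H16.two_trans h2 (a := ⟨a, ha⟩) (b := ⟨b, hb.2⟩) (c := ⟨a, ha⟩)
        (d := ⟨c, hc.2⟩) (fun h => hb.1 (congrArg Subtype.val h).symm)
        (fun h => hc.1 (congrArg Subtype.val h).symm)
      refine ⟨g.1, ?_, congrArg Subtype.val h2⟩
      intro x hx
      simp only [Finset.mem_insert, Set.Finite.mem_toFinset] at hx
      rcases hx with rfl | hx
      · exact congrArg Subtype.val h1
      · exact (mem_fixingSubgroup_iff _).1 g.2 x hx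

end Cfsg.Agent.S0712
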