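import Cfsg.Statements.S0714
import Mathlib
import Cfsg.Agent.H16.PrimeDeg
import Cfsg.Agent.H16.Homog
import Cfsg.Agent.H16.Basic

set_option autoImplicit false
open Cfsg

namespace Cfsg.Agent.S0714

/-- Over any field, the permutation module of the alternating group of degree at least 5 has exactly four invariant subspaces: zero, the constant functions, the functions with coordinate sum zero, and everything. -/
theorem result {α : Type*} [Fintype α] [DecidableEq α] (hα : 5 ≤ Fintype.card α) {K : Type*} [Field K] (W : Subrepresentation (Cfsg.permRep K (alternatingGroup α) α)) : W.toSubmodule = ⊥ ∨ W = Cfsg.permConstants K (alternatingGroup α) α ∨ W = Cfsg.permSumZero K (alternatingGroup α) α ∨ W.toSubmodule = ⊤ := by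
  have hW := H16.pinv_of_subrep W
  have hα' : 5 ≤ Nat.card α := by rwa [Nat.card_eq_fintype_card]
  have hne : Nonempty α := Fintype.card_pos_iff.1 (by omega)
  by_cases hc : W.toSubmodule ≤ (Cfsg.permConstants K (alternatingGroup α) α).toSubmodule
  · by_cases h0 : W.toSubmodule = ⊥
    · exact Or.inl h0
    · right; left
      apply Subrepresentation.toSubmodule_injective
      apply Submodule.eq_of_le_of_finrank_le hc
      rw [H16.finrank_permConstants]
      exact Submodule.one_le_finrank_iff.2 h0
  right; right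
  obtain ⟨v, hv, hvc⟩ := SetLike.not_le_iff_exists.1 hc
  rw [H16.mem_permConstants] at hvc
  obtain ⟨a⟩ := hne
  obtain ⟨b, hb⟩ : ∃ b, v b ≠ v a := by
    by_contra h; push Not at h; exact hvc ⟨v a, h⟩
  have hab : a ≠ b := fun e => hb (by rw [e])
  obtain ⟨c, hc⟩ := H16.exists_notMem_of_card_lt ({a, b} : Finset α) (by
    have : ({a, b} : Finset α).card ≤ 2 := Finset.card_le_two
    omega)
  obtain ⟨d, hd⟩ := H16.exists_notMem_of_card_lt ({a, b, c} : Finset α) (by
    have : ({a, b, c} : Finset α).card ≤ 3 := Finset.card_le_three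
    omega)
  obtain ⟨e, he⟩ := H16.exists_notMem_of_card_lt ({a, b, c, d} : Finset α) (by
    have : ({a, b, c, d} : Finset α).card ≤ 4 := Finset.card_le_four
    omega)
  simp only [Finset.mem_insert, Finset.mem_singleton, not_or] at hc hd he
  have alt : ∀ x y z : α, x ≠ y → x ≠ z → Equiv.swap x z * Equiv.swap x y ∈ alternatingGroup α := by
    intro x y z h1 h2
    rw [Equiv.Perm.mem_alternatingGroup, map_mul, Equiv.Perm.sign_swap h1, Equiv.Perm.sign_swap h2]
    simp
  let g : alternatingGroup α := ⟨_, alt a b c hab (Ne.symm hc.1)⟩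
  let h : alternatingGroup α := ⟨_, alt a d e (Ne.symm hd.1) (Ne.symm he.1)⟩
  have hu := W.toSubmodule.sub_mem hv (hW g v hv)
  have hu2 := W.toSubmodule.sub_mem hu (hW h _ hu)
  have hδ : (Pi.single a 1 - Pi.single e 1 : α → K) ∈ W.toSubmodule := by
    have := W.toSubmodule.smul_mem (v a - v b)⁻¹ hu2
    convert this using 1
    have hne : v a - v b ≠ 0 := sub_ne_zero.2 hb.symm
    rw [eq_inv_smul_iff₀ hne]
    funext x
    have hg : ∀ x, g • x = Equiv.swap a c (Equiv.swap a b x) := fun _ => rfl
    have hh : ∀ x, h • x = Equiv.swap a e (Equiv.swap a d x) := fun _ => rfl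
    simp only [Pi.smul_apply, Pi.sub_apply, hg, hh, smul_eq_mul, Pi.single_apply,
      Equiv.swap_apply_def]
    obtain ⟨c1, c2⟩ := hc
    obtain ⟨d1, d2, d3⟩ := hd
    obtain ⟨e1, e2, e3, e4⟩ := he
    by_cases xa : x = a
    · subst xa; simp [*, Ne.symm]
    by_cases xd : x = d
    · subst xd; simp [*, Ne.symm]
    by_cases xe : x = e
    · subst xe; simp [*, Ne.symm]
    simp [*]
  have h2 : MulAction.IsMultiplyPretransitive (alternatingGroup α) α 2 :=
    H16.mtrans_mono (alternatingGroup.isMultiplyPretransitive α) (by omega) (by omega)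
  have hδ2 : ∀ x y, x ≠ y → (Pi.single x 1 - Pi.single y 1 : α → K) ∈ W.toSubmodule := by
    intro x y hxy
    obtain ⟨k, k1, k2⟩ := H16.two_trans h2 hxy (Ne.symm he.1)
    convert hW k _ hδ using 1
    funext z
    simp only [Pi.sub_apply, Pi.single_apply, ← k1, ← k2, smul_left_cancel_iff]
  have hS : (Cfsg.permSumZero K (alternatingGroup α) α).toSubmodule ≤ W.toSubmodule := by
    intro w hw
    have hw' : ∑ x, w x = 0 := hw
    have : w = ∑ x, w x • (Pi.single x 1 - Pi.single a 1 : α → K) := by
      funext y
      simp [Finset.sum_apply, Pi.single_apply, mul_sub, Finset.sum_sub_distrib, ← Finset.sum_mul,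
        hw']
    rw [this]
    refine W.toSubmodule.sum_mem fun x _ => W.toSubmodule.smul_mem _ ?_
    by_cases hx : x = a
    · rw [hx, sub_self]; exact W.toSubmodule.zero_mem
    · exact hδ2 x a hx
  have hne : Nonempty α := ⟨a⟩
  by_cases ht : W.toSubmodule = ⊤
  · exact Or.inr ht
  · left
    apply Subrepresentation.toSubmodule_injective
    symm
    apply Submodule.eq_of_le_of_finrank_le hS
    rw [H16.finrank_permSumZero]
    have := Submodule.finrank_lt ht
    simp at this
    omega

end Cfsg.Agent.S0714
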