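import Mathlib
import Cfsg.Agent.H28.CRing
-- Template for statement S0715 (row 715; see /opt/grader/pristine/manifest.json for weights).
-- Copy to Cfsg/Agent/S0715.lean and replace the sorry. The statement below is byte-identical to the frozen
-- statement Cfsg.CfsgFrozen.S0715 (Cfsg/Statements/S0715.lean; the theorem Cfsg.common_divisor_of_constituent_degrees_dvd_subdegrees);
-- the grader kernel-checks Cfsg.Agent.S0715.result against that frozen type. Keep the theorem IN THIS FILE
-- (a `result` declared elsewhere and merely imported here is not credited); helpers may live anywhere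
-- under Cfsg/Agent/.
import Cfsg.Statements.S0715
-- import your own Cfsg.Agent.* helpers here

set_option autoImplicit false
open Cfsg

namespace Cfsg.Agent.S0715

/-- If a natural number `f` divides the degree of every non-principal irreducible constituent of the permutation character of a transitive group, then `f` divides every non-trivial subdegree. -/
theorem result {G : Type*} [Group G] [Fintype G] {Ω : Type*} [Fintype Ω] [MulAction G Ω] [MulAction.IsPretransitive G Ω] (f : ℕ) (hf : ∀ χ : G → ℂ, Cfsg.IsIrrCharacter G χ → χ ≠ (fun _ => 1) → Cfsg.classInner (fun g : G => (Nat.card (MulAction.fixedBy Ω g) : ℂ)) χ ≠ 0 → ∃ m : ℕ, χ 1 = (f : ℂ) * m) (a b : Ω) (hab : b ≠ a) : f ∣ Nat.card (MulAction.orbit (MulAction.stabilizer G a) b) := by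
  open Cfsg.Agent.H6 Cfsg.Agent.H28 MulAction in
  open scoped ComplexConjugate in
  · classical
    exact dvd_subdegree (character_permRep (G := G) (Ω := Ω) ▸ hf) hab

end Cfsg.Agent.S0715
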