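import Mathlib
import Cfsg.Agent.H28.CRing
-- Template for statement S0716 (row 716; see /opt/grader/pristine/manifest.json for weights).
-- Copy to Cfsg/Agent/S0716.lean and replace the sorry. The statement below is byte-identical to the frozen
-- statement Cfsg.CfsgFrozen.S0716 (Cfsg/Statements/S0716.lean; the theorem Cfsg.perm_character_multiplicity_free_of_rank_le_five);
-- the grader kernel-checks Cfsg.Agent.S0716.result against that frozen type. Keep the theorem IN THIS FILE
-- (a `result` declared elsewhere and merely imported here is not credited); helpers may live anywhere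
-- under Cfsg/Agent/.
import Cfsg.Statements.S0716
-- import your own Cfsg.Agent.* helpers here

set_option autoImplicit false
open Cfsg

namespace Cfsg.Agent.S0716

/-- (a) If all non-principal irreducible constituents of the permutation character of a transitive group have the same degree `f`, the character is multiplicity-free and all non-trivial subdegrees equal `f`. (b) A transitive group of rank at most 5 has multiplicity-free permutation character. -/
theorem result {G : Type*} [Group G] [Fintype G] {Ω : Type*} [Fintype Ω] [MulAction G Ω] [MulAction.IsPretransitive G Ω] (a : Ω) : ((f : ℕ) → (∀ χ : G → ℂ, Cfsg.IsIrrCharacter G χ → χ ≠ (fun _ => 1) → Cfsg.classInner (fun g : G => (Nat.card (MulAction.fixedBy Ω g) : ℂ)) χ ≠ 0 → χ 1 = f) → (∀ χ : G → ℂ, Cfsg.IsIrrCharacter G χ → Cfsg.classInner (fun g : G => (Nat.card (MulAction.fixedBy Ω g) : ℂ)) χ = 0 ∨ Cfsg.classInner (fun g : G => (Nat.card (MulAction.fixedBy Ω g) : ℂ)) χ = 1) ∧ ∀ b : Ω, b ≠ a → Nat.card (MulAction.orbit (MulAction.stabilizer G a) b) =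 f) ∧ (Nat.card (MulAction.orbitRel.Quotient (MulAction.stabilizer G a) Ω) ≤ 5 → ∀ χ : G → ℂ, Cfsg.IsIrrCharacter G χ → Cfsg.classInner (fun g : G => (Nat.card (MulAction.fixedBy Ω g) : ℂ)) χ = 0 ∨ Cfsg.classInner (fun g : G => (Nat.card (MulAction.fixedBy Ω g) : ℂ)) χ = 1) := by
  open Cfsg.Agent.H6 Cfsg.Agent.H28 MulAction in
  open scoped ComplexConjugate in
  · classical
    rw [← character_permRep]
    refine ⟨fun f hf => same_degree a hf, fun h5 χ hχ => by_contra fun hn => ?_⟩
    haveI : Nonempty Ω := ⟨a⟩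
    obtain ⟨m, hm, -⟩ := isCharacter_exists_mult (isCharacter_character (permRep ℂ G Ω))
    have h0 : m (trivIrr G) = 1 := Nat.cast_eq_one.1 ((hm (trivIrr G)).symm.trans inner_perm_one)
    have h2 : ∑ χ, m χ * m χ ≤ 5 := by
      have := inner_perm_self (G := G) a
      rw [classInner_eq_sum (isClassFunction_of_isCharacter (isCharacter_character _))] at this
      simp only [hm, map_natCast] at this
      exact (show _ = _ by exact_mod_cast this).trans_le h5
    have h3 : 2 ≤ m ⟨χ, hχ⟩ := by
      have := hm ⟨χ, hχ⟩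
      rw [this, Nat.cast_eq_zero, Nat.cast_eq_one] at hn; omega
    obtain ⟨f, -, hf⟩ := isIrr_degree hχ
    refine hn ((same_degree a (f := f) fun ψ hψ h1 h4 => by_contra fun hne => ?_).1 χ hχ)
    have h6 : (⟨ψ, hψ⟩ : IrrCharacter G) ≠ ⟨χ, hχ⟩ := fun e => hne ((show ψ = χ from congrArg Subtype.val e) ▸ hf)
    have h7 : trivIrr G ≠ ⟨χ, hχ⟩ := fun e => by rw [← e, h0] at h3; omega
    have h8 : trivIrr G ≠ ⟨ψ, hψ⟩ := fun e => h1 (congrArg Subtype.val e).symm
    have h9 := (Finset.sum_le_sum_of_subset (f := fun χ => m χ * m χ)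
      (Finset.subset_univ {trivIrr G, ⟨ψ, hψ⟩, ⟨χ, hχ⟩})).trans h2
    rw [Finset.sum_insert (by simp [h7, h8]), Finset.sum_pair h6, h0] at h9
    have h10 : 1 ≤ m ⟨ψ, hψ⟩ := Nat.pos_of_ne_zero fun e => h4 ((hm ⟨ψ, hψ⟩).trans (by simp [e]))
    nlinarith

end Cfsg.Agent.S0716
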