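import Mathlib
import Cfsg.Agent.H28.CRing
-- Template for statement S0717 (row 717; see /opt/grader/pristine/manifest.json for weights).
-- Copy to Cfsg/Agent/S0717.lean and replace the sorry. The statement below is byte-identical to the frozen
-- statement Cfsg.CfsgFrozen.S0717 (Cfsg/Statements/S0717.lean; the theorem Cfsg.generously_transitive_iff_multiplicity_free_real);
-- the grader kernel-checks Cfsg.Agent.S0717.result against that frozen type. Keep the theorem IN THIS FILE
-- (a `result` declared elsewhere and merely imported here is not credited); helpers may live anywhere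
-- under Cfsg/Agent/.
import Cfsg.Statements.S0717
-- import your own Cfsg.Agent.* helpers here

set_option autoImplicit false
open Cfsg

namespace Cfsg.Agent.S0717

/-- All suborbits of a transitive group are self-paired (every pair of points is interchanged by some group element) if and only if the permutation character is multiplicity-free and each of its irreducible constituents is real-valued. -/
theorem result {G : Type*} [Group G] [Fintype G] {Ω : Type*} [Fintype Ω] [MulAction G Ω] [MulAction.IsPretransitive G Ω] : (∀ a b : Ω, ∃ g : G, g • a = b ∧ g • b = a) ↔ ∀ χ : G → ℂ, Cfsg.IsIrrCharacter G χ → Cfsg.classInner (fun g : G => (Nat.card (MulAction.fixedBy Ω g) : ℂ)) χ ≠ 0 → Cfsg.classInner (fun g : G => (Nat.card (MulAction.fixedBy Ω g) : ℂ)) χ = 1 ∧ ∀ g : G, (starRingEnd ℂ) (χ g) = χ g := by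
  open Cfsg.Agent.H6 Cfsg.Agent.H28 MulAction in
  open scoped ComplexConjugate in
  · classical
    rw [← character_permRep]
    refine ⟨fun h χ hχ h0 => ?_, fun h a b => ?_⟩
    · have hs : ∀ M : Module.End ℂ (Ω → ℂ), (∀ g, M * permRep ℂ G Ω g = permRep ℂ G Ω g * M) →
          (LinearMap.toMatrix' M).transpose = LinearMap.toMatrix' M := fun M hM => Matrix.ext fun x y => by
        obtain ⟨g, h1, h2⟩ := h x y
        rw [Matrix.transpose_apply, ← comm_perm_iff.1 hM g x y, h1, h2]
      refine ⟨(mf_of_comm (fun M N hM hN => LinearMap.toMatrix'.injective ?_) hχ).resolve_left h0, congrFun (by_contra fun hne => h0 ?_)⟩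
      · rw [← hs (M * N) fun g => by rw [mul_assoc, hN, ← mul_assoc, hM, mul_assoc], LinearMap.toMatrix'_mul,
          LinearMap.toMatrix'_mul, Matrix.transpose_mul, hs M hM, hs N hN]
      · rw [← idem_eq_zero hχ, ← idem_mul_self hχ, ← idem_mul_ne (ρ := permRep ℂ G Ω) (isIrr_conj hχ) hχ hne]
        congr 1
        exact LinearMap.toMatrix'.injective ((toMatrix'_idem_conj hχ).trans (hs _ (idem_comm hχ))).symm
    · obtain ⟨c, e⟩ := exists_eq_sum_idem (fun χ hχ => or_iff_not_imp_left.2 fun h0 => (h χ hχ h0).1) (orb_comm (G := G) a b)
      have h1 : (LinearMap.toMatrix' (orb G a b)).transpose = LinearMap.toMatrix' (orb G a b) := by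
        rw [e, map_sum, Matrix.transpose_sum]
        refine Finset.sum_congr rfl fun χ _ => ?_
        by_cases h0 : classInner (permRep ℂ G Ω).character χ = 0
        · simp [(idem_eq_zero χ.2).2 h0]
        · rw [map_smul, Matrix.transpose_smul, ← toMatrix'_idem_conj χ.2, funext (h χ χ.2 h0).2]
      have h2 := congrFun (congrFun h1 a) b
      rw [Matrix.transpose_apply, toMatrix'_orb, toMatrix'_orb, if_pos (⟨1, one_smul _ _, one_smul _ _⟩ : ∃ g : G, g • a = a ∧ g • b = b)] at h2
      exact by_contra fun hn => zero_ne_one ((if_neg hn).symm.trans h2)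

end Cfsg.Agent.S0717
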