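import Mathlib
import Cfsg.Agent.H28.CRing
-- Template for statement S0718 (row 718; see /opt/grader/pristine/manifest.json for weights).
-- Copy to Cfsg/Agent/S0718.lean and replace the sorry. The statement below is byte-identical to the frozen
-- statement Cfsg.CfsgFrozen.S0718 (Cfsg/Statements/S0718.lean; the theorem Cfsg.perm_character_multiplicity_free_iff_intertwiners_commutative);
-- the grader kernel-checks Cfsg.Agent.S0718.result against that frozen type. Keep the theorem IN THIS FILE
-- (a `result` declared elsewhere and merely imported here is not credited); helpers may live anywhere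
-- under Cfsg/Agent/.
import Cfsg.Statements.S0718
-- import your own Cfsg.Agent.* helpers here

set_option autoImplicit false
open Cfsg

namespace Cfsg.Agent.S0718

/-- Multiplicity-freeness of the permutation character is equivalent to commutativity of the centraliser ring, i.e. of the algebra of `G`-equivariant endomorphisms of the complex permutation module. -/
theorem result {G : Type*} [Group G] [Fintype G] {Ω : Type*} [Fintype Ω] [MulAction G Ω] : (∀ χ : G → ℂ, Cfsg.IsIrrCharacter G χ → Cfsg.classInner (fun g : G => (Nat.card (MulAction.fixedBy Ω g) : ℂ)) χ = 0 ∨ Cfsg.classInner (fun g : G => (Nat.card (MulAction.fixedBy Ω g) : ℂ)) χ = 1) ↔ ∀ S T : (Ω → ℂ) →ₗ[ℂ] (Ω → ℂ), S ∈ ((Cfsg.permRep ℂ G Ω).linHom (Cfsg.permRep ℂ G Ω)).invariants → T ∈ ((Cfsg.permRep ℂ G Ω).linHom (Cfsg.permRep ℂ G Ω)).invariants → S ∘ₗ T = T ∘ₗ S := by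
  open Cfsg.Agent.H6 Cfsg.Agent.H28 MulAction in
  open scoped ComplexConjugate in
  · classical
    rw [← character_permRep]
    exact ⟨fun h S T hS hT => comm_of_mf h (mem_hom.1 hS) (mem_hom.1 hT),
      fun h χ hχ => mf_of_comm (fun S T hS hT => h S T (mem_hom.2 hS) (mem_hom.2 hT)) hχ⟩

end Cfsg.Agent.S0718
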