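import Mathlib
import Cfsg.Agent.H28.CRing2
import Cfsg.Agent.S0717
-- Template for statement S0719 (row 719; see /opt/grader/pristine/manifest.json for weights).
-- Copy to Cfsg/Agent/S0719.lean and replace the sorry. The statement below is byte-identical to the frozen
-- statement Cfsg.CfsgFrozen.S0719 (Cfsg/Statements/S0719.lean; the theorem Cfsg.wielandt_type_rank_three_parameters);
-- the grader kernel-checks Cfsg.Agent.S0719.result against that frozen type. Keep the theorem IN THIS FILE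
-- (a `result` declared elsewhere and merely imported here is not credited); helpers may live anywhere
-- under Cfsg/Agent/.
import Cfsg.Statements.S0719
-- import your own Cfsg.Agent.* helpers here

set_option autoImplicit false
open Cfsg

namespace Cfsg.Agent.S0719

section
open Cfsg.Agent.H6 Cfsg.Agent.H28 MulAction
open scoped ComplexConjugate
set_option linter.style.haveILetI false

theorem arith {k m : ℕ} {r s : ℤ} (e1 : 0 = k + r * (m - 1) + s * m) (e2 : ((2 * m : ℕ) : ℤ) * k = k * k + r * r * (m - 1) + s * s * m)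
    (h0 : 0 < k) (hkm : k < m) (h1 : k ≠ 1) : ∃ a : ℕ, 0 < a ∧ m = 2 * a ^ 2 + 2 * a + 1 ∧ k = a * (2 * a + 1) := by
  push_cast at e2
  have hm : (m : ℤ) ≠ 0 := by omega
  obtain ⟨t, ht⟩ : (m : ℤ) ∣ k - r := ⟨-r - s, by linarith⟩
  obtain rfl : r = k - m * t := by linarith
  obtain rfl : s = (m - 1) * t - k := mul_left_cancel₀ hm (by linarith)
  have e3 : 2 * (k : ℤ) = 2 * (k - (m - 1) * t) ^ 2 + (m - 1) * t ^ 2 := mul_left_cancel₀ hm (by linarith)
  have h2 : (k : ℤ) ≤ m - 1 := by omega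
  have h3 : (2 : ℤ) ≤ k := by omega
  have h4 : t ^ 2 < 4 := by nlinarith [sq_nonneg (k - (m - 1) * t)]
  have h5 : t = 1 := by
    have : -2 < t ∧ t < 2 := abs_lt.1 (abs_lt_of_sq_lt_sq (by linarith) (by norm_num))
    obtain ⟨h5, h6⟩ := this
    interval_cases t
    · nlinarith
    · nlinarith
    · rfl
  subst h5
  obtain ⟨a, rfl⟩ : ∃ a, m = k + 1 + a := ⟨m - (k + 1), by omega⟩
  push_cast at e3
  have e4 : k = a * (2 * a + 1) := by zify; linarith
  exact ⟨a, Nat.pos_of_ne_zero (by rintro rfl; omega), by rw [e4]; ring, e4⟩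

end

/-- Groups of Wielandt type: if a primitive group of degree `2m` has rank 3 and permutation character `1 + χ₁ + χ₂` with irreducible `χ₁, χ₂` of degrees `m - 1` and `m`, then `m = 2a² + 2a + 1` for some positive integer `a` and the two non-trivial subdegrees are `a(2a+1)` and `(a+1)(2a+1)`. -/
theorem result {G : Type*} [Group G] [Fintype G] {Ω : Type*} [Fintype Ω] [MulAction G Ω] (hprim : MulAction.IsPreprimitive G Ω) {m : ℕ} (hm : Fintype.card Ω = 2 * m) (a₀ : Ω) (hrank : Nat.card (MulAction.orbitRel.Quotient (MulAction.stabilizer G a₀) Ω) = 3) (χ₁ χ₂ : G → ℂ) (h₁ : Cfsg.IsIrrCharacter G χ₁) (h₂ : Cfsg.IsIrrCharacter G χ₂) (hπ : (fun g : G => (Nat.card (MulAction.fixedBy Ω g) : ℂ)) = fun g => 1 + χ₁ g + χ₂ g) (hd₁ : χ₁ 1 = (m : ℂ) - 1) (hd₂ : χ₂ 1 = m) : ∃ a : ℕ, 0 < a ∧ m = 2 * a ^ 2 + 2 * a + 1 ∧ ∀ b : Ω, b ≠ a₀ → Nat.card (MulAction.orbit (MulAction.stabilizer G a₀) b) = a * (2 * a + 1) ∨ Nat.card (MulAction.orbit (MulAction.stabilizer G a₀) b) = (a + 1)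 * (2 * a + 1) := by
  open Cfsg.Agent.H6 Cfsg.Agent.H28 MulAction in
  open scoped ComplexConjugate in
  · classical
    have hρ : (permRep ℂ G Ω).character = (fun _ => 1) + χ₁ + χ₂ := character_permRep.trans hπ
    haveI : Nonempty Ω := ⟨a₀⟩
    have i1 := inner_perm_one (G := G) (Ω := Ω)
    have o := isIrr_one (G := G)
    simp only [hρ, classInner_add_left, classInner_one_one] at i1
    have n12 : χ₁ ≠ χ₂ := fun e => by rw [e, hd₂] at hd₁; simp [eq_sub_iff_add_eq] at hd₁
    have n1 : χ₁ ≠ fun _ => 1 := fun e => by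
      rw [classInner_irr_of_ne h₂ o (e ▸ n12.symm), e, classInner_one_one] at i1; norm_num at i1
    have n2 : χ₂ ≠ fun _ => 1 := fun e => by
      rw [classInner_irr_of_ne h₁ o n1, e, classInner_one_one] at i1; norm_num at i1
    have j1 : classInner (permRep ℂ G Ω).character χ₁ = 1 := by
      simp [hρ, classInner_add_left, classInner_irr_of_ne o h₁ n1.symm, classInner_irr_of_ne h₂ h₁ n12.symm, classInner_irr_self h₁]
    have j2 : classInner (permRep ℂ G Ω).character χ₂ = 1 := by
      simp [hρ, classInner_add_left, classInner_irr_of_ne o h₂ n2.symm, classInner_irr_of_ne h₁ h₂ n12, classInner_irr_self h₂]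
    have j0 : ∀ ψ, IsIrrCharacter G ψ → classInner (permRep ℂ G Ω).character ψ ≠ 0 → ψ = (fun _ => 1) ∨ ψ = χ₁ ∨ ψ = χ₂ := fun ψ hψ h => by
      by_contra! hn
      simp [hρ, classInner_add_left, classInner_irr_of_ne o hψ hn.1.symm, classInner_irr_of_ne h₁ hψ hn.2.1.symm,
        classInner_irr_of_ne h₂ hψ hn.2.2.symm] at h
    have gal : ∀ ψ, IsIrrCharacter G ψ → classInner (permRep ℂ G Ω).character ψ = 1 → ψ ≠ (fun _ => 1) → ∀ τ : ℂ →+* ℂ,
        (fun g => τ (ψ g)) = χ₁ ∨ (fun g => τ (ψ g)) = χ₂ := fun ψ hψ h hn τ =>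
      (j0 _ (isIrr_map τ hψ) (by
        have := classInner_map τ (permRep ℂ G Ω).character (isGen_of_isCharacter (isCharacter_of_irr hψ))
        rw [h, map_one, character_permRep] at this
        simp only [map_natCast] at this
        rw [character_permRep, this]; exact one_ne_zero)).resolve_left fun e => hn (funext fun g => τ.injective ((congrFun e g).trans (map_one τ).symm))
    have g1 : ∀ τ : ℂ →+* ℂ, ∀ g, τ (χ₁ g) = χ₁ g := fun τ => congrFun ((gal _ h₁ j1 n1 τ).resolve_right fun e => by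
      have := congrFun e 1; simp [hd₁, hd₂, sub_eq_iff_eq_add] at this)
    have g2 : ∀ τ : ℂ →+* ℂ, ∀ g, τ (χ₂ g) = χ₂ g := fun τ => congrFun ((gal _ h₂ j2 n2 τ).resolve_left fun e => by
      have := congrFun e 1; simp [hd₁, hd₂, eq_sub_iff_add_eq] at this)
    have sym := (S0717.result (G := G) (Ω := Ω)).2 fun ψ hψ h => by
      rw [← character_permRep] at h ⊢
      rcases j0 ψ hψ h with rfl | rfl | rfl
      exacts [⟨inner_perm_one, fun _ => map_one _⟩, ⟨j1, g1 _⟩, ⟨j2, g2 _⟩]
    have tr : ∀ M : Module.End ℂ (Ω → ℂ), (∀ g, M * permRep ℂ G Ω g = permRep ℂ G Ω g * M) → LinearMap.trace ℂ _ M =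
        classInner (twc (permRep ℂ G Ω) M) (fun _ => 1) + classInner (twc (permRep ℂ G Ω) M) χ₁ * (m - 1) +
          classInner (twc (permRep ℂ G Ω) M) χ₂ * m := fun M hM => by
      have := apply_eq_sum_classInner_mul (twc_class hM) 1
      rw [twc, map_one, mul_one, ← Finset.sum_subset (Finset.subset_univ {trivIrr G, ⟨χ₁, h₁⟩, ⟨χ₂, h₂⟩}) fun ψ _ hψ => by
        rw [inner_twc_eq_zero ψ.2 (by_contra fun h => hψ (by simpa [Subtype.ext_iff, trivIrr_coe] using j0 _ ψ.2 h)), zero_mul],
        Finset.sum_insert (by simp [Subtype.ext_iff, trivIrr_coe, n1.symm, n2.symm]), Finset.sum_pair (by simpa using n12)] at this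
      simpa [trivIrr_coe, hd₁, hd₂, add_assoc] using this
    have key : ∀ b, b ≠ a₀ → ∀ k, Nat.card (orbit (stabilizer G a₀) b) = k → k < m → k ≠ 1 →
        ∃ a : ℕ, 0 < a ∧ m = 2 * a ^ 2 + 2 * a + 1 ∧ k = a * (2 * a + 1) := fun b hb k hk hkm hk1 => by
      obtain ⟨r, hr⟩ := exists_int_inner_orb h₁ (fun τ => g1 τ.toRingHom) a₀ b
      obtain ⟨s, hs⟩ := exists_int_inner_orb h₂ (fun τ => g2 τ.toRingHom) a₀ b
      have e1 := tr _ (orb_comm a₀ b)
      have e2 := tr (orb G a₀ b * orb G a₀ b) fun g => by rw [mul_assoc, orb_comm, ← mul_assoc, orb_comm, mul_assoc]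
      rw [inner_twc_mul o inner_perm_one (orb_comm _ _), inner_twc_mul h₁ j1 (orb_comm _ _), inner_twc_mul h₂ j2 (orb_comm _ _),
        trace_mul_eq, Finset.sum_congr rfl fun x _ => (Finset.sum_congr rfl fun y _ => by
          obtain ⟨g, h1, h2⟩ := sym x y
          rw [← comm_perm_iff.1 (orb_comm a₀ b) g y x, h1, h2, toMatrix'_orb]; split_ifs <;> simp).trans (sum_orb a₀ b x)] at e2
      rw [trace_orb hb] at e1
      simp only [inner_twc_orb_one, hr, hs, hk, Finset.sum_const, Finset.card_univ, hm, nsmul_eq_mul] at e1 e2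
      haveI : Nonempty (orbit (stabilizer G a₀) b) := ⟨⟨b, mem_orbit_self b⟩⟩
      exact arith (by exact_mod_cast e1) (by exact_mod_cast e2) (hk ▸ Nat.card_pos) hkm hk1
    haveI := Fintype.ofFinite (orbitRel.Quotient (stabilizer G a₀) Ω)
    have h3 := sum_suborbit (G := G) a₀
    obtain ⟨u, v, huv, e⟩ := Finset.card_eq_two.1 (show (Finset.univ.erase (Quotient.mk'' a₀ : orbitRel.Quotient (stabilizer G a₀) Ω)).card = 2 by
      rw [Finset.card_erase_of_mem (Finset.mem_univ _), Finset.card_univ, ← Nat.card_eq_fintype_card, hrank])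
    induction u using Quotient.inductionOn' with | h u =>
    induction v using Quotient.inductionOn' with | h v =>
    have hu : u ≠ a₀ := mk_ne_iff.1 (Finset.ne_of_mem_erase (e ▸ Finset.mem_insert_self _ _))
    have hv : v ≠ a₀ := mk_ne_iff.1 (Finset.ne_of_mem_erase (e ▸ Finset.mem_insert_of_mem (Finset.mem_singleton_self _)))
    rw [e, Finset.sum_pair huv, orbitRel.Quotient.orbit_mk, orbitRel.Quotient.orbit_mk, hm] at h3
    have h4 : ∀ b, b ≠ a₀ → orbit (stabilizer G a₀) b = orbit (stabilizer G a₀) u ∨ orbit (stabilizer G a₀) b = orbit (stabilizer G a₀) v :=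
      fun b hb => by
        have : (Quotient.mk'' b : orbitRel.Quotient (stabilizer G a₀) Ω) ∈ Finset.univ.erase (Quotient.mk'' a₀) :=
          Finset.mem_erase.2 ⟨mk_ne_iff.2 hb, Finset.mem_univ _⟩
        rw [e, Finset.mem_insert, Finset.mem_singleton] at this
        exact this.imp (fun h => orbit_eq_iff.2 (Quotient.exact' h)) fun h => orbit_eq_iff.2 (Quotient.exact' h)
    have h5 : ∀ b, b ≠ a₀ → Nat.card (orbit (stabilizer G a₀) b) ≠ 1 := fun b hb h => by
      have : ∀ c, Nat.card (orbit (stabilizer G a₀) c) = 1 := fun c => by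
        rw [show orbit (stabilizer G a₀) c = {c} from Set.eq_singleton_iff_unique_mem.2
          ⟨mem_orbit_self c, fun _ ⟨g, hg⟩ => hg.symm.trans (subdeg_one hb h g.1 g.2 c)⟩]; simp
      rw [this, this] at h3; omega
    rcases lt_or_ge (Nat.card (orbit (stabilizer G a₀) u)) m with h | h
    · obtain ⟨a, ha, e1, e2⟩ := key u hu _ rfl h (h5 u hu)
      exact ⟨a, ha, e1, fun b hb => (h4 b hb).imp (fun h => by rw [h, e2]) fun h => by rw [h]; nlinarith⟩
    · obtain ⟨a, ha, e1, e2⟩ := key v hv _ rfl (by omega) (h5 v hv)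
      exact ⟨a, ha, e1, fun b hb => (h4 b hb).symm.imp (fun h => by rw [h, e2]) fun h => by rw [h]; nlinarith⟩

end Cfsg.Agent.S0719
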