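import Mathlib
import Cfsg.Agent.H28.CRing3
import Cfsg.Agent.S0719
-- Template for statement S0720 (row 720; see /opt/grader/pristine/manifest.json for weights).
-- Copy to Cfsg/Agent/S0720.lean and replace the sorry. The statement below is byte-identical to the frozen
-- statement Cfsg.CfsgFrozen.S0720 (Cfsg/Statements/S0720.lean; the theorem Cfsg.wielandt_primitive_degree_two_p);
-- the grader kernel-checks Cfsg.Agent.S0720.result against that frozen type. Keep the theorem IN THIS FILE
-- (a `result` declared elsewhere and merely imported here is not credited); helpers may live anywhere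
-- under Cfsg/Agent/.
import Cfsg.Statements.S0720
-- import your own Cfsg.Agent.* helpers here

set_option autoImplicit false
open Cfsg

namespace Cfsg.Agent.S0720

/-- Wielandt's Theorem on primitive groups of degree `2p`: such a group is doubly transitive, or it has rank 3, `p = 2a² + 2a + 1`, and subdegrees `a(2a+1)` and `(a+1)(2a+1)`. -/
theorem result {α : Type*} [Fintype α] [DecidableEq α] {p : ℕ} (hp : p.Prime) (hα : Fintype.card α = 2 * p) (G : Subgroup (Equiv.Perm α)) (hG : MulAction.IsPreprimitive G α) (a₀ : α) : MulAction.IsMultiplyPretransitive G α 2 ∨ (Nat.card (MulAction.orbitRel.Quotient (MulAction.stabilizer G a₀) α) = 3 ∧ ∃ a : ℕ, 0 < a ∧ p = 2 * a ^ 2 + 2 * a + 1 ∧ ∀ b : α, b ≠ a₀ → Nat.card (MulAction.orbit (MulAction.stabilizer G a₀) b) = a * (2 * a + 1) ∨ Nat.card (MulAction.orbit (MulAction.stabilizer G a₀) b) = (a + 1) * (2 * a + 1)) := by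
  open Cfsg.Agent.H6 Cfsg.Agent.H28 MulAction in
  open scoped ComplexConjugate in
  · classical
    refine or_iff_not_imp_left.2 fun h2 => ?_
    haveI := Fact.mk hp
    haveI : Nontrivial α := Fintype.one_lt_card_iff_nontrivial.1 (by have := hp.pos; omega)
    have hd : 2 * p ∣ Nat.card G := by
      rw [← hα, ← Nat.card_eq_fintype_card, ← index_stabilizer_of_transitive G a₀]; exact Subgroup.index_dvd_card _
    obtain ⟨x, hx⟩ := exists_prime_orderOf_dvd_card' p ((dvd_mul_left p 2).trans hd)
    have hP : Nat.card (Subgroup.zpowers x) = p := by rw [Nat.card_zpowers, hx]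
    have hfp : ∀ g ∈ Subgroup.zpowers x, g ≠ 1 → ∀ y : α, g • y ≠ y := fun g hg h1 y hy => h2 (by
      have ho : orderOf (g : Equiv.Perm α) = p := by
        rw [Subgroup.orderOf_coe]; exact orderOf_eq_prime (orderOf_dvd_iff_pow_eq_one.1 (hP ▸ Subgroup.orderOf_dvd_natCard _ hg)) h1
      have h3 : (g : Equiv.Perm α).support.card < Fintype.card α :=
        Finset.card_lt_card (Finset.ssubset_univ_iff.2 fun e => Equiv.Perm.mem_support.1 (e ▸ Finset.mem_univ y) hy)
      have hc := Equiv.Perm.isCycle_of_prime_order (ho ▸ hp) (by omega : (g : Equiv.Perm α).support.card < 2 * orderOf (g : Equiv.Perm α))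
      have h4 := hc.two_le_card_support
      refine hG.is_two_pretransitive (n := Fintype.card α - (g : Equiv.Perm α).support.card - 1) ?_ ?_
        (Equiv.Perm.isPretransitive_of_isCycle_mem hc g.2)
      · rw [← Finset.coe_compl, Set.ncard_coe_finset, Finset.card_compl]; omega
      · rw [Nat.card_eq_fintype_card]; omega)
    have hx1 : x ≠ 1 := fun e => hp.one_lt.ne' (by rw [← hx, e, orderOf_one])
    obtain ⟨χ, hχ, n1, j1, gal, d1, d0⟩ := exists_wielandt_char hp hα hP hfp h2
    have h3 := rank_le_three hp hα hP hfp hχ j1 (fun g => by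
      split_ifs with h
      exacts [by simp [h, d1], d0 g g.2 (by simpa using h)]) n1 gal a₀ fun b hb h => by
        rcases (IsPreprimitive.isCoatom_stabilizer_of_isPreprimitive G a₀).le_iff.1 (show _ ≤ Subgroup.zpowers x from fun g hg => by
          rw [show g = 1 from Subtype.ext (Equiv.ext (subdeg_one hb h g hg))]; exact one_mem _) with e | e
        · rw [e, Subgroup.card_top] at hP
          have := Nat.le_of_dvd Nat.card_pos hd
          have := hp.pos; omega
        · exact hfp x (Subgroup.mem_zpowers x) hx1 a₀ (mem_stabilizer_iff.1 (e ▸ Subgroup.mem_zpowers x))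
    haveI : Nonempty α := ⟨a₀⟩
    obtain ⟨ψ, hψ⟩ : ∃ ψ, ψ = (permRep ℂ G α).character - (fun _ => 1) - χ := ⟨_, rfl⟩
    have h7 : IsCharacter G ψ := hψ ▸
      isCharacter_sub_irr (isCharacter_sub_irr (isCharacter_character _) isIrr_one (by rw [inner_perm_one]; exact one_ne_zero)) hχ (by
        rw [classInner_sub_left, j1, classInner_irr_of_ne isIrr_one hχ n1.symm]; simp)
    have d2 : ψ 1 = p - 1 := by simp [hψ, Representation.char_one, hα, d1]; ring
    obtain ⟨n, hn⟩ := classInner_nat h7 h7
    have e1 : classInner ψ (fun _ => 1) = 0 := by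
      simp [hψ, classInner_sub_left, inner_perm_one, classInner_one_one, classInner_irr_of_ne hχ isIrr_one n1]
    have e2 : classInner ψ χ = 0 := by
      simp [hψ, classInner_sub_left, j1, classInner_irr_self hχ, classInner_irr_of_ne isIrr_one hχ n1.symm]
    have e3 : (permRep ℂ G α).character = (fun _ => 1) + ψ + χ := by rw [hψ]; ring
    have e4 := inner_perm_self (G := G) a₀
    simp only [e3, classInner_add_left, classInner_add_right, e1, e2, hn, (classInner_eq_zero_comm _ _).1 e1, (classInner_eq_zero_comm _ _).1 e2,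
      classInner_one_one, classInner_irr_self hχ, classInner_irr_of_ne hχ isIrr_one n1, classInner_irr_of_ne isIrr_one hχ n1.symm] at e4
    have e5 : n + 2 = Nat.card (orbitRel.Quotient (stabilizer G a₀) α) := by
      rw [← Nat.cast_inj (R := ℂ), ← e4]; push_cast; ring
    have e6 : n ≠ 0 := fun e => by
      rw [(classInner_self_eq_zero (φ := ψ)).1 (by rw [hn, e, Nat.cast_zero]), Pi.zero_apply, eq_comm, sub_eq_zero, Nat.cast_eq_one] at d2
      exact hp.one_lt.ne' d2
    obtain rfl : n = 1 := by omega
    exact ⟨e5.symm, S0719.result hG hα a₀ e5.symm ψ χ (isIrr_of_norm_one h7 (by rw [hn, Nat.cast_one])) hχ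
      (character_permRep.symm.trans e3) d2 d1⟩

end Cfsg.Agent.S0720
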