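import Cfsg.Statements.S0724
import Mathlib
import Cfsg.Agent.H16.Count

set_option autoImplicit false
open Cfsg

namespace Cfsg.Agent.S0724

/-- Blichfeldt's Theorem: if a finite set `L` of natural numbers contains the number of fixed points of every non-identity element of a permutation group `G` of degree `n`, then the order of `G` divides `∏ (n - l)` over `l ∈ L`. -/
theorem result {α : Type*} [Fintype α] [DecidableEq α] (G : Subgroup (Equiv.Perm α)) (L : Finset ℕ) (hL : ∀ g ∈ G, g ≠ 1 → Nat.card (MulAction.fixedBy α g) ∈ L) : Nat.card G ∣ ∏ l ∈ L, (Fintype.card α - l) := by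
  classical
  by_cases hl : ∀ l ∈ L, l ≤ Fintype.card α
  · have h := H16.card_dvd_sum_eval_nfix (G := G) (α := α)
      (∏ l ∈ L, (Polynomial.X - Polynomial.C (l : ℤ)))
    rw [Finset.sum_eq_single 1 _ (by simp)] at h
    · rw [← Int.natCast_dvd_natCast]
      convert h
      rw [Polynomial.eval_prod, Nat.cast_prod]
      apply Finset.prod_congr rfl
      intro l hl'
      rw [Nat.cast_sub (hl l hl'), H16.nfix_one, Nat.card_eq_fintype_card]
      simp
    · intro g _ hg
      rw [Polynomial.eval_prod]
      apply Finset.prod_eq_zero (hL g.1 g.2 (fun e => hg (Subtype.ext e)))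
      simp only [Polynomial.eval_sub, Polynomial.eval_X, Polynomial.eval_C]
      exact sub_self _
  · push Not at hl
    obtain ⟨l, hl, hl'⟩ := hl
    rw [Finset.prod_eq_zero hl (by omega)]
    exact dvd_zero _

end Cfsg.Agent.S0724
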