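import Cfsg.Statements.S0727
import Mathlib
import Cfsg.Agent.H16.ZRec

set_option autoImplicit false
open Cfsg

namespace Cfsg.Agent.S0727

/-- A sharply triply transitive permutation group of degree `2^f + 1` is isomorphic to the projective general linear group of degree 2 over the field with `2^f` elements. -/
theorem result {α : Type*} [Fintype α] [DecidableEq α] {f : ℕ} (hf : 1 ≤ f) (hα : Fintype.card α = 2 ^ f + 1) (G : Subgroup (Equiv.Perm α)) (h3 : MulAction.IsMultiplyPretransitive G α 3) (hsharp : ∀ x : Fin 3 ↪ α, MulAction.stabilizer G x = ⊥) : ∃ (F : Type) (_ : Field F) (_ : Fintype F), Fintype.card F = 2 ^ f ∧ Nonempty (G ≃* Matrix.ProjGenLinGroup (Fin 2) F) := by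
  rw [← Nat.card_eq_fintype_card] at hα
  have h2 : 2 ^ 1 ≤ 2 ^ f := Nat.pow_le_pow_right two_pos hf
  have hc : 3 ≤ Nat.card α := by omega
  have z := H16.z3_of_sharp h3 hc hsharp
  have : Nontrivial α := Finite.one_lt_card_iff_nontrivial.1 (by omega)
  obtain ⟨a, b, hab⟩ := exists_pair_ne α
  obtain ⟨K, _, _, hK, e⟩ := z.pgl_of_odd_degree hc
    (by rw [hα]; exact ((Nat.even_pow' (by omega)).2 even_two).add_one) hab
    (z.card_St2_of_three_trans hc h3 hab)
  exact ⟨K, inferInstance, inferInstance, by rw [← Nat.card_eq_fintype_card]; omega, e⟩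

end Cfsg.Agent.S0727
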