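import Cfsg.Statements.S0728
import Mathlib
import Cfsg.Agent.H16.Sharp3

set_option autoImplicit false
open Cfsg

namespace Cfsg.Agent.S0728

/-- In a sharply triply transitive group of even degree at least 6 (degree `q + 1`, `q` odd), a two-point stabiliser has at most one subgroup of order 3. -/
theorem result {α : Type*} [Fintype α] [DecidableEq α] (heven : Even (Fintype.card α)) (h6 : 6 ≤ Fintype.card α) (G : Subgroup (Equiv.Perm α)) (h3 : MulAction.IsMultiplyPretransitive G α 3) (hsharp : ∀ x : Fin 3 ↪ α, MulAction.stabilizer G x = ⊥) {a b : α} (hab : a ≠ b) (A B : Subgroup G) (hA : A ≤ MulAction.stabilizer G a ⊓ MulAction.stabilizer G b) (hB : B ≤ MulAction.stabilizer G a ⊓ MulAction.stabilizer G b) (hA3 : Nat.card A = 3) (hB3 : Nat.card B = 3) : A = B := by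
  rw [← Nat.card_eq_fintype_card] at h6
  have hc : 3 ≤ Nat.card α := by omega
  have z := H16.z3_of_sharp h3 hc hsharp
  have hd := z.card_St2_of_three_trans hc h3 hab
  have : Fact (Nat.Prime 3) := ⟨Nat.prime_three⟩
  have key : ∀ C : Subgroup G, Nat.card C = 3 → ∃ x ∈ C, orderOf x = 3 ∧ C = Subgroup.zpowers x := by
    intro C hC
    obtain ⟨x, hx⟩ := exists_prime_orderOf_dvd_card' (G := C) 3 (by rw [hC])
    rw [← Subgroup.orderOf_coe] at hx
    exact ⟨x, x.2, hx, (Subgroup.eq_of_le_of_card_ge (Subgroup.zpowers_le.2 x.2)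
      (by rw [Nat.card_zpowers, hx, hC])).symm⟩
  obtain ⟨x, hx, hx3, rfl⟩ := key A hA3
  obtain ⟨y, hy, hy3, rfl⟩ := key B hB3
  exact le_antisymm
    (Subgroup.zpowers_le.2 (z.mem_zpowers_of_three hc hab hd (hB hy) (hA hx) hy3 hx3))
    (Subgroup.zpowers_le.2 (z.mem_zpowers_of_three hc hab hd (hA hx) (hB hy) hx3 hy3))

end Cfsg.Agent.S0728
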