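import Cfsg.Statements.S0730
import Mathlib
import Cfsg.Agent.H16.Sharp3

set_option autoImplicit false
open Cfsg

namespace Cfsg.Agent.S0730

/-- A sharply triply transitive group of degree `p^f + 1`, `p` an odd prime and `f` odd, is isomorphic to the projective general linear group of degree 2 over the field with `p^f` elements (for even `f` there is a second, twisted, group). -/
theorem result {α : Type*} [Fintype α] [DecidableEq α] {p f : ℕ} (hp : p.Prime) (hp2 : p ≠ 2) (hfo : Odd f) (hα : Fintype.card α = p ^ f + 1) (G : Subgroup (Equiv.Perm α)) (h3 : MulAction.IsMultiplyPretransitive G α 3) (hsharp : ∀ x : Fin 3 ↪ α, MulAction.stabilizer G x = ⊥) : ∃ (F : Type) (_ : Field F) (_ : Fintype F), Fintype.card F = p ^ f ∧ Nonempty (G ≃* Matrix.ProjGenLinGroup (Fin 2) F) := by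
  rw [← Nat.card_eq_fintype_card] at hα
  have h1 : p ^ 1 ≤ p ^ f := Nat.pow_le_pow_right hp.pos hfo.pos
  have h2 := hp.two_le
  have hc : 3 ≤ Nat.card α := by rw [pow_one] at h1; omega
  have z := H16.z3_of_sharp h3 hc hsharp
  have : Nontrivial α := Finite.one_lt_card_iff_nontrivial.1 (by omega)
  obtain ⟨a, b, hab⟩ := exists_pair_ne α
  obtain ⟨K, _, _, hK, e⟩ := z.pgl_of_even_degree hc hab (z.card_St2_of_three_trans hc h3 hab)
    (by rw [hα]; exact (hp.odd_of_ne_two hp2).pow.add_one) hp hfo hα
  exact ⟨K, inferInstance, inferInstance, by rw [← Nat.card_eq_fintype_card, hK], e⟩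

end Cfsg.Agent.S0730
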