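import Cfsg.Statements.S0731
import Mathlib
import Cfsg.Agent.H16.ZClass

set_option autoImplicit false
open Cfsg

namespace Cfsg.Agent.S0731

/-- A finite Zassenhaus group whose point stabiliser has an abelian regular normal subgroup on the remaining points is sharply triply transitive or isomorphic to `PSL(2, F)` for a finite field `F` of odd characteristic. -/
theorem result {G Ω : Type*} [Group G] [Finite G] [MulAction G Ω] [Finite Ω] (hZ : Cfsg.IsZassenhausGroup G Ω) (x : Ω) (F : Subgroup G) (hFle : F ≤ MulAction.stabilizer G x) (hFn : (F.subgroupOf (MulAction.stabilizer G x)).Normal) (hFab : IsMulCommutative F) (hreg : ∀ y z : Ω, y ≠ x → z ≠ x → ∃! u : F, (u : G) • y = z) : (MulAction.IsMultiplyPretransitive G Ω 3 ∧ ∀ t : Fin 3 ↪ Ω, MulAction.stabilizer G t = ⊥) ∨ ∃ (K : Type) (_ : Field K) (_ : Fintype K), ringChar K ≠ 2 ∧ Nonempty (G ≃* Matrix.ProjectiveSpecialLinearGroup (Fin 2) K) := by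
  have z := H16.z3_of_zass hZ
  have h3 : 3 ≤ Nat.card Ω := by have := H16.four_le_card_of_zass hZ; omega
  obtain rfl := z.eq_zker_of_reg h3 hFle hreg
  obtain ⟨b, hb, -⟩ := H16.exists_ne_ne h3 x x
  rcases H16.zass_ab hZ hb.symm hFab with h | ⟨-, K, _, _, -, ho, e⟩
  · refine Or.inl ⟨z.three_trans_of_card h3 hb.symm h, fun t => ?_⟩
    rw [eq_bot_iff]
    intro g hg
    have h1 : ∀ i, g • t i = t i := fun i => DFunLike.congr_fun hg i
    exact z.fix3 g _ _ _ (t.injective.ne (by decide)) (t.injective.ne (by decide))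
      (t.injective.ne (by decide)) (h1 0) (h1 1) (h1 2)
  · exact Or.inr ⟨K, inferInstance, inferInstance, H16.ringChar_ne_two_of_odd ho, e⟩

end Cfsg.Agent.S0731
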