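import Cfsg.Statements.S0733
import Mathlib
import Cfsg.Agent.H16.Prim

set_option autoImplicit false
open Cfsg

namespace Cfsg.Agent.S0733

/-- A permutation group of affine type — generated by the translations of a finite vector space `V` over `ZMod p` together with a group `G₀` of linear automorphisms — is primitive on `V` if and only if `G₀` is irreducible on `V`. -/
theorem result {p : ℕ} [Fact p.Prime] {V : Type*} [AddCommGroup V] [Module (ZMod p) V] [Finite V] [Nontrivial V] (G₀ : Subgroup (V ≃ₗ[ZMod p] V)) (G : Subgroup (Equiv.Perm V)) (hG : ∀ σ : Equiv.Perm V, σ ∈ G ↔ ∃ g ∈ G₀, ∃ b : V, ∀ x : V, σ x = (g : V ≃ₗ[ZMod p] V) x + b) : MulAction.IsPreprimitive G V ↔ ∀ W : Submodule (ZMod p) V, (∀ g ∈ G₀, ∀ v ∈ W, (g : V ≃ₗ[ZMod p] V) v ∈ W) → W = ⊥ ∨ W = ⊤ := by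
  open MulAction Pointwise in
  have htr : ∀ b : V, Equiv.addRight b ∈ G := fun b => (hG _).2 ⟨1, G₀.one_mem, b, fun x => rfl⟩
  have hlin : ∀ g ∈ G₀, (g : V ≃ₗ[ZMod p] V).toEquiv ∈ G :=
    fun g hg => (hG _).2 ⟨g, hg, 0, fun x => by simp⟩
  constructor
  · intro hp W hW
    have hB : IsBlock G (W : Set V) := by
      rw [isBlock_iff_smul_eq_of_mem]
      rintro ⟨σ, hσ⟩ x hx hgx
      obtain ⟨g, hg, b, hb⟩ := (hG σ).1 hσ
      change σ x ∈ W at hgx
      have hbW : b ∈ W := by
        have := W.sub_mem hgx (hW g hg x hx)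
        rwa [hb, add_sub_cancel_left] at this
      apply Set.eq_of_subset_of_ncard_le _ (by rw [Set.ncard_smul_set])
      rintro _ ⟨y, hy, rfl⟩
      change σ y ∈ W
      rw [hb]
      exact W.add_mem (hW g hg y hy) hbW
    rcases hB.subsingleton_or_eq_univ with h | h
    · left
      rw [eq_bot_iff]
      intro x hx
      exact h hx W.zero_mem
    · right
      rw [eq_top_iff]
      intro x _
      have : x ∈ (W : Set V) := by rw [h]; trivial
      exact this
  · intro h
    have : IsPretransitive G V := ⟨fun x y => ⟨⟨_, htr (y - x)⟩, by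
      change x + (y - x) = y; abel⟩⟩
    apply IsPreprimitive.of_isTrivialBlock_base (0 : V)
    intro B h0 hB
    rw [isBlock_iff_smul_eq_of_mem] at hB
    have hadd : ∀ x ∈ B, ∀ y ∈ B, x + y ∈ B := by
      intro x hx y hy
      have := hB (g := ⟨_, htr y⟩) h0 (by change 0 + y ∈ B; simpa)
      rw [← this]
      exact ⟨x, hx, rfl⟩
    have hn : ∀ x ∈ B, ∀ n : ℕ, n • x ∈ B := by
      intro x hx n
      induction n with
      | zero => simpa
      | succ n ih => rw [succ_nsmul]; exact hadd _ ih _ hx
    let W : Submodule (ZMod p) V :=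
      { carrier := B
        add_mem' := fun {x y} hx hy => hadd x hx y hy
        zero_mem' := h0
        smul_mem' := fun c x hx => by
          have := hn x hx c.val
          rwa [← Nat.cast_smul_eq_nsmul (ZMod p), ZMod.natCast_zmod_val] at this }
    rcases h W (fun g hg v hv => by
      have := hB (g := ⟨_, hlin g hg⟩) h0 (by change g 0 ∈ B; simpa)
      change g v ∈ B
      rw [← this]
      exact ⟨v, hv, rfl⟩) with hW | hW
    · left
      intro x hx y hy
      have hx' : x ∈ W := hx
      have hy' : y ∈ W := hy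
      rw [hW, Submodule.mem_bot] at hx' hy'
      rw [hx', hy']
    · right
      rw [Set.eq_univ_iff_forall]
      intro x
      have : x ∈ W := by rw [hW]; trivial
      exact this

end Cfsg.Agent.S0733
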