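import Cfsg.Statements.S0734
import Mathlib
import Cfsg.Agent.H16.Prim

set_option autoImplicit false
open Cfsg

namespace Cfsg.Agent.S0734

/-- Higman's criterion for primitivity: a transitive action on a finite set is primitive if and only if every non-trivial orbital graph (edges = images of a fixed pair of distinct points) is connected. -/
theorem result {G : Type*} [Group G] {Ω : Type*} [Finite Ω] [MulAction G Ω] [MulAction.IsPretransitive G Ω] [Nontrivial Ω] : MulAction.IsPreprimitive G Ω ↔ ∀ a b : Ω, a ≠ b → (SimpleGraph.fromRel fun x y : Ω => ∃ g : G, g • a = x ∧ g • b = y).Connected := by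
  open MulAction Pointwise in
  constructor
  · intro hp a b hab
    set Γ := SimpleGraph.fromRel fun x y : Ω => ∃ g : G, g • a = x ∧ g • b = y with hΓ
    have hadj : ∀ (g : G) (x y : Ω), Γ.Adj x y → Γ.Adj (g • x) (g • y) := by
      intro g x y h
      rw [hΓ, SimpleGraph.fromRel_adj] at h ⊢
      refine ⟨by simpa using h.1, ?_⟩
      rcases h.2 with ⟨k, h1, h2⟩ | ⟨k, h1, h2⟩
      · left; exact ⟨g * k, by rw [mul_smul, h1], by rw [mul_smul, h2]⟩
      · right; exact ⟨g * k, by rw [mul_smul, h1], by rw [mul_smul, h2]⟩
    have hreach : ∀ (g : G) (x y : Ω), Γ.Reachable x y → Γ.Reachable (g • x) (g • y) := by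
      intro g x y h
      exact h.map (⟨fun z => g • z, fun h => hadj g _ _ h⟩ : Γ →g Γ)
    have hB : IsBlock G {x | Γ.Reachable a x} := by
      rw [isBlock_iff_smul_eq_of_mem]
      intro g x hx hgx
      ext y
      rw [Set.mem_smul_set_iff_inv_smul_mem]
      simp only [Set.mem_setOf_eq] at hx hgx ⊢
      constructor
      · intro hy
        have := hreach g _ _ (hx.symm.trans hy)
        rw [smul_inv_smul] at this
        exact hgx.trans this
      · intro hy
        have := hreach g⁻¹ _ _ (hgx.symm.trans hy)
        rw [inv_smul_smul] at this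
        exact hx.trans this
    have hab' : Γ.Adj a b := by
      rw [hΓ, SimpleGraph.fromRel_adj]
      exact ⟨hab, Or.inl ⟨1, by simp, by simp⟩⟩
    rcases hB.subsingleton_or_eq_univ with h | h
    · exact absurd (h (SimpleGraph.Reachable.refl a) hab'.reachable) hab
    · have : ∀ x, Γ.Reachable a x := fun x => by
        have : x ∈ {x | Γ.Reachable a x} := by rw [h]; trivial
        exact this
      exact ⟨fun x y => (this x).symm.trans (this y)⟩
  · intro h
    constructor
    intro B hB
    rcases B.subsingleton_or_nontrivial with hs | ⟨a, ha, b, hb, hab⟩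
    · exact Or.inl hs
    · right
      have hc := h a b hab
      rw [Set.eq_univ_iff_forall]
      intro x
      have hr := hc.preconnected a x
      rw [SimpleGraph.reachable_iff_reflTransGen] at hr
      induction hr with
      | refl => exact ha
      | tail _ h2 ih =>
        rw [SimpleGraph.fromRel_adj] at h2
        rw [isBlock_iff_smul_eq_of_mem] at hB
        rcases h2.2 with ⟨k, h1, h2⟩ | ⟨k, h1, h2⟩
        · rw [← h2, ← hB ha (h1 ▸ ih)]; exact Set.smul_mem_smul_set hb
        · rw [← h1, ← hB hb (h2 ▸ ih)]; exact Set.smul_mem_smul_set ha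

end Cfsg.Agent.S0734
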