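import Mathlib
-- Template for statement S0736 (row 736; see /opt/grader/pristine/manifest.json for weights).
-- Copy to Cfsg/Agent/S0736.lean and replace the sorry. The statement below is byte-identical to the frozen
-- statement Cfsg.CfsgFrozen.S0736 (Cfsg/Statements/S0736.lean; the theorem Cfsg.k_homogeneous_is_pred_homogeneous);
-- the grader kernel-checks Cfsg.Agent.S0736.result against that frozen type. Keep the theorem IN THIS FILE
-- (a `result` declared elsewhere and merely imported here is not credited); helpers may live anywhere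
-- under Cfsg/Agent/.
import Cfsg.Statements.S0736
-- import your own Cfsg.Agent.* helpers here

set_option autoImplicit false
open Cfsg

namespace Cfsg.Agent.S0736

section
open Finset Pointwise
set_option linter.style.haveILetI false

theorem not_dvd_choose {p a k : ℕ} (hp : p.Prime) (h : p ^ a ∣ k) : ¬ p ∣ (p ^ a - 1 + k).choose k := by
  rw [hp.dvd_iff_one_le_factorization (Nat.choose_pos (by omega)).ne', Nat.factorization_choose' hp (Nat.lt_succ_self _), not_le,
    Nat.lt_one_iff, card_eq_zero, filter_eq_empty_iff]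
  intro i _
  have h0 : ∀ j, 0 < p ^ j := fun j => pow_pos hp.pos j
  rcases le_total i a with hi | hi
  · rw [Nat.mod_eq_zero_of_dvd ((pow_dvd_pow p hi).trans h), zero_add, not_le]; exact Nat.mod_lt _ (h0 i)
  · have h1 : p ^ a ∣ p ^ i - k % p ^ i := Nat.dvd_sub (pow_dvd_pow p hi) ((Nat.dvd_mod_iff (pow_dvd_pow p hi)).2 h)
    have := Nat.mod_lt k (h0 i)
    have := Nat.le_of_dvd (by omega) h1
    have := Nat.mod_le (p ^ a - 1) (p ^ i)
    have := h0 a
    omega

end

/-- A `k`-homogeneous permutation group of degree `n`, `k ≥ 2`, with `k + q - 1 ≤ n` for every prime power `q` dividing `k`, is `(k-1)`-homogeneous. -/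
theorem result {α : Type*} [Fintype α] [DecidableEq α] (G : Subgroup (Equiv.Perm α)) {k : ℕ} (hk : 2 ≤ k) (hG : MulAction.IsPretransitive G (Set.powersetCard α k)) (hq : ∀ q : ℕ, IsPrimePow q → q ∣ k → k + q - 1 ≤ Fintype.card α) : MulAction.IsPretransitive G (Set.powersetCard α (k - 1)) := by
  open Finset Pointwise in
  · classical
    obtain ⟨k, rfl⟩ := Nat.exists_eq_add_of_le' (show 1 ≤ k by omega)
    refine ⟨fun S T => ?_⟩
    let O : Finset α → Prop := fun U => ∃ g : G, g • (S : Finset α) = U
    let f : Finset α → ℕ := fun K => #{U ∈ powersetCard k K | O U}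
    have hS : #(S : Finset α) = k := S.2
    have hT : #(T : Finset α) = k := T.2
    have hf : ∀ K K', #K = k + 1 → #K' = k + 1 → f K = f K' := fun K K' h h' => by
      obtain ⟨g, hg⟩ := hG.1 ⟨K, h⟩ ⟨K', h'⟩
      obtain rfl : g • K = K' := congrArg Subtype.val hg
      refine card_equiv (MulAction.toPerm g) fun U => ?_
      simp only [mem_filter, mem_powersetCard, MulAction.toPerm_apply, smul_finset_subset_smul_finset_iff, card_smul_finset]
      exact and_congr_right' ⟨fun ⟨x, hx⟩ => ⟨g * x, by rw [mul_smul, hx]⟩, fun ⟨x, hx⟩ => ⟨g⁻¹ * x, by rw [mul_smul, hx, inv_smul_smul]⟩⟩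
    have hn : k + 1 ≤ Fintype.card α := by
      have := hq _ (Nat.minFac_prime (show k + 1 ≠ 1 by omega)).isPrimePow (Nat.minFac_dvd _)
      have := (Nat.minFac_prime (show k + 1 ≠ 1 by omega)).two_le
      omega
    obtain ⟨K, hK, hKc⟩ := exists_subsuperset_card_eq (subset_univ (S : Finset α)) (hS.trans_le k.le_succ) hn
    obtain ⟨K', hK', hKc'⟩ := exists_subsuperset_card_eq (subset_univ (T : Finset α)) (hT.trans_le k.le_succ) hn
    have h1 : k + 1 ∣ f K := (Nat.dvd_iff_prime_pow_dvd_dvd _ _).2 fun p a hp ha => by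
      rcases a with _ | a
      · simp
      obtain ⟨Y, -, hY⟩ := exists_subset_card_eq (s := univ) (hq _ (hp.isPrimePow.pow a.succ_ne_zero) ha)
      have hq0 : 0 < p ^ (a + 1) := pow_pos hp.pos _
      rw [Nat.succ_eq_add_one] at hY
      have e := sum_card_bipartiteAbove_eq_sum_card_bipartiteBelow (s := {U ∈ powersetCard k Y | O U}) (t := powersetCard (k + 1) Y) (· ⊆ ·)
      rw [sum_congr rfl (g := fun _ => p ^ (a + 1)) fun U hU => ?_, sum_congr (s₁ := powersetCard (k + 1) Y) rfl (g := fun _ => f K) fun L hL => ?_] at e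
      · simp only [sum_const, card_powersetCard, smul_eq_mul, hY] at e
        refine (Nat.Coprime.pow_left _ ((Nat.Prime.coprime_iff_not_dvd hp).2 ?_)).dvd_of_dvd_mul_left (e ▸ Dvd.intro_left _ rfl)
        rw [show k + 1 + p ^ (a + 1) - 1 = p ^ (a + 1) - 1 + (k + 1) by omega]
        exact not_dvd_choose hp ha
      · obtain ⟨h1, h2⟩ := mem_powersetCard.1 hL
        rw [hf K L hKc.2 h2]
        exact congrArg card (by ext U; simp only [bipartiteBelow, mem_filter, mem_powersetCard]; have := fun h : U ⊆ L => h.trans h1; tauto)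
      · obtain ⟨h1, h2⟩ := mem_powersetCard.1 (mem_filter.1 hU).1
        rw [show p ^ (a + 1) = #(Y \ U) by rw [card_sdiff_of_subset h1, hY, h2]; omega]
        refine (card_bij (fun x _ => insert x U) (fun x hx => ?_) (fun x hx y hy e => ?_) fun L hL => ?_).symm
        · obtain ⟨h3, h4⟩ := mem_sdiff.1 hx
          simp [bipartiteAbove, insert_subset_iff, h1, h2, h3, h4]
        · exact (mem_insert.1 (e ▸ mem_insert_self x U : x ∈ insert y U)).resolve_right (mem_sdiff.1 hx).2
        · simp only [bipartiteAbove, mem_filter, mem_powersetCard] at hL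
          obtain ⟨x, hx, rfl⟩ := exists_eq_insert_iff.2 ⟨hL.2, by omega⟩
          exact ⟨x, mem_sdiff.2 ⟨hL.1.1 (mem_insert_self _ _), hx⟩, rfl⟩
    have h2 : k + 1 ≤ f K' := hf K K' hKc.2 hKc'.2 ▸ Nat.le_of_dvd (card_pos.2 ⟨S, mem_filter.2 ⟨mem_powersetCard.2 ⟨hK, hS⟩, 1, one_smul _ _⟩⟩) h1
    have h3 := eq_of_subset_of_card_le (filter_subset O (powersetCard k K')) (by rwa [card_powersetCard, hKc'.2, Nat.choose_succ_self_right])
    obtain ⟨g, hg⟩ := (mem_filter.1 (h3.ge (mem_powersetCard.2 ⟨hK', hT⟩))).2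
    exact ⟨g, Subtype.ext hg⟩

end Cfsg.Agent.S0736
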