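import Cfsg.Statements.S0737
import Mathlib
import Cfsg.Agent.S3360
import Cfsg.Agent.FT.Main
import Cfsg.Agent.H16.Homog
import Cfsg.Agent.H16.RegNormal

set_option autoImplicit false
open Cfsg

namespace Cfsg.Agent.S0737

open MulAction Subgroup Cfsg.Agent.H16 Cfsg.Agent.FT

theorem core {H V : Type*} [Group H] [Finite H] [Group.IsSolvable H] [AddCommGroup V] [Finite V]
    {p : ℕ} [Fact p.Prime] [Module (ZMod p) V] (θ : H →* MulAut (Multiplicative V))
    (ht : ∀ v w : Multiplicative V, v ≠ 1 → w ≠ 1 → ∃ h, θ h v = w ∨ θ h v = w⁻¹)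
    (h4 : Nat.card V % 4 = 3) : ∃ (F : Type) (_ : Field F) (_ : Fintype F) (e : V ≃+ F),
      ∀ h, ∃ (a : F) (σ : F ≃+* F), ∀ v, e (θ h (.ofAdd v)).toAdd = a * σ (e v) := by
  have : Nontrivial V := Finite.one_lt_card_iff_nontrivial.1 (by omega)
  have : Finite (V ≃ₗ[ZMod p] V) := Finite.of_injective _ DFunLike.coe_injective
  let ρ : H →* (V ≃ₗ[ZMod p] V) :=
    { toFun := fun g => (AddEquiv.toMultiplicative.symm (θ g)).toLinearEquiv
        (ZMod.map_smul (AddEquiv.toMultiplicative.symm (θ g)))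
      map_one' := by ext x; exact congrArg (fun f : MulAut _ => (f (.ofAdd x)).toAdd) θ.map_one
      map_mul' := fun a b => by rw [map_mul]; rfl }
  let ν : V ≃ₗ[ZMod p] V := LinearEquiv.neg _
  have hs : Sol ((⊤ : Subgroup H).map ρ ⊔ ⟪ν⟫) :=
    (Sol.map ρ (sol_top.2 inferInstance)).sup (sol_zpowers ν) (zpowers_le.2 (centralizer_le_normalizer _
      fun f _ => by ext; simp [ν]))
  have m : ∀ h, ρ h ∈ (⊤ : Subgroup H).map ρ ⊔ ⟪ν⟫ := fun h => mem_sup_left ⟨h, mem_top h, rfl⟩
  rcases S3360.result p hs (Subgroup.subtype _) (subtype_injective _) (fun v w hv hw => by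
    obtain ⟨h, e | e⟩ := ht (.ofAdd v) (.ofAdd w) hv hw
    · exact ⟨⟨ρ h, m h⟩, e⟩
    · exact ⟨⟨ν * ρ h, mul_mem (mem_sup_right (mem_zpowers ν)) (m h)⟩, neg_eq_iff_eq_neg.2 e⟩) with
    ⟨F, _, _, e, h⟩ | h
  · exact ⟨F, _, inferInstance, e, fun g => h ⟨ρ g, m g⟩⟩
  · simp only [Set.mem_insert_iff, Set.mem_singleton_iff] at h
    omega

/-- A non-trivial 2-homogeneous permutation group that is not doubly transitive has odd order and degree `p^f ≡ 3 (mod 4)`, and is permutation-isomorphic to a group of semi-affine transformations `x ↦ a φ(x) + b` of the field with `p^f` elements containing all translations. -/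
theorem result {α : Type*} [Fintype α] [DecidableEq α] (G : Subgroup (Equiv.Perm α)) (hne : G ≠ ⊥) (h2 : MulAction.IsPretransitive G (Set.powersetCard α 2)) (hn2 : ¬ MulAction.IsMultiplyPretransitive G α 2) : Odd (Nat.card G) ∧ ∃ (p f : ℕ) (_ : Fact p.Prime), p ≠ 2 ∧ Fintype.card α = p ^ f ∧ p ^ f % 4 = 3 ∧ ∃ e : α ≃ GaloisField p f, (∀ g : G, e.symm.trans (((g : Equiv.Perm α)).trans e) ∈ Cfsg.semiaffineGroup (GaloisField p f)) ∧ ∀ b : GaloisField p f, ∃ g : G, ∀ x : α, e ((g : Equiv.Perm α) x) = e x + b := by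
  have ho : Odd (Nat.card G) := Nat.not_even_iff_odd.1 fun h => hn2 (hom2_two_trans_of_even h2 h)
  have h3 : 3 ≤ Nat.card α := by
    by_contra! h
    have h1 : Nat.card G ∣ 2 := (card_subgroup_dvd_card G).trans (by
      rw [Nat.card_perm]; exact Nat.factorial_dvd_factorial (m := Nat.card α) (n := 2) (by omega))
    rcases (Nat.dvd_prime Nat.prime_two).1 h1 with e | e
    · exact hne (card_eq_one.1 e)
    · rw [e] at ho; exact absurd ho (by decide)
  have := hom2_prim h2 h3
  have hs := odd_order_solvable ho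
  have : Nontrivial G := (nontrivial_iff_ne_bot G).2 hne
  obtain ⟨N, -, hN⟩ := exists_minNml (K := ⊤) (M := (⊤ : Subgroup G)) top_ne_bot (le_nrm _)
  obtain ⟨p, hp, eN⟩ := hN.abelem ((sol_top.2 hs).mono le_top)
  have nN : N.Normal := nml_top_iff.1 ⟨le_top, hN.nrm⟩
  have tN := normal_trans (α := α) N hN.ne
  have : Nonempty α := (Nat.card_pos_iff.1 (by omega)).1
  obtain ⟨a⟩ := this
  have rN := stabilizer_eq_bot_of_comm (α := α) N eN.ab a
  let κ : N ≃ α := Equiv.ofBijective _ (bijective_smul_of_regular a rN)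
  have hκ : ∀ n : N, κ n = (n : G) • a := fun _ => rfl
  obtain ⟨f, hf⟩ := eN.card hp
  have cα : Nat.card α = p ^ f := (Nat.card_congr κ).symm.trans hf
  have h4 : Nat.card α % 4 = 3 := by
    have : Nonempty (Set.powersetCard α 2) := by
      rw [← Nat.card_pos_iff.trans (and_iff_left inferInstance), Set.powersetCard.card]
      exact Nat.choose_pos (by omega)
    have h1 := ho.of_dvd_nat (card_dvd_of_trans (G := G) (α := Set.powersetCard α 2))
    have h5 := ho.of_dvd_nat ((Nat.card_congr κ).symm ▸ card_subgroup_dvd_card N)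
    rw [Set.powersetCard.card, Nat.choose_two_right] at h1
    obtain ⟨k, hk⟩ := h5
    rw [hk, show (2 * k + 1) * (2 * k + 1 - 1) / 2 = (2 * k + 1) * k by
      rw [Nat.add_sub_cancel, mul_left_comm, Nat.mul_div_cancel_left _ two_pos], Nat.odd_mul] at h1
    obtain ⟨j, hj⟩ := h1.2
    omega
  have := Fact.mk hp
  letI : CommGroup N := { (inferInstance : Group N) with mul_comm := eN.ab.is_comm.comm }
  letI : Module (ZMod p) (Additive N) := AddCommGroup.zmodModule
    (fun x => congrArg Additive.ofMul (Subtype.ext (eN.pow x.toMul.2) : x.toMul ^ p = 1))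
  obtain ⟨F, _, _, e, he⟩ := core (V := Additive N) (p := p)
    ((MulAut.conjNormal (H := N)).comp (stabilizer G a).subtype) (fun v w hv hw => by
      have k : ∀ u : N, u ≠ 1 → a ≠ (u : G) • a := fun u hu e => hu (Subtype.ext (reg_eq_one rN u.2 e.symm))
      obtain ⟨g, ⟨e1, e2⟩ | ⟨e1, e2⟩⟩ := hom2 h2 (k v hv) (k w hw)
      · exact ⟨⟨g, e1⟩, Or.inl (Subtype.ext ((reg_conj_iff rN e1 v.2 w.2).1 e2))⟩
      · have e3 : (w.1⁻¹ * g : G) • a = a := by rw [mul_smul, e1, inv_smul_smul]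
        exact ⟨⟨_, e3⟩, Or.inr (Subtype.ext ((reg_conj_iff rN e3 v.2 (inv_mem w.2)).1 (by
          rw [mul_smul, e2])))⟩) (by rw [← h4]; exact congrArg (· % 4) (Nat.card_congr κ))
  have cF : Nat.card F = p ^ f := (Nat.card_congr e.toEquiv).symm.trans hf
  have : CharP F p := charP_of_card_eq_prime_pow (Nat.card_eq_fintype_card.symm.trans cF)
  letI : Algebra (ZMod p) F := ZMod.algebra F p
  let ι := (GaloisField.algEquivGaloisField p f cF).toRingEquiv
  let E : α ≃ GaloisField p f := κ.symm.trans (Additive.ofMul.trans (e.toEquiv.trans ι.toEquiv))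
  have hE : ∀ n : N, E ((n : G) • a) = ι (e (.ofMul n)) := fun n => by
    rw [← hκ]; simp [E]
  refine ⟨ho, p, f, inferInstance, ?_, Nat.card_eq_fintype_card.symm.trans cα, cα ▸ h4, E, fun g => ?_,
    fun b => ?_⟩
  · rintro rfl
    rcases f with _ | f <;> omega
  · obtain ⟨n, hn, h, hh, rfl⟩ := exists_mul_stabilizer N a g
    obtain ⟨c, σ, hc⟩ := he ⟨h, hh⟩
    have c0 : ι c ≠ 0 := by
      rw [map_ne_zero_iff ι ι.injective]
      rintro rfl
      obtain ⟨⟨v, hv⟩, v1⟩ := ne_bot_iff_exists_ne_one.1 hN.ne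
      have := hc (.ofMul ⟨v, hv⟩)
      rw [zero_mul, map_eq_zero_iff e e.injective] at this
      exact v1 ((map_eq_one_iff _ (MulAut.conjNormal h).injective).1 this)
    refine ⟨Units.mk0 _ c0, ι (e (.ofMul ⟨n, hn⟩)), ι.symm.trans (σ.trans ι), fun x => ?_⟩
    obtain ⟨x, rfl⟩ := E.surjective x
    obtain ⟨m, rfl⟩ := κ.surjective x
    change E ((n * h) • E.symm (E (κ m))) = ι c * ι (σ (ι.symm (E (κ m)))) + _
    have := hE (⟨n, hn⟩ * MulAut.conjNormal h m)
    rw [ofMul_mul, map_add, show e (.ofMul (MulAut.conjNormal h m)) = _ from hc (.ofMul m), map_add,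
      map_mul, add_comm] at this
    rw [E.symm_apply_apply, hκ, hE, ι.symm_apply_apply, mul_smul, ← conj_smul_of_fix hh, ← mul_smul]
    exact this
  · refine ⟨((e.symm (ι.symm b)).toMul : N), fun x => ?_⟩
    obtain ⟨m, rfl⟩ := κ.surjective x
    have := hE ((e.symm (ι.symm b)).toMul * m)
    rw [coe_mul, mul_smul, ofMul_mul, map_add, map_add, ← hE m, add_comm, ofMul_toMul,
      e.apply_symm_apply, ι.apply_symm_apply] at this
    exact this

end Cfsg.Agent.S0737
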