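import Cfsg.Statements.S0739
import Mathlib
import Cfsg.Agent.H16.Zass3

set_option autoImplicit false
open Cfsg

namespace Cfsg.Agent.S0739

/-- In a finite Zassenhaus group whose two-point stabiliser `H = G_{a,b}` has odd order `d`, and which has no normal `q`-complement for any prime `q ∣ d`, `H` is cyclic, `C_G(H) = H`, and every element swapping `a` and `b` inverts each element of `H`. -/
theorem result {G Ω : Type*} [Group G] [Finite G] [MulAction G Ω] [Fintype Ω] (hZ : Cfsg.IsZassenhausGroup G Ω) {a b : Ω} (hab : a ≠ b) (hodd : Odd (Nat.card ↥(MulAction.stabilizer G a ⊓ MulAction.stabilizer G b))) (hnil : ∀ q : ℕ, q.Prime → q ∣ Nat.card ↥(MulAction.stabilizer G a ⊓ MulAction.stabilizer G b) → ¬ ∃ N : Subgroup G, N.Normal ∧ N.index = q ^ (Nat.card G).factorization q) : IsCyclic ↥(MulAction.stabilizer G a ⊓ MulAction.stabilizer G b) ∧ Subgroup.centralizer ((MulAction.stabilizer G a ⊓ MulAction.stabilizer G b : Subgroup G) : Set G) = MulAction.stabilizer G a ⊓ MulAction.stabilizer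 G b ∧ ∀ s : G, s • a = b → s • b = a → ∀ h ∈ MulAction.stabilizer G a ⊓ MulAction.stabilizer G b, s * h * s⁻¹ = h⁻¹ := by
  have z := H16.z3_of_zass hZ
  have h3 : 3 ≤ Nat.card Ω := by have := H16.four_le_card_of_zass hZ; omega
  have key : ∀ s : G, s • a = b → s • b = a → ∀ h ∈ H16.St2 G a b, s * h * s⁻¹ = h⁻¹ := by
    intro s hsa hsb
    refine z.inverts_of_odd h3 hab hodd (fun q hq hd => ?_) hsa hsb
    rintro ⟨P, N, hN, hc⟩
    have := Fact.mk hq
    exact hnil q hq hd ⟨N, hN, by rw [hc.symm.index_eq_card, P.card_eq_multiplicity]⟩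
  obtain ⟨s, hsa, hsb⟩ := z.exists_swap hab
  refine ⟨z.isCyclic_St2_of_inverts h3 hab (key s hsa hsb), le_antisymm ?_ ?_, key⟩
  · intro g hg
    obtain ⟨⟨h, hh⟩, h1⟩ := Subgroup.ne_bot_iff_exists_ne_one.1 (H16.St2_ne_bot_of_zass hZ hab)
    have h1' : h ≠ 1 := fun e => h1 (Subtype.ext e)
    rcases z.pair_of_comm hab hh h1' (hg h hh).symm with e | e
    · exact e
    · have e1 := key g e.1 e.2 h hh
      rw [← hg h hh, mul_inv_cancel_right, eq_inv_iff_mul_eq_one] at e1
      exact absurd (H16.even_card_of_invol hh h1' e1) (Nat.not_even_iff_odd.2 hodd)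
  · intro x hx y hy
    exact H16.comm_of_inverts (key s hsa hsb) hy hx

end Cfsg.Agent.S0739
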