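import Cfsg.Statements.S0740
import Mathlib
import Cfsg.Agent.H16.Zass2

set_option autoImplicit false
open Cfsg

namespace Cfsg.Agent.S0740

/-- In a finite Zassenhaus group any two points `a ≠ b` are swapped by an involution; every such involution has exactly one fixed point when the degree is odd and 0 or 2 fixed points when the degree is even; and if the two-point stabiliser has even order, some such involution has exactly 2 fixed points. -/
theorem result {G Ω : Type*} [Group G] [Finite G] [MulAction G Ω] [Fintype Ω] (hZ : Cfsg.IsZassenhausGroup G Ω) {a b : Ω} (hab : a ≠ b) : (∃ s : G, orderOf s = 2 ∧ s • a = b ∧ s • b = a) ∧ (∀ s : G, orderOf s = 2 → s • a = b → s • b = a → (Odd (Fintype.card Ω) → Nat.card (MulAction.fixedBy Ω s) = 1) ∧ (Even (Fintype.card Ω) → Nat.card (MulAction.fixedBy Ω s) = 0 ∨ Nat.card (MulAction.fixedBy Ω s) = 2)) ∧ (Even (Fintype.card Ω) → Even (Nat.card ↥(MulAction.stabilizer G a ⊓ MulAction.stabilizer G b)) → ∃ s : G, orderOf s = 2 ∧ s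 • a = b ∧ s • b = a ∧ Nat.card (MulAction.fixedBy Ω s) = 2) := by
  have z := H16.z3_of_zass hZ
  rw [← Nat.card_eq_fintype_card]
  refine ⟨?_, ?_, ?_⟩
  · obtain ⟨s, h1, h2, h3⟩ := z.exists_invol_swap hab
    exact ⟨s, H16.orderOf_eq_two_iff'.2 ⟨by rintro rfl; exact hab (by simpa using h2), h1⟩, h2, h3⟩
  · intro s hs _ _
    have h1 := H16.nfix_modEq_of_orderOf (α := Ω) Nat.prime_two hs
    have h2 := z.nfix_le_two (H16.orderOf_eq_two_iff'.1 hs).1
    change (_ → H16.nfix Ω s = 1) ∧ (_ → H16.nfix Ω s = 0 ∨ H16.nfix Ω s = 2)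
    unfold Nat.ModEq at h1
    rw [Nat.odd_iff, Nat.even_iff]
    omega
  · intro _ he
    obtain ⟨t, ht, h1, h2⟩ := H16.exists_invol_of_even he
    obtain ⟨g, e1, e2⟩ := z.exists_conj_swap hab h1 h2
    refine ⟨_, H16.orderOf_eq_two_iff'.2 ⟨by simpa using h1, by rw [conj_mul, h2]; simp⟩, e1, e2, ?_⟩
    change H16.nfix Ω _ = 2
    rw [H16.nfix_conj, z.nfix_eq_two hab ht h1]

end Cfsg.Agent.S0740
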