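import Cfsg.Statements.S0746
import Mathlib
import Cfsg.Agent.S0745
import Cfsg.Agent.S0736

set_option autoImplicit false
open Cfsg

namespace Cfsg.Agent.S0746

open MulAction Cfsg.Agent.H16

/-- The Livingstone–Wagner Theorem, first form: a `k`-homogeneous group of degree `n` with `4 ≤ 2k ≤ n` is `(k-1)`-transitive. -/
theorem result {α : Type*} [Fintype α] [DecidableEq α] (G : Subgroup (Equiv.Perm α)) {k : ℕ} (hk : 2 ≤ k) (hkn : 2 * k ≤ Fintype.card α) (hh : MulAction.IsPretransitive G (Set.powersetCard α k)) : MulAction.IsMultiplyPretransitive G α (k - 1) := by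
  have cn := Nat.card_eq_fintype_card (α := α)
  have hom : ∀ i j, i + j = k → 1 ≤ j → IsPretransitive G (Set.powersetCard α j) := by
    intro i
    induction i with
    | zero => intro j e _; rwa [show j = k by omega]
    | succ i ih =>
      intro j e h1
      exact S0736.result G (k := j + 1) (by omega) (ih _ (by omega) (by omega)) fun q _ hq => by
        have := Nat.le_of_dvd (by omega) hq
        omega
  have : ∀ j, 1 ≤ j → j + 1 ≤ k → IsMultiplyPretransitive G α j := by
    intro j h1
    induction j, h1 using Nat.le_induction with
    | base =>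
      intro _
      refine mtrans_iff.2 fun x y _ _ => ?_
      obtain ⟨g, hg⟩ := homog_iff.1 (hom (k - 1) 1 (by omega) le_rfl) {x 0} {y 0} rfl rfl
      exact ⟨g, fun i => by rw [Subsingleton.elim i 0]; simpa using hg⟩
    | succ j h1 ih =>
      intro h
      by_contra hn
      have := S0745.result G (k := j + 2) (by omega) (by omega) (ih (by omega)) hn
        (hom (k - (j + 1)) _ (by omega) (by omega)) (hom (k - (j + 2)) _ (by omega) (by omega))
      omega
  exact this _ (by omega) (by omega)

end Cfsg.Agent.S0746
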