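import Cfsg.Statements.S0749
import Mathlib
import Cfsg.Agent.H10.Alt

set_option autoImplicit false
open Cfsg

namespace Cfsg.Agent.S0749

/-- Witt's Lemma for alternating forms. If B is a non-degenerate alternating bilinear form on a finite-dimensional vector space V (over any field) and φ is a linear equivalence between subspaces X and Y of V preserving B, then φ extends to a B-preserving linear automorphism of V. -/
theorem result {F V : Type*} [Field F] [AddCommGroup V] [Module F V] [FiniteDimensional F V] (B : LinearMap.BilinForm F V) (hB : B.Nondegenerate) (hA : B.IsAlt) (X Y : Submodule F V) (φ : X ≃ₗ[F] Y) (hφ : ∀ x x' : X, B (φ x : V) (φ x' : V) = B (x : V) (x' : V)) : ∃ g : V ≃ₗ[F] V, (∀ u v : V, B (g u) (g v) = B u v) ∧ ∀ x : X, g (x : V) = (φ x : V) := by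
  obtain ⟨r, hr⟩ := LinearMap.exists_leftInverse_of_injective X.subtype X.ker_subtype
  have hr' : ∀ x : X, r x = x := fun x => LinearMap.congr_fun hr x
  obtain ⟨g, hg1, hg2⟩ := H10.witt_alt hB hA hB hA rfl X (Y.subtype ∘ₗ φ.toLinearMap ∘ₗ r) (by
    intro x hx h
    have h1 := hr' ⟨x, hx⟩
    simp only [LinearMap.comp_apply, Submodule.subtype_apply, LinearEquiv.coe_coe,
      ZeroMemClass.coe_eq_zero, EmbeddingLike.map_eq_zero_iff] at h h1
    rw [h1] at h
    exact congrArg Subtype.val h) (by
    intro x hx y hy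
    have h1 := hr' ⟨x, hx⟩
    have h2 := hr' ⟨y, hy⟩
    simp only [LinearMap.comp_apply, Submodule.subtype_apply, LinearEquiv.coe_coe] at h1 h2 ⊢
    rw [h1, h2, hφ])
  exact ⟨g, hg1, fun x => by rw [hg2 x x.2]; simp [hr']⟩

end Cfsg.Agent.S0749
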