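import Cfsg.Statements.S0752
import Mathlib
import Cfsg.Agent.H10.Sp

set_option autoImplicit false
open Cfsg

namespace Cfsg.Agent.S0752

/-- Classification of alternating forms: for an alternating bilinear form B on a finite-dimensional space over any field there is a basis indexed by (Fin m ⊕ Fin m) ⊕ Fin k such that B (e_i, f_j) = δ_ij, the e's are pairwise orthogonal, the f's are pairwise orthogonal, and the last k basis vectors are orthogonal to everything (they span the radical). -/
theorem result {F V : Type*} [Field F] [AddCommGroup V] [Module F V] [FiniteDimensional F V] (B : LinearMap.BilinForm F V) (hA : B.IsAlt) : ∃ (m k : ℕ) (b : Module.Basis ((Fin m ⊕ Fin m) ⊕ Fin k) F V), (∀ i j : Fin m, B (b (Sum.inl (Sum.inl i))) (b (Sum.inl (Sum.inr j))) = if i = j then 1 else 0) ∧ (∀ i j : Fin m, B (b (Sum.inl (Sum.inl i))) (b (Sum.inl (Sum.inl j))) = 0) ∧ (∀ i j : Fin m, B (b (Sum.inl (Sum.inr i))) (b (Sum.inl (Sum.inr j))) = 0) ∧ (∀ (j : Fin k) (v : V), B (b (Sum.inr j)) v = 0) := by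
  classical
  obtain ⟨W, hW⟩ := (LinearMap.ker B).exists_isCompl
  have alt : LinearMap.IsAlt (B.restrict W) := fun x => hA (x : V)
  have nd : (B.restrict W).Nondegenerate := by
    refine alt.isRefl.nondegenerate_iff_separatingLeft.mpr fun x hx => Subtype.ext ?_
    have : (x : V) ∈ LinearMap.ker B := by
      rw [LinearMap.mem_ker]
      ext v
      obtain ⟨r, hr, w, hw, rfl⟩ := Submodule.mem_sup.mp (hW.sup_eq_top ▸ Submodule.mem_top (x := v))
      have h1 : B x r = 0 := by rw [← hA.neg_eq, LinearMap.mem_ker.mp hr]; simp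
      have h2 : B x w = 0 := hx ⟨w, hw⟩
      simp [h1, h2]
    exact (Submodule.disjoint_def.mp hW.disjoint) x this x.2
  obtain ⟨m, hm⟩ := H10.even_finrank_of_alt nd alt
  obtain ⟨e, he⟩ := H10.exists_isometry_std (l := Fin m) nd alt (by simp; omega)
  let bW : Module.Basis (Fin m ⊕ Fin m) F W :=
    ((Pi.basisFun F (Fin m ⊕ Fin m)).map e).reindex (Equiv.sumComm _ _)
  let bR := Module.finBasis F (LinearMap.ker B)
  let b := (bW.prod bR).map (W.prodEquivOfIsCompl _ hW.symm)
  have b1 : ∀ i, b (Sum.inl i) = (e (Pi.single i.swap 1) : V) := fun i => by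
    simp [b, bW, Module.Basis.prod_apply]
  have b2 : ∀ j, b (Sum.inr j) = (bR j : V) := fun j => by
    simp [b, Module.Basis.prod_apply]
  have hb : ∀ i j, B (b (Sum.inl i)) (b (Sum.inl j)) =
      H10.spBilin (Fin m) F (Pi.single i.swap 1) (Pi.single j.swap 1) := fun i j => by
    rw [b1, b1, ← he]; rfl
  refine ⟨m, _, b, fun i j => ?_, fun i j => ?_, fun i j => ?_, fun j v => ?_⟩
  · rw [hb, H10.spBilin_apply_sum]
    simp [Pi.single_apply, Finset.sum_ite_eq', eq_comm]
  · rw [hb, H10.spBilin_apply_sum]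
    simp [Pi.single_apply]
  · rw [hb, H10.spBilin_apply_sum]
    simp [Pi.single_apply]
  · rw [b2, LinearMap.mem_ker.mp (bR j).2]; rfl

end Cfsg.Agent.S0752
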