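import Cfsg.Statements.S0756
import Mathlib
import Cfsg.Agent.H11.ClassifyQ

set_option autoImplicit false
open Cfsg

namespace Cfsg.Agent.S0756

/-- Classification of symmetric bilinear forms over finite fields of odd characteristic: if B is non-degenerate symmetric on V of dimension n + 1 and α is a fixed non-square of F, there is an orthogonal basis b_0, ..., b_n with B(b_i, b_i) = 1 for i < n and B(b_n, b_n) ∈ {1, α}. -/
theorem result {F V : Type*} [Field F] [Finite F] [AddCommGroup V] [Module F V] [FiniteDimensional F V] (h2 : (2 : F) ≠ 0) (B : LinearMap.BilinForm F V) (hS : B.IsSymm) (hB : B.Nondegenerate) {n : ℕ} (hn : Module.finrank F V = n + 1) (α : F) (hα : ¬ IsSquare α) : ∃ b : Module.Basis (Fin (n + 1)) F V, (∀ i j, i ≠ j → B (b i) (b j) = 0) ∧ (∀ i, i ≠ Fin.last n → B (b i) (b i) = 1) ∧ (B (b (Fin.last n)) (b (Fin.last n)) = 1 ∨ B (b (Fin.last n)) (b (Fin.last n)) = α) := by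
  classical
  have h : H11.IsQuad B (fun x => B x x / 2) := H11.IsQuad.of_symm h2 (fun x y => hS.eq x y)
  let b₀ := Module.finBasis F V
  have hd := H11.gram_det_ne_zero (fun _ => rfl) hB.1 b₀
  have hα0 : α ≠ 0 := by rintro rfl; simp at hα
  have key : ∀ d : F, d ≠ 0 → IsSquare ((H11.gram B b₀).det * d) → ∃ b : Module.Basis (Fin (n + 1)) F V, (∀ i j, i ≠ j → B (b i) (b j) = 0) ∧ (∀ i, i ≠ Fin.last n → B (b i) (b i) = 1) ∧ B (b (Fin.last n)) (b (Fin.last n)) = d := by
    intro d hd0 hd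
    obtain ⟨b, h1, h3, h4⟩ := h.exists_orth_basis' hB.1 h2 hn (c := 1 / 2) (d := d / 2) (by simpa) b₀
      (div_ne_zero hd0 h2) (by rwa [mul_div_cancel₀ _ h2, mul_div_cancel₀ _ h2, one_pow, one_mul])
    refine ⟨b, h1, fun i hi => ?_, (div_left_inj' h2).mp h4⟩
    obtain ⟨j, rfl⟩ := Fin.exists_castSucc_eq.mpr hi
    exact (div_left_inj' h2).mp (h3 j)
  by_cases hs : IsSquare (H11.gram B b₀).det
  · obtain ⟨b, h1, h3, h4⟩ := key 1 one_ne_zero (by simpa)
    exact ⟨b, h1, h3, Or.inl h4⟩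
  · obtain ⟨b, h1, h3, h4⟩ := key α hα0 (H11.isSquare_mul_of_not_isSquare hs hα)
    exact ⟨b, h1, h3, Or.inr h4⟩

end Cfsg.Agent.S0756
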