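import Cfsg.Statements.S0757
import Mathlib
import Cfsg.Agent.H11.ClassifyQ

set_option autoImplicit false
open Cfsg

namespace Cfsg.Agent.S0757

/-- The two diagonal forms Σ x_i^2 and Σ_(i<n) x_i^2 + α x_n^2 on F^(n+1), with α a non-square and 2 ≠ 0 in F, are inequivalent quadratic forms (so over a finite field of odd order there are exactly two classes of non-singular symmetric bilinear forms in each dimension). -/
theorem result {F : Type*} [Field F] (h2 : (2 : F) ≠ 0) (n : ℕ) (α : F) (hα : ¬ IsSquare α) : ¬ (QuadraticMap.weightedSumSquares F (fun _ : Fin (n + 1) => (1 : F))).Equivalent (QuadraticMap.weightedSumSquares F (fun i : Fin (n + 1) => if i = Fin.last n then α else (1 : F))) := by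
  rintro ⟨e⟩
  have key : ∀ w : Fin (n + 1) → F, (H11.gram (QuadraticMap.weightedSumSquares F w).polarBilin
      (Pi.basisFun F (Fin (n + 1)))).det = ∏ i, 2 * w i := by
    intro w
    rw [H11.gram_det_orth]
    · simp [QuadraticMap.polar_self, QuadraticMap.weightedSumSquares_apply, Pi.single_apply]
    · intro i j hij
      simp [QuadraticMap.polar, QuadraticMap.weightedSumSquares_apply, Pi.single_apply, add_mul,
        mul_add, Finset.sum_add_distrib, hij, hij.symm]
  obtain ⟨c, -, hc⟩ := H11.exists_gram_det_eq (QuadraticMap.weightedSumSquares F (fun _ : Fin (n + 1) => (1 : F))).polarBilin (Pi.basisFun F (Fin (n + 1))) ((Pi.basisFun F (Fin (n + 1))).map e.symm.toLinearEquiv)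
  have : H11.gram (QuadraticMap.weightedSumSquares F (fun _ : Fin (n + 1) => (1 : F))).polarBilin
      ((Pi.basisFun F (Fin (n + 1))).map e.symm.toLinearEquiv) = H11.gram (QuadraticMap.weightedSumSquares F (fun i : Fin (n + 1) => if i = Fin.last n then α else (1 : F))).polarBilin (Pi.basisFun F (Fin (n + 1))) := by
    ext i j
    simp only [H11.gram_apply, QuadraticMap.polarBilin_apply_apply, QuadraticMap.polar,
      Module.Basis.map_apply, QuadraticMap.IsometryEquiv.coe_toLinearEquiv, ← map_add,
      QuadraticMap.IsometryEquiv.map_app]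
  rw [this, key, key] at hc
  simp only [Finset.prod_mul_distrib, Finset.prod_ite_eq', Finset.mem_univ, if_true,
    Finset.prod_const_one, RingHom.id_apply] at hc
  refine hα ⟨c, mul_left_cancel₀ (Finset.prod_ne_zero_iff.mpr fun _ _ => h2 : ∏ _i : Fin (n + 1), (2 : F) ≠ 0) ?_⟩
  rw [hc]; ring

end Cfsg.Agent.S0757
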