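import Cfsg.Statements.S0758
import Mathlib
import Cfsg.Agent.H11.ClassifyQ

set_option autoImplicit false
open Cfsg

namespace Cfsg.Agent.S0758

/-- For a finite field F of odd order q and a non-square α: the form x² + y² is isotropic iff q ≡ 1 mod 4, and the form x² + α y² is isotropic iff q ≡ 3 mod 4. -/
theorem result {F : Type*} [Field F] [Fintype F] (h2 : (2 : F) ≠ 0) (α : F) (hα : ¬ IsSquare α) : ((∃ x y : F, (x ≠ 0 ∨ y ≠ 0) ∧ x ^ 2 + y ^ 2 = 0) ↔ Fintype.card F % 4 = 1) ∧ ((∃ x y : F, (x ≠ 0 ∨ y ≠ 0) ∧ x ^ 2 + α * y ^ 2 = 0) ↔ Fintype.card F % 4 = 3) := by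
  have key : ∀ a : F, a ≠ 0 → ((∃ x y : F, (x ≠ 0 ∨ y ≠ 0) ∧ x ^ 2 + a * y ^ 2 = 0) ↔ IsSquare (-1 * a)) := by
    intro a ha
    constructor
    · rintro ⟨x, y, hne, hxy⟩
      have hy : y ≠ 0 := by
        rintro rfl
        simp at hxy hne
        exact hne hxy
      exact ⟨x / y, by field_simp; linear_combination -hxy⟩
    · rintro ⟨r, hr⟩
      exact ⟨r, 1, Or.inr one_ne_zero, by linear_combination -hr⟩
  have hα0 : α ≠ 0 := by rintro rfl; simp at hα
  have hodd := FiniteField.odd_card_of_char_ne_two (H11.ringChar_ne_two_of h2)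
  have h1 := H11.isSquare_neg_one_pow_iff h2 1
  rw [pow_one, pow_one] at h1
  refine ⟨by simpa [h1] using key 1 one_ne_zero, ?_⟩
  rw [key α hα0]
  constructor
  · intro hs
    by_contra h3
    exact hα ((H11.isSquare_mul_iff_of_isSquare (by simp) (h1.mpr (by omega))).mp hs)
  · intro h3
    exact H11.isSquare_mul_of_not_isSquare (by rw [h1]; omega) hα

end Cfsg.Agent.S0758
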