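import Cfsg.Statements.S0759
import Mathlib
import Cfsg.Agent.H11.ClassifyQ

set_option autoImplicit false
open Cfsg

namespace Cfsg.Agent.S0759

/-- Type of the orthonormal form: over a finite field of odd order q and for m ≥ 1, the quadratic form Σ_(i<2m) x_i² on F^(2m) admits an m-dimensional subspace on which it vanishes identically if and only if it is not the case that q ≡ 3 (mod 4) and m is odd. -/
theorem result {F : Type*} [Field F] [Fintype F] (h2 : (2 : F) ≠ 0) (m : ℕ) (hm : 1 ≤ m) : (∃ W : Submodule F (Fin (2 * m) → F), Module.finrank F W = m ∧ ∀ w ∈ W, ∑ i, w i ^ 2 = 0) ↔ ¬ (Fintype.card F % 4 = 3 ∧ Odd m) := by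
  let B : (Fin (2 * m) → F) →ₗ[F] (Fin (2 * m) → F) →ₗ[F] F := (2 : F) • dotProductBilin F F
  have hB : ∀ x y, B x y = 2 * ∑ i, x i * y i := fun x y => by simp [B, dotProduct]
  have h : H11.IsQuad B (fun w => ∑ i, w i ^ 2) := H11.IsQuad.of_add_smul
    (fun x y => by
      simp only [hB, Pi.add_apply, Finset.mul_sum, ← Finset.sum_add_distrib]
      exact Finset.sum_congr rfl fun i _ => by ring)
    (fun c x => by
      simp only [Pi.smul_apply, smul_eq_mul, Finset.mul_sum]
      exact Finset.sum_congr rfl fun i _ => by ring)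
  have hs : B.SeparatingLeft := fun x hx => funext fun i => by
    simpa [hB, Pi.single_apply, h2] using hx (Pi.single i 1)
  have h1 := h.wittIdx_iff_disc hs h2 (m := m) (by simp) (Pi.basisFun F _)
  rw [H11.gram_det_orth _ _ (fun i j hij => by simp [hB, Pi.single_apply, hij, hij.symm])] at h1
  simp only [hB, Pi.basisFun_apply, Pi.single_apply, mul_ite, mul_one, mul_zero, Finset.sum_ite_eq',
    Finset.mem_univ, if_true, Finset.prod_const, Finset.card_univ, Fintype.card_fin] at h1
  rw [mul_comm _ ((2 : F) ^ _), H11.isSquare_mul_iff_of_isSquare (pow_ne_zero _ h2) ⟨2 ^ m, by ring⟩,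
    H11.isSquare_neg_one_pow_iff h2] at h1
  have hodd := FiniteField.odd_card_of_char_ne_two (H11.ringChar_ne_two_of h2)
  have h3 : Fintype.card F ^ m % 4 = 1 ↔ ¬ (Fintype.card F % 4 = 3 ∧ Odd m) := by
    rcases (by omega : Fintype.card F % 4 = 1 ∨ Fintype.card F % 4 = 3) with h4 | h4
    · simp [Nat.pow_mod, h4]
    · rcases Nat.even_or_odd' m with ⟨k, rfl | rfl⟩
      · rw [pow_mul, Nat.pow_mod, Nat.pow_mod _ 2, h4]; simp
      · rw [pow_succ, pow_mul, Nat.mul_mod, Nat.pow_mod, Nat.pow_mod _ 2, h4]; simp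
  rw [← h3, ← h1]
  constructor
  · rintro ⟨W, hW, hW0⟩
    have := h.wittIdx_of_totSing hs (h.totSing_iff.mpr hW0) (by simp [hW])
    rwa [hW] at this
  · rintro ⟨W, hW, hWm⟩
    exact ⟨W, hWm, hW.1.1⟩

end Cfsg.Agent.S0759
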