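import Cfsg.Statements.S0761
import Mathlib
import Cfsg.Agent.H11.Perp

set_option autoImplicit false
open Cfsg

namespace Cfsg.Agent.S0761

/-- Hyperbolic partners: let B be a non-degenerate bilinear form on a finite-dimensional space, either alternating, or symmetric with 2 ≠ 0. If Z is a subspace on which B vanishes, x ∉ Z is isotropic and orthogonal to Z, then there is an isotropic y with B x y = 1 which is orthogonal to Z. -/
theorem result {F V : Type*} [Field F] [AddCommGroup V] [Module F V] [FiniteDimensional F V] (B : LinearMap.BilinForm F V) (hB : B.Nondegenerate) (hform : B.IsAlt ∨ (B.IsSymm ∧ (2 : F) ≠ 0)) (x : V) (Z : Submodule F V) (hxZ : x ∉ Z) (hx : B x x = 0) (hxz : ∀ z ∈ Z, B x z = 0) (hZ : ∀ z ∈ Z, ∀ z' ∈ Z, B z z' = 0) : ∃ y : V, B y y = 0 ∧ B x y = 1 ∧ ∀ z ∈ Z, B z y = 0 := by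
  rcases hform with hA | ⟨hS, h2⟩
  · have h := H11.isForm_alt hA
    obtain ⟨f, -, hf, hf'⟩ := h.exists_partner_perp hB.1 (e := x) rfl hxZ
      (fun z hz => h.refl (hxz z hz))
    exact ⟨f, hA.self_eq_zero f, hf, hf'⟩
  · have h : H11.IsForm (σ := RingHom.id F) 1 2 (AddMonoidHom.id F) B (fun x => B x x / 2) :=
      { invol := fun _ => rfl
        symm := fun x y => by simpa using hS.eq y x
        add := fun x y => by
          have := hS.eq y x
          simp only [map_add, LinearMap.add_apply, AddMonoidHom.id_apply] at this ⊢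
          rw [this]; field_simp; ring
        smul := fun c x => by simp; ring
        diag := fun x => by field_simp
        tv := fun x => ⟨_, rfl⟩ }
    obtain ⟨f, hf0, hf, hf'⟩ := h.exists_partner_perp hB.1 (e := x) (by simp [hx]) hxZ
      (fun z hz => h.refl (hxz z hz))
    exact ⟨f, by simpa [h2] using hf0, hf, hf'⟩

end Cfsg.Agent.S0761
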