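import Cfsg.Statements.S0763
import Mathlib
import Cfsg.Agent.H11.ClassifyQ

set_option autoImplicit false
open Cfsg

namespace Cfsg.Agent.S0763

/-- Binary quadratic forms in characteristic two over a finite field: if Q is a quadratic form on a 2-dimensional space whose polar form is non-degenerate, then either there are vectors v, w with Q v = Q w = 0 and polar value 1 (Q is xy in these coordinates), or there are v, w and μ with Q v = 1, Q w = μ, polar value 1 and x² + x + μ without roots in F (Q is x² + xy + μy²). -/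
theorem result {F V : Type*} [Field F] [Finite F] [CharP F 2] [AddCommGroup V] [Module F V] (Q : QuadraticForm F V) (h2 : Module.finrank F V = 2) (hQ : (QuadraticMap.polarBilin Q).Nondegenerate) : (∃ v w : V, LinearIndependent F ![v, w] ∧ Q v = 0 ∧ Q w = 0 ∧ QuadraticMap.polar Q v w = 1) ∨ (∃ (v w : V) (μ : F), LinearIndependent F ![v, w] ∧ (∀ x : F, x ^ 2 + x + μ ≠ 0) ∧ Q v = 1 ∧ Q w = μ ∧ QuadraticMap.polar Q v w = 1) := by
  have h : H11.IsQuad Q.polarBilin Q := H11.isForm_quad Q
  by_cases hs : ∃ v, v ≠ 0 ∧ Q v = 0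
  · obtain ⟨v, hv0, hv⟩ := hs
    obtain ⟨w, hw, hvw⟩ := h.exists_partner hQ.1 hv hv0
    exact Or.inl ⟨v, w, h.linearIndependent_pair hv (by rw [hvw]; simp), hv, hw, hvw⟩
  · push Not at hs
    obtain ⟨x, -, y, -, hli, hx, hxy, hy⟩ := h.exists_aniso_pair (H11.nondegOn_top hQ.1) (by simpa)
      (fun x _ hx => by_contra fun h0 => hs x h0 hx)
    exact Or.inr ⟨x, y, Q y, hli, hy, hx, rfl, hxy⟩

end Cfsg.Agent.S0763
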