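import Cfsg.Statements.S0766
import Mathlib
import Cfsg.Agent.S0765
import Cfsg.Agent.H10.Sp

set_option autoImplicit false
open Cfsg

namespace Cfsg.Agent.S0766

/-- The subgroup generated by the symplectic transvections acts transitively on ordered pairs (u, v) with f(u, v) = 1. -/
theorem result {F : Type*} [Field F] (m : ℕ) (u v u' v' : Fin m ⊕ Fin m → F) (h : Cfsg.sympForm m F u v = 1) (h' : Cfsg.sympForm m F u' v' = 1) : ∃ A ∈ Subgroup.closure {A : Matrix.symplecticGroup (Fin m) F | ∃ (w : Fin m ⊕ Fin m → F) (c : F), (A : Matrix (Fin m ⊕ Fin m) (Fin m ⊕ Fin m) F) = Cfsg.sympTransvection m w c}, (A : Matrix (Fin m ⊕ Fin m) (Fin m ⊕ Fin m) F).mulVec u = u' ∧ (A : Matrix (Fin m ⊕ Fin m) (Fin m ⊕ Fin m) F).mulVec v = v' := by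
  rw [S0765.result]
  rw [H10.sympForm_eq_spBilin] at h h'
  obtain ⟨g, hg1, hg2⟩ := H10.exists_isom_pair H10.spBilin_nondegenerate H10.spBilin_isAlt
    (H10.linearIndependent_pair_of_ne_zero H10.spBilin_isAlt (h ▸ one_ne_zero))
    (H10.linearIndependent_pair_of_ne_zero H10.spBilin_isAlt (h' ▸ one_ne_zero)) (h'.trans h.symm)
  exact ⟨H10.spEquiv.symm g, trivial, by rw [H10.spEquiv_symm_mulVec, hg1],
    by rw [H10.spEquiv_symm_mulVec, hg2]⟩

end Cfsg.Agent.S0766
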