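import Cfsg.Statements.S0767
import Mathlib
import Cfsg.Agent.H10.Sp

set_option autoImplicit false
open Cfsg

namespace Cfsg.Agent.S0767

/-- The root group of a point: T_v(c) T_v(d) = T_v(c + d), and for A in the symplectic group with A v = a v, the conjugate A T_v(c) A⁻¹ is again some T_v(d). -/
theorem result {F : Type*} [Field F] (m : ℕ) (v : Fin m ⊕ Fin m → F) : (∀ c d : F, Cfsg.sympTransvection m v c * Cfsg.sympTransvection m v d = Cfsg.sympTransvection m v (c + d)) ∧ ∀ (A : Matrix (Fin m ⊕ Fin m) (Fin m ⊕ Fin m) F) (a : F), A ∈ Matrix.symplecticGroup (Fin m) F → A.mulVec v = a • v → ∀ c : F, ∃ d : F, A * Cfsg.sympTransvection m v c * A⁻¹ = Cfsg.sympTransvection m v d := by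
  constructor
  · intro c d
    rw [← H10.spEquiv_symm_tv, ← H10.spEquiv_symm_tv, ← H10.spEquiv_symm_tv, H10.tv_add, map_mul]
    rfl
  · intro A a hA hv c
    refine ⟨a ^ 2 * c, ?_⟩
    have h := H10.tv_conj H10.spBilin_isAlt (H10.spEquiv ⟨A, hA⟩) v c
    rw [H10.spEquiv_apply, hv, H10.tv_smul] at h
    rw [← H10.spEquiv_symm_tv, ← H10.spEquiv_symm_tv, ← h, map_mul, map_mul, map_inv,
      MulEquiv.symm_apply_apply, Submonoid.coe_mul, Submonoid.coe_mul, SymplecticGroup.coe_inv']

end Cfsg.Agent.S0767
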