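import Cfsg.Statements.S0768
import Mathlib
import Cfsg.Agent.H10.Sp

set_option autoImplicit false
open scoped LinearAlgebra.Projectivization
open Cfsg

namespace Cfsg.Agent.S0768

/-- Primitivity: for m ≥ 1 and F finite, the symplectic group of the form sympForm (as a subgroup of the general linear group) acts primitively on the projective space of F^(2m). -/
theorem result {F : Type*} [Field F] [Finite F] (m : ℕ) (hm : 1 ≤ m) : MulAction.IsPreprimitive ↥(Cfsg.spGL m F) (ℙ F (Fin m ⊕ Fin m → F)) := by
  have h := H10.isom_isPreprimitive_proj (H10.spBilin_nondegenerate (l := Fin m) (F := F))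
    H10.spBilin_isAlt
  let φ : H10.isomGroup (H10.spBilin (Fin m) F) → Cfsg.spGL m F := fun g =>
    ⟨⟨(H10.spEquiv.symm g).1, (H10.spEquiv.symm g)⁻¹.1, H10.sp_mul_inv _, H10.sp_inv_mul _⟩,
      fun u v => by
        rw [H10.sympForm_eq_spBilin, H10.sympForm_eq_spBilin]
        exact H10.mem_symplecticGroup_iff_form.1 (H10.spEquiv.symm g).2 u v⟩
  let f : ℙ F (Fin m ⊕ Fin m → F) →ₑ[φ] ℙ F (Fin m ⊕ Fin m → F) :=
    { toFun := id
      map_smul' := fun g p => by
        induction p using Projectivization.ind with | _ v hv =>
        change Projectivization.mk F (g.1 v) _ = Projectivization.mk F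
          (((H10.spEquiv.symm g).1).mulVec v) _
        simp only [H10.spEquiv_symm_mulVec] }
  exact MulAction.IsPreprimitive.of_surjective (f := f) Function.surjective_id

end Cfsg.Agent.S0768
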