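import Cfsg.Statements.S0769
import Mathlib
import Cfsg.Agent.H10.Geo1
import Cfsg.Agent.H10.AutPSL

set_option autoImplicit false
open Cfsg

namespace Cfsg.Agent.S0769

/-- Order of the Borel subgroup of GL_n(q): the invertible lower-triangular n × n matrices over a field with q elements number q^(n(n-1)/2) (q-1)^n (unitriangular part times the diagonal torus). -/
theorem result {F : Type*} [Field F] [Fintype F] {q : ℕ} (hF : Fintype.card F = q) (n : ℕ) : Nat.card {g : Matrix.GeneralLinearGroup (Fin n) F // ∀ i j : Fin n, i < j → (g : Matrix (Fin n) (Fin n) F) i j = 0} = q ^ (n * (n - 1) / 2) * (q - 1) ^ n := by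
  classical
  let U : Fin n → Submodule F (Fin n → F) := fun j => H10.coordSub F n (j + 1)
  have hU : Monotone U := fun i j hij => H10.coordSub_mono (by simpa using hij)
  let T : Matrix.GeneralLinearGroup (Fin n) F ≃ Matrix.GeneralLinearGroup (Fin n) F :=
    (Equiv.inv _).trans H10.glInvT.toEquiv
  have e := ((T.trans (Matrix.equiv_GL_linearindependent (𝔽 := F) n)).subtypeEquiv
    (p := fun g : Matrix.GeneralLinearGroup (Fin n) F => ∀ i j : Fin n, i < j → (g : Matrix (Fin n) (Fin n) F) i j = 0)
    (q := fun s => ∀ j, s.1 j ∈ U j) (fun g => Iff.rfl)).trans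
    (Equiv.subtypeSubtypeEquivSubtypeInter _ (fun s : Fin n → Fin n → F => ∀ j, s j ∈ U j))
  rw [Nat.card_congr e, H10.card_frames U hU, Nat.card_eq_fintype_card, hF,
    ← H10.prod_pow_succ_sub]
  refine Finset.prod_congr rfl fun i _ => ?_
  simp only [U]
  rw [H10.finrank_coordSub (by omega)]

end Cfsg.Agent.S0769
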