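import Cfsg.Statements.S0770
import Mathlib

set_option autoImplicit false
open Cfsg

namespace Cfsg.Agent.S0770

/-- For a field with at least 3 elements, an invertible matrix normalises the subgroup of invertible diagonal matrices of GL_n if and only if it is monomial (exactly one non-zero entry in each row). -/
theorem result {F : Type*} [Field F] (hF : ∃ a : F, a ≠ 0 ∧ a ≠ 1) (n : ℕ) (g : Matrix.GeneralLinearGroup (Fin n) F) : g ∈ Subgroup.normalizer ((Units.map (Matrix.diagonalRingHom (Fin n) F).toMonoidHom).range : Subgroup (Matrix.GeneralLinearGroup (Fin n) F)) ↔ ∀ i : Fin n, ∃! j : Fin n, (g : Matrix (Fin n) (Fin n) F) i j ≠ 0 := by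
  classical
  have hdet : (g : Matrix (Fin n) (Fin n) F).det ≠ 0 := g.det_ne_zero
  have key : ∀ d d' : (Fin n → F)ˣ,
      g * Units.map (Matrix.diagonalRingHom (Fin n) F).toMonoidHom d * g⁻¹ =
        Units.map (Matrix.diagonalRingHom (Fin n) F).toMonoidHom d' ↔
      ∀ i j, g.1 i j * d.1 j = d'.1 i * g.1 i j := fun d d' => by
    rw [mul_inv_eq_iff_eq_mul, Units.ext_iff, ← Matrix.ext_iff]
    simp [Matrix.mul_diagonal, Matrix.diagonal_mul]
  rw [Subgroup.mem_normalizer_iff]
  constructor
  · intro h i
    obtain ⟨a, ha0, ha1⟩ := hF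
    obtain ⟨j, hj⟩ : ∃ j, g.1 i j ≠ 0 := by
      by_contra hc
      push Not at hc
      exact hdet (Matrix.det_eq_zero_of_row_eq_zero i hc)
    refine ⟨j, hj, fun l hl => ?_⟩
    by_contra hlj
    obtain ⟨d', hd'⟩ := (h _).mp ⟨(MulEquiv.piUnits (M := fun _ => F)).symm
      (Function.update 1 j (Units.mk0 a ha0)), rfl⟩
    have h1 := (key _ _).mp hd'.symm i j
    have h2 := (key _ _).mp hd'.symm i l
    simp [hlj] at h1 h2
    apply ha1
    have h3 : d'.1 i = 1 := mul_right_cancel₀ hl (by rw [← h2, one_mul])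
    rw [h3, one_mul] at h1
    exact mul_left_cancel₀ hj (by rw [h1, mul_one])
  · intro h
    choose π hπ hπ' using h
    have hs : Function.Surjective π := fun j => by
      by_contra hc
      push Not at hc
      exact hdet (Matrix.det_eq_zero_of_column_eq_zero j fun i => by
        by_contra hij; exact hc i (hπ' i j hij).symm)
    let e := Equiv.ofBijective π ⟨Finite.injective_iff_surjective.mpr hs, hs⟩
    have k2 : ∀ d : Fin n → Fˣ,
      g * Units.map (Matrix.diagonalRingHom (Fin n) F).toMonoidHom
        ((MulEquiv.piUnits (M := fun _ => F)).symm d) * g⁻¹ =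
        Units.map (Matrix.diagonalRingHom (Fin n) F).toMonoidHom
        ((MulEquiv.piUnits (M := fun _ => F)).symm (d ∘ π)) := fun d => by
      rw [key]
      intro i j
      by_cases hij : g.1 i j = 0
      · simp [hij]
      · rw [hπ' i j hij, mul_comm]; rfl
    intro x
    constructor
    · rintro ⟨d, rfl⟩
      obtain ⟨d, rfl⟩ := (MulEquiv.piUnits (M := fun _ => F)).symm.surjective d
      exact ⟨_, (k2 d).symm⟩
    · rintro ⟨d, hd⟩
      obtain ⟨d, rfl⟩ := (MulEquiv.piUnits (M := fun _ => F)).symm.surjective d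
      refine ⟨(MulEquiv.piUnits (M := fun _ => F)).symm (d ∘ e.symm), ?_⟩
      have := k2 (d ∘ e.symm)
      have h2 : (d ∘ e.symm) ∘ π = d := funext fun i => congrArg d (e.symm_apply_apply i)
      rw [h2, hd] at this
      simpa using this

end Cfsg.Agent.S0770
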