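import Cfsg.Statements.S0771
import Mathlib
import Cfsg.Agent.H10.Geo1

set_option autoImplicit false
open Cfsg

namespace Cfsg.Agent.S0771

/-- Maximal parabolic of GL_n(q): the stabiliser of the coordinate subspace spanned by the first k basis vectors has order q^(k(n-k)) · |GL_k(q)| · |GL_(n-k)(q)| (unipotent radical of order q^(k(n-k)) and Levi complement GL_k × GL_(n-k)). -/
theorem result {F : Type*} [Field F] [Fintype F] {q : ℕ} (hF : Fintype.card F = q) (n k : ℕ) (hk : k ≤ n) : Nat.card ↥(Cfsg.stabilizing (Cfsg.glToMat (Fin n) F) {v : Fin n → F | ∀ i : Fin n, k ≤ (i : ℕ) → v i = 0}) = q ^ (k * (n - k)) * (∏ i : Fin k, (q ^ k - q ^ (i : ℕ))) * ∏ i : Fin (n - k), (q ^ (n - k) - q ^ (i : ℕ)) := by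
  classical
  let U : Fin n → Submodule F (Fin n → F) := fun j => if (j : ℕ) < k then H10.coordSub F n k else ⊤
  have hU : Monotone U := fun i j hij => by
    simp only [U]
    split_ifs with h1 h2 h2
    · exact le_rfl
    · exact le_top
    · exact absurd (lt_of_le_of_lt (Fin.le_def.mp hij) h2) h1
    · exact le_rfl
  have key : ∀ g : Matrix.GeneralLinearGroup (Fin n) F,
      g ∈ Cfsg.stabilizing (Cfsg.glToMat (Fin n) F)
        {v : Fin n → F | ∀ i : Fin n, k ≤ (i : ℕ) → v i = 0} ↔
      LinearIndependent F (Matrix.equiv_GL_linearindependent n g).1 ∧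
        ∀ j, (Matrix.equiv_GL_linearindependent n g).1 j ∈ U j := fun g => by
    have h1 : ∀ j, (Matrix.equiv_GL_linearindependent n g).1 j =
      H11.glEquiv (Fin n) F g (Pi.single j 1) := fun j => by
      rw [H11.glEquiv_apply, Matrix.mulVec_single_one]; rfl
    simp only [h1]
    constructor
    · intro h
      refine ⟨by simpa only [← h1] using (Matrix.equiv_GL_linearindependent n g).2, fun j => ?_⟩
      simp only [U]
      split_ifs with hj
      · exact (h _).mp (H10.single_mem_coordSub hj 1)
      · trivial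
    · rintro ⟨-, h⟩
      refine H10.mem_stabS_of_le (W := H10.coordSub F n k) (g := H11.glEquiv (Fin n) F g)
        fun v hv => ?_
      refine H10.coordSub_induction (φ := (H11.glEquiv (Fin n) F g).toLinearMap) (fun j hj => ?_) hv
      have := h j
      simp only [U, if_pos hj] at this
      exact this
  have e := ((Matrix.equiv_GL_linearindependent (𝔽 := F) n).subtypeEquiv
    (q := fun s => ∀ j, s.1 j ∈ U j) (fun g => (key g).trans
      (and_iff_right (Matrix.equiv_GL_linearindependent n g).2))).trans
    (Equiv.subtypeSubtypeEquivSubtypeInter _ (fun s : Fin n → Fin n → F => ∀ j, s j ∈ U j))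
  rw [Nat.card_congr e, H10.card_frames U hU, Nat.card_eq_fintype_card, hF]
  obtain ⟨r, rfl⟩ := Nat.exists_eq_add_of_le hk
  rw [Fin.prod_univ_add, Nat.add_sub_cancel_left, mul_comm (q ^ _), mul_assoc]
  congr 1
  · refine Finset.prod_congr rfl fun i _ => ?_
    have : U (Fin.castAdd r i) = H10.coordSub F (k + r) k := if_pos i.2
    rw [this, H10.finrank_coordSub hk]; rfl
  · rw [pow_mul, ← Fin.prod_const, ← Finset.prod_mul_distrib]
    refine Finset.prod_congr rfl fun i _ => ?_
    have : U (Fin.natAdd k i) = ⊤ := if_neg (by simp)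
    rw [this]
    simp [Nat.mul_sub, pow_add]

end Cfsg.Agent.S0771
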