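import Cfsg.Statements.S0773
import Mathlib
import Cfsg.Agent.H10.Geo1
import Cfsg.Agent.H10.AutPSL

set_option autoImplicit false
open Cfsg

namespace Cfsg.Agent.S0773

theorem mem_iff {F : Type*} [Field F] {n k : ℕ} (g : Matrix.GeneralLinearGroup (Fin n) F) :
    g ∈ Cfsg.stabilizing (Cfsg.glToMat (Fin n) F)
      {v : Fin n → F | ∀ i : Fin n, k ≤ (i : ℕ) → v i = 0} ↔
    ∀ i j : Fin n, (j : ℕ) < k → k ≤ (i : ℕ) → g.1 i j = 0 := by
  constructor
  · intro h i j hj hi
    have := (h _).mp (H10.single_mem_coordSub hj 1) i hi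
    simpa using this
  · intro h
    refine H10.mem_stabS_of_le (W := H10.coordSub F n k) (g := H11.glEquiv (Fin n) F g)
      fun v hv => ?_
    refine H10.coordSub_induction (φ := (H11.glEquiv (Fin n) F g).toLinearMap) (fun j hj => ?_) hv
    intro i hi
    simpa using h i j hj hi


/-- The stabilisers in GL_n(F), F finite, of the coordinate subspaces of dimensions k and n − k are isomorphic groups, but when 2k ≠ n (and 0 < k < n) no element of GL_n conjugates one onto the other. -/
theorem result {F : Type*} [Field F] [Finite F] (n k : ℕ) (hk0 : 0 < k) (hkn : k < n) (h2 : 2 * k ≠ n) : Nonempty (↥(Cfsg.stabilizing (Cfsg.glToMat (Fin n) F) {v : Fin n → F | ∀ i : Fin n, k ≤ (i : ℕ) → v i = 0}) ≃* ↥(Cfsg.stabilizing (Cfsg.glToMat (Fin n) F) {v : Fin n → F | ∀ i : Fin n, n - k ≤ (i : ℕ) → v i = 0})) ∧ ∀ g : Matrix.GeneralLinearGroup (Fin n) F, (Cfsg.stabilizing (Cfsg.glToMat (Fin n) F) {v : Fin n → F | ∀ i : Fin n, k ≤ (i : ℕ) → v i = 0}).map (MulAut.conj g).toMonoidHom ≠ Cfsg.stabilizing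 (Cfsg.glToMat (Fin n) F) {v : Fin n → F | ∀ i : Fin n, n - k ≤ (i : ℕ) → v i = 0} := by
  constructor
  · let e : Matrix.GeneralLinearGroup (Fin n) F ≃* Matrix.GeneralLinearGroup (Fin n) F :=
      H10.glInvT.trans (Units.mapEquiv (Matrix.reindexAlgEquiv F F Fin.revPerm).toMulEquiv)
    refine ⟨(MulEquiv.subgroupCongr ?_).trans (H10.comapEquiv e _)⟩
    ext g
    rw [← inv_mem_iff, Subgroup.mem_comap, mem_iff, mem_iff]
    have he : ∀ i j, (e.toMonoidHom g).1 i j = (g⁻¹).1 j.rev i.rev := fun i j => rfl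
    simp only [he]
    constructor
    · intro h i j hj hi
      exact h _ _ (by rw [Fin.val_rev]; omega) (by rw [Fin.val_rev]; omega)
    · intro h i j hj hi
      have := h j.rev i.rev (by rw [Fin.val_rev]; omega) (by rw [Fin.val_rev]; omega)
      simpa using this
  · intro g hg
    let γ := H11.glEquiv (Fin n) F g
    have hd : Module.finrank F ((H10.coordSub F n k).map γ.toLinearMap) = k := by
      rw [LinearEquiv.finrank_map_eq, H10.finrank_coordSub hkn.le]
    have := H10.stabS_invariant (W := H10.coordSub F n (n - k))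
      (S := (H10.coordSub F n k).map γ.toLinearMap) (fun x hx _ => by
        obtain ⟨x, rfl⟩ := (H11.glEquiv (Fin n) F).surjective x
        have hx' : x ∈ Cfsg.stabilizing (Cfsg.glToMat (Fin n) F)
          {v : Fin n → F | ∀ i : Fin n, n - k ≤ (i : ℕ) → v i = 0} := hx
        rw [← hg] at hx'
        obtain ⟨y, hy, rfl⟩ := hx'
        rintro _ ⟨s, hs, rfl⟩
        refine ⟨H11.glEquiv (Fin n) F y s, (hy s).mp hs, ?_⟩
        change γ (H11.glEquiv (Fin n) F y s) = H11.glEquiv (Fin n) F (g * y * g⁻¹) (γ s)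
        rw [map_mul, map_mul, map_inv, LinearEquiv.mul_apply, LinearEquiv.mul_apply,
          LinearEquiv.coe_inv, LinearEquiv.symm_apply_apply])
      (fun hc => by rw [hc] at hd; simp at hd; omega)
    rcases this with h | h
    · rw [h, H10.finrank_coordSub (by omega)] at hd; omega
    · rw [h] at hd; simp at hd; omega

end Cfsg.Agent.S0773
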