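import Cfsg.Statements.S0774
import Mathlib
import Cfsg.Agent.H10.Geo1

set_option autoImplicit false
open Cfsg

namespace Cfsg.Agent.S0774

/-- Borel subgroup of the symplectic group: the elements of Sp_2m(q) stabilising each of the totally isotropic coordinate subspaces ⟨e_0, ..., e_k⟩ (k < m) form a subgroup of order q^(m²) (q − 1)^m. -/
theorem result {F : Type*} [Field F] [Fintype F] {q : ℕ} (hF : Fintype.card F = q) (m : ℕ) : Nat.card ↥(⨅ k : Fin m, Cfsg.stabilizing (Cfsg.spToMat m F) {v : Fin m ⊕ Fin m → F | (∀ i : Fin m, (k : ℕ) < (i : ℕ) → v (Sum.inl i) = 0) ∧ ∀ i : Fin m, v (Sum.inr i) = 0}) = q ^ (m ^ 2) * (q - 1) ^ m := by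
  classical
  have h := H11.isForm_alt (H10.spBilin_isAlt (l := Fin m) (F := F))
  have hB := (H10.spBilin_nondegenerate (l := Fin m) (F := F)).1
  let E : (Fin m → F) →ₗ[F] (Fin m ⊕ Fin m → F) :=
    (LinearEquiv.sumArrowLequivProdArrow (Fin m) (Fin m) F F).symm.toLinearMap ∘ₗ LinearMap.inl F _ _
  have hE : Function.Injective E :=
    (LinearEquiv.sumArrowLequivProdArrow (Fin m) (Fin m) F F).symm.injective.comp
      LinearMap.inl_injective
  let U : Fin m → Submodule F (Fin m ⊕ Fin m → F) := fun k => (H10.coordSub F m (k + 1)).map E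
  have hU : Monotone U := fun i j hij =>
    Submodule.map_mono (H10.coordSub_mono (by simpa using hij))
  have hUs : ∀ k : Fin m, {v : Fin m ⊕ Fin m → F | (∀ i : Fin m, (k : ℕ) < (i : ℕ) →
      v (Sum.inl i) = 0) ∧ ∀ i : Fin m, v (Sum.inr i) = 0} = U k := fun k => by
    ext v
    constructor
    · rintro ⟨h1, h2⟩
      exact ⟨fun i => v (Sum.inl i), h1, funext fun i => by rcases i with i | i; rfl; exact (h2 i).symm⟩
    · rintro ⟨w, hw, rfl⟩
      exact ⟨hw, fun _ => rfl⟩
  have hEE : ∀ x y, H10.spBilin (Fin m) F (E x) (E y) = 0 := fun x y => by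
    rw [H10.spBilin_apply_sum]; simp [E]
  let e : Fin m → (Fin m ⊕ Fin m → F) := fun i => E (Pi.single i 1)
  have he : LinearIndependent F e := by
    have := (Pi.basisFun F (Fin m)).linearIndependent.map' E (LinearMap.ker_eq_bot.mpr hE)
    have h2 : E ∘ Pi.basisFun F (Fin m) = e := funext fun i => by simp [e]
    rwa [h2] at this
  have heU : ∀ i, e i ∈ U i := fun i => ⟨_, H10.single_mem_coordSub (by simp) 1, rfl⟩
  obtain ⟨f, hs⟩ := h.exists_hypSys hB he (fun _ => rfl) (fun i j => hEE _ _)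
  let P : Subgroup (H11.Isom (σ := RingHom.id F) (H10.spBilin (Fin m) F) (fun _ => 0)) :=
    ⨅ k, H11.stabSub _ _ (U k)
  have hP : ∀ g : H11.Isom (σ := RingHom.id F) (H10.spBilin (Fin m) F) (fun _ => 0),
      g ∈ P ↔ ∀ i, g.1 (e i) ∈ U i := fun g => by
    rw [Subgroup.mem_iInf]
    refine ⟨fun hg i => (H11.mem_stabSub_iff.mp (hg i) _).mp (heU i), fun hg k => ?_⟩
    refine H10.map_eq_of_le ?_
    rintro _ ⟨w, hw, rfl⟩
    exact H10.coordSub_induction (φ := g.1.toLinearMap ∘ₗ E)
      (fun j hj => hU (show j ≤ k from Nat.lt_succ_iff.mp hj) (hg j)) hw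
  have h1 : Nat.card P = Nat.card {s : Fin m → (Fin m ⊕ Fin m → F) //
      LinearIndependent F s ∧ ∀ i, s i ∈ U i} *
      Nat.card ((H11.fixSub _ _ (Submodule.span F (Set.range e))).subgroupOf P) := by
    refine H11.card_eq_mul_of_fibers _ (fun g => ⟨fun i => g.1.1 (e i),
      he.map' g.1.1.toLinearMap g.1.1.ker, (hP _).mp g.2⟩) (fun a b => ?_) fun s => ?_
    · rw [Subgroup.mem_subgroupOf, H11.mem_fixSub_span, Subtype.ext_iff, funext_iff]
      simp only [Set.forall_mem_range]
      refine forall_congr' fun i => ?_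
      change _ ↔ a.1.1.symm (b.1.1 (e i)) = e i
      rw [LinearEquiv.symm_apply_eq, eq_comm]
    · obtain ⟨g, hg, hg'⟩ := h.witt_family hB e s.1 he s.2.1 (fun i j => by
        obtain ⟨x, -, hx⟩ := s.2.2 i
        obtain ⟨y, -, hy⟩ := s.2.2 j
        rw [← hx, ← hy, hEE, hEE]) (fun _ => rfl)
      exact ⟨⟨⟨g, hg⟩, (hP _).mpr fun i => by rw [hg']; exact s.2.2 i⟩,
        Subtype.ext (funext hg')⟩
  have h2 : H11.fixSub _ _ (Submodule.span F (Set.range e)) ≤ P := fun g hg =>
    (hP _).mpr fun i => by rw [H11.mem_fixSub_span.mp hg _ ⟨i, rfl⟩]; exact heU i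
  have hd := hs.finrank_perp h hB
  rw [H10.finrank_sp_space, Fintype.card_fin] at hd
  obtain ⟨e2⟩ := H10.nonempty_isom_restrict H10.spBilin_isAlt
    (h.nondegOn_perp hB (hs.nondegOn h)) (k := 0) (by omega)
  have h3 : Nat.card (0 : F →+ F).ker = q := by
    rw [← hF, ← Nat.card_eq_fintype_card, AddMonoidHom.ker_zero]; simp
  rw [Nat.card_congr (Subgroup.subgroupOfEquivOfLe h2).toEquiv, h.card_fixSub_hypSys hB hs,
    ← Nat.card_congr e2.toEquiv, H10.card_sp, H10.finrank_sp_space, H10.card_frames U hU, h3,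
    Nat.card_eq_fintype_card (α := F), hF] at h1
  simp only [hUs, H10.stabilizing_sp_eq]
  rw [← Subgroup.comap_iInf, Nat.card_congr (H10.comapEquiv _ _).toEquiv, h1,
    Finset.prod_congr rfl (g := fun i : Fin m => q ^ ((i : ℕ) + 1) - q ^ (i : ℕ)) fun i _ => by
      simp only [U]
      rw [← (Submodule.equivMapOfInjective E hE _).finrank_eq, H10.finrank_coordSub (by omega)],
    H10.prod_pow_succ_sub]
  have h4 : m ^ 2 = m * (m - 1) / 2 + (m + m * (m - 1) / 2) := by
    have := Nat.two_mul_div_two_of_even (Nat.even_mul_pred_self m)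
    rcases m with _ | m
    · rfl
    · simp only [Nat.add_sub_cancel] at this ⊢
      nlinarith
  rw [h4]
  simp only [Fintype.card_fin, Nat.sub_self, mul_zero, zero_add, Finset.range_zero,
    Finset.prod_empty]
  ring

end Cfsg.Agent.S0774
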