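import Cfsg.Statements.S0776
import Mathlib
import Cfsg.Agent.H10.Geo1

set_option autoImplicit false
open Cfsg

namespace Cfsg.Agent.S0776

/-- If W ≤ F^(2m) is a 2k-dimensional subspace on which the symplectic form is non-degenerate, then the stabiliser of W in Sp_2m(F) is isomorphic to Sp_2k(F) × Sp_(2m−2k)(F). -/
theorem result {F : Type*} [Field F] (m k : ℕ) (hk : k ≤ m) (W : Submodule F (Fin m ⊕ Fin m → F)) (hWk : Module.finrank F W = 2 * k) (hW : ∀ u ∈ W, (∀ v ∈ W, Cfsg.sympForm m F u v = 0) → u = 0) : Nonempty (↥(Cfsg.stabilizing (Cfsg.spToMat m F) (W : Set (Fin m ⊕ Fin m → F))) ≃* Matrix.symplecticGroup (Fin k) F × Matrix.symplecticGroup (Fin (m - k)) F) := by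
  have h := H11.isForm_alt (H10.spBilin_isAlt (l := Fin m) (F := F))
  have hB := (H10.spBilin_nondegenerate (l := Fin m) (F := F)).1
  have nd : H11.NondegOn (H10.spBilin (Fin m) F) W := fun u hu h0 =>
    hW u hu fun v hv => by rw [H10.sympForm_eq_spBilin]; exact h0 v hv
  have hd := h.finrank_perp hB W
  rw [H10.finrank_sp_space, Fintype.card_fin] at hd
  obtain ⟨e1⟩ := H10.nonempty_isom_restrict H10.spBilin_isAlt nd hWk
  obtain ⟨e2⟩ := H10.nonempty_isom_restrict H10.spBilin_isAlt (h.nondegOn_perp hB nd)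
    (k := m - k) (by omega)
  rw [H10.stabilizing_sp_eq]
  exact ⟨(H10.comapEquiv _ _).trans ((h.stabNondegEquiv hB nd).symm.trans
    (e1.symm.prodCongr e2.symm))⟩

end Cfsg.Agent.S0776
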