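import Cfsg.Statements.S0777
import Mathlib
import Cfsg.Agent.H10.Geo1

set_option autoImplicit false
open Cfsg

namespace Cfsg.Agent.S0777

open Matrix

theorem card_cent (m : ℕ) : Nat.card (Subgroup.centralizer
    ({Equiv.sumComm (Fin m) (Fin m)} : Set (Equiv.Perm (Fin m ⊕ Fin m)))) = 2 ^ m * m.factorial := by
  classical
  have h1 := Equiv.Perm.cycleType_of_pow_prime_eq_one (σ := Equiv.sumComm (Fin m) (Fin m))
    (p := 2) (by ext x; simp [pow_two])
  have h2 := Equiv.Perm.sum_cycleType (Equiv.sumComm (Fin m) (Fin m))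
  have h3 : Equiv.Perm.support (Equiv.sumComm (Fin m) (Fin m)) = Finset.univ := by
    ext (x | x) <;> simp
  rw [h1, h3] at h2
  simp at h2
  rw [show Multiset.card (Equiv.Perm.cycleType (Equiv.sumComm (Fin m) (Fin m))) = m by omega] at h1
  rw [Equiv.Perm.nat_card_centralizer, h1]
  rcases m with _ | m
  · simp
  · rw [Multiset.toFinset_replicate, if_neg (Nat.succ_ne_zero m), Finset.prod_singleton,
      Multiset.count_replicate_self, Multiset.sum_replicate, Multiset.prod_replicate]
    simp [← two_mul, mul_comm]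

variable {F : Type*} [Field F] {m : ℕ}

/-- The sign of the form on a coordinate vector and its partner. -/
def sg (F : Type*) [Field F] {m : ℕ} : Fin m ⊕ Fin m → F := Sum.elim (fun _ => -1) (fun _ => 1)

theorem sg_sq (k : Fin m ⊕ Fin m) : sg F k * sg F k = 1 := by rcases k with k | k <;> simp [sg]

theorem sg_swap (k : Fin m ⊕ Fin m) : sg F k.swap = -sg F k := by
  rcases k with k | k <;> simp [sg]

theorem gram (k l : Fin m ⊕ Fin m) (a b : F) :
    H10.spBilin (Fin m) F (Pi.single k a) (Pi.single l b) =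
      if l = k.swap then sg F k * a * b else 0 := by
  rw [H10.spBilin_apply_sum]
  rcases k with k | k <;> rcases l with l | l <;> simp [Pi.single_apply, sg, eq_comm]
  split_ifs <;> simp

/-- A monomial matrix. -/
def mono (π : Fin m ⊕ Fin m → Fin m ⊕ Fin m) (c : Fin m ⊕ Fin m → F) :
    Matrix (Fin m ⊕ Fin m) (Fin m ⊕ Fin m) F := Matrix.of fun r k => if r = π k then c k else 0

theorem mono_single (π : Fin m ⊕ Fin m → Fin m ⊕ Fin m) (c : Fin m ⊕ Fin m → F)
    (k : Fin m ⊕ Fin m) : mono π c *ᵥ Pi.single k 1 = Pi.single (π k) (c k) := by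
  ext r; simp [mono, Pi.single_apply]

theorem mono_mem {π : Equiv.Perm (Fin m ⊕ Fin m)} {c : Fin m ⊕ Fin m → F}
    (hπ : ∀ k, π k.swap = (π k).swap) (hc : ∀ k, sg F (π k) * c k * c k.swap = sg F k) :
    mono π c ∈ symplecticGroup (Fin m) F := by
  rw [H10.mem_symplecticGroup_iff_form]
  have : (H10.spBilin (Fin m) F).comp (mulVecLin (mono π c)) (mulVecLin (mono π c)) =
      H10.spBilin (Fin m) F := by
    refine LinearMap.BilinForm.ext_basis (Pi.basisFun F _) fun k l => ?_
    simp only [LinearMap.BilinForm.comp_apply, Pi.basisFun_apply, mulVecLin_apply, mono_single, gram,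
      ← hπ, EmbeddingLike.apply_eq_iff_eq]
    split_ifs with h
    · rw [h, hc]; simp
    · rfl
  intro u v
  conv_rhs => rw [← this]
  rfl

/-- The coefficients of a monomial symplectic matrix. -/
def cf (π : Equiv.Perm (Fin m ⊕ Fin m)) (d : Fin m → Fˣ) : Fin m ⊕ Fin m → F :=
  Sum.elim (fun i => d i) (fun i => sg F (π (Sum.inr i)) * ((d i)⁻¹ : Fˣ))

theorem cf_ok {π : Equiv.Perm (Fin m ⊕ Fin m)} (hπ : ∀ k, π k.swap = (π k).swap) (d : Fin m → Fˣ)
    (k : Fin m ⊕ Fin m) : sg F (π k) * cf π d k * cf π d k.swap = sg F k := by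
  rcases k with k | k
  · have := hπ (Sum.inl k)
    simp only [Sum.swap_inl] at this
    simp only [cf, Sum.swap_inl, Sum.elim_inl, Sum.elim_inr, this, sg_swap]
    have h2 := sg_sq (F := F) (π (Sum.inl k))
    have h3 := (d k).mul_inv
    change _ = -1
    linear_combination (-(d k : F) * ((d k)⁻¹ : Fˣ)) * h2 - h3
  · simp only [cf, Sum.swap_inr, Sum.elim_inl, Sum.elim_inr]
    have h2 := sg_sq (F := F) (π (Sum.inr k))
    have h3 := (d k).mul_inv
    change _ = 1
    linear_combination ((d k : F) * ((d k)⁻¹ : Fˣ)) * h2 + h3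

/-- The diagonal torus. -/
abbrev T (F : Type*) [Field F] (m : ℕ) : Subgroup (symplecticGroup (Fin m) F) :=
  ⨅ i : Fin m ⊕ Fin m, Cfsg.stabilizing (Cfsg.spToMat m F)
    ((Submodule.span F {(Pi.single i (1 : F) : Fin m ⊕ Fin m → F)} :
      Submodule F (Fin m ⊕ Fin m → F)) : Set (Fin m ⊕ Fin m → F))

theorem mem_T (g : symplecticGroup (Fin m) F) :
    g ∈ T F m ↔ ∀ i, ∃ c : F, g.1 *ᵥ Pi.single i 1 = Pi.single i c := by
  rw [Subgroup.mem_iInf]
  refine forall_congr' fun i => ⟨fun h => ?_, fun ⟨c, hc⟩ => ?_⟩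
  · obtain ⟨c, hc⟩ := Submodule.mem_span_singleton.mp
      ((h (Pi.single i 1)).mp (Submodule.mem_span_singleton_self _))
    exact ⟨c, by rw [← Pi.single_smul'] at hc; simpa using hc.symm⟩
  · intro v
    have := H10.mem_stabS_of_le (W := Submodule.span F {(Pi.single i (1 : F) : Fin m ⊕ Fin m → F)})
      (g := (H10.spIso (Fin m) F g).1) (fun w hw => by
        obtain ⟨a, rfl⟩ := Submodule.mem_span_singleton.mp hw
        rw [map_smul, H10.spIso_apply, hc]
        refine Submodule.smul_mem _ _ (Submodule.mem_span_singleton.mpr ⟨c, ?_⟩)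
        rw [← Pi.single_smul']; simp) v
    rwa [H10.spIso_apply] at this

theorem ne_zero_of (g : symplecticGroup (Fin m) F) {i j : Fin m ⊕ Fin m} {c : F}
    (h : g.1 *ᵥ Pi.single i 1 = Pi.single j c) : c ≠ 0 := by
  rintro rfl
  rw [← H10.spIso_apply, Pi.single_zero, LinearEquiv.map_eq_zero_iff] at h
  simpa using congrFun h i

theorem mono_mem_norm {π : Equiv.Perm (Fin m ⊕ Fin m)} {c : Fin m ⊕ Fin m → F} [Finite F]
    (h : mono π c ∈ symplecticGroup (Fin m) F) :
    (⟨_, h⟩ : symplecticGroup (Fin m) F) ∈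
      Subgroup.normalizer (T F m : Set (symplecticGroup (Fin m) F)) := by
  set g : symplecticGroup (Fin m) F := ⟨_, h⟩
  refine Subgroup.mem_normalizer_fintype fun t ht => ?_
  rw [SetLike.mem_coe, mem_T] at ht ⊢
  intro i
  obtain ⟨k, rfl⟩ := π.surjective i
  obtain ⟨a, ha⟩ := ht k
  have h1 : g.1 *ᵥ Pi.single k 1 = Pi.single (π k) (c k) := mono_single π c k
  have h0 := ne_zero_of g h1
  have h2 : (Pi.single (π k) (1 : F) : Fin m ⊕ Fin m → F) = (c k)⁻¹ • g.1 *ᵥ Pi.single k 1 := by
    rw [h1, ← Pi.single_smul']; simp [h0]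
  refine ⟨a, ?_⟩
  have h3 : (g * t * g⁻¹).1 * g.1 = g.1 * t.1 := congrArg Subtype.val (inv_mul_cancel_right (g * t) g)
  have h4 : (Pi.single k a : Fin m ⊕ Fin m → F) = a • Pi.single k 1 := by
    rw [← Pi.single_smul']; simp
  rw [h2, mulVec_smul, mulVec_mulVec, h3, ← mulVec_mulVec, ha, h4, mulVec_smul, h1,
    ← Pi.single_smul', ← Pi.single_smul']
  congr 1
  simp only [smul_eq_mul]; field_simp

theorem exists_mono (ha : ∃ a : F, a ≠ 0 ∧ a ^ 2 ≠ 1) {g : symplecticGroup (Fin m) F}
    (hg : g ∈ Subgroup.normalizer (T F m : Set (symplecticGroup (Fin m) F))) (i : Fin m ⊕ Fin m) :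
    ∃ j c, g.1 *ᵥ Pi.single i 1 = Pi.single j c := by
  classical
  obtain ⟨a, ha0, ha⟩ := ha
  set v := g.1 *ᵥ Pi.single i 1 with hv
  by_cases hv0 : v = 0
  · exact ⟨i, 0, by simpa using hv0⟩
  obtain ⟨j, hj⟩ := Function.ne_iff.mp hv0
  refine ⟨j, v j, funext fun l => ?_⟩
  by_cases hl : l = j
  · simp [hl]
  rw [Pi.single_eq_of_ne hl]
  by_contra hl0
  let c : Fin m ⊕ Fin m → F := fun k => if k = j then a else if k = j.swap then a⁻¹ else 1
  have hsw : ∀ k : Fin m ⊕ Fin m, k.swap ≠ k := fun k => by rcases k with k | k <;> simp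
  have ht : mono (1 : Equiv.Perm (Fin m ⊕ Fin m)) c ∈ symplecticGroup (Fin m) F := by
    refine mono_mem (fun _ => rfl) fun k => ?_
    by_cases h1 : k = j
    · simp [c, h1, hsw, mul_assoc, ha0]
    by_cases h2 : k = j.swap
    · simp [c, h2, hsw, mul_assoc, ha0]
    have h3 : k.swap ≠ j := fun h => h2 (by rw [← h, Sum.swap_swap])
    have h4 : k.swap ≠ j.swap := fun h => h1 (by simpa using congrArg Sum.swap h)
    simp [c, h1, h2, h3, h4]
  set t : symplecticGroup (Fin m) F := ⟨_, ht⟩
  have h1 : t ∈ T F m := (mem_T t).mpr fun k => ⟨c k, mono_single _ c k⟩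
  have h2 : g⁻¹ * t * g ∈ T F m := by
    have := (Subgroup.mem_normalizer_iff.mp (inv_mem hg) t).mp h1
    rwa [inv_inv] at this
  obtain ⟨b, hb⟩ := (mem_T _).mp h2 i
  have h3 : g.1 * (g⁻¹ * t * g).1 = t.1 * g.1 :=
    congrArg Subtype.val (show g * (g⁻¹ * t * g) = t * g by group)
  have h4 : t.1 *ᵥ v = b • v := by
    rw [hv, mulVec_mulVec, ← h3, ← mulVec_mulVec, hb, ← mulVec_smul, ← Pi.single_smul']; simp
  have h5 : ∀ k, c k * v k = b * v k := fun k => by
    have := congrFun h4 k
    have h6 : (t.1 *ᵥ v) k = c k * v k := by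
      have h7 : t.1 = diagonal c := by
        ext r k
        change (if r = k then c k else 0) = _
        rw [diagonal_apply]
        split_ifs with h
        · rw [h]
        · rfl
      rw [h7, mulVec_diagonal]
    rwa [h6] at this
  have h6 := mul_right_cancel₀ hj (h5 j)
  have h7 := mul_right_cancel₀ hl0 (h5 l)
  simp only [c, if_true, if_neg hl] at h6 h7
  apply ha
  split_ifs at h7
  · rw [pow_two]; nth_rewrite 2 [h6.trans h7.symm]; exact mul_inv_cancel₀ ha0
  · rw [h6, ← h7, one_pow]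


/-- Weyl group of type C_m: for q ≥ 4 the diagonal matrices of Sp_2m(q) form a torus T ≅ (C_(q−1))^m (the elements stabilising every coordinate axis), and the normaliser of T in Sp_2m(q) has order 2^m · m! · (q − 1)^m. -/
theorem result {F : Type*} [Field F] [Fintype F] {q : ℕ} (hF : Fintype.card F = q) (hq : 4 ≤ q) (m : ℕ) : Nat.card ↥(Subgroup.normalizer (⨅ i : Fin m ⊕ Fin m, Cfsg.stabilizing (Cfsg.spToMat m F) ((Submodule.span F {(Pi.single i (1 : F) : Fin m ⊕ Fin m → F)} : Submodule F (Fin m ⊕ Fin m → F)) : Set (Fin m ⊕ Fin m → F)) : Set (Matrix.symplecticGroup (Fin m) F))) = 2 ^ m * Nat.factorial m * (q - 1) ^ m := by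
  classical
  have hc : ∀ π : Subgroup.centralizer ({Equiv.sumComm (Fin m) (Fin m)} :
      Set (Equiv.Perm (Fin m ⊕ Fin m))), ∀ k, π.1 k.swap = (π.1 k).swap := fun π k =>
    (congrArg (fun σ : Equiv.Perm (Fin m ⊕ Fin m) => σ k)
      (Subgroup.mem_centralizer_singleton_iff.mp π.2))
  let Ψ : Subgroup.centralizer ({Equiv.sumComm (Fin m) (Fin m)} :
      Set (Equiv.Perm (Fin m ⊕ Fin m))) × (Fin m → Fˣ) →
      Subgroup.normalizer (T F m : Set (symplecticGroup (Fin m) F)) := fun x =>
    ⟨⟨_, mono_mem (hc x.1) (cf_ok (hc x.1) x.2)⟩, mono_mem_norm _⟩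
  have hΨ : Function.Bijective Ψ := by
    constructor
    · rintro ⟨π, d⟩ ⟨π', d'⟩ h
      have h1 : mono π.1 (cf π.1 d) = mono π'.1 (cf π'.1 d') :=
        congrArg (fun x => x.1.1) h
      have h2 : ∀ k, π.1 k = π'.1 k ∧ cf π.1 d k = cf π'.1 d' k := fun k => by
        have h3 := mono_single π.1 (cf π.1 d) k
        have h0 := ne_zero_of (Ψ (π, d)).1 h3
        rw [h1, mono_single] at h3
        have h4 := congrFun h3 (π.1 k)
        rw [Pi.single_eq_same, Pi.single_apply] at h4
        split_ifs at h4 with h5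
        exacts [⟨h5, h4.symm⟩, absurd h4.symm h0]
      exact Prod.ext (Subtype.ext (Equiv.ext fun k => (h2 k).1))
        (funext fun i => Units.ext (h2 (Sum.inl i)).2)
    · rintro ⟨g, hg⟩
      choose p c hp using exists_mono
        (H10.exists_sq_ne_one_of_four_le_card (by rw [Nat.card_eq_fintype_card]; omega)) hg
      have h0 : ∀ k, c k ≠ 0 := fun k => ne_zero_of g (hp k)
      have h1 : ∀ k, p k.swap = (p k).swap ∧ sg F (p k) * c k * c k.swap = sg F k := fun k => by
        have := H10.mem_symplecticGroup_iff_form.mp g.2 (Pi.single k 1) (Pi.single k.swap 1)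
        rw [hp, hp, gram, gram, if_pos rfl, mul_one, mul_one] at this
        split_ifs at this with h
        · exact ⟨h, this⟩
        · have h2 := sg_sq (F := F) k
          rw [← this] at h2; simp at h2
      have h2 : Function.Injective p := fun k l hkl => by
        have := H10.mem_symplecticGroup_iff_form.mp g.2 (Pi.single k 1) (Pi.single l.swap 1)
        rw [hp, hp, gram, gram, (h1 l).1, hkl, if_pos rfl] at this
        split_ifs at this with h
        · simpa using (congrArg Sum.swap h).symm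
        · have h2 := sg_sq (F := F) (p l)
          simp only [mul_eq_zero, h0, or_false] at this
          rw [this] at h2; simp at h2
      let π := Equiv.ofBijective p ⟨h2, Finite.injective_iff_surjective.mp h2⟩
      refine ⟨(⟨π, Subgroup.mem_centralizer_singleton_iff.mpr (Equiv.ext fun k => (h1 k).1)⟩,
        fun i => Units.mk0 (c (Sum.inl i)) (h0 _)), Subtype.ext (Subtype.ext ?_)⟩
      have h3 : cf π (fun i => Units.mk0 (c (Sum.inl i)) (h0 _)) = c := by
        funext k
        rcases k with k | k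
        · rfl
        · have h4 := (h1 (Sum.inr k)).2
          have h5 := sg_sq (F := F) (p (Sum.inr k))
          have h6 := h0 (Sum.inl k)
          change sg F (p (Sum.inr k)) * (c (Sum.inl k))⁻¹ = _
          change _ * _ * c (Sum.inl k) = 1 at h4
          field_simp
          linear_combination c (Sum.inl k) * c (Sum.inr k) * h5 - sg F (p (Sum.inr k)) * h4
      change mono p (cf π _) = g.1
      rw [h3]
      ext r k
      have := congrFun ((mono_single p c k).trans (hp k).symm) r
      simpa using this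
  rw [Set.iInf_eq_iInter, ← Subgroup.coe_iInf, ← Nat.card_eq_of_bijective Ψ hΨ, Nat.card_prod, card_cent, Nat.card_fun, H10.card_units_eq, hF]
  simp

end Cfsg.Agent.S0777
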