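import Cfsg.Statements.S0778
import Mathlib
import Cfsg.Agent.H10.Geo1

set_option autoImplicit false
open Cfsg

namespace Cfsg.Agent.S0778

/-- The elements of Sp_2m(F) stabilising both W = ⟨e_1..e_m⟩ and U = ⟨f_1..f_m⟩ form a subgroup isomorphic to GL_m(F) (block-diagonal matrices diag(X, X^(−ᵀ)) up to the sign convention of J), for m ≥ 1 or m = 0 alike. -/
theorem result {F : Type*} [Field F] (m : ℕ) : Nonempty (↥(Cfsg.stabilizing (Cfsg.spToMat m F) {v : Fin m ⊕ Fin m → F | ∀ i : Fin m, v (Sum.inr i) = 0} ⊓ Cfsg.stabilizing (Cfsg.spToMat m F) {v : Fin m ⊕ Fin m → F | ∀ i : Fin m, v (Sum.inl i) = 0}) ≃* Matrix.GeneralLinearGroup (Fin m) F) := by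
  classical
  let θ : Matrix.GeneralLinearGroup (Fin m) F →* Matrix.symplecticGroup (Fin m) F :=
    { toFun := fun X => ⟨Matrix.fromBlocks X.1 0 0 (X⁻¹).1.transpose, by
        simp [SymplecticGroup.fromBlocks_mem_iff, ← Matrix.transpose_mul]⟩
      map_one' := Subtype.ext (by simp)
      map_mul' := fun X Y => Subtype.ext (by
        simp [Matrix.fromBlocks_multiply, Matrix.mul_inv_rev]) }
  have hθ : Function.Injective θ := fun X Y h =>
    Units.ext (Matrix.fromBlocks_inj.1 (congrArg Subtype.val h)).1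
  refine ⟨(MulEquiv.subgroupCongr ?_).trans (MonoidHom.ofInjective hθ).symm⟩
  ext A
  constructor
  · rintro ⟨h1, h2⟩
    have h21 : A.1.toBlocks₂₁ = 0 := by
      ext j i
      have := (h1 (Pi.single (Sum.inl i) 1)).mp (fun _ => by simp) j
      simpa [Matrix.toBlocks₂₁] using this
    have h12 : A.1.toBlocks₁₂ = 0 := by
      ext j i
      have := (h2 (Pi.single (Sum.inr i) 1)).mp (fun _ => by simp) j
      simpa [Matrix.toBlocks₁₂] using this
    have hA := A.2
    rw [← Matrix.fromBlocks_toBlocks A.1, h12, h21, SymplecticGroup.fromBlocks_mem_iff] at hA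
    have h3 : A.1.toBlocks₁₁.transpose * A.1.toBlocks₂₂ = 1 := by simpa using hA.2.2
    have h4 : A.1.toBlocks₂₂.transpose * A.1.toBlocks₁₁ = 1 := by
      simpa using congrArg Matrix.transpose h3
    refine ⟨⟨A.1.toBlocks₁₁, A.1.toBlocks₂₂.transpose, mul_eq_one_comm.mp h4, h4⟩, Subtype.ext ?_⟩
    change Matrix.fromBlocks A.1.toBlocks₁₁ 0 0 A.1.toBlocks₂₂ = A.1
    conv_rhs => rw [← Matrix.fromBlocks_toBlocks A.1, h12, h21]
  · rintro ⟨X, rfl⟩
    have hv : ∀ v : Fin m ⊕ Fin m → F, Matrix.mulVec (Cfsg.spToMat m F (θ X)) v =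
        Sum.elim (Matrix.mulVec X.1 (v ∘ Sum.inl))
          (Matrix.mulVec (X⁻¹).1.transpose (v ∘ Sum.inr)) := fun v => by
      change Matrix.mulVec (Matrix.fromBlocks X.1 0 0 (X⁻¹).1.transpose) v = _
      rw [Matrix.fromBlocks_mulVec]; simp
    have inj : ∀ (Y : Matrix.GeneralLinearGroup (Fin m) F) (w : Fin m → F),
        w = 0 ↔ Matrix.mulVec Y.1 w = 0 := fun Y w =>
      (H11.glEquiv (Fin m) F Y).map_eq_zero_iff.symm
    have inj' : ∀ (w : Fin m → F), w = 0 ↔ Matrix.mulVec (X⁻¹).1.transpose w = 0 := fun w =>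
      inj ⟨(X⁻¹).1.transpose, X.1.transpose, by rw [← Matrix.transpose_mul]; simp,
        by rw [← Matrix.transpose_mul]; simp⟩ w
    constructor
    · intro v
      rw [hv]
      have := inj' (v ∘ Sum.inr)
      rw [funext_iff, funext_iff] at this
      exact this
    · intro v
      rw [hv]
      have := inj X (v ∘ Sum.inl)
      rw [funext_iff, funext_iff] at this
      exact this

end Cfsg.Agent.S0778
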