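import Cfsg.Statements.S0779
import Mathlib
import Cfsg.Agent.H11.UBridge

set_option autoImplicit false
open Cfsg

namespace Cfsg.Agent.S0779

/-- Unitary transvections: let |F| = q², h the standard Hermitian form Σ x_i y_i^q and v ≠ 0 with h(v, v) = 0. The linear map x ↦ x + c h(x, v) v is an isometry of h if and only if c = 0 or c^(q−1) = −1. -/
theorem result {F : Type*} [Field F] [Fintype F] {q : ℕ} (hF : Fintype.card F = q ^ 2) (n : ℕ) (v : Fin n → F) (hv : v ≠ 0) (hv0 : Cfsg.hermForm n F q v v = 0) (c : F) : (∀ x y : Fin n → F, Cfsg.hermForm n F q ((Cfsg.unitaryTransvection n q v c).mulVec x) ((Cfsg.unitaryTransvection n q v c).mulVec y) = Cfsg.hermForm n F q x y) ↔ (c = 0 ∨ c ^ (q - 1) = -1) := by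
  have hq := H11.qConj_conjQ hF
  have h := hq.isHerm (Fin n)
  have h2 := hq.two_le
  simp only [hq.hermForm_eq, H11.unitaryTransvection_mulVec hq] at hv0 ⊢
  have e : c = 0 ∨ c ^ (q - 1) = -1 ↔ c + H11.conjQ hF c = 0 := by
    rw [hq.eq, ← pow_sub_one_mul (show q ≠ 0 by omega), show c + c ^ (q - 1) * c = c * (c ^ (q - 1) + 1)
      by ring, mul_eq_zero, add_eq_zero_iff_eq_neg]
  rw [e]
  simp only [map_add, map_smulₛₗ, LinearMap.add_apply, LinearMap.smul_apply, smul_eq_mul, map_mul,
    h.symm, hv0, RingHom.id_apply]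
  refine ⟨fun H => ?_, fun H x y => ?_⟩
  swap
  · linear_combination (H11.hermB (Fin n) _ v x * H11.hermB (Fin n) _ y v) * H
  obtain ⟨y, hy⟩ := h.form.exists_right_eq_one (H11.hermB_sep _) hv
  have := H y y
  rw [hy, h.flip_one hy] at this
  linear_combination this

end Cfsg.Agent.S0779
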