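import Cfsg.Statements.S0780
import Mathlib
import Cfsg.Agent.H11.UBridge

set_option autoImplicit false
open Cfsg

namespace Cfsg.Agent.S0780

/-- Generation of SU_n(q), n ≥ 3, (n, q) ≠ (3, 2), by unitary transvections: the subgroup generated by the elements whose matrix is x ↦ x + c h(x, v) v with v isotropic is all of SU_n(q). -/
theorem result {F : Type*} [Field F] [Fintype F] {q : ℕ} (hF : Fintype.card F = q ^ 2) (n : ℕ) (hn : 3 ≤ n) (h32 : ¬ (n = 3 ∧ q = 2)) : Subgroup.closure {A : ↥(Cfsg.SU n F q) | ∃ (v : Fin n → F) (c : F), Cfsg.hermForm n F q v v = 0 ∧ ((A : Matrix.SpecialLinearGroup (Fin n) F) : Matrix (Fin n) (Fin n) F) = Cfsg.unitaryTransvection n q v c} = ⊤ := by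
  have hq := H11.qConj_conjQ hF
  have h := hq.isHerm (Fin n)
  have hB := H11.hermB_sep (σ := H11.conjQ hF) (Fin n)
  let t : Set (H11.SIsom (H11.hermB (Fin n) (H11.conjQ hF))) :=
    {g | ∃ (v : Fin n → F) (c : F) (hv : _) (hc : _), g.1 = h.trv (u := v) (c := c) hv hc}
  refine H11.closure_eq_top_of_equiv (H11.suEquiv hq n) _ t ?_ ?_
  · refine (h.normal_sisom_cases hB (hq.simple_cond hn h32) _ ⟨fun m hm g => ?_⟩).resolve_left
      fun hle => ?_
    · refine (Subgroup.closure_le (K := (Subgroup.closure t).comap (MulAut.conj g).toMonoidHom)).mpr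
        ?_ hm
      rintro x ⟨v, c, hv, hc, hx⟩
      refine Subgroup.subset_closure ⟨g.1.1 v, c, by rw [g.1.2.1, hv], hc, ?_⟩
      change g.1 * x.1 * g.1⁻¹ = _
      rw [hx, h.conj_eich]
      exact h.eich_congr _ _ _ _ _ _ rfl (map_zero _) rfl
    · obtain ⟨e, he0, he⟩ := h.exists_isotropic hB (by simp; omega)
      obtain ⟨d, hd0, hd⟩ := H11.exists_trace_zero h.ne h.invol
      obtain ⟨a, ha⟩ := (h.mem_center_sisom hB (by simp; omega)
        ⟨h.trv he hd, h.eich_mem_sisom _ _ _⟩).mp (hle (Subgroup.subset_closure ⟨e, d, he, hd, rfl⟩))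
      exact h.trv_notMem_center hB he he0 hd hd0 a ha
  · rintro g ⟨v, c, hv, hc, hg⟩
    refine ⟨v, -c, by rw [hq.hermForm_eq, hv], ?_⟩
    rw [H11.coe_eq_unitaryTransvection hq g hv (by simpa using hc), hg]
    exact h.eich_congr _ _ _ _ _ _ rfl rfl (neg_neg c).symm

end Cfsg.Agent.S0780
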