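import Cfsg.Statements.S0781
import Mathlib
import Cfsg.Agent.H11.UBridge

set_option autoImplicit false
open Cfsg

namespace Cfsg.Agent.S0781

/-- In SU_n(q) with n ≥ 4, or n = 3 and q > 2, every element whose matrix is a unitary transvection x ↦ x + c h(x, v) v (v isotropic) is a commutator ⁅B, C⁆ of two elements of SU_n(q). -/
theorem result {F : Type*} [Field F] [Fintype F] {q : ℕ} (hF : Fintype.card F = q ^ 2) (n : ℕ) (hn : 4 ≤ n ∨ (n = 3 ∧ 3 ≤ q)) (A : ↥(Cfsg.SU n F q)) (v : Fin n → F) (c : F) (hv0 : Cfsg.hermForm n F q v v = 0) (hA : ((A : Matrix.SpecialLinearGroup (Fin n) F) : Matrix (Fin n) (Fin n) F) = Cfsg.unitaryTransvection n q v c) : A ∈ commutatorSet ↥(Cfsg.SU n F q) := by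
  have hq := H11.qConj_conjQ hF
  have h := hq.isHerm (Fin n)
  have hB := H11.hermB_sep (σ := H11.conjQ hF) (Fin n)
  rw [hq.hermForm_eq] at hv0
  by_cases hv : v = 0
  · have : A = 1 := by
      ext i j
      rw [hA, hv]
      simp [unitaryTransvection]
    rw [this]
    exact one_mem_commutatorSet _
  have hc := H11.trace_zero_of_transvection h hB (H11.suEquiv hq n A).1 hv0 hv fun x => by
    rw [H11.suEquiv_apply, hA, H11.unitaryTransvection_mulVec hq]
  rw [H11.coe_eq_unitaryTransvection hq A hv0 hc] at hA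
  obtain ⟨a, ha, b, hb, e⟩ := h.exists_trv_eq_commutator hB (by simp; omega) hv0 hc
  refine ⟨(H11.suEquiv hq n).symm ⟨a, ha⟩, (H11.suEquiv hq n).symm ⟨b, hb⟩,
    (H11.suEquiv hq n).injective ?_⟩
  rw [map_commutatorElement, MulEquiv.apply_symm_apply, MulEquiv.apply_symm_apply]
  exact Subtype.ext (e.trans hA.symm)

end Cfsg.Agent.S0781
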