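import Cfsg.Statements.S0783
import Mathlib
import Cfsg.Agent.H11.UBridge

set_option autoImplicit false
open Cfsg

namespace Cfsg.Agent.S0783

/-- PGU_n(q)/PSU_n(q) is cyclic of order (n, q+1): for n ≥ 2 and |F| = q² there is a surjective homomorphism from GU_n(q) onto the cyclic group of order gcd(n, q + 1) whose kernel is generated by the determinant-one elements together with the centre. -/
theorem result {F : Type*} [Field F] [Fintype F] {q : ℕ} (hF : Fintype.card F = q ^ 2) (n : ℕ) (hn : 2 ≤ n) : ∃ φ : ↥(Cfsg.GU n F q) →* Multiplicative (ZMod (Nat.gcd n (q + 1))), Function.Surjective φ ∧ φ.ker = (Matrix.GeneralLinearGroup.det : Matrix.GeneralLinearGroup (Fin n) F →* Fˣ).ker.subgroupOf (Cfsg.GU n F q) ⊔ Subgroup.center ↥(Cfsg.GU n F q) := by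
  have hq := H11.qConj_conjQ hF
  have h := hq.isHerm (Fin n)
  have hB := H11.hermB_sep (σ := H11.conjQ hF) (Fin n)
  have hr := h.range_detI hB (by simp; omega)
  let μ := H11.normOne (H11.conjQ hF)
  let d : GU n F q →* μ := ((H11.detI _ _).codRestrict μ fun g => hr.le ⟨g, rfl⟩).comp
    (H11.guEquiv hq n).toMonoidHom
  have hd : ∀ g, (d g).1 = Matrix.GeneralLinearGroup.det g.1 := fun g => H11.detI_guEquiv hq g
  have hds : Function.Surjective d := fun a => by
    obtain ⟨g, hg⟩ := hr.ge a.2
    exact ⟨(H11.guEquiv hq n).symm g, Subtype.ext (by simpa [d] using hg)⟩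
  let P := (powMonoidHom n : μ →* μ).range
  have hc : Nat.card (μ ⧸ P) = Nat.card (Multiplicative (ZMod (Nat.gcd n (q + 1)))) := by
    rw [← Subgroup.index_eq_card, IsCyclic.index_powMonoidHom_range, hq.card_normOne,
      Nat.card_congr Multiplicative.toAdd, Nat.card_zmod, Nat.gcd_comm]
  have : IsCyclic (μ ⧸ P) := isCyclic_of_surjective _ (QuotientGroup.mk'_surjective P)
  let e := mulEquivOfCyclicCardEq hc
  refine ⟨e.toMonoidHom.comp ((QuotientGroup.mk' P).comp d),
    e.surjective.comp ((QuotientGroup.mk'_surjective P).comp hds), ?_⟩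
  have hz : ∀ a : μ, (H11.guEquiv hq n).symm (H11.IsHerm.scalU _ a) ∈ Subgroup.center (GU n F q) ∧
      d ((H11.guEquiv hq n).symm (H11.IsHerm.scalU _ a)) = a ^ n := fun a =>
    ⟨by rw [H11.mem_center_equiv (H11.guEquiv hq n), h.center_uisom hB (by simpa)]; simp,
      Subtype.ext (by simpa [d] using H11.IsHerm.det_scalU (B := H11.hermB (Fin n) _) a)⟩
  apply le_antisymm
  · intro g hg
    simp only [MonoidHom.mem_ker, MonoidHom.comp_apply, MulEquiv.coe_toMonoidHom,
      EmbeddingLike.map_eq_one_iff, QuotientGroup.mk'_apply, QuotientGroup.eq_one_iff] at hg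
    obtain ⟨a, ha⟩ := hg
    rw [← inv_mul_cancel_right g ((H11.guEquiv hq n).symm (H11.IsHerm.scalU _ a))]
    refine Subgroup.mul_mem_sup ?_ (hz a).1
    rw [Subgroup.mem_subgroupOf, MonoidHom.mem_ker, ← hd, map_mul, map_inv, (hz a).2, ← ha]
    simp
  · refine sup_le (fun g hg => ?_) fun g hg => ?_
    · have : d g = 1 := Subtype.ext ((hd g).trans hg)
      simp [this]
    · rw [H11.mem_center_equiv (H11.guEquiv hq n), h.center_uisom hB (by simpa)] at hg
      obtain ⟨a, ha⟩ := hg
      have : d g = a ^ n := by rw [← (hz a).2, ha, MulEquiv.symm_apply_apply]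
      simp only [MonoidHom.mem_ker, MonoidHom.comp_apply, MulEquiv.coe_toMonoidHom,
        EmbeddingLike.map_eq_one_iff, QuotientGroup.mk'_apply, QuotientGroup.eq_one_iff]
      exact ⟨a, this.symm⟩

end Cfsg.Agent.S0783
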