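import Cfsg.Statements.S0785
import Mathlib
import Cfsg.Agent.H11.ClassifyQ

set_option autoImplicit false
open Cfsg

namespace Cfsg.Agent.S0785

/-- det(I) = {±1}: for a quadratic form on F^n whose polar form is non-degenerate, every element of the isometry group has determinant 1 or −1, and as soon as Q takes a non-zero value some isometry has determinant −1. -/
theorem result {F : Type*} [Field F] {n : ℕ} (Q : QuadraticForm F (Fin n → F)) (hQ : (QuadraticMap.polarBilin Q).Nondegenerate) : (∀ g : ↥(Cfsg.isometryGroup F ⇑Q), ((g : Matrix.GeneralLinearGroup (Fin n) F) : Matrix (Fin n) (Fin n) F).det = 1 ∨ ((g : Matrix.GeneralLinearGroup (Fin n) F) : Matrix (Fin n) (Fin n) F).det = -1) ∧ ((∃ v, Q v ≠ 0) → ∃ g : ↥(Cfsg.isometryGroup F ⇑Q), ((g : Matrix.GeneralLinearGroup (Fin n) F) : Matrix (Fin n) (Fin n) F).det = -1) := by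
  have h : H11.IsQuad Q.polarBilin Q := H11.isForm_quad Q
  constructor
  · intro g
    have := H11.det_isom (σ := RingHom.id F) (fun _ => rfl) hQ.1 (H11.oEquiv h g).1.toLinearMap 1
      (fun x y => by rw [one_mul]; exact (H11.oEquiv h g).2.1 x y)
    rwa [H11.oEquiv_coe, H11.det_glEquiv, one_pow, RingHom.id_apply, mul_self_eq_one_iff] at this
  · rintro ⟨v, hv⟩
    refine ⟨(H11.oEquiv h).symm (h.reflO v), ?_⟩
    rw [← H11.det_glEquiv, ← H11.oEquiv_coe h, MulEquiv.apply_symm_apply, h.det_reflO hv]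

end Cfsg.Agent.S0785
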