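import Cfsg.Statements.S0787
import Mathlib
import Cfsg.Agent.H11.Bridge2

set_option autoImplicit false
open Cfsg

namespace Cfsg.Agent.S0787

/-- Existence and uniqueness of Ω: if F is finite, n ≥ 2, Q is a quadratic form on F^n with non-degenerate polar form and (|F|, n) ≠ (2, 4), then the group of isometries of determinant one has a unique subgroup of index 2. -/
theorem result {F : Type*} [Field F] [Fintype F] {n : ℕ} (hn : 2 ≤ n) (Q : QuadraticForm F (Fin n → F)) (hQ : (QuadraticMap.polarBilin Q).Nondegenerate) (h : Fintype.card F ≠ 2 ∨ n ≠ 4) : ∃! H : Subgroup ↥(Cfsg.specialIsometryGroup F ⇑Q), H.index = 2 := by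
  have hq : H11.IsQuad Q.polarBilin Q := H11.isForm_quad Q
  have hex := hq.nonExc_of_card hQ.1 (by simpa using h)
  have hle : Omega F Q ≤ specialIsometryGroup F Q :=
    Abelianization.commutator_subset_ker _
  have hi : ((Omega F Q).subgroupOf (specialIsometryGroup F Q)).index = 2 := by
    have e1 := Subgroup.relIndex_mul_index hle
    rw [H11.index_eq_of_equiv _ _ _ (H11.mem_Omega_iff hq)] at e1
    by_cases h2 : (2 : F) = 0
    · have : specialIsometryGroup F Q = ⊤ := by
        rw [Subgroup.eq_top_iff']
        intro g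
        rw [H11.mem_specialIsometryGroup, ← H11.det_oEquiv hq, hq.det_eq_one_of_char_two hQ.1 hex h2]
      rw [hq.index_commutator_of_char_two hQ.1 hex h2 (by simp; omega), this, Subgroup.index_top,
        mul_one, ← this] at e1
      exact e1
    · have : (specialIsometryGroup F Q).index = 2 := by
        obtain ⟨v, hv⟩ := hq.exists_eq hQ.1 (by simpa) 1
        rw [Subgroup.index_eq_two_iff]
        refine ⟨(H11.oEquiv hq).symm (hq.reflO v), fun b => ?_⟩
        rw [H11.mem_special_iff_dick hq hQ.1 h2, H11.mem_special_iff_dick hq hQ.1 h2, map_mul,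
          MulEquiv.apply_symm_apply, hq.dick_mul_reflO hQ.1 _ (by rw [hv]; exact one_ne_zero)]
        generalize H11.dick (H11.oEquiv hq b).1 = a
        revert a; decide
      rw [hq.index_commutator_of_odd hQ.1 h2 (by simpa), this] at e1
      change (Omega F Q).relIndex _ = 2
      omega
  refine ⟨_, hi, fun H hH => ?_⟩
  have h1 : (Omega F Q).subgroupOf (specialIsometryGroup F Q) ≤ H := by
    intro x hx
    rw [Subgroup.mem_subgroupOf, H11.mem_Omega_iff hq] at hx
    have := hq.commutator_le_of_sq hQ.1 hex ((H.map (specialIsometryGroup F Q).subtype).normalCore.comap (H11.oEquiv hq).symm.toMonoidHom) (fun u v hu hv => ?_) hx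
    · have := Subgroup.normalCore_le _ this
      obtain ⟨y, hy, hyx⟩ := this
      rwa [← Subtype.ext (hyx.trans ((H11.oEquiv hq).symm_apply_apply _))]
    · intro b
      have hs : (H11.oEquiv hq).symm (hq.reflO u * hq.reflO v) ∈ specialIsometryGroup F Q := by
        rw [H11.mem_specialIsometryGroup, ← H11.det_oEquiv hq, MulEquiv.apply_symm_apply]
        simp [hq.det_reflO hu, hq.det_reflO hv]
      have hn : (specialIsometryGroup F Q).Normal := MonoidHom.normal_ker _
      refine ⟨⟨_, hn.conj_mem _ hs b⟩ * ⟨_, hn.conj_mem _ hs b⟩, Subgroup.mul_self_mem_of_index_two hH _, ?_⟩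
      simp [mul_assoc]
  refine (Subgroup.eq_of_le_of_card_ge h1 ?_).symm
  have e1 := H.card_mul_index
  have e2 := ((Omega F Q).subgroupOf (specialIsometryGroup F Q)).card_mul_index
  rw [hH] at e1
  rw [hi] at e2
  omega

end Cfsg.Agent.S0787
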