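import Cfsg.Statements.S0793
import Mathlib
import Cfsg.Agent.H11.Bridge

set_option autoImplicit false
open Cfsg

namespace Cfsg.Agent.S0793

/-- Root elements: if Q(u) = Q(v) = 0 and f(u, v) = 0 (f the polar form), then for every c the Siegel matrix T_(u,v)(c) preserves Q, fixes u and v, and T(c) T(d) = T(c + d). -/
theorem result {F : Type*} [Field F] {n : ℕ} (Q : QuadraticForm F (Fin n → F)) (u v : Fin n → F) (hu : Q u = 0) (hv : Q v = 0) (huv : QuadraticMap.polar ⇑Q u v = 0) : (∀ c x, Q ((Cfsg.siegelMatrix ⇑Q u v c).mulVec x) = Q x) ∧ (∀ c, (Cfsg.siegelMatrix ⇑Q u v c).mulVec u = u ∧ (Cfsg.siegelMatrix ⇑Q u v c).mulVec v = v) ∧ ∀ c d, Cfsg.siegelMatrix ⇑Q u v c * Cfsg.siegelMatrix ⇑Q u v d = Cfsg.siegelMatrix ⇑Q u v (c + d) := by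
  have h : H11.IsQuad Q.polarBilin Q := H11.isForm_quad Q
  have huv' : Q.polarBilin u v = 0 := huv
  have key : ∀ c x, (siegelMatrix Q u v c).mulVec x =
      (h.eich hu (w := (-c) • v) (by rw [map_smul, huv', smul_zero])).1 x := by
    intro c x
    rw [H11.siegelMatrix_mulVec h, h.eich_apply, h.smul', hv, map_smul, LinearMap.smul_apply,
      smul_eq_mul]
    module
  refine ⟨fun c x => ?_, fun c => ⟨?_, ?_⟩, fun c d => ?_⟩
  · rw [key]; exact (h.eich _ _).2.2 x
  · rw [H11.siegelMatrix_mulVec h, h.diag_zero hu, h.refl huv']; simp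
  · rw [H11.siegelMatrix_mulVec h, h.diag_zero hv, huv']; simp
  · rw [H11.matrix_eq_iff_mulVec]
    intro x
    rw [← Matrix.mulVec_mulVec, key, key, key, ← LinearEquiv.mul_apply, ← Subgroup.coe_mul,
      h.eich_mul]
    congr 2
    exact h.eich_congr _ _ _ _ rfl (by module)

end Cfsg.Agent.S0793
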