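import Cfsg.Statements.S0794
import Mathlib
import Cfsg.Agent.H11.Omega

set_option autoImplicit false
open Cfsg

namespace Cfsg.Agent.S0794

open scoped commutatorElement

/-- For q odd, n ≥ 5 and Q with non-degenerate polar form: an isometry whose matrix is a Siegel transformation T_(u,v)(c) (u, v singular and orthogonal) is a commutator in the isometry group, so lies in Ω. -/
theorem result {F : Type*} [Field F] [Fintype F] (h2 : (2 : F) ≠ 0) {n : ℕ} (hn : 5 ≤ n) (Q : QuadraticForm F (Fin n → F)) (hQ : (QuadraticMap.polarBilin Q).Nondegenerate) (u v : Fin n → F) (hu : Q u = 0) (hv : Q v = 0) (huv : QuadraticMap.polar ⇑Q u v = 0) (c : F) (g : ↥(Cfsg.isometryGroup F ⇑Q)) (hg : ((g : Matrix.GeneralLinearGroup (Fin n) F) : Matrix (Fin n) (Fin n) F) = Cfsg.siegelMatrix ⇑Q u v c) : g ∈ commutatorSet ↥(Cfsg.isometryGroup F ⇑Q) ∧ g ∈ Cfsg.Omega F ⇑Q := by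
  have h : H11.IsQuad Q.polarBilin Q := H11.isForm_quad Q
  suffices h1 : g ∈ commutatorSet _ from ⟨h1, by rw [Omega, commutator_eq_closure]; exact Subgroup.subset_closure h1⟩
  rw [H11.coe_eq_siegelMatrix_iff h g c hu hv huv] at hg
  suffices h1 : ∃ a b, ⁅a, b⁆ = H11.oEquiv h g by
    obtain ⟨a, b, hab⟩ := h1
    exact ⟨(H11.oEquiv h).symm a, (H11.oEquiv h).symm b, by rw [← map_commutatorElement, hab]; simp⟩
  rw [hg]
  suffices ∀ w (huw : Q.polarBilin u w = 0), Q w = 0 → ∃ a b, ⁅a, b⁆ = h.eich hu huw from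
    this _ _ (by simp [h.smul', hv])
  intro w huw hw
  by_cases h0 : u = 0
  · subst h0; exact ⟨1, 1, by simp [h.eich_zero_left]⟩
  by_cases h1 : ∃ a : F, a • u = w
  · obtain ⟨a, rfl⟩ := h1
    exact ⟨1, 1, by simp [h.eich_smul_self]⟩
  push Not at h1
  obtain ⟨a, ha, hau⟩ := h.witt_family hQ.1 ![u, w] ![u, -w] ((LinearIndependent.pair_iff' h0).mpr h1)
    ((LinearIndependent.pair_iff' h0).mpr fun a ha => h1 (-a) (by rw [neg_smul, ha, neg_neg]))
    (fun i j => by fin_cases i <;> fin_cases j <;> simp [-QuadraticMap.polarBilin_apply_apply, huw, h.refl huw])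
    (fun i => by fin_cases i <;> simp)
  have e1 : a u = u := hau 0
  have e2 : a w = -w := hau 1
  have e3 : a ((-(2 : F)⁻¹) • w) - (-(2 : F)⁻¹) • w = w := by
    rw [map_smul, e2]; match_scalars; field_simp; ring
  refine ⟨⟨a, ha⟩, h.eich hu (w := (-(2 : F)⁻¹) • w) (by rw [map_smul, huw, smul_zero]), ?_⟩
  rw [commutatorElement_def, h.commutator_eich hu _ ⟨a, ha⟩ e1 (by rw [e3, huw])]
  exact h.eich_congr _ _ _ _ rfl e3

end Cfsg.Agent.S0794
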