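import Cfsg.Statements.S0795
import Mathlib
import Cfsg.Agent.H11.Omega

set_option autoImplicit false
open Cfsg

namespace Cfsg.Agent.S0795

/-- Generation of Ω by root elements: for q odd, n ≥ 5 and Q with non-degenerate polar form on F^n, the commutator subgroup of the isometry group equals the subgroup generated by the isometries whose matrices are Siegel transformations T_(u,v)(c) with u, v singular and orthogonal. -/
theorem result {F : Type*} [Field F] [Fintype F] (h2 : (2 : F) ≠ 0) {n : ℕ} (hn : 5 ≤ n) (Q : QuadraticForm F (Fin n → F)) (hQ : (QuadraticMap.polarBilin Q).Nondegenerate) : Cfsg.Omega F ⇑Q = Subgroup.closure {g : ↥(Cfsg.isometryGroup F ⇑Q) | ∃ (u v : Fin n → F) (c : F), Q u = 0 ∧ Q v = 0 ∧ QuadraticMap.polar ⇑Q u v = 0 ∧ ((g : Matrix.GeneralLinearGroup (Fin n) F) : Matrix (Fin n) (Fin n) F) = Cfsg.siegelMatrix ⇑Q u v c} := by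
  have h : H11.IsQuad Q.polarBilin Q := H11.isForm_quad Q
  have hex := h.nonExc_of_two_ne_zero hQ.1 h2
  apply le_antisymm
  · intro g hg
    rw [H11.mem_Omega_iff h, ← h.eichSub_eq_commutator hQ.1 hex (by simp; omega)] at hg
    have := h.eichSub_le (H := (Subgroup.closure {g : ↥(Cfsg.isometryGroup F ⇑Q) | ∃ (u v : Fin n → F) (c : F), Q u = 0 ∧ Q v = 0 ∧ QuadraticMap.polar ⇑Q u v = 0 ∧ ((g : Matrix.GeneralLinearGroup (Fin n) F) : Matrix (Fin n) (Fin n) F) = Cfsg.siegelMatrix ⇑Q u v c}).comap (H11.oEquiv h).symm.toMonoidHom) (fun u w hu huw => ?_) hg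
    · simpa using this
    by_cases hu0 : u = 0
    · subst hu0; rw [h.eich_zero_left]; exact one_mem _
    obtain ⟨f, hf, huf⟩ := h.exists_partner hQ.1 hu hu0
    refine h.eich_mem_of_singular hQ.1 (by simpa) hu hf huf _ (fun v hv hv0 => ?_) huw
    refine Subgroup.subset_closure ⟨u, v, -1, hu, hv0, (H11.mem_hperp.mp hv).1, ?_⟩
    rw [H11.coe_eq_siegelMatrix_iff h _ _ hu hv0 (H11.mem_hperp.mp hv).1]
    simp
  · rw [Subgroup.closure_le]
    rintro g ⟨u, v, c, hu, hv, huv, hg⟩
    rw [H11.coe_eq_siegelMatrix_iff h g c hu hv huv] at hg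
    rw [SetLike.mem_coe, H11.mem_Omega_iff h, hg]
    exact h.eich_mem_commutator hQ.1 hex _ _

end Cfsg.Agent.S0795
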