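import Cfsg.Statements.S0796
import Mathlib

set_option autoImplicit false
open Cfsg

namespace Cfsg.Agent.S0796

/-- If G is finite and acts faithfully and primitively on X, H is the stabiliser of a point, A is a normal subgroup of H whose normal closure in G is G, then for every non-trivial normal subgroup K of G the quotient G ⧸ K is isomorphic to A ⧸ B for some normal subgroup B of A. -/
theorem result {G X : Type*} [Group G] [Finite G] [MulAction G X] [FaithfulSMul G X] (hprim : MulAction.IsPreprimitive G X) (x : X) (A : Subgroup G) (hA : A ≤ MulAction.stabilizer G x) (hAn : (A.subgroupOf (MulAction.stabilizer G x)).Normal) (hgen : Subgroup.normalClosure (A : Set G) = ⊤) (K : Subgroup G) [K.Normal] (hK : K ≠ ⊥) : ∃ (B : Subgroup A) (_ : B.Normal), Nonempty (G ⧸ K ≃* A ⧸ B) := by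
  classical
  -- `K` is transitive, so `G = K H`, and `K A` is normal.
  have htr : MulAction.IsPretransitive K X := by
    refine hprim.isQuasiPreprimitive.isPretransitive_of_normal fun h => hK ?_
    rw [eq_bot_iff]
    intro k hk
    rw [Subgroup.mem_bot]
    refine FaithfulSMul.eq_of_smul_eq_smul (α := X) fun y => ?_
    have : y ∈ MulAction.fixedPoints K X := by rw [h]; trivial
    simpa using this ⟨k, hk⟩
  have hN : (K ⊔ A).Normal := by
    refine ⟨fun n hn g => ?_⟩
    obtain ⟨k, hk⟩ := htr.exists_smul_eq x (g • x)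
    have hh : (k : G)⁻¹ * g ∈ MulAction.stabilizer G x := by
      rw [MulAction.mem_stabilizer_iff, mul_smul, ← hk, Subgroup.smul_def, inv_smul_smul]
    rw [← SetLike.mem_coe, Subgroup.normal_mul] at hn
    obtain ⟨a, ha, b, hb, rfl⟩ := hn
    have h1 : ((k : G)⁻¹ * g) * b * ((k : G)⁻¹ * g)⁻¹ ∈ A :=
      hAn.conj_mem ⟨b, hA hb⟩ hb ⟨_, hh⟩
    have : g * (a * b) * g⁻¹ = (g * a * g⁻¹) * (k * (((k : G)⁻¹ * g) * b * ((k : G)⁻¹ * g)⁻¹) *
      (k : G)⁻¹) := by group
    rw [this]
    refine mul_mem (Subgroup.mem_sup_left (‹K.Normal›.conj_mem a ha g))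
      (mul_mem (mul_mem (Subgroup.mem_sup_left k.2) (Subgroup.mem_sup_right h1))
        (Subgroup.mem_sup_left (inv_mem k.2)))
  have htop : K ⊔ A = ⊤ := by
    rw [eq_top_iff, ← hgen]
    exact Subgroup.normalClosure_le_normal fun a ha => Subgroup.mem_sup_right ha
  let φ : A →* G ⧸ K := (QuotientGroup.mk' K).comp A.subtype
  have hφ : Function.Surjective φ := by
    intro y
    obtain ⟨g, rfl⟩ := QuotientGroup.mk_surjective y
    have hg : g ∈ K ⊔ A := htop ▸ trivial
    rw [sup_comm, ← SetLike.mem_coe, Subgroup.mul_normal] at hg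
    obtain ⟨a, ha, b, hb, rfl⟩ := hg
    exact ⟨⟨a, ha⟩, by simpa [φ, QuotientGroup.eq] using hb⟩
  exact ⟨φ.ker, inferInstance, ⟨(QuotientGroup.quotientKerEquivOfSurjective φ hφ).symm⟩⟩

end Cfsg.Agent.S0796
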