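import Cfsg.Statements.S0797
import Mathlib
import Cfsg.Agent.H11.Bridge2

set_option autoImplicit false
open Cfsg

namespace Cfsg.Agent.S0797

theorem aux {G : Type*} [Group G] (hi : (commutator G).index = 4)
    (hsq : ∀ g : G, g * g ∈ commutator G) : Nat.card {H : Subgroup G // H.index = 2} = 3 := by
  classical
  let π := QuotientGroup.mk' (commutator G)
  have hπ : Function.Surjective π := QuotientGroup.mk'_surjective _
  have hK : Nat.card (G ⧸ commutator G) = 4 := hi
  have : Finite (G ⧸ commutator G) := Nat.finite_of_card_ne_zero (by omega)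
  have hc : ∀ x : G ⧸ commutator G, x ≠ 1 → Nat.card (Subgroup.zpowers x) = 2 := fun x hx => by
    obtain ⟨x, rfl⟩ := hπ x
    rw [Nat.card_zpowers, orderOf_eq_prime (p := 2) _ hx]
    rw [sq, ← map_mul]
    exact (QuotientGroup.eq_one_iff _).mpr (hsq x)
  have h3 : Nat.card {x : G ⧸ commutator G // x ≠ 1} = 3 := by
    have := Fintype.ofFinite (G ⧸ commutator G)
    rw [Nat.card_eq_fintype_card, Fintype.card_subtype_compl, ← Nat.card_eq_fintype_card, hK]
    simp
  rw [← h3]
  symm
  refine Nat.card_eq_of_bijective (fun x => ⟨(Subgroup.zpowers x.1).comap π, ?_⟩) ⟨fun x y hxy => ?_, fun H => ?_⟩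
  · rw [Subgroup.index_comap_of_surjective _ hπ]
    have := (Subgroup.zpowers x.1).card_mul_index
    rw [hc _ x.2, hK] at this
    omega
  · have h1 := Subgroup.comap_injective hπ (congrArg Subtype.val hxy)
    obtain ⟨z, -, hz⟩ := (Nat.card_eq_two_iff' (1 : Subgroup.zpowers x.1)).mp (hc _ x.2)
    have e1 := hz ⟨x.1, Subgroup.mem_zpowers _⟩ (fun h0 => x.2 (congrArg Subtype.val h0))
    have e2 := hz ⟨y.1, h1 ▸ Subgroup.mem_zpowers _⟩ (fun h0 => y.2 (congrArg Subtype.val h0))
    exact Subtype.ext (Subtype.mk.inj (e1.trans e2.symm))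
  · have hle : commutator G ≤ H.1 := by
      have := Subgroup.normal_of_index_eq_two H.2
      rw [← Subgroup.Normal.quotient_commutative_iff_commutator_le]
      have : Fact (Nat.Prime 2) := ⟨Nat.prime_two⟩
      have : IsCyclic (G ⧸ H.1) := isCyclic_of_prime_card (p := 2) H.2
      infer_instance
    have e1 : (H.1.map π).comap π = H.1 := Subgroup.comap_map_eq_self (by simpa [π] using hle)
    have e2 : Nat.card (H.1.map π) = 2 := by
      have := (H.1.map π).card_mul_index
      rw [← Subgroup.index_comap_of_surjective _ hπ, e1, H.2, hK] at this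
      omega
    obtain ⟨z, hz, -⟩ := (Nat.card_eq_two_iff' (1 : H.1.map π)).mp e2
    have hz' : z.1 ≠ 1 := fun h0 => hz (Subtype.ext h0)
    refine ⟨⟨z.1, hz'⟩, Subtype.ext ?_⟩
    change (Subgroup.zpowers z.1).comap π = H.1
    rw [Subgroup.eq_of_le_of_card_ge ((Subgroup.zpowers_le).mpr z.2) (by rw [e2, hc _ hz']), e1]

/-- O^ε_2m(q) ≅ Ω.2² for q odd: if F is finite of odd characteristic, n ≥ 2 is even and Q has non-degenerate polar form on F^n, the isometry group of Q has exactly three subgroups of index 2. -/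
theorem result {F : Type*} [Field F] [Fintype F] (h2 : (2 : F) ≠ 0) {n : ℕ} (hn : 2 ≤ n) (heven : Even n) (Q : QuadraticForm F (Fin n → F)) (hQ : (QuadraticMap.polarBilin Q).Nondegenerate) : Nat.card {H : Subgroup ↥(Cfsg.isometryGroup F ⇑Q) // H.index = 2} = 3 := by
  have h : H11.IsQuad Q.polarBilin Q := H11.isForm_quad Q
  have hex := h.nonExc_of_two_ne_zero hQ.1 h2
  refine aux ?_ fun g => ?_
  · rw [H11.index_eq_of_equiv _ _ _ (H11.mem_Omega_iff h), h.index_commutator_of_odd hQ.1 h2 (by simpa)]
  · have := h.mul_self_mem_commutator hQ.1 hex (H11.oEquiv h g)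
    rwa [← map_mul, ← H11.mem_Omega_iff h] at this

end Cfsg.Agent.S0797
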