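import Cfsg.Statements.S0798
import Mathlib
import Cfsg.Agent.H11.Omega

set_option autoImplicit false
open Cfsg

namespace Cfsg.Agent.S0798

open H11 Module in
theorem aux {F V : Type*} [Field F] [Fintype F] [AddCommGroup V] [Module F V] [FiniteDimensional F V]
    {B : V →ₗ[F] V →ₗ[F] F} {Q : V → F} (h : IsQuad B Q) (hB : B.SeparatingLeft) (h2 : (2 : F) ≠ 0)
    (hn : 2 ≤ finrank F V) (heven : Even (finrank F V))
    (h43 : ¬ (finrank F V = 4 ∧ Fintype.card F = 3)) (c : F) (hc : c ≠ 0) :
    (Subgroup.closure {g | ∃ (v : V) (t : F), t ≠ 0 ∧ Q v = c * t ^ 2 ∧ g = h.reflO v}).index = 2 := by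
  classical
  have hex := h.nonExc_of_two_ne_zero hB h2
  set R := Subgroup.closure {g | ∃ (v : V) (t : F), t ≠ 0 ∧ Q v = c * t ^ 2 ∧ g = h.reflO v} with hR
  have hmem : ∀ v t, t ≠ 0 → Q v = c * t ^ 2 → h.reflO v ∈ R := fun v t ht hv =>
    Subgroup.subset_closure ⟨v, t, ht, hv, rfl⟩
  obtain ⟨v₀, hv₀⟩ := h.exists_eq hB hn c
  have hv₀' : Q v₀ ≠ 0 := by simp [hv₀, hc]
  have hle : commutator (Isom B Q) ≤ R := by
    by_cases hn2 : finrank F V = 2
    · have : R.Normal := ⟨fun n hn g => by
        have : R ≤ R.comap (MulAut.conj g).toMonoidHom := by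
          rw [hR, Subgroup.closure_le]
          rintro _ ⟨v, t, ht, hv, rfl⟩
          change g * h.reflO v * g⁻¹ ∈ R
          rw [h.conj_reflO]; exact hmem _ t ht (by rw [g.2.2, hv])
        exact this hn⟩
      refine h.commutator_le_of_sq hB hex R fun u v hu hv => ?_
      obtain ⟨w, hw, e⟩ := h.eq_reflO_of_finrank_movS hB (h.reflO u * h.reflO v * h.reflO v₀) (by
        have e1 : dick (h.reflO u * h.reflO v * h.reflO v₀).1 = 1 := by
          rw [h.dick_mul_reflO hB _ hv₀', h.dick_mul_reflO hB _ hv, h.dick_reflO hB hu]; rfl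
        have e2 : finrank F (movS (h.reflO u * h.reflO v * h.reflO v₀).1) ≤ 2 :=
          hn2 ▸ Submodule.finrank_le _
        rw [dick] at e1
        generalize finrank F (movS (h.reflO u * h.reflO v * h.reflO v₀).1) = k at e1 e2
        interval_cases k
        · exact absurd e1 (by decide)
        · rfl
        · exact absurd e1 (by decide))
      have e' : h.reflO u * h.reflO v = h.reflO w * h.reflO v₀ := by
        rw [← e, mul_assoc, h.reflO_mul_self, mul_one]
      rw [e', show h.reflO w * h.reflO v₀ * (h.reflO w * h.reflO v₀) =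
        h.reflO w * h.reflO v₀ * (h.reflO w)⁻¹ * h.reflO v₀ by rw [h.reflO_inv]; group]
      exact mul_mem (this.conj_mem _ (hmem v₀ 1 one_ne_zero (by simp [hv₀])) _)
        (hmem v₀ 1 one_ne_zero (by simp [hv₀]))
    obtain ⟨k, hk⟩ := heven
    rw [← h.eichSub_eq_commutator hB hex (by omega)]
    refine h.eichSub_le fun u w hu huw => ?_
    by_cases hu0 : u = 0
    · subst hu0; rw [h.eich_zero_left]; exact one_mem _
    obtain ⟨f, hf, huf⟩ := h.exists_partner hB hu hu0
    refine h.eich_mem_of_hperp hu hf huf _ (fun w hw => ?_) huw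
    have hd := h.finrank_hperp hB hu hf huf
    have hW := nondegOn_iff.mpr (h.separatingLeft_hperp hB hu hf huf)
    have k1 : ∀ w (hw : w ∈ hperp B u f) (t : F), t ≠ 0 → Q w = c * t ^ 2 →
        h.eich hu (mem_hperp.mp hw).1 ∈ R := fun w hw t ht hQ => by
      rw [h.eich_eq_reflO_mul _ _ (by simp [hQ, hc, ht])]
      exact mul_mem (hmem _ t ht hQ) (hmem _ t ht (by
        simp [h.sub', h.smul', hu, h.refl (mem_hperp.mp hw).1, hQ]))
    let A : Submodule F V :=
      { carrier := {w | ∃ hw : w ∈ hperp B u f, ∀ a : F,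
          h.eich hu (mem_hperp.mp (Submodule.smul_mem _ a hw)).1 ∈ R}
        zero_mem' := ⟨zero_mem _, fun a => by simp [h.eich_zero, one_mem]⟩
        add_mem' := by
          rintro x y ⟨hx, hx'⟩ ⟨hy, hy'⟩
          refine ⟨add_mem hx hy, fun a => ?_⟩
          have := mul_mem (hx' a) (hy' a)
          rw [h.eich_mul] at this
          simpa only [smul_add] using this
        smul_mem' := by
          rintro a x ⟨hx, hx'⟩
          exact ⟨Submodule.smul_mem _ a hx, fun b => by simpa only [smul_smul] using hx' (b * a)⟩ }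
    have k2 : ∀ w ∈ hperp B u f, ∀ t : F, t ≠ 0 → Q w = c * t ^ 2 → w ∈ A := fun w hw t ht hQ =>
      ⟨hw, fun a => by
        by_cases ha : a = 0
        · simp [ha, h.eich_zero, one_mem]
        · exact k1 _ (Submodule.smul_mem _ a hw) (a * t) (mul_ne_zero ha ht) (by rw [h.smul', hQ]; ring)⟩
    have k3 : ∀ x ∈ hperp B u f, Q x ≠ 0 → x ∈ A := fun x hx hx0 => by
      have key : ∀ (a : F) (y : V) (t : F), a ≠ 0 → y ∈ hperp B u f → B x y = 0 → t ≠ 0 →
          a * a * Q x + Q y = c * t ^ 2 → x ∈ A := fun a y t ha hy hxy ht e => by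
        have e1 := k2 (a • x + y) (add_mem (Submodule.smul_mem _ _ hx) hy) t ht (by
          simp [h.add', h.smul', hxy, e])
        have e2 := k2 (a • x - y) (sub_mem (Submodule.smul_mem _ _ hx) hy) t ht (by
          simp [h.sub', h.smul', hxy, e])
        have := A.smul_mem (2 * a)⁻¹ (A.add_mem e1 e2)
        convert this using 1
        match_scalars <;> field_simp <;> ring
      have hxx : B x x ≠ 0 := by simp [h.diag', h2, hx0]
      obtain ⟨e1, e2⟩ := h.nondegOn_inf_perp hB hW (IsForm.nondegOn_span_singleton hxx)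
        ((Submodule.span_singleton_le_iff_mem _ _).mpr hx)
      rw [finrank_span_singleton (by rintro rfl; simp at hxx)] at e2
      by_cases hn4 : finrank F V = 4
      · obtain ⟨z, hz, hz0⟩ := h.exists_nonsingular e1 (fun h0 => by rw [h0, finrank_bot] at e2; omega)
        have hxz : B x z = 0 := hz.2 x (Submodule.mem_span_singleton_self x)
        by_cases hsq : ∃ r : F, Q z = c * r ^ 2
        · obtain ⟨r, hr⟩ := hsq
          have hr0 : r ≠ 0 := by rintro rfl; simp [hz0] at hr
          obtain ⟨s, hs0, hs⟩ : ∃ s : F, s ≠ 0 ∧ s * s ≠ -(Q x / c) := by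
            by_contra hne
            push Not at hne
            apply h43 ⟨hn4, ?_⟩
            have e3 := hne 1 one_ne_zero
            have e4 : ∀ s : F, s = 0 ∨ s = 1 ∨ s = -1 := fun s => by
              by_cases hs : s = 0
              · exact Or.inl hs
              · exact Or.inr (mul_self_eq_one_iff.mp (by rw [hne s hs, ← e3, mul_one]))
            have : (Finset.univ : Finset F) = {0, 1, -1} := by ext s; simpa using e4 s
            rw [← Finset.card_univ, this, Finset.card_eq_three]
            exact ⟨0, 1, -1, by simp, by simp, fun h0 => h2 (by linear_combination h0), rfl⟩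
          refine key 1 (((Q x / c / s - s) / 2 / r) • z) ((Q x / c / s + s) / 2) one_ne_zero
            (Submodule.smul_mem _ _ hz.1) (by simp [hxz]) (fun h0 => hs ?_) ?_
          · field_simp at h0 ⊢
            linear_combination h0
          · rw [h.smul', hr]; field_simp; ring
        · obtain ⟨y, hy, hyc⟩ := h.exists_eq_on hW (by omega) c
          have : y - (B x y / B x x) • x ∈ hperp B u f ⊓ perp B (Submodule.span F {x}) :=
            ⟨sub_mem hy (Submodule.smul_mem _ _ hx), mem_perp_span.mpr (by simp [hxx])⟩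
          obtain ⟨b, hb⟩ := (finrank_eq_one_iff_of_nonzero' (⟨z, hz⟩ : ↥(hperp B u f ⊓ perp B (Submodule.span F {x}))) (fun h0 => hz0 (by rw [show z = 0 from congrArg Subtype.val h0]; exact h.map_zero))).mp (show finrank F ↥(hperp B u f ⊓ perp B (Submodule.span F {x})) = 1 by omega) ⟨_, this⟩
          have hb' : y = (B x y / B x x) • x + b • z := by
            rw [show b • z = y - (B x y / B x x) • x from congrArg Subtype.val hb]; simp
          generalize B x y / B x x = a at hb'
          have e3 : a * a * Q x + Q (b • z) = c * 1 ^ 2 := by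
            rw [← hyc, hb', h.add', h.smul' a]; simp [hxz]
          refine key a (b • z) 1 ?_ (Submodule.smul_mem _ _ hz.1) (by simp [hxz]) one_ne_zero e3
          rintro rfl
          rw [h.smul'] at e3
          have hb0 : b ≠ 0 := by rintro rfl; simp [hc.symm] at e3
          exact hsq ⟨b⁻¹, by field_simp; linear_combination e3⟩
      · obtain ⟨y, hy, hyc⟩ := h.exists_eq_on e1 (by omega) (c - Q x)
        exact key 1 y 1 one_ne_zero hy.1 (hy.2 x (Submodule.mem_span_singleton_self x)) one_ne_zero
          (by rw [hyc]; ring)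
    have k4 : w ∈ A := by
      obtain ⟨b, -, -, hb⟩ : ∃ b : Basis (Fin (finrank F (hperp B u f) - 1 + 1)) F (hperp B u f), True ∧ True ∧ ∀ i, Q (b i) ≠ 0 := by
        obtain ⟨b, -, h3, h4⟩ := IsQuad.exists_orth_basis (h.restrict _) (h.separatingLeft_hperp hB hu hf huf) h2 (n := finrank F (hperp B u f) - 1) (by omega) one_ne_zero
        exact ⟨b, trivial, trivial, Fin.lastCases h4 fun i => by simp [h3]⟩
      have := congrArg Subtype.val (b.sum_repr ⟨w, hw⟩)
      simp only [Submodule.coe_sum, Submodule.coe_smul] at this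
      rw [← this]
      exact A.sum_mem fun i _ => A.smul_mem _ (k3 _ (b i).2 (hb i))
    simpa using k4.2 1
  have e1 := Subgroup.relIndex_mul_index hle
  rw [h.index_commutator_of_odd hB h2 hn] at e1
  have hz : ∀ g ∈ R, (dick g.1 = 0 ∧ h.spin hB hex g = 1) ∨ (dick g.1 = 1 ∧ h.spin hB hex g = quadraticChar F c) := by
    intro g hg
    have hχ := quadraticChar_sq_one hc
    induction hg using Subgroup.closure_induction with
    | mem x hx =>
      obtain ⟨v, t, ht, hv, rfl⟩ := hx
      have : Q v ≠ 0 := by simp [hv, hc, ht]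
      rw [h.dick_reflO hB this, h.spin_reflO hB hex this, hv, map_mul, quadraticChar_sq_one' ht]
      simp
    | one => simp [dick_one]
    | mul x y _ _ hx hy =>
      rw [h.dick_mul hB, map_mul]
      rcases hx with ⟨a, b⟩ | ⟨a, b⟩ <;> rcases hy with ⟨a', b'⟩ | ⟨a', b'⟩ <;> rw [a, b, a', b']
      · simp
      · simp
      · simp
      · left; exact ⟨rfl, by rw [← sq, hχ]⟩
    | inv x _ hx =>
      have : h.spin hB hex x⁻¹ = h.spin hB hex x := by
        have e := map_mul (h.spin hB hex) x⁻¹ x
        rw [inv_mul_cancel, map_one] at e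
        rcases h.spin_dichotomy hB hex x with e' | e' <;> rw [e'] at e ⊢ <;> omega
      rwa [h.dick_inv hB, this]
  have e2 : (commutator (Isom B Q)).relIndex R = 2 := by
    rw [Subgroup.relIndex_eq_two_iff]
    refine ⟨h.reflO v₀, hmem v₀ 1 one_ne_zero (by simp [hv₀]), fun b hb => ?_⟩
    rw [h.mem_commutator_iff hB hex, h.mem_commutator_iff hB hex, h.dick_mul_reflO hB _ hv₀', map_mul,
      h.spin_reflO hB hex hv₀', hv₀]
    rcases hz b hb with ⟨a, a'⟩ | ⟨a, a'⟩ <;> rw [a, a']
    · simp
    · rw [← sq, quadraticChar_sq_one hc]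
      exact Or.inl ⟨⟨rfl, rfl⟩, fun h0 => absurd h0.1 (by decide)⟩
  rw [e2] at e1
  omega

/-- For q odd, n ≥ 2 even, Q with non-degenerate polar form (n, |F|) ≠ (4, 3), and a fixed c ≠ 0: the subgroup of the isometry group generated by the reflections r_v with Q(v) ∈ c·(F^×)² has index 2. -/
theorem result {F : Type*} [Field F] [Fintype F] (h2 : (2 : F) ≠ 0) {n : ℕ} (hn : 2 ≤ n) (heven : Even n) (Q : QuadraticForm F (Fin n → F)) (hQ : (QuadraticMap.polarBilin Q).Nondegenerate) (h43 : ¬ (n = 4 ∧ Fintype.card F = 3)) (c : F) (hc : c ≠ 0) : (Subgroup.closure {g : ↥(Cfsg.isometryGroup F ⇑Q) | ∃ (v : Fin n → F) (t : F), t ≠ 0 ∧ Q v = c * t ^ 2 ∧ ((g : Matrix.GeneralLinearGroup (Fin n) F) : Matrix (Fin n) (Fin n) F) = Cfsg.reflectionMatrix ⇑Q v}).index = 2 := by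
  have h : H11.IsQuad Q.polarBilin Q := H11.isForm_quad Q
  refine Eq.trans ?_ (aux h hQ.1 h2 (by simpa) (by simpa) (by simpa using h43) c hc)
  refine H11.index_eq_of_equiv (H11.oEquiv h) _ _ (H11.mem_closure_equiv _ _ _ fun g => ?_)
  simp [H11.coe_eq_reflectionMatrix_iff h]

end Cfsg.Agent.S0798
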