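import Cfsg.Statements.S0801
import Mathlib
import Cfsg.Agent.H10.SL2Gen

set_option autoImplicit false
open Cfsg

namespace Cfsg.Agent.S0801

/-- Let F be a finite field of odd characteristic and λ ≠ 0 an element generating F as a field. Then the lower and upper unitriangular matrices with off-diagonal entries 1 and λ generate SL_2(F), unless |F| = 9 and λ² = −1, in which case they generate a subgroup of order 120. -/
theorem result {F : Type*} [Field F] [Fintype F] (h2 : (2 : F) ≠ 0) (lam : F) (hlam : lam ≠ 0) (hgen : Subfield.closure ({lam} : Set F) = ⊤) : (Subgroup.closure {g : Matrix.SpecialLinearGroup (Fin 2) F | (g : Matrix (Fin 2) (Fin 2) F) = !![1, 0; 1, 1] ∨ (g : Matrix (Fin 2) (Fin 2) F) = !![1, lam; 0, 1]} = ⊤ ∧ ¬ (Fintype.card F = 9 ∧ lam ^ 2 = -1)) ∨ (Fintype.card F = 9 ∧ lam ^ 2 = -1 ∧ Nat.card ↥(Subgroup.closure {g : Matrix.SpecialLinearGroup (Fin 2) F | (g : Matrix (Fin 2) (Fin 2) F) = !![1, 0; 1, 1] ∨ (g : Matrix (Fin 2) (Fin 2) F) = !![1, lam; 0, 1]})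 = 120) := by
  obtain ⟨p, hc⟩ := CharP.exists F
  have := Fact.mk (CharP.char_is_prime F p)
  have hp2 : p ≠ 2 := by rintro rfl; exact h2 (CharP.cast_eq_zero F 2)
  rw [← Nat.card_eq_fintype_card]
  rcases H10.closure_genSet_cases hp2 hlam hgen with h | h
  · refine Or.inl ⟨h, fun h9 => ?_⟩
    have h3 : p = 3 := by
      have h4 := H10.dvd_card_field (F := F) p
      rw [h9.1] at h4
      exact (Nat.prime_dvd_prime_iff_eq Fact.out Nat.prime_three).1
        ((Fact.out : p.Prime).dvd_of_dvd_pow (n := 2) h4)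
    subst h3
    exact H10.closure_genSet_ne_top h9.2 h
  · exact Or.inr ⟨h.1, h.2.1, h.2.2.1⟩

end Cfsg.Agent.S0801
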