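import Cfsg.Statements.S0802
import Mathlib
import Cfsg.Agent.H10.PSL2Max2

set_option autoImplicit false
open Cfsg

namespace Cfsg.Agent.S0802

/-- PSL_2(p^n) has a subgroup isomorphic to A_4 if and only if it is not the case that p = 2 and n is odd. -/
theorem result {F : Type*} [Field F] [Fintype F] (p n : ℕ) [Fact p.Prime] [CharP F p] (hF : Fintype.card F = p ^ n) : (∃ H : Subgroup (Matrix.ProjectiveSpecialLinearGroup (Fin 2) F), Nonempty (H ≃* alternatingGroup (Fin 4))) ↔ ¬ (p = 2 ∧ Odd n) := by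
  have hp : p.Prime := Fact.out
  rw [← Nat.card_eq_fintype_card] at hF
  constructor
  · rintro ⟨H, ⟨e⟩⟩ ⟨rfl, hn⟩
    have e' := (H10.mapPslEquiv H).symm.trans e
    have hc := (H10.card_of_equiv e').trans H10.card_A4
    have h3 : 2 ^ n % 3 = 2 := by
      obtain ⟨k, rfl⟩ := hn
      rw [pow_succ, pow_mul, Nat.mul_mod, Nat.pow_mod]; simp
    rcases H10.dickson 2 (H.map (H10.pslPi F)) with ⟨x, hx⟩ | ⟨z, z', e₀, he, h⟩ | h | h |
      ⟨L, g, hL, h⟩
    · have h1 := Subgroup.card_dvd_of_le hx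
      rw [hc, H10.card_stabilizer_PL, hF] at h1
      have := (Nat.prime_three.dvd_mul).1 ((by norm_num : 3 ∣ 12).trans h1)
      omega
    · exact (H10.noCycNormal_A4.of_equiv e').not_le_pairStab (by omega) he.1 h
    · exact h.2.1 (hc ▸ by norm_num)
    · omega
    · have h1 := congrArg (fun K : Subgroup _ => Nat.card K) (h.resolve_right fun h => h.1 rfl)
      simp only [H10.card_map_conj, hc] at h1
      rw [H10.card_pglOf] at h1
      have h2 := H10.dvd_card_field (F := L) 2
      have := H10.cube_le (a := 4) (b := Nat.card L) (by omega)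
      omega
  · intro h
    suffices ∃ H : Subgroup (Matrix.ProjGenLinGroup (Fin 2) F),
        Nonempty (H ≃* alternatingGroup (Fin 4)) by
      obtain ⟨H, ⟨e⟩⟩ := this
      obtain ⟨H', -, ⟨e'⟩⟩ := H10.exists_psl_subgroup (H10.alternating_le_pslSub e)
      exact ⟨H', ⟨e'.trans e⟩⟩
    by_cases h2 : p = 2
    · subst h2
      obtain ⟨L, hL⟩ := H10.exists_sq_subfield 2 hF (Nat.not_odd_iff_even.1 fun k => h ⟨rfl, k⟩)
      obtain ⟨e⟩ := H10.PSL2_four_equiv (F := L) hL
      obtain ⟨M, -, hM⟩ := H10.exists_A4_of_A5 ((H10.subPSLEquiv L).trans e)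
      exact ⟨M, hM⟩
    · exact H10.exists_A4 (H10.two_ne_zero_of_charP h2)

end Cfsg.Agent.S0802
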