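import Cfsg.Statements.S0803
import Mathlib
import Cfsg.Agent.H10.PSL2Max2

set_option autoImplicit false
open Cfsg

namespace Cfsg.Agent.S0803

/-- PSL_2(q) has a subgroup isomorphic to S_4 iff q² ≡ 1 (mod 16). -/
theorem result {F : Type*} [Field F] [Fintype F] {q : ℕ} (hF : Fintype.card F = q) : (∃ H : Subgroup (Matrix.ProjectiveSpecialLinearGroup (Fin 2) F), Nonempty (H ≃* Equiv.Perm (Fin 4))) ↔ q ^ 2 % 16 = 1 := by
  rw [← Nat.card_eq_fintype_card] at hF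
  have key : q ^ 2 % 16 = 1 ↔ q % 8 = 1 ∨ q % 8 = 7 := by
    have h1 : q % 16 < 16 := Nat.mod_lt _ (by norm_num)
    rw [Nat.pow_mod, ← Nat.mod_mod_of_dvd q (show 8 ∣ 16 by norm_num)]
    generalize q % 16 = a at *
    interval_cases a <;> simp
  rw [key, ← hF]
  constructor
  · rintro ⟨H, ⟨e⟩⟩
    obtain ⟨c, hc, h4⟩ := H10.exists_order_four_of_S4 ((H10.mapPslEquiv H).symm.trans e)
    exact H10.eight_dvd_of_order_four (H10.map_pslPi_le H hc) h4
  · intro h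
    have h2 : (2 : F) ≠ 0 := H10.two_ne_zero_of_odd (Nat.odd_iff.2 (by omega))
    obtain ⟨H, ⟨e⟩⟩ := H10.exists_S4 h2
    obtain ⟨H', -, ⟨e'⟩⟩ := H10.exists_psl_subgroup ((H10.S4_le_pslSub_iff h2 e).2 h)
    exact ⟨H', ⟨e'.trans e⟩⟩

end Cfsg.Agent.S0803
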