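import Cfsg.Statements.S0805
import Mathlib
import Cfsg.Agent.H10.PSL2Max2

set_option autoImplicit false
open Cfsg

namespace Cfsg.Agent.S0805

/-- Subfield subgroups: let F be a finite field of odd order q and K a finite field with |K|^m = q, m ≥ 1. Then PSL_2(F) has a subgroup isomorphic to PSL_2(K), and has a subgroup isomorphic to PGL_2(K) if and only if m is even. -/
theorem result {F K : Type*} [Field F] [Fintype F] [Field K] [Fintype K] {q : ℕ} (hF : Fintype.card F = q) (hodd : Odd q) (m : ℕ) (hm : 1 ≤ m) (hK : Fintype.card K ^ m = q) : (∃ H : Subgroup (Matrix.ProjectiveSpecialLinearGroup (Fin 2) F), Nonempty (H ≃* Matrix.ProjectiveSpecialLinearGroup (Fin 2) K)) ∧ ((∃ H : Subgroup (Matrix.ProjectiveSpecialLinearGroup (Fin 2) F), Nonempty (H ≃* Matrix.ProjGenLinGroup (Fin 2) K)) ↔ Even m) := by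
  rw [← Nat.card_eq_fintype_card] at hF hK
  subst hF
  obtain ⟨L, hL, ⟨e⟩⟩ := H10.exists_subfield_equiv hK
  refine ⟨?_, ?_, fun he => ?_⟩
  · obtain ⟨H', -, ⟨e'⟩⟩ := H10.exists_psl_subgroup (H10.pslOf_le L)
    exact ⟨H', ⟨e'.trans ((H10.subPSLEquiv L).trans (H10.pslCongr e.symm))⟩⟩
  · rintro ⟨H, ⟨e'⟩⟩
    by_contra hm'
    obtain ⟨k, rfl⟩ := Nat.not_even_iff_odd.1 hm'
    obtain ⟨p, hp, _⟩ := H10.exists_charP F
    have := Fact.mk hp
    obtain ⟨z, z', -, hz⟩ := H10.exists_isTorusPair_nonsplit K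
    obtain ⟨c, hc⟩ := hz.exists_gen ⊤
    have h1 := hz.card_torus
    rw [top_inf_eq] at hc
    rw [hc, Nat.card_zpowers] at h1
    obtain ⟨d, hd, h2⟩ := H10.exists_orderOf_of_hom ((H10.mapPslEquiv H).symm.trans e') c
    rw [h1] at h2
    have h3 := Nat.le_of_dvd Nat.card_pos (H10.dvd_card_field (F := L) p)
    have h4 := H10.psl_orderOf_dvd (p := p) (H10.map_pslPi_le H hd) (fun h => by
      have := Nat.le_of_dvd hp.pos (orderOf_dvd_of_pow_eq_one h)
      omega)
    rw [H10.gcd_two_eq_two hodd, h2, ← hK] at h4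
    have h5 : Odd (Nat.card K) := by
      rw [← hK] at hodd
      exact (Nat.odd_pow_iff (by omega)).1 hodd
    have h6 := H10.two_le_card_field (F := K)
    generalize Nat.card K = l at *
    obtain ⟨a, rfl⟩ := h5
    have h7 : (2 * a + 1) ^ (2 * k + 1) ≡ 2 * a + 1 [MOD 2 * (2 * a + 1 + 1)] := by
      have : (2 * a + 1) ^ 2 ≡ 1 [MOD 2 * (2 * a + 1 + 1)] :=
        ((Nat.modEq_iff_dvd' (by nlinarith)).2 ⟨a, by rw [Nat.sub_eq_iff_eq_add (by nlinarith)]; ring⟩).symm
      have := (this.pow k).mul_right (2 * a + 1)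
      rwa [one_pow, one_mul, ← pow_mul, ← pow_succ] at this
    have h8 : 1 ≤ (2 * a + 1) ^ (2 * k + 1) := Nat.one_le_pow _ _ (by omega)
    rcases h4 with h4 | h4
    · have h9 := ((Nat.modEq_iff_dvd' h8).2 h4).trans h7
      have := Nat.le_of_dvd (by omega) ((Nat.modEq_iff_dvd' (by omega)).1 h9)
      omega
    · have h9 := (h7.add_right 1).symm.trans ((Nat.modEq_zero_iff_dvd).2 h4)
      have := Nat.le_of_dvd (by omega) (Nat.modEq_zero_iff_dvd.1 h9)
      omega
  · obtain ⟨H', -, ⟨e'⟩⟩ := H10.exists_psl_subgroup (H10.pglOf_le_of_even (hL ▸ hK) he)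
    exact ⟨H', ⟨e'.trans ((H10.subPGLEquiv L).trans (H10.pglCongr e.symm))⟩⟩

end Cfsg.Agent.S0805
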