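import Cfsg.Statements.S0806
import Mathlib
import Cfsg.Agent.H10.PSL2Max2

set_option autoImplicit false
open Cfsg

namespace Cfsg.Agent.S0806

/-- Minimal index (Galois): if q ∉ {2, 3, 5, 7, 9, 11} then every proper subgroup of PSL_2(q) has index ≥ q + 1, and some subgroup has index exactly q + 1. -/
theorem result {F : Type*} [Field F] [Fintype F] {q : ℕ} (hF : Fintype.card F = q) (hq : q ∉ ({2, 3, 5, 7, 9, 11} : Finset ℕ)) : (∀ H : Subgroup (Matrix.ProjectiveSpecialLinearGroup (Fin 2) F), H ≠ ⊤ → q + 1 ≤ H.index) ∧ ∃ H : Subgroup (Matrix.ProjectiveSpecialLinearGroup (Fin 2) F), H.index = q + 1 := by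
  rw [← Nat.card_eq_fintype_card] at hF
  subst hF
  simp only [Finset.mem_insert, Finset.mem_singleton, not_or] at hq
  have h2 := H10.two_le_card_field (F := F)
  have hc := H10.card_PSL2 (F := F)
  refine ⟨fun H hH => ?_, ?_⟩
  · obtain ⟨p, hp, _⟩ := H10.exists_charP F
    have := Fact.mk hp
    have hi := H.index_mul_card
    have hd := H10.gcd_two_cases (F := F)
    suffices Nat.gcd 2 (Nat.card F - 1) * Nat.card H ≤ Nat.card F * (Nat.card F - 1) by
      by_contra h
      have h3 : H.index ≤ Nat.card F := by omega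
      have h4 := Nat.mul_le_mul h3 this
      rw [mul_left_comm, hi, hc, mul_comm _ (Nat.card F + 1)] at h4
      have : 0 < Nat.card F * (Nat.card F - 1) := Nat.mul_pos (by omega) (by omega)
      nlinarith
    rw [← H10.card_map_pslPi]
    have hle := H10.map_pslPi_le H
    rcases H10.dickson_proper p (H := H.map (H10.pslPi F)) (fun h => hH (Subgroup.map_injective
      H10.pslPi_injective ((le_antisymm hle h).trans H10.map_top_pslPi.symm))) with
      ⟨x, hx⟩ | ⟨z, z', e, he, h⟩ | ⟨-, k1, k2⟩ | ⟨L, g, r, k1, k2, k3, k4⟩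
    · rw [← H10.card_psl_inf_stabilizer x]
      exact Nat.mul_le_mul_left _ (Subgroup.card_le_of_le (le_inf hle hx))
    · refine (Nat.mul_le_mul_left _ (Subgroup.card_le_of_le (le_inf hle h))).trans ?_
      rw [he.card_inf_pairStab le_rfl, mul_left_comm, he.card_psl_inf_torus]
      have := he.e_eq
      obtain ⟨a, ha⟩ : ∃ a, Nat.card F = a + 1 := ⟨Nat.card F - 1, by omega⟩
      rw [ha] at this hq h2 ⊢
      simp only [Nat.add_sub_cancel] at this ⊢
      have : 3 ≤ a := by omega
      rcases this.eq_or_lt with rfl | h3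
      · omega
      · nlinarith [show e ≤ a + 2 by omega]
    · have h3 := Nat.odd_iff.1 (H10.odd_card_of_two_ne_zero (H10.two_ne_zero_of_charP (F := F) k1))
      have : 13 * (13 - 1) ≤ Nat.card F * (Nat.card F - 1) := Nat.mul_le_mul (by omega) (by omega)
      rcases hd with hd | hd <;> rw [hd] <;> omega
    · have a1 := Subgroup.card_le_of_le k4
      rw [H10.card_map_conj, H10.card_pglOf] at a1
      have a3 : Nat.card L ^ 2 ≤ Nat.card F := k3 ▸ Nat.pow_le_pow_right (by omega) k2.two_le
      refine (Nat.mul_le_mul H10.gcd_two_le a1).trans (le_trans ?_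
        (Nat.mul_le_mul a3 (Nat.sub_le_sub_right a3 1)))
      obtain ⟨a, ha⟩ : ∃ a, Nat.card L = a + 1 := ⟨Nat.card L - 1, by omega⟩
      rw [ha, Nat.add_sub_cancel, show (a + 1) ^ 2 - 1 = a * (a + 1 + 1) from
        Nat.sub_eq_of_eq_add (by ring)]
      have : 2 ≤ a + 1 := by omega
      calc 2 * ((a + 1) * a * (a + 1 + 1)) ≤ (a + 1) * ((a + 1) * a * (a + 1 + 1)) := by gcongr
        _ = _ := by ring
  · obtain ⟨H, hH, ⟨e⟩⟩ := H10.exists_psl_subgroup
      (H := H10.pslSub F ⊓ MulAction.stabilizer _ (H10.inf F)) inf_le_left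
    refine ⟨H, Nat.eq_of_mul_eq_mul_right (Nat.card_pos (α := H)) ?_⟩
    rw [H.index_mul_card, Nat.card_congr e.toEquiv, H10.card_inf_stabilizer le_rfl,
      Nat.card_congr (H10.pslEquiv F).toEquiv]

end Cfsg.Agent.S0806
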