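import Cfsg.Statements.S0807
import Mathlib
import Cfsg.Agent.H10.PSL2Max3

set_option autoImplicit false
open Cfsg

namespace Cfsg.Agent.S0807

/-- For q odd, twelve times the number of Klein four-subgroups of PSL_2(q) equals the order of PSL_2(q). -/
theorem result {F : Type*} [Field F] [Fintype F] {q : ℕ} (hF : Fintype.card F = q) (hodd : Odd q) : 12 * Nat.card {V : Subgroup (Matrix.ProjectiveSpecialLinearGroup (Fin 2) F) // IsKleinFour V} = Nat.card (Matrix.ProjectiveSpecialLinearGroup (Fin 2) F) := by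
  rw [← Nat.card_eq_fintype_card] at hF
  subst hF
  have h2 := H10.two_ne_zero_of_odd hodd
  obtain ⟨V, hV, hV'⟩ := H10.exists_kleinFour h2
  have h1 := H10.card_conj_subgroups ⊤ V
  have h3 := H10.card_setOf_psl (F := F) fun W => IsKleinFour W
  have h4 : Nat.card {V : Subgroup (Matrix.ProjectiveSpecialLinearGroup (Fin 2) F) // IsKleinFour V} =
      Nat.card {V : Subgroup (Matrix.ProjectiveSpecialLinearGroup (Fin 2) F) //
        IsKleinFour (V.map (H10.pslPi F))} :=
    Nat.card_congr (Equiv.subtypeEquivRight fun W => ⟨H10.isKleinFour_of_equiv (H10.mapPslEquiv W),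
      H10.isKleinFour_of_equiv (H10.mapPslEquiv W).symm⟩)
  have h5 : {W : Subgroup (Matrix.ProjGenLinGroup (Fin 2) F) | W ≤ H10.pslSub F ∧ IsKleinFour W} =
      {W | ∃ g ∈ (⊤ : Subgroup _), V.map (MulAut.conj g).toMonoidHom = W} := by
    ext W
    constructor
    · rintro ⟨a, b⟩
      obtain ⟨g, hg⟩ := H10.kleinFour_conj h2 hV' b hV a
      exact ⟨g, trivial, hg⟩
    · rintro ⟨g, -, rfl⟩
      exact ⟨H10.map_conj_le_of_normal hV g, H10.isKleinFour_of_equiv (H10.mapConjEquiv V g) hV'⟩
  rw [top_inf_eq, H10.card_normalizer_kleinFour h2 hV' hV, Subgroup.card_top, H10.card_PGL2,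
    ← H10.card_PSL2, H10.gcd_two_eq_two hodd, ← h5, ← h3, ← h4] at h1
  omega

end Cfsg.Agent.S0807
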