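import Cfsg.Statements.S0808
import Mathlib
import Cfsg.Agent.H10.PSL2Max3

set_option autoImplicit false
open Cfsg

namespace Cfsg.Agent.S0808

/-- Conjugacy classes of four-groups in PSL_2(q), q odd: if q ≡ 3 or 5 (mod 8) all Klein four-subgroups are conjugate; if q ≡ 1 or 7 (mod 8) there are two Klein four-subgroups which are not conjugate, and every Klein four-subgroup is conjugate to one of them. -/
theorem result {F : Type*} [Field F] [Fintype F] {q : ℕ} (hF : Fintype.card F = q) (hodd : Odd q) : ((q % 8 = 3 ∨ q % 8 = 5) → ∀ V W : Subgroup (Matrix.ProjectiveSpecialLinearGroup (Fin 2) F), IsKleinFour V → IsKleinFour W → ∃ g : Matrix.ProjectiveSpecialLinearGroup (Fin 2) F, W = V.map (MulAut.conj g).toMonoidHom) ∧ ((q % 8 = 1 ∨ q % 8 = 7) → ∃ V₁ V₂ : Subgroup (Matrix.ProjectiveSpecialLinearGroup (Fin 2) F), IsKleinFour V₁ ∧ IsKleinFour V₂ ∧ (¬ ∃ g : Matrix.ProjectiveSpecialLinearGroup (Fin 2) F, V₂ = V₁.map (MulAut.conj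 g).toMonoidHom) ∧ ∀ W : Subgroup (Matrix.ProjectiveSpecialLinearGroup (Fin 2) F), IsKleinFour W → (∃ g : Matrix.ProjectiveSpecialLinearGroup (Fin 2) F, W = V₁.map (MulAut.conj g).toMonoidHom) ∨ (∃ g : Matrix.ProjectiveSpecialLinearGroup (Fin 2) F, W = V₂.map (MulAut.conj g).toMonoidHom)) := by
  rw [← Nat.card_eq_fintype_card] at hF
  subst hF
  have h2 := H10.two_ne_zero_of_odd hodd
  have hi := H10.index_pslSub_odd h2
  have key : ∀ V : Subgroup (Matrix.ProjectiveSpecialLinearGroup (Fin 2) F), IsKleinFour V →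
      IsKleinFour (V.map (H10.pslPi F)) := fun V => H10.isKleinFour_of_equiv (H10.mapPslEquiv V)
  refine ⟨fun h V W hV hW => ?_, fun h => ?_⟩
  · obtain ⟨g, hg⟩ := H10.kleinFour_conj h2 (key V hV) (key W hW) (H10.map_pslPi_le V)
      (H10.map_pslPi_le W)
    obtain ⟨e⟩ := H10.normalizer_kleinFour_equiv h2 (key V hV) (H10.map_pslPi_le V)
    obtain ⟨n, hn, hn'⟩ := H10.exists_conj_mem_of_not_le hi
      (mt (H10.S4_le_pslSub_iff h2 e).1 (by omega)) g
    exact H10.exists_conj_psl hn (hn'.trans hg)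
  · obtain ⟨V, hV, hV'⟩ := H10.exists_kleinFour h2
    obtain ⟨e⟩ := H10.normalizer_kleinFour_equiv h2 hV' hV
    obtain ⟨x, h1, h3⟩ := H10.exists_two_classes hi ((H10.S4_le_pslSub_iff h2 e).2 h)
    obtain ⟨V₁, rfl, ⟨e₁⟩⟩ := H10.exists_psl_subgroup hV
    obtain ⟨V₂, hV₂, ⟨e₂⟩⟩ := H10.exists_psl_subgroup (H10.map_conj_le_of_normal hV x)
    refine ⟨V₁, V₂, H10.isKleinFour_of_equiv e₁.symm hV', H10.isKleinFour_of_equiv
      ((H10.mapConjEquiv _ x).trans e₂.symm) hV', ?_, fun W hW => ?_⟩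
    · rintro ⟨g, rfl⟩
      exact h1 _ (H10.pslPi_mem g) (by rw [← hV₂, H10.map_conj_map])
    · obtain ⟨g, hg⟩ := H10.kleinFour_conj h2 hV' (key W hW) hV (H10.map_pslPi_le W)
      obtain ⟨n, hn, k | k⟩ := h3 g
      · exact Or.inl (H10.exists_conj_psl hn (k.trans hg))
      · exact Or.inr (H10.exists_conj_psl hn (hV₂ ▸ k.trans hg))

end Cfsg.Agent.S0808
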