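import Cfsg.Statements.S0810
import Mathlib
import Cfsg.Agent.H10.PSL2Max3

set_option autoImplicit false
open Cfsg

namespace Cfsg.Agent.S0810

/-- PSL_2(q) is minimal simple iff q is 2^r (r prime), 3^r (r an odd prime), a prime greater than 5 congruent to 2 or 3 mod 5, or 5. -/
theorem result {F : Type*} [Field F] [Fintype F] {q : ℕ} (hF : Fintype.card F = q) : Cfsg.IsMinimalSimple (Matrix.ProjectiveSpecialLinearGroup (Fin 2) F) ↔ ((∃ r : ℕ, r.Prime ∧ q = 2 ^ r) ∨ (∃ r : ℕ, r.Prime ∧ r ≠ 2 ∧ q = 3 ^ r) ∨ (q.Prime ∧ 5 < q ∧ (q % 5 = 2 ∨ q % 5 = 3)) ∨ q = 5) := by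
  rw [← Nat.card_eq_fintype_card] at hF
  subst hF
  obtain ⟨p, hp, _⟩ := H10.exists_charP F
  have := Fact.mk hp
  obtain ⟨n, hn1, hn⟩ := H10.exists_card_eq_pow' F p
  have h2 := H10.two_le_card_field (F := F)
  constructor
  · rintro ⟨h1, h3, h4⟩
    have h5 : ∀ H ≤ H10.pslSub F, H ≠ H10.pslSub F → Group.IsSolvable H := fun H a b => by
      obtain ⟨H', rfl, ⟨e⟩⟩ := H10.exists_psl_subgroup a
      exact H10.isSolvable_of_equiv e.symm (h4 H' (by rintro rfl; exact b H10.map_top_pslPi))
    have h6 : ¬ Group.IsSolvable (Matrix.ProjectiveSpecialLinearGroup (Fin 2) F) := fun h =>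
      h3 ⟨⟨IsSimpleGroup.comm_iff_isSolvable.2 h⟩⟩
    have h7 : ∀ L : Subfield F, 4 ≤ Nat.card L → Nat.card L = Nat.card F := fun L hL => by
      by_contra hne
      exact H10.not_isSolvable_PSL2 hL (H10.isSolvable_of_equiv (H10.subPSLEquiv L).symm
        (h5 _ (H10.pslOf_le L) (H10.pslOf_ne (H10.subfield_ne_top_of_card hne))))
    have h8 : 7 ≤ Nat.card F → Odd (Nat.card F) →
        ¬ (Nat.card F % 5 = 0 ∨ Nat.card F % 5 = 1 ∨ Nat.card F % 5 = 4) := fun a a' b => by
      obtain ⟨B, ⟨e⟩⟩ := H10.exists_A5 (F := F) ((H10.five_dvd_iff Nat.card_pos).2 b)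
      have c := (H10.card_of_equiv e).trans H10.card_A5
      have := H10.card_pslSub_ge a
      exact H10.not_isSolvable_A5 (H10.isSolvable_of_equiv e.symm
        (h5 B (H10.alternating_le_pslSub e) fun k => by rw [k] at c; omega))
    have h9 : 4 ≤ Nat.card F := by
      by_contra h9
      obtain ⟨L, hL⟩ := H10.exists_prime_subfield F p
      rcases (by omega : Nat.card F = 2 ∨ Nat.card F = 3) with k | k
      · obtain ⟨e⟩ := H10.SL2_two_equiv k
        have : Group.IsSolvable (Matrix.SpecialLinearGroup (Fin 2) F) := H10.isSolvable_of_equiv e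
          (have := H10.isSolvable_S4
           Group.isSolvable_of_isSolvable_injective
            (Equiv.Perm.viaEmbeddingHom_injective (Fin.castSuccEmb (n := 3))))
        exact h6 inferInstance
      · obtain ⟨e⟩ := H10.PSL2_three_equiv k
        exact h6 (H10.isSolvable_of_equiv e H10.isSolvable_A4)
    have h10 : n = 1 ∨ n.Prime := by
      by_contra h
      push Not at h
      obtain ⟨m, hm⟩ := Nat.minFac_dvd n
      have a1 := Nat.minFac_prime h.1
      obtain ⟨L, hL⟩ := H10.exists_subfield_card (F := F) p (d := n.minFac) (m := m) a1.ne_zero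
        (by rw [← pow_mul, ← hm, hn])
      have a2 := h7 L (hL ▸ le_trans (by norm_num) (Nat.pow_le_pow_left hp.two_le _ |>.trans'
        (Nat.pow_le_pow_right two_pos a1.two_le)))
      rw [hL, hn] at a2
      exact h.2 (Nat.pow_right_injective hp.two_le a2 ▸ a1)
    by_cases a2 : p = 2
    · subst a2
      exact Or.inl ⟨n, h10.resolve_left (by rintro rfl; omega), hn⟩
    by_cases a3 : p = 3
    · subst a3
      refine Or.inr (Or.inl ⟨n, h10.resolve_left (by rintro rfl; omega), ?_, hn⟩)
      rintro rfl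
      exact h8 (by omega) (by rw [hn]; decide) (by omega)
    obtain ⟨L, hL⟩ := H10.exists_prime_subfield F p
    have a4 := hp.eq_two_or_odd
    have a5 := hp.two_le
    have a6 := h7 L (by omega)
    have a7 := h8
    rw [← a6, hL] at a7 ⊢
    by_cases a8 : p = 5
    · exact Or.inr (Or.inr (Or.inr a8))
    · refine Or.inr (Or.inr (Or.inl ⟨hp, by omega, ?_⟩))
      have := a7 (by omega) (Nat.odd_iff.2 (by omega))
      omega
  · intro h
    have h4 : 4 ≤ Nat.card F := by
      rcases h with ⟨r, a, b⟩ | ⟨r, a, -, b⟩ | h | h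
      · exact b ▸ Nat.pow_le_pow_right two_pos a.two_le
      · exact b ▸ le_trans (by norm_num) (Nat.pow_le_pow_right three_pos a.two_le)
      · omega
      · omega
    have hs := H10.isSimpleGroup_PSL_fin (F := F) (n := 2) le_rfl fun _ => h4
    refine ⟨hs, fun k => H10.not_isSolvable_PSL2 h4 (Group.isSolvable_of_comm k.1.1), fun H hH => ?_⟩
    refine H10.isSolvable_of_equiv (H10.mapPslEquiv H) ?_
    rcases H10.dickson_proper p (H10.map_pslPi_not_ge hH) with ⟨x, hx⟩ | ⟨z, z', e, he, hz⟩ |
      ⟨k1, k2, k3⟩ | ⟨L, g, r, k1, k2, k3, k4⟩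
    · exact H10.isSolvable_of_le_stabilizer hx
    · exact H10.isSolvable_of_le_pairStab he.1 hz
    · rcases (by omega : Nat.card (H.map (H10.pslPi F)) = 12 ∨ Nat.card (H.map (H10.pslPi F)) = 24 ∨
        Nat.card (H.map (H10.pslPi F)) = 60) with k | k | k
      · obtain ⟨e⟩ := k1.equiv_A4 k
        exact H10.isSolvable_of_equiv e H10.isSolvable_A4
      · obtain ⟨e⟩ := k1.equiv_S4 k
        exact H10.isSolvable_of_equiv e H10.isSolvable_S4
      · exfalso
        obtain ⟨e⟩ := k1.equiv_A5 k
        have a1 := (H10.five_dvd_iff Nat.card_pos).1 (H10.five_dvd_of_A5 e)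
        rcases h with ⟨r, a, b⟩ | ⟨r, a, c, b⟩ | h | h
        · exact k2 (H10.char_eq_of_card_eq p Nat.prime_two b)
        · have := H10.pow_mod_five_of_odd (a.odd_of_ne_two c)
          omega
        · omega
        · obtain rfl := H10.char_eq_of_card_eq p (r := 5) (n := 1) (by norm_num) h
          omega
    · refine H10.isSolvable_of_equiv (H10.mapConjEquiv _ g) (H10.isSolvable_of_le k4
        (H10.isSolvable_pglOf_three ?_))
      obtain ⟨m, hm1, hm⟩ := H10.exists_card_eq_pow' L p
      have key : ∀ s : ℕ, s.Prime → Nat.card F = p ^ s → Nat.card L = p := fun s a b => by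
        rw [hm, b, ← pow_mul] at k3
        have := Nat.pow_right_injective hp.two_le k3
        rcases (Nat.dvd_prime a).1 ⟨r, this.symm⟩ with c | c
        · rw [hm, c, pow_one]
        · rw [c] at this
          have := k2.two_le
          have := a.pos
          nlinarith
      rcases h with ⟨s, a, b⟩ | ⟨s, a, c, b⟩ | h | h
      · obtain rfl := H10.char_eq_of_card_eq p Nat.prime_two b
        have := key s a b
        omega
      · obtain rfl := H10.char_eq_of_card_eq p Nat.prime_three b
        exact key s a b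
      · exact absurd h.1 (H10.not_pow_of_prime k2 k3)
      · exact absurd (h ▸ by norm_num) (H10.not_pow_of_prime k2 k3)

end Cfsg.Agent.S0810
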