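import Cfsg.Statements.S0814
import Mathlib
import Cfsg.Agent.H10.AutSp4

set_option autoImplicit false
open Cfsg

namespace Cfsg.Agent.S0814

/-- |Aut(PSp_2m(q))| = gcd(2, q−1) · f · |PSp_2m(q)| for q = p^f, m ≥ 2, (m, q) ≠ (2, 2), with an extra factor 2 exactly when m = 2 and p = 2. -/
theorem result {F : Type*} [Field F] [Fintype F] (p f : ℕ) [Fact p.Prime] (hf : 1 ≤ f) (hF : Fintype.card F = p ^ f) (m : ℕ) (hm : 2 ≤ m) (h22 : m = 2 → 3 ≤ p ^ f) : Nat.card (MulAut (Cfsg.PSp m F)) = (if m = 2 ∧ p = 2 then 2 else 1) * Nat.gcd 2 (p ^ f - 1) * f * Nat.card (Cfsg.PSp m F) := by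
  have : NeZero m := ⟨by omega⟩
  have : Nonempty (Fin m) := ⟨0⟩
  have h0 := H10.card_range_qDiag (F := F) (m := m)
  rw [Subgroup.card_eq_card_quotient_mul_card_subgroup (Subgroup.center (Matrix.symplecticGroup (Fin m) F)), H10.card_center_sp,
    hF] at h0
  have h2 : (2 : F) = 0 ↔ p = 2 := by
    rw [H10.two_eq_zero_iff_even_card, hF, ← Nat.dvd_iff_mod_eq_zero,
      Nat.prime_two.prime.dvd_pow_iff_dvd (by omega), Nat.prime_dvd_prime_iff_eq Nat.prime_two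
      Fact.out, eq_comm]
  split_ifs with h
  · obtain ⟨rfl, rfl⟩ := h
    have := H10.charP_two_of (h2.2 rfl)
    obtain ⟨π, h1, h3⟩ := H10.exists_autType_PSp4 (F := F)
    rw [H10.card_eq_card_ker_mul π h3, h1, ← H10.range_qDiag_eq_inn, h0, Nat.card_zpowers,
      H10.orderOf_qGam, (H10.ringAut_cyclic_card hF).2]
    ring
  · obtain ⟨π, h1, h3⟩ := H10.exists_autType_PSp (F := F) hm fun h4 h5 => h ⟨h4, h2.1 h5⟩
    rw [H10.card_eq_card_ker_mul π fun σ => ⟨_, h3 σ⟩, h1, h0, (H10.ringAut_cyclic_card hF).2]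
    ring

end Cfsg.Agent.S0814
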