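import Cfsg.Statements.S2605
import Mathlib
import Cfsg.Agent.H11.OOut3

set_option autoImplicit false
open Cfsg

namespace Cfsg.Agent.S2605

/-- Outer automorphism group of PΩ⁻_2m(q), m ≥ 4, q = 2^f: cyclic of order 2f, generated by a semilinear map inducing the Frobenius automorphism of the field (its f-th power is a graph automorphism, an orthogonal transvection). -/
theorem result {F : Type*} [Field F] [Fintype F] {f m : ℕ} (hf : 1 ≤ f) (hF : Fintype.card F = 2 ^ f) (hm : 4 ≤ m) (a b : F) (hab : ∀ z₁ z₂ : F, z₁ ^ 2 + a * z₁ * z₂ + b * z₂ ^ 2 = 0 → z₁ = 0 ∧ z₂ = 0) : IsCyclic (Cfsg.Out (Cfsg.POmega F (Cfsg.quadFormMinus (m - 1) F a b))) ∧ Nat.card (Cfsg.Out (Cfsg.POmega F (Cfsg.quadFormMinus (m - 1) F a b))) = 2 * f := by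
  have : CharP F 2 := charP_of_card_eq_prime_pow hF
  have h2 : (2 : F) = 0 := CharTwo.two_eq_zero
  have h := H11.isQuad_minus (m - 1) F a b
  have hB := H11.bMinus_sep (m - 1) hab
  have hω := h.isOut hB (by simp; omega)
  have hex := h.nonExc_of_finrank hB (by simp; omega)
  obtain ⟨γ, h3, h4, g, h5, h6⟩ := H11.exists_frob_minus hab (m - 1)
  obtain ⟨e⟩ := hω.cyclic_sq hB (h.even_finrank_of_char_two hB h2) (by simp)
    (hω.soMap_eq_bot_of_char_two hB hex h2) (by simp [h3]) h4 h5 h6 hex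
  rw [show (H11.IsQuad.multChar hB (by simp)).ker = ⊤ from eq_top_iff.mpr fun γ _ =>
    H11.IsQuad.multChar_eq_one.mpr (H11.isSquare_of_two_eq_zero h2 _), Subgroup.map_top_of_surjective _
      (h.outBar_surjective (H11.oBar_surjective_minus (by omega) hab)),
    (H10.ringAut_cyclic_card hF).2] at e
  have e' := Subgroup.topEquiv.symm.trans e
  exact ⟨e'.isCyclic.mpr inferInstance, by
    rw [Nat.card_congr e'.toEquiv, Nat.card_congr Multiplicative.toAdd, Nat.card_zmod]⟩

end Cfsg.Agent.S2605
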