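import Cfsg.Statements.S2606
import Mathlib
import Cfsg.Agent.H11.OOut3

set_option autoImplicit false
open Cfsg

namespace Cfsg.Agent.S2606

/-- Outer automorphism group of PΩ⁻_2m(q), m ≥ 4, q = p^f odd: it is dihedral of order 8 times cyclic of order f when q ≡ 3 (mod 4) and m is odd, and otherwise the direct product of a group of order 2 with a cyclic group of order 2f. -/
theorem result {F : Type*} [Field F] [Fintype F] {p f m : ℕ} [Fact p.Prime] (hf : 1 ≤ f) (hF : Fintype.card F = p ^ f) (hp : p ≠ 2) (hm : 4 ≤ m) (a b : F) (hab : ∀ z₁ z₂ : F, z₁ ^ 2 + a * z₁ * z₂ + b * z₂ ^ 2 = 0 → z₁ = 0 ∧ z₂ = 0) : if p ^ f % 4 = 3 ∧ Odd m then Nonempty (Cfsg.Out (Cfsg.POmega F (Cfsg.quadFormMinus (m - 1) F a b)) ≃* DihedralGroup 4 × Multiplicative (ZMod f)) else Nonempty (Cfsg.Out (Cfsg.POmega F (Cfsg.quadFormMinus (m - 1) F a b)) ≃* Multiplicative (ZMod 2 × ZMod (2 * f))) := by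
  have : CharP F p := charP_of_card_eq_prime_pow hF
  have h2 : (2 : F) ≠ 0 := fun h => hp ((Nat.prime_dvd_prime_iff_eq Fact.out Nat.prime_two).mp
    ((CharP.cast_eq_zero_iff F p 2).mp (by exact_mod_cast h)))
  obtain ⟨m, rfl⟩ : ∃ k, m = k + 1 := ⟨m - 1, by omega⟩
  have h := H11.isQuad_minus m F a b
  have hB := H11.bMinus_sep m hab
  have hω := h.isOut hB (by simp; omega)
  have hex := h.nonExc_of_two_ne_zero hB h2
  have hs := h.outBar_surjective (H11.oBar_surjective_minus (by omega) hab)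
  obtain ⟨γ, h3, h4, g, h5, h6⟩ := H11.exists_frob_minus hab m
  obtain ⟨δ, hδ⟩ := H11.exists_goodSim_minus hab h2 m
  obtain ⟨e2⟩ := H10.nonempty_ringAut_equiv hF
  have h7 := H11.negI_mem_minus hab h2 m
  have h8 := (H10.ringAut_cyclic_card hF).2
  rw [hF, and_comm] at h7
  split_ifs with H
  · obtain ⟨e⟩ := hω.prod_equiv_of_odd_card hB h2 (H11.finrank_minus m) hδ.nonsq hs (by
      rw [h8, ← Nat.not_even_iff_odd]
      rintro ⟨k, rfl⟩
      have := H.1
      rw [pow_add, Nat.mul_mod] at this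
      have h9 : ∀ x < 4, x * x % 4 ≠ 3 := by decide
      exact h9 _ (Nat.mod_lt _ (by norm_num)) this) (by simp [h3]) h4
    obtain ⟨e1⟩ := hω.map_sim_equiv_d8 hB h2 (H11.finrank_minus m) hδ.nonsq (h7.mpr H)
    exact ⟨e.trans (e1.prodCongr e2)⟩
  · obtain ⟨e⟩ := hω.prod_equiv_multChar hB h2 (H11.finrank_minus m) hδ.nonsq hs (h7.not.mpr H)
    obtain ⟨e1⟩ := hω.cyclic_sq hB (by rw [H11.finrank_minus]; simp) (by simp) (hω.soMap_eq_bot hB hex
      (h.dick_negI_of_even (by rw [H11.finrank_minus]; simp)) (h7.not.mpr H)) (by simp [h3]) h4 h5 h6 hex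
    rw [h8] at e1
    exact ⟨e.trans ((e1.prodCongr (MulEquiv.refl _)).trans (MulEquiv.prodComm.trans
      (MulEquiv.prodMultiplicative _ _).symm))⟩

end Cfsg.Agent.S2606
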