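import Cfsg.Statements.S0819
import Mathlib
import Cfsg.Agent.H10.Transv

set_option autoImplicit false
open Cfsg

namespace Cfsg.Agent.S0819

instance factIrr : Fact (∀ r : ZMod 2, r ^ 2 ≠ 1 + 1 * r) := ⟨by decide⟩

/-- The field with four elements. -/
abbrev K := QuadraticAlgebra (ZMod 2) 1 1

/-- The coefficients of `A ^ n` in terms of `A ^ 2`, `A`, `1`. -/
def co {R : Type*} [CommRing R] (t s : R) : ℕ → R × R × R
  | 0 => (0, 0, 1)
  | n + 1 => ((co t s n).2.1 + t * (co t s n).1, (co t s n).2.2 - s * (co t s n).1, (co t s n).1)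

theorem co_eq_def {R : Type*} [CommRing R] (t s : R) (n : ℕ) : co t s (n + 1) =
    ((co t s n).2.1 + t * (co t s n).1, (co t s n).2.2 - s * (co t s n).1, (co t s n).1) := rfl

theorem pow_eq {R : Type*} [CommRing R] {A : Matrix (Fin 3) (Fin 3) R} {t s : R}
    (h : A ^ 3 = t • A ^ 2 - s • A + 1) (n : ℕ) :
    A ^ n = (co t s n).1 • A ^ 2 + (co t s n).2.1 • A + (co t s n).2.2 • 1 := by
  induction n with
  | zero => simp [co]
  | succ n ih =>
    rw [pow_succ, ih, co_eq_def, add_mul, add_mul, smul_mul_assoc, smul_mul_assoc, smul_mul_assoc,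
      ← pow_succ, h, ← pow_two, one_mul]
    module

theorem ch {R : Type*} [CommRing R] (A : Matrix (Fin 3) (Fin 3) R) :
    A ^ 3 = (A 0 0 + A 1 1 + A 2 2) • A ^ 2 - (A 0 0 * A 1 1 - A 0 1 * A 1 0 + A 0 0 * A 2 2 -
      A 0 2 * A 2 0 + A 1 1 * A 2 2 - A 1 2 * A 2 1) • A + A.det • 1 := by
  ext i j
  fin_cases i <;> fin_cases j <;>
    simp [pow_succ, Matrix.mul_apply, Fin.sum_univ_three, Matrix.det_fin_three] <;> ring

theorem fin : ∀ a b c d : ZMod 2, ∃ k ∈ ({5, 7, 12} : Finset ℕ),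
    (co (⟨a, b⟩ : K) ⟨c, d⟩ k).1 = 0 ∧ (co (⟨a, b⟩ : K) ⟨c, d⟩ k).2.1 = 0 := by
  decide


/-- No element of PSL_3(4) has order 15. -/
theorem result {F : Type*} [Field F] [Fintype F] (hF : Fintype.card F = 4) (g : Matrix.ProjectiveSpecialLinearGroup (Fin 3) F) : orderOf g ≠ 15 := by
  have : Finite K := Finite.of_equiv _ (QuadraticAlgebra.equivProd (R := ZMod 2) 1 1).symm
  obtain ⟨e⟩ := H10.nonempty_ringEquiv_of_card_eq (K := F) (L := K) (by
    rw [Nat.card_congr (QuadraticAlgebra.equivProd (R := ZMod 2) 1 1), Nat.card_eq_fintype_card, hF]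
    simp)
  rw [← (H10.pslCongr e).orderOf_eq]
  obtain ⟨A, hA⟩ := H10.slQ_surjective (H10.pslCongr e g)
  rw [← hA]
  have h := ch A.1
  rw [A.2, one_smul] at h
  generalize A.1 0 0 + A.1 1 1 + A.1 2 2 = t at h
  generalize A.1 0 0 * A.1 1 1 - A.1 0 1 * A.1 1 0 + A.1 0 0 * A.1 2 2 -
      A.1 0 2 * A.1 2 0 + A.1 1 1 * A.1 2 2 - A.1 1 2 * A.1 2 1 = s at h
  obtain ⟨k, hk, h1, h2⟩ := fin t.re t.im s.re s.im
  have h3 := pow_eq h k
  change (co t s k).1 = 0 at h1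
  change (co t s k).2.1 = 0 at h2
  rw [h1, h2, zero_smul, zero_smul, zero_add, zero_add] at h3
  have h4 : H10.slQ (Fin 3) K A ^ k = 1 := by
    rw [← map_pow, ← map_one (H10.slQ (Fin 3) K), H10.slQ_eq_iff]
    exact ⟨_, h3⟩
  intro h5
  have h6 := orderOf_dvd_of_pow_eq_one h4
  rw [h5] at h6
  simp only [Finset.mem_insert, Finset.mem_singleton] at hk
  rcases hk with rfl | rfl | rfl <;> norm_num at h6

end Cfsg.Agent.S0819
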