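import Cfsg.Statements.S0820
import Mathlib
import Cfsg.Agent.H10.Transv

set_option autoImplicit false
open Cfsg

namespace Cfsg.Agent.S0820

/-- Any two elements of order 2 of PSL_3(4) are conjugate. -/
theorem result {F : Type*} [Field F] [Fintype F] (hF : Fintype.card F = 4) (x y : Matrix.ProjectiveSpecialLinearGroup (Fin 3) F) (hx : orderOf x = 2) (hy : orderOf y = 2) : IsConj x y := by
  classical
  have h2 : (2 : F) = 0 := H10.two_eq_zero_iff_even_card.mpr (by rw [hF])
  have key : ∀ x : Matrix.ProjectiveSpecialLinearGroup (Fin 3) F, orderOf x = 2 →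
      ∃ A, H10.IsTv A ∧ A ≠ 1 ∧ H10.slQ (Fin 3) F A = x := fun x hx => by
    obtain ⟨A, rfl⟩ := H10.slQ_surjective x
    have h1 : H10.slQ (Fin 3) F (A ^ 2) = H10.slQ (Fin 3) F 1 := by
      rw [map_pow, ← hx, pow_orderOf_eq_one, map_one]
    have h3 : H10.slQ (Fin 3) F (A ^ 3) = H10.slQ (Fin 3) F A := by
      rw [pow_succ, map_mul, h1, map_one, one_mul]
    obtain ⟨c, hc⟩ := H10.slQ_eq_iff.mp h1
    have hc3 : c ^ 3 = 1 := by
      have := (A ^ 2).2
      rw [hc] at this
      simpa using this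
    have h4 : (A ^ 3).1 * (A ^ 3).1 = 1 := by
      change (A ^ 3 * A ^ 3).1 = 1
      rw [← pow_add, show 3 + 3 = 2 * 3 from rfl, pow_mul, Matrix.SpecialLinearGroup.coe_pow, hc,
        smul_pow, hc3]
      simp
    have h5 : A ^ 3 ≠ 1 := fun h => by
      rw [← h3, h, map_one, orderOf_one] at hx
      omega
    refine ⟨A ^ 3, ?_, h5, h3⟩
    generalize A ^ 3 = B at h4 h5
    have h6 : (B.1 - 1) * (B.1 - 1) = 0 := by
      have : B.1 + B.1 = 1 + 1 := by
        rw [← two_smul F, ← two_smul F, h2, zero_smul, zero_smul]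
      rw [sub_mul, mul_sub, h4, one_mul, mul_one]
      linear_combination (norm := abel) -this
    have h7 : LinearMap.range (B.1 - 1).mulVecLin ≤ LinearMap.ker (B.1 - 1).mulVecLin := by
      rintro _ ⟨v, rfl⟩
      rw [LinearMap.mem_ker, Matrix.mulVecLin_apply, Matrix.mulVecLin_apply, Matrix.mulVec_mulVec, h6,
        Matrix.zero_mulVec]
    have h8 := Submodule.finrank_mono h7
    have h9 := (B.1 - 1).mulVecLin.finrank_range_add_finrank_ker
    simp only [Module.finrank_fintype_fun_eq_card, Fintype.card_fin] at h9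
    obtain ⟨⟨u, hu⟩, hsp⟩ := finrank_le_one_iff.mp
      (show Module.finrank F (LinearMap.range (B.1 - 1).mulVecLin) ≤ 1 by omega)
    choose f hf using fun j : Fin 3 => hsp ⟨_, ⟨Pi.single j 1, rfl⟩⟩
    have hN : B.1 - 1 = Matrix.vecMulVec u f := by
      ext i j
      have := congrFun (congrArg Subtype.val (hf j)) i
      simp only [Submodule.coe_smul, Pi.smul_apply, smul_eq_mul, Matrix.mulVecLin_apply,
        Matrix.mulVec_single_one, Matrix.col_apply] at this
      rw [Matrix.vecMulVec_apply, ← this, mul_comm]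
    have hB : B.1 = 1 + Matrix.vecMulVec u f := by rw [← hN]; abel
    have hd := B.2
    rw [hB, H10.det_one_add_vecMulVec] at hd
    exact ⟨u, f, by linear_combination hd, Subtype.ext hB⟩
  obtain ⟨A, hA, hA1, rfl⟩ := key x hx
  obtain ⟨B, hB, hB1, rfl⟩ := key y hy
  obtain ⟨g, hg⟩ := H10.exists_conj_trv (by simp) hA hB hA1 hB1
  exact (H10.slQ (Fin 3) F).map_isConj (isConj_iff.mpr ⟨g, hg⟩)

end Cfsg.Agent.S0820
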