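import Cfsg.Statements.S0821
import Mathlib
import Cfsg.Agent.H11.NonIso
import Cfsg.Agent.H11.Bridge2

set_option autoImplicit false
open Cfsg

namespace Cfsg.Agent.S0821

/-- PSp_2m(q) ≇ PΩ_(2m+1)(q) for q odd and m ≥ 3 (they have the same order). -/
theorem result {F : Type*} [Field F] [Fintype F] (hodd : Odd (Fintype.card F)) (m : ℕ) (hm : 3 ≤ m) : IsEmpty (Cfsg.PSp m F ≃* Cfsg.POmega F (Cfsg.quadFormOdd m F)) := by
  refine ⟨fun e => ?_⟩
  obtain ⟨p, hp⟩ := CharP.exists F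
  have : Fact p.Prime := ⟨CharP.char_is_prime F p⟩
  have h2 := H11.two_ne_zero_of_odd_card hodd
  have : Nonempty (Fin m) := ⟨⟨0, by omega⟩⟩
  have : Finite (Cfsg.POmega F (Cfsg.quadFormOdd m F)) := Finite.of_equiv _ e.toEquiv
  obtain ⟨a, b, c, ha, hb, hc, h0, h1, h3, h4⟩ := (H11.isQuad_odd m F).exists_pcen_triple (p := p)
    (H11.bOdd_sep m h2) (by simp; omega) ((H11.hypSys_odd m F).comp (Fin.castLE_injective hm))
  let e' := (e.trans (H11.pomegaEquiv (H11.isQuad_odd m F))).symm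
  have := Finite.of_equiv _ e'.symm.toEquiv
  exact h0 (e'.map_eq_one_iff.mp (H11.not_pcen_triple_psp h2 (ha.map_equiv e') (hb.map_equiv e')
    (hc.map_equiv e') (h1.map e') (h3.map e') (by simp only [← map_mul, ← map_inv, h4])))

end Cfsg.Agent.S0821
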