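import Cfsg.Statements.S0822
import Mathlib
import Cfsg.Agent.H10.Cox
import Cfsg.Agent.H11.Exc2
import Cfsg.Agent.S1093

set_option autoImplicit false
open Cfsg

namespace Cfsg.Agent.S0822

open H10 H11 Module
open scoped commutatorElement

section refl

variable {F : Type*} [Field F] {V : Type*} [AddCommGroup V] [Module F V]
  {B : V →ₗ[F] V →ₗ[F] F} {Q : V → F}

theorem braid (h : IsQuad B Q) {u v : V} {c : F} (hc : c ≠ 0) (hu : Q u = c) (hv : Q v = c)
    (huv : B u v = -c) :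
    h.reflO u * h.reflO v * h.reflO u = h.reflO v * h.reflO u * h.reflO v := by
  have h1 := h.conj_reflO (h.reflO u) v
  have h2 := h.conj_reflO (h.reflO v) u
  rw [h.reflO_inv] at h1 h2
  rw [h1, h2, h.reflO_apply, h.reflO_apply, h.comm v u, hu, hv, huv]
  simp [add_comm, hc]

theorem exists_hom (h : IsQuad B Q) (v : Fin 6 → V) {c : F} (hc : c ≠ 0) (h1 : ∀ i, Q (v i) = c)
    (h2 : ∀ i j, CoxeterMatrix.E₆ i j = 2 → B (v i) (v j) = 0)
    (h3 : ∀ i j, CoxeterMatrix.E₆ i j = 3 → B (v i) (v j) = -c) :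
    ∃ φ : CoxeterMatrix.E₆.Group →* Isom B Q,
      ∀ i, φ (CoxeterMatrix.E₆.simple i) = h.reflO (v i) := by
  have hf : CoxeterMatrix.E₆.IsLiftable fun i => h.reflO (v i) := fun i j => by
    have k : ∀ i j, i = j ∧ CoxeterMatrix.E₆ i j = 1 ∨ CoxeterMatrix.E₆ i j = 2 ∨
      CoxeterMatrix.E₆ i j = 3 := fun i j => by
      fin_cases i <;> fin_cases j <;> simp [CoxeterMatrix.E₆]
    have s := h.reflO_mul_self
    rcases k i j with ⟨rfl, e⟩ | e | e <;> rw [e]
    · rw [pow_one, s]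
    · rw [pow_two, mul_assoc, ← mul_assoc (h.reflO (v j)), ← reflO_comm h (h2 i j e), mul_assoc, s,
        mul_one, s]
    · calc _ = (h.reflO (v i) * h.reflO (v j) * h.reflO (v i)) *
            (h.reflO (v j) * h.reflO (v i) * h.reflO (v j)) := by
            simp only [pow_succ, pow_zero, one_mul, mul_assoc]
        _ = h.reflO (v i) * (h.reflO (v j) * (h.reflO (v i) * h.reflO (v i)) * h.reflO (v j)) *
            h.reflO (v i) := by rw [← braid h hc (h1 i) (h1 j) (h3 i j e)]; simp only [mul_assoc]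
        _ = 1 := by simp only [s, mul_one]
  exact ⟨CoxeterMatrix.E₆.toCoxeterSystem.lift ⟨_, hf⟩,
    fun i => CoxeterMatrix.E₆.toCoxeterSystem.lift_apply_simple hf i⟩

end refl

/-- Coordinates. -/
def vec (a b c d e f : ZMod 2) : (Fin 2 ⊕ Fin 2) ⊕ Fin 2 → ZMod 2 :=
  Sum.elim (Sum.elim ![a, b] ![c, d]) ![e, f]

/-- The simple roots modulo two. -/
def rt : Fin 6 → (Fin 2 ⊕ Fin 2) ⊕ Fin 2 → ZMod 2 :=
  ![vec 0 0 0 0 0 1, vec 0 0 0 1 0 1, vec 0 1 0 0 1 0, vec 0 1 0 0 0 1, vec 0 0 1 1 0 1,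
    vec 1 0 1 0 0 0]

/-- A height function. -/
def ht (v : (Fin 2 ⊕ Fin 2) ⊕ Fin 2 → ZMod 2) : ℕ :=
  [0, 0, 0, 0, 0, 5, 0, 35, 0, 0, 7, 15, 0, 33, 9, 0, 11, 26, 2, 27, 21, 0, 23, 0, 12, 20, 0, 0, 14,
    0, 0, 32, 0, 31, 3, 19, 28, 0, 13, 0, 1, 10, 0, 0, 4, 0, 0, 34, 8, 24, 6, 29, 18, 0, 25, 0, 16,
    22, 0, 0, 17, 0, 0, 30].getD ((v (.inl (.inl 0))).val + 2 * (v (.inl (.inl 1))).val +
      4 * (v (.inl (.inr 0))).val + 8 * (v (.inl (.inr 1))).val + 16 * (v (.inr 0)).val +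
      32 * (v (.inr 1)).val) 0

theorem key : ∀ a b c d e f : ZMod 2, a * c + b * d + (e ^ 2 + e * f + f ^ 2) ≠ 0 →
    (∃ i, vec a b c d e f = rt i) ∨ ∃ i, ht (vec a b c d e f + rt i) < ht (vec a b c d e f) ∧
      rt i (.inl (.inl 0)) * c + rt i (.inl (.inr 0)) * a + (rt i (.inl (.inl 1)) * d +
        rt i (.inl (.inr 1)) * b) + (rt i (.inr 0) * f + rt i (.inr 1) * e) = 1 := by
  decide +kernel

theorem aniso : ∀ z₁ z₂ : ZMod 2, z₁ ^ 2 + 1 * z₁ * z₂ + 1 * z₂ ^ 2 = 0 → z₁ = 0 ∧ z₂ = 0 := by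
  decide

theorem exists_equiv : ∃ e : CoxeterMatrix.E₆.Group ≃*
    Isom (bMinus 2 (ZMod 2) 1 1) (quadFormMinus 2 (ZMod 2) 1 1), True := by
  have h := isQuad_minus 2 (ZMod 2) 1 1
  have h2 : (2 : ZMod 2) = 0 := rfl
  have hq : ∀ i, quadFormMinus 2 (ZMod 2) 1 1 (rt i) = 1 := by
    simp only [quadFormMinus, Fin.sum_univ_two]; decide
  obtain ⟨φ, hφ⟩ := exists_hom h rt one_ne_zero hq
    (fun i j => by
      rw [bMinus_apply, Fin.sum_univ_two]; fin_cases i <;> fin_cases j <;> decide)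
    (fun i j => by
      rw [bMinus_apply, Fin.sum_univ_two]; fin_cases i <;> fin_cases j <;> decide)
  have hs : φ.range = ⊤ := by
    refine h.eq_top_of_reflO_mem (bMinus_sep 2 aniso) (nonExc_minus aniso 2) _ fun v => ?_
    induction hn : ht v using Nat.strong_induction_on generalizing v with
    | _ n ih =>
      intro hv
      have e : v = vec (v (.inl (.inl 0))) (v (.inl (.inl 1))) (v (.inl (.inr 0)))
          (v (.inl (.inr 1))) (v (.inr 0)) (v (.inr 1)) := by
        funext i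
        rcases i with (i | i) | i <;> fin_cases i <;> rfl
      rcases key _ _ _ _ _ _ (by simpa [quadFormMinus] using hv) with ⟨i, hi⟩ | ⟨i, hi, hb⟩
      · rw [← e] at hi
        exact ⟨_, by rw [hφ, hi]⟩
      · rw [← e] at hi
        have hb' : bMinus 2 (ZMod 2) 1 1 (rt i) v = 1 := by
          rw [bMinus_apply, Fin.sum_univ_two, h2]; linear_combination hb
        have e2 : (h.reflO (rt i)).1 v = v + rt i := by
          rw [h.reflO_apply, hq, hb', inv_one, one_mul, one_smul, sub_eq_add_neg]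
          congr 1
          funext j; exact ZMod.neg_eq_self_mod_two _
        have h3 := ih _ (hn ▸ hi) (v + rt i) rfl (by rwa [← e2, (h.reflO (rt i)).2.2])
        have h4 : h.reflO v = (h.reflO (rt i))⁻¹ * h.reflO (v + rt i) * h.reflO (rt i) := by
          rw [← e2, ← h.conj_reflO]; group
        rw [h4]
        exact mul_mem (mul_mem (inv_mem ⟨_, hφ i⟩) h3) ⟨_, hφ i⟩
  have hW := S1093.result (⟨6, CoxeterMatrix.E₆⟩, 51840) (by simp)
  have hc := IsQuad.card_isom_minus 2 h (bMinus_sep 2 aniso) (wittIdx_minus 2 aniso) (by simp)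
  rw [Nat.card_zmod] at hc
  have hc' : Nat.card (Isom (bMinus 2 (ZMod 2) 1 1) (quadFormMinus 2 (ZMod 2) 1 1)) = 51840 := by
    have : ((Nat.card (Isom (bMinus 2 (ZMod 2) 1 1) (quadFormMinus 2 (ZMod 2) 1 1)) : ℕ) : ℤ) =
        ((51840 : ℕ) : ℤ) := by rw [hc]; decide
    exact_mod_cast this
  have : Finite CoxeterMatrix.E₆.Group := Nat.finite_of_card_ne_zero (by rw [hW]; norm_num)
  exact ⟨MulEquiv.ofBijective φ ((MonoidHom.range_eq_top.mp hs).bijective_of_nat_card_le
    (by rw [hW, hc'])), trivial⟩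

/-- PSU_4(2) ≅ PSp_4(3): with |F| = 4 and |K| = 3, the projective special unitary group of the standard Hermitian form on F^4 is isomorphic to PSp_4(K). -/
theorem result {F K : Type*} [Field F] [Fintype F] [Field K] [Fintype K] (hF : Fintype.card F = 4) (hK : Fintype.card K = 3) : Nonempty (Cfsg.PSU 4 F 2 ≃* Cfsg.PSp 2 K) := by
  have h3 : (3 : K) = 0 := by
    have := FiniteField.cast_card_eq_zero K
    rwa [hK] at this
  have h2 : (2 : K) = -1 := by linear_combination h3
  have h11 : (1 + 1 : K) = -1 := by linear_combination h3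
  have h12 : (-1 + -1 : K) = 1 := by linear_combination -h3
  have h20 : (2 : K) ≠ 0 := by rw [h2]; simp
  have h := isQuad_odd 2 K
  have h' := isQuad_minus 2 (ZMod 2) 1 1
  let v : Fin 6 → Unit ⊕ (Fin 2 ⊕ Fin 2) → K :=
    ![Sum.elim (fun _ => 0) (Sum.elim ![0, 1] ![0, -1]),
      Sum.elim (fun _ => 0) (Sum.elim ![1, 0] ![-1, 0]),
      Sum.elim (fun _ => 1) (Sum.elim ![1, 0] ![1, 1]),
      Sum.elim (fun _ => 1) (Sum.elim ![0, 1] ![1, 1]),
      Sum.elim (fun _ => 1) (Sum.elim ![0, 1] ![0, 1]),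
      Sum.elim (fun _ => 0) (Sum.elim ![-1, -1] ![-1, -1])]
  have hv : ∀ i, quadFormOdd 2 K (v i) = -1 := fun i => by
    fin_cases i <;> simp [v, quadFormOdd, h11]
  obtain ⟨φ, hφ⟩ := exists_hom h v (c := -1) (by simp) hv
    (fun i j => by
      fin_cases i <;> fin_cases j <;> simp [v, bOdd_apply, CoxeterMatrix.E₆, h2, h11, h12])
    (fun i j => by
      fin_cases i <;> fin_cases j <;> simp [v, bOdd_apply, CoxeterMatrix.E₆, h2, h11, h12])
  obtain ⟨e, -⟩ := exists_equiv
  let ψ := (φ.comp e.symm.toMonoidHom).comp (commutator _).subtype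
  have : Finite (Isom (bMinus 2 (ZMod 2) 1 1) (quadFormMinus 2 (ZMod 2) 1 1)) :=
    Finite.of_injective (fun g => (g.1 : _ → _)) fun a b e => Subtype.ext (DFunLike.coe_injective e)
  have hN : (Subgroup.center _).comap ψ ≤ Subgroup.center _ := by
    refine (h'.normal_commutator_cases (bMinus_sep 2 aniso) (by simp) _ inferInstance).resolve_right
      fun e1 => ?_
    have h1 : (⟨⁅e (CoxeterMatrix.E₆.simple 0), e (CoxeterMatrix.E₆.simple 2)⁆,
        Subgroup.commutator_mem_commutator (Subgroup.mem_top _) (Subgroup.mem_top _)⟩ : commutator _) ∈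
        (Subgroup.center _).comap ψ := by rw [e1]; trivial
    have h4 := Subgroup.mem_center_iff.mp h1 (h.reflO (v 0))
    simp only [ψ, MonoidHom.comp_apply, Subgroup.coe_subtype, map_mul, map_inv,
      MulEquiv.coe_toMonoidHom, MulEquiv.symm_apply_apply, hφ, commutatorElement_def,
      h.reflO_inv] at h4
    have h5 := braid h (c := -1) (by simp) (hv 0) (hv 2) (by simp [v, bOdd_apply])
    have h6 := h.reflO_mul_self (v 0)
    have h7 : h.reflO (v 0) * h.reflO (v 2) = 1 := by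
      generalize h.reflO (v 0) = a at *
      generalize h.reflO (v 2) = b at *
      apply mul_left_cancel (a := b)
      calc b * (a * b) = a * (a * b * a * b) := by
            simp only [← mul_assoc, h6, one_mul]
        _ = a * (b * a * b) * a := by rw [h4]; simp only [mul_assoc]
        _ = (a * a) * b * (a * a) := by rw [← h5]; simp only [mul_assoc]
        _ = b * 1 := by simp only [h6, one_mul]
    have h8 := congrArg (fun g : Isom (bOdd 2 K) (quadFormOdd 2 K) => g.1 (v 3) (.inl ())) h7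
    change (h.reflO (v 0)).1 ((h.reflO (v 2)).1 (v 3)) (.inl ()) = v 3 (.inl ()) at h8
    rw [h.reflO_apply, h.reflO_apply, hv, hv] at h8
    simp [v, bOdd_apply, h2, h12] at h8
  obtain ⟨e2⟩ := h.nonempty_pomega_equiv (bOdd_sep 2 h20) (h.nonExc_of_finrank (bOdd_sep 2 h20)
    (by simp)) (by simp) ψ (fun g => map_mem_commutator (φ.comp e.symm.toMonoidHom) g.2)
    (fun g c hg => hN (Subgroup.mem_center_iff.mpr fun k => Subtype.ext (LinearEquiv.ext fun x => by
      change k.1 ((ψ g).1 x) = (ψ g).1 (k.1 x)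
      rw [hg, hg, map_smul]))) (by
      rw [← Nat.card_congr (pomegaEquiv h).toEquiv, ← Nat.card_congr (pomegaEquiv h').toEquiv]
      have k1 := card_pomega_odd hK (by decide) 2 (by norm_num)
      have k2 := card_pomega_minus (F := ZMod 2) (q := 2) (by simp) 3 (by norm_num) aniso
      change _ * Nat.card (POmega (ZMod 2) (quadFormMinus 2 (ZMod 2) 1 1)) = _ at k2
      norm_num [Finset.prod_range_succ] at k1 k2
      omega)
  obtain ⟨e3⟩ := nonempty_pomega_minus_two (F := ZMod 2) (q := 2) (by simp) hF aniso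
  obtain ⟨e4⟩ := nonempty_pomega_odd_two (F := K) (by rw [hK]; decide)
  exact ⟨e3.symm.trans ((pomegaEquiv h').trans (e2.symm.trans ((pomegaEquiv h).symm.trans e4)))⟩

end Cfsg.Agent.S0822
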