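import Cfsg.Statements.S0823
import Mathlib
import Cfsg.Agent.H10.Cox

set_option autoImplicit false
open Cfsg

namespace Cfsg.Agent.S0823

open H10 H11

/-- SO_3(3) ≅ S_4: the determinant-one isometries of the form x_0² + x_1y_1 over the field with 3 elements form a group isomorphic to the symmetric group on 4 letters. -/
theorem result {F : Type*} [Field F] [Fintype F] (hF : Fintype.card F = 3) : Nonempty (↥(Cfsg.specialIsometryGroup F (Cfsg.quadFormOdd 1 F)) ≃* Equiv.Perm (Fin 4)) := by
  have h3 : (3 : F) = 0 := by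
    have := FiniteField.cast_card_eq_zero F
    rwa [hF] at this
  have h2 : (2 : F) = -1 := by linear_combination h3
  have h20 : (2 : F) ≠ 0 := by rw [h2]; simp
  have h := isQuad_odd 1 F
  have hc := IsQuad.card_isom_odd 1 h (bOdd_sep 1 h20) (wittIdx_odd 1 h20) (by simp)
  rw [Nat.card_eq_fintype_card (α := F), hF] at hc
  have hc' : Nat.card (isometryGroup F (quadFormOdd 1 F)) = 48 := by
    rw [Nat.card_congr (oEquiv h).toEquiv]
    have : ((Nat.card (Isom (bOdd 1 F) (quadFormOdd 1 F)) : ℕ) : ℤ) = ((48 : ℕ) : ℤ) := by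
      rw [hc]; decide
    exact_mod_cast this
  let z : Isom (bOdd 1 F) (quadFormOdd 1 F) := ⟨LinearEquiv.neg F, h.mem_isom.mpr fun x => by
    have := h.smul' (-1) x
    simpa using this⟩
  have hz : LinearMap.det (z.1 : (Unit ⊕ (Fin 1 ⊕ Fin 1) → F) →ₗ[F] _) = -1 := by
    have : (z.1 : (Unit ⊕ (Fin 1 ⊕ Fin 1) → F) →ₗ[F] _) = (-1 : F) • LinearMap.id := by
      ext; simp [z]
    rw [this, LinearMap.det_smul]
    norm_num
  let v : Fin 3 → Unit ⊕ (Fin 1 ⊕ Fin 1) → F := ![Sum.elim (fun _ => 1) (Sum.elim ![0] ![0]),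
    Sum.elim (fun _ => 1) (Sum.elim ![0] ![1]), Sum.elim (fun _ => 0) (Sum.elim ![-1] ![-1])]
  have hv : ∀ i, quadFormOdd 1 F (v i) = 1 := fun i => by fin_cases i <;> simp [v, quadFormOdd]
  obtain ⟨φ, hφ⟩ := exists_hom_reflO h v hv
    (fun i j => by fin_cases i <;> fin_cases j <;> simp [v, bOdd_apply])
    (fun i j => by fin_cases i <;> fin_cases j <;> simp [v, bOdd_apply, h2]) (z := z)
    (Subtype.ext (LinearEquiv.ext fun x => by simp [z]))
    (fun g => Subtype.ext (LinearEquiv.ext fun x => by simp [z]))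
  have hi := perm_four_hom_injective φ (by
    rw [hφ, hφ, Ne, mul_right_inj]
    exact reflO_ne h (x := v 0) (hv _) (by simp [v, bOdd_apply, h20]) (by simp [v, bOdd_apply]))
  have hm : ∀ σ, ((oEquiv h).symm.toMonoidHom.comp φ) σ ∈
      specialIsometryGroup F (quadFormOdd 1 F) := fun σ => by
    have : σ ∈ (specialIsometryGroup F (quadFormOdd 1 F)).comap
        ((oEquiv h).symm.toMonoidHom.comp φ) := by
      refine (Subgroup.closure_le _).mpr ?_ ((closure_adj 3).ge (Subgroup.mem_top σ))
      rintro _ ⟨i, rfl⟩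
      rw [SetLike.mem_coe, Subgroup.mem_comap, mem_specialIsometryGroup, ← det_oEquiv h]
      simp only [MonoidHom.comp_apply, MulEquiv.coe_toMonoidHom, MulEquiv.apply_symm_apply, hφ]
      rw [Subgroup.coe_mul, LinearEquiv.coe_toLinearMap_mul, map_mul, hz,
        h.det_reflO (by rw [hv]; simp)]
      simp
    exact this
  have : Finite (isometryGroup F (quadFormOdd 1 F)) := Nat.finite_of_card_ne_zero (by simp [hc'])
  have hne : (specialIsometryGroup F (quadFormOdd 1 F)).index ≠ 1 := fun e => by
    have : (oEquiv h).symm z ∈ specialIsometryGroup F (quadFormOdd 1 F) := by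
      rw [Subgroup.index_eq_one.mp e]; trivial
    rw [mem_specialIsometryGroup, ← det_oEquiv h, MulEquiv.apply_symm_apply, hz] at this
    exact h20 (by linear_combination -this)
  have h1 := (specialIsometryGroup F (quadFormOdd 1 F)).card_mul_index
  have h0 := (specialIsometryGroup F (quadFormOdd 1 F)).index_ne_zero_of_finite
  refine ⟨(MulEquiv.ofBijective (MonoidHom.codRestrict _ _ hm) (Function.Injective.bijective_of_nat_card_le
    (fun a b e => hi ((oEquiv h).symm.injective (congrArg Subtype.val e))) ?_)).symm⟩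
  rw [Nat.card_perm, Nat.card_fin]
  rw [hc'] at h1
  have : 2 ≤ (specialIsometryGroup F (quadFormOdd 1 F)).index := by omega
  have : Nat.factorial 4 = 24 := rfl
  nlinarith

end Cfsg.Agent.S0823
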