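import Cfsg.Statements.S0825
import Mathlib
import Cfsg.Agent.H10.Cox

set_option autoImplicit false
open Cfsg

namespace Cfsg.Agent.S0825

open H10 H11

/-- O⁺_6(2) ≅ S_8: the isometry group of the hyperbolic form x_1y_1 + x_2y_2 + x_3y_3 over the field with 2 elements is isomorphic to the symmetric group on 8 letters. -/
theorem result {F : Type*} [Field F] [Fintype F] (hF : Fintype.card F = 2) : Nonempty (↥(Cfsg.isometryGroup F (Cfsg.quadFormPlus 3 F)) ≃* Equiv.Perm (Fin 8)) := by
  have h2 := two_eq_zero_of_card hF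
  have hm : (-1 : F) = 1 := by linear_combination -h2
  have h11 : (1 + 1 : F) = 0 := by linear_combination h2
  have h := isQuad_plus 3 F
  have hc := IsQuad.card_isom_plus 2 h (bPlus_sep 3 F) (wittIdx_plus 3 F) (by simp)
  rw [Nat.card_eq_fintype_card (α := F), hF] at hc
  obtain ⟨e⟩ := nonempty_isom_equiv_perm h (n := 7) (by norm_num)
    ![Sum.elim ![0, 0, 1] ![0, 0, 1], Sum.elim ![0, 1, 0] ![0, 1, 1], Sum.elim ![0, 0, 1] ![1, 0, 1],
      Sum.elim ![1, 0, 0] ![1, 0, 0], Sum.elim ![0, 1, 0] ![1, 1, 0], Sum.elim ![0, 0, 1] ![0, 1, 1],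
      Sum.elim ![0, 1, 0] ![0, 1, 0]]
    (fun i => by fin_cases i <;> simp [quadFormPlus, Fin.sum_univ_three])
    (fun i j => by fin_cases i <;> fin_cases j <;> simp [bPlus_apply, Fin.sum_univ_three, h11])
    (fun i j => by fin_cases i <;> fin_cases j <;> simp [bPlus_apply, Fin.sum_univ_three, hm])
    (by
      have : ((Nat.card (Isom (bPlus 3 F) (quadFormPlus 3 F)) : ℕ) : ℤ) = ((40320 : ℕ) : ℤ) := by
        rw [hc]; decide
      exact_mod_cast this)
  exact ⟨(oEquiv h).trans e⟩

end Cfsg.Agent.S0825
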