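import Cfsg.Statements.S0826
import Mathlib
import Cfsg.Agent.H10.Sp

set_option autoImplicit false
open Cfsg

namespace Cfsg.Agent.S0826

variable {ι : Type} [Fintype ι] [DecidableEq ι] (o : ι)

/-- Even-weight vectors vanishing at the base point. -/
def H : Submodule (ZMod 2) (ι → ZMod 2) where
  carrier := {v | ∑ i, v i = 0 ∧ v o = 0}
  add_mem' ha hb := ⟨by simp [Finset.sum_add_distrib, ha.1, hb.1], by simp [ha.2, hb.2]⟩
  zero_mem' := by simp
  smul_mem' c x hx := ⟨by simp [← Finset.mul_sum, hx.1], by simp [hx.2]⟩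

theorem two : (2 : ZMod 2) = 0 := rfl

theorem add_self (a : ZMod 2) : a + a = 0 := by rw [← two_mul, two, zero_mul]

/-- The action of a permutation on `H`. -/
def act (hι : (Fintype.card ι : ZMod 2) = 0) (σ : Equiv.Perm ι) : H o →ₗ[ZMod 2] H o where
  toFun v := ⟨fun i => v.1 (σ.symm i) + v.1 (σ.symm o), by
    simp [Finset.sum_add_distrib, Equiv.sum_comp σ.symm v.1, v.2.1, hι], add_self _⟩
  map_add' u v := Subtype.ext (funext fun i => by simp; ring)
  map_smul' c v := Subtype.ext (funext fun i => by simp; ring)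

/-- The dot product on `H`. -/
def B : LinearMap.BilinForm (ZMod 2) (H o) :=
  LinearMap.mk₂ (ZMod 2) (fun u v => ∑ i, u.1 i * v.1 i)
    (fun _ _ _ => by simp [add_mul, Finset.sum_add_distrib])
    (fun _ _ _ => by simp [Finset.mul_sum, mul_assoc])
    (fun _ _ _ => by simp [mul_add, Finset.sum_add_distrib])
    (fun _ _ _ => by simp [Finset.mul_sum, mul_left_comm])

theorem B_apply (u v : H o) : B o u v = ∑ i, u.1 i * v.1 i := rfl

theorem B_alt : (B o).IsAlt := fun v => by
  have : ∀ a : ZMod 2, a * a = a := by decide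
  simp only [B_apply, this, v.2.1]

theorem pair_mem {i j : ι} (hi : i ≠ o) (hj : j ≠ o) :
    Pi.single i 1 + Pi.single j 1 ∈ H o :=
  ⟨by simp [Finset.sum_add_distrib, add_self], by simp [hi.symm, hj.symm]⟩

theorem B_nondeg (hι : (Fintype.card ι : ZMod 2) = 0) : (B o).Nondegenerate := by
  refine (B_alt o).isRefl.nondegenerate_iff_separatingLeft.mpr fun v hv => ?_
  refine Subtype.ext (funext fun i => ?_)
  by_cases hi : i = o
  · rw [hi]; exact v.2.2
  have h1 : ∀ j, v.1 j = v.1 i + (Pi.single o (v.1 i) : ι → ZMod 2) j := fun j => by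
    by_cases hj : j = o
    · simp [hj, v.2.2, add_self]
    · have := hv ⟨_, pair_mem o hi hj⟩
      simp [B_apply, mul_add, Finset.sum_add_distrib, Pi.single_apply] at this
      rw [Pi.single_eq_of_ne hj]
      linear_combination this - add_self (v.1 i)
  have := v.2.1
  rw [Finset.sum_congr rfl fun j _ => h1 j, Finset.sum_add_distrib] at this
  simpa [hι] using this

theorem finrank_H {i : ι} (hi : i ≠ o) : Module.finrank (ZMod 2) (H o) + 2 = Fintype.card ι := by
  let φ : (ι → ZMod 2) →ₗ[ZMod 2] ZMod 2 × ZMod 2 :=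
    LinearMap.prod (∑ i, LinearMap.proj i) (LinearMap.proj o)
  have h1 : LinearMap.ker φ = H o := by
    ext v; simp [φ, H]
  have h2 : LinearMap.range φ = ⊤ := LinearMap.range_eq_top.mpr fun x =>
    ⟨Pi.single i (x.1 - x.2) + Pi.single o x.2, by
      simp [φ, Finset.sum_add_distrib, hi.symm]⟩
  have := φ.finrank_range_add_finrank_ker
  rw [h1, h2] at this
  simp at this
  omega

/-- The representation. -/
def rep (hι : (Fintype.card ι : ZMod 2) = 0) : Equiv.Perm ι →* H10.isomGroup (B o) :=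
  have hm : ∀ σ τ : Equiv.Perm ι, act o hι (σ * τ) = act o hι σ * act o hι τ := fun σ τ => by
    ext v i
    change v.1 (τ.symm (σ.symm i)) + v.1 (τ.symm (σ.symm o)) =
      (v.1 (τ.symm (σ.symm i)) + v.1 (τ.symm o)) + (v.1 (τ.symm (σ.symm o)) + v.1 (τ.symm o))
    linear_combination -add_self (v.1 (τ.symm o))
  have h1 : act o hι 1 = 1 := by
    ext v i
    change v.1 i + v.1 o = v.1 i
    rw [v.2.2, add_zero]
  { toFun := fun σ => ⟨LinearEquiv.ofLinear (act o hι σ) (act o hι σ⁻¹)
      (by rw [← Module.End.mul_eq_comp, ← hm, mul_inv_cancel, h1]; rfl)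
      (by rw [← Module.End.mul_eq_comp, ← hm, inv_mul_cancel, h1]; rfl), fun u v => by
        change ∑ i, (u.1 (σ.symm i) + u.1 (σ.symm o)) * (v.1 (σ.symm i) + v.1 (σ.symm o)) = _
        simp only [add_mul, mul_add, Finset.sum_add_distrib, ← Finset.mul_sum, ← Finset.sum_mul,
          Equiv.sum_comp σ.symm v.1, Equiv.sum_comp σ.symm u.1, u.2.1, v.2.1,
          Equiv.sum_comp σ.symm (fun i => u.1 i * v.1 i), B_apply]
        simp [hι]⟩
    map_one' := H10.isom_ext fun v => LinearMap.congr_fun h1 v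
    map_mul' := fun σ τ => H10.isom_ext fun v => LinearMap.congr_fun (hm σ τ) v }

theorem rep_injective (hι : (Fintype.card ι : ZMod 2) = 0) (h5 : 5 ≤ Fintype.card ι) :
    Function.Injective (rep o hι) := by
  refine (injective_iff_map_eq_one _).mpr fun σ hσ => ?_
  have ex : ∀ s : Finset ι, s.card ≤ 4 → ∃ k, k ∉ s := fun s hs => by
    by_contra hc
    push Not at hc
    rw [Finset.eq_univ_of_forall hc, Finset.card_univ] at hs
    omega
  have key : ∀ i j, i ≠ o → j ≠ o → i ≠ j → σ i = i ∨ σ i = j := fun i j hi hj hij => by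
    have h1 : ∀ k, (Pi.single i 1 + Pi.single j 1 : ι → ZMod 2) (σ.symm k) +
        (Pi.single i 1 + Pi.single j 1 : ι → ZMod 2) (σ.symm o) =
        (Pi.single i 1 + Pi.single j 1 : ι → ZMod 2) k := fun k =>
      congrArg (fun g : H10.isomGroup (B o) => (g.1 ⟨_, pair_mem o hi hj⟩).1 k) hσ
    obtain ⟨k, hk⟩ := ex {i, j, σ i, σ j} Finset.card_le_four
    simp only [Finset.mem_insert, Finset.mem_singleton, not_or] at hk
    have h2 := h1 k
    have h3 := h1 (σ i)
    rw [Pi.add_apply, Pi.add_apply _ _ k, Pi.single_eq_of_ne hk.1, Pi.single_eq_of_ne hk.2.1,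
      Pi.single_eq_of_ne (by rw [Ne, Equiv.symm_apply_eq]; exact hk.2.2.1),
      Pi.single_eq_of_ne (by rw [Ne, Equiv.symm_apply_eq]; exact hk.2.2.2)] at h2
    rw [add_zero, zero_add] at h2
    rw [h2] at h3
    by_contra hc
    push Not at hc
    simp [hc.1, hc.2, hij] at h3
  have h2 : ∀ i, i ≠ o → σ i = i := fun i hi => by
    obtain ⟨j, hj⟩ := ex {o, i} (Finset.card_le_two.trans (by norm_num))
    obtain ⟨k, hk⟩ := ex {o, i, j} (Finset.card_le_three.trans (by norm_num))
    simp only [Finset.mem_insert, Finset.mem_singleton, not_or] at hj hk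
    rcases key i j hi hj.1 (Ne.symm hj.2) with h | h
    · exact h
    rcases key i k hi hk.1 (Ne.symm hk.2.1) with h' | h'
    · exact h'
    exact absurd (h'.symm.trans h) hk.2.2
  ext i
  by_cases hi : i = o
  · by_contra hc
    exact hc (σ.injective (h2 _ (hi ▸ hc)))
  · exact h2 i hi


/-- S_2n ≤ Sp_(2n−2)(2) for n ≥ 3: there is an injective homomorphism from the symmetric group on 2n letters into the symplectic group of degree 2n − 2 over the field with two elements. -/
theorem result (n : ℕ) (hn : 3 ≤ n) : ∃ f : Equiv.Perm (Fin (2 * n)) →* Matrix.symplecticGroup (Fin (n - 1)) (ZMod 2), Function.Injective f := by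
  have hι : (Fintype.card (Fin (2 * n)) : ZMod 2) = 0 := by simp [two]
  have hd := finrank_H (ι := Fin (2 * n)) ⟨0, by omega⟩ (i := ⟨1, by omega⟩) (by simp)
  obtain ⟨e⟩ := H10.nonempty_sp_equiv_isom (l := Fin (n - 1)) (B_nondeg ⟨0, by omega⟩ hι) (B_alt _)
    (by simp at hd ⊢; omega)
  exact ⟨e.symm.toMonoidHom.comp (rep _ hι),
    e.symm.injective.comp (rep_injective _ hι (by simp; omega))⟩

end Cfsg.Agent.S0826
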