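import Cfsg.Statements.S0828
import Mathlib
import Cfsg.Agent.H10.Geo1

set_option autoImplicit false
open Cfsg

namespace Cfsg.Agent.S0828

theorem dbl {A X : Type*} [Finite A] [Finite X] (r : A → X → Prop) {m n : ℕ}
    (hm : ∀ a, Nat.card {x // r a x} = m) (hn : ∀ x, Nat.card {a // r a x} = n) :
    Nat.card A * m = Nat.card X * n := by
  have := Fintype.ofFinite A
  have := Fintype.ofFinite X
  have e : (Σ a, {x // r a x}) ≃ Σ x, {a // r a x} :=
    ⟨fun p => ⟨p.2.1, p.1, p.2.2⟩, fun p => ⟨p.2.1, p.1, p.2.2⟩, fun _ => rfl, fun _ => rfl⟩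
  have := Nat.card_congr e
  rw [Nat.card_sigma, Nat.card_sigma] at this
  simpa [hm, hn] using this

theorem card_sdiff {F V : Type*} [Field F] [Finite F] [AddCommGroup V] [Module F V]
    [FiniteDimensional F V] {U W : Submodule F V} (h : U ≤ W) :
    Nat.card {v // v ∈ W ∧ v ∉ U} =
      Nat.card F ^ Module.finrank F W - Nat.card F ^ Module.finrank F U := by
  have : Finite V := Module.finite_of_finite F
  change Nat.card ((W : Set V) \ U : Set V) = _
  rw [Nat.card_coe_set_eq, Set.ncard_sdiff h, ← Nat.card_coe_set_eq, ← Nat.card_coe_set_eq,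
    SetLike.coe_sort_coe, SetLike.coe_sort_coe, Module.natCard_eq_pow_finrank (K := F) (V := W),
    Module.natCard_eq_pow_finrank (K := F) (V := U)]


/-- The symplectic generalised quadrangle over a field with q elements: the number of 2-dimensional subspaces of F^4 on which the symplectic form vanishes is (q + 1)(q² + 1), and every non-zero vector lies in exactly q + 1 of them. -/
theorem result {F : Type*} [Field F] [Fintype F] {q : ℕ} (hF : Fintype.card F = q) : Nat.card {W : Submodule F (Fin 2 ⊕ Fin 2 → F) // Module.finrank F W = 2 ∧ ∀ u ∈ W, ∀ v ∈ W, Cfsg.sympForm 2 F u v = 0} = (q + 1) * (q ^ 2 + 1) ∧ ∀ v : Fin 2 ⊕ Fin 2 → F, v ≠ 0 → Nat.card {W : Submodule F (Fin 2 ⊕ Fin 2 → F) // Module.finrank F W = 2 ∧ v ∈ W ∧ ∀ u ∈ W, ∀ w ∈ W, Cfsg.sympForm 2 F u w = 0} = q + 1 := by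
  have h := H11.isForm_alt (H10.spBilin_isAlt (l := Fin 2) (F := F))
  have hB := (H10.spBilin_nondegenerate (l := Fin 2) (F := F)).1
  have hq : 2 ≤ q := hF ▸ Fintype.one_lt_card
  obtain ⟨r, rfl⟩ : ∃ r, q = r + 1 := ⟨q - 1, by omega⟩
  have hF' : Nat.card F = r + 1 := by rw [Nat.card_eq_fintype_card, hF]
  have h2 : ∀ v : Fin 2 ⊕ Fin 2 → F, v ≠ 0 → Nat.card {W : Submodule F (Fin 2 ⊕ Fin 2 → F) //
      Module.finrank F W = 2 ∧ v ∈ W ∧ ∀ u ∈ W, ∀ w ∈ W, Cfsg.sympForm 2 F u w = 0} =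
      r + 1 + 1 := fun v hv => by
    have hd := h.finrank_perp hB (Submodule.span F {v})
    have h1 := finrank_span_singleton (K := F) hv
    rw [H10.finrank_sp_space, Fintype.card_fin, h1] at hd
    have hle : Submodule.span F {v} ≤ H11.perp (H10.spBilin (Fin 2) F) (Submodule.span F {v}) :=
      (h.totSing_span (fun _ _ => rfl) (by simp [H10.spBilin_isAlt.self_eq_zero])).le_perp
    have := dbl (A := {w // w ∈ H11.perp (H10.spBilin (Fin 2) F) (Submodule.span F {v}) ∧
        w ∉ Submodule.span F {v}})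
      (X := {W : Submodule F (Fin 2 ⊕ Fin 2 → F) //
        Module.finrank F W = 2 ∧ v ∈ W ∧ ∀ u ∈ W, ∀ w ∈ W, Cfsg.sympForm 2 F u w = 0})
      (fun w W => w.1 ∈ W.1) (m := 1) (n := (r + 1) ^ 2 - (r + 1) ^ 1) (fun w => ?_) fun W => ?_
    · rw [card_sdiff hle, h1, show Module.finrank F (H11.perp (H10.spBilin (Fin 2) F)
        (Submodule.span F {v})) = 3 by omega, hF'] at this
      have e1 : (r + 1) ^ 3 - (r + 1) ^ 1 = (r + 1 + 1) * ((r + 1) * r) := by
        apply Nat.sub_eq_of_eq_add; ring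
      have e2 : (r + 1) ^ 2 - (r + 1) ^ 1 = (r + 1) * r := by
        apply Nat.sub_eq_of_eq_add; ring
      rw [e1, e2, mul_one] at this
      exact (Nat.eq_of_mul_eq_mul_right (Nat.mul_pos (by omega) (by omega)) this).symm
    · have hw : H10.spBilin (Fin 2) F v w = 0 := H11.mem_perp_span.mp w.2.1 v rfl
      have hli : LinearIndependent F ![v, w.1] := by
        rw [LinearIndependent.pair_iff' hv]
        intro a ha
        exact w.2.2 (Submodule.mem_span_singleton.mpr ⟨a, ha⟩)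
      have hd2 : Module.finrank F (Submodule.span F {v, w.1}) = 2 := by
        have := finrank_span_eq_card hli
        rwa [Matrix.range_cons_cons_empty] at this
      have ts := h.totSing_span (s := {v, w.1}) (fun _ _ => rfl) (by
        simp [H10.spBilin_isAlt.self_eq_zero, hw, h.refl hw])
      rw [Nat.card_eq_one_iff_exists]
      refine ⟨⟨⟨Submodule.span F {v, w.1}, hd2, Submodule.subset_span (by simp), fun x hx y hy => by
        rw [H10.sympForm_eq_spBilin]; exact ts.2 x hx y hy⟩, Submodule.subset_span (by simp)⟩,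
        fun W => Subtype.ext (Subtype.ext (Submodule.eq_of_le_of_finrank_eq ?_ ?_).symm)⟩
      · rw [Submodule.span_le]
        rintro _ (rfl | rfl)
        exacts [W.1.2.2.1, W.2]
      · rw [hd2, W.1.2.1]
    · have hle' : Submodule.span F {v} ≤ W.1 := by simpa using W.2.2.1
      have := card_sdiff hle'
      rw [h1, W.2.1, hF'] at this
      rw [← this]
      exact Nat.card_congr ⟨fun w => ⟨w.1.1, w.2, w.1.2.2⟩, fun w => ⟨⟨w.1, H11.mem_perp_span.mpr (by
        rintro _ rfl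
        rw [← H10.sympForm_eq_spBilin]; exact W.2.2.2 _ W.2.2.1 _ w.2.1), w.2.2⟩, w.2.1⟩,
        fun _ => rfl, fun _ => rfl⟩
  refine ⟨?_, h2⟩
  have := dbl (A := {v : Fin 2 ⊕ Fin 2 → F // v ∈ (⊤ : Submodule F (Fin 2 ⊕ Fin 2 → F)) ∧
      v ∉ (⊥ : Submodule F (Fin 2 ⊕ Fin 2 → F))})
    (X := {W : Submodule F (Fin 2 ⊕ Fin 2 → F) //
      Module.finrank F W = 2 ∧ ∀ u ∈ W, ∀ w ∈ W, Cfsg.sympForm 2 F u w = 0})
    (fun w W => w.1 ∈ W.1) (m := r + 1 + 1) (n := (r + 1) ^ 2 - (r + 1) ^ 0) (fun w => ?_)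
    fun W => ?_
  · rw [card_sdiff bot_le, finrank_top, finrank_bot, H10.finrank_sp_space, Fintype.card_fin,
      hF'] at this
    have e1 : (r + 1) ^ (2 * 2) - (r + 1) ^ 0 = ((r + 1) ^ 2 + 1) * ((r + 2) * r) := by
      apply Nat.sub_eq_of_eq_add; ring
    have e2 : (r + 1) ^ 2 - (r + 1) ^ 0 = (r + 2) * r := by
      apply Nat.sub_eq_of_eq_add; ring
    rw [e1, e2] at this
    refine Nat.eq_of_mul_eq_mul_right (m := (r + 2) * r) (Nat.mul_pos (by omega) (by omega)) ?_
    rw [← this]; ring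
  · rw [← h2 w.1 (by simpa using w.2.2)]
    exact Nat.card_congr ⟨fun W => ⟨W.1.1, W.1.2.1, W.2, W.1.2.2⟩,
      fun W => ⟨⟨W.1, W.2.1, W.2.2.2⟩, W.2.2.1⟩, fun _ => rfl, fun _ => rfl⟩
  · have := card_sdiff (bot_le (a := W.1))
    rw [finrank_bot, W.2.1, hF'] at this
    rw [← this]
    exact Nat.card_congr ⟨fun w => ⟨w.1.1, w.2, w.1.2.2⟩, fun w => ⟨⟨w.1, trivial, w.2.2⟩, w.2.1⟩,
      fun _ => rfl, fun _ => rfl⟩

end Cfsg.Agent.S0828
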