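import Cfsg.Statements.S0829
import Mathlib
import Cfsg.Agent.H11.Parab

set_option autoImplicit false
open Cfsg

namespace Cfsg.Agent.S0829

/-- The unitary quadrangle of PSU_4(q): with |F| = q², the number of 2-dimensional subspaces of F^4 on which the Hermitian form Σ x_i y_i^q vanishes is (q + 1)(q³ + 1). -/
theorem result {F : Type*} [Field F] [Fintype F] {q : ℕ} (hF : Fintype.card F = q ^ 2) : Nat.card {W : Submodule F (Fin 4 → F) // Module.finrank F W = 2 ∧ ∀ u ∈ W, ∀ v ∈ W, Cfsg.hermForm 4 F q u v = 0} = (q + 1) * (q ^ 3 + 1) := by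
  have hq := H11.qConj_conjQ hF
  have h := (hq.isHerm (Fin 4)).card_totSing_mul hq (H11.hermB_sep _) (Module.finrank_fin_fun F)
    (k := 2) le_rfl
  simp only [H11.IsHerm.totSing_iff] at h
  simp only [hq.hermForm_eq]
  rw [Nat.card_congr (Equiv.subtypeEquivRight fun W => and_congr_right fun _ =>
    ⟨fun H u hu v hv => H v hv u hu, fun H u hu v hv => H v hv u hu⟩)]
  generalize Nat.card _ = N at h ⊢
  obtain ⟨r, rfl⟩ : ∃ r, q = r + 2 := ⟨q - 2, by have := hq.two_le; omega⟩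
  simp only [H11.uOrd, Finset.prod_range_succ, Fin.prod_univ_two] at h
  norm_num [Nat.even_iff] at h
  have h1 : ∀ n, 1 ≤ (r + 2) ^ n := fun n => Nat.one_le_pow _ _ (by omega)
  have h2 : (r + 2) ^ 2 ≤ ((r + 2) ^ 2) ^ 2 := Nat.le_self_pow two_ne_zero _
  have h3 := h1 2
  zify [h1, h2, h3.trans h2] at h ⊢
  apply mul_right_cancel₀ (b := ((r : ℤ) + 2) ^ 6 * ((r + 2) ^ 4 - 1) * ((r + 2) ^ 2 - 1))
    (by have : ((r : ℤ) + 2) ^ 4 - 1 > 0 := by ring_nf; positivity
        have : ((r : ℤ) + 2) ^ 2 - 1 > 0 := by ring_nf; positivity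
        positivity)
  linear_combination h

end Cfsg.Agent.S0829
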