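import Cfsg.Statements.S0831
import Mathlib
import Cfsg.Agent.H11.Bridge2

set_option autoImplicit false
open Cfsg

namespace Cfsg.Agent.S0831

/-- The two families of maximal totally singular subspaces of the hyperbolic quadric: for the form Σ x_i y_i on F^(2m), m ≥ 1, and m-dimensional subspaces U, W, X on which it vanishes, the parities of m − dim(U ∩ W), m − dim(W ∩ X) and m − dim(U ∩ X) sum to an even number (so 'even codimension of the intersection' is an equivalence relation), and there exist two such subspaces meeting in codimension 1 (so there are exactly two classes). -/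
theorem result {F : Type*} [Field F] (m : ℕ) (hm : 1 ≤ m) : (∀ U W X : Submodule F (Fin m ⊕ Fin m → F), (Module.finrank F U = m ∧ ∀ w ∈ U, Cfsg.quadFormPlus m F w = 0) → (Module.finrank F W = m ∧ ∀ w ∈ W, Cfsg.quadFormPlus m F w = 0) → (Module.finrank F X = m ∧ ∀ w ∈ X, Cfsg.quadFormPlus m F w = 0) → Even ((m - Module.finrank F ↥(U ⊓ W)) + (m - Module.finrank F ↥(W ⊓ X)) + (m - Module.finrank F ↥(U ⊓ X)))) ∧ ∃ U W : Submodule F (Fin m ⊕ Fin m → F), (Module.finrank F U = m ∧ ∀ w ∈ U, Cfsg.quadFormPlus m F w = 0) ∧ (Module.finrank F W = m ∧ ∀ w ∈ W, Cfsg.quadFormPlus m F w = 0) ∧ Module.finrank F ↥(U ⊓ W) + 1 = m := by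
  have h := H11.isQuad_plus m F
  have hB := H11.bPlus_sep m F
  have hn : Module.finrank F (Fin m ⊕ Fin m → F) = 2 * m := by simp [two_mul]
  constructor
  · rintro U W X ⟨hU, hU0⟩ ⟨hW, hW0⟩ ⟨hX, hX0⟩
    have e1 : Module.finrank F ↥(U ⊓ W) ≤ m := (Submodule.finrank_mono inf_le_left).trans hU.le
    have e2 : Module.finrank F ↥(W ⊓ X) ≤ m := (Submodule.finrank_mono inf_le_left).trans hW.le
    have e3 : Module.finrank F ↥(U ⊓ X) ≤ m := (Submodule.finrank_mono inf_le_left).trans hU.le
    have := h.even_families hB hn (h.totSing_iff.mpr hU0) (h.totSing_iff.mpr hX0) hU hX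
      (m - Module.finrank F ↥(W ⊓ X)) W (h.totSing_iff.mpr hW0) hW (by omega)
    rw [Nat.even_iff] at this ⊢
    omega
  · obtain ⟨a, ha⟩ := h.exists_nonsingular (H11.nondegOn_top hB) (fun h0 => by
      have := finrank_top F (Fin m ⊕ Fin m → F)
      rw [h0, finrank_bot] at this
      omega)
    have hU := H11.totSing_ker_funLeft_inr (F := F) m
    have hUm := H11.finrank_ker_funLeft_inr (F := F) m
    exact ⟨_, _, ⟨hUm, hU.1⟩, ⟨by rw [LinearEquiv.finrank_map_eq, hUm], (hU.map_isom (h.reflO a).2).1⟩,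
      by rw [h.finrank_inf_map_reflO hB hU (by omega) ha.2, hUm]⟩

end Cfsg.Agent.S0831
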