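import Cfsg.Statements.S0832
import Mathlib
import Cfsg.Agent.H11.Bridge2

set_option autoImplicit false
open Cfsg

namespace Cfsg.Agent.S0832

/-- For the form Σ x_i y_i on F^(2m) over a finite field, m ≥ 1: an (m−1)-dimensional subspace on which the form vanishes is contained in exactly two m-dimensional subspaces on which it vanishes. -/
theorem result {F : Type*} [Field F] [Finite F] (m : ℕ) (hm : 1 ≤ m) (U : Submodule F (Fin m ⊕ Fin m → F)) (hU : Module.finrank F U + 1 = m ∧ ∀ u ∈ U, Cfsg.quadFormPlus m F u = 0) : Nat.card {W : Submodule F (Fin m ⊕ Fin m → F) // Module.finrank F W = m ∧ (∀ w ∈ W, Cfsg.quadFormPlus m F w = 0) ∧ U ≤ W} = 2 := by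
  have h := H11.isQuad_plus m F
  have hB := H11.bPlus_sep m F
  have hn : Module.finrank F (Fin m ⊕ Fin m → F) = 2 * m := by simp [two_mul]
  have hU' := h.totSing_iff.mpr hU.2
  obtain ⟨W, hW, hUW⟩ := h.exists_maxTotSing_ge hU'
  have hWm : Module.finrank F W = m := h.wittIdx_unique hB ⟨W, hW, rfl⟩ (H11.wittIdx_plus m F)
  have hp := h.finrank_perp hB U
  obtain ⟨a, haU, ha⟩ : ∃ v ∈ H11.perp (H11.bPlus m F) U, quadFormPlus m F v ≠ 0 := by
    by_contra hne
    push Not at hne
    have h1 := h.two_mul_finrank_le hB (h.totSing_iff.mpr hne)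
    omega
  let W' := W.map (h.reflO a).1.toLinearMap
  have hW' : H11.TotSing _ _ W' := hW.1.map_isom (h.reflO a).2
  have hWm' : Module.finrank F W' = m := by rw [LinearEquiv.finrank_map_eq, hWm]
  have hUW' : U ≤ W' := fun x hx => ⟨x, hUW hx, h.reflO_of_perp (h.refl (haU x hx))⟩
  have hadj : Module.finrank F ↥(W ⊓ W') + 1 = m := by
    rw [h.finrank_inf_map_reflO hB hW.1 (by omega) ha, hWm]
  rw [Nat.card_eq_two_iff]
  refine ⟨⟨W, hWm, hW.1.1, hUW⟩, ⟨W', hWm', hW'.1, hUW'⟩, fun h0 => ?_, ?_⟩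
  · have : W = W' := congrArg Subtype.val h0
    rw [← this, inf_idem] at hadj
    omega
  · rw [Set.eq_univ_iff_forall]
    rintro ⟨X, hXm, hX, hUX⟩
    have e1 := Submodule.finrank_mono (le_inf hUX hUW)
    have e2 := Submodule.finrank_mono (le_inf hUX hUW')
    rcases h.finrank_inf_adjacent hB hn (h.totSing_iff.mpr hX) hW.1 hW' hXm hWm hWm' hadj with e | e
    · left
      apply Subtype.ext
      have e3 : X ⊓ W = X := Submodule.eq_of_le_of_finrank_le inf_le_left (by omega)
      exact Submodule.eq_of_le_of_finrank_le (inf_eq_left.mp e3) (by simp only; omega)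
    · right
      apply Subtype.ext
      have e3 : X ⊓ W' = X := Submodule.eq_of_le_of_finrank_le inf_le_left (by omega)
      exact Submodule.eq_of_le_of_finrank_le (inf_eq_left.mp e3) (by simp only; omega)

end Cfsg.Agent.S0832
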