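import Cfsg.Statements.S0833
import Mathlib
import Cfsg.Agent.H10.Alt

set_option autoImplicit false
open Cfsg

namespace Cfsg.Agent.S0833

/-- If B₁, B₂ are non-degenerate alternating forms on U (dim 2k) and W (dim 2l), then B₁ ⊗ B₂ on U ⊗ W is symmetric, non-degenerate, and vanishes identically on some subspace of dimension 2kl (half of dim U ⊗ W). -/
theorem result {F U W : Type*} [Field F] [Fintype F] [AddCommGroup U] [Module F U] [FiniteDimensional F U] [AddCommGroup W] [Module F W] [FiniteDimensional F W] (B₁ : LinearMap.BilinForm F U) (B₂ : LinearMap.BilinForm F W) (h₁ : B₁.Nondegenerate) (h₂ : B₂.Nondegenerate) (hA₁ : B₁.IsAlt) (hA₂ : B₂.IsAlt) (k l : ℕ) (hU : Module.finrank F U = 2 * k) (hW : Module.finrank F W = 2 * l) : (B₁.tmul B₂).IsSymm ∧ (B₁.tmul B₂).Nondegenerate ∧ (∃ X : Submodule F (TensorProduct F U W), Module.finrank F X = 2 * k * l ∧ ∀ x ∈ X, ∀ y ∈ X, (B₁.tmul B₂) x y = 0) := by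
  classical
  have ht : ∀ a b a' b', (B₁.tmul B₂) (a ⊗ₜ b) (a' ⊗ₜ b') = B₂ b b' * B₁ a a' := fun a b a' b' =>
    rfl
  refine ⟨⟨fun x y => ?_⟩, ?_, ?_⟩
  · induction x with
    | zero => simp
    | add x x' hx hx' => simpa using congrArg₂ (· + ·) hx hx'
    | tmul a b =>
      induction y with
      | zero => simp
      | add y y' hy hy' => simpa using congrArg₂ (· + ·) hy hy'
      | tmul a' b' => rw [RingHom.id_apply, ht, ht, ← hA₁.neg_eq a, ← hA₂.neg_eq b]; ring
  · let b₁ := Module.finBasis F U
    let b₂ := Module.finBasis F W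
    refine (LinearMap.BilinForm.nondegenerate_iff_det_ne_zero (b₁.tensorProduct b₂)).mpr ?_
    have : LinearMap.BilinForm.toMatrix (b₁.tensorProduct b₂) (B₁.tmul B₂) =
        Matrix.kroneckerMap (· * ·) (LinearMap.BilinForm.toMatrix b₁ B₁)
          (LinearMap.BilinForm.toMatrix b₂ B₂) := by
      ext ⟨i, j⟩ ⟨i', j'⟩
      simp only [LinearMap.BilinForm.toMatrix_apply, Module.Basis.tensorProduct_apply, ht,
        Matrix.kroneckerMap_apply, mul_comm]
    rw [this, Matrix.det_kronecker]
    exact mul_ne_zero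
      (pow_ne_zero _ ((LinearMap.BilinForm.nondegenerate_iff_det_ne_zero b₁).mp h₁))
      (pow_ne_zero _ ((LinearMap.BilinForm.nondegenerate_iff_det_ne_zero b₂).mp h₂))
  · obtain ⟨L, -, hL⟩ := H10.exists_lagrangian_ge hA₁ ⊥ bot_le
    have hd := LinearMap.BilinForm.finrank_orthogonal h₁ L
    have hd' := L.finrank_le
    rw [hL, hU] at hd
    refine ⟨LinearMap.range (L.subtype.rTensor W), ?_, ?_⟩
    · rw [LinearMap.finrank_range_of_inj
        (Module.Flat.rTensor_preserves_injective_linearMap _ L.injective_subtype),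
        Module.finrank_tensorProduct, hW, show Module.finrank F L = k by omega]
      ring
    · rintro _ ⟨x, rfl⟩ _ ⟨y, rfl⟩
      induction x with
      | zero => simp
      | add x x' hx hx' => simpa using congrArg₂ (· + ·) hx hx'
      | tmul a b =>
        induction y with
        | zero => simp
        | add y y' hy hy' => simpa using congrArg₂ (· + ·) hy hy'
        | tmul a' b' =>
          have : B₁ a a' = 0 := (hL.ge a'.2) a a.2
          rw [LinearMap.rTensor_tmul, LinearMap.rTensor_tmul, ht]
          simp [this]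

end Cfsg.Agent.S0833
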