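import Cfsg.Statements.S0834
import Mathlib
import Cfsg.Agent.H11.Bridge2

set_option autoImplicit false
open Cfsg

namespace Cfsg.Agent.S0834

/-- Over a finite field with 2 ≠ 0: if B₁ on U (dim 2k, k ≥ 1) and B₂ on W (dim 2l, l ≥ 1) are non-degenerate symmetric forms admitting no totally isotropic subspaces of dimensions k, resp. l (minus type), then B₁ ⊗ B₂ admits a totally isotropic subspace of dimension 2kl (plus type). -/
theorem result {F U W : Type*} [Field F] [Fintype F] [AddCommGroup U] [Module F U] [FiniteDimensional F U] [AddCommGroup W] [Module F W] [FiniteDimensional F W] (h2 : (2 : F) ≠ 0) (B₁ : LinearMap.BilinForm F U) (B₂ : LinearMap.BilinForm F W) (h₁ : B₁.Nondegenerate) (h₂ : B₂.Nondegenerate) (hS₁ : B₁.IsSymm) (hS₂ : B₂.IsSymm) (k l : ℕ) (hk : 1 ≤ k) (hl : 1 ≤ l) (hU : Module.finrank F U = 2 * k) (hW : Module.finrank F W = 2 * l) (hm₁ : ¬ (∃ X : Submodule F (U), Module.finrank F X = k ∧ ∀ x ∈ X, ∀ y ∈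 X, (B₁) x y = 0)) (hm₂ : ¬ (∃ X : Submodule F (W), Module.finrank F X = l ∧ ∀ x ∈ X, ∀ y ∈ X, (B₂) x y = 0)) : (∃ X : Submodule F (TensorProduct F U W), Module.finrank F X = 2 * k * l ∧ ∀ x ∈ X, ∀ y ∈ X, (B₁.tmul B₂) x y = 0) := by
  classical
  let b₁ := Module.finBasis F U
  let b₂ := Module.finBasis F W
  have d₁ := H11.gram_det_ne_zero (fun _ => rfl) h₁.1 b₁
  have d₂ := H11.gram_det_ne_zero (fun _ => rfl) h₂.1 b₂
  have e := H11.gram_det_tmul B₁ B₂ b₁ b₂
  have := (H11.exists_totIso_iff_disc h2 (B := B₁.tmul B₂) (fun x y => (LinearMap.IsSymm.tmul (LinearMap.BilinForm.isSymm_iff.mp hS₁) (LinearMap.BilinForm.isSymm_iff.mp hS₂)).eq x y)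
    (H11.sep_of_gram_det_ne_zero (b₁.tensorProduct b₂) (by rw [e]; exact mul_ne_zero (pow_ne_zero _ d₁) (pow_ne_zero _ d₂))) (k := 2 * k * l) (by rw [Module.finrank_tensorProduct, hU, hW]; ring) (b₁.tensorProduct b₂)).mpr ?_
  · exact this
  rw [e, Fintype.card_fin, Fintype.card_fin]
  refine ⟨(-1) ^ (k * l) * (H11.gram B₁ b₁).det ^ l * (H11.gram B₂ b₂).det ^ k, ?_⟩
  generalize (H11.gram B₁ b₁).det = x
  generalize (H11.gram B₂ b₂).det = y
  rw [hU, hW]
  ring

end Cfsg.Agent.S0834
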