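import Cfsg.Statements.S0837
import Mathlib
import Cfsg.Agent.H11.Parab

set_option autoImplicit false
open Cfsg

namespace Cfsg.Agent.S0837

/-- If W ≤ F^n (|F| = q²) is a k-dimensional subspace on which the Hermitian form Σ x_i y_i^q is non-degenerate, then the stabiliser of W in GU_n(q) is isomorphic to GU_k(q) × GU_(n−k)(q). -/
theorem result {F : Type*} [Field F] [Fintype F] {q : ℕ} (hF : Fintype.card F = q ^ 2) (n k : ℕ) (hk : k ≤ n) (W : Submodule F (Fin n → F)) (hWk : Module.finrank F W = k) (hW : ∀ u ∈ W, (∀ v ∈ W, Cfsg.hermForm n F q u v = 0) → u = 0) : Nonempty (↥((Cfsg.stabilizing (Cfsg.glToMat (Fin n) F) (W : Set (Fin n → F))).subgroupOf (Cfsg.GU n F q)) ≃* ↥(Cfsg.GU k F q) × ↥(Cfsg.GU (n - k) F q)) := by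
  have hq := H11.qConj_conjQ hF
  have := hq.finite
  have h := hq.isHerm (Fin n)
  have hB := H11.hermB_sep (σ := H11.conjQ hF) (Fin n)
  have hW' : H11.NondegOn (H11.hermB (Fin n) (H11.conjQ hF)) W := fun x hx H =>
    hW x hx fun y hy => by rw [hq.hermForm_eq, h.refl (H y hy)]
  have hd := h.form.finrank_perp hB W
  rw [Module.finrank_fin_fun] at hd
  obtain ⟨e₁, h₁⟩ := (h.pull W.subtype).exists_equiv (H11.nondegOn_iff.mp hW') (hq.isHerm (Fin k))
    (H11.hermB_sep _) (by simpa)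
  obtain ⟨e₂, h₂⟩ := (h.pull (H11.perp _ W).subtype).exists_equiv
    (H11.nondegOn_iff.mp (h.form.nondegOn_perp hB hW')) (hq.isHerm (Fin (n - k)))
    (H11.hermB_sep _) (by simp; omega)
  refine ⟨(H11.subgroupEquivOfIff (H11.guEquiv hq n) _ (H11.stabSub _ _ W) fun g => ?_).trans
    ((h.form.stabNondegEquiv hB hW').symm.trans (MulEquiv.prodCongr
      ((H11.isomCongr e₁ h₁ fun x => h₁ x x).trans (H11.guEquiv hq k).symm)
      ((H11.isomCongr e₂ h₂ fun x => h₂ x x).trans (H11.guEquiv hq _).symm)))⟩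
  rw [Subgroup.mem_subgroupOf, H11.mem_stabSub_iff]
  rfl

end Cfsg.Agent.S0837
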