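import Cfsg.Statements.S0839
import Mathlib
import Cfsg.Agent.H10.Transv

set_option autoImplicit false
open Cfsg

namespace Cfsg.Agent.S0839

/-- Every transvection t ∈ SL_(n+2)(F) (rank(t − 1) = 1, (t − 1)² = 0) is conjugate in SL_(n+2)(F) to 1 + v·e_0ᵀ for some column vector v with v_0 = 0 (the group A of matrices that are the identity except in the first column below the diagonal); the dimension is written n + 2 ≥ 2. -/
theorem result {F : Type*} [Field F] (n : ℕ) (t : Matrix.SpecialLinearGroup (Fin (n + 2)) F) (ht : Cfsg.IsTransvection (t : Matrix (Fin (n + 2)) (Fin (n + 2)) F)) : ∃ (g : Matrix.SpecialLinearGroup (Fin (n + 2)) F) (v : Fin (n + 2) → F), v 0 = 0 ∧ ((g⁻¹ * t * g : Matrix.SpecialLinearGroup (Fin (n + 2)) F) : Matrix (Fin (n + 2)) (Fin (n + 2)) F) = 1 + Matrix.vecMulVec v (Pi.single 0 1) := by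
  classical
  obtain ⟨h1, h2⟩ := ht
  obtain ⟨⟨u, hu⟩, hu0, hsp⟩ := finrank_eq_one_iff'.mp h1
  choose f hf using fun j : Fin (n + 2) => hsp ⟨_, ⟨Pi.single j 1, rfl⟩⟩
  have hN : (t : Matrix (Fin (n + 2)) (Fin (n + 2)) F) - 1 = Matrix.vecMulVec u f := by
    ext i j
    have := congrFun (congrArg Subtype.val (hf j)) i
    simp only [Submodule.coe_smul, Pi.smul_apply, smul_eq_mul, Matrix.mulVecLin_apply,
      Matrix.mulVec_single_one, Matrix.col_apply] at this
    rw [Matrix.vecMulVec_apply, ← this, mul_comm]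
  have hu0' : u ≠ 0 := fun h => hu0 (Subtype.ext h)
  have hf0 : f ≠ 0 := by
    rintro rfl
    rw [hN] at h1; simp at h1
  have hfu : f ⬝ᵥ u = 0 := by
    obtain ⟨j, hj⟩ := Function.ne_iff.mp hf0
    have := congrArg (fun M => Matrix.mulVec M (Pi.single j 1)) h2
    simp only [hN, ← Matrix.mulVec_mulVec, H10.vecMulVec_mulVec', Matrix.mulVec_smul,
      Matrix.zero_mulVec, dotProduct_single, mul_one, smul_eq_zero] at this
    rcases this with h | h | h
    · exact absurd h hj
    · exact h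
    · exact absurd h hu0'
  obtain ⟨g, hg⟩ := H10.exists_sl_mulVec (ι := Fin (n + 2)) (by simp) hf0
    (w := Pi.single 0 1) (by simp)
  have hg' : Matrix.vecMul f (g.transpose).1 = Pi.single 0 1 := by
    rw [← hg]; exact Matrix.vecMul_transpose _ _
  refine ⟨g.transpose, Matrix.mulVec (g.transpose⁻¹).1 u, ?_, ?_⟩
  · have := H10.vecMul_dot_mulVec _ _ (H10.sl_mul_inv_val g.transpose) u f
    rw [hg', hfu] at this
    simpa using this
  · have ht : (t : Matrix (Fin (n + 2)) (Fin (n + 2)) F) = 1 + Matrix.vecMulVec u f := by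
      rw [← hN]; abel
    rw [← hg', ← H10.conj_trv_val _ _ (H10.sl_inv_mul_val g.transpose), ← ht]
    rfl

end Cfsg.Agent.S0839
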