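import Cfsg.Statements.S0842
import Mathlib
import Cfsg.Agent.H6.BrSuz

set_option autoImplicit false
open Cfsg

namespace Cfsg.Agent.S0842

open Cfsg.Agent.H6

/-- Suppose a Sylow 2-subgroup S of the finite group G is generalized quaternion of order at least 16, and let D be the commutator subgroup of S, C its centralizer and N its normalizer in G. Then there is a subgroup K of odd order, contained in C and normalized by N, with K ⊔ S = N and K ⊔ (S ⊓ C) = C, and C has index 2 in N. -/
theorem result {G : Type*} [Group G] [Finite G] (S : Sylow 2 G) (n : ℕ) (e : (S : Subgroup G) ≃* QuaternionGroup (2 ^ (n + 2))) (D : Subgroup G) (hD : D = ⁅(S : Subgroup G), (S : Subgroup G)⁆) : ∃ K : Subgroup G, Odd (Nat.card K) ∧ K ≤ Subgroup.centralizer (D : Set G) ∧ Subgroup.normalizer (D : Set G) ≤ Subgroup.normalizer (K : Set G) ∧ K ⊔ (S : Subgroup G) = Subgroup.normalizer (D : Set G) ∧ K ⊔ ((S : Subgroup G) ⊓ Subgroup.centralizer (D : Set G)) = Subgroup.centralizer (D : Set G) ∧ ((Subgroup.centralizer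 (D : Set G)).subgroupOf (Subgroup.normalizer (D : Set G))).index = 2 := by
  obtain ⟨x, y, h⟩ := exists_quatData e
  rw [h.commutator_eq] at hD
  subst hD
  obtain ⟨K, hK⟩ := quat_exists_npc S h
  have hle : K ≤ Subgroup.centralizer (Subgroup.zpowers (x ^ 2) : Set G) :=
    fun g hg => ((hK g).1 hg).1
  have hCN := Subgroup.centralizer_le_normalizer (Subgroup.zpowers (x ^ 2) : Set G)
  have hNC := H1.le_normalizer_centralizer
    (le_refl (Subgroup.normalizer (Subgroup.zpowers (x ^ 2) : Set G)))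
  refine ⟨K, Nat.coprime_two_right.1 (H4.coprime_card_subgroup_of_forall fun g hg =>
    ((hK g).1 hg).2), hle, fun g hg => Subgroup.mem_normalizer_iff.2 fun k => ?_,
    le_antisymm (sup_le (hle.trans hCN) h.le_normalizer) fun g hg => ?_,
    le_antisymm (sup_le hle inf_le_right) fun g hg => ?_, ?_⟩
  · rw [hK, hK, H20.orderOf_conj, ← Subgroup.mem_normalizer_iff.1 (hNC hg) k]
  · obtain ⟨k, hk, -, s, hs, rfl⟩ := (H4.IsSylowIn.sylow_of_le S
      h.le_normalizer).exists_mul_eq_of_forall_coprime (K := K)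
      (fun g h1 h2 => (hK g).2 ⟨quat_mem_cent_of_odd S h h1 h2, h2⟩) hg
    exact Subgroup.mul_mem_sup hk hs
  · rw [h.inf_cent two_lt_two_pow]
    obtain ⟨k, hk, -, s, hs, rfl⟩ := (quat_sylowIn_cent S h).exists_mul_eq_of_forall_coprime
      (K := K) (fun g h1 h2 => (hK g).2 ⟨h1, h2⟩) hg
    exact Subgroup.mul_mem_sup hk hs
  · refine Subgroup.index_eq_two_iff.2 ⟨⟨y, h.le_normalizer h.y_mem⟩⁻¹, fun g => ?_⟩
    have h1 := h.y_not_mem_cent two_lt_two_pow
    simp only [Subgroup.mem_subgroupOf, Subgroup.coe_mul, Subgroup.coe_inv]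
    rcases quat_mem_cent_or S h g.2 with h2 | h2
    · exact Or.inr ⟨h2, fun h3 => h1 (by simpa using mul_mem (inv_mem h3) h2)⟩
    · exact Or.inl ⟨h2, fun h3 => h1 (by simpa using mul_mem (inv_mem h2) h3)⟩

end Cfsg.Agent.S0842
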