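import Cfsg.Statements.S0846
import Mathlib
import Cfsg.Agent.H6.BrSuz

set_option autoImplicit false
open Cfsg

namespace Cfsg.Agent.S0846

open Cfsg.Agent.H6

/-- Suppose a Sylow 2-subgroup S of the finite group G is generalized quaternion of order at least 16. Then every Sylow 2-subgroup of the subgroup generated by the involutions of G is cyclic. -/
theorem result {G : Type*} [Group G] [Finite G] (S : Sylow 2 G) (n : ℕ) (e : (S : Subgroup G) ≃* QuaternionGroup (2 ^ (n + 2))) (Q : Sylow 2 ↥(Subgroup.closure {g : G | orderOf g = 2})) : IsCyclic Q := by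
  obtain ⟨x, y, h⟩ := exists_quatData e
  have hn := normal_closure_involutions (G := G)
  have h1 : H4.IsSylowIn 2 ((S : Subgroup G) ⊓ Subgroup.closure {g : G | orderOf g = 2}) _ :=
    (H4.IsSylowIn.sylow_top S).inf_of_normal_le le_top (Subgroup.normalizer_eq_top _).ge
  have h2 := quat_isCyclic_inf S h
  rw [← h1.map_toSylow] at h2
  exact isCyclic_of_surjective _ ((Subgroup.equivMapOfInjective _ _
    (Subgroup.subtype_injective _)).symm.trans (h1.toSylow.equiv Q)).surjective

end Cfsg.Agent.S0846
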