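import Cfsg.Statements.S0848
import Mathlib
import Cfsg.Agent.GW.Cons1

set_option autoImplicit false
open Cfsg

namespace Cfsg.Agent.S0848



/-- If a finite group equals its own commutator subgroup and contains an involution whose centralizer is isomorphic to the dihedral group of order 8, then the group has order 168 or 360. -/
theorem result {G : Type*} [Group G] [Finite G] (hperf : commutator G = ⊤) (t : G) (ht : orderOf t = 2) (e : Subgroup.centralizer ({t} : Set G) ≃* DihedralGroup 4) : Nat.card G = 168 ∨ Nat.card G = 360 := by
  obtain ⟨T, h, h4⟩ := GW.dh_of_d8 ht e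
  rcases h.d8 h4 (GW.no2_of_perfect hperf) with ⟨⟨e⟩⟩ | ⟨F, _, _, hF, ⟨e⟩⟩
  · right; rw [Nat.card_congr e.toEquiv, nat_card_alternatingGroup]; simp [Nat.factorial]
  · have := H10.card_PSL2 (F := F)
    rw [Nat.card_eq_fintype_card (α := F), hF, ← Nat.card_congr e.toEquiv] at this
    norm_num at this
    omega

end Cfsg.Agent.S0848
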