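import Cfsg.Statements.S0849
import Mathlib
import Cfsg.Agent.H6.TI

set_option autoImplicit false
open Cfsg

namespace Cfsg.Agent.S0849

open Cfsg.Agent.H6

/-- Let H be a subgroup of a finite group G and S a subset of H that is mapped to itself under conjugation by H, is disjoint from its conjugate by any element outside H, and is closed under inverses. Let φ be a class function of H vanishing on H away from S, and let u, v be involutions of G. Then the sum of the induced function of φ over all products a * b with a conjugate to u and b conjugate to v equals the index of H times the sum of φ (a * b) over such pairs with a and b in H. -/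
theorem result {G : Type*} [Group G] [Fintype G] (H : Subgroup G) (S : Set G) (hSH : S ⊆ H) (hHS : ∀ h ∈ H, ∀ s ∈ S, h * s * h⁻¹ ∈ S) (hTI : ∀ g : G, g ∉ H → ∀ s ∈ S, g * s * g⁻¹ ∉ S) (hinv : ∀ s ∈ S, s⁻¹ ∈ S) (φ : H → ℂ) (hφ : Cfsg.IsClassFunction H φ) (hφS : ∀ x : H, (x : G) ∉ S → φ x = 0) (u v : G) (hu : orderOf u = 2) (hv : orderOf v = 2) : ∑ᶠ p ∈ {p : G × G | IsConj u p.1 ∧ IsConj v p.2}, Cfsg.indFun H φ (p.1 * p.2) = (H.index : ℂ) * ∑ᶠ p ∈ {p : H × H | IsConj u (p.1 : G) ∧ IsConj v (p.2 : G)}, φ (p.1 * p.2) := by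
  classical
  rw [finsum_mem_eq_finite_toFinset_sum _ (Set.toFinite _),
    finsum_mem_eq_finite_toFinset_sum _ (Set.toFinite _)]
  have h := pairSum_indFun_of_inverts H (u := u) (v := v)
    (by rw [← sq, ← hu, pow_orderOf_eq_one]) (by rw [← sq, ← hv, pow_orderOf_eq_one]) φ
    fun c hc a _ e => by
      by_contra ha
      have h1 : (c : G) ∈ S := by
        by_contra h1
        exact hc (hφS c h1)
      exact hTI a ha c h1 (e ▸ hinv _ h1)
  unfold pairSum pairSumIn at h
  convert h using 2
  · ext p; simp
  · refine Finset.sum_congr ?_ fun _ _ => rfl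
    ext p; simp

end Cfsg.Agent.S0849
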