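import Cfsg.Statements.S0851
import Mathlib
import Cfsg.Agent.H6.TI

set_option autoImplicit false
open Cfsg

namespace Cfsg.Agent.S0851

open Cfsg.Agent.H6

/-- Let K be a subgroup of the finite group G that meets each conjugate by an element outside its normalizer N trivially, is properly contained in N, and contains the centralizer of each of its non-identity elements (a T.I. subgroup with Frobenius normalizer). Suppose K is abelian, let e be the index of K in N, and call an irreducible character of N relevant when it takes at some element of K a value different from its degree. Then either there is exactly one relevant character and K is an elementary abelian p-group of order e + 1 for some prime p, or there are a sign ε and an injective map f from the relevant characters to the irreducible characters of G such that inducing χ - ξ to G gives ε (f χ - f ξ) for all relevant χ and ξ. -/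
theorem result {G : Type*} [Group G] [Fintype G] (K : Subgroup G) (hTI : ∀ g : G, g ∉ Subgroup.normalizer (K : Set G) → ∀ k ∈ K, g * k * g⁻¹ ∈ K → k = 1) (hlt : K < Subgroup.normalizer (K : Set G)) (hC : ∀ k ∈ K, k ≠ 1 → Subgroup.centralizer ({k} : Set G) ≤ K) (hab : ∀ a ∈ K, ∀ b ∈ K, a * b = b * a) : (Nat.card {χ : Cfsg.IrrCharacter (Subgroup.normalizer (K : Set G)) // ∃ k : Subgroup.normalizer (K : Set G), (k : G) ∈ K ∧ (χ : ↥(Subgroup.normalizer (K : Set G)) → ℂ) k ≠ (χ : ↥(Subgroup.normalizer (K : Set G)) → ℂ) 1} = 1 ∧ ∃ p : ℕ, p.Prime ∧ Cfsg.IsElementaryAbelian p K ∧ Nat.card K = (K.subgroupOf (Subgroup.normalizer (K : Set G))).index + 1) ∨ ∃ (ε : ℂ) (f : {χ : Cfsg.IrrCharacter (Subgroup.normalizer (K : Set G)) // ∃ k : Subgroup.normalizer (K : Set G), (k : G) ∈ K ∧ (χ : ↥(Subgroup.normalizer (K : Set G)) → ℂ) k ≠ (χ : ↥(Subgroup.normalizer (K : Set G)) → ℂ) 1} → Cfsg.IrrCharacter G), (ε = 1 ∨ ε = -1) ∧ Function.Injective f ∧ ∀ χ ξ, Cfsg.indFun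 (Subgroup.normalizer (K : Set G)) ((χ.1 : ↥(Subgroup.normalizer (K : Set G)) → ℂ) - (ξ.1 : ↥(Subgroup.normalizer (K : Set G)) → ℂ)) = ε • ((f χ : G → ℂ) - (f ξ : G → ℂ)) := by
  right
  set N := Subgroup.normalizer (K : Set G) with hN
  have hc := centralizer_le_subgroupOf K hC N
  have hrel : ∀ χ : {χ : IrrCharacter N // ∃ k : N, (k : G) ∈ K ∧ (χ : N → ℂ) k ≠ (χ : N → ℂ) 1},
      ¬ K.subgroupOf N ≤ charKer (χ.1 : N → ℂ) := fun χ =>
    ((irrNotKer_subgroupOf K N).subset ⟨χ.1.2, χ.2⟩).2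
  rcases isEmpty_or_nonempty
    {χ : IrrCharacter N // ∃ k : N, (k : G) ∈ K ∧ (χ : N → ℂ) k ≠ (χ : N → ℂ) 1} with h | ⟨⟨i₀⟩⟩
  · exact ⟨1, isEmptyElim, Or.inl rfl, fun a => isEmptyElim a, fun a => isEmptyElim a⟩
  have := Fintype.ofFinite N
  have hdeg : ∀ χ : {χ : IrrCharacter N // ∃ k : N, (k : G) ∈ K ∧ (χ : N → ℂ) k ≠ (χ : N → ℂ) 1},
      (χ.1 : N → ℂ) 1 = (K.subgroupOf N).index := fun χ => by
    obtain ⟨θ, hθ, -, e⟩ := exists_eq_indFun_of_centralizer_le _ hc χ.1.2 (hrel χ)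
    rw [e, indFun_one, isIrr_degree_one_of_comm
      (fun a b => Subtype.ext (Subtype.ext (hab _ a.2 _ b.2))) hθ, mul_one]
  have hvan : ∀ χ : {χ : IrrCharacter N // ∃ k : N, (k : G) ∈ K ∧ (χ : N → ℂ) k ≠ (χ : N → ℂ) 1},
      ∀ x : N, (x : G) ∉ K → (χ.1 : N → ℂ) x = 0 := fun χ x hx =>
    eq_zero_of_mem_span_irrNotKer _ hc (Submodule.subset_span ⟨χ.1.2, hrel χ⟩) hx
  obtain ⟨ε, hε, μ, hμ, hinj, h⟩ := exists_exceptional_of_TI N K hTI i₀ (fun χ => χ.1.1)
    (fun χ => χ.1.2) (fun a b e => Subtype.ext (Subtype.ext e))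
    (fun χ x hx => by rw [hvan χ x hx, hvan i₀ x hx]) (fun χ => by rw [hdeg, hdeg])
  exact ⟨ε, fun χ => ⟨μ χ, hμ χ⟩, hε, fun a b e => hinj (congrArg Subtype.val e),
    fun χ ξ => by rw [indFun_sub, h]⟩

end Cfsg.Agent.S0851
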