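import Cfsg.Statements.S0852
import Mathlib
import Cfsg.Agent.H6.TI

set_option autoImplicit false
open Cfsg

namespace Cfsg.Agent.S0852

open Cfsg.Agent.H6

/-- Let K be a subgroup of the finite group G that meets each conjugate by an element outside its normalizer N trivially, is properly contained in N, and contains the centralizer of each of its non-identity elements (a T.I. subgroup with Frobenius normalizer). Let S be the set of irreducible characters of N taking at some element of K a value different from their degree, suppose S has at least two members, and let star be a linear isometry on the integer span of S into the generalized characters of G that agrees with induction on the members vanishing at the identity (so S is coherent, with star as the extending isometry). Then an irreducible character ψ of G is of the form star χ or -star χ for some χ in S if and only if ψ is not constant on the non-identity elements of K. -/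
theorem result {G : Type*} [Group G] [Fintype G] (K : Subgroup G) (hTI : ∀ g : G, g ∉ Subgroup.normalizer (K : Set G) → ∀ k ∈ K, g * k * g⁻¹ ∈ K → k = 1) (hlt : K < Subgroup.normalizer (K : Set G)) (hC : ∀ k ∈ K, k ≠ 1 → Subgroup.centralizer ({k} : Set G) ≤ K) [Fintype ↥(Subgroup.normalizer (K : Set G))] (S : Set (↥(Subgroup.normalizer (K : Set G)) → ℂ)) (hS : S = {χ : ↥(Subgroup.normalizer (K : Set G)) → ℂ | Cfsg.IsIrrCharacter ↥(Subgroup.normalizer (K : Set G)) χ ∧ ∃ k : ↥(Subgroup.normalizer (K : Set G)), (k : G) ∈ K ∧ χ k ≠ χ 1}) (htwo : ∃ χ ∈ S, ∃ ξ ∈ S, χ ≠ ξ) (star : (↥(Subgroup.normalizer (K : Set G)) → ℂ) → (G → ℂ)) (hstar : Cfsg.IsLinearIsometryOn (Cfsg.zspan S) star) (hext : ∀ α ∈ Cfsg.zspanOn S ({1}ᶜ : Set ↥(Subgroup.normalizer (K : Set G))), star α = Cfsg.indFun (Subgroup.normalizer (K : Set G)) α) (ψ : G → ℂ) (hψ : Cfsg.IsIrrCharacter G ψ) : (∃ χ ∈ S, ψ = star χ ∨ ψ = -star χ) ↔ ∃ a ∈ K, ∃ b ∈ K, a ≠ 1 ∧ b ≠ 1 ∧ ψ a ≠ ψ b := by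
  have hn : (K.subgroupOf (Subgroup.normalizer (K : Set G))).Normal := inferInstance
  revert hn hTI hlt S star
  rename_i inst
  revert inst
  generalize Subgroup.normalizer (K : Set G) = N
  intro inst hTI hlt S hS htwo star hstar hext hn
  have hc := centralizer_le_subgroupOf K hC N
  rw [irrNotKer_subgroupOf] at hS
  subst hS
  obtain ⟨hadd, hsmul, hiso, hgen⟩ := hstar
  have hext' : ∀ α ∈ Submodule.span ℤ (irrNotKer (K.subgroupOf N)), α 1 = 0 →
      star α = indFun N α := fun α hα h1 => hext α ⟨hα, fun x hx => by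
    rw [Set.notMem_compl_iff, Set.mem_singleton_iff] at hx
    rw [hx, h1]⟩
  have hψc := isClassFunction_of_irr hψ
  choose d hd0 hd using fun χ : irrNotKer (K.subgroupOf N) => isIrr_degree χ.2.1
  have hβ : ∀ χ ξ : irrNotKer (K.subgroupOf N), (d χ : ℤ) • (ξ : N → ℂ) + (-d ξ : ℤ) • (χ : N → ℂ) ∈
      Submodule.span ℤ (irrNotKer (K.subgroupOf N)) := fun χ ξ => Submodule.add_mem _
    (Submodule.smul_mem _ _ (Submodule.subset_span ξ.2))
    (Submodule.smul_mem _ _ (Submodule.subset_span χ.2))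
  have hβ1 : ∀ χ ξ : irrNotKer (K.subgroupOf N),
      ((d χ : ℤ) • (ξ : N → ℂ) + (-d ξ : ℤ) • (χ : N → ℂ)) 1 = 0 := fun χ ξ => by
    simp [hd, mul_comm]
  constructor
  · rintro ⟨χ, hχ, h⟩
    by_contra h1
    push Not at h1
    obtain ⟨ξ, hξ, hne⟩ : ∃ ξ ∈ irrNotKer (K.subgroupOf N), ξ ≠ χ := by
      obtain ⟨a, ha, b, hb, hab⟩ := htwo
      by_cases h2 : a = χ
      · exact ⟨b, hb, fun h3 => hab (h2.trans h3.symm)⟩
      · exact ⟨a, ha, h2⟩
    obtain ⟨k, hk, hk1⟩ : ∃ k ∈ K, k ≠ 1 := by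
      by_contra h2
      push Not at h2
      exact hχ.2 fun x hx => by
        rw [show x = 1 from Subtype.ext (h2 x hx)]
        exact Subgroup.one_mem _
    have h2 := classInner_star_restrict N _ star hiso hgen hext' (Submodule.subset_span hχ)
      (hβ ⟨χ, hχ⟩ ⟨ξ, hξ⟩) (hβ1 _ _)
    have h3 : classInner (fun x : N => ψ x)
        ((d ⟨χ, hχ⟩ : ℤ) • ξ + (-d ⟨ξ, hξ⟩ : ℤ) • χ) = 0 := by
      have h4 := classInner_one_of_mem_span_irrNotKer _ (hβ ⟨χ, hχ⟩ ⟨ξ, hξ⟩)
      rw [classInner_eq_zero_comm] at h4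
      rw [← mul_zero (ψ k), ← h4, ← classInner_smul_left, classInner_def, classInner_def]
      congr 1
      refine Finset.sum_congr rfl fun x _ => ?_
      by_cases hx : (x : G) ∈ K
      · by_cases hx1 : x = 1
        · rw [hx1, hβ1 ⟨χ, hχ⟩ ⟨ξ, hξ⟩, map_zero, mul_zero, mul_zero]
        · rw [h1 x hx k hk (by simpa using hx1) hk1]
          simp
      · rw [eq_zero_of_mem_span_irrNotKer _ hc (hβ ⟨χ, hχ⟩ ⟨ξ, hξ⟩) hx, map_zero, mul_zero, mul_zero]
    have h5 : classInner χ ((d ⟨χ, hχ⟩ : ℤ) • ξ + (-d ⟨ξ, hξ⟩ : ℤ) • χ) ≠ 0 := by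
      rw [classInner_add_right, classInner_zsmul_right, classInner_zsmul_right,
        classInner_irr_self hχ.1, classInner_irr_of_ne hχ.1 hξ.1 hne.symm]
      simpa using (hd0 ⟨ξ, hξ⟩).ne'
    rcases h with h | h
    · exact h5 (by rw [← h2, ← h, h3])
    · refine h5 ?_
      rw [← h2, ← neg_eq_zero, ← classInner_neg_left, ← h3, h]
      rfl
  · rintro ⟨a, ha, b, hb, ha1, hb1, hab⟩
    by_contra h1
    push Not at h1
    have h2 : ∀ χ ∈ irrNotKer (K.subgroupOf N), classInner ψ (star χ) = 0 := fun χ hχ => by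
      have h3 := Submodule.subset_span (R := ℤ) hχ
      rcases isIrr_or_neg_of_norm_one (hgen χ h3) (by
        rw [hiso χ h3 χ h3, classInner_irr_self hχ.1]) with h | h
      · exact classInner_irr_of_ne hψ h (h1 χ hχ).1
      · rw [← neg_eq_zero, ← classInner_neg_right]
        exact classInner_irr_of_ne hψ h (h1 χ hχ).2
    obtain ⟨χ, hχ, -⟩ := htwo
    have h3 := fun {k : N} => apply_eq_of_classInner_prop (K.subgroupOf N) (k := k)
      (isClassFunction_restrict N hψc) (classInner (fun x : N => ψ x) χ / d ⟨χ, hχ⟩)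
      fun ξ hξ hξ' => by
        have h4 := hext' _ (hβ ⟨χ, hχ⟩ ⟨ξ, hξ, hξ'⟩) (hβ1 _ _)
        rw [hadd _ (Submodule.smul_mem _ _ (Submodule.subset_span ⟨hξ, hξ'⟩)) _
          (Submodule.smul_mem _ _ (Submodule.subset_span hχ)),
          hsmul _ (Submodule.subset_span ⟨hξ, hξ'⟩), hsmul _ (Submodule.subset_span hχ)] at h4
        have h5 := classInner_indFun_right N
          ((d ⟨χ, hχ⟩ : ℤ) • ξ + (-d ⟨ξ, hξ, hξ'⟩ : ℤ) • χ) hψc
        rw [← h4, classInner_add_right, classInner_add_right, classInner_zsmul_right,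
          classInner_zsmul_right, classInner_zsmul_right, classInner_zsmul_right, h2 χ hχ,
          h2 ξ ⟨hξ, hξ'⟩] at h5
        have h6 : (d ⟨χ, hχ⟩ : ℂ) ≠ 0 := Nat.cast_ne_zero.2 (hd0 _).ne'
        rw [show ξ 1 = _ from hd ⟨ξ, hξ, hξ'⟩]
        push_cast at h5
        field_simp
        linear_combination -h5
    exact hab ((h3 (k := ⟨a, hlt.le ha⟩) ha (by simpa using ha1)).trans
      (h3 (k := ⟨b, hlt.le hb⟩) hb (by simpa using hb1)).symm)

end Cfsg.Agent.S0852
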