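import Cfsg.Statements.S0853
import Mathlib
import Cfsg.Agent.H6.TI

set_option autoImplicit false
open Cfsg

namespace Cfsg.Agent.S0853

open Cfsg.Agent.H6

/-- Let K be a subgroup of the finite group G that meets each conjugate by an element outside its normalizer N trivially, is properly contained in N, and contains the centralizer of each of its non-identity elements (a T.I. subgroup with Frobenius normalizer). Let S be the set of irreducible characters of N taking at some element of K a value different from their degree, suppose S has at least two members, and let star be a linear isometry on the integer span of S into the generalized characters of G that agrees with induction on the members vanishing at the identity (so S is coherent, with star as the extending isometry). Then there is a single integer m such that star χ k - χ k = m * χ 1 / e for every χ in S and every non-identity element k of K, where e is the index of K in N. -/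
theorem result {G : Type*} [Group G] [Fintype G] (K : Subgroup G) (hTI : ∀ g : G, g ∉ Subgroup.normalizer (K : Set G) → ∀ k ∈ K, g * k * g⁻¹ ∈ K → k = 1) (hlt : K < Subgroup.normalizer (K : Set G)) (hC : ∀ k ∈ K, k ≠ 1 → Subgroup.centralizer ({k} : Set G) ≤ K) [Fintype ↥(Subgroup.normalizer (K : Set G))] (S : Set (↥(Subgroup.normalizer (K : Set G)) → ℂ)) (hS : S = {χ : ↥(Subgroup.normalizer (K : Set G)) → ℂ | Cfsg.IsIrrCharacter ↥(Subgroup.normalizer (K : Set G)) χ ∧ ∃ k : ↥(Subgroup.normalizer (K : Set G)), (k : G) ∈ K ∧ χ k ≠ χ 1}) (htwo : ∃ χ ∈ S, ∃ ξ ∈ S, χ ≠ ξ) (star : (↥(Subgroup.normalizer (K : Set G)) → ℂ) → (G → ℂ)) (hstar : Cfsg.IsLinearIsometryOn (Cfsg.zspan S) star) (hext : ∀ α ∈ Cfsg.zspanOn S ({1}ᶜ : Set ↥(Subgroup.normalizer (K : Set G))), star α = Cfsg.indFun (Subgroup.normalizer (K : Set G)) α) : ∃ m : ℤ, ∀ χ ∈ S, ∀ k : ↥(Subgroup.normalizer (K : Set G)), (k : G) ∈ K → k ≠ 1 → star χ k - χ k = (m : ℂ) * χ 1 / ((K.subgroupOf (Subgroup.normalizer (K : Set G))).index : ℂ) := by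
  have hn : (K.subgroupOf (Subgroup.normalizer (K : Set G))).Normal := inferInstance
  revert hn hTI hlt S star
  rename_i inst
  revert inst
  generalize Subgroup.normalizer (K : Set G) = N
  intro inst hTI hlt S hS htwo star hstar hext hn
  have hc := centralizer_le_subgroupOf K hC N
  rw [irrNotKer_subgroupOf] at hS
  subst hS
  obtain ⟨hadd, hsmul, hiso, hgen⟩ := hstar
  have hext' : ∀ α ∈ Submodule.span ℤ (irrNotKer (K.subgroupOf N)), α 1 = 0 →
      star α = indFun N α := fun α hα h1 => hext α ⟨hα, fun x hx => by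
    rw [Set.notMem_compl_iff, Set.mem_singleton_iff] at hx
    rw [hx, h1]⟩
  obtain ⟨χ₀, hχ₀, -⟩ := htwo
  obtain ⟨α, hα, h1⟩ := exists_mem_span_degree_index _ hc fun h => hχ₀.2 (h ▸ bot_le)
  obtain ⟨m, hm⟩ := exists_int_star_sub N _ star hiso hgen hext' hα h1
  refine ⟨m, fun χ hχ k hk hk1 => ?_⟩
  have he : ((K.subgroupOf N).index : ℂ) ≠ 0 :=
    Nat.cast_ne_zero.2 Subgroup.index_ne_zero_of_finite
  obtain ⟨n, -, hn⟩ := isIrr_degree hχ.1
  have hχ' : χ ∈ Submodule.span ℤ (irrNotKer (K.subgroupOf N)) := Submodule.subset_span hχ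
  have h2 := Submodule.smul_mem _ ((K.subgroupOf N).index : ℤ) hχ'
  have h3 := Submodule.smul_mem _ (-n : ℤ) hα
  have h4 := Submodule.add_mem _ h2 h3
  have h5 := hext' _ h4 (by simp [h1, hn, mul_comm])
  rw [hadd _ h2 _ h3, hsmul _ hχ', hsmul _ hα] at h5
  have h6 := congrFun h5 k
  rw [indFun_apply_of_TI N K hTI (isClassFunction_of_isGen (isGen_of_mem_span (fun _ h => h.1) h4))
    (fun x hx => eq_zero_of_mem_span_irrNotKer _ hc h4 hx) k hk hk1] at h6
  simp only [Pi.add_apply, Pi.smul_apply] at h6
  simp only [zsmul_eq_mul, Int.cast_natCast, Int.cast_neg] at h6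
  rw [hn, eq_div_iff he]
  linear_combination h6 + n * hm k hk hk1

end Cfsg.Agent.S0853
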