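import Cfsg.Statements.S0855
import Mathlib
import Cfsg.Agent.H7.Gag

set_option autoImplicit false
open Cfsg

namespace Cfsg.Agent.S0855

open Cfsg Cfsg.Agent.H7

/-- For a finite group G and a prime p: every irreducible character of G has degree a power of p if and only if G has an abelian normal subgroup whose order is prime to p and whose index is a power of p. -/
theorem result {G : Type*} [Group G] [Finite G] (p : ℕ) (hp : p.Prime) : (∀ χ : Cfsg.IrrCharacter G, ∃ k : ℕ, (χ : G → ℂ) 1 = (p : ℂ) ^ k) ↔ ∃ A : Subgroup G, A.Normal ∧ (∀ a ∈ A, ∀ b ∈ A, a * b = b * a) ∧ Nat.Coprime (Nat.card A) p ∧ ∃ k : ℕ, A.index = p ^ k := by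
  constructor
  · intro h
    have h1 : ∀ χ, IsIrrCharacter G χ → ∃ k, charDegree χ = p ^ k := fun χ hχ =>
      (h ⟨χ, hχ⟩).imp fun k hk => charDegree_eq (by simpa using hk)
    obtain ⟨A, hA, h2, h3⟩ := thompson_complement hp fun χ hχ e => by
      obtain ⟨k, hk⟩ := h1 χ hχ
      rw [hk] at e ⊢
      exact dvd_pow_self p fun e' => e (by simp [e'])
    rw [← hp.coprime_iff_not_dvd] at h2
    refine ⟨A, hA, comm_of_coprime_deg A fun χ hχ => ?_, h2.symm, h3⟩
    obtain ⟨k, hk⟩ := h1 χ hχ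
    exact hk ▸ h2.pow_left k
  · rintro ⟨A, hA, h1, -, k, hk⟩ χ
    obtain ⟨j, -, hj⟩ := (Nat.dvd_prime_pow hp).mp
      (hk ▸ degree_dvd_index_of_abelian_normal A h1 χ.2 (char_one_eq (irr_char χ.2)))
    exact ⟨j, by rw [char_one_eq (irr_char χ.2), hj, Nat.cast_pow]⟩

end Cfsg.Agent.S0855
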