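import Cfsg.Statements.S0856
import Mathlib
import Cfsg.Agent.H7.Gallagher

set_option autoImplicit false
open Cfsg

namespace Cfsg.Agent.S0856

open Cfsg.Agent.H7

/-- Let N be a normal subgroup of the finite group G and φ, ϑ irreducible characters of N that are invariant under conjugation by G, such that the pointwise product φ * ϑ is irreducible and ϑ is the restriction of an irreducible character χ of G. Then multiplication by χ is a bijection from the set of irreducible characters of G having nonzero inner product with the function induced from φ onto the set of those having nonzero inner product with the function induced from φ * ϑ. -/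
theorem result {G : Type*} [Group G] [Fintype G] (N : Subgroup G) [hN : N.Normal] (φ ϑ : N → ℂ) (hφ : Cfsg.IsIrrCharacter N φ) (hϑ : Cfsg.IsIrrCharacter N ϑ) (hφinv : ∀ (g : G) (n : N), φ ⟨g * n * g⁻¹, hN.conj_mem (n : G) n.2 g⟩ = φ n) (hϑinv : ∀ (g : G) (n : N), ϑ ⟨g * n * g⁻¹, hN.conj_mem (n : G) n.2 g⟩ = ϑ n) (hprod : Cfsg.IsIrrCharacter N (φ * ϑ)) (χ : G → ℂ) (hχ : Cfsg.IsIrrCharacter G χ) (hext : ∀ n : N, χ n = ϑ n) : Set.BijOn (fun β : G → ℂ => β * χ) {β : G → ℂ | Cfsg.IsIrrCharacter G β ∧ Cfsg.classInner (Cfsg.indFun N φ) β ≠ 0} {ψ : G → ℂ | Cfsg.IsIrrCharacter G ψ ∧ Cfsg.classInner (Cfsg.indFun N (φ * ϑ)) ψ ≠ 0} := by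
  have hf := isNE_subtype N
  have hφi : hf.Inv φ := (inv_subtype_iff N hf φ).mpr hφinv
  have hres : (fun n => χ (N.subtype n)) = ϑ := funext hext
  have hprod' : IsIrrCharacter N (φ * fun n => χ (N.subtype n)) := by rwa [hres]
  have key : ∀ β γ : G → ℂ, IsIrrCharacter G β → ip (ind N.subtype φ) β ≠ 0 →
      IsIrrCharacter G γ → ip (ind N.subtype φ) γ ≠ 0 → ip (β * χ) (γ * χ) = ip β γ := by
    intro β γ hβ h1 hγ h2
    rw [ip_ind_left _ _ (irr_cf hβ), ip_ne_zero_comm] at h1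
    rw [ip_ind_left _ _ (irr_cf hγ), ip_ne_zero_comm] at h2
    exact ip_mul_mul_of_irr N.subtype hχ (irr_char hβ) (irr_char hγ) hφ hprod'
      (hf.clifford_inv hβ hφ hφi h1) (hf.clifford_inv hγ hφ hφi h2)
  have hirr : ∀ β : G → ℂ, IsIrrCharacter G β → ip (ind N.subtype φ) β ≠ 0 →
      IsIrrCharacter G (β * χ) := fun β hβ h1 =>
    irr_of_ip_one (char_mul (irr_char hβ) (irr_char hχ)) (by
      rw [key β β hβ h1 hβ h1, ip_irr_self hβ])
  have hind : ind N.subtype (φ * ϑ) = ind N.subtype φ * χ := by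
    rw [← ind_mul_comp _ _ (irr_cf hχ), hres]
  simp only [← ip_eq_classInner, ← ind_subtype]
  refine ⟨?_, ?_, ?_⟩
  · rintro β ⟨hβ, h1⟩
    refine ⟨hirr β hβ h1, ?_⟩
    rw [ip_ind_left _ _ (irr_cf (hirr β hβ h1))]
    rw [ip_ind_left _ _ (irr_cf hβ), ip_ne_zero_comm] at h1
    have h2 := hf.clifford_inv hβ hφ hφi h1
    have : (fun h => (β * χ) (N.subtype h)) = ip (fun h => β (N.subtype h)) φ • (φ * ϑ) := by
      rw [← smul_mul_assoc, ← h2, ← hres]; rfl
    rw [this, ip_smul_right, ip_irr_self hprod, mul_one]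
    simpa using h1
  · rintro β ⟨hβ, h1⟩ γ ⟨hγ, h2⟩ h
    refine irr_eq_of_ip_ne_zero hβ hγ ?_
    have h' : β * χ = γ * χ := h
    rw [← key β γ hβ h1 hγ h2, ← h', ip_irr_self (hirr β hβ h1)]
    exact one_ne_zero
  · rintro ψ ⟨hψ, h1⟩
    rw [hind, cf_expand (ind_cf N.subtype φ), Finset.sum_mul, ip_sum_left] at h1
    obtain ⟨β, hβ, hne⟩ := Finset.exists_ne_zero_of_sum_ne_zero h1
    rw [smul_mul_assoc, ip_smul_left] at hne
    have hβ' := mem_irrSet.mp hβ
    exact ⟨β, ⟨hβ', left_ne_zero_of_mul hne⟩, irr_eq_of_ip_ne_zero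
      (hirr β hβ' (left_ne_zero_of_mul hne)) hψ (right_ne_zero_of_mul hne)⟩

end Cfsg.Agent.S0856
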