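import Cfsg.Statements.S0857
import Mathlib
import Cfsg.Agent.H7.MGroup

set_option autoImplicit false
open Cfsg

namespace Cfsg.Agent.S0857

open Cfsg.Agent.H7

/-- Let L < K be normal subgroups of the finite group G with no normal subgroup of G strictly between them and with K / L abelian (the commutator subgroup of K lies in L). Let ϑ be an irreducible character of K invariant under conjugation by G. Then the restriction of ϑ to L is irreducible; or it equals e times an irreducible character of L with e ^ 2 equal to the index of L in K; or it is the sum of a family of pairwise distinct irreducible characters of L indexed by a set whose size is the index of L in K. -/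
theorem result {G : Type*} [Group G] [Fintype G] (K L : Subgroup G) [hK : K.Normal] [L.Normal] (hLK : L < K) (hchief : ∀ M : Subgroup G, M.Normal → L ≤ M → M ≤ K → M = L ∨ M = K) (hab : ⁅K, K⁆ ≤ L) (ϑ : K → ℂ) (hϑ : Cfsg.IsIrrCharacter K ϑ) (hinv : ∀ (g : G) (n : K), ϑ ⟨g * n * g⁻¹, hK.conj_mem (n : G) n.2 g⟩ = ϑ n) : Cfsg.IsIrrCharacter L (fun x : L => ϑ ⟨(x : G), hLK.le x.2⟩) ∨ (∃ (φ : L → ℂ) (e : ℕ), Cfsg.IsIrrCharacter L φ ∧ (fun x : L => ϑ ⟨(x : G), hLK.le x.2⟩) = (e : ℂ) • φ ∧ e ^ 2 = L.relIndex K) ∨ (∃ F : Finset (L → ℂ), (∀ φ ∈ F, Cfsg.IsIrrCharacter L φ) ∧ F.card = L.relIndex K ∧ (fun x : L => ϑ ⟨(x : G), hLK.le x.2⟩) = ∑ φ ∈ F, φ) := by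
  have hc : IsChief L K := ⟨inferInstance, hK, hLK, hchief⟩
  rcases going_down hc hab hϑ ((inv_subtype_iff K _ ϑ).mpr hinv) with h | h | ⟨φ, hφ, h, -⟩
  · exact Or.inl h
  · exact Or.inr (Or.inl h)
  · have hf : IsNE (Subgroup.inclusion hc.lt.le) := isNE_inclusion_of_normal hc.lt.le
    have hT := (hf.irr_ind_iff hφ).mp (h ▸ hϑ)
    refine Or.inr (Or.inr ⟨hf.orbit φ, fun ψ hψ => hf.irr_of_mem_orbit hφ hψ, ?_, ?_⟩)
    · rw [hf.card_orbit, hT, range_inclusion_index]
    · have := hf.res_ind φ
      rw [hT, card_range_of_injective hf.inj, div_self (card_ne_zero' L), one_smul, h] at this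
      exact this

end Cfsg.Agent.S0857
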