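import Cfsg.Statements.S0858
import Mathlib
import Cfsg.Agent.H7.MGroup

set_option autoImplicit false
open Cfsg

namespace Cfsg.Agent.S0858

open Cfsg.Agent.H7

/-- Let N be a normal subgroup of the finite group G with G / N solvable, and suppose that for every subgroup H containing N and all subgroups L < K between N and H that are normal in H with no subgroup normal in H strictly between them, the index of L in K is not a perfect square. Then every irreducible character χ of G is induced from an irreducible character ψ of some subgroup H containing N such that the restriction of ψ to N is irreducible. -/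
theorem result {G : Type*} [Group G] [Fintype G] (N : Subgroup G) [N.Normal] (hsolv : Group.IsSolvable (G ⧸ N)) (hchief : ∀ (H K L : Subgroup G), N ≤ L → L < K → K ≤ H → (∀ h ∈ H, ∀ k ∈ K, h * k * h⁻¹ ∈ K) → (∀ h ∈ H, ∀ l ∈ L, h * l * h⁻¹ ∈ L) → (∀ M : Subgroup G, L ≤ M → M ≤ K → (∀ h ∈ H, ∀ m ∈ M, h * m * h⁻¹ ∈ M) → M = L ∨ M = K) → ¬ IsSquare (L.relIndex K)) (χ : G → ℂ) (hχ : Cfsg.IsIrrCharacter G χ) : ∃ (H : Subgroup G) (hNH : N ≤ H) (ψ : H → ℂ), Cfsg.IsIrrCharacter H ψ ∧ Cfsg.indFun H ψ = χ ∧ Cfsg.IsIrrCharacter N (fun n : N => ψ ⟨(n : G), hNH n.2⟩) := by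
  obtain ⟨U, hU, ψ, hψ, h1, h2⟩ := exists_ind_res_irr _ rfl (isNE_subtype N) (fun H _ _ ι hι hN L K hL hc => by
    rw [Subgroup.range_subtype] at hN hL
    have := hc.normal_left
    have := hc.normal_right
    have hs : Group.IsSolvable (H ⧸ L) :=
      isSolvable_quotient_of_ker_le ((QuotientGroup.mk' N).comp ι) L (by
        rwa [← MonoidHom.comap_ker, QuotientGroup.ker_mk'])
    refine ⟨hc.commutator_le, ?_⟩
    have hn : ∀ M : Subgroup H, M.Normal → ∀ h ∈ ι.range, ∀ k ∈ M.map ι, h * k * h⁻¹ ∈ M.map ι := by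
      rintro M hM _ ⟨h, rfl⟩ _ ⟨k, hk, rfl⟩
      exact ⟨h * k * h⁻¹, hM.conj_mem k hk h, by simp⟩
    have := hchief ι.range (K.map ι) (L.map ι) (by
        rw [← Subgroup.map_comap_eq_self hN]; exact Subgroup.map_mono hL)
      ((Subgroup.map_lt_map_iff_of_injective hι).mpr hc.lt) (Subgroup.map_le_range ι K)
      (hn K inferInstance) (hn L inferInstance) (fun M h1 h2 h3 => by
        have hM : M ≤ ι.range := h2.trans (Subgroup.map_le_range ι K)
        have hMn : (M.comap ι).Normal := ⟨fun m hm h => by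
          rw [Subgroup.mem_comap, map_mul, map_mul, map_inv]
          exact h3 _ ⟨h, rfl⟩ _ hm⟩
        rcases hc.eq_or_eq _ hMn (Subgroup.map_le_iff_le_comap.mp h1) (by
          rw [← Subgroup.comap_map_eq_self_of_injective hι K]; exact Subgroup.comap_mono h2) with h | h
        · left; rw [← h, Subgroup.map_comap_eq_self hM]
        · right; rw [← h, Subgroup.map_comap_eq_self hM])
    rwa [Subgroup.relIndex_map_map_of_injective _ _ hι] at this) hχ
  exact ⟨U, fun n hn => hU ⟨n, hn⟩, ψ, hψ, by rw [← ind_subtype, h1], h2⟩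

end Cfsg.Agent.S0858
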