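import Cfsg.Statements.S0859
import Mathlib
import Cfsg.Agent.H7.Prim

set_option autoImplicit false
open Cfsg

namespace Cfsg.Agent.S0859

open Cfsg.Agent.H7

/-- Let G be a finite solvable group and N a normal subgroup such that for every prime p every Sylow p-subgroup of N is abelian. Suppose every irreducible character of G is induced from an irreducible character of some subgroup containing N whose restriction to N is irreducible. Then every irreducible character of G is induced from a character of degree 1 of some subgroup. -/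
theorem result {G : Type*} [Group G] [Fintype G] [Group.IsSolvable G] (N : Subgroup G) [N.Normal] (hab : ∀ (p : ℕ) [Fact p.Prime] (P : Sylow p N), ∀ a ∈ P, ∀ b ∈ P, a * b = b * a) (hrel : ∀ χ : G → ℂ, Cfsg.IsIrrCharacter G χ → ∃ (H : Subgroup G) (hNH : N ≤ H) (ψ : H → ℂ), Cfsg.IsIrrCharacter H ψ ∧ Cfsg.indFun H ψ = χ ∧ Cfsg.IsIrrCharacter N (fun n : N => ψ ⟨(n : G), hNH n.2⟩)) (χ : G → ℂ) (hχ : Cfsg.IsIrrCharacter G χ) : ∃ (U : Subgroup G) (lam : U → ℂ), Cfsg.IsCharacter U lam ∧ lam 1 = 1 ∧ Cfsg.indFun U lam = χ := by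
  obtain ⟨H, hNH, ψ, hψ, h1, h2⟩ := hrel χ hχ
  obtain ⟨U, θ, hθ, h3, hp⟩ := exists_prim hψ
  have hk : IsNE (Subgroup.inclusion hNH) := isNE_inclusion_of_normal hNH
  have hmul := exists_mul_of_res_ind_irr U.subtype_injective hk (irr_char hθ) (by rw [h3]; exact h2)
  let D : Subgroup N := U.comap (Subgroup.inclusion hNH)
  let a : D →* U := ((Subgroup.inclusion hNH).comp D.subtype).codRestrict U fun x => x.2
  have h4 := ind_comp_of_mul (f := U.subtype) (k := Subgroup.inclusion hNH) (a := a)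
    (b := D.subtype) (fun _ => rfl) (fun _ _ _ h => Subtype.ext h)
    (fun h x hx => ⟨⟨x, by rw [Subgroup.mem_comap, ← hx]; exact h.2⟩, Subtype.ext hx.symm, rfl⟩)
    hmul (irr_cf hθ)
  have h5 : IsIrrCharacter D (fun d => θ (a d)) :=
    irr_of_irr_ind D.subtype_injective (char_comp a (irr_char hθ)) (by rw [← h4, h3]; exact h2)
  have hn : a.range.Normal := ⟨by
    rintro _ ⟨d, rfl⟩ u
    refine ⟨⟨⟨(u : G) * d * (u : G)⁻¹, ‹N.Normal›.conj_mem _ d.1.2 _⟩, ?_⟩, rfl⟩
    exact U.mul_mem (U.mul_mem u.2 d.2) (U.inv_mem u.2)⟩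
  have h6 := hp.one_eq_one_of_abSyl hθ
    ((abSyl_of_sylow hab).of_injective _ D.subtype_injective) h5
  obtain ⟨V, lam, h7⟩ := ((isMonomial_of_linear (irr_char hθ) h6).ind U.subtype_injective).ind
    H.subtype_injective
  refine ⟨V, _, char_of_hom lam, by simp, ?_⟩
  rw [← ind_subtype, ← h7, h3, ind_subtype, h1]

end Cfsg.Agent.S0859
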