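import Cfsg.Statements.S0860
import Mathlib
import Cfsg.Agent.H6.Square

set_option autoImplicit false
open Cfsg

namespace Cfsg.Agent.S0860

/-- Let a group A act on the set of irreducible characters and on the set of conjugacy classes of a finite group G in such a way that (a • χ) evaluated on the class a • C equals χ evaluated on C, for all a, χ and C. Then every element of A fixes exactly as many irreducible characters as it fixes conjugacy classes. -/
theorem result {G : Type*} [Group G] [Finite G] {A : Type*} [Group A] [MulAction A (Cfsg.IrrCharacter G)] [MulAction A (ConjClasses G)] (hcompat : ∀ (a : A) (χ : Cfsg.IrrCharacter G) (g g' : G), ConjClasses.mk g' = a • ConjClasses.mk g → ((a • χ : Cfsg.IrrCharacter G) : G → ℂ) g' = (χ : G → ℂ) g) (a : A) : Nat.card {χ : Cfsg.IrrCharacter G // a • χ = χ} = Nat.card {C : ConjClasses G // a • C = C} := by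
  let f : G → G := fun g => (a⁻¹ • ConjClasses.mk g).out
  have hf : ∀ g, ConjClasses.mk (f g) = a⁻¹ • ConjClasses.mk g := fun g => Quotient.out_eq _
  have h1 : ∀ (χ : IrrCharacter G) g, ((a • χ : IrrCharacter G) : G → ℂ) g = (χ : G → ℂ) (f g) :=
    fun χ g => hcompat a χ (f g) g (by rw [hf, smul_inv_smul])
  have h2 := H6.card_irr_fixed_eq f fun χ hχ => by
    have := (a • (⟨χ, hχ⟩ : IrrCharacter G)).2
    rwa [funext (h1 ⟨χ, hχ⟩)] at this
  refine (Nat.card_congr (Equiv.subtypeEquivRight fun χ => ?_)).trans (h2.trans
    (Nat.card_congr (Equiv.subtypeEquivRight fun C => ?_)))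
  · rw [Subtype.ext_iff, funext_iff]
    exact forall_congr' fun g => by rw [h1]
  · obtain ⟨x, rfl⟩ := ConjClasses.mk_surjective C
    simp only [← ConjClasses.mk_eq_mk_iff_isConj, hf, eq_inv_smul_iff]
    exact ⟨fun h => h x rfl, fun h g e => e ▸ h⟩

end Cfsg.Agent.S0860
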