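import Cfsg.Statements.S0861
import Mathlib
import Cfsg.Agent.H7.Gag

set_option autoImplicit false
open Cfsg

namespace Cfsg.Agent.S0861

open Cfsg Cfsg.Agent.H7

/-- Let P be a normal abelian Sylow p-subgroup of the finite group G and suppose some element g of P has centralizer exactly P. Then the number of irreducible characters of G is at most the order of P, and if equality holds then G / P is abelian (the commutator subgroup lies in P). -/
theorem result {G : Type*} [Group G] [Finite G] (p : ℕ) [Fact p.Prime] (P : Sylow p G) [(P : Subgroup G).Normal] (hab : ∀ a ∈ P, ∀ b ∈ P, a * b = b * a) (g : G) (hg : g ∈ P) (hC : Subgroup.centralizer ({g} : Set G) = P) : Nat.card (Cfsg.IrrCharacter G) ≤ Nat.card P ∧ (Nat.card (Cfsg.IrrCharacter G) = Nat.card P → commutator G ≤ P) := by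
  have h1 := card_classes_add_le (P : Subgroup G) P.isPGroup' P.not_dvd_index hab hg
  rw [hC, ← H6.card_irr_eq_card_conjClasses, Subgroup.index_eq_card] at h1
  have h2 : Function.Surjective (ConjClasses.mk (α := G ⧸ (P : Subgroup G))) :=
    ConjClasses.mk_surjective
  have h3 := Nat.card_le_card_of_surjective _ h2
  refine ⟨by omega, fun e => ?_⟩
  have h4 := (h2.bijective_of_nat_card_le (by omega)).1
  refine Subgroup.Normal.quotient_commutative_iff_commutator_le.mp ⟨⟨fun a b => ?_⟩⟩
  exact mul_inv_eq_iff_eq_mul.mp (h4 (ConjClasses.mk_eq_mk_iff_isConj.mpr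
    (isConj_iff.mpr ⟨a, rfl⟩).symm))

end Cfsg.Agent.S0861
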