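import Cfsg.Statements.S0862
import Mathlib
import Cfsg.Agent.H7.Det

set_option autoImplicit false
open Cfsg

namespace Cfsg.Agent.S0862

open Cfsg.Agent.H7

/-- Let N be a normal subgroup of the finite group G and ϑ an irreducible character of N of degree d coprime to the index of N, which is the restriction of some irreducible character of G. Let μ be a character of G of degree 1 whose restriction to N is the determinantal character of ϑ. Then there is exactly one irreducible character χ of G restricting to ϑ whose determinantal character is μ. -/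
theorem result {G : Type*} [Group G] [Finite G] (N : Subgroup G) [N.Normal] (ϑ : N → ℂ) (hϑ : Cfsg.IsIrrCharacter N ϑ) (d : ℕ) (hd : ϑ 1 = d) (hcop : Nat.Coprime N.index d) (hext : ∃ η : G → ℂ, Cfsg.IsIrrCharacter G η ∧ (∀ n : N, η n = ϑ n)) (μ : G → ℂ) (hμ : Cfsg.IsCharacter G μ ∧ μ 1 = 1) (hμN : ∀ n : N, μ n = Cfsg.detChar ϑ n) : ∃! χ : G → ℂ, Cfsg.IsIrrCharacter G χ ∧ (∀ n : N, χ n = ϑ n) ∧ Cfsg.detChar χ = μ := by
  have hf := isNE_subtype N
  have hcop' : N.subtype.range.index.Coprime d := by rwa [Subgroup.range_subtype]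
  obtain ⟨η, hη, h1⟩ := hext
  obtain ⟨μ, rfl⟩ := exists_linFun hμ.1 hμ.2
  have h2 := detHom_res (f := N.subtype) (irr_char hη) h1
  obtain ⟨χ, hχ, h3, h4⟩ := hf.exists_ext_det_eq hη (d := d) (by rw [← hd, ← h1]; rfl) hcop' μ
    (fun n => Units.ext (by
      rw [← MonoidHom.comp_apply (detHom η), h2, detHom_apply]; exact hμN n))
  have h5 : ∀ n : N, χ n = ϑ n := fun n => (h3 n).trans (h1 n)
  refine ⟨χ, ⟨hχ, h5, by rw [← linFun_detHom, h4]⟩, ?_⟩
  rintro ψ ⟨hψ, h6, h7⟩
  refine hf.ext_eq_of_det_eq hϑ hd hcop' (irr_char hψ) (irr_char hχ) h6 h5 ?_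
  rw [h4]; exact linFun_injective (by rw [linFun_detHom, h7])

end Cfsg.Agent.S0862
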