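import Cfsg.Statements.S0868
import Mathlib
import Cfsg.Agent.H7.Gallagher

set_option autoImplicit false
open scoped ComplexConjugate
open Cfsg

namespace Cfsg.Agent.S0868

open Cfsg.Agent.H7

/-- Let N be a normal subgroup of the finite group G, χ an irreducible character of G whose restriction ϑ to N is irreducible, and ψ an irreducible character of G. Define η on G by η g = (1 / order of N) * Σ over n in N of ψ (n * g) * conj (χ (n * g)). Then: if the restriction of ψ to N has nonzero inner product with ϑ, η is an irreducible character of G; if that inner product is zero, η vanishes identically; and if ψ = χ then η is identically 1. -/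
theorem result {G : Type*} [Group G] [Fintype G] (N : Subgroup G) [N.Normal] [Fintype N] (χ : G → ℂ) (hχ : Cfsg.IsIrrCharacter G χ) (hχN : Cfsg.IsIrrCharacter N (fun n : N => χ n)) (ψ : G → ℂ) (hψ : Cfsg.IsIrrCharacter G ψ) (η : G → ℂ) (hη : η = fun g => (Nat.card N : ℂ)⁻¹ * ∑ n : N, ψ ((n : G) * g) * conj (χ ((n : G) * g))) : (Cfsg.classInner (fun n : N => ψ n) (fun n : N => χ n) ≠ 0 → Cfsg.IsIrrCharacter G η) ∧ (Cfsg.classInner (fun n : N => ψ n) (fun n : N => χ n) = 0 → η = 0) ∧ (ψ = χ → η = fun _ => 1) := by
  have hf := isNE_subtype N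
  have hπ := QuotientGroup.mk'_surjective N
  have hker : (QuotientGroup.mk' N).ker = N.subtype.range := by
    rw [QuotientGroup.ker_mk', Subgroup.range_subtype]
  have hc := char_mul (irr_char hψ) (char_star (irr_char hχ))
  have hη' : η = fun g => ind (QuotientGroup.mk' N) (ψ * star χ) (QuotientGroup.mk' N g) := by
    ext g
    rw [hη, ind_quot_apply hf.inj hπ hker (char_cf hc)]; rfl
  have h1 := ind_quot_mul_star hf.inj hπ hker (irr_char hχ) hχN
  simp only [← ip_eq_classInner]
  refine ⟨fun h => ?_, fun h => ?_, fun h => ?_⟩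
  · obtain ⟨β, hβ, e⟩ := hf.gallagher_surj hπ hker (irr_char hχ) hχN hψ h
    rw [hη', e, mul_assoc, mul_comm, ind_mul_comp _ _ (irr_cf hβ), h1, one_mul]
    exact irr_comp_surjective _ hπ hβ
  · have : ind (QuotientGroup.mk' N) (ψ * star χ) = 0 := by
      refine char_eq_zero_of_one (char_ind _ hc) ?_
      rw [ind_quot_one hf.inj hπ hker (char_cf hc)]
      exact (ip_one_right_eq _ _).trans h
    rw [hη', this]; rfl
  · rw [hη', h, h1]; rfl

end Cfsg.Agent.S0868
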