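import Cfsg.Statements.S0869
import Mathlib
import Cfsg.Agent.H7.Perm

set_option autoImplicit false
open Cfsg

namespace Cfsg.Agent.S0869

open Cfsg.Agent.H7

/-- Let S be a nonempty finite type and R an additive subgroup of the integer-valued functions on S that is closed under pointwise multiplication. If the constant function 1 is not in R, then there exist a point x of S and a prime p such that p divides f x for every f in R. -/
theorem result {S : Type*} [Finite S] [Nonempty S] (R : AddSubgroup (S → ℤ)) (hmul : ∀ f ∈ R, ∀ g ∈ R, f * g ∈ R) (h1 : (1 : S → ℤ) ∉ R) : ∃ (x : S) (p : ℕ), p.Prime ∧ ∀ f ∈ R, (p : ℤ) ∣ f x := by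
  by_contra hc
  push Not at hc
  have := Fintype.ofFinite S
  refine h1 (mem_of_forall_prime R 1 fun p hp => ?_)
  choose f hf hpf using fun x => hc x p hp
  refine ⟨∏ x, f x x, ?_, ?_⟩
  · rw [(Nat.prime_iff_prime_int.mp hp).dvd_finsetProd_iff]
    rintro ⟨x, -, hx⟩
    exact hpf x hx
  · convert const_prod_mem R hmul (fun x => f x x) fun x => ⟨f x, hf x, by simp⟩ using 1
    ext; simp

end Cfsg.Agent.S0869
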