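import Cfsg.Statements.S0872
import Mathlib
import Cfsg.Agent.H7.Perm

set_option autoImplicit false
open Cfsg

namespace Cfsg.Agent.S0872

open Cfsg.Agent.H7

/-- For a finite group G and a prime p there are an integer m not divisible by p and a ℤ-linear combination of functions induced from the constant function 1 on subgroups H, each having a cyclic normal subgroup of order prime to p and p-power index in H, that equals the constant function m. -/
theorem result {G : Type*} [Group G] [Fintype G] (p : ℕ) (hp : p.Prime) : ∃ (m : ℤ) (a : Subgroup G → ℤ), ¬ (p : ℤ) ∣ m ∧ (∀ H, a H ≠ 0 → (∃ C : Subgroup G, C ≤ H ∧ H ≤ Subgroup.normalizer (C : Set G) ∧ IsCyclic C ∧ Nat.Coprime (Nat.card C) p ∧ ∃ k : ℕ, C.relIndex H = p ^ k)) ∧ (fun _ : G => (m : ℂ)) = ∑ H : Subgroup G, (a H : ℂ) • Cfsg.indFun H (fun _ => 1) := by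
  classical
  obtain ⟨m, hm, h⟩ := exists_const_mem_qSpan (G := G) hp
  suffices key : ∀ φ ∈ qSpan p G, ∃ a : Subgroup G → ℤ, (∀ H, a H ≠ 0 → QElem p H) ∧
      φ = ∑ H : Subgroup G, (a H : ℂ) • indFun H (fun _ => 1) by
    obtain ⟨a, h1, h2⟩ := key _ h
    exact ⟨m, a, hm, fun H hH => (qElem_iff H).mp (h1 H hH), h2⟩
  intro φ hφ
  induction hφ using AddSubgroup.closure_induction with
  | mem x hx =>
    obtain ⟨H, hH, rfl⟩ := hx
    refine ⟨Pi.single H 1, fun K hK => ?_, ?_⟩
    · by_cases e : K = H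
      · rwa [e]
      · exact absurd (Pi.single_eq_of_ne e _) hK
    · rw [Finset.sum_eq_single H (fun K _ e => by simp [e]) (by simp), ind_subtype]; simp
  | zero => exact ⟨0, by simp, by simp⟩
  | add _ _ _ _ h1 h2 =>
    obtain ⟨a, h1, rfl⟩ := h1
    obtain ⟨b, h2, rfl⟩ := h2
    refine ⟨a + b, fun K hK => ?_, by simp [add_smul, Finset.sum_add_distrib]⟩
    by_cases e : a K = 0
    · exact h2 K (by simpa [e] using hK)
    · exact h1 K e
  | neg _ _ h =>
    obtain ⟨a, h, rfl⟩ := h
    exact ⟨-a, fun K hK => h K (by simpa using hK), by simp⟩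

end Cfsg.Agent.S0872
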