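import Cfsg.Statements.S0875
import Mathlib
import Cfsg.Agent.H7.Sect

set_option autoImplicit false
open Cfsg

namespace Cfsg.Agent.S0875

open Cfsg.Agent.H7

/-- Let G be a finite group of order m * n with m and n coprime, and g an element whose order is coprime to m. Every x in G factors uniquely as x = u * v with u, v commuting, the order of u coprime to n and the order of v coprime to m; let ϑ be the function on G equal to n at those x whose factor v is conjugate to g and equal to 0 elsewhere. Then ϑ is a linear combination of the irreducible characters of G with algebraic-integer coefficients. -/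
theorem result {G : Type*} [Group G] [Fintype G] (m n : ℕ) (hmn : Nat.card G = m * n) (hcop : Nat.Coprime m n) (g : G) (hg : Nat.Coprime (orderOf g) m) (ϑ : G → ℂ) (hϑ1 : ∀ x : G, (∃ v : G, IsConj v g ∧ (∃ u : G, x = u * v ∧ Commute u v ∧ Nat.Coprime (orderOf u) n ∧ Nat.Coprime (orderOf v) m)) → ϑ x = n) (hϑ0 : ∀ x : G, (¬ ∃ v : G, IsConj v g ∧ (∃ u : G, x = u * v ∧ Commute u v ∧ Nat.Coprime (orderOf u) n ∧ Nat.Coprime (orderOf v) m)) → ϑ x = 0) : ∃ c : Cfsg.IrrCharacter G → ℂ, (∀ χ, c χ ∈ Cfsg.AlgInt) ∧ ϑ = ∑ᶠ χ : Cfsg.IrrCharacter G, c χ • (χ : G → ℂ) := by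
  classical
  obtain ⟨a, ha, ha'⟩ := exists_piExp hcop
  have hd : Nat.card G ∣ m * n := hmn.dvd
  let F : G → ℂ := fun x => if IsConj x g then 1 else 0
  have hF : IsClassFunction G F := fun x y => if_congr
    ⟨fun h => (isConj_iff.mpr ⟨y, rfl⟩).trans h, fun h => (isConj_iff.mpr ⟨y, rfl⟩).symm.trans h⟩
    rfl rfl
  have h1 : ϑ = fun x => n * F (x ^ a) := by
    funext x
    by_cases h : IsConj (x ^ a) g
    · rw [hϑ1 x ⟨_, h, x * (x ^ a)⁻¹, by simp,
        ((Commute.refl x).pow_right a).mul_left (Commute.refl _).inv_left,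
        hcop.coprime_dvd_left (orderOf_copart hd ha ha' x),
        hcop.symm.coprime_dvd_left (orderOf_pow_part hd ha x)⟩]
      simp [F, h, -isConj_iff]
    · rw [hϑ0 x]
      · simp [F, h, -isConj_iff]
      · rintro ⟨v, h1, u, rfl, h2, h3, h4⟩
        rw [mul_pow_part ha ha' h2 (h3.dvd_of_dvd_mul_right ((orderOf_dvd_natCard u).trans hd))
          (h4.dvd_of_dvd_mul_left ((orderOf_dvd_natCard v).trans hd))] at h
        exact h h1
  refine ⟨fun χ => ip ϑ χ, fun χ => ?_, ?_⟩
  · rw [h1]
    exact isIntegral_ip_pow hcop hd ha ha' hF (fun x => by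
      by_cases h : IsConj x g <;> simp [F, h, isIntegral_one, isIntegral_zero, -isConj_iff])
      (H6.isGen_of_irr χ.2)
  · rw [finsum_irr_eq_sum fun χ => ip ϑ χ • χ]
    exact cf_expand (h1 ▸ cf_smul n (cf_pow hF a))

end Cfsg.Agent.S0875
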