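import Cfsg.Statements.S0876
import Mathlib
import Cfsg.Agent.H7.Sect

set_option autoImplicit false
open Cfsg

namespace Cfsg.Agent.S0876

open Cfsg.Agent.H7

/-- Let G be a finite group, p a prime and M a maximal ideal of the ring of algebraic integers containing p. Let x, y be elements with p-parts a and b (so a⁻¹ * x and b⁻¹ * y are their p-regular parts). Then a⁻¹ * x and b⁻¹ * y are conjugate in G if and only if, for every irreducible character χ, the difference χ x - χ y lies in the local ideal at M. -/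
theorem result {G : Type*} [Group G] [Finite G] (p : ℕ) (M : Ideal Cfsg.AlgInt) (hM : Cfsg.IsPModular p M) (x y a b : G) (ha : Cfsg.IsPPart p x a) (hb : Cfsg.IsPPart p y b) : IsConj (a⁻¹ * x) (b⁻¹ * y) ↔ ∀ χ : Cfsg.IrrCharacter G, Cfsg.MemLocalIdeal M ((χ : G → ℂ) x - (χ : G → ℂ) y) := by
  classical
  have hp := hM.1
  have := Fact.mk hp
  have := hM.2.1
  have hint : ∀ (χ : IrrCharacter G) g, (χ : G → ℂ) g ∈ H8.locRing M := fun χ g =>
    H8.mem_locRing_of_isIntegral M (H6.isCharacter_isIntegral (irr_char χ.2) g)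
  obtain rfl := H8.isPPart_iff.mp ha
  obtain rfl := H8.isPPart_iff.mp hb
  change IsConj (H8.pReg p x) (H8.pReg p y) ↔ _
  refine ⟨fun h χ => ?_, fun h => ?_⟩
  · rw [H8.memLocalIdeal_sub_iff (hint _ _) (hint _ _), H8.rd_irr_eq_pReg hM, H8.rd_irr_eq_pReg hM χ y,
      cf_isConj (irr_cf χ.2) h]
  have hG : Nat.card G ≠ 0 := Nat.card_pos.ne'
  have hcop := (Nat.coprime_ordCompl hp hG).pow_left ((Nat.card G).factorization p)
  have hd := (Nat.ordProj_mul_ordCompl_eq_self (Nat.card G) p).symm.dvd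
  have hn := Nat.not_dvd_ordCompl hp hG
  set n := Nat.card G / p ^ (Nat.card G).factorization p
  obtain ⟨e, he, he'⟩ := exists_piExp hcop
  have h1 : ∀ z : G, z ^ e = H8.pReg p z := fun z => by
    conv_lhs => rw [← H8.pPart_mul_pReg p z]
    refine mul_pow_part he he' (H8.commute_pPart_pReg z) ?_ ?_
    · obtain ⟨k, hk⟩ := H8.orderOf_pPart (p := p) z
      refine Nat.Coprime.dvd_of_dvd_mul_right ?_ ((orderOf_dvd_natCard _).trans hd)
      rw [hk]
      exact ((Nat.Prime.coprime_iff_not_dvd hp).mpr hn).pow_left _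
    · exact Nat.Coprime.dvd_of_dvd_mul_left (((Nat.Prime.coprime_iff_not_dvd hp).mpr
        (H8.not_dvd_orderOf_pReg z)).symm.pow_right _) ((orderOf_dvd_natCard _).trans hd)
  let F : G → ℂ := fun z => if IsConj (H8.pReg p x) z then 1 else 0
  have hF : IsClassFunction G F := fun x y => if_congr
    ⟨fun h => h.trans (isConj_iff.mpr ⟨y, rfl⟩).symm, fun h => h.trans (isConj_iff.mpr ⟨y, rfl⟩)⟩
    rfl rfl
  have h2 := cf_expand (cf_smul n (cf_pow hF e))
  have h3 : MemLocalIdeal M (n * F (x ^ e) - n * F (y ^ e)) := by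
    have hx := congrFun h2 x
    have hy := congrFun h2 y
    simp only [Finset.sum_apply, Pi.smul_apply, smul_eq_mul] at hx hy
    rw [hx, hy, ← Finset.sum_sub_distrib]
    refine Finset.sum_induction _ _ (fun _ _ => H8.memLocalIdeal_add) H8.memLocalIdeal_zero
      fun χ hχ => ?_
    rw [← mul_sub]
    refine H8.memLocalIdeal_mul_left (H8.mem_locRing_of_isIntegral M ?_) (h ⟨χ, mem_irrSet.mp hχ⟩)
    exact isIntegral_ip_pow hcop hd he he' hF (fun z => by
      by_cases h : IsConj (H8.pReg p x) z <;>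
        simp [F, h, isIntegral_one, isIntegral_zero, -isConj_iff])
      (H6.isGen_of_irr (mem_irrSet.mp hχ))
  by_contra hc
  simp only [F, h1, if_neg hc, if_pos (IsConj.refl _), mul_one, mul_zero, sub_zero] at h3
  exact hn ((H8.memLocalIdeal_natCast_iff hM n).mp h3)

end Cfsg.Agent.S0876
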