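import Cfsg.Statements.S0880
import Mathlib
import Cfsg.Agent.H16.ZInv

set_option autoImplicit false
open Cfsg

namespace Cfsg.Agent.S0880

/-- Let G be a finite simple Zassenhaus group on Ω with n points whose two-point stabilizer E has odd order less than n - 2. Then there are two elements of G, each fixing no point of Ω, that are not conjugate. -/
theorem result {G Ω : Type*} [Group G] [Finite G] [MulAction G Ω] [Fintype Ω] (hZ : Cfsg.IsZassenhausGroup G Ω) {a b : Ω} (hab : a ≠ b) [IsSimpleGroup G] (hodd : Odd (Nat.card ↥(MulAction.stabilizer G a ⊓ MulAction.stabilizer G b : Subgroup G))) (hlt : Nat.card ↥(MulAction.stabilizer G a ⊓ MulAction.stabilizer G b : Subgroup G) < Fintype.card Ω - 2) : ∃ x y : G, (∀ c : Ω, x • c ≠ c) ∧ (∀ c : Ω, y • c ≠ c) ∧ ¬ IsConj x y := by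
  have z := H16.z3_of_zass hZ
  have h4 := H16.four_le_card_of_zass hZ
  have h1 := z.two_mul_card_der (by omega)
  have h2 := z.card_group (by omega) hab
  have h3 : 1 < Nat.card (H16.St2 G a b) :=
    (Subgroup.one_lt_card_iff_ne_bot _).2 (H16.St2_ne_bot_of_zass hZ hab)
  change Odd (Nat.card (H16.St2 G a b)) at hodd
  by_contra hcon
  push Not at hcon
  generalize Nat.card (H16.St2 G a b) = e at *
  have he : 3 ≤ e := by obtain ⟨k, rfl⟩ := hodd; omega
  obtain ⟨h, hh⟩ : ∃ h, Nat.card Ω = h + 2 := ⟨Nat.card Ω - 2, by omega⟩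
  rw [hh] at h1 h2 h4
  simp only [Nat.add_sub_cancel, show h + 2 - 1 = h + 1 by omega] at h1 h2
  rcases Set.eq_empty_or_nonempty {g : G | ∀ c : Ω, g • c ≠ c} with h0 | ⟨x, hx⟩
  · rw [h0, Set.ncard_empty, h2] at h1
    nlinarith
  · have h5 : {g : G | ∀ c : Ω, g • c ≠ c} = MulAction.orbit (ConjAct G) x := by
      ext y
      rw [ConjAct.mem_orbit_conjAct]
      refine ⟨fun hy => hcon y x hy hx, fun hy => ?_⟩
      obtain ⟨k, rfl⟩ := isConj_iff.1 hy.symm
      intro c hc
      apply hx (k⁻¹ • c)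
      rw [← mul_smul, eq_inv_smul_iff, ← mul_smul, ← mul_assoc, hc]
    have h6 := (MulAction.stabilizer (ConjAct G) x).card_mul_index
    rw [MulAction.index_stabilizer, ← h5, show Nat.card (ConjAct G) = Nat.card G from rfl, h2] at h6
    rw [h2] at h1
    generalize {g : G | ∀ c : Ω, g • c ≠ c}.ncard = D at *
    generalize Nat.card (MulAction.stabilizer (ConjAct G) x) = c at *
    obtain rfl | rfl | rfl | hc : c = 0 ∨ c = 1 ∨ c = 2 ∨ 3 ≤ c := by omega
    · nlinarith
    · nlinarith
    · nlinarith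
    · have h7 := Nat.mul_le_mul_right D hc
      have h8 := Nat.mul_le_mul_left ((h + 2) * (h + 1)) he
      nlinarith

end Cfsg.Agent.S0880
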