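import Cfsg.Statements.S0882
import Mathlib
import Cfsg.Agent.H16.ZInv

set_option autoImplicit false
open Cfsg

namespace Cfsg.Agent.S0882

/-- Let G be a finite simple Zassenhaus group on Ω with n = h + 1 points whose two-point stabilizer E has odd order e with 2e < h - 1. Then any two involutions of G are conjugate, and the number of involutions is e * (h + 1) if h is even and e * h if h is odd. -/
theorem result {G Ω : Type*} [Group G] [Finite G] [MulAction G Ω] [Fintype Ω] (hZ : Cfsg.IsZassenhausGroup G Ω) {a b : Ω} (hab : a ≠ b) [IsSimpleGroup G] (h e : ℕ) (hh : Fintype.card Ω = h + 1) (he : Nat.card ↥(MulAction.stabilizer G a ⊓ MulAction.stabilizer G b : Subgroup G) = e) (hodd : Odd e) (hlt : 2 * e < h - 1) : (∀ x y : G, orderOf x = 2 → orderOf y = 2 → IsConj x y) ∧ Nat.card {x : G // orderOf x = 2} = (if Even h then e * (h + 1) else e * h) := by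
  subst he
  have z := H16.zodd_of_simple hZ hab hodd
  rw [← Nat.card_eq_fintype_card] at hh
  refine ⟨fun x y hx hy => ?_, ?_⟩
  · obtain ⟨x1, x2⟩ := H16.orderOf_eq_two_iff'.1 hx
    obtain ⟨y1, y2⟩ := H16.orderOf_eq_two_iff'.1 hy
    exact z.isConj_invol x1 x2 y1 y2
  · have h1 := z.ncard_invol hab
    rw [hh, Nat.add_sub_cancel] at h1
    have h2 : Nat.card {x : G // orderOf x = 2} = {x : G | x ≠ 1 ∧ x * x = 1}.ncard := by
      rw [← Nat.card_coe_set_eq]
      exact Nat.card_congr (Equiv.subtypeEquivRight fun x => H16.orderOf_eq_two_iff')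
    rw [h2, h1]
    split_ifs <;> simp only [H16.St2] <;> ring

end Cfsg.Agent.S0882
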