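import Cfsg.Statements.S0891
import Mathlib
import Cfsg.Agent.H18.Dc3

set_option autoImplicit false
open Cfsg

namespace Cfsg.Agent.S0891

open Cfsg.Agent.H18.Dc

/-- For every n ≥ 4 there are a finite group Γ and a central element z of Γ of order 2 lying in the commutator subgroup of Γ such that the quotient of Γ by the (normal) subgroup generated by z is isomorphic to the alternating group on n letters. -/
theorem result (n : ℕ) (hn : 4 ≤ n) : ∃ (Γ : Type) (_ : Group Γ) (_ : Finite Γ) (z : Γ) (hz : z ∈ Subgroup.center Γ), orderOf z = 2 ∧ z ∈ commutator Γ ∧ ∃ _ : (Subgroup.zpowers z).Normal, Nonempty (Γ ⧸ Subgroup.zpowers z ≃* alternatingGroup (Fin n)) := by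
  obtain ⟨Γ, _, _, π, w, H, ho, hc, hk⟩ := exists_cover (α := Fin n) (by simpa using hn)
  have hz : w ∈ Subgroup.center Γ :=
    Subgroup.mem_center_iff.2 (H.cen w ((hk w).2 (Subgroup.mem_zpowers w)))
  have hN : (Subgroup.zpowers w).Normal := ⟨fun x hx g => by
    rw [H.cen x ((hk x).2 hx) g]; simpa using hx⟩
  exact ⟨Γ, inferInstance, inferInstance, w, hz, ho, hc, hN, H.quot _ hk⟩

end Cfsg.Agent.S0891
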