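import Cfsg.Statements.S0893
import Mathlib
import Cfsg.Agent.H7.Small

set_option autoImplicit false
open Cfsg

namespace Cfsg.Agent.S0893

open Cfsg.Agent.H7

/-- Let P be an extraspecial p-group of order p ^ (2 * n + 1), A an abelian subgroup of order p ^ (n + 1), and λ a character of A of degree 1 that is not identically 1 on the elements of A lying in the centre of P. Then the function induced from λ to P is an irreducible character of P and vanishes at every element outside the centre. -/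
theorem result {P : Type*} [Group P] [Fintype P] (p n : ℕ) [Fact p.Prime] (hP : Cfsg.IsExtraspecial p P) (hcard : Nat.card P = p ^ (2 * n + 1)) (A : Subgroup P) (hab : ∀ a ∈ A, ∀ b ∈ A, a * b = b * a) (hA : Nat.card A = p ^ (n + 1)) (lam : A → ℂ) (hlam : Cfsg.IsCharacter A lam ∧ lam 1 = 1) (hZ : ∃ a : A, (a : P) ∈ Subgroup.center P ∧ lam a ≠ 1) : Cfsg.IsIrrCharacter P (Cfsg.indFun A lam) ∧ ∀ x : P, x ∉ Subgroup.center P → Cfsg.indFun A lam x = 0 := by
  have hp : p.Prime := Fact.out
  obtain ⟨a, ha, ha'⟩ := hZ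
  rw [← ind_subtype]
  obtain ⟨χ, hχ, h⟩ := exists_irr_over A.subtype_injective (irr_of_char_one hlam.1 hlam.2)
  have h1 : χ 1 ≠ 1 := fun h1 => ha' (by
    rw [← irr_eq_of_ip_ne_zero (irr_of_char_one (char_comp A.subtype (irr_char hχ)) h1)
      (irr_of_char_one hlam.1 hlam.2) h]
    exact (H6.apply_eq_of_mem_charKer ((H6.degree_eq_one_iff_commutator_le hχ).mp h1
      (hP.1.2.2 ▸ ha))).trans h1)
  obtain ⟨h2, h3⟩ := extraspecial_degree hp hP.1.2.2 hP.2 hcard hχ h1
  rw [eq_irr_of_degree_eq (char_ind _ hlam.1) hχ (by rwa [ip_ind_left _ _ (irr_cf hχ),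
    ip_ne_zero_comm]) ?_]
  · exact ⟨hχ, h3⟩
  have h4 := A.card_mul_index
  rw [hA, hcard, show 2 * n + 1 = n + 1 + n by ring, pow_add p (n + 1)] at h4
  rw [ind_apply_one A.subtype_injective, A.range_subtype, hlam.2, h2,
    Nat.eq_of_mul_eq_mul_left (pow_pos hp.pos _) h4, mul_one, Nat.cast_pow]

end Cfsg.Agent.S0893
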