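import Cfsg.Statements.S0894
import Mathlib
import Cfsg.Agent.H7.Small

set_option autoImplicit false
open Cfsg

namespace Cfsg.Agent.S0894

open Cfsg.Agent.H7

/-- Let P be an extraspecial p-group of order p ^ (2 * n + 1). Then every irreducible character of P has degree 1 or p ^ n, and exactly p - 1 of them have degree p ^ n. -/
theorem result {P : Type*} [Group P] [Finite P] (p n : ℕ) [Fact p.Prime] (hP : Cfsg.IsExtraspecial p P) (hcard : Nat.card P = p ^ (2 * n + 1)) : (∀ χ : Cfsg.IrrCharacter P, (χ : P → ℂ) 1 = 1 ∨ (χ : P → ℂ) 1 = (p : ℂ) ^ n) ∧ Nat.card {χ : Cfsg.IrrCharacter P // (χ : P → ℂ) 1 = (p : ℂ) ^ n} = p - 1 := by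
  classical
  have hp : p.Prime := Fact.out
  have h1 : ∀ χ : IrrCharacter P, (χ : P → ℂ) 1 = 1 ∨ (χ : P → ℂ) 1 = (p : ℂ) ^ n := fun χ =>
    or_iff_not_imp_left.mpr fun h => (extraspecial_degree hp hP.1.2.2 hP.2 hcard χ.2 h).1
  refine ⟨h1, ?_⟩
  have h2 := (Subgroup.center P).card_mul_index
  rw [hP.2, hcard, pow_succ' p] at h2
  have h3 := Nat.eq_of_mul_eq_mul_left hp.pos h2
  have hn : (p : ℂ) ^ n ≠ 1 := fun h => by
    have h4 := (H6.comm_iff_forall_degree_one (G := P)).mpr fun χ hχ =>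
      (h1 ⟨χ, hχ⟩).elim id (h ▸ id)
    have h5 : commutator P = ⊥ := by
      rw [commutator_eq_bot_iff_center_eq_top, eq_top_iff]
      exact fun x _ => Subgroup.mem_center_iff.mpr fun y => h4 y x
    have := hP.2
    rw [← hP.1.2.2, h5, Subgroup.card_bot] at this
    exact hp.one_lt.ne this
  have h4 := H6.sum_irr_degree_sq P
  rw [← Finset.sum_filter_add_sum_filter_not _ fun χ : IrrCharacter P => (χ : P → ℂ) 1 = 1,
    Finset.sum_congr rfl (g := fun _ => 1) fun χ hχ => by rw [(Finset.mem_filter.mp hχ).2, one_pow],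
    Finset.sum_const,
    Finset.filter_congr (q := fun χ : IrrCharacter P => (χ : P → ℂ) 1 = (p : ℂ) ^ n) fun χ _ =>
      ⟨(h1 χ).resolve_left, fun h h' => hn (h.symm.trans h')⟩,
    Finset.sum_congr rfl (g := fun _ => ((p : ℂ) ^ n) ^ 2) fun χ hχ => by
      rw [(Finset.mem_filter.mp hχ).2], Finset.sum_const, ← Fintype.card_subtype,
    ← Fintype.card_subtype, ← Nat.card_eq_fintype_card, ← Nat.card_eq_fintype_card,
    H6.card_irr_degree_one, hP.1.2.2, h3, hcard] at h4
  simp only [nsmul_eq_mul, mul_one] at h4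
  norm_cast at h4
  rw [← pow_mul, mul_comm n 2, pow_succ' p] at h4
  refine Nat.eq_sub_of_add_eq (Nat.eq_of_mul_eq_mul_right (pow_pos hp.pos (2 * n)) ?_)
  linarith

end Cfsg.Agent.S0894
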