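import Cfsg.Statements.S0896
import Mathlib
import Cfsg.Agent.H7.Brauer
-- import your own Cfsg.Agent.* helpers here

set_option autoImplicit false
open scoped ComplexConjugate
open Cfsg

namespace Cfsg.Agent.S0896


open Cfsg.Agent.H7

theorem dvd_sum_orbit {G N : Type*} [Group G] [Group N] [Finite G] [Finite N] {f : N →* G} (hf : IsNE f)
    (p : ℕ) (F : (N → ℂ) → ℕ) (hF : ∀ g φ, F (hf.cjf g φ) = F φ)
    (h : ∀ φ, IsIrrCharacter N φ → p ∣ (hf.inertia φ).index * F φ) : p ∣ ∑ φ ∈ irrSet N, F φ := by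
  classical
  rw [← Finset.sum_fiberwise_of_maps_to (s := irrSet N) (t := (irrSet N).image hf.orbit) (g := hf.orbit)
    (fun x hx => Finset.mem_image_of_mem _ hx)]
  refine Finset.dvd_sum fun O hO => ?_
  obtain ⟨φ0, h0, rfl⟩ := Finset.mem_image.1 hO
  have e : (irrSet N).filter (fun φ => hf.orbit φ = hf.orbit φ0) = hf.orbit φ0 := by
    ext φ
    rw [Finset.mem_filter]
    constructor
    · rintro ⟨-, h1⟩
      exact h1 ▸ hf.self_mem_orbit φ
    · intro h1
      refine ⟨mem_irrSet.2 (hf.irr_of_mem_orbit (mem_irrSet.1 h0) h1), ?_⟩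
      obtain ⟨g, rfl⟩ := hf.mem_orbit.1 h1
      ext ψ
      rw [hf.mem_orbit, hf.mem_orbit]
      constructor
      · rintro ⟨x, rfl⟩
        exact ⟨g * x, hf.cjf_mul _ _ _⟩
      · rintro ⟨x, rfl⟩
        exact ⟨g⁻¹ * x, by rw [← hf.cjf_mul, mul_inv_cancel_left]⟩
  rw [e, Finset.sum_congr rfl (g := fun _ => F φ0) (fun φ hφ => by
    obtain ⟨g, rfl⟩ := hf.mem_orbit.1 hφ
    exact hF g φ0), Finset.sum_const, hf.card_orbit, smul_eq_mul]
  exact h φ0 (mem_irrSet.1 h0)

theorem main {G : Type*} [Group G] [Finite G] (p : ℕ) (hp : p.Prime) (N : Subgroup G) [hN : N.Normal]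
    (hind : ∃ k : ℕ, N.index = p ^ k) (ϑ : N → ℂ) (hϑ : IsIrrCharacter N ϑ) (hinv : (isNE_subtype N).Inv ϑ) :
    ∃ (E : Subgroup G) (φ : ↥(E ⊓ N) → ℂ), IsElementary p E ∧ E ⊔ N = ⊤ ∧ IsIrrCharacter ↥(E ⊓ N) φ ∧
      (isNE_inclusion (K := E ⊓ N) (T := E) inf_le_left fun t ht k hk =>
        ⟨E.mul_mem (E.mul_mem ht hk.1) (E.inv_mem ht), hN.conj_mem k hk.2 t⟩).Inv φ ∧
      ∃ m : ℕ, ¬ p ∣ m ∧ ip (fun x : ↥(E ⊓ N) => ϑ ⟨x, x.2.2⟩) φ = m := by
  classical
  obtain ⟨k, hk⟩ := hind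
  by_contra hno
  set hne := isNE_subtype N
  have hα : hne.Inv (ϑ * star ϑ) := fun g => funext fun n => by
    have := congrFun (hinv g) n
    simp only [IsNE.cjf_apply, Pi.mul_apply, Pi.star_apply] at this ⊢
    rw [this]
  set β := ind N.subtype (ϑ * star ϑ) with hβ
  have key : ∀ f ∈ indSpan (elemClass p hp) G, ∃ k : ℤ, ip f β = p * k := by
    intro f hf
    induction hf using AddSubgroup.closure_induction with
    | zero => exact ⟨0, by simp [ip_zero_left]⟩
    | add x y _ _ hx hy =>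
      obtain ⟨a, ha⟩ := hx
      obtain ⟨b, hb⟩ := hy
      exact ⟨a + b, by rw [ip_add_left, ha, hb]; push_cast; ring⟩
    | neg x _ hx =>
      obtain ⟨a, ha⟩ := hx
      exact ⟨-a, by rw [ip_neg_left, ha]; push_cast; ring⟩
    | mem x hx =>
      obtain ⟨E, hE, ψ, hψ, rfl⟩ := hx
      set ha := isNE_inclusion (K := E ⊓ N) (T := E) inf_le_left fun t ht k hk =>
        ⟨E.mul_mem (E.mul_mem ht hk.1) (E.inv_mem ht), hN.conj_mem k hk.2 t⟩
      set a := Subgroup.inclusion (inf_le_left : E ⊓ N ≤ E) with hadef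
      set Y : ↥(E ⊓ N) → ℂ := fun x => ϑ ⟨x, x.2.2⟩ with hY
      have hYc : IsCharacter _ Y := char_comp (Subgroup.inclusion inf_le_right) (irr_char hϑ)
      have hYi : ha.Inv Y := fun g => funext fun d => by
        have h1 := congrFun (hinv g) ⟨d, d.2.2⟩
        rw [IsNE.cjf_apply] at h1 ⊢
        simp only [hY]
        rw [← h1]
        congr 1
        ext
        exact (congrArg Subtype.val (ha.cj_spec g d)).trans (hne.cj_spec g ⟨d, d.2.2⟩).symm
      have hYY : ha.Inv (Y * star Y) := fun g => funext fun n => by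
        have := congrFun (hYi g) n
        simp only [IsNE.cjf_apply, Pi.mul_apply, Pi.star_apply] at this ⊢
        rw [this]
      have hai : a.range.index = N.relIndex E := by
        rw [hadef, Subgroup.inclusion_range, ← Subgroup.inf_relIndex_left]; rfl
      have hidx : (E ⊔ N).index * a.range.index = N.index := by
        rw [hai, ← Subgroup.relIndex_sup_right, mul_comm]
        exact Subgroup.relIndex_mul_index le_sup_right
      have hres : (fun e : E => β (E.subtype e)) = ((E ⊔ N).index : ℂ) • ind a (Y * star Y) := by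
        funext e
        by_cases he : (e : G) ∈ N
        · have h1 := congrFun (hne.res_ind_of_inv hα) ⟨e, he⟩
          have h2 := congrFun (ha.res_ind_of_inv hYY) ⟨e, e.2, he⟩
          rw [Subgroup.range_subtype, ← hidx] at h1
          change β e = _ * ind a (Y * star Y) (a ⟨e, e.2, he⟩)
          rw [h2]
          refine h1.trans ?_
          simp only [Nat.cast_mul, Pi.smul_apply, smul_eq_mul, mul_assoc]
          rfl
        · haveI := hne.normal
          haveI := ha.normal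
          rw [Pi.smul_apply, ind_apply_of_notMem (f := a) _ (by rintro ⟨d, rfl⟩; exact he d.2.2), smul_zero]
          exact ind_apply_of_notMem _ (by rwa [Subgroup.range_subtype])
      rw [ip_ind_left _ _ (ind_cf _ _), hres, ip_smul_right, ip_ind_right _ _ (char_cf hψ), ← ip_mul_right,
        map_natCast]
      set X : ↥(E ⊓ N) → ℂ := (fun h => ψ (a h)) * Y with hX
      have hXc : IsCharacter _ X := char_mul (char_comp a hψ) hYc
      by_cases hEN : E ⊔ N = ⊤
      swap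
      · obtain ⟨n, hn⟩ := ip_char_nat hXc hYc
        obtain ⟨j, -, hj⟩ := (Nat.dvd_prime_pow hp).1 (hk ▸ Dvd.intro _ hidx)
        have hj0 : j ≠ 0 := by
          rintro rfl
          exact hEN (Subgroup.index_eq_one.1 (by simpa using hj))
        obtain ⟨j, rfl⟩ := Nat.exists_eq_succ_of_ne_zero hj0
        exact ⟨(p ^ j * n : ℕ), by rw [hn, hj, pow_succ]; push_cast; ring⟩
      have hXi : ha.Inv X := fun g => funext fun n => by
        have h1 := congrFun (hYi g) n
        have h2 := congrFun (ha.inv_res (char_cf hψ) g) n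
        simp only [IsNE.cjf_apply, Pi.mul_apply, hX] at h1 h2 ⊢
        rw [h1, h2]
      have hF : ∀ φ, IsIrrCharacter _ φ → ∃ u v : ℕ, ip X φ = u ∧ ip Y φ = v ∧ ip φ Y = v ∧
          ⌊(ip X φ * ip φ Y).re⌋₊ = u * v := fun φ hφ => by
        obtain ⟨u, hu⟩ := ip_char_nat hXc (irr_char hφ)
        obtain ⟨v, hv⟩ := ip_char_nat hYc (irr_char hφ)
        refine ⟨u, v, hu, hv, ip_natCast_comm hv, ?_⟩
        rw [hu, ip_natCast_comm hv, ← Nat.cast_mul, Complex.natCast_re, Nat.floor_natCast]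
      obtain ⟨c, hc⟩ := dvd_sum_orbit ha p (fun φ => ⌊(ip X φ * ip φ Y).re⌋₊) (fun g φ => by
        have h1 := ha.ip_cjf g X φ
        have h2 := ha.ip_cjf g φ Y
        rw [hXi g] at h1
        rw [hYi g] at h2
        simp only [h1, h2]) (fun φ hφ => by
        obtain ⟨u, v, -, h2, -, h4⟩ := hF φ hφ
        simp only [h4]
        by_cases hI : ha.inertia φ = ⊤
        · by_contra h5
          refine hno ⟨E, φ, hE, hEN, hφ, ha.inv_iff_inertia.2 hI, v, fun h6 => h5 ?_, h2⟩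
          exact Dvd.dvd.mul_left (Dvd.dvd.mul_left h6 _) _
        · have h5 := (Subgroup.index_dvd_of_le (ha.range_le_inertia (irr_cf hφ))).trans (Dvd.intro_left _ hidx)
          obtain ⟨j, -, hj⟩ := (Nat.dvd_prime_pow hp).1 (hk ▸ h5)
          have hj0 : j ≠ 0 := by
            rintro rfl
            exact hI (Subgroup.index_eq_one.1 (by simpa using hj))
          exact Dvd.dvd.mul_right (hj ▸ dvd_pow_self p hj0) _)
      refine ⟨c, ?_⟩
      rw [hEN, Subgroup.index_top, Nat.cast_one, one_mul, ip_expand (char_cf hXc)]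
      have : ∑ φ ∈ irrSet ↥(E ⊓ N), ip X φ * ip φ Y =
          ((∑ φ ∈ irrSet ↥(E ⊓ N), ⌊(ip X φ * ip φ Y).re⌋₊ : ℕ) : ℂ) := by
        rw [Nat.cast_sum]
        refine Finset.sum_congr rfl fun φ hφ => ?_
        obtain ⟨u, v, h1, -, h3, h4⟩ := hF φ (mem_irrSet.1 hφ)
        rw [h4, h1, h3, Nat.cast_mul]
      rw [this, hc]
      push_cast; rfl
  obtain ⟨m, hm, hm2⟩ := exists_const_mem_indSpan (G := G) hp
  obtain ⟨c, hc⟩ := key _ hm2
  rw [hβ, ip_ind_right _ _ (cf_const _), ← ip_mul_right] at hc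
  have e : ((fun _ : N => (m : ℂ)) * ϑ) = (m : ℂ) • ϑ := rfl
  rw [e, ip_smul_left, ip_irr_self hϑ, mul_one] at hc
  exact hm ⟨c, by exact_mod_cast hc⟩

/-- Let N be a normal subgroup of the finite group G with the index of N a power of the prime p, and ϑ an irreducible character of N invariant under conjugation by G. Then there are a p-elementary subgroup E of G with E ⊔ N = ⊤ and an irreducible character φ of the subgroup E ⊓ N, invariant under conjugation by E, such that the inner product of the restriction of ϑ to E ⊓ N with φ is an integer not divisible by p. -/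
theorem result {G : Type*} [Group G] [Fintype G] (p : ℕ) (hp : p.Prime) (N : Subgroup G) [hN : N.Normal] (hind : ∃ k : ℕ, N.index = p ^ k) (ϑ : N → ℂ) (hϑ : Cfsg.IsIrrCharacter N ϑ) (hinv : ∀ (g : G) (n : N), ϑ ⟨g * n * g⁻¹, hN.conj_mem (n : G) n.2 g⟩ = ϑ n) : ∃ (E : Subgroup G) (φ : ↥(E ⊓ N) → ℂ), Cfsg.IsElementary p E ∧ E ⊔ N = ⊤ ∧ Cfsg.IsIrrCharacter ↥(E ⊓ N) φ ∧ (∀ (g : G) (hg : g ∈ E) (x : ↥(E ⊓ N)), φ ⟨g * x * g⁻¹, ⟨(E.mul_mem (E.mul_mem hg x.2.1) (E.inv_mem hg)), hN.conj_mem (x : G) x.2.2 g⟩⟩ = φ x) ∧ ∃ m : ℕ, ¬ p ∣ m ∧ (Nat.card ↥(E ⊓ N) : ℂ)⁻¹ * ∑ᶠ x : ↥(E ⊓ N), ϑ ⟨(x : G), x.2.2⟩ * conj (φ x) = (m : ℂ) := by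
  classical
  obtain ⟨E, φ, h1, h2, h3, h4, m, h5, h6⟩ := main p hp N hind ϑ hϑ ((inv_subtype_iff N _ ϑ).2 hinv)
  refine ⟨E, φ, h1, h2, h3, fun g hg x => ?_, m, h5, ?_⟩
  · have := congrFun (h4 ⟨g, hg⟩) x
    rw [IsNE.cjf_apply] at this
    rw [← this]
    congr 1
    ext
    exact (congrArg Subtype.val (IsNE.cj_spec (f := Subgroup.inclusion (inf_le_left : E ⊓ N ≤ E)) _ ⟨g, hg⟩ x)).symm
  · letI := Fintype.ofFinite ↥(E ⊓ N)
    rw [← h6, ip_def, finsum_eq_sum_of_fintype]

end Cfsg.Agent.S0896
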