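import Cfsg.Statements.S0897
import Mathlib
import Cfsg.Agent.S0896
import Cfsg.Agent.H7.Det
-- import your own Cfsg.Agent.* helpers here

set_option autoImplicit false
open Cfsg

namespace Cfsg.Agent.S0897


open Cfsg.Agent.H7

theorem core {G : Type*} [Group G] [Finite G] (p : ℕ) (hp : p.Prime) (N : Subgroup G) [hN : N.Normal]
    {k : ℕ} (hk : N.index = p ^ k) (ϑ : N → ℂ) (hϑ : IsIrrCharacter N ϑ) (hinv : (isNE_subtype N).Inv ϑ)
    (E Q : Subgroup G) (hQE : Q ≤ E) (hQN : N ⊔ Q = ⊤) (φ : ↥(E ⊓ N) →* ℂˣ)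
    (hφ : (isNE_inclusion (K := E ⊓ N) (T := E) inf_le_left fun t ht k hk =>
        ⟨E.mul_mem (E.mul_mem ht hk.1) (E.inv_mem ht), hN.conj_mem k hk.2 t⟩).Inv (linFun φ))
    {m : ℕ} (hm : ¬ p ∣ m) (hip : ip (fun x : ↥(E ⊓ N) => ϑ ⟨x, x.2.2⟩) (linFun φ) = m)
    (lam : Q →* ℂˣ) (hlam : ∀ (x : Q) (hx : (x : G) ∈ N), lam x = φ ⟨x, hQE x.2, hx⟩) :
    ∃ χ : G → ℂ, IsIrrCharacter G χ ∧ ∀ n : N, χ n = ϑ n := by
  classical
  obtain ⟨G', _, _, π, j, θ', μ, hπ, hj, hjn, hc, hθ', hθj, -, hμ, hμp⟩ :=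
    (isNE_subtype N).exists_triple hϑ hinv
  rw [Subgroup.range_subtype, hk] at hμp
  simp only [Subgroup.coe_subtype] at hj
  set E' := E.comap π with hE'
  let κ : ↥(E ⊓ N) →* E' := (j.comp (Subgroup.inclusion inf_le_right)).codRestrict E' fun d => by
    rw [hE', Subgroup.mem_comap, MonoidHom.comp_apply, hj]; exact d.2.1
  have hκv : ∀ d, (κ d : G') = j ⟨d, d.2.2⟩ := fun _ => rfl
  have hκ : IsNE κ := by
    refine ⟨fun a b h => ?_, ⟨?_⟩⟩
    · have := hjn.inj ((hκv a).symm.trans ((congrArg Subtype.val h).trans (hκv b)))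
      exact Subtype.ext (congrArg (fun x : N => (x : G)) this)
    · rintro _ ⟨d, rfl⟩ t
      have h1 := hjn.cj_spec t ⟨d, d.2.2⟩
      have h2 := congrArg π h1
      rw [hj, map_mul, map_mul, map_inv, hj] at h2
      refine ⟨⟨hjn.cj t ⟨d, d.2.2⟩, ?_, (hjn.cj t ⟨d, d.2.2⟩).2⟩, Subtype.ext h1⟩
      rw [h2]
      exact E.mul_mem (E.mul_mem t.2 d.2.1) (E.inv_mem t.2)
  let ι : E' →* E := (π.comp E'.subtype).codRestrict E fun t => t.2
  have hφκ : hκ.Inv (linFun φ) := hφ.of_comp hκ (ι := ι) fun d => Subtype.ext (hj _)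
  set T : E' → ℂ := fun t => θ' (E'.subtype t) with hT
  have hTc : IsCharacter E' T := char_comp _ (irr_char hθ')
  obtain ⟨χ, hχ, h1, e, h2, h3⟩ : ∃ χ, IsIrrCharacter E' χ ∧ ip T χ ≠ 0 ∧
      ∃ e : ℕ, ip (fun d => χ (κ d)) (linFun φ) = e ∧ ¬ p ∣ e := by
    by_contra hno
    push Not at hno
    have h4 : (fun x : ↥(E ⊓ N) => ϑ ⟨x, x.2.2⟩) = ∑ χ ∈ irrSet E', ip T χ • fun d => χ (κ d) := by
      funext d
      have := congrFun (cf_expand (char_cf hTc)) (κ d)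
      rw [← hθj]
      simp only [Finset.sum_apply, Pi.smul_apply] at this ⊢
      exact this
    rw [h4, ip_sum_left] at hip
    have h5 : ∀ χ ∈ irrSet E', ∃ c : ℕ, ip (ip T χ • fun d => χ (κ d)) (linFun φ) = p * c := by
      intro χ hχ
      have hχ' := mem_irrSet.1 hχ
      obtain ⟨u, hu⟩ := ip_char_nat hTc (irr_char hχ')
      obtain ⟨v, hv⟩ := ip_char_nat (char_comp κ (irr_char hχ')) (char_linFun φ)
      rw [ip_smul_left]
      by_cases h0 : ip T χ = 0
      · exact ⟨0, by simp [h0]⟩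
      · obtain ⟨c, hc⟩ := hno χ hχ' h0 v hv
        exact ⟨u * c, by rw [hu, hv, hc]; push_cast; ring⟩
    choose! c hc using h5
    rw [Finset.sum_congr rfl hc, ← Finset.mul_sum, ← Nat.cast_sum, ← Nat.cast_mul, Nat.cast_inj] at hip
    exact hm ⟨_, hip.symm⟩
  have he0 : (e : ℂ) ≠ 0 := by
    rw [Nat.cast_ne_zero]; rintro rfl; exact h3 (dvd_zero p)
  have h4 := hκ.clifford_inv hχ (irr_linFun φ) hφκ (h2 ▸ he0)
  rw [h2] at h4
  have hχ1 : χ 1 = e := by
    have := congrFun h4 1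
    simpa [linFun_apply] using this
  have hd1 : ∀ d, detHom χ (κ d) = φ d ^ e := fun d => by
    have := detHom_comp κ (irr_char hχ)
    rw [h4, detHom_natCast_smul _ (char_linFun φ), detHom_linFun] at this
    exact (DFunLike.congr_fun this d).symm
  have hkE : π.ker ≤ E' := fun a ha => by
    rw [hE', Subgroup.mem_comap, MonoidHom.mem_ker.1 ha]; exact E.one_mem
  have hi : IsNE (Subgroup.inclusion hkE) := isNE_inclusion_of_normal hkE
  have hμi : hi.Inv (linFun μ) := fun g => funext fun a => by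
    rw [IsNE.cjf_apply, hi.cj_eq (m := a)]
    ext
    have := Subgroup.mem_center_iff.1 (hc a.2) g
    simp [this]
  have hd2 : ∀ a, detHom χ (Subgroup.inclusion hkE a) = μ a ^ e := fun a => by
    obtain ⟨ν, hν, h5⟩ := exists_irr_under (Subgroup.inclusion hkE) hχ
    have h6 := ip_comp_ne_zero_of_le (Subgroup.inclusion hkE) hTc hχ h1 (irr_char hν) h5
    have h7 : (fun x => T (Subgroup.inclusion hkE x)) = θ' 1 • linFun μ := funext fun x => by
      have := hμ x 1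
      rw [mul_one] at this
      rw [Pi.smul_apply, smul_eq_mul, mul_comm]
      exact this
    rw [h7, ip_smul_left] at h6
    obtain rfl := irr_eq_of_ip_ne_zero (irr_linFun μ) hν (right_ne_zero_of_mul h6)
    have h8 := hi.clifford_inv hχ hν hμi h5
    have h9 := congrFun h8 1
    simp only [map_one, Pi.smul_apply, linFun_one_apply, smul_eq_mul, mul_one, hχ1] at h9
    rw [← h9] at h8
    have := detHom_comp (Subgroup.inclusion hkE) (irr_char hχ)
    rw [h8, detHom_natCast_smul _ (char_linFun μ), detHom_linFun] at this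
    exact (DFunLike.congr_fun this a).symm
  set Q' := Q.comap π with hQ'
  have hQE' : Q' ≤ E' := Subgroup.comap_mono hQE
  let ρ : Q' →* Q := (π.comp Q'.subtype).codRestrict Q fun t => t.2
  let ν : Q' →* ℂˣ := (detHom χ).comp (Subgroup.inclusion hQE') * ((lam.comp ρ) ^ e)⁻¹
  haveI := hjn.normal
  let s : Q' →* G' ⧸ j.range := (QuotientGroup.mk' j.range).comp Q'.subtype
  have hs : Function.Surjective s := by
    intro y
    obtain ⟨y, rfl⟩ := QuotientGroup.mk_surjective y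
    have : π y ∈ N ⊔ Q := by rw [hQN]; trivial
    obtain ⟨n, hn, q, hq, e1⟩ := Subgroup.mem_sup_of_normal_left.1 this
    refine ⟨⟨(j ⟨n, hn⟩)⁻¹ * y, ?_⟩, ?_⟩
    · rw [hQ', Subgroup.mem_comap, map_mul, map_inv, hj, ← e1]; simpa using hq
    · change (((j ⟨n, hn⟩)⁻¹ * y : G') : G' ⧸ j.range) = y
      rw [QuotientGroup.mk_mul, (QuotientGroup.eq_one_iff _).2 (j.range.inv_mem ⟨_, rfl⟩), one_mul]
  have hker : s.ker ≤ ν.ker := by
    intro y hy
    obtain ⟨n, hn⟩ := (QuotientGroup.eq_one_iff _).1 hy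
    have e1 : (ρ y : G) = n := by change π y = n; rw [← hj, hn]; rfl
    have e2 : (ρ y : G) ∈ N := e1 ▸ n.2
    have e3 : Subgroup.inclusion hQE' y = κ ⟨ρ y, hQE (ρ y).2, e2⟩ := by
      ext
      rw [hκv]
      exact hn.symm.trans (congrArg j (Subtype.ext e1.symm))
    rw [MonoidHom.mem_ker]
    change detHom χ (Subgroup.inclusion hQE' y) * (lam (ρ y) ^ e)⁻¹ = 1
    rw [e3, hd1, hlam _ e2, mul_inv_cancel]
  let Λ : G' →* ℂˣ := (s.liftOfSurjective hs ⟨ν, hker⟩).comp (QuotientGroup.mk' j.range)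
  have hΛ1 : ∀ n, Λ (j n) = 1 := fun n => by
    change s.liftOfSurjective hs ⟨ν, hker⟩ (j n : G' ⧸ j.range) = 1
    rw [(QuotientGroup.eq_one_iff (N := j.range) (j n)).2 ⟨_, rfl⟩, map_one]
  have hΛ2 : ∀ a : π.ker, Λ a = μ a ^ e := fun a => by
    have ha : (a : G') ∈ Q' := by
      rw [hQ', Subgroup.mem_comap, MonoidHom.mem_ker.1 a.2]; exact Q.one_mem
    have e1 : Λ a = ν ⟨a, ha⟩ := s.liftOfRightInverse_comp_apply _ (Function.rightInverse_surjInv hs) ⟨ν, hker⟩ ⟨a, ha⟩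
    have e2 : ρ ⟨a, ha⟩ = 1 := Subtype.ext a.2
    rw [e1]
    change detHom χ (Subgroup.inclusion hkE a) * (lam (ρ ⟨a, ha⟩) ^ e)⁻¹ = _
    rw [hd2, e2, map_one, one_pow, inv_one, mul_one]
  obtain ⟨w, hw⟩ : ∃ w, e * w ≡ 1 [MOD p ^ k] :=
    Nat.exists_mul_mod_eq_of_coprime 1 (((Nat.Prime.coprime_iff_not_dvd hp).2 h3).symm.pow_right k)
      (pow_ne_zero _ hp.ne_zero) |>.imp fun w h => h.2
  have hirr := irr_mul_linear hθ' (char_linFun (Λ ^ w)⁻¹) (linFun_one_apply _)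
  obtain ⟨β, hβ, h5⟩ := exists_deflate hπ hirr (fun x hx => by
    have e1 := hμ ⟨x, hx⟩ 1
    have e2 := hΛ2 ⟨x, hx⟩
    simp only [mul_one] at e1 e2
    simp only [Pi.mul_apply, linFun_apply, MonoidHom.inv_apply, MonoidHom.pow_apply, map_one]
    rw [e1, e2, ← pow_mul, pow_eq_pow_of_modEq hw (hμp _)]
    simp only [pow_one, one_pow, inv_one, Units.val_one, mul_one, Units.val_inv_eq_inv_val]
    field_simp)
  refine ⟨β, hβ, fun n => ?_⟩
  have := congrFun h5 (j n)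
  simp only [Pi.mul_apply, linFun_apply, MonoidHom.inv_apply, MonoidHom.pow_apply, hΛ1, hj, hθj] at this
  simpa using this.symm

/-- Let N be a normal subgroup of the finite group G with the index of N a power of the prime p, and P a Sylow p-subgroup of G such that P ⊓ N lies in the centre of P and every character of degree 1 of P ⊓ N is the restriction of a character of degree 1 of P. Then every irreducible character of N invariant under conjugation by G is the restriction of an irreducible character of G. -/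
theorem result {G : Type*} [Group G] [Fintype G] (p : ℕ) [Fact p.Prime] (N : Subgroup G) [hN : N.Normal] (hind : ∃ k : ℕ, N.index = p ^ k) (P : Sylow p G) (hcent : ∀ x ∈ (P : Subgroup G) ⊓ N, ∀ y ∈ (P : Subgroup G), x * y = y * x) (hlin : ∀ lam : ↥((P : Subgroup G) ⊓ N) → ℂ, Cfsg.IsCharacter ↥((P : Subgroup G) ⊓ N) lam → lam 1 = 1 → ∃ μ : ↥(P : Subgroup G) → ℂ, Cfsg.IsCharacter ↥(P : Subgroup G) μ ∧ μ 1 = 1 ∧ ∀ x : ↥((P : Subgroup G) ⊓ N), μ ⟨(x : G), x.2.1⟩ = lam x) (ϑ : N → ℂ) (hϑ : Cfsg.IsIrrCharacter N ϑ) (hinv : ∀ (g : G) (n : N), ϑ ⟨g * n * g⁻¹, hN.conj_mem (n : G) n.2 g⟩ = ϑ n) : ∃ χ : G → ℂ, Cfsg.IsIrrCharacter G χ ∧ ∀ n : N, χ n = ϑ n := by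
  classical
  have hp : p.Prime := Fact.out
  have hinv' := (inv_subtype_iff N (isNE_subtype N) ϑ).2 hinv
  obtain ⟨E, φ, ⟨x, hx, hxp, l, hl⟩, h2, h3, h4, m, h5, h6⟩ := S0896.main p hp N hind ϑ hϑ hinv'
  obtain ⟨k, hk⟩ := hind
  obtain ⟨S⟩ : Nonempty (Sylow p E) := inferInstance
  set Q := (S : Subgroup E).map E.subtype with hQ
  have hQE : Q ≤ E := Subgroup.map_subtype_le _
  obtain ⟨P', hP'⟩ := (S.isPGroup'.map E.subtype).exists_le_sylow
  obtain ⟨g, rfl⟩ := MulAction.exists_smul_eq G P P'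
  have hcj : ∀ q ∈ Q, g⁻¹ * q * g ∈ (P : Subgroup G) := fun q hq => by
    have := hP' hq
    rw [Sylow.coe_subgroup_smul, Subgroup.mem_pointwise_smul_iff_inv_smul_mem] at this
    simpa using this
  have hcomm : ∀ a ∈ Q, a ∈ N → ∀ b ∈ Q, a * b = b * a := fun a ha haN b hb => by
    have := hcent _ ⟨hcj a ha, hN.conj_mem' a haN g⟩ _ (hcj b hb)
    calc a * b = g * (g⁻¹ * a * g * (g⁻¹ * b * g)) * g⁻¹ := by group
      _ = b * a := by rw [this]; group
  have hxN : (x : G) ∈ N := by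
    rw [← QuotientGroup.eq_one_iff, ← orderOf_eq_one_iff]
    have e1 : orderOf ((x : G) : G ⧸ N) ∣ orderOf x := by
      rw [← Subgroup.orderOf_coe]; exact orderOf_map_dvd (QuotientGroup.mk' N) _
    have e2 := orderOf_dvd_natCard ((x : G) : G ⧸ N)
    rw [← Subgroup.index_eq_card, hk] at e2
    exact Nat.eq_one_of_dvd_coprimes (hxp.pow_right k) e1 e2
  haveI : (Subgroup.zpowers x).Normal := normal_of_le_center' ((Subgroup.zpowers_le).2 hx)
  have hdec : ∀ e ∈ E, ∃ (i : ℤ) (q : G), q ∈ Q ∧ e = (x : G) ^ i * q := by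
    intro e he
    have h7 : Subgroup.zpowers x ⊔ (S : Subgroup E) = ⊤ := by
      rw [← Subgroup.index_eq_one]
      refine Nat.eq_one_of_dvd_coprimes (a := p ^ l) (b := (S : Subgroup E).index) ?_
        (hl ▸ Subgroup.index_dvd_of_le le_sup_left) (Subgroup.index_dvd_of_le le_sup_right)
      exact ((Nat.Prime.coprime_iff_not_dvd hp).2 S.not_dvd_index).pow_left l
    have : (⟨e, he⟩ : E) ∈ Subgroup.zpowers x ⊔ (S : Subgroup E) := by rw [h7]; trivial
    obtain ⟨_, ⟨i, rfl⟩, q, hq, e1⟩ := Subgroup.mem_sup_of_normal_left.1 this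
    exact ⟨i, q, ⟨q, hq, rfl⟩, by simpa using (congrArg Subtype.val e1).symm⟩
  have hxc : ∀ e ∈ E, Commute (x : G) e := fun e he =>
    (congrArg Subtype.val (Subgroup.mem_center_iff.1 hx ⟨e, he⟩)).symm
  have hQN : N ⊔ Q = ⊤ := by
    rw [eq_top_iff, ← h2]
    refine sup_le (fun e he => ?_) le_sup_left
    obtain ⟨i, q, hq, rfl⟩ := hdec e he
    exact Subgroup.mul_mem_sup (N.zpow_mem hxN i) hq
  have hD : ∀ a b : ↥(E ⊓ N), a * b = b * a := by
    rintro ⟨a, haE, haN⟩ ⟨b, hbE, hbN⟩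
    obtain ⟨i, q, hq, rfl⟩ := hdec a haE
    obtain ⟨i', q', hq', rfl⟩ := hdec b hbE
    have hqN : q ∈ N := (N.mul_mem_cancel_left (N.zpow_mem hxN i)).1 haN
    ext
    refine Commute.mul_left ((hxc _ hbE).zpow_left i) (Commute.mul_right ((hxc _ (hQE hq)).zpow_left i').symm ?_)
    exact hcomm q hq hqN q' hq'
  obtain ⟨φ, rfl⟩ := exists_linFun (irr_char h3) (irr_one_eq_one_of_comm hD h3)
  letI : CommGroup ↥((P : Subgroup G) ⊓ N) :=
    { (inferInstance : Group ↥((P : Subgroup G) ⊓ N)) with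
      mul_comm := fun a b => Subtype.ext (hcent a a.2 b b.2.1) }
  letI : CommGroup ↥(Q ⊓ N) :=
    { (inferInstance : Group ↥(Q ⊓ N)) with
      mul_comm := fun a b => Subtype.ext (hcomm a a.2.1 a.2.2 b b.2.1) }
  let c : G →* G := (MulAut.conj g⁻¹).toMonoidHom
  have hc : ∀ y, c y = g⁻¹ * y * g := fun y => by simp [c]
  let i : ↥(Q ⊓ N) →* ↥((P : Subgroup G) ⊓ N) := (c.comp (Q ⊓ N).subtype).codRestrict _ fun y => by
    rw [MonoidHom.comp_apply, hc]; exact ⟨hcj _ y.2.1, hN.conj_mem' _ y.2.2 g⟩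
  have hi : Function.Injective i := fun a b h =>
    Subtype.ext ((MulAut.conj g⁻¹).injective (congrArg Subtype.val h))
  obtain ⟨ψ, hψ⟩ := exists_hom_ext_comm i hi (φ.comp (Subgroup.inclusion (inf_le_inf_right N hQE)))
  obtain ⟨μ, hμ1, hμ2, hμ3⟩ := hlin (linFun ψ) (char_linFun ψ) (linFun_one_apply ψ)
  obtain ⟨μ, rfl⟩ := exists_linFun hμ1 hμ2
  let i' : Q →* (P : Subgroup G) := (c.comp Q.subtype).codRestrict _ fun y => by
    rw [MonoidHom.comp_apply, hc]; exact hcj _ y.2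
  refine core p hp N hk ϑ hϑ hinv' E Q hQE hQN φ h4 h5 h6 (μ.comp i') fun y hy => ?_
  have e1 := hμ3 (i ⟨y, y.2, hy⟩)
  rw [linFun_apply, linFun_apply, hψ] at e1
  exact Units.ext e1

end Cfsg.Agent.S0897
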