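import Cfsg.Statements.S0898
import Mathlib
import Cfsg.Agent.H7.Gallagher
import Cfsg.Agent.H6.Except
import Cfsg.Agent.H6.Central
-- import your own Cfsg.Agent.* helpers here

set_option autoImplicit false
open Cfsg

namespace Cfsg.Agent.S0898


open Cfsg.Agent.H7 Cfsg.Agent.H6

theorem sum_sq_eq {G : Type*} [Group G] [Fintype G] {φ : G → ℂ} {r : ℂ} (h : ip φ φ = r) :
    ∑ g, ‖φ g‖ ^ 2 = Nat.card G * r.re := by
  rw [ip_self_eq_ofReal] at h
  rw [← h, Complex.ofReal_re]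
  have : (Nat.card G : ℝ) ≠ 0 := by exact_mod_cast Nat.card_pos.ne'
  field_simp

theorem loc {G : Type*} [Group G] [Fintype G] (K : Subgroup G) [K.Normal] [Fintype K] {ψ : G → ℂ}
    (hψ : IsCharacter G ψ) (hk : ¬ K ≤ charKer ψ) (X : Finset G)
    (hX : ∀ g, g ∉ X → ∀ k ∈ K, k * g = g * k → k = 1) :
    (Nat.card G : ℝ) + ∑ g ∈ X, ‖(Nat.card K : ℂ)⁻¹ * ∑ k : K, ψ (k * g)‖ ^ 2 ≤ ∑ g ∈ X, ‖ψ g‖ ^ 2 := by
  classical
  set π := QuotientGroup.mk' K
  have hπ : Function.Surjective π := QuotientGroup.mk'_surjective K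
  have hker : π.ker = K.subtype.range := by rw [QuotientGroup.ker_mk', Subgroup.range_subtype]
  set α : G → ℂ := fun g => ind π ψ (π g) with hα
  have hαv : ∀ g, α g = (Nat.card K : ℂ)⁻¹ * ∑ k : K, ψ (k * g) := fun g =>
    ind_quot_apply K.subtype_injective hπ hker (char_cf hψ) g
  have hαc : IsCharacter G α := char_comp π (char_ind π hψ)
  have h1 : ip α ψ = ip α α := by
    rw [hα, ip_comp_surjective π hπ, ip_ind_right π ψ (ind_cf _ _)]
  have h1' : ip ψ α = ip α α := by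
    rw [← ip_conj_symm, h1, ip_conj_symm]
  have h2 : ip (ψ - α) (ψ - α) = ip ψ ψ - ip α α := by
    rw [ip_sub_left, ip_sub_right, ip_sub_right, h1, h1']; ring
  obtain ⟨n, hn⟩ := classInner_self_nat (isGen_sub (isGen_of_isCharacter hψ) (isGen_of_isCharacter hαc))
  rw [← ip_eq_classInner] at hn
  have hn0 : n ≠ 0 := by
    rintro rfl
    have h3 := eq_zero_of_ip_self (hn.trans Nat.cast_zero)
    apply hk
    intro k hk'
    rw [mem_charKer_iff hψ, sub_eq_zero.1 h3, hα]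
    simp only [map_one]
    rw [show π k = 1 from (QuotientGroup.eq_one_iff _).2 hk']
  have h4 : ∑ g, ‖ψ g‖ ^ 2 = ∑ g, ‖α g‖ ^ 2 + Nat.card G * n := by
    rw [sum_sq_eq (φ := ψ) (r := ip α α + n) (by rw [← hn, h2]; ring), sum_sq_eq (φ := α) rfl]
    simp [mul_add]
  have h5 : ∑ g ∈ Xᶜ, ‖ψ g‖ ^ 2 = ∑ g ∈ Xᶜ, ‖α g‖ ^ 2 := by
    refine Finset.sum_congr rfl fun g hg => ?_
    rw [hαv, Finset.sum_congr rfl (g := fun _ => ψ g) (fun k _ => by
      obtain ⟨x, -, hx⟩ := exists_conj_eq_mul K (hX g (Finset.mem_compl.1 hg)) k.2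
      rw [← hx]; exact char_cf hψ _ _), Finset.sum_const, Finset.card_univ, ← Nat.card_eq_fintype_card,
      nsmul_eq_mul, inv_mul_cancel_left₀ (card_ne_zero' K)]
  rw [← Finset.sum_add_sum_compl X, ← Finset.sum_add_sum_compl X, h5] at h4
  simp only [← hαv]
  have h6 : (1 : ℝ) ≤ n := by exact_mod_cast Nat.pos_of_ne_zero hn0
  have h7 : (0 : ℝ) ≤ Nat.card G := Nat.cast_nonneg _
  nlinarith

theorem ti_sum {G : Type*} [Group G] [Fintype G] (N : Subgroup G) (Y W : Finset G) (F : G → ℝ)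
    (h0 : ∀ g, 0 ≤ F g) (hF : ∀ t g, F (t * g * t⁻¹) = F g) (hW : ∀ t, ∀ y ∈ Y, t * y * t⁻¹ ∈ W)
    (hY : ∀ t, ∀ y ∈ Y, t * y * t⁻¹ ∈ Y → t ∈ N) :
    Nat.card G * ∑ y ∈ Y, F y ≤ Nat.card N * ∑ w ∈ W, F w := by
  classical
  have h1 : Nat.card G * ∑ y ∈ Y, F y = ∑ t : G, ∑ w ∈ W, if t⁻¹ * w * t ∈ Y then F w else 0 := by
    rw [Nat.card_eq_fintype_card, ← nsmul_eq_mul, ← Finset.card_univ, ← Finset.sum_const]
    refine Finset.sum_congr rfl fun t _ => ?_
    rw [← Finset.sum_filter]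
    refine Finset.sum_bij' (fun y _ => t * y * t⁻¹) (fun w _ => t⁻¹ * w * t) ?_ ?_ ?_ ?_ ?_
    · intro y hy
      exact Finset.mem_filter.2 ⟨hW t y hy, by simpa [mul_assoc] using hy⟩
    · intro w hw
      exact (Finset.mem_filter.1 hw).2
    · intro y _; group
    · intro y _; group
    · intro y _; exact (hF t y).symm
  rw [h1, Finset.sum_comm, Finset.mul_sum]
  refine Finset.sum_le_sum fun w _ => ?_
  rw [← Finset.sum_filter, Finset.sum_const, nsmul_eq_mul]
  refine mul_le_mul_of_nonneg_right ?_ (h0 w)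
  rw [Nat.cast_le]
  rcases (Finset.univ.filter fun t : G => t⁻¹ * w * t ∈ Y).eq_empty_or_nonempty with h | ⟨t0, h⟩
  · rw [h]; simp
  · letI := Fintype.ofFinite N
    rw [Nat.card_eq_fintype_card, Fintype.card_subtype]
    refine Finset.card_le_card_of_injOn (fun t => t⁻¹ * t0) ?_ ?_
    · intro t ht
      simp only [Finset.coe_filter, Finset.mem_univ, true_and, Set.mem_setOf_eq, Finset.mem_filter] at ht h ⊢
      refine hY _ _ h ?_
      convert ht using 1
      group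
    · intro a _ b _ e
      simpa using e

theorem partA {G : Type*} [Group G] [Finite G] (H : Subgroup G) (hab : ∀ a ∈ H, ∀ b ∈ H, a * b = b * a)
    (hZ : H ⊓ Subgroup.center G = ⊥)
    (hone : ∀ g : G, g ∉ Subgroup.center G → ∀ a b : G,
      Subgroup.centralizer ({g} : Set G) ⊓ H.map (MulAut.conj a).toMonoidHom ≠ ⊥ →
      Subgroup.centralizer ({g} : Set G) ⊓ H.map (MulAut.conj b).toMonoidHom ≠ ⊥ →
      H.map (MulAut.conj a).toMonoidHom = H.map (MulAut.conj b).toMonoidHom)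
    {χ : G → ℂ} (hχ : IsIrrCharacter G χ) (hker : ¬ H ≤ charKer χ) {d c : ℕ} (hd : χ 1 = d)
    (hc : ip (fun h : H => χ h) 1 = c) : Nat.card H * c ^ 2 < d ^ 2 := by
  classical
  letI := Fintype.ofFinite G
  set N := Subgroup.normalizer (H : Set G) with hN
  set Z := Subgroup.center G with hZ'
  have key : ∀ g, g ∉ Z → ∀ t, ∀ h ∈ H, h ≠ 1 → ∀ h' ∈ H, h' ≠ 1 → h * g = g * h →
      h' * (t * g * t⁻¹) = (t * g * t⁻¹) * h' → t ∈ N := by
    intro g hg t h hh h1 h' hh' h1' e e'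
    have := hone g hg 1 t⁻¹ (by
      rw [Subgroup.ne_bot_iff_exists_ne_one]
      refine ⟨⟨h, Subgroup.mem_centralizer_singleton_iff.2 e, h, hh, by simp⟩, fun e => h1 (congrArg Subtype.val e)⟩) (by
      rw [Subgroup.ne_bot_iff_exists_ne_one]
      refine ⟨⟨t⁻¹ * h' * t, Subgroup.mem_centralizer_singleton_iff.2 ?_, h', hh', by simp⟩, fun e => h1' ?_⟩
      · calc t⁻¹ * h' * t * g = t⁻¹ * (h' * (t * g * t⁻¹)) * t := by group
          _ = _ := by rw [e']; group
      · have := congrArg Subtype.val e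
        simp only [OneMemClass.coe_one] at this
        calc h' = t * (t⁻¹ * h' * t) * t⁻¹ := by group
          _ = 1 := by rw [this]; group)
    rw [hN, Subgroup.mem_normalizer_iff]
    intro x
    have h2 := SetLike.ext_iff.1 this x
    simp only [map_one, Subgroup.mem_map, MulEquiv.toMonoidHom_eq_coe, MonoidHom.coe_coe, MulAut.one_apply,
      exists_eq_right, MulAut.conj_apply, inv_inv] at h2
    rw [h2]
    constructor
    · rintro ⟨y, hy, rfl⟩
      simpa [mul_assoc] using hy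
    · intro hx
      exact ⟨_, hx, by group⟩
  have hZ1 : ∀ h ∈ H, h ∈ Z → h = 1 := fun h h1 h2 => by
    have : h ∈ H ⊓ Z := ⟨h1, h2⟩
    rwa [hZ, Subgroup.mem_bot] at this
  obtain ⟨h0, hh0, h01⟩ : ∃ h ∈ H, h ≠ 1 := by
    by_contra h
    push Not at h
    exact hker fun x hx => h x hx ▸ Subgroup.one_mem _
  set X := Finset.univ.filter fun g : G => ∃ h ∈ H, h ≠ 1 ∧ h * g = g * h with hX
  have hXN : ∀ g ∈ X, g ∈ N := fun g hg => by
    obtain ⟨h, hh, h1, e⟩ := (Finset.mem_filter.1 hg).2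
    exact key h (fun h2 => h1 (hZ1 h hh h2)) g h hh h1 h hh h1 rfl (by rw [← e]; group)
  set Zf := Finset.univ.filter (· ∈ Z) with hZf
  have hZX : Zf ⊆ X := fun z hz =>
    Finset.mem_filter.2 ⟨Finset.mem_univ _, h0, hh0, h01, Subgroup.mem_center_iff.1 (Finset.mem_filter.1 hz).2 _⟩
  have h1 := ti_sum N (X \ Zf) Zfᶜ (fun g => ‖χ g‖ ^ 2) (fun g => sq_nonneg _)
    (fun t g => by rw [irr_cf hχ]) (fun t y hy => by
      simp only [hZf, Finset.mem_sdiff, Finset.mem_compl, Finset.mem_filter, Finset.mem_univ, true_and] at hy ⊢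
      intro h
      exact hy.2 (((inferInstance : (Subgroup.center G).Normal).conj_mem' _ h t) |> fun h => by simpa [mul_assoc] using h))
    (fun t y hy hy' => by
      simp only [hZf, hX, Finset.mem_sdiff, Finset.mem_filter, Finset.mem_univ, true_and] at hy hy'
      obtain ⟨⟨h, hh, h1, e⟩, h2⟩ := hy
      obtain ⟨⟨h', hh', h1', e'⟩, -⟩ := hy'
      exact key y h2 t h hh h1 h' hh' h1' e e')
  obtain ⟨lam, hlam⟩ := exists_linear_of_le_center hχ Z le_rfl
  have hln : ∀ z : Z, ‖(lam z : ℂ)‖ = 1 := fun z =>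
    Complex.norm_eq_one_of_pow_eq_one (n := Nat.card Z) (by
      rw [← Units.val_pow_eq_pow_val, ← map_pow, pow_card_eq_one', map_one, Units.val_one]) Nat.card_pos.ne'
  have h2 : ∑ g ∈ Zf, ‖χ g‖ ^ 2 = Nat.card Z * (d : ℝ) ^ 2 := by
    rw [Finset.sum_congr rfl (g := fun _ => (d : ℝ) ^ 2) (fun z hz => by
      have := hlam ⟨z, (Finset.mem_filter.1 hz).2⟩ 1
      rw [mul_one] at this
      rw [this, norm_mul, hln, hd, one_mul, Complex.norm_natCast]), Finset.sum_const, nsmul_eq_mul,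
      Nat.card_eq_fintype_card, Fintype.card_subtype]
  have h3 := sum_norm_sq_irr hχ
  rw [← Finset.sum_add_sum_compl Zf, h2] at h3
  have h4 := Finset.sum_sdiff (f := fun g => ‖χ g‖ ^ 2) hZX
  rw [h2] at h4
  have hHN : H ≤ N := Subgroup.le_normalizer
  haveI : (H.subgroupOf N).Normal := Subgroup.normal_in_normalizer
  have h5 := loc (H.subgroupOf N) (ψ := fun g : N => χ g) (char_comp N.subtype (irr_char hχ))
    (fun h => hker fun x hx => by
      have := h (show (⟨x, hHN hx⟩ : N) ∈ H.subgroupOf N from hx)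
      rwa [charKer_restrict N (irr_char hχ)] at this) (X.subtype (· ∈ N)) (fun g hg k hk e => by
      by_contra h
      exact hg (Finset.mem_subtype.2 (Finset.mem_filter.2 ⟨Finset.mem_univ _, k, hk,
        fun e => h (Subtype.ext e), congrArg Subtype.val e⟩)))
  rw [Finset.sum_subtype_of_mem (fun g => ‖χ g‖ ^ 2) hXN] at h5
  have h6 : ∀ g : N, (Nat.card (H.subgroupOf N) : ℂ)⁻¹ * ∑ k : H.subgroupOf N, χ ((k : N) * g : N) =
      (Nat.card H : ℂ)⁻¹ * ∑ k : H, χ (k * g) := fun g => by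
    rw [Nat.card_congr (Subgroup.subgroupOfEquivOfLe hHN).toEquiv]
    congr 1
    exact Fintype.sum_equiv (Subgroup.subgroupOfEquivOfLe hHN).toEquiv _ _ fun _ => rfl
  simp only [h6] at h5
  rw [Finset.sum_subtype_of_mem (fun g => ‖(Nat.card H : ℂ)⁻¹ * ∑ k : H, χ (k * g)‖ ^ 2) hXN] at h5
  have h7 : (Nat.card H : ℝ) * Nat.card Z * (c : ℝ) ^ 2 ≤
      ∑ g ∈ X, ‖(Nat.card H : ℂ)⁻¹ * ∑ k : H, χ (k * g)‖ ^ 2 := by
    have hinj : Function.Injective fun q : H × Z => (q.1 : G) * q.2 := by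
      rintro ⟨a, z⟩ ⟨b, w⟩ e
      simp only at e
      have e1 : (b : G)⁻¹ * a = w * (z : G)⁻¹ := by
        calc (b : G)⁻¹ * a = (b : G)⁻¹ * (a * z) * (z : G)⁻¹ := by group
          _ = _ := by rw [e]; group
      have e2 := hZ1 _ (H.mul_mem (H.inv_mem b.2) a.2) (e1 ▸ Z.mul_mem w.2 (Z.inv_mem z.2))
      rw [e2] at e1
      exact Prod.ext (Subtype.ext (inv_mul_eq_one.1 e2).symm) (Subtype.ext (mul_inv_eq_one.1 e1.symm).symm)
    refine le_trans (le_of_eq ?_) (Finset.sum_le_sum_of_subset_of_nonneg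
      (s := Finset.univ.image fun q : H × Z => (q.1 : G) * q.2) ?_ fun _ _ _ => sq_nonneg _)
    · rw [Finset.sum_image fun a _ b _ e => hinj e, Finset.sum_congr rfl (g := fun _ => (c : ℝ) ^ 2),
        Finset.sum_const, Finset.card_univ, Fintype.card_prod, nsmul_eq_mul, Nat.card_eq_fintype_card,
        Nat.card_eq_fintype_card, Nat.cast_mul]
      rintro ⟨a, z⟩ -
      have e1 : ∑ k : H, χ (k * (a * z)) = lam z * ∑ k : H, χ k := by
        rw [Finset.mul_sum]
        refine Fintype.sum_equiv (Equiv.mulRight a) _ _ fun k => ?_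
        rw [← hlam, ← mul_assoc, Subgroup.mem_center_iff.1 z.2]
        rfl
      rw [ip_def] at hc
      simp only [Pi.one_apply, map_one, mul_one] at hc
      rw [e1, mul_left_comm, hc, norm_mul, hln, one_mul, Complex.norm_natCast]
    · intro g hg
      obtain ⟨⟨a, z⟩, -, rfl⟩ := Finset.mem_image.1 hg
      refine Finset.mem_filter.2 ⟨Finset.mem_univ _, h0, hh0, h01, ?_⟩
      simp only
      rw [← mul_assoc, hab h0 hh0 a a.2, mul_assoc, mul_assoc, Subgroup.mem_center_iff.1 z.2]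
  have p1 : (0 : ℝ) < Nat.card G := by exact_mod_cast Nat.card_pos
  have p2 : (0 : ℝ) < Nat.card N := by exact_mod_cast Nat.card_pos
  have p3 : (0 : ℝ) < Nat.card Z := by exact_mod_cast Nat.card_pos
  have p4 : (0 : ℝ) < d := by
    have := irr_one_ne_zero hχ
    rw [hd, Nat.cast_ne_zero] at this
    exact_mod_cast Nat.pos_of_ne_zero this
  have h8 : (Nat.card G : ℝ) * (Nat.card N + Nat.card H * Nat.card Z * c ^ 2 - Nat.card Z * d ^ 2) ≤
      Nat.card N * (Nat.card G - Nat.card Z * d ^ 2) := by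
    refine le_trans (mul_le_mul_of_nonneg_left (by linarith) p1.le) (h1.trans (le_of_eq ?_))
    congr 1
    linarith
  have h9 : (Nat.card G : ℝ) * Nat.card Z * (Nat.card H * c ^ 2) < Nat.card G * Nat.card Z * d ^ 2 := by
    have := mul_pos p2 (mul_pos p3 (pow_pos p4 2))
    nlinarith
  exact_mod_cast lt_of_mul_lt_mul_left h9 (mul_pos p1 p3).le

theorem partB {G : Type*} [Group G] [Finite G] (H : Subgroup G) (hab : ∀ a ∈ H, ∀ b ∈ H, a * b = b * a)
    (hZ : H ⊓ Subgroup.center G = ⊥)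
    (hone : ∀ g : G, g ∉ Subgroup.center G → ∀ a b : G,
      Subgroup.centralizer ({g} : Set G) ⊓ H.map (MulAut.conj a).toMonoidHom ≠ ⊥ →
      Subgroup.centralizer ({g} : Set G) ⊓ H.map (MulAut.conj b).toMonoidHom ≠ ⊥ →
      H.map (MulAut.conj a).toMonoidHom = H.map (MulAut.conj b).toMonoidHom)
    {χ : G → ℂ} (hχ : IsIrrCharacter G χ) {d : ℕ} (hd : χ 1 = d) (hd1 : d ≠ 1)
    (hM : ∀ M : Subgroup G, M.Normal → H ≤ M → M = ⊤) : Nat.card H < (1 + d) ^ 2 := by
  classical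
  have hθ := char_mul_star_sub_one hχ
  set θ := χ * star χ - 1 with hθ'
  have hd0 : d ≠ 0 := by
    have := irr_one_ne_zero hχ
    rwa [hd, Nat.cast_ne_zero] at this
  have e1 : ip θ 1 = 0 := by rw [hθ', ip_sub_left, ip_one_right_eq, ip_irr_self hχ, ip_one_one, sub_self]
  have hψ : ∀ ψ, IsIrrCharacter G ψ → ∃ n a c : ℕ, ip θ ψ = n ∧ ψ 1 = a ∧ ip (fun h : H => ψ h) 1 = c ∧
      (n ≠ 0 → √(Nat.card H) * c < a) := fun ψ hψ => by
    obtain ⟨n, hn⟩ := ip_char_nat hθ (irr_char hψ)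
    obtain ⟨a, ha⟩ := char_one_nat (irr_char hψ)
    obtain ⟨c, hc⟩ := ip_char_nat (char_comp H.subtype (irr_char hψ)) char_one
    refine ⟨n, a, c, hn, ha, hc, fun h0 => ?_⟩
    have := partA H hab hZ hone hψ (fun h => h0 (by
      have h1 := irr_eq_one_of_charKer_eq_top hψ (hM _ (charKer_normal (irr_cf hψ)) h)
      rw [h1] at hn
      exact_mod_cast hn.symm.trans e1)) ha hc
    refine lt_of_pow_lt_pow_left₀ 2 (Nat.cast_nonneg _) ?_
    rw [mul_pow, Real.sq_sqrt (Nat.cast_nonneg _)]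
    exact_mod_cast this
  choose! n a c hn ha hc hlt using hψ
  have hexp := cf_expand (char_cf hθ)
  have e2 : ∑ ψ ∈ irrSet G, n ψ * a ψ + 1 = d ^ 2 := by
    have := congrFun hexp 1
    rw [Finset.sum_apply, Finset.sum_congr rfl (g := fun ψ => ((n ψ * a ψ : ℕ) : ℂ)) (fun ψ h => by
      rw [Pi.smul_apply, hn ψ (mem_irrSet.1 h), ha ψ (mem_irrSet.1 h), smul_eq_mul, Nat.cast_mul]),
      ← Nat.cast_sum] at this
    simp only [hθ', Pi.sub_apply, Pi.mul_apply, Pi.star_apply, hd, star_natCast, Pi.one_apply] at this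
    have h2 : ((∑ ψ ∈ irrSet G, n ψ * a ψ + 1 : ℕ) : ℂ) = (d ^ 2 : ℕ) := by
      rw [Nat.cast_add, ← this]; push_cast; ring
    exact_mod_cast h2
  have hχH : IsCharacter H fun h : H => χ h := char_comp H.subtype (irr_char hχ)
  have e3 : ip (fun h : H => χ h) (fun h : H => χ h) = (∑ ψ ∈ irrSet G, n ψ * c ψ + 1 : ℕ) := by
    have h1 : (fun h : H => θ h) = ∑ ψ ∈ irrSet G, ip θ ψ • fun h : H => ψ h := by
      funext h
      have := congrFun hexp h
      simp only [Finset.sum_apply, Pi.smul_apply] at this ⊢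
      exact this
    have h2 := congrArg (fun f => ip f 1) h1
    rw [ip_sum_left, Finset.sum_congr rfl (g := fun ψ => ((n ψ * c ψ : ℕ) : ℂ)) (fun ψ h => by
      rw [ip_smul_left, hn ψ (mem_irrSet.1 h), hc ψ (mem_irrSet.1 h), Nat.cast_mul]),
      ← Nat.cast_sum] at h2
    have h3 : (fun h : H => θ h) = (fun h : H => χ h) * star (fun h : H => χ h) - 1 := rfl
    rw [h3, ip_sub_left, ip_one_right_eq, ip_one_one] at h2
    rw [Nat.cast_add, ← h2]; simp
  have e4 : d ≤ ∑ ψ ∈ irrSet G, n ψ * c ψ + 1 := by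
    have h1 : ∀ φ, IsIrrCharacter H φ → ∃ m : ℕ, ip (fun h : H => χ h) φ = m :=
      fun φ hφ => ip_char_nat hχH (irr_char hφ)
    choose! m hm using h1
    rw [ip_expand (char_cf hχH), Finset.sum_congr rfl (g := fun φ => ((m φ * m φ : ℕ) : ℂ)) (fun φ h => by
      rw [hm φ (mem_irrSet.1 h), ip_natCast_comm (hm φ (mem_irrSet.1 h)), Nat.cast_mul]),
      ← Nat.cast_sum, Nat.cast_inj] at e3
    have h2 := congrFun (cf_expand (char_cf hχH)) 1
    rw [Finset.sum_apply, Finset.sum_congr rfl (g := fun φ => ((m φ : ℕ) : ℂ)) (fun φ h => by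
      rw [Pi.smul_apply, hm φ (mem_irrSet.1 h),
        irr_one_eq_one_of_comm (fun a b => Subtype.ext (hab a a.2 b b.2)) (mem_irrSet.1 h), smul_eq_mul, mul_one]),
      ← Nat.cast_sum] at h2
    simp only [OneMemClass.coe_one, hd, Nat.cast_inj] at h2
    rw [← e3, h2]
    exact Finset.sum_le_sum fun φ _ => Nat.le_mul_self _
  have e5 : √(Nat.card H) * (∑ ψ ∈ irrSet G, n ψ * c ψ : ℕ) < (∑ ψ ∈ irrSet G, n ψ * a ψ : ℕ) := by
    rw [Nat.cast_sum, Nat.cast_sum, Finset.mul_sum]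
    have h1 : ∃ ψ ∈ irrSet G, n ψ ≠ 0 := by
      by_contra h
      push Not at h
      rw [Finset.sum_eq_zero fun ψ hψ => by rw [h ψ hψ, zero_mul]] at e2
      have : 2 ≤ d := by omega
      nlinarith
    refine Finset.sum_lt_sum (fun ψ hψ => ?_) ?_
    · by_cases h0 : n ψ = 0
      · simp [h0]
      · have := hlt ψ (mem_irrSet.1 hψ) h0
        rw [Nat.cast_mul, Nat.cast_mul, mul_left_comm]
        exact mul_le_mul_of_nonneg_left this.le (Nat.cast_nonneg _)
    · obtain ⟨ψ, hψ, h0⟩ := h1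
      refine ⟨ψ, hψ, ?_⟩
      have := hlt ψ (mem_irrSet.1 hψ) h0
      rw [Nat.cast_mul, Nat.cast_mul, mul_left_comm]
      exact mul_lt_mul_of_pos_left this (by exact_mod_cast Nat.pos_of_ne_zero h0)
  generalize ∑ ψ ∈ irrSet G, n ψ * c ψ = u at *
  generalize ∑ ψ ∈ irrSet G, n ψ * a ψ = v at *
  have f1 : (d : ℝ) ≤ u + 1 := by exact_mod_cast e4
  have f2 : (v : ℝ) + 1 = d ^ 2 := by exact_mod_cast e2
  have f3 : (2 : ℝ) ≤ d := by exact_mod_cast (by omega : 2 ≤ d)
  have f4 := Real.sqrt_nonneg (Nat.card H : ℝ)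
  have f5 : √(Nat.card H) < 1 + d := by
    by_contra h
    push Not at h
    nlinarith
  have f6 : (Nat.card H : ℝ) < (1 + d) ^ 2 := by
    rw [← Real.sq_sqrt (Nat.cast_nonneg (Nat.card H))]
    exact pow_lt_pow_left₀ f5 f4 two_ne_zero
  exact_mod_cast f6

/-- Let H be an abelian subgroup of the finite group G meeting the centre of G trivially, such that for every non-central g the centralizer of g has nontrivial intersection with at most one conjugate of H. Let χ be an irreducible character of G with χ h ≠ χ 1 for some h in H, and let c be the inner product of the restriction of χ to H with the principal character. Then χ(1)² > (order of H)·c²; and if in addition χ 1 ≠ 1 and no proper normal subgroup of G contains H, then (1 + χ 1)² > order of H (both sides read as real numbers). -/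
theorem result {G : Type*} [Group G] [Fintype G] (H : Subgroup G) [Fintype H] (hab : ∀ a ∈ H, ∀ b ∈ H, a * b = b * a) (hZ : H ⊓ Subgroup.center G = ⊥) (hone : ∀ g : G, g ∉ Subgroup.center G → ∀ a b : G, Subgroup.centralizer ({g} : Set G) ⊓ H.map (MulAut.conj a).toMonoidHom ≠ ⊥ → Subgroup.centralizer ({g} : Set G) ⊓ H.map (MulAut.conj b).toMonoidHom ≠ ⊥ → H.map (MulAut.conj a).toMonoidHom = H.map (MulAut.conj b).toMonoidHom) (χ : G → ℂ) (hχ : Cfsg.IsIrrCharacter G χ) (hker : ∃ h ∈ H, χ h ≠ χ 1) : (χ 1).re ^ 2 > (Nat.card H : ℝ) * (Cfsg.classInner (fun h : H => χ h) (fun _ => 1)).re ^ 2 ∧ (χ 1 ≠ 1 → (∀ M : Subgroup G, M.Normal → H ≤ M → M = ⊤) → (1 + (χ 1).re) ^ 2 > (Nat.card H : ℝ)) := by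
  obtain ⟨d, hd⟩ := char_one_nat (irr_char hχ)
  obtain ⟨c, hc⟩ := ip_char_nat (char_comp H.subtype (irr_char hχ)) char_one
  constructor
  · have := partA H hab hZ hone hχ (fun h => by
      obtain ⟨x, hx, e⟩ := hker
      exact e ((mem_charKer_iff_irr hχ).1 (h hx))) hd hc
    rw [ip_eq_classInner] at hc
    have e : classInner (fun h : H => χ h) (fun _ => 1) = c := hc
    rw [e, hd, Complex.natCast_re, Complex.natCast_re]
    exact_mod_cast this
  · intro h1 hM
    have := partB H hab hZ hone hχ hd (fun e => h1 (by rw [hd, e, Nat.cast_one])) hM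
    rw [hd, Complex.natCast_re]
    exact_mod_cast this

end Cfsg.Agent.S0898
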