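import Cfsg.Statements.S4468
import Mathlib
import Cfsg.Agent.H1.ItoB

set_option autoImplicit false
open Cfsg

namespace Cfsg.Agent.S4468

open Cfsg.Agent.H1 Cfsg.Agent.FT Cfsg.Agent.H28 Subgroup Module
open scoped commutatorElement

/-- Let the finite p-solvable group G have a faithful character χ of degree n ≤ p − 1 and suppose that a Sylow p-subgroup of G is not normal. Then n = p − 1, n is a power of 2, and χ is irreducible. -/
theorem result {G : Type*} [Group G] [Finite G] (χ : G → ℂ) (hχ : Cfsg.IsCharacter G χ) (hfaith : ∀ g : G, χ g = χ 1 → g = 1) (n : ℕ) (hn : Cfsg.charDegree χ = n) (p : ℕ) (hp : p.Prime) (hsolv : Cfsg.IsPSolvable p G) (hnp : n + 1 ≤ p) (P : Sylow p G) (hP : ¬ (P : Subgroup G).Normal) : n + 1 = p ∧ (∃ k : ℕ, n = 2 ^ k) ∧ Cfsg.IsIrrCharacter G χ := by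
  obtain ⟨m, ρ, rfl⟩ := hχ
  obtain rfl : m = n := by simpa [charDegree] using hn
  have hf : Function.Injective ρ := (injective_iff_map_eq_one _).2 fun g hg => hfaith g (by
    simp [Representation.character, hg])
  obtain ⟨q, Q, x, hq, hne, hQ, hx, h1, h2⟩ := exists_pq_noncent hp (psol_top hp hsolv) (syl_top hp P)
    (mt nml_top_iff.1 hP)
  have key : ∀ U, RInv ρ ⊤ U → ¬ ⁅Q, ⟪x⟫⁆ ≤ rcent ρ U → m + 1 = p ∧ (∃ k : ℕ, m = 2 ^ k) ∧ U = ⊤ := fun U a1 a2 => by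
    have a3 := U.finrank_le
    rw [finrank_fin_fun] at a3
    obtain a4 | ⟨-, k, a4, a5⟩ := ito_aux hp hq hne (Nat.cast_ne_zero.2 hq.ne_zero) _ ρ U Q x rfl h1 hQ hx
      (a1.mono le_top) a2
    · omega
    · exact ⟨by omega, ⟨k, by omega⟩, Submodule.eq_top_of_finrank_eq (by rw [finrank_fin_fun]; omega)⟩
  have h3 : ¬ ⁅Q, ⟪x⟫⁆ ≤ rcent ρ ⊤ := by rwa [rcent_top hf, le_bot_iff, comm_eq_bot]
  obtain ⟨a1, a2, -⟩ := key ⊤ (rInv_top _ _) h3
  refine ⟨a1, a2, m, ρ, ?_, rfl⟩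
  have h0 : (⊥ : Submodule ℂ (Fin m → ℂ)) ≠ ⊤ := fun e => h3 fun g _ v hv => by
    rw [(Submodule.mem_bot ℂ).1 (e.ge hv), map_zero]
  haveI : Nontrivial (Subrepresentation ρ) := ⟨⊥, ⊤, fun h => h0 (congrArg Subrepresentation.toSubmodule h)⟩
  refine ⟨fun σ => or_iff_not_imp_right.2 fun h => Subrepresentation.toSubmodule_injective ?_⟩
  have b1 : RInv ρ ⊤ σ.toSubmodule := fun g _ v hv => σ.apply_mem_toSubmodule g hv
  obtain ⟨W, b2, b3⟩ := exists_rCompl ρ ⊤ (Nat.cast_ne_zero.2 (card_ne_zero _)) b1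
  have b4 : ⁅Q, ⟪x⟫⁆ ≤ rcent ρ σ.toSubmodule := by_contra fun c =>
    h (Subrepresentation.toSubmodule_injective (key _ b1 c).2.2)
  obtain rfl := (key W b2 fun c => h3 fun g hg v _ => by
    obtain ⟨a, ha, b, hb, rfl⟩ := Submodule.mem_sup.1 (b3.sup_eq_top.ge (Submodule.mem_top (x := v)))
    rw [map_add, b4 hg a ha, c hg b hb]).2.2
  exact disjoint_top.1 b3.disjoint

end Cfsg.Agent.S4468
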