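import Cfsg.Statements.S0899
import Mathlib
import Cfsg.Agent.S0898
import Cfsg.Agent.S4468
import Cfsg.Agent.FT.BG01
-- import your own Cfsg.Agent.* helpers here

set_option autoImplicit false
open Cfsg

namespace Cfsg.Agent.S0899


open Subgroup Cfsg.Agent.FT Cfsg.Agent.H7 Cfsg.Agent.H6
open scoped commutatorElement

theorem psol_one {G : Type*} [Group G] {p : ℕ} (h : (∃ m, Nat.card G = p ^ m) ∨ (Nat.card G).Coprime p) :
    IsPSolvable p G := by
  refine ⟨1, ![⊥, ⊤], rfl, rfl, ?_, ?_, ?_⟩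
  · intro i j hij
    fin_cases i <;> fin_cases j <;> simp_all
  · intro i
    fin_cases i
    · exact Subgroup.normal_bot
    · exact Subgroup.normal_top
  · intro i
    fin_cases i
    simpa using h

theorem comm_of_lin {G : Type*} [Group G] [Finite G] {χ : G → ℂ} (hχ : IsCharacter G χ)
    (hf : ∀ g, χ g = χ 1 → g = 1) (h : ∀ ψ, IsIrrCharacter G ψ → ip χ ψ ≠ 0 → ψ 1 = 1) (a b : G) :
    a * b = b * a := by
  letI := Fintype.ofFinite G
  rw [← commutatorElement_eq_one_iff_mul_comm]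
  refine hf _ ((mem_charKer_iff hχ).1 (mem_charKer_of_forall_constituent (char_cf hχ) fun ψ hψ h0 => ?_))
  exact (degree_eq_one_iff_commutator_le hψ).1 (h ψ hψ (by rwa [ip_eq_classInner]))
    (commutator_mem_commutator (mem_top a) (mem_top b))

theorem core {G : Type*} [Group G] [Finite G] {p n : ℕ} (hp : p.Prime) {χ : G → ℂ} (hχ : IsCharacter G χ)
    (hn : χ 1 = n) (hf : ∀ g, χ g = χ 1 → g = 1) (hnp : n + 1 < p)
    (hprop : ∀ K Q : Subgroup G, K ≠ ⊤ → Syl p Q K → Q ⊴ K) (h2 : (n + 1) ^ 2 ≤ p ∨ p ^ 2 ∣ Nat.card G)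
    {P : Subgroup G} (hP : Syl p P ⊤) : P ⊴ ⊤ := by
  by_contra hno
  have hdeg : ∀ {H : Type _} [Group H] [Finite H] (f : H →* G) (ψ : H → ℂ), IsIrrCharacter H ψ →
      ip (fun x => χ (f x)) ψ ≠ 0 → ∃ d : ℕ, ψ 1 = d ∧ d ≤ n := by
    intro H _ _ f ψ hψ h0
    obtain ⟨d, hd⟩ := char_one_nat (irr_char hψ)
    obtain ⟨m, hm⟩ := ip_char_nat (char_comp f hχ) (irr_char hψ)
    have := degree_le_of_ip (char_comp f hχ) hψ hm (a := n) (by simpa using hn) hd
    have hm0 : m ≠ 0 := by rintro rfl; exact h0 (by simpa using hm)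
    exact ⟨d, hd, (Nat.le_mul_of_pos_left d (Nat.pos_of_ne_zero hm0)).trans this⟩
  have hperf : ⁅(⊤ : Subgroup G), (⊤ : Subgroup G)⁆ = ⊤ := by
    by_contra h
    obtain ⟨T, rfl⟩ := (syl_top_iff hp).1 hP
    have hs : IsPSolvable p G := by
      refine H1.isPSolvable_of_normal_of_quotient hp (commutator G) ?_ (H1.isPSolvable_of_isSolvable hp ?_)
      · obtain ⟨Q, hQ⟩ := exists_syl p (commutator G)
        haveI : (Q.subgroupOf (_root_.commutator G)).Normal := (hprop (_root_.commutator G) Q h hQ).normal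
        refine H1.isPSolvable_of_normal_of_quotient hp (Q.subgroupOf (commutator G)) (psol_one (Or.inl ?_))
          (psol_one (Or.inr ?_))
        · rw [card_so hQ.le]; exact hQ.pi.card
        · exact ((Nat.Prime.coprime_iff_not_dvd hp).2 (hQ.not_dvd hp)).symm
      · exact isSolvable_of_comm fun a b => (Abelianization.commGroup G).mul_comm a b
    have := (S4468.result χ hχ hf n (by simp [charDegree, hn]) p hp hs hnp.le T (mt nml_top_iff.2 hno)).1
    omega
  have hab : ∀ S : Subgroup G, Syl p S ⊤ → Ab S := fun S hS => by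
    refine ⟨⟨comm_of_lin (char_comp S.subtype hχ) (fun g hg => Subtype.ext (hf _ hg)) fun ψ hψ h0 => ?_⟩⟩
    obtain ⟨d, hd, hdn⟩ := hdeg S.subtype ψ hψ h0
    obtain ⟨k, hk⟩ := hS.pi.card
    obtain ⟨j, -, rfl⟩ := (Nat.dvd_prime_pow hp).1 (hk ▸ degree_dvd_card hψ hd)
    rcases Nat.eq_zero_or_pos j with rfl | hj
    · simpa using hd
    · have := Nat.le_self_pow hj.ne' p
      omega
  have hZ : ∀ S : Subgroup G, Syl p S ⊤ → S ⊓ Subgroup.center G = ⊥ := fun S hS => by
    have := hS.isHall.inf_der_center_ab (hab S hS)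
    rwa [hperf, inf_top_eq, Subgroup.coe_top, Subgroup.centralizer_univ] at this
  have hC : ∀ g, g ∉ Subgroup.center G → C[g] ≠ ⊤ := fun g hg e => hg (by
    rw [Subgroup.mem_center_iff]
    intro x
    exact Subgroup.mem_centralizer_singleton_iff.1 (e.ge (mem_top x)))
  have hTI : ∀ S T : Subgroup G, Syl p S ⊤ → Syl p T ⊤ → ∀ x ∈ S, x ∈ T → x ≠ 1 → S = T := by
    intro S T hS hT x hxS hxT h1
    have h3 : x ∉ Subgroup.center G := fun h => h1 (mem_bot.1 ((hZ S hS).le ⟨hxS, h⟩))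
    have h4 : ∀ R, Syl p R ⊤ → x ∈ R → Syl p R C[x] := fun R hR hx =>
      hR.subl (fun y hy => Subgroup.mem_centralizer_singleton_iff.2 ((hab R hR).comm hy hx)) le_top
    exact (h4 T hT hxT).uniq_of_nml (hprop _ _ (hC x h3) (h4 T hT hxT)).nrm (h4 S hS hxS)
  have hcj : ∀ a : G, Syl p (P.map (MulAut.conj a).toMonoidHom) ⊤ := fun a => by
    have := hP.map (MulAut.conj a).toMonoidHom
    rwa [Subgroup.map_top_of_surjective _ (MulAut.conj a).surjective] at this
  obtain ⟨ψ, hψ, h0, h1⟩ : ∃ ψ, IsIrrCharacter G ψ ∧ ip χ ψ ≠ 0 ∧ ψ 1 ≠ 1 := by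
    by_contra h
    push Not at h
    exact hno ⟨le_top, fun g _ => by
      rw [Subgroup.mem_normalizer_iff]
      intro x
      rw [comm_of_lin hχ hf h g x, mul_inv_cancel_right]⟩
  obtain ⟨d, hd, hdn⟩ := hdeg (MonoidHom.id G) ψ hψ h0
  have key := S0898.partB P (fun a ha b hb => (hab P hP).comm ha hb) (hZ P hP) (fun g hg a b ha hb => by
    obtain ⟨⟨x, hx1, hx2⟩, hx3⟩ := Subgroup.ne_bot_iff_exists_ne_one.1 ha
    obtain ⟨⟨y, hy1, hy2⟩, hy3⟩ := Subgroup.ne_bot_iff_exists_ne_one.1 hb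
    obtain ⟨Q, hQ⟩ := exists_syl p C[g]
    have hQn := hprop _ _ (hC g hg) hQ
    obtain ⟨R, hR, hQR⟩ := hQ.pi.exists_syl le_top
    rw [hTI _ R (hcj a) hR x hx2 (hQR (hQ.mem_of_nml hQn.nrm hx1 ((hcj a).pi.piElt hx2)))
        (fun e => hx3 (Subtype.ext e)),
      hTI _ R (hcj b) hR y hy2 (hQR (hQ.mem_of_nml hQn.nrm hy1 ((hcj b).pi.piElt hy2)))
        (fun e => hy3 (Subtype.ext e))]) hψ hd (fun e => h1 (by rw [hd, e, Nat.cast_one]))
    (fun M hM hPM => by
      by_contra h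
      have h3 := hP.subl hPM le_top
      exact hno (h3.nml_trans (hprop _ _ h h3).nrm (nml_top_iff.2 hM)))
  have h5 : (1 + d) ^ 2 ≤ (n + 1) ^ 2 := Nat.pow_le_pow_left (by omega) 2
  have hP1 : P ≠ ⊥ := fun e => hno (e ▸ nml_bot ⊤)
  rcases h2 with h2 | h2
  · have := Nat.le_of_dvd Nat.card_pos (hP.pi.dvd hP1)
    omega
  · have h6 : p ^ 2 ≤ #P := by
      rw [hP.card_syl hp, Subgroup.card_top]
      exact Nat.pow_le_pow_right hp.pos ((hp.pow_dvd_iff_le_factorization Nat.card_pos.ne').1 h2)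
    have h7 : (n + 1) ^ 2 < p ^ 2 := Nat.pow_lt_pow_left hnp two_ne_zero
    omega

/-- Let G be a finite group with a faithful complex representation of degree n (on Fin n → ℂ) and p a prime. Suppose either that (n + 1) ^ 2 ≤ p, or that n + 1 < p and every subgroup of G whose order is not divisible by p ^ 2 has a normal Sylow p-subgroup. Then every Sylow p-subgroup of G is normal. -/
theorem result {G : Type*} [Group G] [Finite G] (n : ℕ) (ρ : Representation ℂ G (Fin n → ℂ)) (hρ : Function.Injective ρ) (p : ℕ) [Fact p.Prime] (h : (n + 1) ^ 2 ≤ p ∨ (n + 1 < p ∧ ∀ K : Subgroup G, ¬ p ^ 2 ∣ Nat.card K → ∀ Q : Sylow p K, (Q : Subgroup K).Normal)) (P : Sylow p G) : (P : Subgroup G).Normal := by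
  have hp : p.Prime := Fact.out
  have hχ : IsCharacter G ρ.character := ⟨n, ρ, rfl⟩
  have hn : ρ.character 1 = n := by simp
  have hf : ∀ g, ρ.character g = ρ.character 1 → g = 1 := fun g hg => by
    have := (mem_charKer_iff hχ).2 hg
    rwa [(charKer_eq_bot_iff_injective ρ).2 hρ, mem_bot] at this
  rcases Nat.eq_zero_or_pos n with rfl | hn0
  · have h0 := char_eq_zero_of_one hχ (by simpa using hn)
    refine ⟨fun x hx g => ?_⟩
    rw [hf (g * x * g⁻¹) (by rw [h0]; rfl)]
    exact one_mem _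
  have hnp : n + 1 < p := by
    rcases h with h | h
    · nlinarith
    · exact h.1
  have key : ∀ M Q : Subgroup G, Syl p Q M → Q ⊴ M := by
    intro M
    induction M using WellFoundedLT.induction with
    | ind M ih =>
    intro Q hQ
    obtain ⟨T, rfl⟩ := hQ.exists_sylow hp
    by_cases h2 : (n + 1) ^ 2 ≤ p ∨ p ^ 2 ∣ Nat.card M
    · haveI := nml_top_iff.1 (core hp (char_comp M.subtype hχ) hn (fun g hg => Subtype.ext (hf _ hg)) hnp
        (fun K Q hK hQ => by
          refine (map_nml_inj M.subtype_injective).1 (ih _ ?_ _ (hQ.map _))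
          refine lt_of_le_of_ne (Subgroup.map_subtype_le K) fun e => hK ?_
          exact Subgroup.map_injective M.subtype_injective (e.trans (map_subtype_top M).symm)) h2 (syl_top hp T))
      exact nml_map_subtype _
    · push Not at h2
      haveI := (h.resolve_left h2.1.not_ge).2 M h2.2 T
      exact nml_map_subtype _
  exact nml_top_iff.1 (key _ _ (syl_top hp P))

end Cfsg.Agent.S0899
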