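import Cfsg.Statements.S0900
import Mathlib
import Cfsg.Agent.H7.Gallagher

set_option autoImplicit false
open Cfsg

namespace Cfsg.Agent.S0900

open Cfsg.Agent.H7

/-- Let N be a normal subgroup of the finite group G, χ an irreducible character of G and ϑ an irreducible character of N having nonzero inner product with the restriction of χ. Consider: (a) the restriction of χ to N is e • ϑ for a natural number e with e ^ 2 equal to the index of N; (b) χ vanishes outside N and ϑ is invariant under conjugation by G; (c) ϑ is invariant and every irreducible character of G having nonzero inner product with the function induced from ϑ equals χ. Then (a) ↔ (b) and (a) ↔ (c). -/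
theorem result {G : Type*} [Group G] [Fintype G] (N : Subgroup G) [hN : N.Normal] [Fintype N] (χ : G → ℂ) (hχ : Cfsg.IsIrrCharacter G χ) (ϑ : N → ℂ) (hϑ : Cfsg.IsIrrCharacter N ϑ) (hcon : Cfsg.classInner (fun n : N => χ n) ϑ ≠ 0) : ((∃ e : ℕ, (fun n : N => χ n) = (e : ℂ) • ϑ ∧ e ^ 2 = N.index) ↔ ((∀ g : G, g ∉ N → χ g = 0) ∧ ∀ (g : G) (n : N), ϑ ⟨g * n * g⁻¹, hN.conj_mem (n : G) n.2 g⟩ = ϑ n)) ∧ ((∃ e : ℕ, (fun n : N => χ n) = (e : ℂ) • ϑ ∧ e ^ 2 = N.index) ↔ (∀ (g : G) (n : N), ϑ ⟨g * n * g⁻¹, hN.conj_mem (n : G) n.2 g⟩ = ϑ n ∧ ∀ ψ : G → ℂ, Cfsg.IsIrrCharacter G ψ → Cfsg.classInner (Cfsg.indFun N ϑ) ψ ≠ 0 → ψ = χ)) := by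
  have hf := isNE_subtype N
  simp only [← ip_eq_classInner, ← ind_subtype] at hcon ⊢
  have hidx : N.subtype.range.index = N.index := by rw [Subgroup.range_subtype]
  have hinv : ∀ e : ℕ, (fun n : N => χ n) = (e : ℂ) • ϑ → hf.Inv ϑ := fun e he =>
    hf.inv_of_res_eq_smul (irr_cf hχ) (c := e) (by
      rintro h0
      rw [he, h0, zero_smul, ip_zero_left] at hcon
      exact hcon rfl) he
  constructor
  · constructor
    · rintro ⟨e, h1, h2⟩
      refine ⟨?_, (inv_subtype_iff N hf ϑ).mp (hinv e h1)⟩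
      have := (vanish_iff_sq_eq_index hf.inj hχ hϑ h1).mp (by rwa [hidx])
      simpa only [Subgroup.range_subtype] using this
    · rintro ⟨h1, h2⟩
      obtain ⟨e, -, he⟩ := hf.clifford_inv_nat hχ hϑ ((inv_subtype_iff N hf ϑ).mpr h2) hcon
      refine ⟨e, he, ?_⟩
      rw [← hidx]
      exact (vanish_iff_sq_eq_index hf.inj hχ hϑ he).mpr (by simpa only [Subgroup.range_subtype])
  · constructor
    · rintro ⟨e, h1, h2⟩ g n
      refine ⟨(inv_subtype_iff N hf ϑ).mp (hinv e h1) g n, fun ψ hψ h => ?_⟩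
      rw [ind_eq_smul_of_sq_eq_index hf.inj hχ hϑ h1 (by rwa [hidx]), ip_smul_left] at h
      exact (irr_eq_of_ip_ne_zero hχ hψ (right_ne_zero_of_mul h)).symm
    · intro h
      obtain ⟨e, -, he⟩ := hf.clifford_inv_nat hχ hϑ
        ((inv_subtype_iff N hf ϑ).mpr fun g n => (h g n).1) hcon
      refine ⟨e, he, ?_⟩
      rw [← hidx]
      refine hf.sq_eq_index_of_unique hχ hϑ he fun ψ hψ hne => (h 1 1).2 ψ hψ ?_
      rwa [ip_ind_left _ _ (irr_cf hψ), ip_ne_zero_comm]

end Cfsg.Agent.S0900
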