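import Cfsg.Statements.S0901
import Mathlib
import Cfsg.Agent.H8.Local

set_option autoImplicit false
open Cfsg

namespace Cfsg.Agent.S0901

/-- Let M be a maximal ideal of the ring of algebraic integers containing the prime p, and let U be the set of complex roots of unity of order prime to p. Then reduction modulo M is injective on U, and every algebraic integer not in M is congruent modulo M to an element of U (so U maps bijectively onto the nonzero residues). -/
theorem result (p : ℕ) [Fact p.Prime] (M : Ideal Cfsg.AlgInt) (hM : Cfsg.IsPModular p M) : (∀ ε₁ ε₂ : Cfsg.AlgInt, (∃ m : ℕ, ¬ p ∣ m ∧ (ε₁ : ℂ) ^ m = 1) → (∃ m : ℕ, ¬ p ∣ m ∧ (ε₂ : ℂ) ^ m = 1) → ε₁ - ε₂ ∈ M → ε₁ = ε₂) ∧ (∀ a : Cfsg.AlgInt, a ∉ M → ∃ ε : Cfsg.AlgInt, (∃ m : ℕ, ¬ p ∣ m ∧ (ε : ℂ) ^ m = 1) ∧ a - ε ∈ M) := by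
  haveI := hM.2.1
  haveI := H8.charP_resField hM
  have hp : p.Prime := hM.1
  constructor
  · rintro ε₁ ε₂ ⟨m₁, hm₁, h₁⟩ ⟨m₂, hm₂, h₂⟩ h
    have hm : ¬ p ∣ m₁ * m₂ := fun h => (hp.dvd_mul.1 h).elim hm₁ hm₂
    have hm0 : m₁ * m₂ ≠ 0 := by rintro h0; exact hm (h0 ▸ dvd_zero p)
    have e1 : (ε₁ : ℂ) ^ (m₁ * m₂) = 1 := by rw [pow_mul, h₁, one_pow]
    have e2 : (ε₂ : ℂ) ^ (m₁ * m₂) = 1 := by rw [mul_comm, pow_mul, h₂, one_pow]
    by_contra hne
    have hne' : (ε₁ : ℂ) - ε₂ ≠ 0 := fun h => hne (Subtype.ext (sub_eq_zero.1 h))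
    have hg := geom_sum₂_mul (ε₁ : ℂ) (ε₂ : ℂ) (m₁ * m₂)
    rw [e1, e2, sub_self, mul_eq_zero, or_iff_left hne'] at hg
    have hr : H8.rd M (ε₁ : ℂ) = H8.rd M (ε₂ : ℂ) := by
      rw [← H8.memLocalIdeal_sub_iff (H8.algInt_mem_locRing M _) (H8.algInt_mem_locRing M _)]
      exact (H8.memLocalIdeal_algInt_iff (ε₁ - ε₂)).2 h
    have hg2 := congrArg (H8.rd M) hg
    rw [H8.rd_sum _ _ (fun i _ => mul_mem (pow_mem (H8.algInt_mem_locRing M _) _)
      (pow_mem (H8.algInt_mem_locRing M _) _)), H8.rd_zero,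
      Finset.sum_congr rfl (g := fun _ => H8.rd M (ε₂ : ℂ) ^ (m₁ * m₂ - 1))] at hg2
    · rw [Finset.sum_const, Finset.card_range, nsmul_eq_mul, mul_eq_zero,
        CharP.cast_eq_zero_iff _ p] at hg2
      refine hg2.elim hm fun h0 => ?_
      have h3 : H8.rd M (ε₂ : ℂ) ^ (m₁ * m₂) = 1 := by
        rw [← H8.rd_pow (H8.algInt_mem_locRing M _), e2, H8.rd_one]
      rw [(pow_eq_zero_iff'.1 h0).1, zero_pow hm0] at h3
      exact zero_ne_one h3
    · intro i hi
      rw [H8.rd_mul (pow_mem (H8.algInt_mem_locRing M _) _)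
        (pow_mem (H8.algInt_mem_locRing M _) _), H8.rd_pow (H8.algInt_mem_locRing M _),
        H8.rd_pow (H8.algInt_mem_locRing M _), hr, ← pow_add]
      congr 1
      have := Finset.mem_range.1 hi
      omega
  · intro a ha
    set x := H8.rd M (a : ℂ) with hx
    have hx0 : x ≠ 0 := by
      rw [hx, Ne, H8.rd_eq_zero_iff (H8.algInt_mem_locRing M _), H8.memLocalIdeal_algInt_iff]
      exact ha
    -- `x` is algebraic over the prime field, hence a root of unity of order prime to `p`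
    letI := ZMod.algebra (H8.resField M) p
    have hxi' : IsIntegral (ZMod p) x := by
      have h1 : IsIntegral ℤ (⟨a, H8.algInt_mem_locRing M a⟩ : H8.locRing M) := by
        rw [← isIntegral_algHom_iff (H8.locRing M).subtype.toIntAlgHom Subtype.val_injective]
        exact a.2
      obtain ⟨q, hq, hqa⟩ := h1
      refine ⟨q.map (Int.castRingHom _), hq.map _, ?_⟩
      have h2 := congrArg (H8.res M) hqa
      rw [Polynomial.hom_eval₂, map_zero] at h2
      rw [Polynomial.eval₂_map, hx, H8.rd_eq_res (H8.algInt_mem_locRing M a), ← h2]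
      congr 1
      exact RingHom.ext_int _ _
    have hfin : IsOfFinOrder x := by
      have hK : FiniteDimensional (ZMod p) (IntermediateField.adjoin (ZMod p) {x}) :=
        IntermediateField.adjoin.finiteDimensional hxi'
      have hK' : Finite (IntermediateField.adjoin (ZMod p) {x}) := Module.finite_of_finite (ZMod p)
      let y : IntermediateField.adjoin (ZMod p) {x} := IntermediateField.AdjoinSimple.gen (ZMod p) x
      have hy : y ≠ 0 := fun h => hx0 (congrArg Subtype.val h)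
      obtain ⟨n, hn, hyn⟩ := isOfFinOrder_iff_pow_eq_one.1 (isOfFinOrder_of_finite (Units.mk0 y hy))
      refine isOfFinOrder_iff_pow_eq_one.2 ⟨n, hn, ?_⟩
      have h2 : y ^ n = 1 := by simpa using congrArg Units.val hyn
      exact congrArg Subtype.val h2
    obtain ⟨n, hn, hxn⟩ := isOfFinOrder_iff_pow_eq_one.1 hfin
    obtain ⟨k, m, hm, rfl⟩ := Nat.exists_eq_pow_mul_and_not_dvd hn.ne' p hp.ne_one
    have hm0 : m ≠ 0 := by rintro rfl; exact hm (dvd_zero p)
    have hxm : x ^ m = 1 := by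
      have : (x ^ m - 1) ^ (p ^ k) = 0 := by
        rw [sub_pow_char_pow, ← pow_mul, mul_comm, hxn, one_pow, sub_self]
      exact sub_eq_zero.1 (pow_eq_zero_iff'.1 this).1
    -- factor `X^m - 1` over the complex roots of unity
    have hζ := Complex.isPrimitiveRoot_exp m hm0
    have hprod := Polynomial.X_pow_sub_one_eq_prod (Nat.pos_of_ne_zero hm0) hζ
    have hev := congrArg (Polynomial.eval (a : ℂ)) hprod
    simp only [Polynomial.eval_sub, Polynomial.eval_pow, Polynomial.eval_X, Polynomial.eval_one,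
      Polynomial.eval_prod, Polynomial.eval_C] at hev
    have hint : ∀ ζ ∈ Polynomial.nthRootsFinset m (1 : ℂ), IsIntegral ℤ ζ := by
      intro ζ hζ
      rw [Polynomial.mem_nthRootsFinset (Nat.pos_of_ne_zero hm0)] at hζ
      exact IsIntegral.of_pow (Nat.pos_of_ne_zero hm0) (hζ ▸ isIntegral_one)
    have hmem : (∏ ζ ∈ (Polynomial.nthRootsFinset m (1 : ℂ)).attach,
        (a - ⟨ζ.1, hint ζ.1 ζ.2⟩ : AlgInt)) ∈ M := by
      rw [← H8.memLocalIdeal_algInt_iff]
      have : ((∏ ζ ∈ (Polynomial.nthRootsFinset m (1 : ℂ)).attach,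
        (a - ⟨ζ.1, hint ζ.1 ζ.2⟩ : AlgInt) : AlgInt) : ℂ) = (a : ℂ) ^ m - 1 := by
        rw [hev, ← Finset.prod_attach (Polynomial.nthRootsFinset m (1 : ℂ))]
        push_cast
        rfl
      rw [this, H8.memLocalIdeal_sub_iff (pow_mem (H8.algInt_mem_locRing M _) _) (one_mem _),
        H8.rd_pow (H8.algInt_mem_locRing M _), H8.rd_one, hxm]
    obtain ⟨ζ, -, hζ⟩ := (Ideal.IsPrime.prod_mem_iff (hp := hM.2.1.isPrime)).1 hmem
    exact ⟨⟨ζ.1, hint ζ.1 ζ.2⟩, ⟨m, hm, (Polynomial.mem_nthRootsFinset (Nat.pos_of_ne_zero hm0) _).1 ζ.2⟩, hζ⟩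

end Cfsg.Agent.S0901
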