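import Cfsg.Statements.S0903
import Mathlib
import Cfsg.Agent.H8.GrpAlg

set_option autoImplicit false
open Cfsg

namespace Cfsg.Agent.S0903

/-- Let P be a p-subgroup of the finite group G, let c centralize P and let g, h ∈ G. The number of pairs (x, y) with x conjugate to g, y conjugate to h and x * y = c is congruent modulo p to the number of such pairs in which x and y both centralize P. (This is why the Brauer map on class sums is multiplicative.) -/
theorem result {G : Type*} [Group G] [Finite G] (p : ℕ) [Fact p.Prime] (P : Subgroup G) (hP : IsPGroup p P) (c : G) (hc : c ∈ Subgroup.centralizer (P : Set G)) (g h : G) : Nat.card {xy : G × G // IsConj g xy.1 ∧ IsConj h xy.2 ∧ xy.1 * xy.2 = c} ≡ Nat.card {xy : G × G // IsConj g xy.1 ∧ IsConj h xy.2 ∧ xy.1 * xy.2 = c ∧ xy.1 ∈ Subgroup.centralizer (P : Set G) ∧ xy.2 ∈ Subgroup.centralizer (P : Set G)} [MOD p] := by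
  classical
  let X := {xy : G × G // IsConj g xy.1 ∧ IsConj h xy.2 ∧ xy.1 * xy.2 = c}
  letI : MulAction P X :=
    { smul := fun u xy => ⟨((u : G) * xy.1.1 * (u : G)⁻¹, (u : G) * xy.1.2 * (u : G)⁻¹),
        xy.2.1.trans (isConj_iff.2 ⟨u, rfl⟩), xy.2.2.1.trans (isConj_iff.2 ⟨u, rfl⟩), by
          have h1 := xy.2.2.2
          have h2 := hc u u.2
          calc (u : G) * xy.1.1 * (u : G)⁻¹ * ((u : G) * xy.1.2 * (u : G)⁻¹)
              = u * (xy.1.1 * xy.1.2) * (u : G)⁻¹ := by group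
            _ = c := by rw [h1, h2]; group⟩
      one_smul := fun xy => Subtype.ext (Prod.ext (by
        change ((1 : P) : G) * _ * ((1 : P) : G)⁻¹ = _; simp) (by
        change ((1 : P) : G) * _ * ((1 : P) : G)⁻¹ = _; simp))
      mul_smul := fun u v xy => Subtype.ext (Prod.ext (by
        change ((u * v : P) : G) * _ * ((u * v : P) : G)⁻¹ =
          (u : G) * ((v : G) * _ * (v : G)⁻¹) * (u : G)⁻¹
        simp only [Subgroup.coe_mul]; group) (by
        change ((u * v : P) : G) * _ * ((u * v : P) : G)⁻¹ =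
          (u : G) * ((v : G) * _ * (v : G)⁻¹) * (u : G)⁻¹
        simp only [Subgroup.coe_mul]; group)) }
  have key := hP.card_modEq_card_fixedPoints X
  have hsm : ∀ (u : P) (xy : X), (u • xy).1 =
      ((u : G) * xy.1.1 * (u : G)⁻¹, (u : G) * xy.1.2 * (u : G)⁻¹) := fun _ _ => rfl
  refine key.trans (Eq.subst (motive := fun n => _ ≡ n [MOD p]) ?_ (Nat.ModEq.refl _))
  refine Nat.card_congr
    { toFun := fun a => ⟨a.1.1, a.1.2.1, a.1.2.2.1, a.1.2.2.2, fun u hu => ?_, fun u hu => ?_⟩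
      invFun := fun a => ⟨⟨a.1, a.2.1, a.2.2.1, a.2.2.2.1⟩, fun u => Subtype.ext ?_⟩
      left_inv := fun _ => rfl
      right_inv := fun _ => rfl }
  · have := congrArg (fun z : X => z.1.1) (a.2 ⟨u, hu⟩)
    simp only [hsm] at this
    exact mul_inv_eq_iff_eq_mul.1 this
  · have := congrArg (fun z : X => z.1.2) (a.2 ⟨u, hu⟩)
    simp only [hsm] at this
    exact mul_inv_eq_iff_eq_mul.1 this
  · rw [hsm]
    exact Prod.ext (mul_inv_eq_iff_eq_mul.2 (a.2.2.2.2.1 u u.2))
      (mul_inv_eq_iff_eq_mul.2 (a.2.2.2.2.2 u u.2))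

end Cfsg.Agent.S0903
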