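import Cfsg.Statements.S0904
import Mathlib
import Cfsg.Agent.H9.Cyc

set_option autoImplicit false
open Cfsg

namespace Cfsg.Agent.S0904

open Cfsg.Agent.H8 in
theorem aux {G : Type*} [Group G] [Finite G] [IsSimpleGroup G] {p q r a b : ℕ} (hp : p.Prime)
    (hq : q.Prime) (hr : r.Prime) (hpr : p ≠ r) (hqr : q ≠ r)
    (hcard : Nat.card G = p ^ a * q ^ b * r) {x y : G} (hx : orderOf x = r) (hy : orderOf y = p)
    (hc : Commute x y) : False := by
  classical
  haveI := Fact.mk hp
  obtain ⟨M, hM⟩ := H9.exists_pmod p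
  haveI := hM.2.1
  haveI : H9.PMod M p := ⟨hM⟩
  have := H8.finite_irr (G := G)
  have := Fintype.ofFinite (Cfsg.IrrCharacter G)
  have hcop : (orderOf x).Coprime (orderOf y) := by
    rw [hx, hy]; exact (Nat.coprime_primes hr hp).2 hpr.symm
  have ho : orderOf (x * y) = r * p := by rw [hc.orderOf_mul_eq_mul_orderOf_of_coprime hcop, hx, hy]
  have hZ : Subgroup.center G = ⊥ := by
    refine (Subgroup.normal_of_characteristic _ : (Subgroup.center G).Normal).eq_bot_or_eq_top.resolve_right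
      fun h => ?_
    have hn : (Subgroup.zpowers x).Normal := ⟨fun n hn g => by
      rwa [(Subgroup.mem_center_iff.1 (h ▸ Subgroup.mem_top n) g), mul_inv_cancel_right]⟩
    rcases hn.eq_bot_or_eq_top with h1 | h1
    · rw [Subgroup.zpowers_eq_bot] at h1
      exact hr.one_lt.ne (by rw [← hx, h1, orderOf_one])
    · have := (Subgroup.zpowers x).orderOf_dvd_natCard (h1 ▸ Subgroup.mem_top y)
      rw [Nat.card_zpowers, hx, hy] at this
      exact hpr ((Nat.prime_dvd_prime_iff_eq hp hr).1 this)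
  have h1 := H8.weak_orthogonality hM (H8.isBlockUnion_of_block H8.isPBlock_principalBlock)
    (H9.not_dvd_orderOf_one (G := G)) (y := x * y) (ho ▸ Dvd.intro_left _ rfl)
  obtain ⟨χ, hχ, hne, hq', h0⟩ : ∃ χ ∈ Cfsg.principalBlock M G, χ ≠ irrOne G ∧
      ¬ q ∣ Cfsg.charDegree χ.1 ∧ χ.1 (x * y) ≠ 0 := by
    by_contra hcon
    push Not at hcon
    rw [← Finset.add_sum_erase _ _ (Finset.mem_filter.2 ⟨Finset.mem_univ _, irrOne_mem_principalBlock⟩),
      irrOne_apply, irrOne_apply, map_one, mul_one, add_eq_zero_iff_eq_neg] at h1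
    have hq0 : (q : ℂ) ≠ 0 := Nat.cast_ne_zero.2 hq.ne_zero
    refine hq.not_dvd_one (H6.nat_dvd_of_isIntegral_div hq.ne_zero ?_)
    rw [Nat.cast_one, h1, neg_div, Finset.sum_div]
    refine (IsIntegral.sum _ fun χ hχ => ?_).neg
    by_cases h2 : q ∣ Cfsg.charDegree χ.1
    · obtain ⟨m, hm⟩ := h2
      rw [irr_one_eq, map_natCast, hm, Nat.cast_mul, mul_div_assoc, mul_div_cancel_left₀ _ hq0]
      exact (H6.isGen_isIntegral (H6.isGen_of_irr χ.2) _).mul (isIntegral_natCast m)
    · rw [hcon χ (Finset.mem_filter.1 (Finset.mem_of_mem_erase hχ)).2 (Finset.ne_of_mem_erase hχ) h2,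
        zero_mul, zero_div]
      exact isIntegral_zero
  have hd := charDegree_dvd_card χ
  have hr' : ¬ r ∣ Cfsg.charDegree χ.1 := fun h => h0 (by
    refine H7.defectZero_vanish hr χ.2 ?_ (ho ▸ Dvd.intro _ rfl)
    refine le_trans ?_ (hr.factorization_pos_of_dvd (charDegree_irr_ne_zero χ) h)
    rw [hcard, Nat.factorization_mul (mul_pos (pow_pos hp.pos _)
      (pow_pos hq.pos _)).ne' hr.ne_zero, Nat.factorization_mul (pow_pos hp.pos _).ne'
      (pow_pos hq.pos _).ne', Nat.factorization_pow, Nat.factorization_pow]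
    simp [hp.factorization, hq.factorization, hr.factorization, hpr, hqr])
  have h2 : Cfsg.charDegree χ.1 ∣ p ^ a := by
    rw [hcard] at hd
    exact (((Nat.Prime.coprime_iff_not_dvd hq).2 hq').symm.pow_right b).dvd_of_dvd_mul_right
      (((Nat.Prime.coprime_iff_not_dvd hr).2 hr').symm.dvd_of_dvd_mul_right hd)
  obtain ⟨s, -, hs⟩ := (Nat.dvd_prime_pow hp).1 h2
  obtain ⟨P⟩ : Nonempty (Sylow p G) := inferInstance
  have hP : Nontrivial P := by
    rw [← Finite.one_lt_card_iff_nontrivial, P.card_eq_multiplicity]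
    exact Nat.one_lt_pow (hp.factorization_pos_of_dvd Nat.card_pos.ne'
      (hy ▸ orderOf_dvd_natCard y)).ne' hp.one_lt
  obtain ⟨⟨z, hz⟩, hz1⟩ := (Subgroup.nontrivial_iff_exists_ne_one _).1 (P.isPGroup'.center_nontrivial) |>.imp
    (fun (z : P) h => h) |> fun ⟨z, h⟩ => (⟨⟨z, h.1⟩, h.2⟩ : ∃ z : Subgroup.center P, z.1 ≠ 1)
  have hi : ¬ p ∣ (Subgroup.centralizer ({(z : G)} : Set G)).index := fun h =>
    P.not_dvd_index (h.trans (Subgroup.index_dvd_of_le fun w hw =>
      Subgroup.mem_centralizer_singleton_iff.2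
        (congrArg Subtype.val (Subgroup.mem_center_iff.1 hz ⟨w, hw⟩))))
  have h3 : χ.1 z = 0 := by
    refine (H6.eq_zero_or_mem_charCenter_of_coprime χ.2 (irr_one_eq χ) (g := z)
      (hs ▸ ((Nat.Prime.coprime_iff_not_dvd hp).2 hi).pow_left s)).resolve_right fun h => hz1 ?_
    rw [H6.charCenter_eq_center χ.2 (H6.charKer_eq_bot_of_simple χ.2 fun h => hne (Subtype.ext h)),
      hZ, Subgroup.mem_bot] at h
    exact Subtype.ext h
  have h4 := (lam_eq_iff _ _).1 ((mem_principalBlock_iff χ).1 hχ) z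
  rw [Cfsg.centralChar, Cfsg.centralChar, h3, mul_zero, zero_div, irrOne_apply, irrOne_apply, mul_one,
    div_one, rd_zero, rd_natCast, eq_comm, CharP.cast_eq_zero_iff _ p] at h4
  exact hi h4

/-- Let G be a finite simple group of order p ^ a * q ^ b * r with p, q, r distinct primes. Then every Sylow r-subgroup S of G satisfies C_G(S) = S. -/
theorem result {G : Type*} [Group G] [Finite G] [IsSimpleGroup G] (p q r a b : ℕ) (hp : p.Prime) (hq : q.Prime) [Fact r.Prime] (hpq : p ≠ q) (hpr : p ≠ r) (hqr : q ≠ r) (hcard : Nat.card G = p ^ a * q ^ b * r) (S : Sylow r G) : Subgroup.centralizer (S : Set G) = (S : Subgroup G) := by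
  have hr : r.Prime := Fact.out
  have hS : Nat.card S = r := by
    rw [S.card_eq_multiplicity, hcard, Nat.factorization_mul (mul_pos (pow_pos hp.pos _)
      (pow_pos hq.pos _)).ne' hr.ne_zero, Nat.factorization_mul (pow_pos hp.pos _).ne'
      (pow_pos hq.pos _).ne', Nat.factorization_pow, Nat.factorization_pow]
    simp [hp.factorization, hq.factorization, hr.factorization, hpr.symm, hqr.symm]
  have hc : IsCyclic (S : Subgroup G) := isCyclic_of_prime_card hS
  have hle := H9.le_centralizer_of_cyc hc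
  obtain ⟨x, hx⟩ := H9.exists_zpowers_eq hc
  have hxo : orderOf x = r := by rw [← Nat.card_zpowers, hx, hS]
  by_contra hne
  obtain ⟨m, hm⟩ := Subgroup.card_dvd_of_le hle
  have hm1 : m ≠ 1 := fun h => hne (H9.eq_of_le_of_card_le hle (by
    rw [h, mul_one] at hm; exact hm.le)).symm
  obtain ⟨l, hl, hlm⟩ := Nat.exists_prime_and_dvd hm1
  haveI := Fact.mk hl
  obtain ⟨y, hy⟩ := exists_prime_orderOf_dvd_card' l (hm ▸ hlm.mul_left _)
  have hxy : Commute x y := y.2 x (hx ▸ Subgroup.mem_zpowers x : x ∈ (S : Subgroup G))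
  have h1 : m ∣ p ^ a * q ^ b := by
    have := Subgroup.card_subgroup_dvd_card (Subgroup.centralizer ((S : Subgroup G) : Set G))
    rw [hm, hcard, show Nat.card (S : Subgroup G) = r from hS, mul_comm] at this
    exact Nat.dvd_of_mul_dvd_mul_right hr.pos this
  rw [← Subgroup.orderOf_coe] at hy
  rcases (Nat.Prime.dvd_mul hl).1 (hlm.trans h1) with h | h
  · exact aux hp hq hr hpr hqr hcard hxo
      (hy.trans ((Nat.prime_dvd_prime_iff_eq hl hp).1 (hl.dvd_of_dvd_pow h))) hxy
  · exact aux hq hp hr hqr hpr (by rw [hcard, mul_comm (p ^ a)]) hxo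
      (hy.trans ((Nat.prime_dvd_prime_iff_eq hl hq).1 (hl.dvd_of_dvd_pow h))) hxy

end Cfsg.Agent.S0904
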