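import Cfsg.Statements.S0905
import Mathlib
import Cfsg.Agent.H9.NormalP
import Cfsg.Agent.H2.Cores

set_option autoImplicit false
open Cfsg

namespace Cfsg.Agent.S0905

/-- Let F be a field of characteristic p and let g be an element of the finite group G no conjugate of which centralizes O_p(G). Then the class sum of g is a nilpotent element of the group algebra F[G]. -/
theorem result {G : Type*} [Group G] [Finite G] (p : ℕ) [Fact p.Prime] (F : Type*) [Field F] [CharP F p] (g : G) (hg : ∀ x : G, IsConj g x → x ∉ Subgroup.centralizer (Cfsg.pCore p G : Set G)) : IsNilpotent (∑ᶠ x ∈ ConjClasses.carrier (ConjClasses.mk g), MonoidAlgebra.single x (1 : F) : MonoidAlgebra F G) := by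
  classical
  haveI : (Cfsg.pCore p G).Normal := by haveI := H2.pCore_characteristic (p := p) (G := G); infer_instance
  have h : (∑ᶠ x ∈ ConjClasses.carrier (ConjClasses.mk g), MonoidAlgebra.single x (1 : F) :
      MonoidAlgebra F G) = H9.csum F ⊤ g := by
    rw [finsum_mem_eq_finite_toFinset_sum _ (Set.toFinite _)]
    refine H9.ext_coeff fun y => ?_
    rw [H9.coeff_sum_apply, H9.coeff_csum]
    simp only [MonoidAlgebra.coeff_single, Finsupp.single_apply, Finset.sum_ite_eq',
      Set.Finite.mem_toFinset, ConjClasses.mem_carrier_iff_mk_eq, ConjClasses.mk_eq_mk_iff_isConj]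
    refine if_congr ?_ rfl rfl
    rw [isConj_comm, isConj_iff]
    simp
  rw [h]
  refine H9.nilpotent_of_br_eq_zero (P := Cfsg.pCore p G) H2.pCore_isPGroup
    (H9.fix_mono (N := ⊤) (T := ⊤) (by rw [Subgroup.normalizer_eq_top]) le_top
      (H9.csum_mem_fix Subgroup.le_normalizer trivial)) ?_
  by_contra h0
  obtain ⟨t, -, ht⟩ := H9.br_csum_ne_zero_iff.1 h0
  exact hg _ (isConj_iff.2 ⟨t, rfl⟩) ht

end Cfsg.Agent.S0905
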