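import Cfsg.Statements.S0910
import Mathlib
import Cfsg.Agent.H9.Misc

set_option autoImplicit false
open Cfsg

namespace Cfsg.Agent.S0910

/-- Let G be a non-abelian finite simple group and p a prime. If an irreducible character χ lies in the principal block (relative to a maximal ideal of the algebraic integers containing p) and χ 1 is a power of p, then χ is the principal character. -/
theorem result {G : Type*} [Group G] [Finite G] (p : ℕ) [Fact p.Prime] (M : Ideal Cfsg.AlgInt) (hM : Cfsg.IsPModular p M) [IsSimpleGroup G] (hna : ∃ a b : G, a * b ≠ b * a) (χ : Cfsg.IrrCharacter G) (hχ : χ ∈ Cfsg.principalBlock M G) (k : ℕ) (hdeg : (χ : G → ℂ) 1 = (p : ℂ) ^ k) : (χ : G → ℂ) = fun _ => 1 := by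
  haveI := hM.2.1
  by_contra h
  by_cases hG : p ∣ Nat.card G
  · obtain ⟨P⟩ : Nonempty (Sylow p G) := inferInstance
    have := (Subgroup.nontrivial_iff_ne_bot _).2 (P.ne_bot_of_dvd_card hG)
    have := P.isPGroup'.center_nontrivial
    obtain ⟨z, hz⟩ := exists_ne (1 : Subgroup.center P)
    have h1 : ¬ p ∣ (Subgroup.centralizer {(z.1 : G)}).index := fun h' => P.not_dvd_index
      (h'.trans (Subgroup.index_dvd_of_le fun y hy => Subgroup.mem_centralizer_singleton_iff.2
        (congrArg Subtype.val (Subgroup.mem_center_iff.1 z.2 ⟨y, hy⟩))))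
    rcases H6.eq_zero_or_mem_charCenter_of_coprime χ.2 (n := p ^ k) (by simpa using hdeg)
      (((Nat.Prime.coprime_iff_not_dvd Fact.out).2 h1).pow_left k) with h2 | h2
    · have h3 := (H8.lam_eq_iff _ _).1 ((H8.mem_principalBlock_iff χ).1 hχ) z.1
      simp only [centralChar, h2, H8.irrOne_apply, mul_zero, zero_div, H8.rd_zero, mul_one, div_one] at h3
      exact h1 ((H8.rd_natCast_eq_zero_iff hM _).1 h3.symm)
    · rw [H6.charCenter_eq_center χ.2 (H6.charKer_eq_bot_of_simple χ.2 h)] at h2
      rcases IsSimpleGroup.eq_bot_or_eq_top_of_normal (Subgroup.center G) inferInstance with h3 | h3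
      · exact hz (Subtype.ext (Subtype.ext (by simpa [h3] using h2)))
      · obtain ⟨a, b, hab⟩ := hna
        exact hab (Subgroup.mem_center_iff.1 (h3 ▸ Subgroup.mem_top b) a)
  · exact h (congrArg Subtype.val (H8.eq_one_of_principal_of_vanish hM hχ fun g hg =>
      absurd (hg.trans (orderOf_dvd_natCard g)) hG))

end Cfsg.Agent.S0910
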