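import Cfsg.Statements.S0911
import Mathlib
import Cfsg.Agent.H8.First

set_option autoImplicit false
open Cfsg

namespace Cfsg.Agent.S0911

/-- The min–max Theorem for defect classes. Let B be a block of the finite group G relative to a maximal ideal M of the algebraic integers containing the prime p, let g represent a defect class of B and let D be a Sylow p-subgroup of the centralizer of g (viewed in G). For any h: (a) if the idempotent coefficient of B at h is a local integer outside the local ideal, then some conjugate of D contains a Sylow p-subgroup of the centralizer of h; (b) if the central character of some member of B at h is outside the local ideal, then some conjugate of D is contained in a Sylow p-subgroup of the centralizer of h. -/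
theorem result {G : Type*} [Group G] [Finite G] (p : ℕ) [Fact p.Prime] (M : Ideal Cfsg.AlgInt) (hM : Cfsg.IsPModular p M) (B : Set (Cfsg.IrrCharacter G)) (hB : Cfsg.IsPBlock M B) (g : G) (hg : Cfsg.IsDefectClass M B g) (D : Sylow p (Subgroup.centralizer ({g} : Set G))) (h : G) : (Cfsg.MemLocalRing M (Cfsg.blockCoeff B h) → ¬ Cfsg.MemLocalIdeal M (Cfsg.blockCoeff B h) → ∃ (x : G) (Q : Sylow p (Subgroup.centralizer ({h} : Set G))), (Q : Subgroup (Subgroup.centralizer ({h} : Set G))).map (Subgroup.centralizer ({h} : Set G)).subtype ≤ ((D : Subgroup (Subgroup.centralizer ({g} : Set G))).map (Subgroup.centralizer ({g} : Set G)).subtype).map (MulAut.conj x).toMonoidHom) ∧ ((∃ χ ∈ B, ¬ Cfsg.MemLocalIdeal M (Cfsg.centralChar (χ : G → ℂ) h)) → ∃ (x : G) (Q : Sylow p (Subgroup.centralizer ({h} : Set G))), ((D : Subgroup (Subgroup.centralizer ({g} : Set G))).map (Subgroup.centralizer ({g} : Set G)).subtype).map (MulAut.conj x).toMonoidHom ≤ (Q : Subgroup (Subgroup.centralizer ({h} : Set G))).map (Subgroup.centralizer ({h} :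 Set G)).subtype) := by
  haveI := hM.2.1
  have hD : IsDefectGroup p M B _ := ⟨g, hg, D, rfl⟩
  refine ⟨fun h1 h2 => ?_, fun ⟨χ, hχ, h1⟩ => ?_⟩
  · obtain ⟨Q⟩ : Nonempty (Sylow p (Subgroup.centralizer ({h} : Set G))) := inferInstance
    obtain ⟨x, hx⟩ := H8.exists_cg_le_of_coeff hM hB hD ((H8.coeff_eB_ne_zero_iff B h).2 ⟨h1, h2⟩)
      (H18.sylIn_map_subtype Q).isP (H18.sylIn_map_subtype Q).le
    exact ⟨x⁻¹, Q, H9.cg_le_iff.1 hx⟩
  · obtain ⟨x, hx⟩ := H8.exists_cg_le_centralizer hM hB hD hχ
      ((H8.lam_classSum_ne_zero_iff χ h).2 h1)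
    obtain ⟨R, hR, h2⟩ := H18.exists_sylIn_ge (H9.IsPGroup_cg (H8.IsDefectGroup.isP hD) x) hx
    obtain ⟨Q, rfl⟩ := H8.exists_sylow_map_eq_iff.2 hR
    exact ⟨x, Q, h2⟩

end Cfsg.Agent.S0911
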