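import Cfsg.Statements.S0916
import Mathlib
import Cfsg.Agent.H8.First

set_option autoImplicit false
open Cfsg

namespace Cfsg.Agent.S0916

/-- Let P be a p-subgroup of the finite group G, C its centralizer and N its normalizer. Say that a conjugacy class (of G, or of N) has defect group P when P is a Sylow p-subgroup of the centralizer (in G, respectively in N) of some element of the class. Then: (i) if the class of g in G has defect group P, the elements of that class lying in C form a single N-class, again with defect group P; (ii) every N-class with defect group P arises this way from exactly one G-class with defect group P. -/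
theorem result {G : Type*} [Group G] [Finite G] (p : ℕ) [Fact p.Prime] (P : Subgroup G) (hP : IsPGroup p P) : (∀ g : G, (∃ S : Sylow p (Subgroup.centralizer ({g} : Set G)), (S : Subgroup (Subgroup.centralizer ({g} : Set G))).map (Subgroup.centralizer ({g} : Set G)).subtype = P) → (∃ c : G, IsConj g c ∧ c ∈ Subgroup.centralizer (P : Set G)) ∧ (∀ c₁ c₂ : G, IsConj g c₁ → IsConj g c₂ → c₁ ∈ Subgroup.centralizer (P : Set G) → c₂ ∈ Subgroup.centralizer (P : Set G) → ∃ n ∈ Subgroup.normalizer (P : Set G), n * c₁ * n⁻¹ = c₂)) ∧ (∀ c : G, c ∈ Subgroup.centralizer (P : Set G) → (∃ S : Sylow p (Subgroup.centralizer ({c} : Set G) ⊓ Subgroup.normalizer (P : Set G) : Subgroup G), (S : Subgroup ↥(Subgroup.centralizer ({c} : Set G) ⊓ Subgroup.normalizer (P : Set G))).map (Subgroup.centralizer ({c} : Set G) ⊓ Subgroup.normalizer (P : Set G)).subtype = P) → ∃ S : Sylow p (Subgroup.centralizer ({c} : Set G)), (S : Subgroup (Subgroup.centralizer ({c} : Set G))).map (Subgroup.centralizer ({c} : Set G)).subtype = P) := by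
  refine ⟨fun g hg => ?_, fun c hc h => ?_⟩
  · rw [H8.exists_sylow_map_eq_iff] at hg
    refine ⟨⟨g, IsConj.refl g, H9.le_centralizer_singleton_iff.1 hg.le⟩, ?_⟩
    intro c₁ c₂ h1 h2 h3 h4
    obtain ⟨t₁, rfl⟩ := isConj_iff.1 h1
    obtain ⟨t₂, rfl⟩ := isConj_iff.1 h2
    have hg' : H18.SylIn p P (⊤ ⊓ Subgroup.centralizer {g}) := by rwa [top_inf_eq]
    obtain ⟨s₁, hs₁, e₁⟩ := H9.conj_normalizer_of_sylIn hg' (Subgroup.mem_top t₁) h3
    obtain ⟨s₂, hs₂, e₂⟩ := H9.conj_normalizer_of_sylIn hg' (Subgroup.mem_top t₂) h4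
    refine ⟨s₂ * s₁⁻¹, mul_mem hs₂.2 (inv_mem hs₁.2), ?_⟩
    rw [← e₁, ← e₂]
    group
  · rw [H8.exists_sylow_map_eq_iff] at h ⊢
    exact H9.sylIn_of_normalizer (h.le.trans inf_le_left) hP fun R hR hRp hPR => h.max R hR hRp hPR

end Cfsg.Agent.S0916
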