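import Cfsg.Statements.S0923
import Mathlib
import Cfsg.Agent.H8.Second

set_option autoImplicit false
open Cfsg

namespace Cfsg.Agent.S0923

/-- Brauer's Second Main Theorem, in terms of ordinary characters. Let x be a p-element of the finite group G with centralizer C, let χ lie in the block B of G and let b be a block of C that does not induce B (relative to a maximal ideal M of the algebraic integers containing p). Form the class function ϑ(c) = χ(x c) on C and its b-part (the sum over ψ ∈ b of the inner product of ϑ with ψ, times ψ). Then the b-part of ϑ vanishes at every p-regular element of C. (Equivalently, the generalized decomposition numbers of χ with respect to b are zero.) -/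
theorem result {G : Type*} [Group G] [Finite G] (p : ℕ) [Fact p.Prime] (M : Ideal Cfsg.AlgInt) (hM : Cfsg.IsPModular p M) (x : G) (hx : ∃ k : ℕ, orderOf x = p ^ k) (B : Set (Cfsg.IrrCharacter G)) (hB : Cfsg.IsPBlock M B) (χ : Cfsg.IrrCharacter G) (hχ : χ ∈ B) (b : Set (Cfsg.IrrCharacter (Subgroup.centralizer ({x} : Set G)))) (hb : Cfsg.IsPBlock M b) (hnot : ¬ Cfsg.IsInducedBlock M (Subgroup.centralizer ({x} : Set G)) b B) (y : Subgroup.centralizer ({x} : Set G)) (hy : ¬ p ∣ orderOf y) : Cfsg.blockPart b (fun c : Subgroup.centralizer ({x} : Set G) => (χ : G → ℂ) (x * (c : G))) y = 0 := by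
  haveI := hM.2.1
  obtain ⟨B', h'⟩ := H8.inducedBlockDefined_centralizer hM hx hb
  have hχ' : χ ∉ B' := fun h => hnot (H8.block_eq_of_mem hB h'.2.1 hχ h ▸ h')
  have h1 : H8.pPart p ((H8.selfC x * y : Subgroup.centralizer ({x} : Set G)) : G) = x :=
    H8.pPart_mul hx (by rwa [Subgroup.orderOf_coe])
      (H8.mem_centralizer_singleton_iff_commute.1 y.2)
  have h2 := H8.IsInducedBlock.blockPart_eq_zero hM h' (h := H8.selfC x * y) (by rw [h1]) hχ'
  rw [H8.blockPart_central_mul _ (H8.isClassFunction_restrict (H8.irr_isClassFunction χ) _)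
    (H8.selfC_comm x)] at h2
  exact h2

end Cfsg.Agent.S0923
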