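import Cfsg.Statements.S0926
import Mathlib
import Cfsg.Agent.H8.Height

set_option autoImplicit false
open Cfsg

namespace Cfsg.Agent.S0926

/-- Let B be a block of the finite group G with defect group D (relative to a maximal ideal M of the algebraic integers containing p), let χ ∈ B have height zero, and let x be a p-element. Then some conjugate of x lies in D if and only if χ does not vanish on the whole p-section of x (the elements whose p-part is conjugate to x). -/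
theorem result {G : Type*} [Group G] [Finite G] (p : ℕ) [Fact p.Prime] (M : Ideal Cfsg.AlgInt) (hM : Cfsg.IsPModular p M) (B : Set (Cfsg.IrrCharacter G)) (hB : Cfsg.IsPBlock M B) (D : Subgroup G) (hD : Cfsg.IsDefectGroup p M B D) (χ : Cfsg.IrrCharacter G) (hχ : χ ∈ B) (h0 : Cfsg.blockHeight p B (χ : G → ℂ) = 0) (x : G) (hx : ∃ k : ℕ, orderOf x = p ^ k) : (∃ g : G, g * x * g⁻¹ ∈ D) ↔ ∃ u : G, (∃ z : G, Cfsg.IsPPart p u z ∧ IsConj x z) ∧ (χ : G → ℂ) u ≠ 0 := by
  haveI := hM.2.1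
  constructor
  · rintro ⟨g, hg⟩
    obtain ⟨y, hy, hDy⟩ := H8.isDefectGroup_iff_sylIn.1 hD
    have hx' := H8.pElt_of_mem hDy.isP hg
    have hc := (H8.mem_centralizer_singleton_iff_commute.1 (hDy.le hg)).symm
    refine ⟨g * x * g⁻¹ * y, ⟨g * x * g⁻¹, ⟨y, rfl, hc, hx', H8.IsDefectClass.not_dvd hM hB hy⟩,
      isConj_iff.2 ⟨g, rfl⟩⟩, ?_⟩
    exact H8.ne_zero_of_rd_ne_zero (H8.rd_mul_ne_zero_of_height hM hB hy hχ h0 hx' hc)
  · rintro ⟨u, ⟨z, hz, hxz⟩, hu⟩
    obtain ⟨E, hE, h1⟩ := H8.exists_defectGroup_mem hM hB hχ hu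
    obtain ⟨t, rfl⟩ := H8.isDefectGroup_exists_cg_eq hM hB hD hE
    obtain ⟨c, rfl⟩ := isConj_iff.1 hxz
    rw [← H8.isPPart_iff.1 hz, H9.mem_cg] at h1
    exact ⟨t⁻¹ * c, by simpa [mul_assoc] using h1⟩

end Cfsg.Agent.S0926
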