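import Cfsg.Statements.S0928
import Mathlib
import Cfsg.Agent.H9.Misc

set_option autoImplicit false
open Cfsg

namespace Cfsg.Agent.S0928

theorem lam_setSum {M : Ideal AlgInt} [M.IsMaximal] {G : Type*} [Group G] [Fintype G] [DecidableEq G] (p : ℕ)
    (χ : IrrCharacter G) : H8.setSum (H8.resField M) {x : G | x ^ p = 1} ∈ H8.Zen _ G ∧
      H8.lam M χ.1 (H8.setSum _ {x : G | x ^ p = 1}) = H8.rd M ((∑ x with x ^ p = 1, χ.1 x) / χ.1 1) := by
  have h : ∀ x g : G, x * g * x⁻¹ ∈ {x : G | x ^ p = 1} ↔ g ∈ {x : G | x ^ p = 1} := fun x g => by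
    simp [conj_pow, mul_inv_eq_iff_eq_mul]
  refine ⟨H8.setSum_mem_Zen h, ?_⟩
  rw [← H8.mapRingHom_setSum (H8.res M), H8.lam_red χ (H8.setSum_mem_Zen h), H8.mapRingHom_setSum,
    H8.omega_eq, H8.chiL_setSum]
  rfl

/-- Let χ be an irreducible character of the finite group G and p a prime. If χ g = 0 for every element g of order p, then the exponent of p in the degree χ(1) equals the exponent of p in the order of G (χ has p-defect zero). -/
theorem result {G : Type*} [Group G] [Finite G] (p : ℕ) [Fact p.Prime] (χ : Cfsg.IrrCharacter G) (hvan : ∀ g : G, orderOf g = p → (χ : G → ℂ) g = 0) : (Cfsg.charDegree (χ : G → ℂ)).factorization p = (Nat.card G).factorization p := by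
  classical
  obtain ⟨M, hM⟩ := H9.exists_pmod p
  haveI := hM.2.1; haveI : H9.PMod M p := ⟨hM⟩
  have hB := H8.isPBlock_blockOf (M := M) χ
  obtain ⟨D, e, h⟩ := H9.exists_maxPair (p := p) (H9.isBlk_eB hB)
  rw [← H8.blockOf_eq_singleton_iff hM, ← H9.blockDefect_eq_zero_iff_singleton hB (H8.mem_blockOf_self χ),
    H8.blockDefect_eq_zero_iff hM hB ((H9.isDefectGroup_iff hB).2 h.isDef)]
  by_contra hD
  obtain ⟨b, hb, rfl⟩ := H9.exists_eI_of_isPair h.pair.1
  have h1 := h.not_dvd_relIndex.2.1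
  rw [top_inf_eq, ← H9.isDefectGroup_inf hb] at h1
  have h2 : D.subgroupOf (Subgroup.centralizer (D : Set G)) ≤ Subgroup.center _ := fun z hz =>
    Subgroup.mem_center_iff.2 fun c => Subtype.ext (c.2 z hz).symm
  have h3 := H9.sup_centralizer_of_le_center h2
  have := H9.normal_of_sup_centralizer h3
  obtain ⟨θ, hθ, h4, -⟩ := H9.exists_canon
    (H9.reg_mem_centralizer_of_sup (H18.isPGroup_subgroupOf h.isP) h3) hb h1
  have := Fintype.ofFinite G
  have h5 := H8.IsInducedBlock.lam_eq ((H9.isInducedBlock_centralizer_iff h.isP).2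
    (H9.isBrauerPairOf_iff.2 ⟨hB, hb, h.pair⟩)) hθ (H8.mem_blockOf_self χ) (lam_setSum p χ).1
  let W : Subgroup (Subgroup.centralizer (D : Set G)) :=
    { carrier := {x | x.1 ∈ D ∧ x ^ p = 1}
      mul_mem' := fun {a b} ha hb => ⟨D.mul_mem ha.1 hb.1, by
        rw [Commute.mul_pow (Subgroup.mem_center_iff.1 (h2 hb.1) a), ha.2, hb.2, mul_one]⟩
      one_mem' := ⟨D.one_mem, one_pow _⟩
      inv_mem' := fun ha => ⟨D.inv_mem ha.1, by rw [inv_pow, ha.2, inv_one]⟩ }
  have h6 : p ∣ Nat.card W := by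
    have := (Subgroup.nontrivial_iff_ne_bot _).2 hD
    have := h.isP.center_nontrivial
    obtain ⟨n, hn, h6⟩ := (IsPGroup.nontrivial_iff_card (h.isP.to_subgroup (Subgroup.center D))).1 this
    obtain ⟨z, hz⟩ := exists_prime_orderOf_dvd_card' (G := Subgroup.center D) p
      (h6 ▸ dvd_pow_self p hn.ne')
    rw [← Subgroup.orderOf_coe, ← Subgroup.orderOf_coe] at hz
    refine hz ▸ (Subgroup.orderOf_mk (H := Subgroup.centralizer (D : Set G)) _ fun y hy =>
      congrArg Subtype.val (Subgroup.mem_center_iff.1 z.2 ⟨y, hy⟩)) ▸ Subgroup.orderOf_dvd_natCard W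
      ⟨z.1.2, Subtype.ext ?_⟩
    exact hz ▸ pow_orderOf_eq_one z.1.1
  rw [(lam_setSum p χ).2, show H8.resSub _ _ (H8.setSum (H8.resField M) {x : G | x ^ p = 1}) =
    H8.setSum _ {x | x ^ p = 1} from H9.ext_coeff fun x => by
      simp [H8.coeff_setSum, Subtype.ext_iff], (lam_setSum p θ).2,
    Finset.sum_eq_single_of_mem 1 (by simp) fun x hx h1 => hvan x
      (orderOf_eq_prime (Finset.mem_filter.1 hx).2 h1), div_self (H8.irr_one_ne_zero χ), H8.rd_one,
    ← Finset.sum_filter_of_ne (p := fun x => x.1 ∈ D) fun x hx h0 => ?_, Finset.filter_filter,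
    Finset.sum_congr rfl fun x hx => h4 x (Finset.mem_filter.1 hx).2.2, Finset.sum_const, nsmul_eq_mul,
    mul_div_cancel_right₀ _ (H8.irr_one_ne_zero θ), (H8.rd_natCast_eq_zero_iff hM _).2] at h5
  · exact zero_ne_one h5
  · convert h6
    rw [Nat.card_eq_fintype_card, Fintype.card_subtype]
    exact congrArg _ (Finset.filter_congr fun x _ => and_comm)
  · by_contra h7
    refine h0 (H9.irr_eq_zero_of_normal_defect hb h1 hθ ?_)
    rwa [H8.pPart_of_pElt ((Nat.dvd_prime_pow Fact.out (m := 1)).1 (by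
      simpa using orderOf_dvd_of_pow_eq_one (Finset.mem_filter.1 hx).2) |>.imp fun _ h => h.2)]

end Cfsg.Agent.S0928
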