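import Cfsg.Statements.S0931
import Mathlib
import Cfsg.Agent.H8.Height

set_option autoImplicit false
open Cfsg

namespace Cfsg.Agent.S0931

/-- Let H be a subgroup of the finite group G and fix a maximal ideal M of the algebraic integers containing the prime p. If the block b of H induces the block B of G, then b has defect 0 if and only if B has defect 0. -/
theorem result {G : Type*} [Group G] [Finite G] (p : ℕ) [Fact p.Prime] (M : Ideal Cfsg.AlgInt) (hM : Cfsg.IsPModular p M) (H : Subgroup G) (b : Set (Cfsg.IrrCharacter H)) (B : Set (Cfsg.IrrCharacter G)) (hind : Cfsg.IsInducedBlock M H b B) : Cfsg.blockDefect p b = 0 ↔ Cfsg.blockDefect p B = 0 := by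
  haveI := hM.2.1
  obtain ⟨D, hD⟩ := H8.exists_isDefectGroup (p := p) hind.1
  obtain ⟨E, hE, hDE⟩ := H8.IsInducedBlock.exists_defectGroup_ge hM hind hD
  rw [H8.blockDefect_eq_zero_iff hM hind.1 hD, H8.blockDefect_eq_zero_iff hM hind.2.1 hE]
  constructor
  · rintro rfl
    by_contra hne
    have : Nontrivial E := (Subgroup.nontrivial_iff_ne_bot E).2 hne
    have := (H8.IsDefectGroup.isP hE).center_nontrivial
    obtain ⟨x, hx⟩ := exists_ne (1 : Subgroup.center E)
    obtain ⟨z, h1, h2, -⟩ := H8.IsInducedBlock.exists_conj_center hM hind hD hE x.1.2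
      (fun w hw => (congrArg Subtype.val (Subgroup.mem_center_iff.1 x.2 ⟨w, hw⟩)).symm)
    rw [Subgroup.mem_bot.1 h2, Subgroup.coe_one, isConj_one_left] at h1
    exact hx (Subtype.ext (Subtype.ext h1))
  · rintro rfl
    exact (Subgroup.map_eq_bot_iff_of_injective D H.subtype_injective).1 (le_bot_iff.1 hDE)

end Cfsg.Agent.S0931
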