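import Cfsg.Statements.S0932
import Mathlib
import Cfsg.Agent.H9.Misc

set_option autoImplicit false
open Cfsg

namespace Cfsg.Agent.S0932

theorem aux {G : Type*} [Group G] [Fintype G] (H : Subgroup G) (ξ : H → ℂ) (g : G) :
    inducedCentralChar H ξ g = centralChar (indFun H ξ) g := by
  classical
  rw [← H8.omega_classSum (H7.ind_subtype H ξ ▸ H7.ind_cf H.subtype ξ),
    H8.omega_indFun H ξ (H8.classSum_mem_Zen g), H8.omega_apply, inducedCentralChar,
    finsum_mem_eq_finite_toFinset_sum _ (Set.toFinite _), Set.Finite.toFinset_setOf, Finset.sum_filter]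
  refine Finset.sum_congr rfl fun h _ => ?_
  rw [H8.coeff_resSub, H8.coeff_classSum]
  split_ifs <;> simp

/-- Let H be a subgroup of the finite group G and ξ a character of H. For every g ∈ G, the sum of ξ h / ξ 1 over the elements h ∈ H that are conjugate in G to g equals the central character at g of the character of G induced from ξ (class size times value divided by degree). -/
theorem result {G : Type*} [Group G] [Fintype G] (H : Subgroup G) (ξ : H → ℂ) (hξ : Cfsg.IsCharacter H ξ) (g : G) : Cfsg.inducedCentralChar H ξ g = Cfsg.centralChar (Cfsg.indFun H ξ) g := by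
  exact aux H ξ g

end Cfsg.Agent.S0932
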