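import Cfsg.Statements.S0933
import Mathlib
import Cfsg.Agent.H8.Height

set_option autoImplicit false
open Cfsg

namespace Cfsg.Agent.S0933

/-- Let H be a subgroup of the finite group G and ξ an irreducible character of H such that the induced function ξ^G is an irreducible character of G. Then, relative to any maximal ideal M of the algebraic integers containing the prime p, the block of ξ induces the block of ξ^G. -/
theorem result {G : Type*} [Group G] [Fintype G] (p : ℕ) [Fact p.Prime] (M : Ideal Cfsg.AlgInt) (hM : Cfsg.IsPModular p M) (H : Subgroup G) (ξ : Cfsg.IrrCharacter H) (hind : Cfsg.IsIrrCharacter G (Cfsg.indFun H (ξ : H → ℂ))) : Cfsg.IsInducedBlock M H (Cfsg.blockOf M (ξ : H → ℂ)) (Cfsg.blockOf M (Cfsg.indFun H (ξ : H → ℂ))) := by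
  haveI := hM.2.1
  let χ : IrrCharacter G := ⟨_, hind⟩
  refine (H8.isInducedBlock_iff (H8.isPBlock_blockOf ξ) (H8.isPBlock_blockOf χ)
    (H8.mem_blockOf_self ξ) (H8.mem_blockOf_self χ)).2 fun z hz => ?_
  obtain ⟨w, hw, rfl⟩ := H8.exists_Zen_red_eq hz
  rw [H8.lam_red χ hw, ← H8.mapRingHom_resSub, H8.lam_red ξ (H8.resSub_mem_Zen_of_mem_Zen H hw),
    H8.mapRingHom_resSub, ← H8.omega_indFun H _ (H8.up_mem_Zen hw)]

end Cfsg.Agent.S0933
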