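import Cfsg.Statements.S0934
import Mathlib
import Cfsg.Agent.H8.Height

set_option autoImplicit false
open Cfsg

namespace Cfsg.Agent.S0934

/-- Let H be a subgroup of the finite group G and fix a maximal ideal M of the algebraic integers containing the prime p. If the block b of H induces the block B of G and ξ ∈ b, then there is χ ∈ B whose restriction to H has nonzero inner product with ξ. -/
theorem result {G : Type*} [Group G] [Fintype G] (p : ℕ) [Fact p.Prime] (M : Ideal Cfsg.AlgInt) (hM : Cfsg.IsPModular p M) (H : Subgroup G) [Fintype H] (b : Set (Cfsg.IrrCharacter H)) (B : Set (Cfsg.IrrCharacter G)) (hind : Cfsg.IsInducedBlock M H b B) (ξ : Cfsg.IrrCharacter H) (hξ : ξ ∈ b) : ∃ χ ∈ B, Cfsg.classInner (fun h : H => (χ : G → ℂ) h) (ξ : H → ℂ) ≠ 0 := by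
  classical
  haveI := hM.2.1
  obtain ⟨ψ, hψ⟩ := H8.block_nonempty hind.2.1
  have hB := H8.isBlockUnion_of_block hind.2.1
  have h1 := H8.IsInducedBlock.lam_eq hind hξ hψ (H8.eB_mem_Zen B)
  rw [H8.lam_eB_of_mem hB hψ, ← H8.red_fB, ← H8.mapRingHom_resSub,
    H8.lam_red ξ (H8.resSub_mem_Zen_of_mem_Zen H (H8.fB_mem_Zen B)), H8.mapRingHom_resSub,
    H8.up_fB hB, ← H8.omega_indFun H _ (H8.fC_mem_Zen B)] at h1
  have h2 := H8.ne_zero_of_rd_ne_zero (h1 ▸ one_ne_zero)
  by_contra h
  push Not at h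
  apply h2
  have h3 := H8.blockPart_eq_chiL B (H6.isClassFunction_indFun H (ξ : H → ℂ)) 1
  rw [← MonoidAlgebra.one_def, mul_one] at h3
  rw [H8.omega_eq, ← h3, H8.blockPart_eq, Finset.sum_eq_zero, zero_div]
  intro χ hχ
  rw [H6.classInner_indFun_left H _ (H8.irr_isClassFunction χ),
    (H6.classInner_eq_zero_comm _ _).1 (h χ (by simpa using hχ)), zero_mul]

end Cfsg.Agent.S0934
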