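import Cfsg.Statements.S0935
import Mathlib
import Cfsg.Agent.H8.Height

set_option autoImplicit false
open Cfsg

namespace Cfsg.Agent.S0935

/-- Let H be a subgroup of the finite group G and χ an irreducible character of G whose restriction to H is irreducible; fix a maximal ideal M of the algebraic integers containing the prime p and suppose χ and its restriction have height zero in their blocks B and b. If e is a block of H whose induced block is defined, then e induces B if and only if e = b. -/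
theorem result {G : Type*} [Group G] [Finite G] (p : ℕ) [Fact p.Prime] (M : Ideal Cfsg.AlgInt) (hM : Cfsg.IsPModular p M) (H : Subgroup G) (χ : Cfsg.IrrCharacter G) (hres : Cfsg.IsIrrCharacter H (fun h : H => (χ : G → ℂ) h)) (hχ0 : Cfsg.blockHeight p (Cfsg.blockOf M (χ : G → ℂ)) (χ : G → ℂ) = 0) (hψ0 : Cfsg.blockHeight p (Cfsg.blockOf M (fun h : H => (χ : G → ℂ) h)) (fun h : H => (χ : G → ℂ) h) = 0) (e : Set (Cfsg.IrrCharacter H)) (he : Cfsg.InducedBlockDefined M H e) : Cfsg.IsInducedBlock M H e (Cfsg.blockOf M (χ : G → ℂ)) ↔ e = Cfsg.blockOf M (fun h : H => (χ : G → ℂ) h) := by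
  haveI := hM.2.1
  let ψ : IrrCharacter H := ⟨_, hres⟩
  obtain ⟨B, hB⟩ := he
  obtain ⟨ξ, hξ⟩ := H8.block_nonempty hB.1
  obtain ⟨φ, hφ⟩ := H8.block_nonempty hB.2.1
  have h1 := H8.IsInducedBlock.lam_eq hB hξ hφ (H8.regElt_mem_Zen (p := p) (H8.irr_isClassFunction χ))
  rw [H8.resSub_regElt] at h1
  have h2 := H8.lam_regElt_ne_zero_iff hM hB.1 hξ ψ
  have h3 := H8.lam_regElt_ne_zero_iff hM hB.2.1 hφ χ
  rw [← h1] at h3
  constructor
  · intro h
    have e1 := H8.IsInducedBlock.unique hB h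
    subst e1
    exact H8.block_eq_blockOf hB.1 (h2.1 (h3.2 ⟨H8.mem_blockOf_self χ, hχ0⟩)).1
  · intro h
    subst h
    rw [← H8.block_eq_blockOf hB.2.1 (h3.1 (h2.2 ⟨H8.mem_blockOf_self ψ, hψ0⟩)).1]
    exact hB

end Cfsg.Agent.S0935
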