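import Cfsg.Statements.S0940
import Mathlib
import Cfsg.Agent.H8.Robinson

set_option autoImplicit false
open Cfsg

namespace Cfsg.Agent.S0940

/-- Let G be a finite group and M a maximal ideal of the algebraic integers containing the prime p. For every p-regular g, the idempotent coefficient of the principal block at g (the inverse of the group order times the sum over χ in the principal block of χ 1 * conj (χ g)) is congruent modulo the local ideal at M to N / R, where N is the number of pairs (x, y) with x of p-power order, y of order prime to p and x * y = g, and R is the number of elements of G of order prime to p. -/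
theorem result {G : Type*} [Group G] [Finite G] (p : ℕ) [Fact p.Prime] (M : Ideal Cfsg.AlgInt) (hM : Cfsg.IsPModular p M) (g : G) (hg : ¬ p ∣ orderOf g) : Cfsg.MemLocalIdeal M (Cfsg.blockCoeff (Cfsg.principalBlock M G) g - (Nat.card {xy : G × G // (∃ k : ℕ, orderOf xy.1 = p ^ k) ∧ ¬ p ∣ orderOf xy.2 ∧ xy.1 * xy.2 = g} : ℂ) / (Nat.card {y : G // ¬ p ∣ orderOf y} : ℂ)) := by
  have := hM.2.1
  have := H8.charP_resField hM
  have h1 : H8.rd M (Nat.card {y : G // ¬ p ∣ orderOf y} : ℂ) ≠ 0 := by
    rw [Ne, H8.rd_natCast_eq_zero_iff hM]; exact H8.not_dvd_card_reg p G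
  rw [H8.memLocalIdeal_sub_iff (H8.blockCoeff_mem_locRing
    (H8.isBlockUnion_of_block H8.isPBlock_principalBlock) g)
    (H8.div_mem_locRing (natCast_mem _ _) h1), H8.rd_div (natCast_mem _ _) h1, H8.rd_natCast,
    H8.kuelshammer hM hg, H8.coeff_eB]
  rw [H8.rd_natCast] at h1 ⊢
  rw [mul_div_cancel_left₀ _ h1]

end Cfsg.Agent.S0940
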