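import Cfsg.Statements.S0943
import Mathlib
import Cfsg.Agent.H6.Ortho

set_option autoImplicit false
open Cfsg

namespace Cfsg.Agent.S0943

/-- Let χ be an irreducible character of the finite group G and u, v ∈ G. If χ (x * y) = χ (u * v) whenever x is conjugate to u and y is conjugate to v, then χ u * χ v = χ 1 * χ (u * v). (Multiply the class sums of u and v and apply the central character of χ.) -/
theorem result {G : Type*} [Group G] [Finite G] (χ : Cfsg.IrrCharacter G) (u v : G) (hc : ∀ x y : G, IsConj u x → IsConj v y → (χ : G → ℂ) (x * y) = (χ : G → ℂ) (u * v)) : (χ : G → ℂ) u * (χ : G → ℂ) v = (χ : G → ℂ) 1 * (χ : G → ℂ) (u * v) := by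
  classical
  have := Fintype.ofFinite G
  have h1 : ∀ y : G, ∑ x : G, (χ : G → ℂ) (x * u * x⁻¹ * v) = Nat.card G * (χ : G → ℂ) (u * v) := by
    intro y
    rw [Finset.sum_congr rfl fun x _ => hc _ _ (isConj_iff.2 ⟨x, rfl⟩) (IsConj.refl v)]
    simp [Nat.card_eq_fintype_card]
  have h2 := (H6.sum_irr_conj_mul χ.2 u v).symm.trans (h1 1)
  have h3 := H6.isIrr_one_ne_zero χ.2
  have h4 := H6.card_ne_zero_complex G
  field_simp at h2
  exact h2

end Cfsg.Agent.S0943
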