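import Cfsg.Statements.S0944
import Mathlib
import Cfsg.Agent.H8.Section
import Cfsg.Agent.H7.GlCyc

set_option autoImplicit false
open Cfsg

namespace Cfsg.Agent.S0944

/-- Let χ be an irreducible character of the finite group G and u an involution. Then χ u is a rational integer n with n ≡ χ 1 (mod 2). -/
theorem result {G : Type*} [Group G] [Finite G] (χ : Cfsg.IrrCharacter G) (u : G) (hu : orderOf u = 2) : ∃ n : ℤ, (χ : G → ℂ) u = (n : ℂ) ∧ (2 : ℤ) ∣ (Cfsg.charDegree (χ : G → ℂ) : ℤ) - n := by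
  obtain ⟨M, hM⟩ := H7.exists_isPModular Nat.prime_two
  haveI := hM.2.1
  obtain ⟨n, hn⟩ := H6.exists_int_of_sq_eq_one (H6.isGen_of_irr χ.2) (g := u)
    (by rw [← hu, pow_orderOf_eq_one])
  refine ⟨n, hn, H8.int_dvd_sub_of_pReg_eq hM (H6.isCharacter_of_irr χ.2) (g := 1) (h := u)
    (by rw [H8.pReg_of_pElt ⟨0, by simp⟩, H8.pReg_of_pElt ⟨1, hu⟩]) ?_ hn⟩
  exact_mod_cast H8.irr_one_eq χ

end Cfsg.Agent.S0944
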