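import Cfsg.Statements.S0945
import Mathlib
import Cfsg.Agent.S0949

set_option autoImplicit false
open Cfsg

namespace Cfsg.Agent.S0945

open Subgroup H8 in
theorem h4 (m : ℕ) (s : Finset (Multiplicative (ZMod (2 ^ m) × ZMod (2 ^ m))))
    (hs : ∀ x ∈ s, x * x = 1) : s.card ≤ 4 := by
  classical
  have k : ∀ a : ZMod (2 ^ m), a + a = 0 → a ∈ ({0, ((2 ^ m / 2 : ℕ) : ZMod (2 ^ m))} : Finset _) :=
    fun a ha => by
      rcases (ZMod.neg_eq_self_iff a).1 (neg_eq_of_add_eq_zero_left ha) with h | h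
      · simp [h]
      · rw [show 2 ^ m / 2 = a.val by omega, ZMod.natCast_zmod_val]; simp
  refine (Finset.card_le_card (t := Finset.product _ _) fun x hx => Finset.mem_product.2
    ⟨k _ (congrArg Prod.fst (hs x hx)), k _ (congrArg Prod.snd (hs x hx))⟩).trans ?_
  exact (Finset.card_product _ _).trans_le (Nat.mul_le_mul Finset.card_le_two Finset.card_le_two)

/-- Let P be a Sylow 2-subgroup of the finite group G isomorphic to Z/2^m × Z/2^m with m ≥ 1. Then (i) the index of C_G(P) in N_G(P) is 1 or 3, and (ii) if it is not 1, then for every z ≠ 1 in P, C_G(z) ∩ N_G(P) = C_G(P). -/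
theorem result {G : Type*} [Group G] [Finite G] (P : Sylow 2 G) (m : ℕ) (hm : 1 ≤ m) (e : (P : Subgroup G) ≃* Multiplicative (ZMod (2 ^ m) × ZMod (2 ^ m))) : ((Subgroup.centralizer (P : Set G)).relIndex (Subgroup.normalizer (P : Set G)) = 1 ∨ (Subgroup.centralizer (P : Set G)).relIndex (Subgroup.normalizer (P : Set G)) = 3) ∧ ((Subgroup.centralizer (P : Set G)).relIndex (Subgroup.normalizer (P : Set G)) ≠ 1 → ∀ z ∈ (P : Subgroup G), z ≠ 1 → Subgroup.centralizer ({z} : Set G) ⊓ Subgroup.normalizer (P : Set G) = Subgroup.centralizer (P : Set G)) := by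
  open Subgroup H8 in
  have hab : IsMulCommutative (P : Subgroup G) :=
    ⟨⟨fun a b => e.injective (by rw [map_mul, map_mul, mul_comm])⟩⟩
  have h2 : 2 ∣ Nat.card (P : Subgroup G) := by
    obtain ⟨k, rfl⟩ := Nat.exists_eq_add_of_le hm
    rw [Nat.card_congr e.toEquiv]
    exact ⟨2 ^ k * 2 ^ k * 2, by simp; ring⟩
  refine ⟨card_autP P ▸ S0949.card_cases P hab (S0949.tr e (h4 m)) h2, fun _ y hy h1 =>
    le_antisymm (fun n hn z hz => ?_)
      (le_inf (centralizer_le (by simpa)) (centralizer_le_normalizer _))⟩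
  have := S0949.fpf P hab (S0949.tr e (h4 m)) _ ⟨⟨n, hn.2⟩, rfl⟩ ⟨y, hy⟩ (by simpa using h1)
    (Subtype.ext (mul_inv_eq_iff_eq_mul.2 (mem_centralizer_singleton_iff.1 hn.1)))
  exact (mul_inv_eq_iff_eq_mul.1 (congrArg Subtype.val (DFunLike.congr_fun this ⟨z, hz⟩))).symm

end Cfsg.Agent.S0945
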