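import Cfsg.Statements.S0946
import Mathlib
import Cfsg.Agent.S0945

set_option autoImplicit false
open Cfsg

namespace Cfsg.Agent.S0946

/-- Let P be a Sylow 2-subgroup of the finite group G isomorphic to Z/2^m × Z/2^m with m ≥ 1. Then either P has a normal complement in G, or all involutions of G are conjugate. -/
theorem result {G : Type*} [Group G] [Finite G] (P : Sylow 2 G) (m : ℕ) (hm : 1 ≤ m) (e : (P : Subgroup G) ≃* Multiplicative (ZMod (2 ^ m) × ZMod (2 ^ m))) : (∃ N : Subgroup G, N.Normal ∧ Subgroup.IsComplement' N (P : Subgroup G)) ∨ ∀ s t : G, orderOf s = 2 → orderOf t = 2 → IsConj s t := by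
  open Subgroup H8 in classical
  have hab : IsMulCommutative (P : Subgroup G) :=
    ⟨⟨fun a b => e.injective (by rw [map_mul, map_mul, mul_comm])⟩⟩
  rcases (S0945.result P m hm e).1 with hA | hA
  · exact Or.inl ((H4.hasNPC_iff_sylow P).1
      (H4.hasNPC_of_normalizer_le_centralizer P (relIndex_eq_one.1 hA)))
  refine Or.inr fun s t hs ht => ?_
  have k : ∀ s : G, orderOf s = 2 → ∃ u : (P : Subgroup G), orderOf u = 2 ∧ IsConj s u :=
    fun s hs => by
      obtain ⟨x, -, hx, -⟩ := exists_conj_pair_mem P le_top hs (w := 1) ⟨0, by simp⟩ (by simp)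
        trivial trivial
      exact ⟨⟨_, hx⟩, by rw [← orderOf_coe]; exact (H20.orderOf_conj _ _).trans hs,
        isConj_iff.2 ⟨x, rfl⟩⟩
  obtain ⟨u, hu, h1⟩ := k s hs
  obtain ⟨v, hv, h2⟩ := k t ht
  refine h1.trans (IsConj.trans ?_ h2.symm)
  by_contra h
  have := Fintype.ofFinite (autP P)
  have u1 := H20.ne_one_of_orderOf_two hu
  have h3 : ∀ α : autP P, α.1 u ≠ v := fun α e => h (e ▸ (autP_isConj _ α.2 u).symm)
  have := S0949.tr e (S0945.h4 m) (insert v (insert 1 (Finset.univ.image fun α : autP P => α.1 u)))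
    (by simp only [Finset.forall_mem_insert, Finset.forall_mem_image, ← map_mul,
      H20.mul_self_of_orderOf_two hu, H20.mul_self_of_orderOf_two hv]; simp)
  rw [Finset.card_insert_of_notMem (by
      simp only [Finset.mem_insert, Finset.mem_image, h3, H20.ne_one_of_orderOf_two hv]; simp),
    Finset.card_insert_of_notMem (by simp [u1]), Finset.card_image_of_injective _ fun α β e' =>
    inv_mul_eq_one.1 (Subtype.ext (S0949.fpf P hab (S0949.tr e (S0945.h4 m)) _ (α⁻¹ * β).2 u u1
      (by simp [← e']))), Finset.card_univ, ← Nat.card_eq_fintype_card, card_autP] at this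
  exact absurd (hA ▸ this : 3 + 1 + 1 ≤ 4) (by norm_num)

end Cfsg.Agent.S0946
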