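import Cfsg.Statements.S0948
import Mathlib
import Cfsg.Agent.H8.Klein

set_option autoImplicit false
open Cfsg

namespace Cfsg.Agent.S0948

/-- Let the finite group G have a Sylow 2-subgroup P that is a Klein four-group, suppose all involutions of G are conjugate, and fix a maximal ideal M of the algebraic integers containing 2. Then the principal block consists of exactly four irreducible characters, the principal character and ζ₂, ζ₃, ζ₄, and there is a sign ε such that for every involution z: ζ₂ z = 1, ζ₃ z = ε, ζ₄ z = -1; moreover ζ₂ 1 ≡ 1, ζ₃ 1 ≡ ε, ζ₄ 1 ≡ -1 (mod 4), and 1 + ζ₂ y + ε ζ₃ y - ζ₄ y = 0 for every y of odd order. -/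
theorem result {G : Type*} [Group G] [Finite G] (M : Ideal Cfsg.AlgInt) (hM : Cfsg.IsPModular 2 M) (P : Sylow 2 G) (hP : IsKleinFour (P : Subgroup G)) (hone : ∀ s t : G, orderOf s = 2 → orderOf t = 2 → IsConj s t) : ∃ ζ₂ ζ₃ ζ₄ : Cfsg.IrrCharacter G, ∃ ε : ℤ, (ε = 1 ∨ ε = -1) ∧ (ζ₂ : G → ℂ) ≠ (fun _ => 1) ∧ (ζ₃ : G → ℂ) ≠ (fun _ => 1) ∧ ζ₂ ≠ ζ₃ ∧ ζ₂ ≠ ζ₄ ∧ ζ₃ ≠ ζ₄ ∧ Cfsg.principalBlock M G = {χ : Cfsg.IrrCharacter G | (χ : G → ℂ) = (fun _ => 1) ∨ χ = ζ₂ ∨ χ = ζ₃ ∨ χ = ζ₄} ∧ (∀ z : G, orderOf z = 2 → (ζ₂ : G → ℂ) z = 1 ∧ (ζ₃ : G → ℂ) z = (ε : ℂ) ∧ (ζ₄ : G → ℂ) z = -1) ∧ (4 : ℤ) ∣ (Cfsg.charDegree (ζ₂ : G → ℂ) : ℤ) - 1 ∧ (4 : ℤ) ∣ (Cfsg.charDegree (ζ₃ : G → ℂ) : ℤ) - ε ∧ (4 : ℤ) ∣ (Cfsg.charDegree (ζ₄ : G → ℂ) : ℤ) + 1 ∧ ∀ y : G, Odd (orderOf y) → 1 + (ζ₂ : G → ℂ) y + (ε : ℂ) * (ζ₃ : G → ℂ) y - (ζ₄ : G → ℂ) y = 0 := by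
  open H8 in
  classical
  have := hM.2.1
  have := Fintype.ofFinite G
  obtain ⟨ψ, ε, h1, h2, h3, -, h5, h6, h7⟩ := klein_block' hM P hP hone
  have h8 : ∀ i, (4 : ℤ) ∣ charDegree (ψ i : G → ℂ) - ε i := fun i => by
    have := card_dvd_degree_sub (ψ i) P (a := ε i) fun s hs h => h6 i s (by
      rw [H20.orderOf_two_of (klein_pElt P hP (pElt_of_mem P.2 hs)) h])
    rwa [hP.card_four] at this
  have h9 : 1 + ∑ i, ε i * charDegree (ψ i : G → ℂ) = 0 := by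
    have := h7 1 (by simp)
    simp only [irr_one_eq] at this
    exact_mod_cast this
  obtain ⟨i, j, k, hij, hik, hjk, hi, hk, e⟩ : ∃ i j k : Fin 3, i ≠ j ∧ i ≠ k ∧ j ≠ k ∧ ε i = 1 ∧
      ε k = -1 ∧ (Finset.univ : Finset (Fin 3)) = {i, j, k} := by
    have a0 := charDegree_irr_ne_zero (ψ 0)
    have a1 := charDegree_irr_ne_zero (ψ 1)
    have a2 := charDegree_irr_ne_zero (ψ 2)
    rw [Fin.sum_univ_three] at h9
    rcases h5 0 with b0 | b0 <;> rcases h5 1 with b1 | b1 <;> rcases h5 2 with b2 | b2 <;>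
      rw [b0, b1, b2] at h9
    · omega
    · exact ⟨0, 1, 2, by decide, by decide, by decide, b0, b2, by decide⟩
    · exact ⟨0, 2, 1, by decide, by decide, by decide, b0, b1, by decide⟩
    · exact ⟨0, 1, 2, by decide, by decide, by decide, b0, b2, by decide⟩
    · exact ⟨1, 2, 0, by decide, by decide, by decide, b1, b0, by decide⟩
    · exact ⟨1, 2, 0, by decide, by decide, by decide, b1, b0, by decide⟩
    · exact ⟨2, 1, 0, by decide, by decide, by decide, b2, b0, by decide⟩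
    · omega
  refine ⟨ψ i, ψ j, ψ k, ε j, h5 j, fun h => h2 i (Subtype.ext h), fun h => h2 j (Subtype.ext h),
    h1.ne hij, h1.ne hik, h1.ne hjk, Set.ext fun χ => (h3 χ).trans (or_congr Subtype.ext_iff ?_),
    fun z hz => ?_, hi ▸ h8 i, h8 j, by simpa [hk] using h8 k, fun y hy => ?_⟩
  · refine ⟨?_, by rintro (h | h | h) <;> exact ⟨_, h.symm⟩⟩
    rintro ⟨l, rfl⟩
    have := e ▸ Finset.mem_univ l
    simp only [Finset.mem_insert, Finset.mem_singleton] at this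
    rcases this with rfl | rfl | rfl <;> simp
  · simp [h6 _ z (hz ▸ dvd_rfl), hi, hk]
  · have := h7 y hy.not_two_dvd_nat
    rw [e, Finset.sum_insert (by simp [hij, hik]), Finset.sum_pair hjk, hi, hk] at this
    push_cast at this
    linear_combination this

end Cfsg.Agent.S0948
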