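import Cfsg.Statements.S0950
import Mathlib
import Cfsg.Agent.H8.Q8Grp

set_option autoImplicit false
open Cfsg

namespace Cfsg.Agent.S0950

/-- Let S be a Sylow 2-subgroup of the finite group G that is isomorphic to the quaternion group of order 8, and suppose S has no normal complement in G. Then any two subgroups of order 4 of S are conjugate by an element of the normalizer of S. -/
theorem result {G : Type*} [Group G] [Finite G] (S : Sylow 2 G) (e : (S : Subgroup G) ≃* QuaternionGroup 2) (hnc : ∀ N : Subgroup G, N.Normal → ¬ Subgroup.IsComplement' N (S : Subgroup G)) (A B : Subgroup G) (hA : A ≤ S) (hB : B ≤ S) (hA4 : Nat.card A = 4) (hB4 : Nat.card B = 4) : ∃ n ∈ Subgroup.normalizer ((S : Subgroup G) : Set G), B = A.map (MulAut.conj n).toMonoidHom := by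
  obtain ⟨z, h⟩ := H8.exists_q8 e
  have hG : ¬ HasNormalPComplement 2 G := fun hG => by
    obtain ⟨N, h1, h2⟩ := (H4.hasNPC_iff_sylow S).1 hG
    exact hnc N h1 h2
  have key : ∀ A : Subgroup G, A ≤ S → Nat.card A = 4 → ∃ u ∈ (S : Subgroup G), u * u = z ∧
      A = Subgroup.zpowers u := by
    intro A hA h4
    have hlt : A < S := hA.lt_of_ne fun e => by
      have := h.card
      rw [← e, h4] at this
      omega
    obtain ⟨u, rfl⟩ := (Subgroup.isCyclic_iff_exists_zpowers_eq_top A).1 (h.isCyclic_of_lt hlt)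
    rw [Nat.card_zpowers] at h4
    have hu := hA (Subgroup.mem_zpowers u)
    refine ⟨u, hu, ?_, rfl⟩
    rcases h.sq u hu with rfl | rfl | e
    · simp at h4
    · rw [h.ord] at h4; omega
    · exact e
  obtain ⟨u, hu, hu2, rfl⟩ := key A hA hA4
  obtain ⟨w, hw, hw2, rfl⟩ := key B hB hB4
  obtain ⟨n, hn, rfl⟩ := h.exists_conj hG hu hu2 hw hw2
  exact ⟨n, hn, by rw [MonoidHom.map_zpowers]; rfl⟩

end Cfsg.Agent.S0950
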