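import Cfsg.Statements.S0951
import Mathlib
import Cfsg.Agent.H8.Q8Char

set_option autoImplicit false
open Cfsg

namespace Cfsg.Agent.S0951

/-- Let S be a Sylow 2-subgroup of the finite group G isomorphic to the quaternion group of order 8. Suppose G has no nontrivial normal subgroup of odd order and G ≠ S. Then, relative to any maximal ideal M of the algebraic integers containing 2, the principal block of G consists of exactly 7 irreducible characters. -/
theorem result {G : Type*} [Group G] [Finite G] (M : Ideal Cfsg.AlgInt) (hM : Cfsg.IsPModular 2 M) (S : Sylow 2 G) (e : (S : Subgroup G) ≃* QuaternionGroup 2) (hO : ∀ N : Subgroup G, N.Normal → Odd (Nat.card N) → N = ⊥) (hG : (S : Subgroup G) ≠ ⊤) : Nat.card (Cfsg.principalBlock M G) = 7 := by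
  classical
  haveI := hM.2.1
  obtain ⟨z, h⟩ := H8.exists_q8 e
  have hN : ¬ HasNormalPComplement 2 G := fun hN => by
    obtain ⟨K, hK, hKS⟩ := (H4.hasNPC_iff_sylow S).1 hN
    rw [hO K hK (Nat.coprime_two_right.1 (H4.coprime_card_of_isComplement' S hKS)),
      Subgroup.isComplement'_bot_left] at hKS
    exact hG hKS
  obtain ⟨α, β, c1, c2, c3, c4, c5, -⟩ := h.exists_chars hM hN
  have : Cfsg.principalBlock M G =
      ↑(insert (H8.irrOne G) (Finset.univ.image α ∪ Finset.univ.image β)) := by
    ext χ; simp [c5]
  rw [this, Finset.coe_sort_coe, Nat.card_eq_fintype_card, Fintype.card_coe,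
    Finset.card_insert_of_notMem (by simp [fun i => (c4 i).1, fun i => (c4 i).2]),
    Finset.card_union_of_disjoint (by simpa [Finset.disjoint_left] using fun i j => (c3 i j).symm),
    Finset.card_image_of_injective _ c1, Finset.card_image_of_injective _ c2]
  rfl

end Cfsg.Agent.S0951
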