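import Cfsg.Statements.S0953
import Mathlib
import Cfsg.Agent.H8.Robinson

set_option autoImplicit false
open Cfsg

namespace Cfsg.Agent.S0953

/-- Let P be a Sylow p-subgroup of the finite group G with normalizer N, and fix a maximal ideal M of the algebraic integers containing p. The number of blocks of G having P as a defect group equals the number of conjugacy classes of N consisting of elements of order prime to p that centralize P. -/
theorem result {G : Type*} [Group G] [Finite G] (p : ℕ) [Fact p.Prime] (M : Ideal Cfsg.AlgInt) (hM : Cfsg.IsPModular p M) (P : Sylow p G) : Nat.card {B : Set (Cfsg.IrrCharacter G) // Cfsg.IsPBlock M B ∧ Cfsg.IsDefectGroup p M B (P : Subgroup G)} = Nat.card {C : ConjClasses (Subgroup.normalizer ((P : Subgroup G) : Set G)) // ∀ n : Subgroup.normalizer ((P : Subgroup G) : Set G), ConjClasses.mk n = C → ¬ p ∣ orderOf n ∧ (n : G) ∈ Subgroup.centralizer ((P : Subgroup G) : Set G)} := by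
  classical
  have := hM.2.1
  set N := Subgroup.normalizer ((P : Subgroup G) : Set G)
  have hPN : (P : Subgroup G) ≤ N := Subgroup.le_normalizer
  let Q : Sylow p N := P.subtype hPN
  have hQ : (Q : Subgroup N) = (P : Subgroup G).subgroupOf N := rfl
  have h1 : Nat.card (H8.BlkD M p (P : Subgroup G)) = Nat.card (H8.BlkD M p (Q : Subgroup N)) := by
    choose f hf hf' using fun B : H8.BlkD M p (P : Subgroup G) =>
      H8.first_main_unique hM B.2.1 B.2.2
    refine Nat.card_eq_of_bijective (fun B => ⟨f B, (hf B).1, (hf B).2.1⟩) ⟨fun A B e => ?_, fun b => ?_⟩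
    · have e' : f A = f B := congrArg Subtype.val e
      exact Subtype.ext (H8.IsInducedBlock.unique (hf A).2.2 (e' ▸ (hf B).2.2))
    · obtain ⟨B, h1, h2, h3⟩ := H8.first_main_exists hM P.2 b.2.1 b.2.2
      exact ⟨⟨B, h1, h2⟩, Subtype.ext (hf' _ _ ⟨b.2.1, b.2.2, h3⟩).symm⟩
  refine h1.trans ?_
  set ι := {C : ConjClasses N // ∀ n : N, ConjClasses.mk n = C → ¬ p ∣ orderOf n ∧
    (n : G) ∈ Subgroup.centralizer ((P : Subgroup G) : Set G)}
  have := Fintype.ofFinite ι
  have := Fintype.ofFinite (H8.BlkD M p (Q : Subgroup N))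
  have hx : ∀ i j : ι, IsConj (Quotient.out i.1) (Quotient.out j.1) → i = j := fun i j e =>
    Subtype.ext (by
      rw [← H8.mk_out_conjClasses i.1, ← H8.mk_out_conjClasses j.1]
      exact ConjClasses.mk_eq_mk_iff_isConj.2 e)
  have hc : ∀ (i : ι) (g : N), IsConj (Quotient.out i.1) g → ¬ p ∣ orderOf g ∧
      ∀ y ∈ (Q : Subgroup N), Commute y g := fun i g hg => by
    have := i.2 g ((ConjClasses.mk_eq_mk_iff_isConj.2 hg).symm.trans (H8.mk_out_conjClasses _))
    exact ⟨this.1, fun y hy => Subtype.ext (this.2 y hy)⟩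
  rw [Nat.card_eq_fintype_card, Nat.card_eq_fintype_card]
  refine le_antisymm (H8.card_le_of_mul_eq_one (H8.lamMat_mul_coefMat hM _ hx fun g hg hg' =>
    ⟨⟨ConjClasses.mk g, fun n hn => ?_⟩, H8.isConj_out_mk g⟩)) ?_
  · obtain ⟨t, rfl⟩ := isConj_iff.1 (ConjClasses.mk_eq_mk_iff_isConj.1 hn.symm)
    refine ⟨by rwa [H8.orderOf_conj'], fun y hy => ?_⟩
    have h2 : (t : G)⁻¹ * y * t ∈ (P : Subgroup G) := (Subgroup.mem_normalizer_iff''.1 t.2 y).1 hy
    have h3 := congrArg Subtype.val (H8.mem_centralizer_singleton_iff_commute.1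
      (hg'.le (show (⟨_, hPN h2⟩ : N) ∈ (Q : Subgroup N) from h2))).eq
    simp only [Subgroup.coe_mul, Subgroup.coe_inv] at h3 ⊢
    calc y * (t * g * (t : G)⁻¹) = t * ((t : G)⁻¹ * y * t * g) * (t : G)⁻¹ := by group
      _ = _ := by rw [← h3]; group
  · obtain ⟨f, hf, -⟩ := H8.exists_rows_isUnit (H8.isUnit_coefMat_mul_lamMat hM Q _ hx
      (fun i => (H18.sylIn_top Q).mono (fun y hy => H8.mem_centralizer_singleton_iff_commute.2
        ((hc i _ (IsConj.refl _)).2 y hy).symm) le_top) fun i j g h hg hh h2 => by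
      have h3 := H8.pPart_mul (H8.pElt_of_mem Q.2 h2) (hc i g hg).1 ((hc i g hg).2 _ h2)
      rw [inv_mul_cancel_right, H8.pPart_eq_one_iff.2 (hc j h hh).1] at h3
      exact mul_inv_eq_one.1 h3.symm)
    exact Fintype.card_le_of_injective f hf

end Cfsg.Agent.S0953
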