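import Cfsg.Statements.S0954
import Mathlib
import Cfsg.Agent.H9.Misc

set_option autoImplicit false
open Cfsg

namespace Cfsg.Agent.S0954

/-- Let N be a normal subgroup of the finite group G of order prime to p and of p-power index (a normal p-complement), and fix a maximal ideal M of the algebraic integers containing p. Then two irreducible characters χ, ψ of G lie in the same block if and only if some irreducible character of N has nonzero inner product with both the restriction of χ and the restriction of ψ. -/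
theorem result {G : Type*} [Group G] [Fintype G] (p : ℕ) [Fact p.Prime] (M : Ideal Cfsg.AlgInt) (hM : Cfsg.IsPModular p M) (N : Subgroup G) [N.Normal] [Fintype N] (hN : ¬ p ∣ Nat.card N) (hidx : ∃ k : ℕ, N.index = p ^ k) (χ ψ : Cfsg.IrrCharacter G) : Cfsg.SameBlock M (χ : G → ℂ) (ψ : G → ℂ) ↔ ∃ θ : Cfsg.IrrCharacter N, Cfsg.classInner (fun n : N => (χ : G → ℂ) n) (θ : N → ℂ) ≠ 0 ∧ Cfsg.classInner (fun n : N => (ψ : G → ℂ) n) (θ : N → ℂ) ≠ 0 := by
  haveI := hM.2.1; haveI : H9.PMod M p := ⟨hM⟩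
  have hB := H8.isPBlock_blockOf (M := M) χ
  have hB' := H8.isPBlock_blockOf (M := M) ψ
  simp only [← H7.ip_eq_classInner]
  refine ⟨fun h => ?_, fun ⟨θ, h1, h2⟩ => ?_⟩
  · obtain ⟨θ, hθ, h1⟩ := H7.exists_irr_under N.subtype χ.2
    exact ⟨⟨θ, hθ⟩, h1, (H9.covers_singleton_iff hN hB h _).1
      ((H9.covers_singleton_iff hN hB (H8.mem_blockOf_self χ) ⟨θ, hθ⟩).2 h1)⟩
  · have hb := H9.isBlk_eI (H9.isPBlock_singleton (M := M) hN θ)
    have hn := H9.top_le_normalizer_of_normal N
    have h3 := (H9.isBlk_iff_isPrim_of_pow le_top (H9.exists_pow_mem_of_index hidx)).1 (H9.isBlk_eB hB')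
    have h4 := (H9.covers_singleton_iff hN hB' (H8.mem_blockOf_self ψ) θ).2 h2
    have h5 := ((H9.isBlk_eB hB).mul_ne_iff le_top hn hb h3 h4).1
      ((H9.covers_singleton_iff hN hB (H8.mem_blockOf_self χ) θ).2 h1)
    have h6 := (H9.eB_inj hB' hB).1 ((H9.isBlk_eB hB').eq_of_mul_ne le_rfl (H9.isBlk_eB hB)
      (h5.symm ▸ H8.eB_ne_zero hB))
    exact (h6 ▸ H8.mem_blockOf_self ψ : ψ ∈ blockOf M χ.1)

end Cfsg.Agent.S0954
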