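import Cfsg.Statements.S0960
import Cfsg.Agent.H24.D1Fam

set_option autoImplicit false
open Cfsg

namespace Cfsg.Agent.S0960

/-- Let p be an odd prime and G a finite group whose Sylow p-subgroup P has order p; let e be the index of C_G(P) in N_G(P) (a divisor of p − 1) and fix a maximal ideal M of the algebraic integers containing p. Then the principal block of G consists of exactly e + (p - 1) / e irreducible characters, and the degree d of each of them satisfies d ≡ 1, d ≡ -1, d ≡ e or d ≡ -e modulo p. -/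
theorem result {G : Type*} [Group G] [Finite G] (p : ℕ) [Fact p.Prime] (M : Ideal Cfsg.AlgInt) (hM : Cfsg.IsPModular p M) (hodd : p ≠ 2) (P : Sylow p G) (hP : Nat.card P = p) (e : ℕ) (he : (Subgroup.centralizer ((P : Subgroup G) : Set G)).relIndex (Subgroup.normalizer ((P : Subgroup G) : Set G)) = e) : Nat.card (Cfsg.principalBlock M G) = e + (p - 1) / e ∧ ∀ χ ∈ Cfsg.principalBlock M G, ((Cfsg.charDegree (χ : G → ℂ) : ℤ) ≡ 1 [ZMOD p] ∨ (Cfsg.charDegree (χ : G → ℂ) : ℤ) ≡ -1 [ZMOD p] ∨ (Cfsg.charDegree (χ : G → ℂ) : ℤ) ≡ (e : ℤ) [ZMOD p] ∨ (Cfsg.charDegree (χ : G → ℂ) : ℤ) ≡ -(e : ℤ) [ZMOD p]) := by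
  obtain ⟨x, h, hx⟩ := H24.D1.exists_syl1 P hP
  have he' : (H24.D1.CC x).relIndex (H24.D1.NN x) = e := by
    rw [← he, H24.D1.CC, ← H8.centralizer_zpowers, H24.D1.NN, hx]
  obtain ⟨X, ψ, ε, δ, F, -⟩ := h.exists_fam_principal hM
  refine ⟨by rw [F.card_eq, h.card_AA_one, he'], fun χ hχ => ?_⟩
  rcases (F.mem χ).1 hχ with h1 | ⟨j, rfl⟩
  · have := F.degX₀ h1
    rcases F.sε χ h1 with h2 | h2 <;> rw [h2] at this <;> tauto
  · have := F.degY₀ j
    rw [he'] at this
    rcases F.sδ with h2 | h2 <;> rw [h2] at this <;> simp only [one_mul, neg_mul] at this <;> tauto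

end Cfsg.Agent.S0960
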