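import Cfsg.Statements.S0963
import Mathlib
import Cfsg.Agent.H9.Misc
import Cfsg.Agent.S0932

set_option autoImplicit false
open Cfsg

namespace Cfsg.Agent.S0963

/-- Let N be a normal subgroup of the finite group G, χ an irreducible character of G and θ an irreducible character of N. Then θ occurs in the restriction of χ to N if and only if, for every n ∈ N, the central character of χ at n (class size in G times χ n over χ 1) equals the sum of θ m / θ 1 over the elements m of N conjugate in G to n. -/
theorem result {G : Type*} [Group G] [Fintype G] (N : Subgroup G) [N.Normal] [Fintype N] (χ : Cfsg.IrrCharacter G) (θ : Cfsg.IrrCharacter N) : Cfsg.classInner (fun n : N => (χ : G → ℂ) n) (θ : N → ℂ) ≠ 0 ↔ ∀ n : N, Cfsg.centralChar (χ : G → ℂ) (n : G) = Cfsg.inducedCentralChar N (θ : N → ℂ) (n : G) := by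
  classical
  have hf := H7.isNE_subtype N
  have h0 : ∀ g : G, ((Subgroup.centralizer {g}).index : ℂ) ≠ 0 := fun g =>
    Nat.cast_ne_zero.2 Subgroup.index_ne_zero_of_finite
  have hc : (Nat.card (hf.inertia θ) : ℂ) / Nat.card N ≠ 0 :=
    div_ne_zero (H7.card_ne_zero' _) (H7.card_ne_zero' _)
  have h1 := hf.res_ind θ
  have h2 : H7.ind N.subtype θ 1 ≠ 0 := by
    rw [H7.ind_apply_one N.subtype_injective]
    exact mul_ne_zero (Nat.cast_ne_zero.2 Subgroup.index_ne_zero_of_finite) (H8.irr_one_ne_zero θ)
  simp only [S0932.aux, centralChar, mul_div_assoc, mul_right_inj' (h0 _), ← H7.ind_subtype,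
    ← H7.ip_eq_classInner]
  refine ⟨fun h n => ?_, fun h => ?_⟩
  · have h3 := hf.clifford χ.2 θ.2 h
    rw [show (χ : G → ℂ) n = _ from congrFun h3 n, show (χ : G → ℂ) 1 = _ from congrFun h3 1,
      show H7.ind N.subtype θ n = _ from congrFun h1 n, show H7.ind N.subtype θ 1 = _ from congrFun h1 1]
    simp only [Pi.smul_apply, smul_eq_mul]
    rw [mul_div_mul_left _ _ hc]
    exact mul_div_mul_left _ _ h
  · rw [show (fun n : N => (χ : G → ℂ) n) = ((χ : G → ℂ) 1 / H7.ind N.subtype θ 1) •
      fun n => H7.ind N.subtype θ (N.subtype n) from funext fun n => by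
        have := h n
        have h4 := H8.irr_one_ne_zero χ
        simp only [Pi.smul_apply, smul_eq_mul, Subgroup.subtype_apply]
        field_simp at this ⊢
        exact this, h1, H7.ip_smul_left, H7.ip_smul_left,
      hf.ip_sum_orbit θ.2 θ.2, if_pos (hf.self_mem_orbit _), mul_one]
    exact mul_ne_zero (div_ne_zero (H8.irr_one_ne_zero χ) h2) hc

end Cfsg.Agent.S0963
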