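import Cfsg.Statements.S0965
import Mathlib
import Cfsg.Agent.H9.Dict4

set_option autoImplicit false
open Cfsg

namespace Cfsg.Agent.S0965

/-- Let N be a normal subgroup of the finite group G and let B, b be blocks of G and of N relative to a maximal ideal M of the algebraic integers containing the prime p. Then some χ ∈ B has a constituent in b on restriction to N if and only if, for all χ ∈ B, θ ∈ b and n ∈ N, the central character of χ at n is congruent modulo the local ideal at M to the sum of θ m / θ 1 over the elements m ∈ N conjugate in G to n. -/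
theorem result {G : Type*} [Group G] [Fintype G] (p : ℕ) [Fact p.Prime] (M : Ideal Cfsg.AlgInt) (hM : Cfsg.IsPModular p M) (N : Subgroup G) [N.Normal] [Fintype N] (B : Set (Cfsg.IrrCharacter G)) (hB : Cfsg.IsPBlock M B) (b : Set (Cfsg.IrrCharacter N)) (hb : Cfsg.IsPBlock M b) : (∃ χ ∈ B, ∃ θ ∈ b, Cfsg.classInner (fun n : N => (χ : G → ℂ) n) (θ : N → ℂ) ≠ 0) ↔ ∀ χ ∈ B, ∀ θ ∈ b, ∀ n : N, Cfsg.MemLocalIdeal M (Cfsg.centralChar (χ : G → ℂ) (n : G) - Cfsg.inducedCentralChar N (θ : N → ℂ) (n : G)) := by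
  haveI := hM.2.1
  haveI : H9.PMod M p := ⟨hM⟩
  rw [H9.covers_iff_sub hB hb, (H9.isBlk_eB hB).covers_iff_lam le_top
    (H9.top_le_normalizer_of_normal N) (H9.isBlk_eI hb)]
  have key : ∀ χ ∈ B, ∀ θ ∈ b, ∀ n : N, (MemLocalIdeal M (centralChar (χ : G → ℂ) (n : G) -
      inducedCentralChar N (θ : N → ℂ) (n : G)) ↔
      H9.lam (H8.eB M B) (H9.csum _ ⊤ (n : G)) = H9.lam (H9.eI M b) (H9.csum _ ⊤ (n : G))) := by
    intro χ hχ θ hθ n
    obtain ⟨h1, h2⟩ := H9.inducedCentralChar_spec hb hθ (n : G)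
    rw [H8.memLocalIdeal_sub_iff (H8.centralChar_mem_locRing χ _) h1, h2, H9.lam_eB_csum hB hχ,
      H9.trunc_eq_self (H9.csum_mem_fix (H9.top_le_normalizer_of_normal N) n.2).1]
  constructor
  · intro h χ hχ θ hθ n
    exact (key χ hχ θ hθ n).2 (h n n.2)
  · intro h n hn
    obtain ⟨χ, hχ⟩ := H8.block_nonempty hB
    obtain ⟨θ, hθ⟩ := H8.block_nonempty hb
    exact (key χ hχ θ hθ ⟨n, hn⟩).1 (h χ hχ θ hθ ⟨n, hn⟩)

end Cfsg.Agent.S0965
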