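import Cfsg.Statements.S0966
import Mathlib
import Cfsg.Agent.H9.Dict4

set_option autoImplicit false
open Cfsg

namespace Cfsg.Agent.S0966

/-- Let N be a normal subgroup of p-power index in the finite group G and b a block of N relative to a maximal ideal M of the algebraic integers containing p. Then there is exactly one block B of G containing a character whose restriction to N has a constituent in b. -/
theorem result {G : Type*} [Group G] [Fintype G] (p : ℕ) [Fact p.Prime] (M : Ideal Cfsg.AlgInt) (hM : Cfsg.IsPModular p M) (N : Subgroup G) [N.Normal] [Fintype N] (hidx : ∃ k : ℕ, N.index = p ^ k) (b : Set (Cfsg.IrrCharacter N)) (hb : Cfsg.IsPBlock M b) : ∃! B : Set (Cfsg.IrrCharacter G), Cfsg.IsPBlock M B ∧ ∃ χ ∈ B, ∃ θ ∈ b, Cfsg.classInner (fun n : N => (χ : G → ℂ) n) (θ : N → ℂ) ≠ 0 := by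
  haveI := hM.2.1
  haveI : H9.PMod M p := ⟨hM⟩
  have hN := H9.top_le_normalizer_of_normal N
  obtain ⟨c, hc, hcb⟩ := (H9.isBlk_eI hb).exists_prim_above le_rfl le_top hN hN
  have hcb' : c * H9.eI M b ≠ 0 := by rw [hcb]; exact (H9.isBlk_eI hb).ne_zero
  have hc' := (H9.isBlk_iff_isPrim_of_pow le_top (H9.exists_pow_mem_of_index hidx)).2 hc
  obtain ⟨B, hB, rfl⟩ := H9.exists_eB hc'
  refine ⟨B, ⟨hB, (H9.covers_iff_sub hB hb).2 hcb'⟩, fun B' ⟨hB', h⟩ => ?_⟩
  have := ((H9.isBlk_eB hB').mul_ne_iff le_top hN (H9.isBlk_eI hb) hc hcb').1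
    ((H9.covers_iff_sub hB' hb).1 h)
  exact ((H9.eB_inj hB hB').1 (hc'.eq_of_mul_ne le_rfl (H9.isBlk_eB hB')
    (by rw [this]; exact (H9.isBlk_eB hB').ne_zero))).symm

end Cfsg.Agent.S0966
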