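import Cfsg.Statements.S0967
import Mathlib
import Cfsg.Agent.H9.Misc

set_option autoImplicit false
open Cfsg

namespace Cfsg.Agent.S0967

open Classical in
theorem aux {F G H : Type*} [Field F] [Group G] [Group H] [Finite G] {φ : G →* H}
    (hφ : Function.Surjective φ) (h : (Nat.card φ.ker : F) ≠ 0) {e : MonoidAlgebra F H}
    (he : e ∈ H8.Zen F H) : ∃ a ∈ H8.Zen F G, H9.em F φ a = e := by
  refine ⟨H9.ofFun fun g => (Nat.card φ.ker : F)⁻¹ * e.coeff (φ g), H8.mem_Zen_iff.2 fun x g => ?_,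
    H9.ext_coeff fun y => ?_⟩
  · simp only [H9.coeff_ofFun, map_mul, map_inv, H8.mem_Zen_iff.1 he]
  · have := Fintype.ofFinite G
    rw [H9.coeff_em_sum, Finset.sum_congr rfl (g := fun _ => (Nat.card φ.ker : F)⁻¹ * e.coeff y)
      fun x hx => by rw [H9.coeff_ofFun, (Finset.mem_filter.1 hx).2], Finset.sum_const, nsmul_eq_mul,
      ← mul_assoc, MonoidHom.card_fiber_eq_of_mem_range _ (hφ y) ⟨1, map_one φ⟩,
      show (Finset.univ.filter fun x => φ x = 1).card = Nat.card φ.ker by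
        simp [Nat.card_eq_fintype_card, Fintype.card_subtype], mul_inv_cancel₀ h, one_mul]

/-- Let N be a normal subgroup of the finite group G of order prime to p and fix a maximal ideal M of the algebraic integers containing p. If χ is an irreducible character of G ⧸ N and ψ lies in the block of its inflation χ ∘ (quotient map), then ψ is itself inflated from an irreducible character ψ' of G ⧸ N lying in the block of χ. (Over a normal p'-subgroup, blocks of the quotient are whole blocks of G.) -/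
theorem result {G : Type*} [Group G] [Finite G] (p : ℕ) [Fact p.Prime] (M : Ideal Cfsg.AlgInt) (hM : Cfsg.IsPModular p M) (N : Subgroup G) [N.Normal] (hN : ¬ p ∣ Nat.card N) (χ : Cfsg.IrrCharacter (G ⧸ N)) (ψ : Cfsg.IrrCharacter G) (hψ : ψ ∈ Cfsg.blockOf M ((χ : G ⧸ N → ℂ) ∘ QuotientGroup.mk)) : ∃ ψ' : Cfsg.IrrCharacter (G ⧸ N), (ψ : G → ℂ) = (ψ' : G ⧸ N → ℂ) ∘ QuotientGroup.mk ∧ Cfsg.SameBlock M (χ : G ⧸ N → ℂ) (ψ' : G ⧸ N → ℂ) := by
  haveI := hM.2.1; haveI : H9.PMod M p := ⟨hM⟩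
  have hφ := QuotientGroup.mk'_surjective N
  have hB := H8.isPBlock_blockOf (M := M) (H8.inflIrr _ hφ χ)
  have h1 := (H9.avg_mul_eB_iff hN hB (χ := ψ) hψ).1
    ((H9.avg_mul_eB_iff hN hB (H8.mem_blockOf_self _)).2 fun n hn => by
      simp [(QuotientGroup.eq_one_iff n).2 hn])
  obtain ⟨ψ', rfl⟩ := H8.exists_inflIrr_eq _ hφ (χ := ψ) fun n hn => (H6.mem_charKer_iff_irr ψ.2).2
    (h1 n (by simpa using hn))
  obtain ⟨a, ha, h2⟩ := aux hφ (by
    rw [QuotientGroup.ker_mk']; exact mt (CharP.cast_eq_zero_iff _ p _).1 hN)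
    (H8.eB_mem_Zen (M := M) (blockOf M χ.1))
  exact ⟨ψ', rfl, (H8.sameBlock_iff _ _).2 (H9.lam_eq_of_infl hφ ha h2
    ((H8.mem_blockOf_iff (H8.inflIrr _ hφ χ) _).1 hψ).symm)⟩

end Cfsg.Agent.S0967
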