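import Cfsg.Statements.S0970
import Mathlib
import Cfsg.Agent.H9.Dict4

set_option autoImplicit false
open Cfsg

namespace Cfsg.Agent.S0970

/-- Let N be a normal subgroup of the finite group G and fix a maximal ideal M of the algebraic integers containing the prime p. Let b be a block of N that is invariant under conjugation by G, and B a block of G covering b (some χ ∈ B has a constituent in b) whose defect is at least that of every block covering b. If P is a defect group of B, then p does not divide the index of P ⊔ N, the subgroup P ∩ N of N is a defect group of b, and the defect of B equals the defect of b plus the exponent of p in the index of N. -/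
theorem result {G : Type*} [Group G] [Fintype G] (p : ℕ) [Fact p.Prime] (M : Ideal Cfsg.AlgInt) (hM : Cfsg.IsPModular p M) (N : Subgroup G) [hN : N.Normal] [Fintype N] (b : Set (Cfsg.IrrCharacter N)) (hb : Cfsg.IsPBlock M b) (hinv : ∀ g : G, ∀ θ ∈ b, ∀ θ' : Cfsg.IrrCharacter N, (∀ n : N, (θ' : N → ℂ) n = (θ : N → ℂ) ⟨g * n * g⁻¹, hN.conj_mem n n.2 g⟩) → θ' ∈ b) (B : Set (Cfsg.IrrCharacter G)) (hB : Cfsg.IsPBlock M B) (hcov : ∃ χ ∈ B, ∃ θ ∈ b, Cfsg.classInner (fun n : N => (χ : G → ℂ) n) (θ : N → ℂ) ≠ 0) (hmax : ∀ B' : Set (Cfsg.IrrCharacter G), Cfsg.IsPBlock M B' → (∃ χ ∈ B', ∃ θ ∈ b, Cfsg.classInner (fun n : N => (χ : G → ℂ) n) (θ : N → ℂ) ≠ 0) → Cfsg.blockDefect p B' ≤ Cfsg.blockDefect p B) (P : Subgroup G) (hP : Cfsg.IsDefectGroup p M B P) : ¬ p ∣ (P ⊔ N).index ∧ Cfsg.IsDefectGroup p M b ((P ⊓ N).subgroupOf N) ∧ Cfsg.blockDefect p B = Cfsg.blockDefect p b + N.index.factorization p := by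
  haveI := hM.2.1
  haveI : H9.PMod M p := ⟨hM⟩
  have hN' := H9.top_le_normalizer_of_normal N
  have hst : ∀ t ∈ (⊤ : Subgroup G), H9.cj t (H9.eI M b) = H9.eI M b := fun t _ =>
    (H9.stab_normal_iff hb).1 (hinv t)
  have hbb := H9.isBlk_eI hb
  have hc := hbb.of_le le_top hst
  have h1 := ((H9.isBlk_eB hB).mul_ne_iff le_top hN' hbb hc
    (by rw [hbb.idem]; exact hbb.ne_zero)).1 ((H9.covers_iff_sub hB hb).1 hcov)
  obtain ⟨D, hD⟩ := hc.exists_isDef (p := p) le_top hN'
  obtain ⟨B', hB', h2, h3⟩ := hc.exists_blk_isDef le_top hD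
  obtain ⟨B', hB'', rfl⟩ := H9.exists_eB hB'
  have hP' := (H9.isDefectGroup_iff hB).1 hP
  have h4 := hmax B' hB'' ((H9.covers_iff_sub hB'' hb).2 (by
    rw [H9.comm_of_inv hB'.mem.2 (H9.supp_top _), h2]; exact hB'.ne_zero))
  have h5 : H9.IsDef p ⊤ (H9.eI M b) P := hD.of_mul_eq le_top hc.mem (H9.eB_mem_fix B) h1 hP' (by
    rw [H9.card_isDef_eB hB'' h3, H9.card_isDef_eB hB hP']
    exact Nat.pow_le_pow_right hM.1.pos h4)
  obtain ⟨h6, h7⟩ := h5.not_dvd_relIndex le_top hN' hbb hst
  rw [Subgroup.relIndex_top_right] at h6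
  refine ⟨h6, (H9.isDefectGroup_subgroupOf hb inf_le_right).2 h7, ?_⟩
  have h8 := H9.card_isDef_eI hb h7
  have h9 := H9.card_isDef_eB hB hP'
  have h10 : N.relIndex P * Nat.card (P ⊓ N : Subgroup G) = Nat.card P := by
    rw [← Subgroup.inf_relIndex_left, Subgroup.relIndex, mul_comm,
      ← Nat.card_congr (Subgroup.subgroupOfEquivOfLe (inf_le_left : P ⊓ N ≤ P)).toEquiv,
      Subgroup.card_mul_index]
  have h11 : N.relIndex P * (P ⊔ N).index = N.index := by
    rw [← Subgroup.relIndex_sup_right, Subgroup.relIndex_mul_index le_sup_right]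
  have h12 : N.relIndex P ≠ 0 := Subgroup.index_ne_zero_of_finite
  rw [h8, h9] at h10
  have h13 := congrArg (fun n => n.factorization p) h10
  rw [Nat.factorization_mul h12 (pow_ne_zero _ hM.1.ne_zero)] at h13
  rw [← h11, Nat.factorization_mul h12 Subgroup.index_ne_zero_of_finite]
  simp only [Finsupp.add_apply, Nat.Prime.factorization_pow hM.1, Finsupp.single_eq_same] at h13 ⊢
  rw [Nat.factorization_eq_zero_of_not_dvd h6]
  omega

end Cfsg.Agent.S0970
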