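import Cfsg.Statements.S0971
import Mathlib
import Cfsg.Agent.H9.Dict4

set_option autoImplicit false
open Cfsg

namespace Cfsg.Agent.S0971

/-- Let Q be a normal p-subgroup of the finite group G, let N = Q ⊔ C_G(Q) (a normal subgroup) and let b be a block of N relative to a maximal ideal M of the algebraic integers containing p. Then b induces some block of G, and every block B of G containing a character whose restriction to N has a constituent in b is induced by b. -/
theorem result {G : Type*} [Group G] [Fintype G] (p : ℕ) [Fact p.Prime] (M : Ideal Cfsg.AlgInt) (hM : Cfsg.IsPModular p M) (Q : Subgroup G) [Q.Normal] (hQ : IsPGroup p Q) [Fintype ↥(Q ⊔ Subgroup.centralizer (Q : Set G))] (b : Set (Cfsg.IrrCharacter ↥(Q ⊔ Subgroup.centralizer (Q : Set G)))) (hb : Cfsg.IsPBlock M b) : Cfsg.InducedBlockDefined M (Q ⊔ Subgroup.centralizer (Q : Set G)) b ∧ ∀ B : Set (Cfsg.IrrCharacter G), Cfsg.IsPBlock M B → (∃ χ ∈ B, ∃ θ ∈ b, Cfsg.classInner (fun n : ↥(Q ⊔ Subgroup.centralizer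 (Q : Set G)) => (χ : G → ℂ) n) (θ : ↥(Q ⊔ Subgroup.centralizer (Q : Set G)) → ℂ) ≠ 0) → Cfsg.IsInducedBlock M (Q ⊔ Subgroup.centralizer (Q : Set G)) b B := by
  haveI := hM.2.1
  haveI : H9.PMod M p := ⟨hM⟩
  have hbb := H9.isBlk_eI hb
  have hC : ⊤ ⊓ Subgroup.centralizer (Q : Set G) ≤ Q ⊔ Subgroup.centralizer (Q : Set G) :=
    inf_le_right.trans le_sup_right
  have hN : Q ⊔ Subgroup.centralizer (Q : Set G) ≤ Subgroup.normalizer (Q : Set G) :=
    H9.le_normalizer_of_normal' Q
  constructor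
  · obtain ⟨B, hB⟩ := H9.exists_isInd le_top le_sup_left hQ hC hbb (by
      rw [H9.br, H9.trunc_eq_self (H9.supp_centralizer_of_idem hQ le_sup_left hN hbb.mem hbb.idem)]
      exact hbb.ne_zero)
    obtain ⟨B, hB', rfl⟩ := H9.exists_eB hB.right
    exact ⟨B, H9.isInducedBlock_iff.2 ⟨hb, hB', hB⟩⟩
  · intro B hB h
    have hBB := H9.isBlk_eB hB
    have hs := H9.supp_centralizer_of_idem hQ le_top (H9.top_le_normalizer_of_normal Q) hBB.mem
      hBB.idem
    refine H9.isInducedBlock_iff.2 ⟨hb, hB,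
      (H9.isInd_iff_br_of_normal le_top le_sup_left hQ hC hN hbb hBB).2 ?_⟩
    rw [H9.br, H9.trunc_eq_self hs]
    exact hbb.mul_eq_of_ne ⟨hs.mono le_sup_right, fun t _ => H9.cj_eB B t⟩ hBB.idem
      ((H9.covers_iff_sub hB hb).1 h)

end Cfsg.Agent.S0971
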