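import Cfsg.Statements.S0973
import Mathlib
import Cfsg.Agent.H9.Root

set_option autoImplicit false
open Cfsg

namespace Cfsg.Agent.S0973

/-- Let B be a block of the finite group G with defect group P (relative to a maximal ideal M of the algebraic integers containing p), and let L = P ⊔ C_G(P). Then (i) some block b of L with defect group P (viewed in L) induces B, and (ii) if b and b' are blocks of L both inducing B, there is n ∈ N_G(P) carrying b to b': for every θ ∈ b there is θ' ∈ b' with θ' x = θ (n x n⁻¹) for all x ∈ L. -/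
theorem result {G : Type*} [Group G] [Finite G] (p : ℕ) [Fact p.Prime] (M : Ideal Cfsg.AlgInt) (hM : Cfsg.IsPModular p M) (B : Set (Cfsg.IrrCharacter G)) (hB : Cfsg.IsPBlock M B) (P : Subgroup G) (hP : Cfsg.IsDefectGroup p M B P) : (∃ b : Set (Cfsg.IrrCharacter ↥(P ⊔ Subgroup.centralizer (P : Set G))), Cfsg.IsDefectGroup p M b (P.subgroupOf (P ⊔ Subgroup.centralizer (P : Set G))) ∧ Cfsg.IsInducedBlock M (P ⊔ Subgroup.centralizer (P : Set G)) b B) ∧ ∀ b b' : Set (Cfsg.IrrCharacter ↥(P ⊔ Subgroup.centralizer (P : Set G))), Cfsg.IsInducedBlock M (P ⊔ Subgroup.centralizer (P : Set G)) b B → Cfsg.IsInducedBlock M (P ⊔ Subgroup.centralizer (P : Set G)) b' B → ∃ n ∈ Subgroup.normalizer (P : Set G), ∀ θ ∈ b, ∃ θ' ∈ b', ∀ x : ↥(P ⊔ Subgroup.centralizer (P : Set G)), ∀ hx : n * (x : G) * n⁻¹ ∈ P ⊔ Subgroup.centralizer (P : Set G), (θ' : ↥(P ⊔ Subgroup.centralizer (P : Set G)) → ℂ) x = (θ : ↥(P ⊔ Subgroup.centralizer (P : Set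 G)) → ℂ) ⟨n * (x : G) * n⁻¹, hx⟩ := by
  haveI := hM.2.1
  haveI : H9.PMod M p := ⟨hM⟩
  have hP' := (H9.isDefectGroup_iff hB).1 hP
  have hBB := H9.isBlk_eB hB
  constructor
  · obtain ⟨e, he⟩ := H9.exists_isPairOf le_rfl H9.top_le_normalizer_top hBB.mem hBB.idem le_top
      hP'.isP hP'.br_ne
    obtain ⟨b, hb, rfl⟩ := H9.exists_eI ((H9.isBlk_sup_top_iff hP'.isP).2 he.1)
    have := H9.MaxPair.isDef_sup_self ⟨hBB, hP', he⟩
    rw [top_inf_eq] at this
    exact ⟨b, (H9.isDefectGroup_subgroupOf hb le_sup_left).2 this,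
      H9.isInducedBlock_iff.2 ⟨hb, hB, (H9.isInd_sup_top_iff hP'.isP hBB).2 he⟩⟩
  · intro b b' h h'
    obtain ⟨hb, -, h⟩ := H9.isInducedBlock_iff.1 h
    obtain ⟨hb', -, h'⟩ := H9.isInducedBlock_iff.1 h'
    obtain ⟨t, ht, h1⟩ := hP'.exists_cj_pair le_rfl H9.top_le_normalizer_top hBB
      ((H9.isInd_sup_top_iff hP'.isP hBB).1 h) ((H9.isInd_sup_top_iff hP'.isP hBB).1 h')
    have h2 := H9.mem_normalizer_iff_cg.1 (H9.normalizer_le_normalizer_sup P ht.2)
    refine ⟨t⁻¹, inv_mem ht.2, fun θ hθ => ?_⟩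
    obtain ⟨θ', hr⟩ := H9.exists_rel h2 θ
    exact ⟨θ', H9.mem_of_rel h2 hb hb' h1 hθ hr, fun x hx => hr _ _ (by simp [mul_assoc])⟩

end Cfsg.Agent.S0973
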