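import Cfsg.Statements.S0986
import Mathlib
-- import your own Cfsg.Agent.* helpers here

set_option autoImplicit false
open Cfsg

namespace Cfsg.Agent.S0986

theorem uniq {G : Type*} [Group G] [Finite G] {p : ℕ} {D : Subgroup G}
    (hmax : ∀ P' Q' : Sylow p G, P' ≠ Q' →
      Nat.card ↥((P' : Subgroup G) ⊓ (Q' : Subgroup G)) ≤ Nat.card D)
    {X : Subgroup G} (hX : Nat.card D < Nat.card X) {R S : Sylow p G} (hR : X ≤ R) (hS : X ≤ S) :
    R = S := by
  by_contra h
  have := (Subgroup.card_le_of_le (le_inf hR hS)).trans (hmax R S h)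
  omega

theorem lt_inf {G : Type*} [Group G] [Finite G] {p : ℕ} [Fact p.Prime] {D P : Subgroup G}
    (hP : IsPGroup p P) (h : D < P) :
    Nat.card D < Nat.card ↥(P ⊓ Subgroup.normalizer (D : Set G)) := by
  have := hP.isNilpotent
  have h1 := Group.normalizerCondition_of_isNilpotent (G := P) (D.subgroupOf P)
    (lt_top_iff_ne_top.mpr fun e => h.not_ge (Subgroup.subgroupOf_eq_top.mp e))
  rw [← Subgroup.subgroupOf_normalizer_eq h.le] at h1
  obtain ⟨x, hx, hx'⟩ := SetLike.exists_of_lt h1
  have hlt : D < P ⊓ Subgroup.normalizer (D : Set G) :=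
    lt_of_le_of_ne (le_inf h.le Subgroup.le_normalizer) fun e => hx' (by
      rw [Subgroup.mem_subgroupOf, e]; exact ⟨x.2, hx⟩)
  exact lt_of_le_of_ne (Subgroup.card_le_of_le hlt.le) fun e =>
    hlt.ne (Subgroup.eq_of_le_of_card_ge hlt.le e.ge)

/-- Let P and Q be distinct Sylow p-subgroups of a finite group G chosen so that the order of P ∩ Q is as large as possible among intersections of two distinct Sylow p-subgroups, and let N be the normalizer of P ∩ Q. Then N has more than one Sylow p-subgroup, any two distinct Sylow p-subgroups of N intersect exactly in P ∩ Q, and each Sylow p-subgroup of N lies in exactly one Sylow p-subgroup of G. -/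
theorem result {G : Type*} [Group G] [Finite G] (p : ℕ) [Fact p.Prime] (P Q : Sylow p G) (hPQ : P ≠ Q) (hmax : ∀ P' Q' : Sylow p G, P' ≠ Q' → Nat.card ↥((P' : Subgroup G) ⊓ (Q' : Subgroup G)) ≤ Nat.card ↥((P : Subgroup G) ⊓ (Q : Subgroup G))) : 1 < Nat.card (Sylow p ↥(Subgroup.normalizer (((P : Subgroup G) ⊓ (Q : Subgroup G) : Subgroup G) : Set G))) ∧ (∀ S T : Sylow p ↥(Subgroup.normalizer (((P : Subgroup G) ⊓ (Q : Subgroup G) : Subgroup G) : Set G)), S ≠ T → (S : Subgroup _) ⊓ (T : Subgroup _) = ((P : Subgroup G) ⊓ (Q : Subgroup G)).subgroupOf (Subgroup.normalizer (((P : Subgroup G) ⊓ (Q : Subgroup G) : Subgroup G) : Set G))) ∧ ∀ S : Sylow p ↥(Subgroup.normalizer (((P : Subgroup G) ⊓ (Q : Subgroup G) : Subgroup G) : Set G)), ∃! T : Sylow p G, (S : Subgroup _).map (Subgroup.normalizer (((P : Subgroup G) ⊓ (Q : Subgroup G) : Subgroup G) : Set G)).subtype ≤ (T : Subgroup G) := by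
  set D := (P : Subgroup G) ⊓ (Q : Subgroup G) with hD
  set N := Subgroup.normalizer (D : Set G) with hN
  have hDP : D < P := lt_of_le_of_ne inf_le_left fun e => hPQ (Sylow.ext
    (P.3 Q.isPGroup' (e ▸ inf_le_right)).symm)
  have hDQ : D < Q := lt_of_le_of_ne inf_le_right fun e => hPQ (Sylow.ext
    (Q.3 P.isPGroup' (e ▸ inf_le_left)))
  have hP := lt_inf P.isPGroup' hDP
  have hQ := lt_inf Q.isPGroup' hDQ
  have hsub : ∀ R : Sylow p G, IsPGroup p ((R : Subgroup G).subgroupOf N) := fun R =>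
    R.isPGroup'.comap_subtype
  have hcard : ∀ R : Subgroup G, Nat.card (R.subgroupOf N) = Nat.card ↥(R ⊓ N) := fun R => by
    rw [← Subgroup.subgroupOf_map_subtype, Subgroup.card_map_of_injective N.subtype_injective]
  have hbig : ∀ S : Sylow p N, Nat.card D < Nat.card ((S : Subgroup N).map N.subtype) := fun S => by
    obtain ⟨T, hT⟩ := (hsub P).exists_le_sylow
    rw [Subgroup.card_map_of_injective N.subtype_injective, S.card_eq_multiplicity,
      ← T.card_eq_multiplicity]
    exact hP.trans_le ((hcard _).symm.trans_le (Subgroup.card_le_of_le hT))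
  have hex : ∀ S : Sylow p N, ∃ R : Sylow p G, (S : Subgroup N).map N.subtype ≤ R := fun S =>
    (S.isPGroup'.map N.subtype).exists_le_sylow
  have hDS : ∀ S : Sylow p N, D.subgroupOf N ≤ S := fun S =>
    IsPGroup.le_sylow_of_normal (N := D.subgroupOf N)
      ((P.isPGroup'.to_le hDP.le).comap_subtype) S
  refine ⟨?_, fun S T hST => ?_, fun S => ?_⟩
  · rw [Finite.one_lt_card_iff_nontrivial]
    by_contra hs
    rw [not_nontrivial_iff_subsingleton] at hs
    obtain ⟨S, hS⟩ := (hsub P).exists_le_sylow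
    obtain ⟨T, hT⟩ := (hsub Q).exists_le_sylow
    obtain rfl := Subsingleton.elim S T
    obtain ⟨R, hR⟩ := hex S
    have h1 : (P : Subgroup G) ⊓ N ≤ R := by
      rw [← Subgroup.subgroupOf_map_subtype]; exact (Subgroup.map_mono hS).trans hR
    have h2 : (Q : Subgroup G) ⊓ N ≤ R := by
      rw [← Subgroup.subgroupOf_map_subtype]; exact (Subgroup.map_mono hT).trans hR
    exact hPQ ((uniq hmax hP inf_le_left h1).trans (uniq hmax hQ inf_le_left h2).symm)
  · by_contra hne
    have hle : D.subgroupOf N ≤ (S : Subgroup N) ⊓ (T : Subgroup N) := le_inf (hDS S) (hDS T)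
    have hlt : Nat.card D < Nat.card (((S : Subgroup N) ⊓ (T : Subgroup N)).map N.subtype) := by
      rw [Subgroup.card_map_of_injective N.subtype_injective,
        ← inf_eq_left.mpr (show D ≤ N from Subgroup.le_normalizer), ← hcard]
      exact lt_of_le_of_ne (Subgroup.card_le_of_le hle) fun e =>
        hne (Subgroup.eq_of_le_of_card_ge hle e.ge).symm
    obtain ⟨R, hR⟩ := hex S
    obtain ⟨R', hR'⟩ := hex T
    obtain rfl := uniq hmax hlt ((Subgroup.map_mono inf_le_left).trans hR)
      ((Subgroup.map_mono inf_le_right).trans hR')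
    apply hST
    apply Sylow.ext
    rw [← S.3 (hsub R) (Subgroup.map_le_iff_le_comap.mp hR),
      ← T.3 (hsub R) (Subgroup.map_le_iff_le_comap.mp hR')]
  · obtain ⟨R, hR⟩ := hex S
    exact ⟨R, hR, fun R' hR' => uniq hmax (hbig S) hR' hR⟩

end Cfsg.Agent.S0986
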