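import Cfsg.Statements.S0987
import Cfsg.Agent.FT.BG01
-- import your own Cfsg.Agent.* helpers here

set_option autoImplicit false
open Cfsg

namespace Cfsg.Agent.S0987

/-- If a finite group has order pqr for primes p < q < r, then its Sylow r-subgroups are normal. -/
theorem result {G : Type*} [Group G] [Finite G] (p q r : ℕ) (hp : p.Prime) (hq : q.Prime) [Fact r.Prime] (hpq : p < q) (hqr : q < r) (hG : Nat.card G = p * q * r) (R : Sylow r G) : (R : Subgroup G).Normal := by
  open FT in
  have hr : r.Prime := Fact.out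
  have hG' : #(⊤ : Subgroup G) = p * q * r := by rw [Subgroup.card_top, hG]
  have step : ∀ (M : Subgroup G) (a m : ℕ), a.Prime → #M = a * m →
      (∀ s, s.Prime → s ∣ m → a < s) → #O[{a}ᶜ](M) = m := by
    intro M a m ha hM hs
    obtain ⟨P, hP⟩ := exists_syl a M
    have ham : ¬ a ∣ m := fun h => lt_irrefl _ (hs a ha h)
    have hm0 : m ≠ 0 := fun e => ham (e ▸ dvd_zero a)
    have hc : #P = a := by
      rw [hP.card_syl ha, hM, Nat.factorization_mul ha.ne_zero hm0, Finsupp.add_apply,
        ha.factorization_self, Nat.factorization_eq_zero_of_not_dvd ham, add_zero, pow_one]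
    have : Fact a.Prime := ⟨ha⟩
    have hN := cyclic_pdiv_normal_complement hP (isCyclic_of_prime_card hc) fun s hs' hd => by
      rw [hM] at hd
      rcases (Nat.Prime.dvd_mul hs').mp hd with h | h
      · exact ((Nat.prime_dvd_prime_iff_eq hs' ha).mp h).ge
      · exact (hs s hs' h).le
    have := (hN.sd hP).card
    rw [hc, hM, mul_comm] at this
    exact (Nat.eq_of_mul_eq_mul_right ha.pos this).symm
  have h1 := step ⊤ p (q * r) hp (by rw [hG', mul_assoc]) fun s hs hd => by
    rcases (Nat.Prime.dvd_mul hs).mp hd with h | h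
    · rw [(Nat.prime_dvd_prime_iff_eq hs hq).mp h]; exact hpq
    · rw [(Nat.prime_dvd_prime_iff_eq hs hr).mp h]; omega
  have h2 := step _ q r hq h1 fun s hs hd => by
    rw [(Nat.prime_dvd_prime_iff_eq hs hr).mp hd]; exact hqr
  have hn := (pcore_nml {p}ᶜ (⊤ : Subgroup G)).pcore {q}ᶜ
  have hL : PGrp r O[{q}ᶜ](O[{p}ᶜ]((⊤ : Subgroup G))) := by
    show PiNat _ _
    rw [h2]; exact (piNat_prime hr).mpr rfl
  have hR := syl_top hr R
  have hle := hR.ge_of_nml hL hn
  have hc : #(R : Subgroup G) = r := by
    have hpq' : ¬ r ∣ p * q := fun h => by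
      rcases (Nat.Prime.dvd_mul hr).mp h with h | h
      · have := Nat.le_of_dvd hp.pos h; omega
      · have := Nat.le_of_dvd hq.pos h; omega
    rw [hR.card_syl hr, hG', Nat.factorization_mul (mul_pos hp.pos hq.pos).ne' hr.ne_zero,
      Finsupp.add_apply, hr.factorization_self, Nat.factorization_eq_zero_of_not_dvd hpq',
      zero_add, pow_one]
  rw [← Subgroup.eq_of_le_of_card_ge hle (by omega), ← Subgroup.normalizer_eq_top_iff]
  exact top_le_iff.mp hn.nrm

end Cfsg.Agent.S0987
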