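import Cfsg.Statements.S0988
import Mathlib
import Cfsg.Agent.H23.Cube
import Cfsg.Agent.H9.BT
import Cfsg.Agent.S0073
-- import your own Cfsg.Agent.* helpers here

set_option autoImplicit false
open Cfsg

namespace Cfsg.Agent.S0988

/-- If a finite simple group has order p^2 * q * r with p, q and r prime, then its order is 60. -/
theorem result {G : Type*} [Group G] [Finite G] [IsSimpleGroup G] (p q r : ℕ) (hp : p.Prime) (hq : q.Prime) (hr : r.Prime) (hG : Nat.card G = p ^ 2 * q * r) : Nat.card G = 60 := by
  have hn : ¬ (Nat.card G).Prime := by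
    rw [hG, mul_assoc]
    exact Nat.not_prime_mul (by nlinarith [hp.two_le]) (by nlinarith [hq.two_le, hr.two_le])
  have hc := H20.simple_not_comm_of_not_prime hn
  have two : ∀ {a b i j : ℕ}, a.Prime → b.Prime → Nat.card G ≠ a ^ i * b ^ j :=
    fun ha hb e => hc ⟨⟨H9.comm_of_simple_two_primes ha hb e⟩⟩
  have pq : p ≠ q := by rintro rfl; exact two (i := 3) (j := 1) hp hr (by rw [hG]; ring)
  have pr : p ≠ r := by rintro rfl; exact two (i := 3) (j := 1) hp hq (by rw [hG]; ring)
  have qr : q ≠ r := by rintro rfl; exact two (i := 2) (j := 2) hp hq (by rw [hG]; ring)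
  have fac : ∀ {m k : ℕ}, m.Prime → m ^ k ∣ Nat.card G →
      k ≤ (if p = m then 2 else 0) + (if q = m then 1 else 0) + (if r = m then 1 else 0) :=
    fun {m k} hm hd => by
      have := (hm.pow_dvd_iff_le_factorization Nat.card_pos.ne').1 hd
      rwa [hG, Nat.factorization_mul (by have := hp.pos; have := hq.pos; positivity) hr.ne_zero,
        Nat.factorization_mul (by have := hp.pos; positivity) hq.ne_zero, hp.factorization_pow,
        hq.factorization, hr.factorization, Finsupp.add_apply, Finsupp.add_apply,
        Finsupp.single_apply, Finsupp.single_apply, Finsupp.single_apply] at this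
  have key : ∀ s : ℕ, s.Prime → s ≠ 2 → s ≠ 3 → Nat.card G = 12 * s → Nat.card G = 60 :=
    fun s hs h2 h3 e => by
      have s5 := hs.five_le_of_ne_two_of_ne_three h2 h3
      obtain ⟨t, rfl⟩ : ∃ t, s = t + 2 := ⟨s - 2, by omega⟩
      rcases (H23.cube_cases.{0} (H23.not_cyclic_of_card rfl hn) hs (e ▸ dvd_mul_left _ _)
        (by
          have : 12 < (t + 2) * (t + 2) := by nlinarith
          rw [e]; nlinarith)).2 with ⟨h, -⟩ | ⟨h, -⟩ <;> rw [e] at h ⊢ <;>
        simp only [Nat.add_sub_cancel, show t + 2 - 1 = t + 1 from rfl] at h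
      · have : 24 = (t + 1) * (t + 3) := Nat.eq_of_mul_eq_mul_left (show 0 < t + 2 by omega)
          (by linarith)
        have : t = 3 := by nlinarith
        omega
      · have : 12 = (t + 1) * t := Nat.eq_of_mul_eq_mul_left (show 0 < t + 2 by omega)
          (by linarith)
        have : t = 3 := by nlinarith
        omega
  rcases S0073.result (G := G) (by by_contra! h; exact hc ⟨⟨h⟩⟩) with h | h
  · have := fac (Nat.minFac_prime fun e => hn ?_) h
    · split_ifs at this <;> omega
    · exact absurd e Finite.one_lt_card.ne'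
  · have a2 := fac (k := 2) Nat.prime_two (dvd_trans (by norm_num) h)
    have a3 := fac (k := 1) Nat.prime_three (dvd_trans (by norm_num) h)
    have p2 : p = 2 := by split_ifs at a2 <;> omega
    subst p2
    by_cases q3 : q = 3
    · subst q3; exact key r hr pr.symm qr.symm (by rw [hG]; ring)
    · have r3 : r = 3 := by split_ifs at a3 <;> omega
      subst r3; exact key q hq pq.symm q3 (by rw [hG]; ring)

end Cfsg.Agent.S0988
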