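import Cfsg.Statements.S0990
-- import your own Cfsg.Agent.* helpers here

set_option autoImplicit false
open Cfsg

namespace Cfsg.Agent.S0990

/-- Let p be an odd prime and P a Sylow p-subgroup of the symmetric group on a finite set with at least two elements. Then P is contained in the alternating group, and twice the order of the normalizer of P inside the alternating group equals the order of the normalizer of P in the symmetric group. -/
theorem result {α : Type*} [Fintype α] [DecidableEq α] (hα : 2 ≤ Fintype.card α) (p : ℕ) [Fact p.Prime] (hp : p ≠ 2) (P : Sylow p (Equiv.Perm α)) : (P : Subgroup (Equiv.Perm α)) ≤ alternatingGroup α ∧ 2 * Nat.card ↥(Subgroup.normalizer ((((P : Subgroup (Equiv.Perm α)).subgroupOf (alternatingGroup α) : Subgroup ↥(alternatingGroup α)) : Set ↥(alternatingGroup α)))) = Nat.card ↥(Subgroup.normalizer ((P : Subgroup (Equiv.Perm α)) : Set (Equiv.Perm α))) := by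
  have hp' : p.Prime := Fact.out
  have : Nontrivial α := Fintype.one_lt_card_iff_nontrivial.mp hα
  have hle : (P : Subgroup (Equiv.Perm α)) ≤ alternatingGroup α := by
    intro g hg
    obtain ⟨k, hk⟩ := P.isPGroup' ⟨g, hg⟩
    have hk' : g ^ p ^ k = 1 := congrArg Subtype.val hk
    have := congrArg Equiv.Perm.sign hk'
    rw [map_pow, map_one] at this
    rw [Equiv.Perm.mem_alternatingGroup]
    rcases Int.units_eq_one_or (Equiv.Perm.sign g) with h | h
    · exact h
    · rw [h, ((hp'.odd_of_ne_two hp).pow).neg_one_pow] at this
      exact absurd this (by decide)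
  refine ⟨hle, ?_⟩
  rw [← Subgroup.subgroupOf_normalizer_eq hle]
  have h1 := P.normalizer_sup_eq_top' hle
  have h2 := Subgroup.relIndex_sup_right
    (Subgroup.normalizer ((P : Subgroup (Equiv.Perm α)) : Set (Equiv.Perm α))) (alternatingGroup α)
  have h3 : Subgroup.normalizer ((P : Subgroup (Equiv.Perm α)) : Set (Equiv.Perm α)) ⊔
    alternatingGroup α = ⊤ := h1
  rw [h3, Subgroup.relIndex_top_right, alternatingGroup.index_eq_two] at h2
  set N := Subgroup.normalizer ((P : Subgroup (Equiv.Perm α)) : Set (Equiv.Perm α))
  have h4 := ((alternatingGroup α).subgroupOf N).index_mul_card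
  have h5 : Nat.card ((alternatingGroup α).subgroupOf N) =
      Nat.card (N.subgroupOf (alternatingGroup α)) := by
    rw [← Subgroup.card_map_of_injective (K := (alternatingGroup α).subgroupOf N)
      N.subtype_injective, ← Subgroup.card_map_of_injective (K := N.subgroupOf (alternatingGroup α))
      (alternatingGroup α).subtype_injective, Subgroup.subgroupOf_map_subtype,
      Subgroup.subgroupOf_map_subtype, inf_comm]
  rw [← h4, ← h5, h2]
  rfl

end Cfsg.Agent.S0990
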