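import Cfsg.Statements.S0996
import Mathlib
import Cfsg.Agent.H7.BR3

set_option autoImplicit false
open Cfsg

namespace Cfsg.Agent.S0996

/-- Let G be a finite perfect group containing an element z of prime order p whose centralizer is the cyclic group it generates, and suppose the number 1 + n * p of Sylow p-subgroups satisfies n < (p + 3) / 2. Then p > 3 and G is isomorphic to the projective special linear group of dimension 2 over the field with p elements, or p - 1 is a power of 2 and G is isomorphic to that group over the field with p - 1 elements. -/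
theorem result {G : Type*} [Group G] [Finite G] (hperf : commutator G = ⊤) (p : ℕ) [Fact p.Prime] (z : G) (hz : orderOf z = p) (hC : Subgroup.centralizer ({z} : Set G) = Subgroup.zpowers z) (hn : 2 * Nat.card (Sylow p G) < (p + 1) * (p + 2)) : (∃ (F : Type) (_ : Field F) (_ : Fintype F), Fintype.card F = p ∧ 3 < p ∧ Nonempty (G ≃* Matrix.ProjectiveSpecialLinearGroup (Fin 2) F)) ∨ (∃ (m : ℕ) (F : Type) (_ : Field F) (_ : Fintype F), Fintype.card F = 2 ^ m ∧ p = 2 ^ m + 1 ∧ 3 < p ∧ Nonempty (G ≃* Matrix.ProjectiveSpecialLinearGroup (Fin 2) F)) := by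
  have h : H24.D1.SC p z := ⟨hz, hC⟩
  obtain ⟨n, hn'⟩ := H7.exists_index_NN h.syl1
  rw [h.syl1.card_sylow, hn'] at hn
  obtain ⟨h3, hb⟩ := H7.br_SC h hperf hn' fun hF => by
    have := Nat.mul_le_mul_right p hF.le
    nlinarith
  rcases hb with e | ⟨a, F, _, _, h1, h2, e, -⟩
  · exact Or.inl ⟨ZMod p, inferInstance, inferInstance, ZMod.card p, h3, e.2.2⟩
  · exact Or.inr ⟨a, F, inferInstance, inferInstance, h1, h2, h3, e⟩

end Cfsg.Agent.S0996
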