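import Cfsg.Statements.S0997
import Mathlib
import Cfsg.Agent.H7.BT4

set_option autoImplicit false
open Cfsg

namespace Cfsg.Agent.S0997

/-- Let G be a non-cyclic finite simple group of order p * q^b * g₀, where p and q are distinct primes and g₀ < p - 1. Then either p has the form 2^m + 1 or 2^m - 1 and G is isomorphic to the projective special linear group of dimension 2 over the field with p elements, or p = 2^m + 1 > 3 and G is isomorphic to that group over the field with 2^m elements. -/
theorem result {G : Type*} [Group G] [Finite G] [IsSimpleGroup G] (hG : ¬ IsCyclic G) (p q b g₀ : ℕ) (hp : p.Prime) (hq : q.Prime) (hpq : p ≠ q) (hG' : Nat.card G = p * q ^ b * g₀) (hg : g₀ < p - 1) : (∃ (m : ℕ) (F : Type) (_ : Field F) (_ : Fintype F), Fintype.card F = p ∧ (p = 2 ^ m + 1 ∨ p = 2 ^ m - 1) ∧ Nonempty (G ≃* Matrix.ProjectiveSpecialLinearGroup (Fin 2) F)) ∨ (∃ (m : ℕ) (F : Type) (_ : Field F) (_ : Fintype F), Fintype.card F = 2 ^ m ∧ p = 2 ^ m + 1 ∧ 3 < p ∧ Nonempty (G ≃* Matrix.ProjectiveSpecialLinearGroup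 (Fin 2) F)) := by
  haveI := Fact.mk hp
  have hnc : ¬ IsMulCommutative G := fun h =>
    haveI := Fact.mk (H20.simple_comm_card_prime h)
    hG (isCyclic_of_prime_card rfl)
  rcases H7.brauer_tuan hnc hq hpq hG' hg with ⟨m, h1, h2⟩ | h
  · exact Or.inl ⟨m, ZMod p, inferInstance, inferInstance, ZMod.card p, h1, h2⟩
  · exact Or.inr h

end Cfsg.Agent.S0997
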