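import Cfsg.Statements.S0998
import Mathlib
import Cfsg.Agent.S0997
import Cfsg.Agent.S0204
import Cfsg.Agent.H7.BT5
import Cfsg.Agent.H10.SmallIso
-- import your own Cfsg.Agent.* helpers here

set_option autoImplicit false
open Cfsg

namespace Cfsg.Agent.S0998

theorem aux {G : Type*} [Group G] [Finite G] [IsSimpleGroup G] (hG : ¬ IsCyclic G) {p q r b : ℕ}
    (hp : p.Prime) (hq : q.Prime) (hr : r.Prime) (hpq : p ≠ q) (hpr : r < p)
    (hG' : Nat.card G = p * r * q ^ b) : p = 3 ∨ r = 3 := by
  by_cases h : r < p - 1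
  · have h3 : 3 ∣ Nat.card G := by
      have key : ∀ (F : Type) [Field F] [Fintype F],
          (G ≃* Matrix.ProjectiveSpecialLinearGroup (Fin 2) F) → 3 ∣ Nat.card G := fun F _ _ e => by
        have h1 := H10.card_PSL_two (F := F)
        have h2 := Fintype.card_pos (α := F)
        rw [Nat.card_congr e.toEquiv]
        refine (Nat.Coprime.dvd_mul_left (Nat.Coprime.coprime_dvd_right (Nat.gcd_dvd_left 2
          (Fintype.card F - 1)) (by norm_num))).1 (h1 ▸ ?_)
        obtain ⟨n, hn⟩ := Nat.exists_eq_add_of_lt h2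
        rw [hn, Nat.dvd_iff_mod_eq_zero, Nat.add_sub_cancel, Nat.mul_mod, Nat.mul_mod (_ + 1),
          Nat.add_mod (_ + 1), Nat.add_mod (0 + n)]
        have := Nat.mod_lt (0 + n) three_pos
        interval_cases (0 + n) % 3 <;> rfl
      rcases S0997.result hG p q b r hp hq hpq (by rw [hG']; ring) h with
        ⟨_, F, _, _, -, -, ⟨e⟩⟩ | ⟨_, F, _, _, -, -, -, ⟨e⟩⟩ <;> exact key F e
    obtain ⟨E, hE⟩ := S0204.result hG
    have h4 := hE.card_four ▸ E.card_subgroup_dvd_card
    rw [hG'] at h3 h4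
    obtain rfl : q = 2 := by
      by_contra h2
      have h5 : 2 * 2 ∣ p * r := (Nat.Coprime.dvd_mul_right (Nat.Coprime.pow_right _ (Nat.Coprime.pow_left 2
        ((Nat.coprime_primes Nat.prime_two hq).2 (Ne.symm h2))))).1 h4
      have h6 := hr.two_le
      have h7 := (Nat.Coprime.dvd_mul_left (Nat.Coprime.pow_left 2
        ((Nat.coprime_primes Nat.prime_two hp).2 (by omega)))).1 h5
      exact absurd ((Nat.dvd_prime hr).1 h7) (by rintro (h | h); omega; exact absurd (h ▸ hr) (by norm_num))
    have h5 := (Nat.Coprime.dvd_mul_right (Nat.Coprime.pow_right _ (by norm_num))).1 h3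
    exact ((Nat.prime_three.dvd_mul).1 h5).imp (fun h => ((Nat.prime_dvd_prime_iff_eq Nat.prime_three hp).1 h).symm)
      fun h => ((Nat.prime_dvd_prime_iff_eq Nat.prime_three hr).1 h).symm
  · have := hr.two_le
    rcases hr.eq_two_or_odd with h1 | h1
    · omega
    · rcases hp.eq_two_or_odd with h2 | h2 <;> omega

/-- A non-cyclic finite simple group whose order has the form p * r * q^b for distinct primes p, q, r is isomorphic to the projective special linear group of dimension 2 over the field with 5 or with 7 elements. -/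
theorem result {G : Type*} [Group G] [Finite G] [IsSimpleGroup G] (hG : ¬ IsCyclic G) (p q r b : ℕ) (hp : p.Prime) (hq : q.Prime) (hr : r.Prime) (hpq : p ≠ q) (hpr : p ≠ r) (hqr : q ≠ r) (hG' : Nat.card G = p * r * q ^ b) : (∃ (F : Type) (_ : Field F) (_ : Fintype F), Fintype.card F = 5 ∧ Nonempty (G ≃* Matrix.ProjectiveSpecialLinearGroup (Fin 2) F)) ∨ (∃ (F : Type) (_ : Field F) (_ : Fintype F), Fintype.card F = 7 ∧ Nonempty (G ≃* Matrix.ProjectiveSpecialLinearGroup (Fin 2) F)) := by
  have hn : ¬ IsMulCommutative G := fun h => hG (by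
    let _ : CommGroup G := { (inferInstance : Group G) with mul_comm := h.is_comm.comm }
    infer_instance)
  have h3 : p = 3 ∨ r = 3 := by
    rcases lt_or_gt_of_ne hpr with h | h
    · exact (aux (b := b) hG hr hq hp hqr.symm h (hG'.trans (by ring))).symm
    · exact aux hG hp hq hr hpq h hG'
  have : Fact (Nat.Prime 5) := ⟨by norm_num⟩
  have : Fact (Nat.Prime 7) := ⟨by norm_num⟩
  have key : Nonempty (G ≃* alternatingGroup (Fin 5)) ∨
      Nonempty (G ≃* Matrix.ProjectiveSpecialLinearGroup (Fin 2) (ZMod 7)) := by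
    rcases h3 with rfl | rfl
    · exact H7.simple_three (a := 1) (b := b) hn hr hq hqr.symm one_le_two (hG'.trans (by ring))
    · exact H7.simple_three (a := 1) (b := b) hn hp hq hpq one_le_two (hG'.trans (by ring))
  refine key.imp (fun ⟨e⟩ => ?_) fun e => ⟨ZMod 7, _, _, rfl, e⟩
  obtain ⟨f⟩ := H10.PSL2_five_equiv (F := ZMod 5) (by simp)
  exact ⟨ZMod 5, _, _, rfl, ⟨e.trans f.symm⟩⟩

end Cfsg.Agent.S0998
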