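import Cfsg.Statements.S1001
import Mathlib
import Cfsg.Agent.H9.BT

set_option autoImplicit false
open Cfsg

namespace Cfsg.Agent.S1001

/-- In a finite simple group whose order has the form p * 3^a * 2^b with p prime, the centralizer of any element of order p is the cyclic group it generates. -/
theorem result {G : Type*} [Group G] [Finite G] [IsSimpleGroup G] (p a b : ℕ) (hp : p.Prime) (hG : Nat.card G = p * 3 ^ a * 2 ^ b) (x : G) (hx : orderOf x = p) : Subgroup.centralizer ({x} : Set G) = Subgroup.zpowers x := by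
  by_cases hna : ∀ a b : G, a * b = b * a
  · have h1 : (Subgroup.zpowers x).Normal := ⟨fun n hn g => by
      rwa [hna g n, mul_inv_cancel_right]⟩
    rw [h1.eq_bot_or_eq_top.resolve_left fun h => hp.one_lt.ne' (by
      rw [← hx, Subgroup.zpowers_eq_bot.1 h, orderOf_one]), eq_top_iff]
    exact fun g _ => Subgroup.mem_centralizer_singleton_iff.2 (hna _ _)
  have h2 : p ≠ 2 := fun e => hna (H9.comm_of_simple_two_primes Nat.prime_three Nat.prime_two
    (a := a) (b := b + 1) (by rw [hG, e]; ring))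
  have h3 : p ≠ 3 := fun e => hna (H9.comm_of_simple_two_primes Nat.prime_three Nat.prime_two
    (a := a + 1) (b := b) (by rw [hG, e]; ring))
  have hc : p.Coprime (3 ^ a * 2 ^ b) := Nat.Coprime.mul_right
    (((Nat.coprime_primes hp Nat.prime_three).2 h3).pow_right a)
    (((Nat.coprime_primes hp Nat.prime_two).2 h2).pow_right b)
  have hsq : ¬ p ^ 2 ∣ Nat.card G := fun h => by
    rw [hG, mul_assoc, sq, Nat.mul_dvd_mul_iff_left hp.pos] at h
    exact hp.one_lt.ne' (hc.eq_one_of_dvd h)
  have hle : Subgroup.zpowers x ≤ Subgroup.centralizer ({x} : Set G) :=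
    Subgroup.zpowers_le.2 (Subgroup.mem_centralizer_singleton_iff.2 rfl)
  by_contra hne
  obtain ⟨m, hm⟩ := Subgroup.card_dvd_of_le hle
  rw [Nat.card_zpowers, hx] at hm
  have hm1 : m ≠ 1 := fun e => hne (Subgroup.eq_of_le_of_card_ge hle (by
    rw [hm, e, Nat.card_zpowers, hx, mul_one])).symm
  obtain ⟨q, hq, hqm⟩ := Nat.exists_prime_and_dvd hm1
  have hmd : m ∣ 3 ^ a * 2 ^ b := by
    have := Subgroup.card_subgroup_dvd_card (Subgroup.centralizer ({x} : Set G))
    rwa [hm, hG, mul_assoc, Nat.mul_dvd_mul_iff_left hp.pos] at this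
  have := Fact.mk hq
  have := Fact.mk hp
  obtain ⟨y, hy⟩ := exists_prime_orderOf_dvd_card' (G := Subgroup.centralizer ({x} : Set G)) q
    (hm ▸ hqm.mul_left p)
  have hpq : p.Coprime q := hc.coprime_dvd_right (hqm.trans hmd)
  have ho : orderOf (x * y) = p * q := by
    rw [(show Commute x y from (Subgroup.mem_centralizer_singleton_iff.1 y.2).symm).orderOf_mul_eq_mul_orderOf_of_coprime
      (by rwa [hx, Subgroup.orderOf_coe, hy]), hx, Subgroup.orderOf_coe, hy]
  obtain ⟨M, hM⟩ := H7.exists_isPModular hq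
  have key : ∀ r c d : ℕ, r.Prime → Nat.card G = p ^ 1 * q ^ c * r ^ d → False := fun r c d hr e => by
    obtain ⟨χ, h4, h5, h6, h7⟩ := H9.exists_principal_not_dvd hM (g := x * y)
      (ho ▸ dvd_mul_left q p) hr
    obtain ⟨k, hk⟩ := H9.eq_pow_of_dvd hp hq hr (e ▸ H8.charDegree_dvd_card χ)
      (H9.not_dvd_degree_of_ne_zero hsq χ.2 (ho ▸ dvd_mul_right p q) h7) h6
    exact H9.not_pow_of_principal hna hM ((dvd_mul_left q p).trans (ho ▸ orderOf_dvd_natCard _))
      h4 h5 k hk
  rcases (Nat.Prime.dvd_mul hq).1 (hqm.trans hmd) with h | h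
  · obtain rfl := (Nat.prime_dvd_prime_iff_eq hq Nat.prime_three).1 (hq.dvd_of_dvd_pow h)
    exact key 2 a b Nat.prime_two (by rw [hG, pow_one])
  · obtain rfl := (Nat.prime_dvd_prime_iff_eq hq Nat.prime_two).1 (hq.dvd_of_dvd_pow h)
    exact key 3 b a Nat.prime_three (by rw [hG]; ring)

end Cfsg.Agent.S1001
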