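import Cfsg.Statements.S1002
import Mathlib
import Cfsg.Agent.FT.Main

set_option autoImplicit false
open Cfsg

namespace Cfsg.Agent.S1002


/-- No finite simple group has order 1004913 = 3^3 * 7 * 13 * 409. -/
theorem result {G : Type*} [Group G] [Finite G] [IsSimpleGroup G] : Nat.card G ≠ 1004913 := by
  intro h
  haveI : Group.IsSolvable G := FT.odd_order_solvable (by rw [h]; decide)
  have hc : ∀ a b : G, a * b = b * a := IsSimpleGroup.comm_iff_isSolvable.2 ‹_›
  letI : CommGroup G := { (inferInstance : Group G) with mul_comm := hc }
  have hp := IsSimpleGroup.prime_card (α := G)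
  rw [h] at hp
  norm_num at hp

end Cfsg.Agent.S1002
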