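import Cfsg.Statements.S1010
import Mathlib
import Cfsg.Agent.H28.SylNum
import Cfsg.Agent.S4304

set_option autoImplicit false
open Cfsg

namespace Cfsg.Agent.S1010

open Subgroup MulAction Cfsg.Agent.H28

/-- No finite group has exactly twenty-one Sylow 5-subgroups. -/
theorem result {G : Type*} [Group G] [Finite G] : Nat.card (Sylow 5 G) ≠ 21 := by
  haveI : Fact (Nat.Prime 3) := ⟨by norm_num⟩
  haveI : Fact (Nat.Prime 5) := ⟨by norm_num⟩
  haveI : Fact (Nat.Prime 7) := ⟨by norm_num⟩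
  refine card_sylow_ne_of_reduced 5 21 ?_ G
  intro G _ _ hF hO hn
  have h2 := no_index_two_of_reduced (by norm_num) hO
  have hP := card_sylow_eq_of_le_sq hF (by rw [hn]; norm_num) (by rw [hn]; norm_num)
  obtain ⟨P⟩ : Nonempty (Sylow 5 G) := inferInstance
  have hlt : ∀ g : G, g ≠ 1 → fx (Sylow 5 G) g < 21 := fun g hg1 => hn ▸ fx_lt (by
    by_contra hc
    push Not at hc
    exact hg1 (hF g hc))
  set N := normalizer ((P : Subgroup G) : Set G) with hNdef
  set C := centralizer ((P : Subgroup G) : Set G) with hCdef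
  have hCN : C ≤ N := Cfsg.Agent.H4.centralizer_le_normalizer' _
  have hfixP : ∀ g ∈ N, g • P = P := fun g hg => sylow_smul_eq_iff.2 hg
  have hc : (P : Subgroup G).relIndex C ∣ 24 :=
    relIndex_centralizer_dvd_factorial hF (hP P) (k := 4) hn
  have he : C.relIndex N ∣ 4 := relIndex_centralizer_dvd (by norm_num : Nat.Prime 5) (hP P)
  have hC := Cfsg.Agent.H4.card_mul_relIndex
    (show (P : Subgroup G) ≤ C from le_centralizer_of_prime_card (by norm_num) (hP P))
  have hN := Cfsg.Agent.H4.card_mul_relIndex hCN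
  have hG := card_eq_card_sylow_mul P
  rw [hP P] at hC
  rw [hn, ← hNdef, ← hN, ← hC] at hG
  rw [← hC] at hN
  obtain ⟨c, hcdef⟩ : ∃ c, (P : Subgroup G).relIndex C = c := ⟨_, rfl⟩
  obtain ⟨e, hedef⟩ : ∃ e, C.relIndex N = e := ⟨_, rfl⟩
  rw [hcdef] at hc hC hN hG
  rw [hedef] at he hN hG
  have hce : c * e ∣ 96 := mul_dvd_mul hc he
  obtain ⟨m, hm⟩ : ∃ m, c * e = m := ⟨_, rfl⟩
  rw [mul_assoc, hm] at hN hG
  rw [hm] at hce
  have hm7 : ¬ 7 ∣ m := fun h => by have := h.trans hce; norm_num at this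
  have hNQ : ∀ Q : Sylow 5 G, Nat.card (normalizer ((Q : Subgroup G) : Set G)) = 5 * m :=
    fun Q => by have := card_eq_card_sylow_mul Q; rw [hn, hG] at this; omega
  have h49 : ¬ 7 ^ 2 ∣ Nat.card G := by rw [hG]; omega
  obtain ⟨X⟩ : Nonempty (Sylow 7 G) := inferInstance
  have hX := card_sylow_of_dvd_of_not_sq_dvd (by rw [hG]; omega) h49 X
  have hxfix : ∀ x ∈ (X : Subgroup G), x ≠ 1 → fixedBy (Sylow 5 G) x = ∅ := by
    intro x hx hx1
    rw [Set.eq_empty_iff_forall_notMem]
    intro Q hQ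
    have a1 : orderOf x ∣ 7 := hX ▸ orderOf_dvd_natCard (X : Subgroup G) hx
    have a2 : orderOf x ∣ 5 * m := hNQ Q ▸ orderOf_dvd_natCard _ (sylow_smul_eq_iff.1 hQ)
    rcases (Nat.dvd_prime (by norm_num)).1 a1 with e | e
    · exact hx1 (orderOf_eq_one_iff.1 e)
    · rw [e] at a2; omega
  have h5 : ¬ 5 ∣ Nat.card (normalizer ((X : Subgroup G) : Set G)) := by
    intro h
    obtain ⟨y, hy⟩ := exists_prime_orderOf_dvd_card' 5 h
    have hy' : orderOf (y : G) = 5 := by rw [orderOf_coe, hy]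
    have hyc := mem_centralizer_of_coprime (by norm_num) hX y.2 (by rw [hy']; norm_num)
    obtain ⟨x, hx, hx1, hxp⟩ := exists_mem_ne_one_of_card (by norm_num) hX
    have a1 := fx_modEq_of_commute (Y := Sylow 5 G) (by norm_num) hxp
      (mem_centralizer_iff.1 hyc x hx)
    rw [hxfix x hx hx1, Set.inter_empty, Set.ncard_empty] at a1
    obtain ⟨Q, hQ⟩ := (IsPGroup.of_card (p := 5) (n := 1) (G := zpowers (y : G))
      (by rw [Nat.card_zpowers, hy', pow_one])).exists_le_sylow
    rw [fx_sylow_of_card (hP Q) (hQ (mem_zpowers _))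
      (fun e => by rw [e, orderOf_one] at hy'; norm_num at hy')] at a1
    exact absurd a1 (by decide)
  have h7 : 7 ∣ Nat.card (normalizer ((X : Subgroup G) : Set G)) :=
    hX.symm.dvd.trans (card_dvd_of_le le_normalizer)
  obtain ⟨a, ha⟩ := h7
  have hG7 := card_eq_card_sylow_mul X
  rw [hG, ha] at hG7
  have hn7 : Nat.card (Sylow 7 G) = 120 := by
    have b1 : 5 ∣ Nat.card (Sylow 7 G) := by
      rw [ha] at h5
      exact ((Nat.Prime.dvd_mul (by norm_num)).1 (hG7 ▸ (by omega : 5 ∣ 21 * (5 * m)))).resolve_right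
        h5
    have b2 : Nat.card (Sylow 7 G) ∣ 1440 := by
      have : Nat.card (Sylow 7 G) * a = 15 * m := by nlinarith
      exact (Dvd.intro _ this).trans (Nat.mul_dvd_mul_left 15 hce)
    have b3 := card_sylow_modEq_one 7 G
    have : ∀ n ∈ Nat.divisors 1440, 5 ∣ n → n % 7 = 1 → n = 15 ∨ n = 120 := by decide +kernel
    exact (this _ (Nat.mem_divisors.2 ⟨b2, by norm_num⟩) b1 b3).resolve_left
      Cfsg.Agent.S4304.result
  rw [hn7] at hG7
  have hma : m = 8 * a := by omega
  have ha1 : a ≠ 1 := by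
    rintro rfl
    apply not_normalizer_le_of_reduced (by norm_num) hO X hX
    rw [← eq_of_le_of_card_ge (le_normalizer (H := (X : Subgroup G))) (by rw [ha, hX])]
    exact le_centralizer_of_prime_card (by norm_num) hX
  -- non-trivial `2`-elements of `C` fix only `P`
  have hinv : ∀ t ∈ C, t ≠ 1 → t ^ 2 = 1 → fx (Sylow 5 G) t = 1 := by
    intro t ht ht1 ht2
    have a1 := fx_modEq_one_of_centralizer (hP P) ht
    have a2 := four_dvd_card_sub_fx (Y := Sylow 5 G) h2 ht2
    have a3 := hlt t ht1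
    rw [hn] at a2
    unfold Nat.ModEq at a1
    omega
  have h2elt : ∀ u ∈ C, u ≠ 1 → (∃ k, u ^ 2 ^ k = 1) → fx (Sylow 5 G) u = 1 := by
    rintro u hu hu1 ⟨k, hk⟩
    obtain ⟨j, -, hj⟩ := (Nat.dvd_prime_pow Nat.prime_two).1 (orderOf_dvd_of_pow_eq_one hk)
    have hj0 : j ≠ 0 := by
      rintro rfl; exact hu1 (orderOf_eq_one_iff.1 hj)
    have hd : 2 ∣ orderOf u := hj ▸ dvd_pow_self 2 hj0
    have ho := orderOf_pow_orderOf_div (orderOf_pos u).ne' hd
    have a1 := hinv _ (pow_mem hu (orderOf u / 2))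
      (fun e => by rw [e, orderOf_one] at ho; norm_num at ho) (orderOf_dvd_iff_pow_eq_one.1 ho.dvd)
    have a2 := fx_le_pow (Y := Sylow 5 G) u (orderOf u / 2)
    have a3 := fx_pos (hfixP u (hCN hu))
    omega
  obtain ⟨U, hU⟩ := Cfsg.Agent.H4.IsSylowIn.exists_isSylowIn 2 C
  have hUpow : ∀ {S : Subgroup G}, IsPGroup 2 S → ∀ u ∈ S, ∃ k, u ^ 2 ^ k = 1 :=
    fun hS u hu => by
      obtain ⟨k, hk⟩ := hS ⟨u, hu⟩
      exact ⟨k, congrArg Subtype.val hk⟩
  have hU20 : Nat.card U ∣ 20 := by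
    have := card_dvd_of_const_fx (Y := Sylow 5 G) U (f := 1)
      (fun u hu hu1 => h2elt u (hU.le hu) hu1 (hUpow hU.isPGroup u hu)) (by rw [hn]; norm_num)
    rwa [hn] at this
  have hUc := hU.card_eq
  rw [← hC] at hUc
  have hcle : c ≤ 24 := Nat.le_of_dvd (by norm_num) hc
  have hele : e ≤ 4 := Nat.le_of_dvd (by norm_num) he
  have h8 : ¬ 8 ∣ c := by
    intro h
    have b1 : 2 ^ 3 ∣ 5 * c := h.trans (dvd_mul_left _ _)
    rw [Nat.prime_two.pow_dvd_iff_le_factorization (by rw [hC]; exact Nat.card_pos.ne')] at b1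
    have := (pow_dvd_pow 2 b1).trans (hUc ▸ hU20)
    norm_num at this
  have hcases : c = 6 ∨ ((c = 4 ∨ c = 12) ∧ (e = 2 ∨ e = 4)) := by
    have : ∀ c ∈ Nat.divisors 24, ∀ e ∈ Nat.divisors 4, ¬ 8 ∣ c → 8 ∣ c * e → c * e ≠ 8 ∨ c = 4 →
      c = 6 ∨ ((c = 4 ∨ c = 12) ∧ (e = 2 ∨ e = 4)) := by decide +kernel
    exact this c (Nat.mem_divisors.2 ⟨hc, by norm_num⟩) e (Nat.mem_divisors.2 ⟨he, by norm_num⟩) h8
      (by omega) (Or.inl (by omega))
  rcases hcases with rfl | ⟨hc4, he2⟩
  · obtain ⟨W⟩ : Nonempty (Sylow 3 C) := inferInstance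
    have hW : Nat.card (W : Subgroup C) = 3 := card_sylow_of_dvd_of_not_sq_dvd
      (by rw [← hC]; norm_num) (by rw [← hC]; norm_num) W
    obtain ⟨w, hw, hw1, hwp⟩ := exists_mem_ne_one_of_card (by norm_num) hW
    obtain ⟨x, hx, hx1, hxp⟩ := exists_mem_ne_one_of_card (by norm_num) (hP P)
    have hxC : x ∈ C := le_centralizer_of_prime_card (by norm_num) (hP P) hx
    have b0 : (⟨x, hxC⟩ : C) ∈ normalizer ((W : Subgroup C) : Set C) := by
      apply Cfsg.Agent.H4.centralizer_le_normalizer'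
      rw [mem_centralizer_iff]
      intro v _
      exact Subtype.ext (mem_centralizer_iff.1 v.2 x hx).symm
    have b1 : 5 ∣ Nat.card (normalizer ((W : Subgroup C) : Set C)) := by
      have := orderOf_dvd_natCard _ b0
      rwa [orderOf_mk, orderOf_eq_prime hxp hx1] at this
    have b2 := card_eq_card_sylow_mul W
    have b3 := card_sylow_modEq_one 3 C
    have b5 : 3 ∣ Nat.card (normalizer ((W : Subgroup C) : Set C)) :=
      hW.symm.dvd.trans (card_dvd_of_le le_normalizer)
    have b4 : Nat.card (Sylow 3 C) = 1 := by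
      obtain ⟨s, hs⟩ := Nat.Coprime.mul_dvd_of_dvd_of_dvd (by norm_num) b1 b5
      rw [← hC, hs] at b2
      have : Nat.card (Sylow 3 C) * s = 2 := by nlinarith
      have := (Nat.dvd_prime Nat.prime_two).1 (Dvd.intro _ this)
      unfold Nat.ModEq at b3
      omega
    haveI := (Nat.card_eq_one_iff_unique.1 b4).1
    haveI hWn := W.normal_of_subsingleton
    obtain ⟨u, hu⟩ := exists_prime_orderOf_dvd_card' (G := C) 2 (by rw [← hC]; norm_num)
    have hu' : orderOf (u : G) = 2 := by rw [orderOf_coe, hu]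
    have hu2 : (u : G) ^ 2 = 1 := hu' ▸ pow_orderOf_eq_one _
    have hwo : orderOf (w : G) = 3 := by rw [orderOf_coe]; exact orderOf_eq_prime hwp hw1
    have c1 := fx_modEq_one_of_centralizer (hP P) w.2
    have c2 := card_modEq_fx (Y := Sylow 5 G) (by norm_num : Nat.Prime 3)
      (hwo ▸ pow_orderOf_eq_one (w : G))
    have c3 := hlt w fun e => by rw [e, orderOf_one] at hwo; norm_num at hwo
    rw [hn] at c2
    have c4 := ncard_modEq_inter_fixedBy (S := fixedBy (Sylow 5 G) (w : G)) Nat.prime_two hu2 (by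
      intro Q hQ
      have d1 : u⁻¹ * w * u ∈ (W : Subgroup C) := hWn.conj_mem' w hw u
      have d2 : (⟨w, hw⟩ : (W : Subgroup C)) ≠ 1 := fun e => hw1 (congrArg Subtype.val e)
      obtain ⟨i, hi⟩ := mem_zpowers_iff.1
        ((zpowers_eq_top_of_prime_card hW d2) ▸ mem_top (⟨_, d1⟩ : (W : Subgroup C)))
      have d3 : (w : G) ^ i = (u : G)⁻¹ * w * u :=
        congrArg (fun t : (W : Subgroup C) => ((t : C) : G)) hi
      have d4 : ((w : G) ^ i) • Q = Q := (stabilizer G Q).zpow_mem hQ i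
      rw [d3, mul_smul, mul_smul, inv_smul_eq_iff] at d4
      exact d4)
    have c5 : (fixedBy (Sylow 5 G) (w : G) ∩ fixedBy (Sylow 5 G) (u : G)).ncard ≤ 1 :=
      (hinv u u.2 (fun e => by rw [e, orderOf_one] at hu'; norm_num at hu') hu2) ▸
        Set.ncard_le_ncard Set.inter_subset_right (Set.toFinite _)
    have c6 : 0 < (fixedBy (Sylow 5 G) (w : G) ∩ fixedBy (Sylow 5 G) (u : G)).ncard :=
      (Set.ncard_pos (Set.toFinite _)).2 ⟨P, hfixP w (hCN w.2), hfixP u (hCN u.2)⟩
    unfold Nat.ModEq fx at *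
    omega
  · have hU4 : Nat.card U = 4 := by
      rw [hUc]
      rcases hc4 with rfl | rfl <;> decide +kernel
    obtain ⟨S, hS⟩ := Cfsg.Agent.H4.IsSylowIn.exists_isSylowIn 2 N
    have hS4 : Nat.card S = 4 * e := by
      rw [hS.card_eq, ← hN, ← hm]
      rcases hc4 with rfl | rfl <;> rcases he2 with rfl | rfl <;> decide +kernel
    obtain ⟨Q, hQP, hQ⟩ : ∃ Q : Sylow 5 G, Q ≠ P ∧ ¬ 8 ∣ (orbit S Q).ncard := by
      by_contra hcon
      push Not at hcon
      have := dvd_ncard_of_orbits S (s := 8) ({P}ᶜ : Set (Sylow 5 G)) (fun Q hQ => ⟨by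
        rintro _ ⟨g, rfl⟩ e
        apply hQ
        have e' : (g : G) • Q = P := e
        rw [Set.mem_singleton_iff, ← inv_smul_smul (g : G) Q, e']
        exact hfixP _ (inv_mem (hS.le g.2)), hcon Q hQ⟩)
      rw [Set.ncard_compl, hn, Set.ncard_singleton] at this
      norm_num at this
    set T := stabilizer G Q ⊓ S with hT
    have hTc : e ≤ Nat.card T := by
      have b1 := Cfsg.Agent.H16.card_eq_orbit_mul_stabilizer (G := S) Q
      rw [Cfsg.Agent.H16.card_stabilizer_subgroup, hS4] at b1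
      have b2 : (orbit S Q).ncard ∣ 16 := (Dvd.intro _ b1.symm).trans (Nat.mul_dvd_mul_left 4 he)
      have : ∀ n ∈ Nat.divisors 16, ¬ 8 ∣ n → n ≤ 4 := by decide +kernel
      have b3 := this _ (Nat.mem_divisors.2 ⟨b2, by norm_num⟩) hQ
      nlinarith
    have hTfix : ∀ g ∈ T, 2 ≤ fx (Sylow 5 G) g := fun g hg =>
      two_le_fx hQP hg.1 (hfixP g (hS.le hg.2))
    have hTC : ∀ g ∈ T, g ∈ C → g = 1 := fun g hg hgC => by
      by_contra hg1
      have := h2elt g hgC hg1 (hUpow hS.isPGroup g hg.2)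
      have := hTfix g hg
      omega
    let φ : T →* MulAut (P : Subgroup G) := (P : Subgroup G).normalizerMonoidHom.comp
      (inclusion (inf_le_right.trans hS.le))
    have hφ : ∀ g : T, φ g = 1 ↔ (g : G) ∈ C := fun g => by
      rw [MonoidHom.comp_apply, ← MonoidHom.mem_ker, normalizerMonoidHom_ker, mem_subgroupOf]
      rfl
    have hφi : Function.Injective φ := (injective_iff_map_eq_one φ).2 fun g hg =>
      Subtype.ext (hTC g g.2 ((hφ g).1 hg))
    haveI : IsCyclic (P : Subgroup G) := isCyclic_of_prime_card (hP P)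
    haveI : IsCyclic (MulAut (P : Subgroup G)) := by
      haveI : Fact (Nat.card (P : Subgroup G)).Prime := ⟨by rw [hP P]; norm_num⟩
      exact isCyclic_of_surjective _ (IsCyclic.mulAutMulEquiv (P : Subgroup G)).symm.surjective
    haveI : IsCyclic T := isCyclic_of_injective φ hφi
    have hTe : Nat.card T ∣ e := by
      have b1 : C.relIndex T = Nat.card T := by
        rw [← inf_relIndex_right, show C ⊓ T = ⊥ from
          eq_bot_iff.2 fun g hg => hTC g hg.2 hg.1, relIndex_bot_left]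
      haveI : (C.subgroupOf N).Normal := by
        rw [hCdef, hNdef, ← normalizerMonoidHom_ker]; infer_instance
      have b2 := relIndex_dvd_index_of_normal (C.subgroupOf N) (T.subgroupOf N)
      rw [relIndex_subgroupOf (inf_le_right.trans hS.le)] at b2
      rw [← b1, ← hedef]; exact b2
    obtain ⟨h, hh⟩ := IsCyclic.exists_ofOrder_eq_natCard (α := T)
    have hho : orderOf (h : G) = e := by
      rw [orderOf_coe, hh]
      exact le_antisymm (Nat.le_of_dvd (by omega) hTe) hTc
    have := two_mul_dvd_card_of_free (Y := G ⧸ U) h2 (h := (h : G))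
      (by rw [hho]; rcases he2 with rfl | rfl <;> decide) (by
        intro i q
        refine QuotientGroup.induction_on q fun g hg => ?_
        rw [MulAction.Quotient.smul_mk, QuotientGroup.eq, smul_eq_mul] at hg
        have hg' := U.inv_mem hg
        rw [mul_inv_rev, inv_inv, ← mul_assoc] at hg'
        by_contra hne
        have b1 := h2elt _ (hU.le hg') (fun e => hne (by
          rwa [mul_assoc, inv_mul_eq_one, eq_comm, mul_eq_right] at e)) (hUpow hU.isPGroup _ hg')
        rw [fx_conj] at b1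
        have := hTfix _ (pow_mem h.2 i)
        omega)
    have b1 := U.card_mul_index
    rw [hU4, hG, ← hm, index] at b1
    rw [hho] at this
    rcases hc4 with rfl | rfl <;> rcases he2 with rfl | rfl <;> omega

end Cfsg.Agent.S1010
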