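import Cfsg.Statements.S1012
import Cfsg.Agent.H10.SmallId
import Cfsg.Agent.FT.Cyc
-- import your own Cfsg.Agent.* helpers here

set_option autoImplicit false
open Cfsg

namespace Cfsg.Agent.S1012

theorem no_comm {G : Type*} [Group G] (h6 : ∀ g : G, orderOf g ≠ 6) {x t : G} (hx : orderOf x = 3)
    (ht : orderOf t = 2) (hc : Commute x t) : False :=
  h6 (x * t) (by rw [hc.orderOf_mul_eq_mul_orderOf_of_coprime (by rw [hx, ht]; norm_num), hx, ht])

/-- A group of order 24 containing no element of order 6 is isomorphic to the symmetric group of degree 4. -/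
theorem result {G : Type*} [Group G] [Finite G] (h : Nat.card G = 24) (h6 : ∀ g : G, orderOf g ≠ 6) : Nonempty (G ≃* Equiv.Perm (Fin 4)) := by
  have : Fact (Nat.Prime 3) := ⟨by norm_num⟩
  refine H10.NoCycNormal.equiv_S4 (fun N hN hc => ?_) h
  by_contra hne
  have hr := FT.Cyc.relIndex_cen_dvd (H := N) (A := ⊤) hc
    (by rw [Subgroup.normalizer_eq_top_iff.mpr hN])
  rw [Subgroup.relIndex_top_right] at hr
  set C := Subgroup.centralizer (N : Set G) with hC
  have h1 := C.card_mul_index
  have hd := N.card_subgroup_dvd_card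
  rw [h] at h1 hd
  have hN1 : Nat.card N ≠ 1 := fun e => hne (Subgroup.card_eq_one.mp e)
  by_cases h3 : 3 ∣ Nat.card N
  · obtain ⟨x, hx⟩ := exists_prime_orderOf_dvd_card' (G := N) 3 h3
    have hx' : orderOf (x : G) = 3 := by rw [Subgroup.orderOf_coe, hx]
    by_cases h2 : 2 ∣ Nat.card N
    · obtain ⟨t, ht⟩ := exists_prime_orderOf_dvd_card' (G := N) 2 h2
      let := IsCyclic.commGroup (α := N)
      exact no_comm h6 hx' (t := t) (by rw [Subgroup.orderOf_coe, ht])
        (congrArg Subtype.val (mul_comm x t))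
    · have : Nat.card N = 3 := by
        have := Nat.le_of_dvd (by norm_num) hd
        interval_cases (Nat.card N) <;> omega
      rw [this, Nat.totient_prime (by norm_num)] at hr
      have h2 : 2 ∣ Nat.card C := by
        rcases (Nat.dvd_prime (by norm_num)).mp hr with h | h <;> rw [h] at h1 <;> omega
      obtain ⟨t, ht⟩ := exists_prime_orderOf_dvd_card' (G := C) 2 h2
      exact no_comm h6 hx' (t := t) (by rw [Subgroup.orderOf_coe, ht]) (t.2 x x.2)
  · have h8 : Nat.card N = 2 ∨ Nat.card N = 4 ∨ Nat.card N = 8 := by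
      have := Nat.le_of_dvd (by norm_num) hd
      interval_cases (Nat.card N) <;> omega
    have h2 : 2 ∣ Nat.card N := by omega
    have hi : C.index ∣ 4 := by
      rcases h8 with e | e | e <;> rw [e] at hr <;> exact hr.trans (by decide)
    have h3 : 3 ∣ Nat.card C := by
      have := Nat.le_of_dvd (by norm_num) hi
      interval_cases (C.index) <;> omega
    obtain ⟨t, ht⟩ := exists_prime_orderOf_dvd_card' (G := N) 2 h2
    obtain ⟨x, hx⟩ := exists_prime_orderOf_dvd_card' (G := C) 3 h3
    exact no_comm h6 (x := x) (t := t) (by rw [Subgroup.orderOf_coe, hx])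
      (by rw [Subgroup.orderOf_coe, ht]) (x.2 t t.2).symm

end Cfsg.Agent.S1012
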