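import Cfsg.Statements.S1014
import Cfsg.Agent.H23.Sv2
-- import your own Cfsg.Agent.* helpers here

set_option autoImplicit false
open Cfsg

namespace Cfsg.Agent.S1014

/-- No finite simple group has order 1104 = 2^4 * 3 * 23. -/
theorem result {G : Type*} [Group G] [Finite G] [IsSimpleGroup G] : Nat.card G ≠ 1104 := by
  exact H23.Sv.ne_of_kill (by norm_num) (by decide +kernel)

end Cfsg.Agent.S1014
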