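import Cfsg.Statements.S1018
import Cfsg.Agent.H23.Fix
import Cfsg.Agent.H23.Klein4
-- import your own Cfsg.Agent.* helpers here

set_option autoImplicit false
open Cfsg

namespace Cfsg.Agent.S1018

theorem zp_eq {G : Type*} [Group G] [Finite G] {p : ℕ} [hp : Fact p.Prime] {P : Subgroup G}
    (hP : Nat.card P = p) {y : G} (hy : y ∈ P) (h1 : y ≠ 1) : Subgroup.zpowers y = P := by
  have hle : Subgroup.zpowers y ≤ P := Subgroup.zpowers_le.mpr hy
  have hd := Subgroup.card_dvd_of_le hle
  rw [hP] at hd
  rcases (Nat.dvd_prime hp.out).mp hd with h | h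
  · exact absurd (Subgroup.zpowers_eq_bot.mp (Subgroup.card_eq_one.mp h)) h1
  · exact Subgroup.eq_of_le_of_card_ge hle (by omega)

/-- Let P be a Sylow p-subgroup of order p of a finite group G, and consider the action of G on the left cosets of the normalizer N of P. Then every element of order p fixes exactly one coset, and an element of N that does not centralize P fixes at most as many cosets as there are orbits of P. -/
theorem result {G : Type*} [Group G] [Finite G] (p : ℕ) [Fact p.Prime] (P : Sylow p G) (hP : Nat.card ↥(P : Subgroup G) = p) : (∀ y : G, orderOf y = p → Nat.card (MulAction.fixedBy (G ⧸ Subgroup.normalizer ((P : Subgroup G) : Set G)) y) = 1) ∧ ∀ x : G, x ∈ Subgroup.normalizer ((P : Subgroup G) : Set G) → x ∉ Subgroup.centralizer ((P : Subgroup G) : Set G) → Nat.card (MulAction.fixedBy (G ⧸ Subgroup.normalizer ((P : Subgroup G) : Set G)) x) ≤ Nat.card (MulAction.orbitRel.Quotient ↥(P : Subgroup G) (G ⧸ Subgroup.normalizer ((P : Subgroup G) : Set G))) := by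
  have hp : p.Prime := Fact.out
  constructor
  · intro y hy
    have key : ∀ g : G, g⁻¹ * y * g ∈ Subgroup.normalizer ((P : Subgroup G) : Set G) →
        Subgroup.zpowers (g⁻¹ * y * g) = P := fun g hg => by
      have ho : orderOf (g⁻¹ * y * g) = p := by rw [H20.orderOf_conj', hy]
      have hz : IsPGroup p (Subgroup.zpowers (g⁻¹ * y * g)) :=
        IsPGroup.of_card (n := 1) (by rw [Nat.card_zpowers, ho, pow_one])
      have := hz.inf_normalizer_sylow P
      have hm : g⁻¹ * y * g ∈ Subgroup.zpowers (g⁻¹ * y * g) ⊓ (P : Subgroup G) := by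
        rw [← this]; exact ⟨Subgroup.mem_zpowers _, hg⟩
      refine zp_eq hP hm.2 fun e => ?_
      rw [e, orderOf_one] at ho
      exact hp.one_lt.ne ho
    rw [Nat.card_eq_one_iff_unique]
    obtain ⟨g, hg⟩ := H23.exists_conj_mem_sylow P (t := y) ⟨1, by rw [hy, pow_one]⟩
    refine ⟨⟨?_⟩, ⟨⟨(g⁻¹ : G), (H23.smul_coe_eq_iff _ y g⁻¹).mpr
      (by rw [inv_inv]; exact Subgroup.le_normalizer hg)⟩⟩⟩
    rintro ⟨a, ha⟩ ⟨b, hb⟩
    apply Subtype.ext
    induction a using QuotientGroup.induction_on with | _ a => ?_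
    induction b using QuotientGroup.induction_on with | _ b => ?_
    have h1 := key a ((H23.smul_coe_eq_iff _ y a).mp ha)
    have h2 := key b ((H23.smul_coe_eq_iff _ y b).mp hb)
    apply QuotientGroup.eq.mpr
    rw [Subgroup.mem_normalizer_iff]
    intro h
    have e : ∀ k : ℤ, a⁻¹ * b * (b⁻¹ * y * b) ^ k * (a⁻¹ * b)⁻¹ = (a⁻¹ * y * a) ^ k := fun k => by
      rw [← conj_zpow]; congr 1; group
    constructor
    · intro hh
      rw [← h2] at hh
      obtain ⟨k, rfl⟩ := hh
      rw [← h1]
      exact ⟨k, (e k).symm⟩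
    · intro hh
      rw [← h1] at hh
      obtain ⟨k, hk⟩ := hh
      rw [← h2]
      refine ⟨k, ?_⟩
      have := (e k).trans hk
      simpa using this
  · intro x hx hxc
    refine Nat.card_le_card_of_injective (fun a => Quotient.mk'' a.1) ?_
    rintro ⟨a, ha⟩ ⟨b, hb⟩ e
    apply Subtype.ext
    obtain ⟨u, hu⟩ : a ∈ MulAction.orbit (P : Subgroup G) b := Quotient.exact' e
    have hu' : (u : G) • b = a := hu
    have ha' : x • a = a := ha
    have hb' : x • b = b := hb
    show a = b
    by_cases hu1 : (u : G) = 1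
    · rw [← hu', hu1, one_smul]
    have hw : (u : G)⁻¹ * (x * u * x⁻¹) ∈ (P : Subgroup G) :=
      mul_mem (inv_mem u.2) (H23.conj_mem_of_mem_normalizer (K := (P : Subgroup G)) hx u.2)
    have hfix : ((u : G)⁻¹ * (x * u * x⁻¹)) • b = b := by
      rw [mul_smul, mul_smul, mul_smul, inv_smul_eq_iff.mpr hb'.symm, hu', ha', ← hu', inv_smul_smul]
    by_cases hw1 : (u : G)⁻¹ * (x * u * x⁻¹) = 1
    · exfalso
      apply hxc
      rw [← zp_eq hP u.2 hu1]
      rintro _ ⟨k, rfl⟩
      have : Commute (u : G) x := by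
        have h := inv_mul_eq_one.mp hw1
        show (u : G) * x = x * u
        nth_rewrite 1 [h]; group
      exact this.zpow_left k
    · have : (u : G) ∈ MulAction.stabilizer G b := by
        have h2 : Subgroup.zpowers ((u : G)⁻¹ * (x * u * x⁻¹)) ≤ MulAction.stabilizer G b :=
          Subgroup.zpowers_le.mpr hfix
        rw [zp_eq hP hw hw1] at h2
        exact h2 u.2
      rw [← hu']; exact this

end Cfsg.Agent.S1018
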