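import Cfsg.Statements.S1022
import Cfsg.Agent.H23.Sv2
-- import your own Cfsg.Agent.* helpers here

set_option autoImplicit false
open Cfsg

namespace Cfsg.Agent.S1022

/-- No finite simple group has order 459648 = 2^7 * 3^3 * 7 * 19. -/
theorem result {G : Type*} [Group G] [Finite G] [IsSimpleGroup G] : Nat.card G ≠ 459648 := by
  intro e
  have hG := H20.simple_not_comm_of_not_prime (G := G) (by rw [e]; norm_num)
  have : Fact (Nat.Prime 7) := ⟨by norm_num⟩
  obtain ⟨x, hx⟩ := exists_prime_orderOf_dvd_card' (G := G) 7 (by rw [e]; norm_num)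
  have h := H24.D1.Syl1.of_order (by rw [e]; norm_num) hx
  obtain ⟨M, hM⟩ := H9.exists_pmod 7
  obtain ⟨X, ψ, ε, δ, F, h1⟩ := h.exists_fam_principal hM
  have key : ∀ χ ∈ principalBlock M G, charDegree χ.1 % 7 = 1 ∨ charDegree χ.1 % 7 = 6 ∨
      charDegree χ.1 = charDegree (ψ 1).1 := fun χ hχ => by
    rcases (F.mem χ).1 hχ with a | ⟨j, rfl⟩
    · have := (F.degX₀ a).dvd
      rcases F.sε χ a with b | b <;> rw [b] at this <;> omega
    · exact Or.inr (Or.inr (F.deg_eq _ _))
  by_cases hc : charDegree (ψ 1).1 = 108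
  · refine H23.Sv.not_killp (B := 700) (p := 19) hG e (by norm_num) (H23.sep_principal (a := 1)
      (ok := fun d => d % 7 == 1 || d % 7 == 6 || d == 108) hM (by rw [e]; norm_num)
      fun χ hχ _ => ?_) (by decide +kernel)
    simpa [hc, or_assoc] using key χ hχ
  · refine H23.Sv.not_killp (B := 700) (p := 19) hG e (by norm_num) (H23.sep_principal (a := 1)
      (ok := fun d => d != 108) hM (by rw [e]; norm_num) fun χ hχ _ => ?_) (by decide +kernel)
    have := key χ hχ
    rw [bne_iff_ne]
    omega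

end Cfsg.Agent.S1022
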