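import Cfsg.Statements.S1026
import Mathlib
import Cfsg.Agent.H12.ChevAll

set_option autoImplicit false
open Cfsg

namespace Cfsg.Agent.S1026

open Cfsg.Agent.H12

/-- Every element of `U` has a unique expression `∏_{r ∈ Φ⁺} x_r(t_r)`, the product over the positive roots in increasing index order (the coefficient family `t`, supported on the positive roots, exists and is unique); and conversely every such ordered product is the matrix of an element of `U`. -/
theorem result {F : Type*} [Field F] (D : Cfsg.Lie.ChevalleyDatum) (hD : D ∈ [Cfsg.Lie.chevG2, Cfsg.Lie.chevB2, Cfsg.Lie.chevD4, Cfsg.Lie.chevF4, Cfsg.Lie.chevE6, Cfsg.Lie.chevE7, Cfsg.Lie.chevE8]) :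
    (∀ g : GL D.Idx F, g ∈ D.posUnipotent F →
      ∃! t : ℕ → F, (∀ r, ¬ D.IsPosRoot r → t r = 0) ∧
        (g : Matrix D.Idx D.Idx F) = D.wordMat F (D.posRoots.map fun r => (r, t r))) ∧
    (∀ t : ℕ → F, ∃ g : GL D.Idx F, g ∈ D.posUnipotent F ∧
      (g : Matrix D.Idx D.Idx F) = D.wordMat F (D.posRoots.map fun r => (r, t r))) := by
  obtain ⟨_⟩ := nonempty_good hD
  let L : List (Fin D.nroots) := (List.finRange D.nroots).filter fun r => decide (D.IsPosRoot r)
  have hL : D.posRoots = L.map Fin.val := by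
    rw [Cfsg.Lie.ChevalleyDatum.posRoots, ← List.map_coe_finRange_eq_range, List.filter_map]
    rfl
  have hm : ∀ r, r ∈ L ↔ (rsOf D).Pos r := fun r => by simp [L, isPosRoot_iff]
  have hS : {r | r ∈ L} = {r | (rsOf D).Pos r} := Set.ext hm
  have hnd : L.Nodup := (List.nodup_finRange _).filter _
  have hw : ∀ t : ℕ → F, D.wordMat F (D.posRoots.map fun r => (r, t r)) =
      (((L.map fun r => (chevSt D F).x r (t r)).prod : GL D.Idx F) : Matrix D.Idx D.Idx F) := by
    intro t
    have := wordMat_eq (F := F) (L.map fun r => (r, t r))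
    simpa only [hL, List.map_map, Function.comp_def] using this
  simp only [hw, Units.val_inj, posUnipotent_eq]
  refine ⟨fun g hg => ?_, fun t => ⟨_, list_prod_mem fun x hx => ?_, rfl⟩⟩
  · obtain ⟨f, hf, rfl⟩ := (chev_ab (D := D) (F := F)).exists_prod hnd (hS ▸ RS.closed_pos _)
      (fun r => (hm r).1) (g := g) (by rw [hS]; exact hg)
    choose c hc using fun r => (chevSt D F).mem_U.1 (hf r)
    refine ⟨fun r => if h : D.IsPosRoot r then c ⟨r, h.1⟩ else 0, ⟨fun r hr => dif_neg hr, ?_⟩, ?_⟩
    · congr 1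
      refine List.map_congr_left fun r hr => ?_
      exact ((congrArg _ (dif_pos (isPosRoot_iff.2 ((hm r).1 hr)))).trans (hc r)).symm
    · rintro t ⟨h1, h2⟩
      funext r
      split_ifs with h
      · have := RGD.prod_unique (X := chevRGD D F) hnd (fun r => (hm r).1) (fun r _ => hf r)
          (fun r _ => (chevSt D F).x_mem_U r (t r)) h2 (r := ⟨r, h.1⟩)
          ((hm _).2 (isPosRoot_iff.1 h))
        rw [← hc] at this
        exact (StSys.x_injective chevNC chevNM _ this).symm
      · exact h1 r h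
  · obtain ⟨r, hr, rfl⟩ := List.mem_map.1 hx
    exact RGD.U_le_Up ((hm r).1 hr) ((chevSt D F).x_mem_U _ _)

end Cfsg.Agent.S1026
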