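import Cfsg.Statements.S1032
import Mathlib
import Cfsg.Agent.H12.ChevAll

set_option autoImplicit false
open Cfsg

namespace Cfsg.Agent.S1032

open Cfsg.Agent.H12

/-- For a fundamental root `p`, a root `s` and `c ≠ 0`: `h_p(c) x_s(t) h_p(c)⁻¹ = x_s(c^{A_{p,s}} t)`, stated as `h_p(c) x_s(t) = x_s(c^{A_{p,s}} t) h_p(c)`. -/
theorem result {F : Type*} [Field F] (D : Cfsg.Lie.ChevalleyDatum) (hD : D ∈ [Cfsg.Lie.chevG2, Cfsg.Lie.chevB2, Cfsg.Lie.chevD4, Cfsg.Lie.chevF4, Cfsg.Lie.chevE6, Cfsg.Lie.chevE7, Cfsg.Lie.chevE8]) (i s : ℕ) (hi : i < D.rank) (hs : s < D.nroots) (c : F) (hc : c ≠ 0) (t : F) :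
    D.hMat F (D.simple i) c * D.x F s t = D.x F s (c ^ (D.cartan i s) * t) * D.hMat F (D.simple i) c := by
  obtain ⟨_⟩ := nonempty_good hD
  have := congrArg (fun g : GL D.Idx F => (g : Matrix D.Idx D.Idx F)) (eq_mul_of_mul_inv_eq
    ((chevNC (D := D) (F := F)).h_conj_x ((rsOf D).simple ⟨i, hi⟩) ⟨s, hs⟩ hc t))
  simpa only [Units.val_mul, chevSt_x_val, chevSt_h_val, cor_α, rsOf_simple, pairing_simple hi]
    using this

end Cfsg.Agent.S1032
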