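import Cfsg.Statements.S1034
import Mathlib
import Cfsg.Agent.H12.ChevAll

set_option autoImplicit false
open Cfsg

namespace Cfsg.Agent.S1034

open Cfsg.Agent.H12

/-- Every element of `H` is a product `h_{p_1}(c_1) ⋯ h_{p_l}(c_l)` over the fundamental roots, with non-zero `c_i`. -/
theorem result {F : Type*} [Field F] (D : Cfsg.Lie.ChevalleyDatum) (hD : D ∈ [Cfsg.Lie.chevG2, Cfsg.Lie.chevB2, Cfsg.Lie.chevD4, Cfsg.Lie.chevF4, Cfsg.Lie.chevE6, Cfsg.Lie.chevE7, Cfsg.Lie.chevE8]) (g : GL D.Idx F) (hg : g ∈ D.diagonalSubgroup F) :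
    ∃ c : ℕ → F, (∀ i < D.rank, c i ≠ 0) ∧
      (g : Matrix D.Idx D.Idx F) = D.wordMat F ((List.range D.rank).flatMap fun i => D.hWord (D.simple i) (c i)) := by
  obtain ⟨_⟩ := nonempty_good hD
  rw [diagonalSubgroup_eq, chevRGD_T, H_eq_range] at hg
  obtain ⟨c, rfl⟩ := hg
  refine ⟨fun i => if h : i < D.rank then c ⟨i, h⟩ else 1, fun i hi => by simp [hi], ?_⟩
  have key : ∀ L : List (Fin D.rank), D.wordMat F ((L.map Fin.val).flatMap fun i =>
      D.hWord (D.simple i) (if h : i < D.rank then (c ⟨i, h⟩ : F) else 1)) =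
      dgM (L.map fun i : Fin D.rank => coChr (cf D i) (c i)).prod := by
    intro L
    induction L with
    | nil => simp [Cfsg.Lie.ChevalleyDatum.wordMat, dgM_one]
    | cons i L ih =>
      rw [List.map_cons, List.flatMap_cons, wordMat_append, ih, List.map_cons, List.prod_cons,
        dgM_mul, dif_pos i.2, ← dgU_val (coChr _ _), ← h_simple_eq, chevSt_h_val]
      rfl
  rw [← List.map_coe_finRange_eq_range, key]
  exact congrArg dgM (Fin.prod_univ_def fun i : Fin D.rank => coChr (cf D i) (c i))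

end Cfsg.Agent.S1034
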