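import Cfsg.Statements.S1044
import Mathlib
import Cfsg.Agent.H12.ChevAll

set_option autoImplicit false
open Cfsg

namespace Cfsg.Agent.S1044

open Cfsg.Agent.H12

/-- For a fundamental root `p` the set `B ∪ B n_p B` is (the carrier of) a subgroup of the general linear group. -/
theorem result {F : Type*} [Field F] (D : Cfsg.Lie.ChevalleyDatum) (hD : D ∈ [Cfsg.Lie.chevG2, Cfsg.Lie.chevB2, Cfsg.Lie.chevD4, Cfsg.Lie.chevF4, Cfsg.Lie.chevE6, Cfsg.Lie.chevE7, Cfsg.Lie.chevE8]) (i : ℕ) (hi : i < D.rank) (n : GL D.Idx F)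
    (hn : (n : Matrix D.Idx D.Idx F) = D.nMat F (D.simple i) 1) :
    ∃ P : Subgroup (GL D.Idx F), (P : Set (GL D.Idx F)) =
      (D.borelSubgroup F : Set (GL D.Idx F)) ∪ DoubleCoset.doubleCoset n (D.borelSubgroup F : Set (GL D.Idx F)) (D.borelSubgroup F) := by
  obtain ⟨_⟩ := nonempty_good hD
  obtain rfl := (val_eq_m_iff (i := ⟨i, hi⟩)).1 hn
  refine ⟨(chevRGD D F).PJ {⟨i, hi⟩}, ?_⟩
  rw [borelSubgroup_eq]
  ext g
  rw [SetLike.mem_coe, RGD.mem_PJ_iff, Set.mem_union, SetLike.mem_coe, ← RGD.mem_cell_one,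
    DoubleCoset.mem_doubleCoset]
  change _ ↔ _ ∨ ∃ b ∈ (chevRGD D F).B, ∃ b' ∈ (chevRGD D F).B, _
  rw [← (RGD.rep_m _).mem_cell_iff]
  constructor
  · rintro ⟨w, hw, h⟩
    have : w = 1 ∨ w = (rsOf D).s ⟨i, hi⟩ := by
      clear h
      induction hw using RS.WJ_induction with
      | one => exact Or.inl rfl
      | step j hj w _ ih =>
        obtain rfl := Set.mem_singleton_iff.1 hj
        rcases ih with rfl | rfl
        · exact Or.inr (mul_one _)
        · exact Or.inl (RS.s_mul_s _ _)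
    rcases this with rfl | rfl
    exacts [Or.inl h, Or.inr h]
  · rintro (h | h)
    exacts [⟨1, one_mem _, h⟩, ⟨_, RS.s_mem_WJ _ rfl, h⟩]

end Cfsg.Agent.S1044
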