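import Cfsg.Statements.S1045
import Mathlib
import Cfsg.Agent.H12.ChevAll

set_option autoImplicit false
open Cfsg

namespace Cfsg.Agent.S1045

open Cfsg.Agent.H12

/-- For a fundamental root `p`, the subgroup `U_p` generated by the `X_s`, `s` positive and `s ≠ p`, is normalised by `X_p` and `X_{-p}`, and `U = U_p ⊔ X_p`. -/
theorem result {F : Type*} [Field F] (D : Cfsg.Lie.ChevalleyDatum) (hD : D ∈ [Cfsg.Lie.chevG2, Cfsg.Lie.chevB2, Cfsg.Lie.chevD4, Cfsg.Lie.chevF4, Cfsg.Lie.chevE6, Cfsg.Lie.chevE7, Cfsg.Lie.chevE8]) (i : ℕ) (hi : i < D.rank) :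
    D.rootSubgroup F (D.simple i) ⊔ D.rootSubgroup F (D.neg (D.simple i)) ≤
        Subgroup.normalizer (Subgroup.closure {g : GL D.Idx F | ∃ (s : ℕ) (t : F), D.IsPosRoot s ∧ s ≠ D.simple i ∧
          (g : Matrix D.Idx D.Idx F) = D.x F s t} : Set (GL D.Idx F)) ∧
      Subgroup.closure {g : GL D.Idx F | ∃ (s : ℕ) (t : F), D.IsPosRoot s ∧ s ≠ D.simple i ∧
          (g : Matrix D.Idx D.Idx F) = D.x F s t} ⊔ D.rootSubgroup F (D.simple i) = D.posUnipotent F := by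
  obtain ⟨_⟩ := nonempty_good hD
  have h1 : Subgroup.closure {g : GL D.Idx F | ∃ (s : ℕ) (t : F), D.IsPosRoot s ∧ s ≠ D.simple i ∧
      (g : Matrix D.Idx D.Idx F) = D.x F s t} = (chevRGD D F).UJ {⟨i, hi⟩} :=
    closure_x_eq (P := fun s => D.IsPosRoot s ∧ s ≠ D.simple i) (fun _ h => h.1.1)
      (fun r => by
        rw [Set.mem_ofPred_eq, RS.pos_not_inJ_singleton, isPosRoot_iff, Ne, Ne, Fin.ext_iff]; rfl)
      fun _ => by simp only [and_assoc]; rfl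
  have h2 := rootSubgroup_eq (F := F) ((rsOf D).simple ⟨i, hi⟩)
  have h3 := rootSubgroup_eq (F := F) ((rsOf D).neg ((rsOf D).simple ⟨i, hi⟩))
  simp only [rsOf_simple, rsOf_neg] at h2 h3
  rw [h1, h2, h3, posUnipotent_eq]
  refine ⟨sup_le (RGD.U_le_normalizer_UJ (Or.inl (RS.pos_simple _ _)))
    (RGD.U_le_normalizer_UJ (Or.inr ((RS.inJ_singleton_iff _).2 (Or.inr rfl)))), ?_⟩
  rw [RGD.UJ, ← RGD.US_insert, RGD.Up]
  congr 1
  ext r
  simp only [Set.mem_insert_iff, Set.mem_ofPred_eq, RS.pos_not_inJ_singleton]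
  constructor
  · rintro (rfl | h)
    exacts [RS.pos_simple _ _, h.1]
  · intro h
    by_cases h' : r = (rsOf D).simple ⟨i, hi⟩
    exacts [Or.inl h', Or.inr ⟨h, h'⟩]

end Cfsg.Agent.S1045
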