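import Cfsg.Statements.S1054
import Mathlib
import Cfsg.Agent.H12.ChevAll

set_option autoImplicit false
open Cfsg

namespace Cfsg.Agent.S1054

open Cfsg.Agent.H12

/-- The Chevalley groups of types D₄, F₄, E₆, E₇, E₈ are simple over every field. -/
theorem result {F : Type*} [Field F] (D : Cfsg.Lie.ChevalleyDatum)
    (hD : D ∈ [Cfsg.Lie.chevD4, Cfsg.Lie.chevF4, Cfsg.Lie.chevE6, Cfsg.Lie.chevE7, Cfsg.Lie.chevE8]) :
    IsSimpleGroup ↥(D.group F) ∧ ¬ IsMulCommutative ↥(D.group F) := by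
  obtain ⟨_⟩ := nonempty_good (mem7_of_mem5 hD)
  exact ⟨grp_isSimpleGroup (der_of_mem5 hD), grp_not_comm⟩

end Cfsg.Agent.S1054
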