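import Cfsg.Statements.S1058
import Mathlib
import Cfsg.Agent.H17.ChB2
import Cfsg.Agent.S1060

set_option autoImplicit false
open Cfsg

namespace Cfsg.Agent.S1058

open Cfsg.Agent.H17
open scoped commutatorElement

open H12 Cfsg.Lie

/-- the root involutions in `S₆` -/
def pm : ℕ → Equiv.Perm (Fin 6)
  | 0 => c[0, 3] * c[1, 2] * c[4, 5]
  | 1 => c[1, 2]
  | 2 => c[4, 5]
  | 3 => c[0, 5] * c[1, 2] * c[3, 4]
  | 4 => c[0, 1] * c[2, 3] * c[4, 5]
  | 5 => c[3, 4]
  | 6 => c[0, 1]
  | _ => c[0, 1] * c[2, 5] * c[3, 4]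

theorem pm_sq : ∀ r < 8, pm r * pm r = 1 := by decide +kernel

theorem pm_comm : ∀ r < 8, ∀ s < 8, s ≠ r → s ≠ 7 - r → pm s * pm r = pm r * pm s *
    ((ChB2.tb r s).map fun c => if c.2.1 % 2 = 0 then 1 else pm c.1).prod := by decide +kernel

theorem tb_pos : ∀ r < 8, ∀ s < 8, ∀ c ∈ ChB2.tb r s, c.2.2.1 ≠ 0 ∧ c.2.2.2 ≠ 0 := by decide +kernel

theorem pos_ge : ∀ r < 8, (∀ c ∈ (chevB2.coroot.getD r #[]).toList, 0 ≤ c) →
    pm 6 * pm r = pm r * pm 6 ∧ pm 7 * pm r = pm r * pm 7 := by decide +kernel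

theorem not_nm : ∀ i < 2, ¬ (pm 6 * (pm (chevB2.simple i) * pm (7 - chevB2.simple i) * pm (chevB2.simple i)) =
    pm (chevB2.simple i) * pm (7 - chevB2.simple i) * pm (chevB2.simple i) * pm 6 ∧
    pm 7 * (pm (chevB2.simple i) * pm (7 - chevB2.simple i) * pm (chevB2.simple i)) =
    pm (chevB2.simple i) * pm (7 - chevB2.simple i) * pm (chevB2.simple i) * pm 7) := by decide +kernel

open Classical in
/-- the Steinberg system in `S₆` -/
noncomputable def st {F : Type*} [Field F] (h : ∀ t : F, t = 0 ∨ t = 1) (h2 : (2 : F) = 0) :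
    StSys (cdOf chevB2) F (Equiv.Perm (Fin 6)) where
  x := fun r t => if t = 0 then 1 else pm r
  add := fun r t u => by
    rcases h t with rfl | rfl <;> rcases h u with rfl | rfl <;>
      simp [one_add_one_eq_two, h2, pm_sq r r.2]
  comm := fun r s h1 h3 t u => by
    have e : ((cdOf chevB2).terms r s).map (fun c => if (c.2.1 : F) * (-t) ^ c.2.2.1 * u ^ c.2.2.2 = 0 then 1
        else pm c.1) = (ChB2.tb r s).map fun c => if (c.2.1 : F) * (-t) ^ c.2.2.1 * u ^ c.2.2.2 = 0 then 1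
        else pm c.1 := by
      rw [← ChB2.tb_eq r r.2 s s.2]
      simp only [cdOf, List.map_map]
      exact List.map_congr_left fun c hc => by
        simp only [Function.comp, finR_val r (mem_commTerms r.2 s.2 hc).1]
    rw [e]
    have z : ∀ (P : ℕ × ℤ × ℕ × ℕ → Prop) [DecidablePred P], (∀ c ∈ ChB2.tb r s, P c) →
        ((ChB2.tb r s).map fun c => if P c then 1 else pm c.1).prod = 1 := fun P _ H =>
      List.prod_eq_one fun g hg => by
        obtain ⟨c, hc, rfl⟩ := List.mem_map.1 hg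
        rw [if_pos (H c hc)]
    rcases h t with rfl | rfl
    · rw [z _ fun c hc => by simp [(tb_pos r r.2 s s.2 c hc).1]]; simp
    rcases h u with rfl | rfl
    · rw [z _ fun c hc => by simp [(tb_pos r r.2 s s.2 c hc).2]]; simp
    rw [if_neg one_ne_zero, if_neg one_ne_zero, pm_comm r r.2 s s.2 (fun e => h1 (Fin.ext e))
      (fun e => h3 (Fin.ext (e.trans (ChB2.neg_eq r r.2).symm)))]
    congr 2
    refine List.map_congr_left fun c _ => if_congr ?_ rfl rfl
    haveI : CharP F 2 := CharTwo.of_one_ne_zero_of_two_eq_zero one_ne_zero h2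
    simp only [one_pow, mul_one, mul_eq_zero, pow_eq_zero_iff', neg_eq_zero, one_ne_zero, false_and,
      or_false, CharP.intCast_eq_zero_iff F 2]
    omega

theorem st_nm {F : Type*} [Field F] (h : ∀ t : F, t = 0 ∨ t = 1) (h2 : (2 : F) = 0) : (st h h2).NM := by
  intro i hi
  have : (⨆ r ∈ {r | (rsOf chevB2).Pos r}, (st h h2).U r) ⊔ (st h h2).H ≤
      Subgroup.centralizer {pm 6} ⊓ Subgroup.centralizer {pm 7} := by
    refine sup_le ((st h h2).iSup_le_of_x fun r hr t => ?_) ((Subgroup.closure_le _).2 ?_)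
    · have := pos_ge r r.2 (isPosRoot_iff.2 hr).2
      simp only [st, Subgroup.mem_inf, Subgroup.mem_centralizer_singleton_iff]
      split_ifs
      · simp
      · exact ⟨this.1.symm, this.2.symm⟩
    · rintro _ ⟨r, t, ht, rfl⟩
      rw [(h t).resolve_left ht, StSys.h_one]
      exact Subgroup.one_mem _
  have := this hi
  simp only [StSys.n, st, Subgroup.mem_inf, Subgroup.mem_centralizer_singleton_iff, one_ne_zero, if_false,
    inv_one, neg_eq_zero] at this
  refine not_nm i i.2 ?_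
  rw [← ChB2.neg_eq _ (simple_lt (D := chevB2) i.2)]
  exact ⟨this.1.symm, this.2.symm⟩

/-- B₂(2) ≅ S₆. -/
theorem result {F : Type*} [Field F] [Fintype F] (hF : Fintype.card F = 2) :
    Nonempty (↥(Cfsg.Lie.chevB2.group F) ≃* Equiv.Perm (Fin 6)) := by
  classical
  have h : ∀ t : F, t = 0 ∨ t = 1 := fun t => by
    by_contra hc
    push Not at hc
    have : ({0, 1, t} : Finset F).card ≤ 2 := hF ▸ Finset.card_le_univ _
    rw [Finset.card_eq_three.2 ⟨0, 1, t, zero_ne_one, hc.1.symm, hc.2.symm, rfl⟩] at this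
    omega
  have h2 : (2 : F) = 0 := by simpa [hF] using FiniteField.cast_card_eq_zero F
  let S := st h h2
  have hm : ∀ r t, S.x r t ∈ ⨆ r, S.U r := fun r t => le_iSup S.U r (S.x_mem_U r t)
  obtain ⟨f, hf⟩ := exists_hom_grp ((S.restrict_hom _ hm).nm (st_nm h h2)) (S.restrict_top _ hm le_rfl)
  have hs := hf.surjective grpSt_top
  have c1 : Nat.card (chevB2.group F) = 720 := by simpa using Cfsg.Agent.S1060.result hF
  have c2 : Nat.card (Equiv.Perm (Fin 6)) = 720 := by rw [Nat.card_perm, Nat.card_fin]; rfl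
  have c3 := Nat.card_le_card_of_surjective f hs
  have c4 : ⨆ r, S.U r = ⊤ := Subgroup.eq_top_of_le_card _ (by omega)
  have c5 := Subgroup.card_le_card_group (⨆ r, S.U r)
  exact ⟨((MulEquiv.ofBijective f (hs.bijective_of_nat_card_le (by omega))).symm.trans
    (MulEquiv.subgroupCongr c4)).trans Subgroup.topEquiv⟩

end Cfsg.Agent.S1058
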