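import Cfsg.Statements.S1075
import Mathlib
import Cfsg.Agent.H13.Re2
import Cfsg.Agent.S1230
import Cfsg.Agent.H10.Congr
import Cfsg.Agent.FT.Hall

set_option autoImplicit false
open Cfsg

namespace Cfsg.Agent.S1075

open Subgroup Cfsg.Agent.H13
open scoped commutatorElement

variable {G : Type*} [Group G] (S : ReD G (ZMod 3))

theorem sig (t : ZMod 3) : S.σ t = t := by rw [RingHom.ext_zmod S.σ (RingHom.id _)]; rfl

theorem q3 : S.q = 3 := by
  have := S.card
  rw [Nat.card_zmod] at this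
  exact this.symm

theorem not_mem : S.u 0 1 0 ∉ commutator G := fun h => by
  have := S.finiteG
  obtain ⟨P, hP⟩ : ∃ P : Sylow 3 G, P.1 = S.U := ⟨Sylow.ofCard S.U (by
    rw [S.card_U, S.card_G, q3, show (3 ^ 3 + 1) * (3 ^ 3 * (3 - 1)) = 3 ^ 3 * 56 by norm_num,
      Nat.factorization_mul (by norm_num) (by norm_num), Nat.prime_three.factorization_pow]
    simp [Nat.factorization_eq_zero_of_not_dvd (show ¬ 3 ∣ 56 by norm_num)]), rfl⟩
  let N : Subgroup G :=
    { carrier := {g | ∃ t v, g = S.u t (t ^ 2) v}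
      one_mem' := ⟨0, 0, by simp [S.u_zero]⟩
      mul_mem' := by
        rintro _ _ ⟨t, v, rfl⟩ ⟨t', v', rfl⟩
        exact ⟨t + t', _, (S.u_mul ..).trans (S.u_congr rfl (by rw [sig]; revert t t'; decide) rfl)⟩
      inv_mem' := by
        rintro _ ⟨t, v, rfl⟩
        exact ⟨-t, _, (S.u_inv ..).trans (S.u_congr rfl (by rw [sig]; revert t; decide) rfl)⟩ }
  have h1 : P.1.focalSubgroup ≤ N := (closure_le _).2 (by
    rintro _ ⟨h2, x, hx, y, rfl⟩
    rw [hP] at h2 hx
    by_cases h3 : x = 1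
    · simp [h3]
    obtain ⟨_, ⟨t', a', v', rfl⟩, l, rfl⟩ := S.mem_B.1 (S.mem_B_of_conj (g := y) (inv_mem hx) (inv_ne_one.2 h3) (by
      simpa [commutatorElement_def, mul_assoc] using mul_mem (inv_mem hx) h2))
    obtain ⟨t, a, v, rfl⟩ := hx
    rw [show ⁅S.u t a v, S.u t' a' v' * S.h l⁆ = S.u t a v * (S.u t' a' v' * (S.h l * (S.u t a v)⁻¹ * (S.h l)⁻¹) *
      (S.u t' a' v')⁻¹) by group, S.u_inv, S.u_inv, S.h_conj, S.u_mul, S.u_mul, S.u_mul]
    refine ⟨_, _, S.u_congr rfl ?_ rfl⟩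
    have h4 : (l : ZMod 3)⁻¹ = l := inv_eq_of_mul_eq_one_left (by have := l.ne_zero; revert this; generalize l.1 = k; revert k; decide)
    simp only [sig, h4]
    have := l.ne_zero
    revert this
    generalize l.1 = k
    clear h2 h3
    revert t a t' a' k
    decide)
  obtain ⟨t, v, e⟩ := h1 ((commutator_inf_eq_focalSubgroup P).le ⟨h, hP.ge (S.u_mem ..)⟩)
  obtain ⟨rfl, h2, -⟩ := S.u_inj e
  exact absurd h2 (by decide)

theorem top_eq : zpowers (Abelianization.of (S.u 0 1 0)) = ⊤ := by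
  have hc : ∀ g x : G, Abelianization.of (g * x * g⁻¹) = Abelianization.of x := fun g x => by
    simp [mul_comm, mul_left_comm]
  have h1 : ∀ v, Abelianization.of (S.u 0 0 v) = 1 := fun v => by
    have h2 := hc S.z (S.u 0 0 v)
    rw [S.z_conj_u] at h2
    have h3 := congrArg Abelianization.of (S.u_mul 0 0 v (-0) 0 (-v))
    have h4 := congrArg Abelianization.of (S.u_cube 0 0 v)
    rw [map_mul, h2] at h3
    rw [map_pow, pow_three, h3] at h4
    simpa [S.u_zero] using h4
  have h2 : ∀ a v, Abelianization.of (S.u 0 a v) ∈ zpowers (Abelianization.of (S.u 0 1 0)) := fun a v => by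
    have h3 : S.u 0 a v = S.u 0 a 0 * S.u 0 0 v := by rw [S.u_mul]; simp
    rw [h3, map_mul, h1, mul_one]
    obtain rfl | rfl | rfl : a = 0 ∨ a = 1 ∨ a = 1 + 1 := by clear h3; revert a; decide
    · simp [S.u_zero]
    · exact mem_zpowers _
    · rw [← S.x_add, map_mul]; exact mul_mem (mem_zpowers _) (mem_zpowers _)
  have h3 : ∀ t a v, Abelianization.of (S.u t a v) ∈ zpowers (Abelianization.of (S.u 0 1 0)) := fun t a v => by
    have h4 := hc S.z (S.u t a v)
    rw [S.z_conj_u] at h4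
    have h5 := congrArg Abelianization.of (S.u_mul t a v (-t) a (-v))
    rw [map_mul, h4, add_neg_cancel] at h5
    have h6 := pow_mem (h5 ▸ h2 _ _) 5
    rwa [← sq, ← pow_mul, pow_succ, ← map_pow, S.u_pow_nine, map_one, one_mul] at h6
  have := S.gen ((zpowers (Abelianization.of (S.u 0 1 0))).comap Abelianization.of) h3 fun t a v => by
    rw [mem_comap, hc]; exact h3 t a v
  exact eq_top_iff.2 fun x _ => by
    obtain ⟨g, rfl⟩ := QuotientGroup.mk_surjective x
    exact this.ge (mem_top g)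

include S in
theorem card_ab : Nat.card (Abelianization G) = 3 := by
  rw [← card_top, ← top_eq S, Nat.card_zpowers]
  exact orderOf_eq_prime (by rw [← map_pow, S.u_cube_eq_one_iff.2 rfl, map_one]) fun e =>
    not_mem S ((QuotientGroup.eq_one_iff _).1 e)

include S in
theorem main : Nat.card (commutator G) = 504 ∧ ∃ (F : Type) (_ : Field F) (_ : Fintype F), Fintype.card F = 8 ∧
    Nonempty (commutator G ≃* Matrix.ProjectiveSpecialLinearGroup (Fin 2) F) := by
  have := S.finiteG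
  have h1 : Nat.card (commutator G) = 504 := by
    have := (commutator G).card_mul_index
    rw [S.card_G, q3, show (commutator G).index = 3 from card_ab S] at this
    omega
  have h2 : ∀ g : G, g * g = 1 → g ∈ commutator G := fun g hg => (QuotientGroup.eq_one_iff _).1 (by
    have h3 : Abelianization.of g ^ 3 = 1 := by rw [← card_ab S]; exact pow_card_eq_one'
    rwa [pow_three, ← map_mul, hg, map_one, mul_one] at h3)
  have h3 : ∀ (T : Subgroup (commutator G)), IsPGroup 2 T → ∀ x ∈ T, x ^ 2 = 1 := fun T hT x hx =>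
    Subtype.ext ((sq _).trans (S.sq_eq_one_of_isPGroup (hT.map (commutator G).subtype) ⟨x, hx, rfl⟩))
  obtain ⟨T⟩ : Nonempty (Sylow 2 (commutator G)) := inferInstance
  have h4 : Nat.card T = 8 := H13.card_sylow_eq (k := 3) (n := 63) h1 (by norm_num) T
  obtain ⟨F, _, _, h5, ⟨e⟩⟩ := S1230.result T (fun c => by
    obtain ⟨x, hx⟩ := c.exists_ofOrder_eq_natCard
    exact absurd (h4 ▸ hx ▸ orderOf_dvd_of_pow_eq_one (x := x) (n := 2) (Subtype.ext (h3 T T.2 x x.2))) (by norm_num))
    (fun c => by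
      have h5 : ∀ g : G, ∀ hg : g * g = 1, ⟨g, h2 g hg⟩ ∈ T.1 := fun g hg => by
        obtain ⟨y, -, hy⟩ := (FT.syl_top Nat.prime_two T).syl_elt (mem_top ⟨g, h2 g hg⟩)
          ((FT.pElt_iff Nat.prime_two).2 ⟨1, Subtype.ext ((sq g).trans hg)⟩)
        simpa [mul_assoc] using c.conj_mem _ hy y⁻¹
      have h6 := congrArg Subtype.val (h3 T T.2 _ (mul_mem (h5 S.z S.z_mul_z)
        (h5 (S.u 1 0 0 * S.z * (S.u 1 0 0)⁻¹) (by simp [mul_assoc, ← mul_assoc S.z, S.z_mul_z]))))
      have h7 : S.z * (S.u 1 0 0 * S.z * (S.u 1 0 0)⁻¹) = S.u (-1) 0 (-0) * (S.u 1 0 0)⁻¹ := by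
        rw [← S.z_conj_u, S.z_inv]; group
      change (_ * _) ^ 2 = 1 at h6
      rw [h7, S.u_inv, S.u_mul, sq] at h6
      exact absurd (S.u_eq_one_iff.1 (S.eq_one_of_mem_U_sq (S.u_mem ..) h6)).1 (by decide))
    fun t ht => by
      obtain ⟨k, hk⟩ := S.exists_conj_z (g := t.1) (fun e => by simp [show t = 1 from Subtype.ext e] at ht)
        (congrArg Subtype.val ((sq t).symm.trans (ht ▸ pow_orderOf_eq_one t)))
      have h5 : (commutator G).relIndex (centralizer {t.1}) = 3 := by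
        rw [congrArg (relIndex · _) (Abelianization.ker_of G).symm, relIndex_ker, ← card_ab S, ← card_top (G := Abelianization G)]
        congr 2
        refine eq_top_iff.2 ((top_eq S).ge.trans (zpowers_le.2 ⟨k * S.u 0 1 0 * k⁻¹, FT.mem_cen1.2 ?_, ?_⟩))
        · simp [hk, mul_assoc]
          rw [← mul_assoc, ← S.z_mul_x, mul_assoc]
        · simp [mul_comm, mul_left_comm]
      have h6 := FT.card_inf_mul_relIndex (commutator G) (centralizer {t.1})
      rw [h5, hk, ← FT.cj_cen1, FT.card_cj, S.card_centralizer_z, q3, FT.cj_cen1, ← hk] at h6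
      have h7 := h3 (centralizer {t}) (IsPGroup.of_card (n := 3) (by
        rw [← card_map_of_injective (commutator G).subtype_injective,
          show (centralizer {t}).map (commutator G).subtype = commutator G ⊓ centralizer {t.1} from le_antisymm
            (by rintro _ ⟨x, hx, rfl⟩; exact ⟨x.2, FT.mem_cen1.2 (congrArg Subtype.val (FT.mem_cen1.1 hx))⟩)
            fun x hx => ⟨⟨x, hx.1⟩, FT.mem_cen1.2 (Subtype.ext (FT.mem_cen1.1 hx.2)), rfl⟩]
        omega))
      exact ⟨⟨⟨fun a b => Subtype.ext (by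
        rw [coe_mul, coe_mul, ← inv_inj, mul_inv_rev, inv_eq_of_mul_eq_one_left ((sq _).symm.trans (h7 _ a.2)),
          inv_eq_of_mul_eq_one_left ((sq _).symm.trans (h7 _ b.2)),
          inv_eq_of_mul_eq_one_left ((sq _).symm.trans (h7 _ (mul_mem b.2 a.2)))])⟩⟩, h7⟩
  exact ⟨h1, F, _, _, h5.trans h4, ⟨e⟩⟩

/-- The derived subgroup of ²G₂(3) (θ = identity over the field with three elements) has order 504 = 1512/3 and is isomorphic to PSL₂ over the field with eight elements. -/
theorem result {L : Type*} [Field L] [Fintype L] (hL : Fintype.card L = 8) :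
    Nat.card ↥(commutator ↥(Cfsg.Lie.twistedG2 (ZMod 3) 1)) = 504 ∧
      Nonempty (↥(commutator ↥(Cfsg.Lie.twistedG2 (ZMod 3) 1)) ≃* Matrix.ProjectiveSpecialLinearGroup (Fin 2) L) := by
  obtain ⟨S, -⟩ := H13.exists_ReD (K := ZMod 3) (m := 0) rfl
  obtain ⟨h1, F, _, _, h2, ⟨e⟩⟩ := main S
  exact ⟨h1, ⟨e.trans (H10.pslCongr (FiniteField.ringEquivOfCardEq (h2.trans hL.symm)))⟩⟩

end Cfsg.Agent.S1075
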