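import Cfsg.Statements.S1079
import Mathlib
import Cfsg.Agent.H12.Univ

set_option autoImplicit false
open Cfsg

namespace Cfsg.Agent.S1079

open Cfsg.Agent.H12

/-- `|Z(Ḡ)| = gcd(3, q-1)` for E₆ and `gcd(2, q-1)` for E₇ over a field with `q` elements (the centre is dual to the weight lattice modulo the root lattice). -/
theorem result {K : Type*} [Field K] [Fintype K] {q : ℕ} (hq : Fintype.card K = q)
    (p : Cfsg.Lie.ChevalleyDatum × ℕ) (hp : p ∈ [(Cfsg.Lie.chevE6, 3), (Cfsg.Lie.chevE7, 2)]) :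
    Nat.card (Subgroup.center (p.1.SteinbergGroup K)) = Nat.gcd p.2 (q - 1) := by
  rw [← Nat.card_eq_fintype_card] at hq
  subst hq
  simp only [List.mem_cons, List.not_mem_nil, or_false] at hp
  rcases hp with rfl | rfl
  · obtain ⟨e⟩ := center_stSt_equiv (stSt_hProd_E6 (K := K))
    exact (Nat.card_congr e.toEquiv).symm.trans card_hT_ker_E6
  · obtain ⟨e⟩ := center_stSt_equiv (stSt_hProd_E7 (K := K))
    exact (Nat.card_congr e.toEquiv).symm.trans card_hT_ker_E7

end Cfsg.Agent.S1079
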