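import Cfsg.Statements.S1084
import Mathlib
import Cfsg.Agent.H7.Cub2

set_option autoImplicit false
open Cfsg

namespace Cfsg.Agent.S1084

/-- E₆ via the 27-dimensional cubic form: for a finite field with at least three elements, (isometries of the cubic form) / centre ≅ the Chevalley group E₆(F). -/
theorem result {F : Type*} [Field F] [Fintype F] (hF : 3 ≤ Fintype.card F) : Nonempty (Cfsg.Lie.E6 F ≃* ↥(Cfsg.Lie.chevE6.group F)) := by
  classical
  obtain ⟨s, h0, h1⟩ : ∃ s : F, s ≠ 0 ∧ s ≠ 1 := by
    by_contra h
    push Not at h
    have := Finset.card_le_card (s := (Finset.univ : Finset F)) (t := {0, 1}) fun s _ => by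
      by_cases e : s = 0 <;> simp [e, h s]
    have := Finset.card_le_two (a := (0 : F)) (b := 1)
    simp only [Finset.card_univ] at *
    omega
  exact H7.Cub.equiv h0 h1

end Cfsg.Agent.S1084
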