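import Cfsg.Statements.S1086
import Mathlib
import Cfsg.Agent.H13.E6Str

set_option autoImplicit false
open Cfsg

namespace Cfsg.Agent.S1086

open Cfsg.Agent.H13 Cfsg.Agent.H12

/-- |U¹| = |G¹ ∩ U| = q ^ 36 for ²E₆(q). -/
theorem result {K : Type*} [Field K] [Fintype K] {q : ℕ} (hq : IsPrimePow q) (hK : Fintype.card K = q ^ 2) :
    Nat.card ↥(Cfsg.Lie.chevE6.posUnipotent K ⊓ Cfsg.Lie.twistedE6 K q) = q ^ 36 := by
  obtain ⟨S, he, hG, hc⟩ := exists_ED hq hK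
  rw [tw_Up (A := S.tw) hG, S.card_Up, hc]
  simp only [he]
  rw [card_fixed hq.two_le hc]
  ring

end Cfsg.Agent.S1086
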