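import Cfsg.Statements.S1095
import Mathlib
import Cfsg.Agent.H12.ChevAll

set_option autoImplicit false
open Cfsg

namespace Cfsg.Agent.S1095

open Cfsg.Agent.H12

/-- `n_p` (p = p_{i+1} fundamental) is the signed monomial matrix `h_{p_j} ↦ h_{p_j} - A_{p_j,p} h_p`, `e_s ↦ η_s e_{w_p(s)}`, with `η_s = ±1`, `η_p = η_{-p} = -1`, `η_s η_{w_p(s)} = (-1)^{A_{p,s}}`, `η_s η_{-s} = 1`. -/
theorem result {F : Type*} [Field F] (D : Cfsg.Lie.ChevalleyDatum) (hD : D ∈ [Cfsg.Lie.chevG2, Cfsg.Lie.chevB2, Cfsg.Lie.chevD4, Cfsg.Lie.chevF4, Cfsg.Lie.chevE6, Cfsg.Lie.chevE7, Cfsg.Lie.chevE8]) (i : ℕ) (hi : i < D.rank) :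
    ∃ η : ℕ → ℤ, (∀ s < D.nroots, η s = 1 ∨ η s = -1) ∧ η (D.simple i) = -1 ∧ η (D.neg (D.simple i)) = -1 ∧
      (∀ s < D.nroots, η s * η (D.reflectRoot i s) = (-1) ^ (D.cartan i s).natAbs ∧ η s * η (D.neg s) = 1) ∧
      D.nMat F (D.simple i) 1 = Matrix.of (fun (row col : D.Idx) =>
        Sum.elim
          (fun j' : Fin D.rank => Sum.elim
            (fun j : Fin D.rank => (if j' = j then (1 : F) else 0) - (if (j' : ℕ) = i then ((D.cartan j (D.simple i) : ℤ) : F) else 0))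
            (fun _ => (0 : F)) col)
          (fun s' : Fin D.nroots => Sum.elim
            (fun _ => (0 : F))
            (fun s : Fin D.nroots => if (s' : ℕ) = D.reflectRoot i s then ((η s : ℤ) : F) else 0) col)
          row) := by
  obtain ⟨_⟩ := nonempty_good hD
  refine ⟨eta D i, fun s hs => eta_sign hi hs, eta_simple hi,
    (eta_neg hi (simple_lt hi)).trans (eta_simple hi),
    fun s hs => ⟨eta_mul_refl hi hs, eta_mul_neg hi hs⟩, ?_⟩
  rw [← chevRGD_m_val ⟨i, hi⟩, chevRGD_m, chevSt_m_val]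
  ext row col
  refine (mulVec_bN_cd (omR D F i) _ _).symm.trans ?_
  rcases col with j | s
  · change (Matrix.mulVec (omR D F i) (bN D F j)) row = _
    rw [om_h i j.2]
    rcases row with j' | s'
    · simp [bN_inl, Fin.ext_iff, eq_comm]
    · have h1 : D.rank + s' ≠ j := by have := j.2; omega
      have h2 : D.rank + s' ≠ i := by omega
      simp [bN_inr, h1, h2]
  · change (Matrix.mulVec (omR D F i) (bN D F (D.rank + s))) row = _
    rw [om_e i s.2]
    rcases row with j' | s'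
    · have h1 : (j' : ℕ) ≠ D.rank + D.reflectRoot i s := by have := j'.2; omega
      simp [bN_inl, h1]
    · simp [bN_inr, eq_comm]

end Cfsg.Agent.S1095
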