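import Cfsg.Statements.S1096
import Mathlib
import Cfsg.Agent.H12.ChevAll

set_option autoImplicit false
open Cfsg

namespace Cfsg.Agent.S1096

open Cfsg.Agent.H12

/-- `n_p h_{p_j}(t) n_p⁻¹ = h_{w_p(p_j)}(t)` for fundamental `p`, `p_j` and `t ≠ 0`, stated as `n_p h_{p_j}(t) = h_{w_p(p_j)}(t) n_p`. -/
theorem result {F : Type*} [Field F] (D : Cfsg.Lie.ChevalleyDatum) (hD : D ∈ [Cfsg.Lie.chevG2, Cfsg.Lie.chevB2, Cfsg.Lie.chevD4, Cfsg.Lie.chevF4, Cfsg.Lie.chevE6, Cfsg.Lie.chevE7, Cfsg.Lie.chevE8]) (i j : ℕ) (hi : i < D.rank) (hj : j < D.rank) (t : F) (ht : t ≠ 0) :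
    D.nMat F (D.simple i) 1 * D.hMat F (D.simple j) t = D.hMat F (D.reflectRoot i (D.simple j)) t * D.nMat F (D.simple i) 1 := by
  obtain ⟨_⟩ := nonempty_good hD
  have h1 := m_conj_dg (F := F) ⟨i, hi⟩ (coChr (cf D j) (Units.mk0 t ht))
  have h2 := h_eq_dg (F := F) ((rsOf D).sref ⟨i, hi⟩ ((rsOf D).simple ⟨j, hj⟩)) (Units.mk0 t ht)
  have h3 : chrW (coChr (cf D j) (Units.mk0 t ht)) ((rsOf D).sL ⟨i, hi⟩) =
      coChr (cof D ((rsOf D).sref ⟨i, hi⟩ ((rsOf D).simple ⟨j, hj⟩))) (Units.mk0 t ht) := by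
    refine MonoidHom.ext fun v => ?_
    rw [chrW_apply, coChr_apply, coChr_apply, ← cor_eq_cof, RS.cor_sref, RS.cor_simple]
    rfl
  rw [h3, ← h2, ← h_simple_eq ⟨j, hj⟩] at h1
  have := congrArg (fun g : GL D.Idx F => (g : Matrix D.Idx D.Idx F)) (eq_mul_of_mul_inv_eq h1)
  simp only [Units.val_mul, chevSt_h_val, chevSt_n_val] at this
  exact this

end Cfsg.Agent.S1096
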