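import Cfsg.Statements.S1097
import Mathlib
import Cfsg.Agent.H12.ChevAll
import Cfsg.Agent.H12.Aut0

set_option autoImplicit false
open Cfsg

namespace Cfsg.Agent.S1097

open Cfsg.Agent.H12

/-- Any homomorphism from the presented group to the Chevalley group with `x̄_r(t) ↦ x_r(t)` has kernel contained in `H̄ = ⟨h̄_p(t) : p fundamental, t ≠ 0⟩`. -/
theorem result {K : Type*} [Field K] (D : Cfsg.Lie.ChevalleyDatum) (hD : D ∈ [Cfsg.Lie.chevG2, Cfsg.Lie.chevB2, Cfsg.Lie.chevD4, Cfsg.Lie.chevF4, Cfsg.Lie.chevE6, Cfsg.Lie.chevE7, Cfsg.Lie.chevE8]) (θ : D.SteinbergGroup K →* ↥(D.group K))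
    (hθ : ∀ (r : ℕ) (t : K), r < D.nroots → ((θ (D.stGen K r t) : GL D.Idx K) : Matrix D.Idx D.Idx K) = D.x K r t) :
    θ.ker ≤ Subgroup.closure {h | ∃ (i : ℕ) (t : K), i < D.rank ∧ t ≠ 0 ∧ h = PresentedGroup.mk (D.steinbergRels K) (D.stH (D.simple i) t)} := by
  obtain ⟨_⟩ := nonempty_good hD
  have h : (stSt D K).Hom (grpSt D K) θ := fun r t => grp_val_eq_x_iff.1 (hθ r t r.2)
  refine (h.ker_le_H (chev_nc _) grpNM stSt_top).trans ((chev_nc _).H_eq_closure.le.trans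
    (Subgroup.closure_mono ?_))
  rintro _ ⟨i, t, ht, rfl⟩
  exact ⟨i, t, i.2, ht, (stSt_h _ _).symm⟩

end Cfsg.Agent.S1097
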