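import Cfsg.Statements.S1100
import Mathlib
import Cfsg.Agent.H12.ChevAll

set_option autoImplicit false
open Cfsg

namespace Cfsg.Agent.S1100

open Cfsg.Agent.H12

/-- Canonical form `g = b n_w u` (`b ∈ B`, `u ∈ U_w⁻ = ⟨X_r : r > 0, n_w X_r n_w⁻¹ ≤ V⟩`): such a decomposition exists for every element of the group; the coset `n_w H` is determined by `g`; and for a fixed representative `n_w` the factors `b`, `u` are unique. -/
theorem result {F : Type*} [Field F] (D : Cfsg.Lie.ChevalleyDatum) (hD : D ∈ [Cfsg.Lie.chevG2, Cfsg.Lie.chevB2, Cfsg.Lie.chevD4, Cfsg.Lie.chevF4, Cfsg.Lie.chevE6, Cfsg.Lie.chevE7, Cfsg.Lie.chevE8]) :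
    (∀ g ∈ D.group F, ∃ b ∈ D.borelSubgroup F, ∃ n ∈ D.monomialSubgroup F,
      ∃ u ∈ Subgroup.closure {x : GL D.Idx F | ∃ (r : ℕ) (t : F), D.IsPosRoot r ∧
            (D.rootSubgroup F r).map (MulAut.conj n).toMonoidHom ≤ D.negUnipotent F ∧ (x : Matrix D.Idx D.Idx F) = D.x F r t},
        g = b * n * u) ∧
    (∀ (b b' n n' u u' : GL D.Idx F), b ∈ D.borelSubgroup F → b' ∈ D.borelSubgroup F →
      n ∈ D.monomialSubgroup F → n' ∈ D.monomialSubgroup F →
      u ∈ Subgroup.closure {x : GL D.Idx F | ∃ (r : ℕ) (t : F), D.IsPosRoot r ∧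
            (D.rootSubgroup F r).map (MulAut.conj n).toMonoidHom ≤ D.negUnipotent F ∧ (x : Matrix D.Idx D.Idx F) = D.x F r t} →
      u' ∈ Subgroup.closure {x : GL D.Idx F | ∃ (r : ℕ) (t : F), D.IsPosRoot r ∧
            (D.rootSubgroup F r).map (MulAut.conj n').toMonoidHom ≤ D.negUnipotent F ∧ (x : Matrix D.Idx D.Idx F) = D.x F r t} →
      b * n * u = b' * n' * u' → n⁻¹ * n' ∈ D.diagonalSubgroup F ∧ (n = n' → b = b' ∧ u = u')) := by
  obtain ⟨_⟩ := nonempty_good hD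
  have key : ∀ {n : GL D.Idx F} {w : (rsOf D).W}, (chevRGD D F).Rep n w →
      Subgroup.closure {x : GL D.Idx F | ∃ (r : ℕ) (t : F), D.IsPosRoot r ∧
        (D.rootSubgroup F r).map (MulAut.conj n).toMonoidHom ≤ D.negUnipotent F ∧
        (x : Matrix D.Idx D.Idx F) = D.x F r t} = (chevRGD D F).US ((rsOf D).invSet w) := by
    intro n w hn
    refine closure_x_eq (P := fun r => D.IsPosRoot r ∧
      (D.rootSubgroup F r).map (MulAut.conj n).toMonoidHom ≤ D.negUnipotent F)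
      (fun _ h => h.1.1) (fun r => ?_) fun _ => by simp only [and_assoc]; rfl
    rw [isPosRoot_iff, rootSubgroup_eq, hn.map_U, negUnipotent_eq]
    refine and_congr_right fun _ => ⟨fun h hp => ?_, RGD.U_le_Um⟩
    have h1 := (chevSt D F).x_mem_U (w • r) 1
    exact one_ne_zero ((StSys.x_eq_one_iff chevNC chevNM).1
      (RGD.eq_one_of_mem_B_Um (RGD.U_le_B hp h1) (h h1)))
  rw [group_eq, borelSubgroup_eq, monomialSubgroup_eq, diagonalSubgroup_eq]
  refine ⟨fun g hg => ?_, fun b b' n n' u u' hb hb' hn hn' hu hu' h => ?_⟩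
  · obtain ⟨w, hw⟩ := RGD.mem_grp_iff.1 hg
    obtain ⟨n, hn⟩ := RGD.exists_rep (X := chevRGD D F) w
    obtain ⟨b, hb, u, hu, h⟩ := hn.exists_normal_form hw
    exact ⟨b, hb, n, hn.mem_N, u, by rwa [key hn], h⟩
  · obtain ⟨w, hw⟩ := RGD.mem_N_iff.1 hn
    obtain ⟨w', hw'⟩ := RGD.mem_N_iff.1 hn'
    rw [key hw] at hu
    rw [key hw'] at hu'
    have hle : ∀ w, (chevRGD D F).US ((rsOf D).invSet w) ≤ (chevRGD D F).B := fun w =>
      (RGD.US_mono fun _ h => h.1).trans RGD.Up_le_B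
    obtain rfl : w = w' := RGD.eq_of_mem_cell (X := chevRGD D F) ⟨b, hb, n, hw, u, hle _ hu, rfl⟩
      ⟨b', hb', n', hw', u', hle _ hu', h⟩
    refine ⟨hw.inv_mul_mem_T hw', ?_⟩
    rintro rfl
    exact hw.normal_form_unique hb hb' hu hu' h

end Cfsg.Agent.S1100
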