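import Cfsg.Statements.S1104
import Mathlib
import Cfsg.Agent.H13.E6Str

set_option autoImplicit false
open Cfsg

namespace Cfsg.Agent.S1104

open Cfsg.Agent.H13 Cfsg.Agent.H12

/-- ²E₆(q) equals its derived subgroup. -/
theorem result {K : Type*} [Field K] [Fintype K] {q : ℕ} (hq : IsPrimePow q) (hK : Fintype.card K = q ^ 2) : commutator ↥(Cfsg.Lie.twistedE6 K q) = ⊤ := by
  obtain ⟨S, -, hG, hc⟩ := exists_ED hq hK
  refine hG ▸ S.perfect ?_
  have := Nat.pow_le_pow_left hq.two_le 2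
  omega

end Cfsg.Agent.S1104
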