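import Cfsg.Statements.S1112
import Mathlib
import Cfsg.Agent.H13.F4Str

set_option autoImplicit false
open Cfsg

namespace Cfsg.Agent.S1112

open Cfsg.Agent.H13 Cfsg.Agent.H12

/-- ²F₄(2^(2m+1)) (m ≥ 1) equals its derived subgroup. -/
theorem result {K : Type*} [Field K] [Fintype K] {m : ℕ} (hK : Fintype.card K = 2 ^ (2 * m + 1)) (hm : 1 ≤ m) : commutator ↥(Cfsg.Lie.twistedF4 K (2 ^ m)) = ⊤ := by
  obtain ⟨S, -, hG, hc⟩ := exists_FD hK
  refine hG ▸ S.perfect ?_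
  rw [hc]
  exact (Nat.pow_lt_pow_right (a := 2) (by norm_num) (by omega : 1 < 2 * m + 1))

end Cfsg.Agent.S1112
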