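import Cfsg.Statements.S1124
import Mathlib
import Cfsg.Agent.H13.R1c

set_option autoImplicit false
open scoped Pointwise
open Cfsg

namespace Cfsg.Agent.S1124

open Cfsg.Agent.H13

/-- Let `t` be an element of order 2 of a finite group normalising a subgroup `X` of odd order, `Y = C_X(t)` and `Z` the set of elements of `X` inverted by `t`. Then `(y, z) ↦ y z` is a bijection `Y × Z → X`, so `|X| = |Y| |Z|`, and the subgroup generated by `Z` is normal in `X`. -/
theorem result {M : Type*} [Group M] [Finite M]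
    (t : M) (ht : orderOf t = 2) (X : Subgroup M) (hodd : Odd (Nat.card X))
    (hnorm : ∀ x ∈ X, t * x * t⁻¹ ∈ X) :
    (∀ x ∈ X, ∃! p : M × M, p.1 ∈ X ⊓ Subgroup.centralizer {t} ∧ p.2 ∈ Cfsg.invertedBy X t ∧ x = p.1 * p.2) ∧
      Nat.card X = Nat.card ↥(X ⊓ Subgroup.centralizer {t}) * Nat.card (Cfsg.invertedBy X t) ∧
      ∀ x ∈ X, MulAut.conj x • Subgroup.closure (Cfsg.invertedBy X t) = Subgroup.closure (Cfsg.invertedBy X t) := by
  have ht2 : t * t = 1 := by rw [← pow_two, ← ht, pow_orderOf_eq_one]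
  refine ⟨fun x hx => ?_, card_eq_cent_mul_inverted ht2 hodd hnorm, fun x hx => ?_⟩
  · obtain ⟨y, hy, h1, z, hz, e⟩ := exists_cent_mul_inverted ht2 hodd hnorm hx
    refine ⟨(y, z), ⟨⟨hy, Subgroup.mem_centralizer_singleton_iff.2 h1.symm⟩, hz, e⟩, fun p hp => ?_⟩
    obtain ⟨h2, h3⟩ := cent_mul_inverted_unique hodd
      (Subgroup.mem_centralizer_singleton_iff.1 hp.1.2).symm h1 hp.2.1 hz (hp.2.2.symm.trans e)
    exact Prod.ext h2 h3
  · ext c
    rw [Subgroup.mem_pointwise_smul_iff_inv_smul_mem, ← map_inv, MulAut.smul_def, MulAut.conj_apply]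
    refine ⟨fun h => ?_, conj_mem_closure_invertedBy ht2 hodd hnorm (inv_mem hx)⟩
    simpa [mul_assoc] using conj_mem_closure_invertedBy ht2 hodd hnorm hx h

end Cfsg.Agent.S1124
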