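import Cfsg.Statements.S1132
import Mathlib
import Cfsg.Agent.BS.Ch1

set_option autoImplicit false
open Cfsg

namespace Cfsg.Agent.S1132

/-- In the rank-one set-up (`G` finite and doubly transitive on `Ω`, `t` an involution moving `a`, `Q` normal in `G_a` with `G_a = Q D`, `Q ⊓ D = 1` for the two-point stabiliser `D = G_a ⊓ G_{t • a}`, `|Q|` even, `|D|` odd), with the action faithful and `G` containing two distinct commuting involutions: a Sylow 2-subgroup of `Q` is abelian or a Suzuki 2-group. -/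
theorem result {G Ω : Type*} [Group G] [Finite G] [MulAction G Ω] [FaithfulSMul G Ω] {a : Ω} {t : G} {Q : Subgroup G}
    (hS : Cfsg.IsRankOneSetup G Ω a t Q)
    (h2 : ∃ x y : G, x ≠ 1 ∧ y ≠ 1 ∧ x ≠ y ∧ x * x = 1 ∧ y * y = 1 ∧ x * y = y * x)
    (S : Sylow 2 ↥Q) : IsMulCommutative (S : Subgroup ↥Q) ∨ Cfsg.IsSuzukiTwoGroup ↥(S : Subgroup ↥Q) := by
  let T : BS.R3 G Ω := BS.R3.mk ⟨a, t, Q, hS⟩ inferInstance h2
  have e : (S : Subgroup Q).map Q.subtype = T.Sy :=
    T.nil_Q.hall_eq (FT.syl_map_subtype Nat.prime_two S)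
  let f : (S : Subgroup Q) ≃* T.Sy := (FT.subtypeEquiv _).trans (MulEquiv.subgroupCongr e)
  by_cases hab : FT.Ab T.Sy
  · exact Or.inl ⟨⟨fun x y => f.injective (by rw [map_mul, map_mul, hab.is_comm.comm])⟩⟩
  have h := T.suzHyp hab
  right
  refine ⟨inferInstance, S.isPGroup', ?_, ?_, ?_⟩
  · by_contra! h'
    exact hab ⟨⟨fun x y => f.symm.injective (by rw [map_mul, map_mul, h'])⟩⟩
  · obtain ⟨x, hx, y, hy, h1, h3, h4, h5, h6⟩ := h.two
    refine ⟨f.symm ⟨x, hx⟩, f.symm ⟨y, hy⟩, by simpa using h1, by simpa using h3, ?_,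
      by simpa using h5, ?_⟩
    · rw [← map_mul, ← map_one f.symm]; congr 1; exact Subtype.ext h4
    · rw [← map_mul, ← map_one f.symm]; congr 1; exact Subtype.ext h6
  · let ρ : T.Kg →* MulAut (S : Subgroup Q) := (MulAut.congr f.symm).toMonoidHom.comp
      ((FT.autHom T.Sy).comp (Subgroup.inclusion h.nrm))
    have hρ : ∀ (k : T.Kg) x, (f (ρ k x) : G) = k * f x * (k : G)⁻¹ := fun k x => by
      simp [ρ, FT.autHom, Subgroup.normalizerMonoidHom]
      rfl
    haveI := h.cyc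
    refine ⟨ρ.range, isCyclic_of_surjective _ ρ.rangeRestrict_surjective, fun x y x1 x2 y1 y2 => ?_⟩
    have x1' : (f x : G) ≠ 1 := by simpa using x1
    have x2' : (f x : G) * f x = 1 := by rw [← Subgroup.coe_mul, ← map_mul, x2]; simp
    obtain ⟨k, hk, e⟩ := h.trans _ (f x).2 x1' x2' _ (f y).2 (by simpa using y1)
      (by rw [← Subgroup.coe_mul, ← map_mul, y2]; simp)
    refine ⟨⟨_, ⟨k, hk⟩, rfl⟩, f.injective (Subtype.ext ((hρ _ _).trans e)), ?_⟩
    rintro ⟨_, k', rfl⟩ e'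
    have e2 := hρ k' x
    rw [show ρ k' x = y from e', ← e] at e2
    have : k⁻¹ * k' = 1 := h.free _ (f x).2 x1' x2' _ (mul_mem (inv_mem hk) k'.2) (by
      calc k⁻¹ * k' * f x = k⁻¹ * (k' * f x * (k' : G)⁻¹) * k' := by group
        _ = _ := by rw [← e2]; group)
    congr 2
    exact Subtype.ext (inv_mul_eq_one.1 this).symm

end Cfsg.Agent.S1132
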