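import Cfsg.Statements.S1133
import Mathlib
import Cfsg.Agent.BS.Ch1
import Cfsg.Agent.H13.GalF

set_option autoImplicit false
open Cfsg

namespace Cfsg.Agent.S1133

/-- In the rank-one set-up (`G` finite and doubly transitive on `Ω`, `t` an involution moving `a`, `Q` normal in `G_a` with `G_a = Q D`, `Q ⊓ D = 1` for the two-point stabiliser `D = G_a ⊓ G_{t • a}`, `|Q|` even, `|D|` odd), with the action faithful and `G` containing two distinct commuting involutions, with `V = C_D(t)`, `K` the elements of `D` inverted by `t` and `W = C_V(K)`: `V/W` is cyclic, i.e. `V = W ⟨v⟩` for some `v ∈ V`. -/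
theorem result {G Ω : Type*} [Group G] [Finite G] [MulAction G Ω] [FaithfulSMul G Ω] {a : Ω} {t : G} {Q : Subgroup G}
    (hS : Cfsg.IsRankOneSetup G Ω a t Q)
    (h2 : ∃ x y : G, x ≠ 1 ∧ y ≠ 1 ∧ x ≠ y ∧ x * x = 1 ∧ y * y = 1 ∧ x * y = y * x) :
    ∃ v ∈ (MulAction.stabilizer G a ⊓ MulAction.stabilizer G (t • a)) ⊓ Subgroup.centralizer {t},
      ((MulAction.stabilizer G a ⊓ MulAction.stabilizer G (t • a)) ⊓ Subgroup.centralizer {t} ⊓ Subgroup.centralizer (Cfsg.invertedBy (MulAction.stabilizer G a ⊓ MulAction.stabilizer G (t • a)) t)) ⊔ Subgroup.closure {v} =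
        (MulAction.stabilizer G a ⊓ MulAction.stabilizer G (t • a)) ⊓ Subgroup.centralizer {t} := by
  let S : BS.R3 G Ω := BS.R3.mk ⟨a, t, Q, hS⟩ inferInstance h2
  obtain ⟨F, _, _, _, -, ⟨D⟩⟩ := S.exists_fieldData
  have hc : IsCyclic (F ≃+* F) := H13.ringAut_cyc
  obtain ⟨⟨_, v, rfl⟩, hv⟩ := IsCyclic.exists_generator (α := D.α.range)
  change ∃ v ∈ S.V, S.W ⊔ Subgroup.closure {v} = S.V
  refine ⟨v, v.2, le_antisymm (sup_le inf_le_left ((Subgroup.closure_le _).2
    (Set.singleton_subset_iff.2 v.2))) fun x hx => ?_⟩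
  obtain ⟨n, hn⟩ := hv ⟨_, ⟨x, hx⟩, rfl⟩
  have h1 : D.α (⟨x, hx⟩ * (v ^ n)⁻¹) = 1 := by
    rw [map_mul, map_inv, map_zpow, mul_inv_eq_one]
    exact (congrArg Subtype.val hn).symm
  have h3 := (D.α_ker _).1 h1
  rw [Subgroup.coe_mul, Subgroup.coe_inv, Subgroup.coe_zpow] at h3
  rw [← inv_mul_cancel_right x ((v : G) ^ n)]
  exact mul_mem (Subgroup.mem_sup_left h3)
    (Subgroup.mem_sup_right (zpow_mem (Subgroup.mem_closure_singleton_self _) n))

end Cfsg.Agent.S1133
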