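import Cfsg.Statements.S1138
import Mathlib
import Cfsg.Agent.H3.SzG

set_option autoImplicit false
open Cfsg

namespace Cfsg.Agent.S1138

/-- Let `P` be a Suzuki 2-group with `|Z(P)| = q`. Then every square lies in `Z(P)` and `P/Z(P)` is abelian (so elementary abelian), `|P| = q²` or `|P| = q³`, and `P` has exponent 4. -/
theorem result {P : Type*} [Group P] (hP : Cfsg.IsSuzukiTwoGroup P) :
    (∀ x : P, x * x ∈ Subgroup.center P) ∧ (∀ x y : P, x⁻¹ * y⁻¹ * x * y ∈ Subgroup.center P) ∧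
      (Nat.card P = Nat.card (Subgroup.center P) ^ 2 ∨ Nat.card P = Nat.card (Subgroup.center P) ^ 3) ∧
      Monoid.exponent P = 4 := by
  open Subgroup Cfsg.Agent.FT Cfsg.Agent.H3 in
  open scoped commutatorElement in
  · refine ⟨H3.suz_sq hP, fun x y => ?_, H3.suz_card hP, H3.suz_exponent hP⟩
    have e : x⁻¹ * y⁻¹ * x * y = x⁻¹ * x⁻¹ * (x * y⁻¹ * (x * y⁻¹)) * (y * y) := by group
    rw [e]
    exact mul_mem (mul_mem (H3.suz_sq hP _) (H3.suz_sq hP _)) (H3.suz_sq hP _)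

end Cfsg.Agent.S1138
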