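import Mathlib
import Cfsg.Agent.H28.FH2
-- Template for statement S1142 (row 1142; see /opt/grader/pristine/manifest.json for weights).
-- Copy to Cfsg/Agent/S1142.lean and replace the sorry. The statement below is byte-identical to the frozen
-- statement Cfsg.CfsgFrozen.S1142 (Cfsg/Statements/S1142.lean; the theorem Cfsg.feit_higman_bn_pair_rank_two);
-- the grader kernel-checks Cfsg.Agent.S1142.result against that frozen type. Keep the theorem IN THIS FILE
-- (a `result` declared elsewhere and merely imported here is not credited); helpers may live anywhere
-- under Cfsg/Agent/.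
import Cfsg.Statements.S1142
-- import your own Cfsg.Agent.* helpers here

set_option autoImplicit false
open Cfsg

namespace Cfsg.Agent.S1142

/-- Feit–Higman: if a finite group has a (B,N)-pair of rank 2, its Weyl group `N/(B ⊓ N)` has order 4, 6, 8, 12 or 16. -/
theorem result {G : Type*} [Group G] [Finite G] (P : Cfsg.BNPair G)
    (h2 : P.rank = 2) :
    ((P.B ⊓ P.N).subgroupOf P.N).index ∈ ({4, 6, 8, 12, 16} : Set ℕ) := by
  open Cfsg.Agent.H28.FH in
  · exact feit_higman P h2

end Cfsg.Agent.S1142
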