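import Cfsg.Statements.S1147
import Mathlib
import Cfsg.Agent.BS.ZassF

set_option autoImplicit false
open Cfsg

namespace Cfsg.Agent.S1147

/-- Let a finite simple Zassenhaus group `G` on `Ω` have a normal subgroup `U` of `G_a`, regular on `Ω` minus `a`, which is a non-abelian 2-group. Then `|Ω| = 2^(2n) + 1` with `n` odd, `n > 1`, a two-point stabiliser `G_a ⊓ G_b` is cyclic of order `2^n - 1`, and `U` is isomorphic to the type-A group over a field with `2^n` elements for some field automorphism `φ`. -/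
theorem result {G Ω : Type*} [Group G] [Finite G] [MulAction G Ω] [Finite Ω]
    (hZ : Cfsg.IsZassenhausGroup G Ω) [IsSimpleGroup G] {a b : Ω} (hab : a ≠ b)
    (U : Subgroup G) (hUle : U ≤ MulAction.stabilizer G a)
    (hUn : ∀ h ∈ MulAction.stabilizer G a, ∀ u ∈ U, h * u * h⁻¹ ∈ U)
    (hreg : ∀ c d : Ω, c ≠ a → d ≠ a → ∃! u : U, (u : G) • c = d)
    (hU2 : IsPGroup 2 U) (hUna : ∃ u ∈ U, ∃ v ∈ U, u * v ≠ v * u) :
    ∃ n : ℕ, Odd n ∧ 1 < n ∧ Nat.card Ω = 2 ^ (2 * n) + 1 ∧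
      IsCyclic ↥(MulAction.stabilizer G a ⊓ MulAction.stabilizer G b) ∧
      Nat.card ↥(MulAction.stabilizer G a ⊓ MulAction.stabilizer G b) = 2 ^ n - 1 ∧
      ∃ (F : Type) (_ : Field F) (_ : Fintype F) (φ : F ≃+* F), Fintype.card F = 2 ^ n ∧
        Nonempty (U ≃* Cfsg.suzukiTypeA F (φ : F →+* F)) := by
  have h4 := H16.four_le_card_of_zass hZ
  obtain rfl := (H16.z3_of_zass hZ).eq_zker_of_reg (by omega) hUle hreg
  obtain ⟨u, hu, v, hv, huv⟩ := hUna
  obtain ⟨S, rfl, rfl, h1, h⟩ := BS.exists_typeS_of_zass hZ hab hU2 fun h => huv (FT.Ab.comm h hu hv)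
  obtain ⟨m, h2, h3⟩ := h.exists_m
  rw [← h1] at hU2 ⊢
  obtain ⟨h5, h6⟩ := S.center_Q hU2 h.nab
  have h7 : Nat.card (Subgroup.center S.Q) = S.q := by
    rw [← Subgroup.card_map_of_injective S.Q.subtype_injective, ← FT.center_eq_map, h6]
  obtain ⟨F, _, _, φ, a1, -, -, a2⟩ := H3.suz_typeA h5.isSuzukiTwoGroup (by rw [h7, h.card])
  refine ⟨2 * m + 1, odd_two_mul_add_one m, by omega, by rw [S.card_Ω', h.card, h3, ← pow_mul, mul_comm],
    ?_, by rw [← h3]; exact S.card_D_of_V h.V_eq, F, _, _, φ, by rw [a1, h7, h3], a2⟩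
  have := S.sd_D
  rw [h.V_eq] at this
  change IsCyclic S.D
  rw [← this.eq_left_of_bot]
  exact S.cyc_Kg

end Cfsg.Agent.S1147
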