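import Cfsg.Statements.S1151
import Mathlib
import Cfsg.Agent.H13.Re1

set_option autoImplicit false
open Cfsg

namespace Cfsg.Agent.S1151

open Cfsg.Agent.H13

/-- In the small Ree group ²G₂(q), q = 3^(2m+1), realised as G¹ inside the Chevalley group G₂ over the field with q elements (θ the 3^m-th power map), with H¹ = G¹ ∩ H and U¹ = G¹ ∩ U the intersections with the ambient diagonal and positive unipotent subgroups: `H¹` has exactly `(q - 1)/2` elements of odd order, and each non-identity one centralises no non-identity element of `U¹`. -/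
theorem result {K : Type*} [Field K] [Fintype K] {m : ℕ} (hK : Fintype.card K = 3 ^ (2 * m + 1)) :
    2 * Nat.card {h : ↥(Cfsg.Lie.chevG2.diagonalSubgroup K ⊓ Cfsg.Lie.twistedG2 K (3 ^ m)) // Odd (orderOf h)} = 3 ^ (2 * m + 1) - 1 ∧
      ∀ h ∈ (Cfsg.Lie.chevG2.diagonalSubgroup K ⊓ Cfsg.Lie.twistedG2 K (3 ^ m)), h ≠ 1 → Odd (orderOf h) →
        (Cfsg.Lie.chevG2.posUnipotent K ⊓ Cfsg.Lie.twistedG2 K (3 ^ m)) ⊓ Subgroup.centralizer {h} = ⊥ := by
  obtain ⟨S, hm', hU, hT, -⟩ := exists_ReD hK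
  have hq : 3 ^ (2 * m + 1) = S.q := by rw [ReD.q, hm']
  rw [hq]
  constructor
  · have h1 : Nat.card {l : Kˣ // Odd (orderOf l)} = (S.q - 1) / 2 := by
      have h2 := IsCyclic.card_powMonoidHom_ker Kˣ ((S.q - 1) / 2)
      rw [S.card_units, Nat.gcd_eq_right (Dvd.intro_left _ S.two_mul_half)] at h2
      rw [← h2]
      refine Nat.card_congr (Equiv.subtypeEquivRight fun l => ?_)
      rw [MonoidHom.mem_ker, powMonoidHom_apply, ← orderOf_dvd_iff_pow_eq_one]
      refine ⟨fun h => (Nat.coprime_two_right.2 h).dvd_of_dvd_mul_left ?_, fun h => S.odd_half.of_dvd_nat h⟩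
      rw [S.two_mul_half, ← S.card_units]
      exact orderOf_dvd_natCard l
    rw [← S.two_mul_half, ← h1]
    congr 1
    symm
    have ho : ∀ l, orderOf (S.h l : GL Cfsg.Lie.chevG2.Idx K) = orderOf l := fun l => by
      rw [Subgroup.orderOf_coe, orderOf_injective S.h S.h_injective]
    refine Nat.card_eq_of_bijective (fun l => ⟨⟨S.h l.1, (hT _).2 ⟨l.1, rfl⟩⟩, by
      rw [Subgroup.orderOf_mk, ho]; exact l.2⟩) ⟨fun l l' h => ?_, ?_⟩
    · exact Subtype.ext (S.h_injective (Subtype.ext (congrArg (fun x => x.1.1) h)))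
    · rintro ⟨⟨g, hg⟩, h⟩
      obtain ⟨l, rfl⟩ := (hT g).1 hg
      rw [Subgroup.orderOf_mk, ho] at h
      exact ⟨⟨l, h⟩, rfl⟩
  · intro g hg h1 ho
    obtain ⟨l, rfl⟩ := (hT g).1 hg
    rw [eq_bot_iff]
    rintro x ⟨hx, hc⟩
    obtain ⟨t, a, v, rfl⟩ := (hU x).1 hx
    have hl : l * l ≠ 1 := fun e => h1 (by
      rw [Subgroup.orderOf_coe, orderOf_injective S.h S.h_injective] at ho
      have h2 : orderOf l ∣ 2 := orderOf_dvd_of_pow_eq_one (by rwa [sq])
      rw [orderOf_eq_one_iff.1 ((Nat.coprime_two_right.2 ho).eq_one_of_dvd h2), map_one]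
      rfl)
    rw [S.eq_one_of_h_comm hl (S.u_mem t a v)
      (Subtype.ext (Subgroup.mem_centralizer_singleton_iff.1 hc).symm)]
    exact one_mem _

end Cfsg.Agent.S1151
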