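import Cfsg.Statements.S1152
import Mathlib
import Cfsg.Agent.H13.Re2

set_option autoImplicit false
open Cfsg

namespace Cfsg.Agent.S1152

open Cfsg.Agent.H13

/-- In the small Ree group ²G₂(q), q = 3^(2m+1), realised as G¹ inside the Chevalley group G₂ over the field with q elements (θ the 3^m-th power map), with H¹ = G¹ ∩ H and U¹ = G¹ ∩ U the intersections with the ambient diagonal and positive unipotent subgroups: for an involution `a ∈ H¹`, the centraliser of `a` in `G¹` is isomorphic to `Z₂ × PSL₂(q)`; and the Sylow 2-subgroups of `G¹` are elementary abelian of order 8. -/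
theorem result {K : Type*} [Field K] [Fintype K] {m : ℕ} (hK : Fintype.card K = 3 ^ (2 * m + 1))
    (a : ↥(Cfsg.Lie.twistedG2 K (3 ^ m))) (haH : (a : GL Cfsg.Lie.chevG2.Idx K) ∈ Cfsg.Lie.chevG2.diagonalSubgroup K) (ha1 : a ≠ 1) (ha2 : a * a = 1) :
    Nonempty (↥(Subgroup.centralizer {a}) ≃* Multiplicative (ZMod 2) × Matrix.ProjectiveSpecialLinearGroup (Fin 2) K) ∧
      ∀ S : Sylow 2 ↥(Cfsg.Lie.twistedG2 K (3 ^ m)), Nat.card S = 8 ∧ ∀ x ∈ S, x * x = 1 := by
  obtain ⟨S, -, -, hT, -⟩ := exists_ReD hK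
  obtain ⟨l, hl⟩ := (hT a).1 ⟨haH, a.2⟩
  rw [S.eq_z_of_mem_T ⟨l, Subtype.ext hl.symm⟩ ha1 ha2]
  exact ⟨S.nonempty_centralizer_equiv, fun P => ⟨S.card_sylow_two P, fun x hx =>
    S.sq_eq_one_of_isPGroup P.isPGroup' hx⟩⟩

end Cfsg.Agent.S1152
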