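import Cfsg.Statements.S1167
import Mathlib
import Cfsg.Agent.H16.ZClass

set_option autoImplicit false
open Cfsg

namespace Cfsg.Agent.S1167

/-- Let `G` be a finite simple Zassenhaus group on `Ω`, `U` a normal subgroup of `G_a` regular on `Ω` minus `a` which is an abelian 2-group, and `v` an involution with `v • a ≠ a`. Then there is a unique `u₀ ∈ U`, `u₀ ≠ 1`, with `v u₀ v = u₀ v u₀`. -/
theorem result {G Ω : Type*} [Group G] [Finite G] [MulAction G Ω] [Finite Ω]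
    (hZ : Cfsg.IsZassenhausGroup G Ω) [IsSimpleGroup G] {a : Ω}
    (U : Subgroup G) (hUle : U ≤ MulAction.stabilizer G a)
    (hUn : ∀ h ∈ MulAction.stabilizer G a, ∀ u ∈ U, h * u * h⁻¹ ∈ U)
    (hreg : ∀ c d : Ω, c ≠ a → d ≠ a → ∃! u : U, (u : G) • c = d)
    (hU2 : IsPGroup 2 U) (hUab : ∀ u ∈ U, ∀ u' ∈ U, u * u' = u' * u)
    (v : G) (hv1 : v ≠ 1) (hv2 : v * v = 1) (hva : v • a ≠ a) :
    ∃! u₀ : G, u₀ ∈ U ∧ u₀ ≠ 1 ∧ v * u₀ * v = u₀ * v * u₀ := by
  have z := H16.z3_of_zass hZ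
  have h4 := H16.four_le_card_of_zass hZ
  have h3 : 3 ≤ Nat.card Ω := by omega
  obtain rfl := z.eq_zker_of_reg h3 hUle hreg
  have sp := z.split h3 a
  have hvb := H16.invol_smul_smul hv2 a
  have hc := z.card_zker h3 a
  have hev : Even (Nat.card (H16.zker G a)) := by
    obtain ⟨n, hn⟩ := hU2.exists_card_eq
    rw [hn, Nat.even_pow' (by rintro rfl; rw [pow_zero] at hn; omega)]
    exact even_two
  have hodd : Odd (Nat.card Ω) := hc ▸ hev.add_one
  have hd := (H16.zass_ab hZ hva.symm ⟨⟨fun x y => Subtype.ext (hUab _ x.2 _ y.2)⟩⟩).resolve_right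
    fun h => by obtain ⟨k, hk⟩ := hodd; omega
  obtain ⟨c, hca, hcb⟩ := H16.exists_ne_ne h3 a (v • a)
  obtain ⟨K, _, _, κ, χ, h, -, hs⟩ := z.exists_coord_of_odd_degree h3 hodd hva.symm hca hcb hd
  obtain ⟨r, hr, hv⟩ := hs v rfl hvb
  have hK : ringChar K = 2 := by
    rw [FiniteField.even_card_iff_char_two, ← Nat.even_iff, ← Nat.card_eq_fintype_card]
    have := h.card
    rwa [show Nat.card K = Nat.card (H16.zker G a) by omega]
  have : CharP K 2 := hK ▸ ringChar.charP K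
  have key : ∀ u ∈ H16.zker G a, u ≠ 1 → v * u * v = u * v * u → ∀ t, (∀ x, u • κ x = κ (x + t)) →
      t ^ 2 = r := by
    intro u hu h1 e t ht
    have h0 : t ≠ 0 := by
      rintro rfl
      exact h1 (sp.eq_one u hu _ (h.ne 0) (by rw [ht, add_zero]))
    have := congrArg (· • a) e
    simp only [mul_smul, sp.le u hu] at this
    rw [← h.zero, ht, zero_add, hv t h0] at this
    rw [sq, ← eq_div_iff h0, h.inj this]
  obtain ⟨t, ht⟩ : ∃ t : K, t ^ 2 = r := surjective_frobenius K 2 r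
  have h0 : t ≠ 0 := by rintro rfl; exact hr (by simpa using ht.symm)
  have hrt : r / t = t := by rw [div_eq_iff h0, ← ht, sq]
  obtain ⟨u, hu, hut⟩ := h.transl' t
  have hu1 : u ≠ 1 := by
    rintro rfl
    exact h0 (by simpa using h.inj ((one_smul G _).symm.trans (hut 0)).symm)
  have e0 : v • κ 0 = a := by rw [h.zero, hvb]
  refine ⟨u, ⟨hu, hu1, z.ext3 hva.symm (h.ne t) (h.ne_b h0) ?_ ?_ ?_⟩, ?_⟩
  · simp only [mul_smul, sp.le u hu]
    rw [← h.zero, hut, zero_add, hv t h0, hrt]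
  · simp only [mul_smul, hvb, sp.le u hu]
    rw [← h.zero, hut, zero_add, hv t h0, hrt, hut, CharTwo.add_self_eq_zero]
  · simp only [mul_smul]
    rw [hv t h0, hrt, hut, CharTwo.add_self_eq_zero, e0, sp.le u hu]
  · rintro w ⟨hw, hw1, e⟩
    obtain ⟨t', ht'⟩ := h.transl w hw
    have h1 : t' = t := frobenius_inj K 2 ((key w hw hw1 e t' ht').trans ht.symm)
    have := sp.eq_one (u⁻¹ * w) (mul_mem (inv_mem hu) hw) _ (h.ne 0)
      (by rw [mul_smul, ht', h1, ← hut, inv_smul_smul])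
    exact (inv_mul_eq_one.1 this).symm

end Cfsg.Agent.S1167
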