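import Cfsg.Statements.S1176
import Mathlib
import Cfsg.Agent.H20.Isolated

set_option autoImplicit false
open Cfsg

namespace Cfsg.Agent.S1176

open Cfsg.Agent.H20

/-- Let x₀ be an involution of the finite group G and D its conjugacy class. Assume (a) for each x ∈ D the subgroup W(x) generated by the members of D commuting with x is a 2-group of nilpotency class at most 2, and (b) the product of two distinct commuting members of D again lies in D. Then for all x, y ∈ D, if xy has even order greater than 2, its order is 4. -/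
theorem result {G : Type*} [Group G] [Finite G] (x₀ : G) (hx₀ : orderOf x₀ = 2) (ha : ∀ x : G, IsConj x₀ x → IsPGroup 2 ↥(Subgroup.closure {y : G | IsConj x₀ y ∧ Commute y x}) ∧ ⁅⁅Subgroup.closure {y : G | IsConj x₀ y ∧ Commute y x}, Subgroup.closure {y : G | IsConj x₀ y ∧ Commute y x}⁆, Subgroup.closure {y : G | IsConj x₀ y ∧ Commute y x}⁆ = ⊥) (hb : ∀ x y : G, IsConj x₀ x → IsConj x₀ y → x ≠ y → Commute x y → IsConj x₀ (x * y)) (x y : G) (hx : IsConj x₀ x) (hy : IsConj x₀ y) (heven : Even (orderOf (x * y))) (hgt : 2 < orderOf (x * y)) : orderOf (x * y) = 4 := by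
  have hx2 : x * x = 1 := mul_self_of_orderOf_two (by rw [← orderOf_eq_of_isConj hx, hx₀])
  have hy2 : y * y = 1 := mul_self_of_orderOf_two (by rw [← orderOf_eq_of_isConj hy, hx₀])
  obtain ⟨h1, h2, h3⟩ := half_pow_spec hx2 hy2 heven
  have hc : IsConj x₀ (x * (x * y) ^ (orderOf (x * y) / 2)) := by
    rcases mul_half_pow_isConj hx2 hy2 (orderOf (x * y) / 2) with ⟨k, hk⟩ | ⟨k, hk⟩
    · exact hx.trans (isConj_iff.mpr ⟨_, hk⟩)
    · exact hy.trans (isConj_iff.mpr ⟨_, hk⟩)
  have hz := hb x _ hx hc (fun h => ne_one_of_orderOf_two h1 (by simpa using h.symm))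
    ((Commute.refl x).mul_right h2.symm)
  rw [← mul_assoc, hx2, one_mul] at hz
  have hW := (ha _ hz).2
  generalize (x * y) ^ (orderOf (x * y) / 2) = z at *
  have hxW : x ∈ Subgroup.closure {y : G | IsConj x₀ y ∧ Commute y z} :=
    Subgroup.subset_closure ⟨hx, h2.symm⟩
  have hyW : y ∈ Subgroup.closure {y : G | IsConj x₀ y ∧ Commute y z} :=
    Subgroup.subset_closure ⟨hy, h3.symm⟩
  have h4 := Subgroup.commutator_mem_commutator (Subgroup.commutator_mem_commutator hxW hyW) hxW
  rw [hW, Subgroup.mem_bot, commutatorElement_eq_one_iff_mul_comm, commutatorElement_def,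
    inv_eq_of_mul_eq_one_right hx2, inv_eq_of_mul_eq_one_right hy2] at h4
  have h5 := conj_pow_of_inverts (inverts_mul_left hx2 hy2) 2
  have h6 : x * y * x * y = (x * y) ^ 2 := by rw [pow_two]; group
  rw [h6] at h4
  rw [← h4, mul_inv_cancel_right] at h5
  have h7 : (x * y) ^ 4 = 1 := by
    rw [show 4 = 2 + 2 by rfl, pow_add]
    nth_rewrite 2 [h5]
    simp
  have h8 := Nat.le_of_dvd (by norm_num) (orderOf_dvd_of_pow_eq_one h7)
  obtain ⟨m, hm⟩ := heven
  omega

end Cfsg.Agent.S1176
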