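import Cfsg.Statements.S1177
import Mathlib
import Cfsg.Agent.H20.SE

set_option autoImplicit false
open Cfsg

namespace Cfsg.Agent.S1177

open Cfsg.Agent.H20

/-- Let A be a nontrivial elementary abelian 2-subgroup of a finite group G which is a T.I. set (each conjugate of A meets A trivially or equals A) and which does not commute elementwise with any conjugate of A other than A itself. Then for every a ∈ A, a ≠ 1, every conjugate of A contained in C_G(a) is equal to A (A is weakly closed in C_G(a)). -/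
theorem result {G : Type*} [Group G] [Finite G] (A : Subgroup G) (hA : Cfsg.IsElementaryAbelian 2 A) (hA1 : A ≠ ⊥) (hTI : ∀ g : G, A.map (MulAut.conj g).toMonoidHom ⊓ A = ⊥ ∨ A.map (MulAut.conj g).toMonoidHom = A) (hb : ∀ g : G, (∀ a ∈ A, ∀ b ∈ A.map (MulAut.conj g).toMonoidHom, a * b = b * a) → A.map (MulAut.conj g).toMonoidHom = A) (a : G) (ha : a ∈ A) (ha1 : a ≠ 1) (g : G) (hg : A.map (MulAut.conj g).toMonoidHom ≤ Subgroup.centralizer ({a} : Set G)) : A.map (MulAut.conj g).toMonoidHom = A := by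
  by_contra hne
  have hcomm : ∀ x ∈ A, ∀ y ∈ A, x * y = y * x := fun x hx y hy =>
    congrArg Subtype.val (hA.1.is_comm.comm ⟨x, hx⟩ ⟨y, hy⟩)
  have hTI' : ∀ h x : G, x ≠ 1 → x ∈ A → h * x * h⁻¹ ∈ A → h ∈ Subgroup.normalizer (A : Set G) := by
    intro h x hx1 hx hx'
    refine conjMap_eq_iff_mem_normalizer.mp ((hTI h).resolve_left fun h0 => hx1 ?_)
    have : h * x * h⁻¹ ∈ A.map (MulAut.conj h).toMonoidHom ⊓ A := ⟨conj_mem_conjMap.mpr hx, hx'⟩
    rw [h0, Subgroup.mem_bot] at this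
    simpa using this
  set B := A.map (MulAut.conj g).toMonoidHom with hB
  have hBA : B ⊓ A = ⊥ := (hTI g).resolve_right hne
  have hBN : ∀ b ∈ B, ∀ x ∈ A, b * x * b⁻¹ ∈ A := fun b hb x hx =>
    H22.conj_mem_of_N (hTI' b a ha1 ha (by rw [mem_cent_iff_conj.mp (hg hb)]; exact ha)) hx
  -- an element of `A` commuting with a nontrivial element of `B` centralises `B`
  have key : ∀ x ∈ A, ∀ b ∈ B, b ≠ 1 → Commute x b → ∀ c ∈ B, Commute x c := by
    intro x hx b hb hb1 hxb c hc
    have h1 : g⁻¹ * x * g ∈ Subgroup.normalizer (A : Set G) := by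
      refine hTI' _ (g⁻¹ * b * g) (fun h => hb1 (by
        rw [mul_assoc, inv_mul_eq_one] at h; simpa using h)) (mem_conjMap.mp hb) ?_
      have : g⁻¹ * x * g * (g⁻¹ * b * g) * (g⁻¹ * x * g)⁻¹ = g⁻¹ * (x * b * x⁻¹) * g := by group
      rw [this, commute_iff_conj.mp hxb]
      exact mem_conjMap.mp hb
    have h2 : x * c * x⁻¹ ∈ B := by
      have := H22.conj_mem_of_N h1 (mem_conjMap.mp hc)
      rw [mem_conjMap]
      simpa [mul_assoc] using this
    have h3 : x * c * x⁻¹ * c⁻¹ ∈ B ⊓ A := by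
      refine Subgroup.mem_inf.mpr ⟨mul_mem h2 (inv_mem hc), ?_⟩
      have := mul_mem hx (hBN c hc _ (inv_mem hx))
      simpa [mul_assoc] using this
    rw [hBA, Subgroup.mem_bot] at h3
    exact commutatorElement_eq_one_iff_mul_comm.mp h3
  obtain ⟨x, hx, hx'⟩ : ∃ x ∈ A, ¬ ∀ c ∈ B, Commute x c := by
    by_contra h
    push Not at h
    exact hne (hb g h)
  have hsq : ∀ b ∈ B, b * b = 1 := by
    rintro _ ⟨y, hy, rfl⟩
    rw [← map_mul, ← pow_two, hA.2 y hy, map_one]
  have hf : ∀ b : B, x * (b * x * (b : G)⁻¹) ∈ A ∧ ∀ c ∈ B, Commute (x * (b * x * (b : G)⁻¹)) c := by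
    rintro ⟨b, hb⟩
    have hm : x * (b * x * b⁻¹) ∈ A := mul_mem hx (hBN b hb x hx)
    refine ⟨hm, ?_⟩
    by_cases hb1 : b = 1
    · subst hb1
      have : x * (1 * x * 1⁻¹) = 1 := by simpa [pow_two] using hA.2 x hx
      simp only [this]
      exact fun c _ => Commute.one_left c
    · refine key _ hm b hb hb1 ?_
      have h1 := hcomm x hx _ (hBN b hb x hx)
      rw [inv_eq_of_mul_eq_one_right (hsq b hb)] at h1 ⊢
      show x * (b * x * b) * b = b * (x * (b * x * b))
      calc x * (b * x * b) * b = x * b * x * (b * b) := by group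
        _ = (b * b) * x * b * x := by rw [hsq b hb]; group
        _ = b * (b * x * b * x) := by group
        _ = _ := by rw [← h1]
  have h1 : Nat.card B ≤ Nat.card {y // y ∈ A ∧ ∀ c ∈ B, Commute y c} := by
    refine Nat.card_le_card_of_injective (fun b => ⟨_, hf b⟩) fun b c hbc => ?_
    have h2 : (b : G) * x * (b : G)⁻¹ = c * x * (c : G)⁻¹ :=
      mul_left_cancel (congrArg Subtype.val hbc)
    by_contra hne
    refine hx' (key x hx ((c : G)⁻¹ * b) (mul_mem (inv_mem c.2) b.2)
      (fun h => hne (Subtype.ext (inv_mul_eq_one.mp h).symm)) (Commute.symm ?_))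
    rw [commute_iff_conj]
    calc (c : G)⁻¹ * b * x * ((c : G)⁻¹ * b)⁻¹ = (c : G)⁻¹ * (b * x * (b : G)⁻¹) * c := by group
      _ = x := by rw [h2]; group
  have h2 : Nat.card {y // y ∈ A ∧ ∀ c ∈ B, Commute y c} < Nat.card A :=
    natCard_subtype_lt (a := x) (fun y hy => hy.1) hx (fun h => hx' h.2)
  have h3 : Nat.card B = Nat.card A := card_conjMap A g
  omega

end Cfsg.Agent.S1177
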