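import Cfsg.Statements.S1178
import Mathlib
import Cfsg.Agent.H20.SE

set_option autoImplicit false
open Cfsg

namespace Cfsg.Agent.S1178

open Cfsg.Agent.H20

/-- Let A be a subgroup of a Sylow 2-subgroup S of the finite group G which is weakly closed in S. If a conjugate g A g⁻¹ commutes elementwise with A, then g A g⁻¹ = A. -/
theorem result {G : Type*} [Group G] [Finite G] (S : Sylow 2 G) (A : Subgroup G) (hW : Cfsg.IsWeaklyClosed A (S : Subgroup G)) (g : G) (hc : ∀ a ∈ A, ∀ b ∈ A.map (MulAut.conj g).toMonoidHom, a * b = b * a) : A.map (MulAut.conj g).toMonoidHom = A := by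
  have hA : IsPGroup 2 A := S.2.to_le hW.1
  have hp : IsPGroup 2 ↥(A ⊔ H22.cj g A) := hA.to_sup_of_normal_left' (H22.isPGroup_cj g hA)
    (le_trans (fun b hb => H22.mem_C.mpr fun a ha => hc a ha b hb) (H22.C_le_N A))
  obtain ⟨h, hh⟩ := exists_conj_mem_sylow hp S
  have h1 : H22.cj h A = A :=
    hW.2 h (H22.cj_le_iff'.mpr fun x hx => hh x (Subgroup.mem_sup_left hx))
  have h2 : H22.cj (h * g) A = A := hW.2 (h * g) (by
    rw [H22.cj_def, H22.cj_mul]
    exact H22.cj_le_iff'.mpr fun x hx => hh x (Subgroup.mem_sup_right hx))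
  rw [H22.cj_mul] at h2
  exact H22.cj_injective h (h2.trans h1.symm)

end Cfsg.Agent.S1178
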