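import Cfsg.Statements.S1181
import Mathlib
import Cfsg.Agent.H20.Isolated

set_option autoImplicit false
open Cfsg

namespace Cfsg.Agent.S1181

open Cfsg.Agent.H20

/-- Let z be an isolated involution of the finite group G and N a normal subgroup with z ∉ N. Then the centralizer of zN in G/N is the image of C_G(z), and zN is an isolated involution of G/N. -/
theorem result {G : Type*} [Group G] [Finite G] (z : G) (hz : Cfsg.IsIsolatedInvolution z) (N : Subgroup G) [N.Normal] (hzN : z ∉ N) : Subgroup.centralizer ({(QuotientGroup.mk z : G ⧸ N)} : Set (G ⧸ N)) = (Subgroup.centralizer ({z} : Set G)).map (QuotientGroup.mk' N) ∧ Cfsg.IsIsolatedInvolution (QuotientGroup.mk z : G ⧸ N) := by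
  have hz2 := mul_self_of_orderOf_two hz.1
  have key : ∀ g : G, Commute (QuotientGroup.mk z : G ⧸ N) (QuotientGroup.mk (g * z * g⁻¹)) →
      z * (g * z * g⁻¹) ∈ N := by
    intro g hc
    rw [← QuotientGroup.eq_one_iff]
    apply eq_one_of_odd_of_mul_self
    · exact (isolated_odd hz (isConj_iff.mpr ⟨g, rfl⟩)).of_dvd_nat
        (orderOf_map_dvd (QuotientGroup.mk' N) _)
    · rw [QuotientGroup.mk_mul, hc.symm.mul_mul_mul_comm, ← QuotientGroup.mk_mul,
        ← QuotientGroup.mk_mul, hz2, mul_self_of_orderOf_two (isolated_conj hz g).1]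
      simp
  refine ⟨?_, ?_, ?_⟩
  · ext q
    obtain ⟨g, rfl⟩ := QuotientGroup.mk_surjective q
    rw [mem_cent_iff_conj]
    constructor
    · intro h
      have hN := key g (by
        rw [QuotientGroup.mk_mul, QuotientGroup.mk_mul, QuotientGroup.mk_inv, h])
      obtain ⟨k, -, hk, hk'⟩ := isolated_exists_factor hz g
      have hkN : k ∈ N := (Subgroup.zpowers_le.mpr hN) hk'
      refine ⟨(g⁻¹ * k)⁻¹, mem_cent_iff.mpr hk.inv_left, ?_⟩
      simp [(QuotientGroup.eq_one_iff k).mpr hkN]
    · rintro ⟨c, hc, hc'⟩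
      rw [← hc']
      have := congrArg (QuotientGroup.mk' N) (mem_cent_iff_conj.mp hc)
      simpa using this
  · apply orderOf_two_of
    · rw [← QuotientGroup.mk_mul, hz2, QuotientGroup.mk_one]
    · rwa [Ne, QuotientGroup.eq_one_iff]
  · intro q hq
    obtain ⟨g, rfl⟩ := QuotientGroup.mk_surjective q
    have := (QuotientGroup.eq_one_iff _).mpr (key g hq)
    rw [QuotientGroup.mk_mul] at this
    have h2 := inv_eq_of_mul_eq_one_right this
    rw [← QuotientGroup.mk_inv, inv_eq_self_of_orderOf_two hz.1] at h2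
    exact h2.symm

end Cfsg.Agent.S1181
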