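import Cfsg.Statements.S1183
import Mathlib
import Cfsg.Agent.H20.Transfer
import Cfsg.Agent.H22.Base

set_option autoImplicit false
open Cfsg

namespace Cfsg.Agent.S1183

open Cfsg.Agent.H20

/-- Let z be an isolated involution of the finite group G and C = C_G(z). Then the subgroup of G generated by its elements of odd order is all of G if and only if the subgroup of C generated by its elements of odd order is all of C. -/
theorem result {G : Type*} [Group G] [Finite G] (z : G) (hz : Cfsg.IsIsolatedInvolution z) : Cfsg.pResidual 2 G = ⊤ ↔ Cfsg.pResidual 2 ↥(Subgroup.centralizer ({z} : Set G)) = ⊤ := by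
  set C := Subgroup.centralizer ({z} : Set G) with hC
  constructor
  · intro h
    obtain ⟨S, hS⟩ := exists_mem_sylow_elt (p := 2) (k := 1) (x := z)
      (by rw [pow_one, pow_two, mul_self_of_orderOf_two hz.1])
    have hSC : (S : Subgroup G) ≤ C := fun x hx =>
      mem_cent_iff.mpr (isolated_commute_of_mem_pgroup hz S.2 hS hx)
    have h1 := pResidual_sup_commutator_inf (p := 2) C
      ((Nat.Prime.coprime_iff_not_dvd Nat.prime_two).mpr fun h2 =>
        S.not_dvd_index (h2.trans (Subgroup.index_dvd_of_le hSC))) (by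
      intro g hg _ a ha
      obtain ⟨c, -, hc, e⟩ := isolated_control hz ⊤ (H22.mem_N_of_normal z ⊤) (mem_cent_iff.mp hg)
        (mem_cent_iff.mp ha) (Subgroup.mem_top a) rfl
      exact ⟨c, mem_cent_iff.mpr hc, e⟩)
    rw [h, top_sup_eq, top_inf_eq] at h1
    apply pResidual_eq_top_of_sup_commutator
    apply Subgroup.map_injective C.subtype_injective
    rw [← h1, ← MonoidHom.range_eq_map, Subgroup.range_subtype]
  · intro h
    rw [eq_top_iff]
    intro g _
    obtain ⟨k, hk, hc, -⟩ := isolated_exists_factor hz g
    have h1 : k ∈ pResidual 2 G := H4.mem_pResidual (Nat.coprime_two_right.mpr hk.1)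
    have h2 : g⁻¹ * k ∈ pResidual 2 G :=
      H4.map_pResidual_le 2 C.subtype ⟨⟨_, mem_cent_iff.mpr hc⟩, h ▸ Subgroup.mem_top _, rfl⟩
    simpa using mul_mem h1 (inv_mem h2)

end Cfsg.Agent.S1183
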