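import Cfsg.Statements.S1184
import Mathlib
import Cfsg.Agent.H20.Isolated

set_option autoImplicit false
open Cfsg

namespace Cfsg.Agent.S1184

open Cfsg.Agent.H20

/-- Let z be an isolated involution of the finite group G. If s and t are distinct conjugates of z, then st does not commute with z. -/
theorem result {G : Type*} [Group G] [Finite G] (z : G) (hz : Cfsg.IsIsolatedInvolution z) (g h : G) (hne : g * z * g⁻¹ ≠ h * z * h⁻¹) : ¬ Commute (g * z * g⁻¹ * (h * z * h⁻¹)) z := by
  intro hc
  have hs : IsConj z (g * z * g⁻¹) := isConj_iff.mpr ⟨g, rfl⟩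
  have ht : IsConj z (h * z * h⁻¹) := isConj_iff.mpr ⟨h, rfl⟩
  generalize g * z * g⁻¹ = s at *
  generalize h * z * h⁻¹ = t at *
  have hs2 := mul_self_of_orderOf_two (isolated_of_isConj hz hs).1
  have ht2 := mul_self_of_orderOf_two (isolated_of_isConj hz ht).1
  have hinv := inverts_mul_left hs2 ht2
  obtain ⟨k, hk⟩ := isolated_exists_pow_conj hz (IsConj.refl z) hs
  have hodd := isolated_odd' hz hs ht
  have hne' : s * t ≠ 1 := fun h1 => hne (by
    rw [← inv_eq_of_mul_eq_one_right h1, inv_eq_of_mul_eq_one_right hs2])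
  generalize s * t = w at *
  have h1 : (z * s) * w * (z * s)⁻¹ = w⁻¹ := by
    calc (z * s) * w * (z * s)⁻¹ = z * (s * w * s⁻¹) * z⁻¹ := by group
      _ = w⁻¹ := by rw [hinv, ← hc.inv_left.eq]; group
  have h2 : ∀ n : ℕ, (z * s) ^ n * w * ((z * s) ^ n)⁻¹ = w ∨
      (z * s) ^ n * w * ((z * s) ^ n)⁻¹ = w⁻¹ := by
    intro n
    induction n with
    | zero => left; simp
    | succ n ih =>
      have h3 : (z * s) ^ (n + 1) * w * ((z * s) ^ (n + 1))⁻¹ =
          ((z * s) ^ n * w * ((z * s) ^ n)⁻¹)⁻¹ := by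
        calc (z * s) ^ (n + 1) * w * ((z * s) ^ (n + 1))⁻¹
            = (z * s) ^ n * ((z * s) * w * (z * s)⁻¹) * ((z * s) ^ n)⁻¹ := by
              rw [pow_succ]; generalize (z * s) ^ n = v; group
          _ = _ := by rw [h1]; group
      rw [h3]
      rcases ih with ih | ih <;> rw [ih]
      · right; rfl
      · left; simp
  have h4 : Commute ((z * s) ^ k * w * ((z * s) ^ k)⁻¹) s := by
    have := commute_conj_iff (g := (z * s) ^ k).mpr hc
    rwa [hk] at this
  have h5 : Commute w s := by
    rcases h2 k with h | h <;> rw [h] at h4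
    · exact h4
    · simpa using h4.inv_left
  rw [← h5.eq, mul_inv_cancel_right] at hinv
  exact hne' (eq_one_of_odd_of_mul_self hodd (by nth_rewrite 2 [hinv]; simp))

end Cfsg.Agent.S1184
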