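import Cfsg.Statements.S1185
import Mathlib
import Cfsg.Agent.H20.Isolated

set_option autoImplicit false
open Cfsg

namespace Cfsg.Agent.S1185

open Cfsg.Agent.H20

/-- Let z be an isolated involution of the finite group G with centralizer C. Then for every g ∈ G there is exactly one element k in the coset gC that has odd order and is inverted by z. -/
theorem result {G : Type*} [Group G] [Finite G] (z : G) (hz : Cfsg.IsIsolatedInvolution z) (g : G) : ∃! k : G, (Odd (orderOf k) ∧ z * k * z⁻¹ = k⁻¹) ∧ g⁻¹ * k ∈ Subgroup.centralizer ({z} : Set G) := by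
  obtain ⟨k, hk, hk', -⟩ := isolated_exists_factor hz g
  refine ⟨k, ⟨hk, mem_cent_iff.mpr hk'⟩, ?_⟩
  rintro k' ⟨hk1, hk2⟩
  have key : ∀ a : G, z * a * z⁻¹ = a⁻¹ → Commute (g⁻¹ * a) z → a * a = g * z * g⁻¹ * z⁻¹ := by
    intro a ha hc
    rw [commute_iff_conj] at hc
    have h1 : a * z * a⁻¹ = g * z * g⁻¹ := by
      calc a * z * a⁻¹ = g * (g⁻¹ * a * z * (g⁻¹ * a)⁻¹) * g⁻¹ := by group
        _ = _ := by rw [hc]
    rw [← h1]
    calc a * a = a * (z * a * z⁻¹)⁻¹ := by rw [ha]; group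
      _ = _ := by group
  exact eq_of_odd_of_sq_eq hk1.1 hk.1
    ((key k' hk1.2 (mem_cent_iff.mp hk2)).trans (key k hk.2 hk').symm)

end Cfsg.Agent.S1185
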