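import Cfsg.Statements.S1186
import Mathlib
import Cfsg.Agent.H20.Isolated
import Cfsg.Agent.H6.Inner
-- import your own Cfsg.Agent.* helpers here

set_option autoImplicit false
open Cfsg

namespace Cfsg.Agent.S1186

open Cfsg.Agent.H20

theorem sqrt {G : Type*} [Group G] {u : G} (h : Odd (orderOf u)) : ∃ m : ℕ, u ^ m * u ^ m = u := by
  obtain ⟨n, hn⟩ := h
  exact ⟨n + 1, by rw [← pow_add, show n + 1 + (n + 1) = orderOf u + 1 by omega, pow_succ, pow_orderOf_eq_one, one_mul]⟩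

/-- Let z be an isolated involution of the finite group G, C = C_G(z), K the set of elements of odd order inverted by z, and s an involution of C. Then |G| = |C| · |C_K(sz)| · |C_K(s)|. -/
theorem result {G : Type*} [Group G] [Finite G] (z : G) (hz : Cfsg.IsIsolatedInvolution z) (s : G) (hs : orderOf s = 2) (hsz : Commute s z) : Nat.card G = Nat.card (Subgroup.centralizer ({z} : Set G)) * Nat.card {k : G // Odd (orderOf k) ∧ z * k * z⁻¹ = k⁻¹ ∧ Commute k (s * z)} * Nat.card {k : G // Odd (orderOf k) ∧ z * k * z⁻¹ = k⁻¹ ∧ Commute k s} := by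
  have z2 := mul_self_of_orderOf_two hz.1
  have zi := inv_eq_self_of_orderOf_two hz.1
  have s2 := mul_self_of_orderOf_two hs
  have sq : ∀ {x}, IsConj z x → x * x = 1 := fun h => mul_self_of_orderOf_two (orderOf_eq_of_isConj h ▸ hz.1)
  have A : ∀ {k : G}, (Odd (orderOf k) ∧ z * k * z⁻¹ = k⁻¹) ↔ IsConj z (k * z) := fun {k} => by
    refine ⟨fun h => isConj_of_odd_orderOf_mul z2 ?_ ?_, fun h => ⟨?_, ?_⟩⟩
    · calc _ = k * (z * k * z⁻¹) * (z * z) := by group
        _ = 1 := by rw [h.2, z2]; group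
    · rw [show z * (k * z) = z * k * z⁻¹ by rw [zi, mul_assoc], h.2, orderOf_inv]; exact h.1
    · simpa [mul_assoc, z2] using isolated_odd' hz h (IsConj.refl z)
    · calc _ = k⁻¹ * (k * z * (k * z)) * (z * z)⁻¹ := by group
        _ = _ := by rw [sq h, z2]; group
  have B : ∀ {a b : G}, z * a * z⁻¹ = a⁻¹ → a * b * a * z = a * (b * z) * a⁻¹ := fun {a b} h => by
    rw [← h, zi, mul_assoc a (b * z), mul_assoc b, ← mul_assoc z, ← mul_assoc z, z2]; group
  have C : ∀ {a b : G}, z * a * z⁻¹ = a⁻¹ → IsConj z (b * z) → IsConj z (a * b * a * z) := fun h h' =>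
    B h ▸ h'.trans (isConj_iff.2 ⟨_, rfl⟩)
  have D : ∀ {a b : G}, IsConj z (a * z) → IsConj z (b * z) → a * z * (b * z) = a * b⁻¹ := fun _ h => by
    rw [← (A.2 h).2, zi]; group
  have E : ∀ {b : G}, z * b * z⁻¹ = b⁻¹ → (Commute b (s * z) ↔ s * b⁻¹ * s⁻¹ = b) := fun {b} h => by
    rw [← h, show s * (z * b * z⁻¹) * s⁻¹ = s * z * b * (s * z)⁻¹ by group, ← commute_iff_conj]
    exact Commute.symm_iff
  have h1 : Nat.card {k : G // Odd (orderOf k) ∧ z * k * z⁻¹ = k⁻¹} = Nat.card {x // IsConj z x} :=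
    Nat.card_congr ((Equiv.mulRight z).subtypeEquiv fun _ => A)
  rw [mul_assoc, ← Nat.card_prod, ← (Subgroup.centralizer {z}).card_mul_index, ← H6.card_isConj_eq_index, ← h1]
  refine congrArg _ (Nat.card_congr (Equiv.ofBijective (fun p => ⟨p.2.1 * p.1.1 * p.2.1,
    A.2 (C p.2.2.2.1 (A.1 ⟨p.1.2.1, p.1.2.2.1⟩))⟩) ⟨?_, ?_⟩)).symm
  · rintro ⟨⟨b, b1, b2, b3⟩, a, a1, a2, a3⟩ ⟨⟨b', b1', b2', b3'⟩, a', a1', a2', a3'⟩ e
    have e : a * b * a = a' * b' * a' := congrArg Subtype.val e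
    have k : ∀ {a b : G}, z * b * z⁻¹ = b⁻¹ → Commute b (s * z) → Commute a s →
        a * a * (a * b * a)⁻¹ * (a * a * (a * b * a)⁻¹) = s * (a * b * a) * s⁻¹ * (a * b * a)⁻¹ := fun {a b} h1 h2 h3 => by
      have h4 : s * b * s⁻¹ = b⁻¹ := by nth_rw 2 [← (E h1).1 h2]; group
      rw [show s * (a * b * a) * s⁻¹ = s * a * s⁻¹ * (s * b * s⁻¹) * (s * a * s⁻¹) by group, commute_iff_conj.1 h3.symm, h4]
      group
    have o : ∀ {a k : G}, z * a * z⁻¹ = a⁻¹ → IsConj z (k * z) → Odd (orderOf (a * a * k⁻¹)) := fun {a k} h h' => by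
      have : IsConj z (a * a * z) := by simpa using C (b := 1) h (by rw [one_mul])
      exact D this h' ▸ isolated_odd' hz this h'
    have hk := C a2 (A.1 ⟨b1, b2⟩)
    obtain rfl : a = a' := eq_of_odd_of_sq_eq a1 a1' (mul_right_cancel (eq_of_odd_of_sq_eq (o a2 hk) (o a2' hk)
      (by rw [k b2 b3 a3, e, k b2' b3' a3'])))
    obtain rfl : b = b' := mul_left_cancel (mul_right_cancel e)
    rfl
  · rintro ⟨k, hk⟩
    have hk := A.1 hk
    have hk' : IsConj z (s * k * s⁻¹ * z) := by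
      rw [show s * k * s⁻¹ * z = s * (k * z) * s⁻¹ by rw [mul_assoc _ s⁻¹, hsz.inv_left.eq]; group]
      exact hk.trans (isConj_iff.2 ⟨_, rfl⟩)
    have ho := isolated_odd' hz hk' hk
    obtain ⟨m, hm⟩ := sqrt ho
    have i1 := conj_pow_of_inverts (inverts_mul_right (sq hk') (sq hk)) m
    have i2 : s * (s * k * s⁻¹ * z * (k * z)) * s⁻¹ = (s * k * s⁻¹ * z * (k * z))⁻¹ := by
      rw [D hk' hk]
      calc _ = s * s * k * (s * s)⁻¹ * s * k⁻¹ * s⁻¹ := by group
        _ = _ := by rw [s2]; group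
    have i2 := conj_pow_of_inverts i2 m
    have ro := odd_orderOf_pow ho m
    generalize (s * k * s⁻¹ * z * (k * z)) ^ m = r at hm i1 i2 ro
    rw [D hk' hk] at hm
    have hc : IsConj z (r * k * z) := hk.trans (isConj_of_odd_orderOf_mul (sq hk) (by
      calc _ = r * (k * z * r * (k * z)⁻¹) * (k * z * (k * z)) := by group
        _ = 1 := by rw [i1, sq hk]; group) (by
      rw [show k * z * (r * k * z) = k * z * r * (k * z)⁻¹ * (k * z * (k * z)) by group, i1, sq hk, mul_one, orderOf_inv]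
      exact ro))
    have cs : Commute s (r * k) := commute_iff_conj.2 (by
      calc _ = s * r * s⁻¹ * (s * k * s⁻¹ * k⁻¹) * k := by group
        _ = _ := by rw [i2, ← hm]; group)
    obtain ⟨n, hn⟩ := sqrt (A.2 hc).1
    have a2 := conj_pow_of_inverts (A.2 hc).2 n
    have a3 := cs.pow_right n
    have a1 := odd_orderOf_pow (A.2 hc).1 n
    generalize (r * k) ^ n = a at hn a1 a2 a3
    have hb := A.2 (C (a := a⁻¹) (by rw [show z * a⁻¹ * z⁻¹ = (z * a * z⁻¹)⁻¹ by group, a2]) hk)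
    refine ⟨⟨⟨a⁻¹ * k * a⁻¹, hb.1, hb.2, (E hb.2).2 ?_⟩, a, a1, a2, a3.symm⟩, Subtype.ext (by simp [mul_assoc])⟩
    have : s * k * s⁻¹ = a * a * k⁻¹ * (a * a) := by rw [hn, mul_inv_eq_iff_eq_mul.1 hm.symm]; group
    calc _ = s * a * s⁻¹ * (s * k * s⁻¹)⁻¹ * (s * a * s⁻¹) := by group
      _ = _ := by rw [commute_iff_conj.1 a3, this]; group

end Cfsg.Agent.S1186
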