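import Cfsg.Statements.S1223
import Mathlib
import Cfsg.Agent.BS.BInd

set_option autoImplicit false
open Cfsg

namespace Cfsg.Agent.S1223

open Cfsg.Agent.H13 Cfsg.Agent.BS MulAction

theorem k_cent {G Ω : Type*} [Group G] [MulAction G Ω] [Finite G] (S : R1 G Ω) {j t : G}
    (hj : j ∈ S.K) (h1 : t ≠ 1) (h2 : t * t = 1) (hc : t * j = j * t) : j = 1 := by
  obtain ⟨c, hcf⟩ := S.exists_fix_of_sq h2
  have hD := (S.mem_K.1 hj).1
  have hjc : j • c = c := S.eq_of_invol_fix h1 h2 (by rw [← mul_smul, hc, mul_smul, hcf]) hcf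
  by_cases ha : c = S.a
  · exact S.eq_one_of_K_commute (S.mem_I0.2 ⟨ha ▸ hcf, h1, h2⟩) hj hc.symm
  by_cases hb : c = S.t • S.a
  · have hs : S.t * t * S.t ∈ S.I0 := S.mem_I0.2 ⟨by rw [mul_smul, mul_smul, ← hb, hcf, hb, S.t_smul_t],
      fun e => h1 (by
        have := congrArg (fun x => S.t * x * S.t) e
        simpa [mul_assoc, S.tt, S.t_t_mul] using this),
      by simp only [mul_assoc, S.t_t_mul, mul_mul_cancel_invol h2, S.tt]⟩
    refine S.eq_one_of_K_commute hs hj ?_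
    have e1 := S.K_mul_t hj
    have e2 := S.K_mul_t' hj
    have e3 : t * j⁻¹ = j⁻¹ * t := ((show Commute t j from hc).inv_right).eq
    calc j * (S.t * t * S.t) = (j * S.t) * t * S.t := by group
      _ = S.t * (j⁻¹ * t) * S.t := by rw [e2]; group
      _ = S.t * t * (j⁻¹ * S.t) := by rw [← e3]; group
      _ = S.t * t * S.t * j := by rw [← e1]; group
  obtain ⟨s, hs, h3⟩ := S.exists_cent_I0 (X := {j}) (Set.singleton_subset_iff.2 hD)
    ⟨S.a, S.t • S.a, c, S.b_ne.symm, Ne.symm ha, Ne.symm hb, by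
      rintro x rfl
      exact ⟨S.D_a hD, S.D_b hD, hjc⟩⟩
  exact S.eq_one_of_K_commute hs hj (Subgroup.mem_centralizer_singleton_iff.1 h3).symm


/-- Let H be a strongly embedded subgroup of the finite group G containing no nontrivial normal subgroup of G (so G acts faithfully on the cosets of H), u an involution of G outside H, and j ≠ 1 an element of H ∩ uHu⁻¹ with u j u⁻¹ = j⁻¹. Then C_G(j) has odd order. -/
theorem result {G : Type*} [Group G] [Finite G] (H : Subgroup G) (hH : Cfsg.IsStronglyEmbedded H) (hcore : H.normalCore = ⊥) (u : G) (hu : orderOf u = 2) (huH : u ∉ H) (j : G) (hj : j ∈ (H ⊓ H.map (MulAut.conj u).toMonoidHom)) (hj1 : j ≠ 1) (hinv : u * j * u⁻¹ = j⁻¹) : Odd (Nat.card (Subgroup.centralizer ({j} : Set G))) := by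
  by_contra hev
  obtain ⟨t, ht, ht1, ht2⟩ := exists_invol_of_even (Nat.not_odd_iff_even.1 hev)
  have htj : t * j = j * t := Subgroup.mem_centralizer_singleton_iff.1 ht
  have hu2 : u * u = 1 := by rw [← pow_two, ← hu, pow_orderOf_eq_one]
  have hu1 : u ≠ 1 := by rintro rfl; simp at hu
  have hui : u⁻¹ = u := inv_eq_of_mul_self hu2
  have hodd : Odd (orderOf j) := odd_orderOf_of_mem (hH.2.2 u huH) hj
  have hne : j⁻¹ ≠ j := fun e => hj1 (eq_one_of_odd_of_sq hodd (by nth_rewrite 1 [← e]; simp))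
  have hw : u * t * j * (u * t)⁻¹ = j⁻¹ := by
    rw [← hinv, mul_inv_rev, mul_assoc u t j, htj]; group
  have hev2 : ¬ Odd (orderOf (u * t)) := by
    rintro ⟨n, hn⟩
    have h2 : Commute (u * t * (u * t)) j := by
      have h4 : u * t * j⁻¹ * (u * t)⁻¹ = j := by
        have := congrArg (·⁻¹) hw
        simpa [mul_assoc] using this
      have h5 : u * t * (u * t) * j * (u * t * (u * t))⁻¹ = j := by
        calc _ = u * t * (u * t * j * (u * t)⁻¹) * (u * t)⁻¹ := by group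
          _ = j := by rw [hw, h4]
      exact mul_inv_eq_iff_eq_mul.1 h5
    have h3 := commute_of_commute_sq ⟨n, hn⟩ h2
    apply hne
    rw [← hw, h3.eq]; group
  obtain ⟨z, hz1, hz2, hz3, hz4⟩ := exists_invol_commute hu2 ht2 hev2
  have hr : R1.Rank2 G := by
    by_cases e : u = z
    · refine ⟨u, t, hu1, ht1, ?_, hu2, ht2, by rw [e]; exact hz4.symm⟩
      rintro rfl
      apply hne
      rw [← hinv, htj]; group
    · exact ⟨u, z, hu1, hz1, e, hu2, hz2, hz3⟩
  haveI : FaithfulSMul G (G ⧸ H) := ⟨fun {x y} e => by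
    have := H.normalCore_eq_ker ▸ hcore
    exact (MonoidHom.ker_eq_bot_iff _).1 this (Equiv.ext e)⟩
  obtain ⟨S, hS⟩ := (SE.of_se hH).bender hr ((1 : G) : G ⧸ H)
  have hH' : ∀ g : G, g • ((1 : G) : G ⧸ H) = ((1 : G) : G ⧸ H) ↔ g ∈ H := fun g => by
    rw [← mem_stabilizer_iff, stabilizer_quotient]
  have ha : u • S.a ≠ S.a := by rw [hS]; exact fun e => huH ((hH' u).1 e)
  refine hj1 (k_cent (S.toR1.setT u hu2 ha) ?_ ht1 ht2 htj)
  refine (R1.mem_K _).2 ⟨(R1.mem_D _).2 ⟨?_, ?_⟩, ?_⟩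
  · change j • S.a = S.a
    rw [hS]; exact (hH' j).2 hj.1
  · change j • u • S.a = u • S.a
    obtain ⟨y, hy, e⟩ := hj.2
    have e' : j = u * y * u⁻¹ := e.symm
    rw [hS, e', mul_smul, mul_smul, inv_smul_smul, (hH' y).2 hy]
  · change u * j * u = j⁻¹
    rw [← hinv, hui]

end Cfsg.Agent.S1223
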