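import Cfsg.Statements.S1228
import Cfsg.Agent.H23.EA

set_option autoImplicit false
open Cfsg

namespace Cfsg.Agent.S1228

/-- Let G be a finite group with a Sylow 2-subgroup T that is neither cyclic nor normal, such that the centralizer of every involution is an elementary abelian 2-group; put H = N_G(T), let u be an involution outside H and D = H ∩ uHu⁻¹. Then N_G(D) = D ⊔ ⟨u⟩, and a coset gH is fixed by every element of D exactly when gH = H or gH = uH. -/
theorem result {G : Type*} [Group G] [Finite G] (T : Sylow 2 G) (hnc : ¬ IsCyclic (T : Subgroup G)) (hnn : ¬ (T : Subgroup G).Normal) (hC : ∀ t : G, orderOf t = 2 → IsMulCommutative (Subgroup.centralizer ({t} : Set G)) ∧ ∀ c ∈ Subgroup.centralizer ({t} : Set G), c ^ 2 = 1) (u : G) (hu : orderOf u = 2) (huH : u ∉ Subgroup.normalizer ((T : Subgroup G) : Set G)) : Subgroup.normalizer ((Subgroup.normalizer ((T : Subgroup G) : Set G) ⊓ (Subgroup.normalizer ((T : Subgroup G) : Set G)).map (MulAut.conj u).toMonoidHom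 : Subgroup G) : Set G) = (Subgroup.normalizer ((T : Subgroup G) : Set G) ⊓ (Subgroup.normalizer ((T : Subgroup G) : Set G)).map (MulAut.conj u).toMonoidHom) ⊔ Subgroup.zpowers u ∧ ∀ g : G, ((∀ d ∈ Subgroup.normalizer ((T : Subgroup G) : Set G) ⊓ (Subgroup.normalizer ((T : Subgroup G) : Set G)).map (MulAut.conj u).toMonoidHom, d • (QuotientGroup.mk g : G ⧸ Subgroup.normalizer ((T : Subgroup G) : Set G)) = QuotientGroup.mk g) ↔ (QuotientGroup.mk g : G ⧸ Subgroup.normalizer ((T : Subgroup G) : Set G)) = QuotientGroup.mk 1 ∨ (QuotientGroup.mk g : G ⧸ Subgroup.normalizer ((T : Subgroup G) : Set G)) = QuotientGroup.mk u) := by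
  have h := H23.ea_of T hnc hnn hC
  have hS := h.cj_syl u
  have hne := h.cj_ne huH
  have hsd := h.sd hS hne
  obtain ⟨d, hd, hd1⟩ := FT.exists_ne_one (h.D_ne_bot hS hne)
  have huu : FT.cj u (FT.cj u T) = (T : Subgroup G) := by
    rw [FT.cj_cj, H20.mul_self_of_orderOf_two hu, FT.cj_one]
  have key : ∀ g : G, d ∈ Subgroup.normalizer (FT.cj g T : Set G) → FT.cj g T = (T : Subgroup G) ∨
      FT.cj g T = FT.cj u T := fun g hg => by
    by_contra hc
    push Not at hc
    exact hd1 (h.fix3 (h.cj_syl g) hS hc.1 hne hc.2 hd.1 hg hd.2)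
  rw [← FT.cj_def, FT.cj_nrm]
  refine ⟨le_antisymm (fun g hg => ?_) (sup_le (FT.le_nrm _) (Subgroup.zpowers_le.2 (FT.cj_eq_self.1 ?_))), fun g => ?_⟩
  · have k : ∀ g : G, g ∈ Subgroup.normalizer ((Subgroup.normalizer ((T : Subgroup G) : Set G) ⊓
        Subgroup.normalizer (FT.cj u T : Set G) : Subgroup G) : Set G) → FT.cj g T = (T : Subgroup G) →
        g ∈ Subgroup.normalizer ((T : Subgroup G) : Set G) ⊓ Subgroup.normalizer (FT.cj u T : Set G) := by
      intro g hg e
      refine ⟨FT.cj_eq_self.1 e, FT.cj_eq_self.1 ?_⟩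
      rw [FT.cj_cj]
      refine (key (g * u) ?_).resolve_left fun e' => hne ?_
      · rw [← FT.cj_cj, ← FT.cj_nrm]
        exact FT.mem_cj.2 (FT.conj_mem' hg hd).2
      · rw [← FT.cj_cj] at e'
        exact FT.cj_eq_cj.1 (e'.trans e.symm)
    have hu' : u ∈ Subgroup.normalizer ((Subgroup.normalizer ((T : Subgroup G) : Set G) ⊓
        Subgroup.normalizer (FT.cj u T : Set G) : Subgroup G) : Set G) := FT.cj_eq_self.1 (by
      rw [FT.cj_inf, FT.cj_nrm, FT.cj_nrm, huu, inf_comm])
    rcases key g (by rw [← FT.cj_nrm]; exact FT.mem_cj.2 (FT.conj_mem' hg hd).1) with e | e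
    · exact Subgroup.mem_sup_left (k g hg e)
    · have := k (u⁻¹ * g) (mul_mem (inv_mem hu') hg) (by rw [← FT.cj_cj, e, FT.cj_inv_cj])
      simpa using mul_mem (Subgroup.mem_sup_right (Subgroup.mem_zpowers u) : u ∈ _ ⊔ _) (Subgroup.mem_sup_left this)
  · rw [FT.cj_inf, FT.cj_nrm, FT.cj_nrm, huu, inf_comm]
  · simp only [H23.EA.coe_eq_iff, H23.EA.smul_eq_iff, FT.cj_one]
    refine ⟨fun hg => key g (FT.cj_eq_self.1 (hg d hd)), fun hg x hx => ?_⟩
    rcases hg with e | e <;> rw [e]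
    · exact FT.cj_eq_self.2 hx.1
    · exact FT.cj_eq_self.2 hx.2

end Cfsg.Agent.S1228
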