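import Cfsg.Statements.S1231
import Mathlib
import Cfsg.Agent.H20.SE

set_option autoImplicit false
open Cfsg

namespace Cfsg.Agent.S1231

open Cfsg.Agent.H20
theorem prank_of_injective {A B : Type*} [Group A] [Group B] {p k : ℕ} (f : A →* B)
    (hf : Function.Injective f) (h : PRankLE p k B) : PRankLE p k A := by
  intro E hE hE'
  rw [← Subgroup.card_map_of_injective hf]
  refine h _ inferInstance ?_
  rintro _ ⟨a, ha, rfl⟩
  rw [← map_pow, hE' a ha, map_one]

/-- Let H be a subgroup of the finite group G, p a prime, k ≥ 1, and P a Sylow p-subgroup of H whose p-rank is at least k. Then N_G(X) ≤ H for every subgroup X of P of p-rank at least k if and only if H ∩ gHg⁻¹ has p-rank less than k for every g ∉ H. -/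
theorem result {G : Type*} [Group G] [Finite G] {p : ℕ} [Fact p.Prime] (k : ℕ) (hk : 1 ≤ k) (H : Subgroup G) (P : Sylow p ↥H) (hP : ¬ Cfsg.PRankLE p (k - 1) ↥(P : Subgroup ↥H)) : (∀ X : Subgroup G, X ≤ (P : Subgroup ↥H).map H.subtype → ¬ Cfsg.PRankLE p (k - 1) ↥X → Subgroup.normalizer (X : Set G) ≤ H) ↔ (∀ g : G, g ∉ H → Cfsg.PRankLE p (k - 1) ↥(H ⊓ H.map (MulAut.conj g).toMonoidHom)) := by
  have hR := H18.sylIn_map_subtype P
  have hmono : ∀ X Y : Subgroup G, X ≤ Y → ¬ PRankLE p (k - 1) X → ¬ PRankLE p (k - 1) Y :=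
    fun X Y hXY hX hY => hX (prank_of_injective _ (Subgroup.inclusion_injective hXY) hY)
  constructor
  · intro h g hg
    by_contra hne
    have hne' := hne
    unfold PRankLE at hne'
    push Not at hne'
    obtain ⟨A, hA, hA', hlt⟩ := hne'
    refine hg (mem_of_normalizer_le (p := p) (fun X => ¬ PRankLE p (k - 1) X) hmono ?_ hR h
      (X := A.map (Subgroup.subtype _)) ?_ ?_ ((Subgroup.map_subtype_le _).trans inf_le_left)
      ((Subgroup.map_subtype_le _).trans inf_le_right))
    · intro g X hX hY
      exact hX (prank_of_injective ((MulAut.conj g).subgroupMap X).toMonoidHom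
        (MulEquiv.injective _) hY)
    · exact IsPGroup.map (fun a => ⟨1, Subtype.ext (by rw [pow_one]; exact hA' a a.2)⟩) _
    · intro hle
      have := prank_of_injective (A.equivMapOfInjective _ (Subgroup.subtype_injective _)).toMonoidHom
        (MulEquiv.injective _) hle ⊤ inferInstance (fun a _ => Subtype.ext (hA' a a.2))
      rw [Subgroup.card_top] at this
      omega
  · intro h X hX hX' g hg
    by_contra hgH
    refine hmono X _ (le_inf (hX.trans hR.le) ?_) hX' (h g hgH)
    rw [← conjMap_eq_iff_mem_normalizer.mpr hg]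
    exact Subgroup.map_mono (hX.trans hR.le)

end Cfsg.Agent.S1231
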