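import Cfsg.Statements.S1241
import Mathlib
import Cfsg.Agent.H20.Transfer

set_option autoImplicit false
open Cfsg

namespace Cfsg.Agent.S1241

open Cfsg.Agent.H20

/-- Let G be a finite group, p a prime, H a subgroup of index prime to p, K a subgroup of H normal in H with H/K commutative, and g ∈ H ∖ K an element of p-power order such that for all integers m and all a ∈ G with a g^m a⁻¹ ∈ H one has a g^m a⁻¹ ∈ g^m K. Then g ∉ G'. -/
theorem result {G : Type*} [Group G] [Finite G] {p : ℕ} [Fact p.Prime] (H K : Subgroup G) (hHK : K ≤ H) (hKn : (K.subgroupOf H).Normal) (hab : ∀ x ∈ H, ∀ y ∈ H, x * y * x⁻¹ * y⁻¹ ∈ K) (hidx : Nat.Coprime p H.index) (g : G) (hgH : g ∈ H) (hgK : g ∉ K) (hgp : ∃ k : ℕ, orderOf g = p ^ k) (hctrl : ∀ (m : ℤ) (a : G), a * g ^ m * a⁻¹ ∈ H → (a * g ^ m * a⁻¹) * (g ^ m)⁻¹ ∈ K) : g ∉ commutator G := by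
  intro hg
  haveI := hKn
  haveI : IsMulCommutative (H ⧸ K.subgroupOf H) := by
    refine Subgroup.Normal.quotient_commutative_iff_commutator_le.mpr ?_
    rw [commutator, Subgroup.commutator_le]
    exact fun x _ y _ => hab x x.2 y y.2
  letI : CommGroup (H ⧸ K.subgroupOf H) := { (inferInstance : Group (H ⧸ K.subgroupOf H)) with
    mul_comm := fun a b => (‹IsMulCommutative (H ⧸ K.subgroupOf H)›).is_comm.comm a b }
  have h1 := transfer_eq_pow_of_control (QuotientGroup.mk' (K.subgroupOf H)) ⟨g, hgH⟩ (by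
    intro m x hx
    have := hctrl m x⁻¹ (by simpa using hx)
    rw [← map_pow, ← mul_inv_eq_one, ← map_inv, ← map_mul, QuotientGroup.mk'_apply,
      QuotientGroup.eq_one_iff, Subgroup.mem_subgroupOf]
    simpa using this)
  rw [Abelianization.commutator_subset_ker _ hg] at h1
  obtain ⟨k, hk⟩ := hgp
  have h2 := orderOf_dvd_of_pow_eq_one h1.symm
  have h3 : orderOf (QuotientGroup.mk' (K.subgroupOf H) ⟨g, hgH⟩) ∣ p ^ k := by
    rw [← hk, ← Subgroup.orderOf_mk g hgH]
    exact orderOf_map_dvd _ _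
  have h4 := Nat.eq_one_of_dvd_coprimes (hidx.pow_left k) h3 h2
  rw [orderOf_eq_one_iff, QuotientGroup.mk'_apply, QuotientGroup.eq_one_iff] at h4
  exact hgK h4

end Cfsg.Agent.S1241
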