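import Cfsg.Statements.S1244
import Mathlib
import Cfsg.Agent.GW.Gram
import Cfsg.Agent.GW.Dh
import Cfsg.Agent.H2.Balance3
import Cfsg.Agent.H20.Transfer
-- import your own Cfsg.Agent.* helpers here

set_option autoImplicit false
open Cfsg

namespace Cfsg.Agent.S1244

open Cfsg.Agent.FT Cfsg.Agent.GW Subgroup in
theorem aux {G : Type*} [Group G] [Finite G] {S R : Subgroup G} {t : G} (hG : ∀ H : Subgroup G, H.index ≠ 2)
    (hS : Syl 2 S ⊤) (ab : Ab S) (ht : Invo t) (tS : t ∈ S)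
    (h : ∀ n ∈ N(S), n * t * n⁻¹ * t ∈ R) : t ∈ R := by
  classical
  let _ : CommGroup S := { (inferInstance : Group S) with mul_comm := ab.is_comm.comm }
  have := Fintype.ofFinite S
  let O : Finset S := Finset.univ.filter fun x => ∃ n ∈ N(S), n * t * n⁻¹ = x
  have h1 : Odd O.card := by
    have k := ncard_class N(S) t
    rw [← FT.card_mul_relIndex (inf_le_left : N(S) ⊓ C[t] ≤ _), mul_comm] at k
    have e : ((O.map ⟨_, Subtype.val_injective⟩ : Finset G) : Set G) = {y | ∃ g ∈ N(S), g * t * g⁻¹ = y} :=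
      Set.ext fun y => by simpa [O] using fun n (hn : n ∈ N(S)) (e : n * t * n⁻¹ = y) => e ▸ conj_mem hn tS
    rw [← Finset.card_map ⟨_, Subtype.val_injective⟩, ← Set.ncard_coe_finset, e,
      Nat.eq_of_mul_eq_mul_left (FT.card_pos _) k]
    exact Nat.odd_iff.2 (Nat.two_dvd_ne_zero.1 (((hS.subl (le_nrm S) le_top).relIndex_of_le
      (le_inf (le_nrm S) (ab.le_cen1 tS))).not_dvd Nat.prime_two rfl))
  have h2 : ((∏ x ∈ O, x : S) : G) ∈ C(⊤ ⊓ N(S)) := FT.mem_cen.2 fun n hn => by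
    let φ : S ≃* S := (normalizerMonoidHom S) ⟨n, hn.2⟩
    have : φ (∏ x ∈ O, x) = ∏ x ∈ O, x := by
      rw [map_prod]
      refine Finset.prod_equiv φ.toEquiv (fun x => ?_) fun _ _ => rfl
      simp only [O, Finset.mem_filter, Finset.mem_univ, true_and]
      exact ⟨fun ⟨m, hm, e⟩ => ⟨n * m, mul_mem hn.2 hm, by change _ = n * x * n⁻¹; rw [← e]; group⟩,
        fun ⟨m, hm, e⟩ => ⟨n⁻¹ * m, mul_mem (inv_mem hn.2) hm, by
          change _ = n * x * n⁻¹ at e
          calc _ = n⁻¹ * (m * t * m⁻¹) * n := by group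
            _ = _ := by rw [e]; group⟩⟩
    exact mul_inv_eq_iff_eq_mul.1 (congrArg Subtype.val this)
  have h3 : S ≤ ⁅(⊤ : Subgroup G), ⊤⁆ := by
    have n := (der_nml (⊤ : Subgroup G)).2
    have k := ((ab_quo_der (⊤ : Subgroup G)).nil.npc 2).hall
    have k2 := piGen_min (norms_qpre n (pcore_nrm _ _)) (relIndex_qpre _ n ▸ k.idx)
    rw [pResidual_top Nat.prime_two, H20.pResidual_two_eq_top_iff.2 hG, ← quo_le_iff n] at k2
    exact hS.pi.le_of_relIndex le_top n ((piGrp_quo_iff n).1 (k.pi.mono k2))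
  have h4 := eq_one_of_mem_inf (abelian_Sylow_dp hS ab).inf ⟨(∏ x ∈ O, x).2, h3 (∏ x ∈ O, x).2⟩
    ⟨(∏ x ∈ O, x).2, h2⟩
  have h5 : ∏ x ∈ O, (x * ⟨t, tS⟩) ∈ R.subgroupOf S := prod_mem fun x hx => by
    obtain ⟨n, hn, e⟩ := (Finset.mem_filter.1 hx).2
    exact mem_subgroupOf.2 (show (x : G) * t ∈ R from e ▸ h n hn)
  obtain ⟨k, hk⟩ := h1
  rw [Finset.prod_mul_distrib, Finset.prod_const, mem_subgroupOf, coe_mul, h4, hk, coe_pow, pow_succ, pow_mul,
    sq, ht.sq] at h5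
  simpa using h5

open Cfsg.Agent.FT in

/-- Let G be a finite group with no subgroup of index 2 whose Sylow 2-subgroup S is commutative, and let R ≤ S be a subgroup whose 2-rank is exactly one less than the 2-rank r of S. Then every involution of S is conjugate, by an element of N_G(S), to an element of R. -/
theorem result {G : Type*} [Group G] [Finite G] (hG : ∀ H : Subgroup G, H.index ≠ 2) (S : Sylow 2 G) (hS : IsMulCommutative (S : Subgroup G)) (r : ℕ) (hr1 : 1 ≤ r) (hSr : Cfsg.PRankLE 2 r (S : Subgroup G) ∧ ¬ Cfsg.PRankLE 2 (r - 1) (S : Subgroup G)) (R : Subgroup G) (hRS : R ≤ S) (hRr : Cfsg.PRankLE 2 (r - 1) R ∧ (r = 1 ∨ ¬ Cfsg.PRankLE 2 (r - 2) R)) (t : G) (ht : orderOf t = 2) (htS : t ∈ S) : ∃ n ∈ Subgroup.normalizer ((S : Subgroup G) : Set G), n * t * n⁻¹ ∈ R := by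
  by_contra! c
  have h0 := FT.syl_top Nat.prime_two S
  have a1 := FT.Ab.abelem_Ohm hS 2
  have a2 := FT.prankLE_iff.1 hSr.1 _ (FT.Ohm_le _ _) a1
  have a3 : 2 ^ (r - 1) ≤ #(R ⊓ Ω[2]((S : Subgroup G))) := by
    rcases hRr.2 with rfl | h
    · exact FT.card_pos _
    obtain ⟨A, h1, h2, h3⟩ : ∃ A ≤ R, Abelem 2 A ∧ 2 ^ (r - 2) < #A := by
      simpa only [FT.prankLE_iff, not_forall, not_le, exists_prop] using h
    obtain ⟨n, hn⟩ := (h2.pGrp Nat.prime_two).card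
    refine le_trans ?_ (FT.card_le (le_inf h1 (h2.le_Ohm (h1.trans hRS))))
    rw [hn] at h3 ⊢
    have := (Nat.pow_lt_pow_iff_right one_lt_two).1 h3
    exact Nat.pow_le_pow_right two_pos (by omega)
  have a4 : ∀ n ∈ N((S : Subgroup G)), n * t * n⁻¹ ∈ Ω[2]((S : Subgroup G)) := fun n hn =>
    FT.conj_mem (FT.norms_Ohm 2 le_rfl hn) (FT.mem_Ohm htS (ht ▸ pow_orderOf_eq_one t))
  have a5 := FT.one_lt_relIndex (A := R ⊓ Ω[2]((S : Subgroup G))) fun k => c 1 (one_mem _) (k (a4 1 (one_mem _))).1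
  have a6 := FT.card_mul_relIndex (inf_le_right : R ⊓ Ω[2]((S : Subgroup G)) ≤ _)
  have a7 : (R ⊓ Ω[2]((S : Subgroup G))).relIndex Ω[2]((S : Subgroup G)) = 2 := by
    obtain ⟨r, rfl⟩ := Nat.exists_eq_add_of_le' hr1
    rw [Nat.add_sub_cancel] at a3
    have := Nat.two_pow_pos r
    rw [pow_succ] at a2
    nlinarith
  refine c 1 (one_mem _) (by simpa using aux hG h0 hS ht htS fun n hn => ((GW.mul_mem_of_index_two inf_le_right a7
    (a4 n hn) (by simpa using a4 1 (one_mem _))).2 (iff_of_false (fun k => c n hn k.1)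
      fun k => c 1 (one_mem _) (by simpa using k.1))).1)

end Cfsg.Agent.S1244
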