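import Cfsg.Statements.S1246
import Mathlib
import Cfsg.Agent.H2.Balance3

set_option autoImplicit false
open Cfsg

namespace Cfsg.Agent.S1246

open Cfsg.Agent.FT Subgroup
open scoped commutatorElement

/-- Let V ≤ U be p-subgroups of the finite group G. If the generalized Fitting subgroup of C_G(V) is a p-group, then so is that of C_G(U). -/
theorem result {G : Type*} [Group G] [Finite G] {p : ℕ} [Fact p.Prime] (U V : Subgroup G) (hVU : V ≤ U) (hU : IsPGroup p U) (hV : IsPGroup p ↥(Cfsg.generalizedFittingSubgroup ↥(Subgroup.centralizer (V : Set G)))) : IsPGroup p ↥(Cfsg.generalizedFittingSubgroup ↥(Subgroup.centralizer (U : Set G))) := by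
  have hp : p.Prime := Fact.out
  rw [isPGroup_gfit hp, ← charP'_iff_pGrp] at hV ⊢
  have h := pGrp_of_isPGroup hp hU
  refine (h.nil.subn hVU).ind_up (P := fun X => CharP' p C(X)) hV fun X Y _ h2 h3 ih => ?_
  have := ih.subcent (h.mono h3.le) (norms_cent h2.nrm)
  rwa [inf_eq_right.2 (cen_anti h2.le)] at this

end Cfsg.Agent.S1246
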