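import Cfsg.Statements.S1247
import Mathlib
import Cfsg.Agent.H2.Balance3

set_option autoImplicit false
open Cfsg

namespace Cfsg.Agent.S1247

open Cfsg.Agent.FT Subgroup
open scoped commutatorElement

/-- Let G be a non-abelian finite simple group, A a maximal subgroup, F = F*(A) its generalized Fitting subgroup (viewed in G), and S ≤ F a subgroup subnormal in F with C_F(S) ≤ S. Let B be any subgroup of G containing S. Then (a) for every prime q not dividing |F(A)|, O_q(B) ∩ A = 1; and (b) for every prime p dividing |F(A)|, O_p(B) commutes elementwise with the subgroup of F generated by its elements of order prime to p. -/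
theorem result {G : Type*} [Group G] [Finite G] [IsSimpleGroup G] (hna : ¬ IsMulCommutative G) (A : Subgroup G) (hA : IsCoatom A) (S : Subgroup G) (hSF : S ≤ (Cfsg.generalizedFittingSubgroup ↥A).map A.subtype) (hSsn : (S.subgroupOf ((Cfsg.generalizedFittingSubgroup ↥A).map A.subtype)).IsSubnormal) (hSC : (Cfsg.generalizedFittingSubgroup ↥A).map A.subtype ⊓ Subgroup.centralizer (S : Set G) ≤ S) (B : Subgroup G) (hSB : S ≤ B) : (∀ q : ℕ, q.Prime → ¬ q ∣ Nat.card (Cfsg.fittingSubgroup ↥A) → (Cfsg.pCore q ↥B).map B.subtype ⊓ A = ⊥) ∧ (∀ p : ℕ, p.Prime → p ∣ Nat.card (Cfsg.fittingSubgroup ↥A) → ∀ x ∈ (Cfsg.pCore p ↥B).map B.subtype, ∀ y ∈ (Cfsg.pResidual p ↥(Cfsg.generalizedFittingSubgroup ↥A)).map ((Cfsg.generalizedFittingSubgroup ↥A).subtype) , x * (A.subtype y) = (A.subtype y) * x) := by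
  have h := selfC_of_subn (S := S) (M := A) ⟨hSF, hSsn⟩ hSC
  rw [← card_map_subtype' (fittingSubgroup A), ← fitting_def]
  refine ⟨fun q hq h1 => ?_, fun p hp h1 x hx y hy => ?_⟩
  · rw [← pcore_singleton hq]
    exact h.pGrp_eq_bot ((p'grp_iff hq).2 h1) inf_le_right ((pcore_pi _ B).inf_left _)
      (normsI (hSB.trans (pcore_nrm _ B)) (h.leM.trans (le_nrm A)))
  · rw [← pcore_singleton hp] at hx
    have h2 := h.pGrp_cents (primit_of_coatom hA) ((pcore_ne_bot_iff_dvd hp).2 h1) (pcore_pi _ B)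
      (hSB.trans (pcore_nrm _ B))
    refine (mem_cen.1 (h2 hx) _ (piGen_gfit p A ?_)).symm
    rw [pResidual_map hp] at hy
    rw [gfit_def, ← map_piGen]
    exact mem_map_of_mem _ hy

end Cfsg.Agent.S1247
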