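import Cfsg.Statements.S1253
import Mathlib
import Cfsg.Agent.H8.ZStar3
import Cfsg.Agent.H13.R1b

set_option autoImplicit false
open Cfsg

namespace Cfsg.Agent.S1253

/-- Let z be an isolated involution of the finite group G with centralizer C, p an odd prime and P a Sylow p-subgroup of G normalized by z. Then P ∩ C has p-power-free index in C (it is a Sylow p-subgroup of C), and |P : C_P(z)| equals the number of elements x ∈ P with z x z⁻¹ = x⁻¹. -/
theorem result {G : Type*} [Group G] [Finite G] (z : G) (hz : Cfsg.IsIsolatedInvolution z) {p : ℕ} [Fact p.Prime] (hp : p ≠ 2) (P : Sylow p G) (hzP : z ∈ Subgroup.normalizer ((P : Subgroup G) : Set G)) : ¬ p ∣ ((P : Subgroup G) ⊓ Subgroup.centralizer ({z} : Set G)).relIndex (Subgroup.centralizer ({z} : Set G)) ∧ ((P : Subgroup G) ⊓ Subgroup.centralizer ({z} : Set G)).relIndex (P : Subgroup G) = Nat.card {x : G // x ∈ P ∧ z * x * z⁻¹ = x⁻¹} := by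
  refine ⟨(H8.sylowIn_inf_centralizer hz P hzP).not_dvd, ?_⟩
  have h1 := H13.card_eq_cent_mul_inverted (X := (P : Subgroup G)) (H20.mul_self_of_orderOf_two hz.1)
    (Nat.coprime_two_right.1 (H2.coprime_of_isPGroup_of_ne hp P.2))
    fun x hx => (Subgroup.mem_normalizer_iff.1 hzP x).1 hx
  rw [← H4.card_mul_relIndex (inf_le_left : (P : Subgroup G) ⊓ Subgroup.centralizer {z} ≤ P)] at h1
  exact Nat.eq_of_mul_eq_mul_left Nat.card_pos h1

end Cfsg.Agent.S1253
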