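import Cfsg.Statements.S1254
import Mathlib
import Cfsg.Agent.H4.Cyc2

set_option autoImplicit false
open Cfsg

namespace Cfsg.Agent.S1254

/-- Let X be a finite group whose Sylow 2-subgroup S is dihedral (of order at least 4). Then X has a normal 2-complement if and only if, for every Klein four-subgroup U ≤ S, the normalizer N_X(U) is generated by C_X(U) and N_S(U). -/
theorem result {X : Type*} [Group X] [Finite X] (S : Sylow 2 X) (m : ℕ) (hm : 2 ≤ m) (eS : (S : Subgroup X) ≃* DihedralGroup m) : Cfsg.HasNormalPComplement 2 X ↔ ∀ U : Subgroup X, U ≤ S → IsKleinFour U → Subgroup.normalizer (U : Set X) = Subgroup.centralizer (U : Set X) ⊔ ((S : Subgroup X) ⊓ Subgroup.normalizer (U : Set X)) := by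
  open Subgroup Cfsg.Agent.H22 Cfsg.Agent.H4 in
  obtain ⟨a, ha, hi, hd⟩ := exists_dih hm eS
  refine ⟨fun h U hU _ => le_antisymm (fun g hg => ?_) (sup_le (C_le_N _) inf_le_right), fun h => ?_⟩
  · obtain ⟨u, hu, e⟩ := hasNPC_exists_conj_eq h S g
    have e' : ∀ x ∈ U, u * x * u⁻¹ = g * x * g⁻¹ := fun x hx => e x (hU hx) (hU (conj_mem_of_N hg hx))
    have h1 : u ∈ N[U] := mem_N_of_cj_le (cj_le_iff'.2 fun x hx => e' x hx ▸ conj_mem_of_N hg hx)
    have h2 : u⁻¹ * g ∈ C[U] := mem_C.2 fun x hx => by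
      calc x * (u⁻¹ * g) = u⁻¹ * (u * x * u⁻¹) * g := by group
        _ = _ := by rw [e' x hx]; group
    rw [← mul_inv_cancel_left u g]
    exact mul_mem (mem_sup_right ⟨hu, h1⟩) (mem_sup_left h2)
  · refine hasNPC_of_forall_le_sylow S fun Q hQ _ g hg ho => ?_
    by_contra hc
    obtain ⟨u, h4, h5, -, h6⟩ := cyc2' S.isPGroup' (a := a) hi.dvd hQ hg ho hc
    have h7 := h Q hQ (h6.klein (h6.sq.symm.trans (hd _ (hQ h6.v_mem) h5)))
    exact hc (pResidualOf_le_of_le_sup (S.isPGroup'.to_le inf_le_left) (inf_le_right.trans (N_le_N_C Q))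
      h7.le (mem_pResidualOf hg ho))

end Cfsg.Agent.S1254
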