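import Cfsg.Statements.S1255
import Mathlib
import Cfsg.Agent.H3.ABG

set_option autoImplicit false
open Cfsg

namespace Cfsg.Agent.S1255

/-- Let X be a finite group whose Sylow 2-subgroup S is dihedral of order 2m ≥ 4. Then X has no subgroup of index 2 and no isolated involution if and only if either all involutions of X are conjugate, or for every Klein four-subgroup U ≤ S the index |N_X(U) : C_X(U)| equals 3 when |S| = 4 and equals 6 when |S| > 4. -/
theorem result {X : Type*} [Group X] [Finite X] (S : Sylow 2 X) (m : ℕ) (hm : 2 ≤ m) (eS : (S : Subgroup X) ≃* DihedralGroup m) : ((∀ H : Subgroup X, H.index ≠ 2) ∧ (∀ z : X, ¬ Cfsg.IsIsolatedInvolution z)) ↔ ((∀ a b : X, orderOf a = 2 → orderOf b = 2 → IsConj a b) ∨ (∀ U : Subgroup X, U ≤ S → IsKleinFour U → (Subgroup.centralizer (U : Set X)).relIndex (Subgroup.normalizer (U : Set X)) = (if Nat.card S = 4 then 3 else 6))) := by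
  open Subgroup Cfsg.Agent.FT Cfsg.Agent.H3 in
  open scoped commutatorElement in
  · have hS := syl_coe S
    rw [no_index_iff, res_eq_top_iff hS]
    rcases klein_or_mcd hS.pi hm eS with h4 | ⟨a, b, k, h⟩
    · have hc : Nat.card S = 4 := h4.card_four
      rw [if_pos hc]
      obtain ⟨u, hu, u1⟩ := FT.exists_ne_one (ne_bot_of_one_lt_card (by rw [h4.card_four]; decide) : (S : Subgroup X) ≠ ⊥)
      obtain ⟨v, hv, hvu⟩ := MC.exists_out (klein_not_cyc h4) u
      have v1 : v ≠ 1 := fun e => hvu (e ▸ one_mem _)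
      have uv : u ≠ v := fun e => hvu (e ▸ mem_zpowers u)
      have ou := ord_of_sq (klein_sq h4 hu) u1
      have fix := fun ho => isolated_of_fix hS ou fun g hg => ab_fix hS (klein_ab h4) ho hu hg
      have cj : OA 2 (S : Subgroup X) → ∀ w : X, orderOf w = 2 → IsConj u w := fun ho w hw => by
        obtain ⟨y, hy, oy, hc⟩ := exists_conj_syl (j := 1) hS hw
        exact (ho.klein_conj h4 hu hy u1 (sq_of_ord oy).2).trans hc
      have l1 : OA 2 (S : Subgroup X) → (S : Subgroup X) ≤ pResidual 2 X ∧ ∀ z : X, ¬ IsIsolatedInvolution z :=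
        fun ho => ⟨ho.le_res hS.pi (klein_Phi h4).dvd, fun z hz => not_isolated (cj ho z hz.1).symm
          ((cj ho z hz.1).symm.trans (ho.klein_conj h4 hu hv u1 v1)) uv ((klein_ab h4).comm hu hv) hz⟩
      constructor
      · intro ⟨_, h2⟩
        have ho : OA 2 (S : Subgroup X) := by
          by_contra hn
          exact h2 u (fix hn)
        exact Or.inl fun a b ha hb => (cj ho a ha).symm.trans (cj ho b hb)
      · rintro (h1 | h1)
        · refine l1 ?_
          by_contra hn
          obtain ⟨g, hg⟩ := isConj_iff.1 (h1 u v ou (ord_of_sq (klein_sq h4 hv) v1))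
          exact uv ((ab_fix hS (klein_ab h4) hn hu (hg ▸ hv)).symm.trans hg)
        · exact l1 ((klein_idx hS h4).resolve_left fun e => by have := h1 _ le_rfl h4; omega).2
    · have hc : Nat.card S ≠ 4 := fun e => by
        have h1 : 2 ^ (k + 1) = 2 ^ 2 := h.card.symm.trans e
        have := Nat.pow_right_injective le_rfl h1
        have := h.two_le
        omega
      rw [if_neg hc]
      have l1 : OA 2 (⟪a ^ 2 ^ (k - 1)⟫ ⊔ ⟪b⟫) → OA 2 (⟪a ^ 2 ^ (k - 1)⟫ ⊔ ⟪a * b⟫) →
          (S : Subgroup X) ≤ pResidual 2 X ∧ ∀ z : X, ¬ IsIsolatedInvolution z := fun o1 o2 =>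
        ⟨h.le_of_mem (h.oa_four h.sq o1).2 (h.ab.oa_four h.ab'.sq o2).2, fun z hz =>
          not_isolated (h.cls_one hS o1 o2 hz.1).symm ((h.cls_one hS o1 o2 hz.1).symm.trans (h.oa_four h.sq o1).1)
            (fun e => h.nmem (e ▸ h.z_mem)) h.z_comm hz⟩
      constructor
      · intro ⟨h1, _⟩
        have o1 := h.oa_of_le_res hS h1
        have o2 := h.ab'.oa_of_le_res hS h1
        exact Or.inl fun u v hu hv => (h.cls_one hS o1 o2 hu).symm.trans (h.cls_one hS o1 o2 hv)
      · rintro (h1 | h1)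
        · exact l1 (h.oa_of_isConj hS (h1 _ _ h.ord_z (h.ord_b_two h.sq)))
            (h.ab'.oa_of_isConj hS (h1 _ _ h.ord_z (h.ab.ord_b_two h.ab'.sq)))
        · refine l1 ((h.idx_four hS (h.sub_le _) (h.klein h.sq)).resolve_left fun e => ?_).2
            ((h.idx_four hS (h.ab.sub_le _) (h.ab.klein h.ab'.sq)).resolve_left fun e => ?_).2
          · have := h1 _ (h.sub_le _) (h.klein h.sq); omega
          · have := h1 _ (h.ab.sub_le _) (h.ab.klein h.ab'.sq); omega

end Cfsg.Agent.S1255
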