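import Cfsg.Statements.S1256
import Mathlib
import Cfsg.Agent.H3.ABG

set_option autoImplicit false
open Cfsg

namespace Cfsg.Agent.S1256

/-- Let X be a finite group whose Sylow 2-subgroup S is dihedral of order 2m ≥ 4. If |S| = 4, any two Klein four-subgroups of X are conjugate; if |S| > 4, there are Klein four-subgroups U₁, U₂ of X that are not conjugate, and every Klein four-subgroup of X is conjugate to U₁ or to U₂. -/
theorem result {X : Type*} [Group X] [Finite X] (S : Sylow 2 X) (m : ℕ) (hm : 2 ≤ m) (eS : (S : Subgroup X) ≃* DihedralGroup m) : (Nat.card S = 4 → ∀ U V : Subgroup X, IsKleinFour U → IsKleinFour V → (∃ x : X, U.map (MulAut.conj x).toMonoidHom = V)) ∧ (4 < Nat.card S → ∃ U₁ U₂ : Subgroup X, IsKleinFour U₁ ∧ IsKleinFour U₂ ∧ ¬ (∃ x : X, U₁.map (MulAut.conj x).toMonoidHom = U₂) ∧ ∀ V : Subgroup X, IsKleinFour V → (∃ x : X, V.map (MulAut.conj x).toMonoidHom = U₁) ∨ (∃ x : X, V.map (MulAut.conj x).toMonoidHom = U₂)) := by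
  open Subgroup Cfsg.Agent.FT Cfsg.Agent.H3 in
  open scoped commutatorElement in
  · have hS := syl_coe S
    refine ⟨fun hc U V hU hV => ?_, fun hc => ?_⟩
    · have c : Nat.card (S : Subgroup X) = 4 := hc
      obtain ⟨g, -, e⟩ := (hS.of_card_eq le_top (hU.card_four.trans c.symm)).syl_trans
        (hS.of_card_eq le_top (hV.card_four.trans c.symm))
      exact ⟨g, e.symm⟩
    · obtain ⟨a, b, k, h⟩ := (klein_or_mcd hS.pi hm eS).resolve_left fun h4 => by
        have : Nat.card S = 4 := h4.card_four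
        omega
      refine ⟨_, _, h.klein h.sq, h.ab.klein h.ab'.sq, fun ⟨g, e⟩ => h.not_cj hS g e, fun V hV => ?_⟩
      obtain ⟨g, -, hg⟩ := hS.syl_Jsub (klein_pGrp hV) le_top
      obtain ⟨u, -, e | e⟩ := h.four_cj hg (klein_cj hV g)
      · refine Or.inl ⟨u⁻¹ * g, ?_⟩
        rw [← FT.cj_def, ← cj_cj, e, cj_inv_cj]
      · refine Or.inr ⟨u⁻¹ * g, ?_⟩
        rw [← FT.cj_def, ← cj_cj, e, cj_inv_cj]

end Cfsg.Agent.S1256
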