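import Cfsg.Statements.S1267
import Mathlib
import Cfsg.Agent.H2.Balance2

set_option autoImplicit false
open Cfsg

namespace Cfsg.Agent.S1267

open Cfsg.Agent.FT Subgroup
open scoped commutatorElement

/-- Let G be finite and P ≤ O_p(G). Then E(N_G(P)) = E(G). -/
theorem result {G : Type*} [Group G] [Finite G] (p : ℕ) [Fact p.Prime] (P : Subgroup G) (hP : P ≤ Cfsg.pCore p G) : (Cfsg.layer ↥(Subgroup.normalizer ((P : Subgroup G) : Set G))).map (Subgroup.normalizer ((P : Subgroup G) : Set G)).subtype = Cfsg.layer G := by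
  have hp : p.Prime := Fact.out
  rw [← pcore_top' hp] at hP
  have := lay_cent_of_le_pcore hP
  rw [top_inf_eq, lay_top] at this
  rw [← lay_def, lay_nrm_eq ((pcore_pi _ _).mono hP).sol, this]

end Cfsg.Agent.S1267
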