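import Cfsg.Statements.S1271
import Mathlib
import Cfsg.Agent.H2.Balance3

set_option autoImplicit false
open Cfsg

namespace Cfsg.Agent.S1271

open Cfsg.Agent.FT Subgroup
open scoped commutatorElement

/-- Let G be finite with O_{p'}(G) = 1. Suppose that for every component L of G and every subgroup H ≥ L in which L is normal, the quotient H / C_H(L) is balanced for the prime p. Then G is balanced for p. -/
theorem result {G : Type*} [Group G] [Finite G] (p : ℕ) [Fact p.Prime] (hO : Cfsg.pPrimeCore p G = ⊥) (h : ∀ L : Subgroup G, Cfsg.IsComponent L → ∀ H : Subgroup G, L ≤ H → (L.subgroupOf H).Normal → ∀ [((Subgroup.centralizer (L : Set G)).subgroupOf H).Normal], Cfsg.IsBalancedFor p (↥H ⧸ (Subgroup.centralizer (L : Set G)).subgroupOf H)) : Cfsg.IsBalancedFor p G := by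
  have hp : p.Prime := Fact.out
  intro x hx
  rw [← p'core_top hp] at hO ⊢
  rw [cenCore_eq hp, hO, le_bot_iff, ← top_inf_eq C[x]]
  have hP := pGrp_zpowers hp hx
  have h0 := le_sup_left.trans (core_play_cents_pcore_local (M := ⊤) hP (le_top.trans (le_nrm ⊤)))
  rw [cen_zpowers] at h0
  refine eq_bot_of_cents_comps hO (pcore_pi _ _) le_top h0 fun L hL => ?_
  by_cases h1 : x ∈ N(L)
  swap
  · exact hL.cents_core_of_moved (hL.not_p' hO) hx trivial h1
  by_cases h2 : x ∈ C(L)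
  · have := hL.cents_core_of_cents (hL.not_p' hO) (centsC (zpowers_le.2 h2))
    rwa [cen_zpowers] at this
  have h3 : O[{p}ᶜ](⊤ ⊓ C[x]) ≤ N(L) := cen_zpowers x ▸ (hL.pcomp_of_core hO).core_local_norms hP le_top
  generalize hW : O[{p}ᶜ](⊤ ⊓ C[x]) = W at h0 h3
  have h4 : W ⊔ ⟪x⟫ ≤ N(L) := sup_le h3 (zpowers_le.2 h1)
  have h5 : L ⊴ L ⊔ (W ⊔ ⟪x⟫) := nml_sup_left h4
  haveI : (C(L).subgroupOf (L ⊔ (W ⊔ ⟪x⟫))).Normal := by
    rw [← inf_subgroupOf_left]; exact (subcent_nml h5.nrm).normal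
  have h6 := h L (comp_top.1 hL) _ h5.le h5.normal
  have hk : pker (QuotientGroup.mk' (C(L).subgroupOf (L ⊔ (W ⊔ ⟪x⟫)))) = (L ⊔ (W ⊔ ⟪x⟫)) ⊓ C(L) := by
    rw [pker_mk', subgroupOf_map_subtype, inf_comm]
  have hx' : ⟪x⟫ ≤ L ⊔ (W ⊔ ⟪x⟫) := le_sup_of_le_right le_sup_right
  have h7 := h6 _ (orderOf_pfun_p hp hx (hx' (mem_zpowers x)) (by rw [hk]; exact fun e => h2 e.2))
  have h8 := core_aut_eq_bot (hL.qs.comp h5) (hL.not_p' hO) le_rfl (by rw [hk, ← inf_assoc, inf_idem])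
  rw [pmap_mk'_dom, p'core_top hp] at h8
  have h9 := aut_core_local (W := W) hO hL hP le_top (zpowers_le.2 h1) (X := W ⊔ ⟪x⟫)
    (sup_le (by rw [← hW, cen_zpowers]; exact pcore_le _ _) (le_inf le_top (Ab.le_cen (ab_zpowers x)))) h4
    (le_inf le_sup_left (by rw [← hW, cen_zpowers])) le_rfl hx' (by rw [hk]; exact inf_le_right.trans inf_le_right)
  rw [pmap_mk'_dom, top_inf_eq, pmap_zpowers _ (hx' (mem_zpowers x)), cen_zpowers, ← cenCore_eq hp] at h9
  have := (pmap_eq_bot (le_sup_of_le_right le_sup_left)).1 (eq_bot_of_le (h9.trans h7) h8)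
  rw [hk] at this
  exact this.trans inf_le_right

end Cfsg.Agent.S1271
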