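import Cfsg.Statements.S1272
import Mathlib
import Cfsg.Agent.H2.Balance2

set_option autoImplicit false
open Cfsg

namespace Cfsg.Agent.S1272

open Cfsg.Agent.FT Subgroup
open scoped commutatorElement

/-- Let X be finite and Q = X / O_{p'}(X). For every component Kbar of Q there is a unique p-component K of X whose image in Q is Kbar; and the image of the p-layer L_{p'}(X) in Q is E(Q). -/
theorem result {X : Type*} [Group X] [Finite X] (p : ℕ) [Fact p.Prime] : (∀ Kbar : Subgroup (X ⧸ Cfsg.pPrimeCore p X), Cfsg.IsComponent Kbar → ∃! K : Subgroup X, Cfsg.IsPComponent p K ∧ K.map (QuotientGroup.mk' (Cfsg.pPrimeCore p X)) = Kbar) ∧ (Cfsg.pLayer p X).map (QuotientGroup.mk' (Cfsg.pPrimeCore p X)) = Cfsg.layer (X ⧸ Cfsg.pPrimeCore p X) := by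
  have hp : p.Prime := Fact.out
  have hk : (⊤ : Subgroup X) ⊓ pker (tot (QuotientGroup.mk' (pPrimeCore p X))) = O[{p}ᶜ]((⊤ : Subgroup X)) := by
    rw [pker_tot, QuotientGroup.ker_mk', top_inf_eq, p'core_top hp]
  have hk' : PiGrp {p}ᶜ ((⊤ : Subgroup X) ⊓ pker (tot (QuotientGroup.mk' (pPrimeCore p X)))) := hk ▸ pcore_pi _ _
  refine ⟨fun U hU => ?_, ?_⟩
  · have h0 := pmap_core_eq_bot le_top hk
    rw [← comp_top, ← map_mk'_top, ← pmap_tot] at hU
    obtain ⟨h1, h2⟩ := pcomp_lift le_top hk' (hU.pcomp_of_core h0)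
    refine ⟨_, ⟨(isPComponent_iff hp).2 h1, by rw [← pmap_tot, h2]⟩, fun K hK => ?_⟩
    exact ((isPComponent_iff hp).1 hK.1).eq_of_pmap h1 le_top hk' (by rw [h2, pmap_tot, hK.2])
  · rw [← play_top hp, ← pmap_tot, pmap_play_core le_top hk, pmap_tot, map_mk'_top, lay_top]

end Cfsg.Agent.S1272
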