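import Cfsg.Statements.S1273
import Mathlib
import Cfsg.Agent.H2.Balance2

set_option autoImplicit false
open Cfsg

namespace Cfsg.Agent.S1273

open Cfsg.Agent.FT Subgroup
open scoped commutatorElement

/-- Let K be a p-component of the finite group X and N a normal subgroup of K whose index in K is prime to p. Then N = K. -/
theorem result {X : Type*} [Group X] [Finite X] (p : ℕ) [Fact p.Prime] (K : Subgroup X) (hK : Cfsg.IsPComponent p K) (N : Subgroup ↥K) [N.Normal] (hidx : (N.index).Coprime p) : N = ⊤ := by
  have hp : p.Prime := Fact.out
  have h := (isPComponent_iff hp).1 hK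
  have h1 := nml_map_subtype N
  have h2 := piGen_min (π := {p}) h1.nrm ((p'nat_iff_coprime hp).2 (by rw [Subgroup.relIndex, so_map]; exact hidx))
  rw [h.gen] at h2
  rw [← so_map N, subgroupOf_eq_top]; exact h2

end Cfsg.Agent.S1273
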