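import Cfsg.Statements.S1277
import Mathlib
import Cfsg.Agent.H2.Balance2

set_option autoImplicit false
open Cfsg

namespace Cfsg.Agent.S1277

open Cfsg.Agent.FT Subgroup
open scoped commutatorElement

/-- For a finite group X with core O(X): the image of E(X) in X / O(X) is all of E(X / O(X)) if and only if every 2-component of X is a component, i.e. L_{2'}(X) ≤ E(X). -/
theorem result {X : Type*} [Group X] [Finite X] : (Cfsg.layer X).map (QuotientGroup.mk' (Cfsg.oddCore X)) = Cfsg.layer (X ⧸ Cfsg.oddCore X) ↔ Cfsg.pLayer 2 X ≤ Cfsg.layer X := by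
  have hp := Nat.prime_two
  have hk : (⊤ : Subgroup X) ⊓ pker (tot (QuotientGroup.mk' (oddCore X))) = O[{2}ᶜ]((⊤ : Subgroup X)) := by
    rw [pker_tot, QuotientGroup.ker_mk', top_inf_eq, p'core_top hp]
  have h1 := pmap_play_core le_top hk
  rw [pmap_tot _ ⊤, map_mk'_top, lay_top] at h1
  rw [top_inf_eq] at hk
  rw [← h1, ← play_top hp, ← lay_top, ← pmap_tot]
  constructor
  · intro h
    have h2 := (pmap_le_pmap le_top le_top).1 h.ge
    rw [hk] at h2
    exact play_le_iff.2 fun K hK => hK.le_of_le_core_sup (lay_nml _).subn (hK.le_play.trans h2)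
  · intro h
    refine le_antisymm ((pmap_le_pmap le_top le_top).2 ?_) (pmap_mono _ h)
    rw [hk]; exact lay_le_core_sup_play 2 _

end Cfsg.Agent.S1277
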