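import Cfsg.Statements.S1278
import Mathlib
import Cfsg.Agent.H2.Balance2

set_option autoImplicit false
open Cfsg

namespace Cfsg.Agent.S1278

open Cfsg.Agent.FT Subgroup
open scoped commutatorElement

/-- Let K ≠ L be 2-components of the finite group X. Then ⁅K, L⁆ ≤ O(K) ⊓ O(L), and if K is quasisimple then ⁅K, L⁆ = 1. -/
theorem result {X : Type*} [Group X] [Finite X] (K L : Subgroup X) (hK : Cfsg.IsPComponent 2 K) (hL : Cfsg.IsPComponent 2 L) (hne : K ≠ L) : ⁅K, L⁆ ≤ ((Cfsg.oddCore ↥K).map K.subtype) ⊓ ((Cfsg.oddCore ↥L).map L.subtype) ∧ (Cfsg.IsQuasisimple ↥K → ⁅K, L⁆ = ⊥) := by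
  have h1 := (isPComponent_iff Nat.prime_two).1 hK
  have h2 := (isPComponent_iff Nat.prime_two).1 hL
  rw [oddCore_map, oddCore_map]
  refine ⟨h1.comm_of_ne h2 hne, fun h => ?_⟩
  exact comm_eq_bot.2 (((h1.comp_of_qs h).le_or_cents h2.subn).resolve_left fun e => hne (h1.eq_of_le h2 e))

end Cfsg.Agent.S1278
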