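import Cfsg.Statements.S1281
import Mathlib
import Cfsg.Agent.H21.SigBasic

set_option autoImplicit false
open Cfsg

namespace Cfsg.Agent.S1281

open Cfsg.Agent.FT Cfsg.Agent.H21 Subgroup

/-- Let θ be a solvable A-signalizer functor on the finite group G (A a noncyclic elementary abelian p-subgroup) and N a normal subgroup of order prime to p. Then for all non-identity a, b ∈ A, the image of θ a in G / N meets the centralizer of the image of b inside the image of θ b. -/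
theorem result {G : Type*} [Group G] [Finite G] (p : ℕ) [Fact p.Prime] (A : Subgroup G) (hA : Cfsg.IsElementaryAbelian p A) (hA2 : p ^ 2 ≤ Nat.card ↥A) (θ : G → Subgroup G) (hθ : Cfsg.IsSolvableSignalizerFunctor p A θ) (N : Subgroup G) [N.Normal] (hN : ¬ p ∣ Nat.card ↥N) (a b : G) (ha : a ∈ A) (ha1 : a ≠ 1) (hb : b ∈ A) (hb1 : b ≠ 1) : (θ a).map (QuotientGroup.mk' N) ⊓ Subgroup.centralizer {QuotientGroup.mk' N b} ≤ (θ b).map (QuotientGroup.mk' N) := by
  let σ := sigOf Fact.out hA hA2 hθ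
  have m := Sig.mem_theta (σ := σ) ⟨ha, ha1⟩
  rintro _ ⟨⟨x, hx, rfl⟩, h⟩
  have nb : ⟪b⟫ ≤ N(θ a) := m.nz hb
  obtain ⟨n, hn, h'⟩ := H1.exists_mul_mem_centralizer ⟪b⟫ (θ a ⊓ N)
    (normsI nb le_normalizer_of_normal) ((m.copz hb).mono_left inf_le_left).symm
    (Or.inr (m.sol.mono inf_le_left)) x (fun c hc => Subgroup.mem_inf.2 ⟨mul_mem (conj_mem (nb hc) hx) ((θ a).inv_mem hx), by
      have h2 : QuotientGroup.mk' N x ∈ C((⟪b⟫).map (QuotientGroup.mk' N)) := by
        rwa [MonoidHom.map_zpowers, cen_zpowers]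
      have := mem_cen.1 h2 _ ⟨c, hc, rfl⟩
      rw [← QuotientGroup.eq_one_iff]
      simp only [QuotientGroup.mk'_apply] at this
      simp only [QuotientGroup.mk_mul, QuotientGroup.mk_inv, this]
      group⟩)
  refine ⟨n * x, m.le b ⟨hb, hb1⟩ ⟨mul_mem hn.1 hx, cen_zpowers b ▸ h'⟩, ?_⟩
  simp [(QuotientGroup.eq_one_iff n).mpr hn.2]

end Cfsg.Agent.S1281
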