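import Cfsg.Statements.S1284
import Mathlib
import Cfsg.Agent.H21.SigBasic

set_option autoImplicit false
open Cfsg

namespace Cfsg.Agent.S1284

open Cfsg.Agent.FT Cfsg.Agent.H21 Subgroup

/-- Let θ be a solvable A-signalizer functor on the finite group G, A elementary abelian of rank at least 3, q a prime dividing some |θ a|, and Q maximal among the q-subgroups in the family of θ. Then (a) for every member H of the family, some c in the intersection of the θ a (a ∈ A non-identity) makes c Q c⁻¹ ∩ H a Sylow q-subgroup of H; and (b) for every nontrivial subgroup B ≤ A, C_Q(B) is a Sylow q-subgroup of the intersection of the θ b over the non-identity b ∈ B. -/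
theorem result {G : Type*} [Group G] [Finite G] (p : ℕ) [Fact p.Prime] (A : Subgroup G) (hA : Cfsg.IsElementaryAbelian p A) (hA3 : p ^ 3 ≤ Nat.card ↥A) (θ : G → Subgroup G) (hθ : Cfsg.IsSolvableSignalizerFunctor p A θ) (q : ℕ) [Fact q.Prime] (hq : ∃ a ∈ A, a ≠ 1 ∧ q ∣ Nat.card ↥(θ a)) (Q : Subgroup G) (hQW : Q ∈ Cfsg.signalizerFamily p A θ) (hQq : IsPGroup q ↥Q) (hQmax : ∀ R ∈ Cfsg.signalizerFamily p A θ, IsPGroup q ↥R → Q ≤ R → R = Q) : (∀ H : Subgroup G, H ∈ Cfsg.signalizerFamily p A θ → ∃ c ∈ Cfsg.signalizerInf A θ, ∃ S : Sylow q ↥H, (S : Subgroup ↥H).map H.subtype = Q.map (MulAut.conj c).toMonoidHom ⊓ H) ∧ (∀ B : Subgroup G, B ≤ A → B ≠ ⊥ → ∃ S : Sylow q ↥(Cfsg.signalizerInf B θ), (S : Subgroup ↥(Cfsg.signalizerInf B θ)).map (Cfsg.signalizerInf B θ).subtype = Q ⊓ Subgroup.centralizer (B : Set G)) := by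
  have hq' : q.Prime := Fact.out
  let σ := sigOf Fact.out hA (sq_le_of_cube_le Fact.out hA3) hθ
  have h : σ.MaxQ q Q :=
    ⟨Sig.mem_iff.2 hQW, pGrp_of_isPGroup hq' hQq, fun R h1 h2 => hQmax R (Sig.mem_iff.1 h1) h2.isPGroup⟩
  refine ⟨fun H hH => ?_, fun B hB h1 => ?_⟩
  · obtain ⟨c, hc, hS⟩ := h.syl_inf hA3 (Sig.mem_iff.2 hH)
    exact ⟨c, hc, hS.exists_sylow hq'⟩
  · have hS := h.syl_inf' hA3 (Sig.mem_th (σ := σ) hB h1) (norms_of_le (Sig.th_anti hB))
    rw [le_antisymm (inf_le_inf_left Q (Sig.th_cen (σ := σ) hB)) (le_inf inf_le_left (h.mem.le_th hB))] at hS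
    exact hS.exists_sylow hq'

end Cfsg.Agent.S1284
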