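import Cfsg.Statements.S1286
import Mathlib


set_option autoImplicit false
open Cfsg

namespace Cfsg.Agent.S1286

abbrev P5 := Equiv.Perm (Fin 5)

def sg (l : Finset P5) (h : 1 ∈ l ∧ ∀ a ∈ l, a⁻¹ ∈ l ∧ ∀ b ∈ l, a * b ∈ l) : Subgroup P5 where
  carrier := l
  one_mem' := h.1
  mul_mem' := fun ha hb => (h.2 _ ha).2 _ hb
  inv_mem' := fun ha => (h.2 _ ha).1

theorem mem_sg {l h} {g : P5} : g ∈ sg l h ↔ g ∈ l := Iff.rfl

theorem card_sg {l h} : Nat.card (sg l h) = l.card := (Nat.card_eq_fintype_card (α := l)).trans (by simp)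

def a : P5 := Equiv.swap 3 4
def b : P5 := Equiv.swap 0 1
def x : P5 := Equiv.swap 0 1 * Equiv.swap 1 2
def y : P5 := Equiv.swap 2 3 * Equiv.swap 3 4
def tl (g : P5) : Finset P5 := if g = a then {1, x, x * x} else if g = b then {1, y, y * y} else {1}
theorem tl_ok (g : P5) : 1 ∈ tl g ∧ ∀ a ∈ tl g, a⁻¹ ∈ tl g ∧ ∀ b ∈ tl g, a * b ∈ tl g := by
  unfold tl; split_ifs <;> decide +kernel
def A : Finset P5 := {1, a, b, a * b}
set_option synthInstance.maxSize 2000 in
theorem all : ∀ g ∈ A, g ^ 2 = 1 ∧ ¬ 2 ∣ (tl g).card ∧ (∀ h ∈ A, g * h = h * g) ∧ ∀ u ∈ tl g, u * g = g * u ∧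
    (∀ v ∈ tl g, u * v = v * u) ∧ ∀ h ∈ A, h * u * h⁻¹ ∈ tl g ∧ (h ≠ 1 → u * h = h * u → u ∈ tl h) := by
  decide +kernel

/-- There exist a finite group X, an elementary abelian subgroup A of order 4 and a solvable A-signalizer functor θ on X for the prime 2 which is not complete. -/
theorem result : ∃ (X : Type) (_ : Group X) (_ : Finite X) (A : Subgroup X) (θ : X → Subgroup X), Cfsg.IsElementaryAbelian 2 A ∧ Nat.card ↥A = 4 ∧ Cfsg.IsSolvableSignalizerFunctor 2 A θ ∧ ¬ Cfsg.IsCompleteSignalizerFunctor 2 A θ := by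
  refine ⟨P5, inferInstance, inferInstance, sg A (by decide +kernel), fun g => sg _ (tl_ok g),
    ⟨⟨⟨fun u v => Subtype.ext ((all _ u.2).2.2.1 _ v.2)⟩⟩, fun g hg => (all g hg).1⟩, by rw [card_sg]; decide +kernel,
    ⟨⟨fun g hg _ u hu => Subgroup.mem_centralizer_singleton_iff.2 ((all g hg).2.2.2 u hu).1,
      fun g hg _ => card_sg ▸ (all g hg).2.1, fun g hg _ h hh u hu => (((all g hg).2.2.2 u hu).2.2 h hh).1,
      fun g hg _ h hh n u hu => (((all g hg).2.2.2 u hu.1).2.2 h hh).2 n (Subgroup.mem_centralizer_singleton_iff.1 hu.2)⟩,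
      fun g hg _ => Group.isSolvable_of_comm fun u v => Subtype.ext (((all g hg).2.2.2 _ u.2).2.1 _ v.2)⟩,
      fun ⟨_, X, _, _, h⟩ => ?_⟩
  have hx : x ∈ X := ((h a (mem_sg.2 (by decide +kernel)) (by decide +kernel)).ge (mem_sg.2 (by decide +kernel))).1
  have hy : y ∈ X := ((h b (mem_sg.2 (by decide +kernel)) (by decide +kernel)).ge (mem_sg.2 (by decide +kernel))).1
  have := (h (a * b) (mem_sg.2 (by decide +kernel)) (by decide +kernel)).le
    ⟨mul_mem (mul_mem hx hy) (mul_mem (mul_mem hx hy) hx), Subgroup.mem_centralizer_singleton_iff.2 (by decide +kernel)⟩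
  rw [mem_sg] at this; revert this; decide +kernel

end Cfsg.Agent.S1286
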