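import Cfsg.Statements.S1287
import Mathlib
import Cfsg.Agent.H2.Fix

set_option autoImplicit false
open scoped Pointwise
open Cfsg

namespace Cfsg.Agent.S1287

open Cfsg.Agent.FT Subgroup
open scoped commutatorElement

/-- Let A be a noncyclic elementary abelian p-subgroup of a finite group H normalizing a subgroup K of order prime to p, and X, Y ≤ K subgroups normalized by A with C_K(a) = C_X(a) C_Y(a) (as sets) for every non-identity a ∈ A, where X is also normalized by C_K(A). Then K = XY as sets. -/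
theorem result {H : Type*} [Group H] [Finite H] (p : ℕ) [Fact p.Prime] (A K X Y : Subgroup H) (hA : Cfsg.IsElementaryAbelian p A) (hA2 : p ^ 2 ≤ Nat.card ↥A) (hK : ¬ p ∣ Nat.card ↥K) (hAK : A ≤ Subgroup.normalizer (K : Set H)) (hX : X ≤ K) (hY : Y ≤ K) (hAX : A ≤ Subgroup.normalizer (X : Set H)) (hAY : A ≤ Subgroup.normalizer (Y : Set H)) (hCX : K ⊓ Subgroup.centralizer (A : Set H) ≤ Subgroup.normalizer (X : Set H)) (hfac : ∀ a ∈ A, a ≠ 1 → ((K ⊓ Subgroup.centralizer {a} : Subgroup H) : Set H) = ((X ⊓ Subgroup.centralizer {a} : Subgroup H) : Set H) * ((Y ⊓ Subgroup.centralizer {a} : Subgroup H) : Set H)) : (K : Set H) = (X : Set H) * (Y : Set H) := by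
  have hp : p.Prime := Fact.out
  have hE : Abelem p A := hA
  have hc : Cop K A := (p'grp_iff hp |>.2 hK).cop' (hE.pGrp hp)
  have e : ∀ {X Y M : Subgroup H}, X ≤ M → Y ≤ M → (MulEq X Y M ↔ (M : Set H) = (X : Set H) * (Y : Set H)) :=
    fun h1 h2 => ⟨fun h => Set.Subset.antisymm (fun x hx => by
      obtain ⟨a, ha, b, hb, rfl⟩ := h.mul x hx; exact Set.mul_mem_mul ha hb)
      (by rintro _ ⟨a, ha, b, hb, rfl⟩; exact mul_mem (h1 ha) (h2 hb)), fun h => ⟨h1, h2, fun x hx => by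
      obtain ⟨a, ha, b, hb, rfl⟩ := h.subset hx; exact ⟨a, ha, b, hb, rfl⟩⟩⟩
  have h1 : ∀ a ∈ A, a ≠ 1 → MulEq (X ⊓ C[a]) (Y ⊓ C[a]) (K ⊓ C[a]) := fun a ha a1 =>
    (e (inf_le_inf_right _ hX) (inf_le_inf_right _ hY)).2 (hfac a ha a1)
  refine (e hX hY).1 (mulEq_of_fix hp hE hA2 hAK hc hX hY hAX hAY h1 ?_)
  obtain ⟨a, ha, a1⟩ := exists_ne_one (H := A) (ne_bot_of_one_lt_card (lt_of_lt_of_le (Nat.one_lt_pow two_ne_zero hp.one_lt) hA2))
  have h2 : MulEq X (Y ⊓ (X ⊔ K ⊓ C(A))) (X ⊔ K ⊓ C(A)) := ⟨le_sup_left, inf_le_right, fun g hg => by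
    obtain ⟨x, hx, k, hk, rfl⟩ := (mem_sup_norm hCX).1 hg
    obtain ⟨x', hx', y, hy, rfl⟩ := (h1 a ha a1).mul k ⟨hk.1, cen_le_cen1 ha hk.2⟩
    refine ⟨x * x', mul_mem hx hx'.1, y, ⟨hy.1, ?_⟩, by rw [mul_assoc]⟩
    exact (mul_mem_cancel_left ((le_sup_left : X ≤ _) hx'.1)).1 ((le_sup_right : K ⊓ C(A) ≤ _) hk)⟩
  have h3 := coprime_cent_mulG h2 hAX (normsI hAY (normsY hAX (norms_subcent hAK (le_nrm A))))
    (hc.mono_left (inf_le_left.trans hX)) (Or.inr hE.sol)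
  refine ⟨inf_le_inf_right _ hX, inf_le_inf_right _ hY, fun g hg => ?_⟩
  obtain ⟨x, hx, y, hy, rfl⟩ := h3.mul g ⟨(le_sup_right : K ⊓ C(A) ≤ _) hg, hg.2⟩
  exact ⟨x, hx, y, ⟨hy.1.1, hy.2⟩, rfl⟩

end Cfsg.Agent.S1287
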