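import Cfsg.Statements.S1288
import Mathlib
import Cfsg.Agent.H2.Fix

set_option autoImplicit false
open Cfsg

namespace Cfsg.Agent.S1288

open Cfsg.Agent.FT Subgroup
open scoped commutatorElement

/-- Let A be a noncyclic elementary abelian p-subgroup of a finite group H normalizing a solvable subgroup K of order prime to p, q a prime dividing |K|, and U ≤ K a subgroup of order prime to q such that ⁅U, C_K(B)⁆ has order prime to q for every subgroup B of index p in A. Then U ≤ O_{q'}(K). -/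
theorem result {H : Type*} [Group H] [Finite H] (p : ℕ) [Fact p.Prime] (A K : Subgroup H) (hA : Cfsg.IsElementaryAbelian p A) (hA2 : p ^ 2 ≤ Nat.card ↥A) (hK : ¬ p ∣ Nat.card ↥K) (hKs : Group.IsSolvable ↥K) (hAK : A ≤ Subgroup.normalizer (K : Set H)) (q : ℕ) [Fact q.Prime] (hqK : q ∣ Nat.card ↥K) (U : Subgroup H) (hU : U ≤ K) (hUq : ¬ q ∣ Nat.card ↥U) (hcomm : ∀ B : Subgroup H, B ≤ A → B.relIndex A = p → ¬ q ∣ Nat.card ↥⁅U, K ⊓ Subgroup.centralizer (B : Set H)⁆) : U ≤ (Cfsg.pPrimeCore q ↥K).map K.subtype := by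
  have hp : p.Prime := Fact.out
  have hq : q.Prime := Fact.out
  have hE : Abelem p A := hA
  have hc : Cop K A := (p'grp_iff hp |>.2 hK).cop' (hE.pGrp hp)
  rw [← pcore_compl_singleton hq]
  have n1 := norms_ppCore hq hAK
  obtain ⟨R, hR, nR⟩ := coprime_Sylow_exists q n1 (hc.mono_left (ppCore_le q K)) (Or.inr hE.sol)
  have RK := hR.le.trans (ppCore_le q K)
  have nO := pcore_nrm {q}ᶜ K
  refine le_p'core_of_quo_cents hKs hU (p'grp_iff hq |>.2 hUq) ?_
  rw [← quo_syl_ppCore hq hR]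
  refine centsC (quo_cents_of_comm_le ((le_qpre_cen (hU.trans nO)).1 (coprime_abelem_gen_cent hp hE
    (ne_bot_of_one_lt_card (lt_of_lt_of_le (Nat.one_lt_pow two_ne_zero hp.one_lt) hA2)) nR (hc.mono_left RK)
    fun B h1 h2 => (le_qpre_cen (hU.trans nO)).2 ⟨(inf_le_left.trans RK).trans nO, ?_⟩)).2)
  refine le_p'core_of_le_ppCore hq ((commSS (inf_le_left.trans hR.le) le_rfl).trans
    (comm_le_left (hU.trans (ppCore_nrm q K)))) ((p'grp_iff hq |>.2 (hcomm B h1 h2)).mono ?_)
  rw [commC]; exact commSS le_rfl (inf_le_inf_right _ RK)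

end Cfsg.Agent.S1288
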