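import Cfsg.Statements.S1289
import Mathlib
import Cfsg.Agent.H2.Balance2

set_option autoImplicit false
open Cfsg

namespace Cfsg.Agent.S1289

open Cfsg.Agent.FT Subgroup
open scoped commutatorElement

/-- A p-component K of the finite group X is subnormal, perfect, of order divisible by p, and minimal among the subnormal perfect subgroups of X of order divisible by p. -/
theorem result {X : Type*} [Group X] [Finite X] (p : ℕ) [Fact p.Prime] (K : Subgroup X) (hK : Cfsg.IsPComponent p K) : K.IsSubnormal ∧ ⁅K, K⁆ = K ∧ p ∣ Nat.card ↥K ∧ ∀ H : Subgroup X, H ≤ K → H.IsSubnormal → ⁅H, H⁆ = H → p ∣ Nat.card ↥H → H = K := by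
  have hp : p.Prime := Fact.out
  have h := (isPComponent_iff hp).1 hK
  refine ⟨subn_top.1 h.subn, h.perf, h.pqs.dvd, fun H h1 h2 h3 h4 => ?_⟩
  refine (h.pqs.eq_or_npc ((subn_top.2 h2).mono h1 le_top)).resolve_right fun e => ?_
  have h5 := e.pRes_eq
  rw [pRes_eq, perf_piGen h3] at h5
  exact (p'grp_iff hp).1 (h5 ▸ pcore_pi {p}ᶜ H) h4

end Cfsg.Agent.S1289
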