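import Cfsg.Statements.S1297
import Mathlib
import Cfsg.Agent.H2.Balance3

set_option autoImplicit false
open Cfsg

namespace Cfsg.Agent.S1297

open Cfsg.Agent.FT Subgroup
open scoped commutatorElement

/-- Let G be finite. Suppose that for every involution x, writing C = C_G(x), every component K of C / O(C) has K / Z(K) locally balanced. Then G is balanced. -/
theorem result {G : Type*} [Group G] [Finite G] (h : ∀ x : G, orderOf x = 2 → ∀ K : Subgroup (↥(Subgroup.centralizer ({x} : Set G)) ⧸ Cfsg.oddCore ↥(Subgroup.centralizer ({x} : Set G))), Cfsg.IsComponent K → Cfsg.IsLocallyBalanced (↥K ⧸ Subgroup.center ↥K)) : Cfsg.IsBalanced G := by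
  have hp := Nat.prime_two
  have key : ∀ x y : G, orderOf x = 2 → orderOf y = 2 → x * y = y * x →
      centralizerPPrimeCore 2 x ⊓ C[y] ≤ centralizerPPrimeCore 2 y ⊓ C[x] := fun x y hx hy e => by
    rw [cenCore_eq hp, cenCore_eq hp]
    have hc : #⟪x⟫ = 2 := by rw [card_zpowers', hx]
    refine le_inf (le_core_of_locKBal' (f := QuotientGroup.mk' (oddCore C[y])) hp le_rfl
      (by rw [pker_mk', oddCore_map, inf_eq_right.2 (pcore_le _ _)]) (abelem_of_card_prime hp hc)
      (zpowers_le.2 (mem_cen1.2 e)) (k := 1) hc le_rfl (fun a ha h2 => ?_) fun L hL => ?_)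
      (inf_le_left.trans (pcore_le _ _))
    · rw [cen1_eq_of_prime (hc ▸ hp) ha h2, cen_zpowers, inf_comm C[y]]
      exact (inf_le_inf_left _ le_rfl).trans ((le_inf inf_le_left (inf_le_inf_right _ (pcore_le _ _))).trans
        (pcore_inf_le _ inf_le_left))
    · rw [pmap_mk'_dom] at hL
      intro H hH A hA hA2
      obtain ⟨a, ha, h1⟩ := exists_ne_one (H := A) (ne_bot_of_one_lt_card (by rw [hA2]; norm_num))
      refine eq_bot_of_le (delta_le hp ha h1) ?_
      rw [← cenCore_eq hp]
      exact h y hy L (comp_top.1 hL) H hH a (Abelem.orderOf hA hp ha h1)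
  intro x y hx hy e
  exact le_antisymm (key x y hx hy e) (key y x hy hx e.symm)

end Cfsg.Agent.S1297
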