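import Cfsg.Statements.S1298
import Mathlib
import Cfsg.Agent.H2.Balance3

set_option autoImplicit false
open Cfsg

namespace Cfsg.Agent.S1298

open Cfsg.Agent.FT Subgroup
open scoped commutatorElement

/-- Let G be finite and k ≥ 1. Suppose that for every x of order p, writing C = C_G(x), every component K of C / O_{p'}(C) has K / Z(K) locally k-balanced for p. Then G is k-balanced for p. -/
theorem result {G : Type*} [Group G] [Finite G] (p k : ℕ) [Fact p.Prime] (hk : 1 ≤ k) (h : ∀ x : G, orderOf x = p → ∀ K : Subgroup (↥(Subgroup.centralizer ({x} : Set G)) ⧸ Cfsg.pPrimeCore p ↥(Subgroup.centralizer ({x} : Set G))), Cfsg.IsComponent K → Cfsg.IsLocallyKBalanced p k (↥K ⧸ Subgroup.center ↥K)) : Cfsg.IsKBalanced p k G := by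
  have hp : p.Prime := Fact.out
  intro A hA hc b hb hab
  rw [cenCore_eq hp]
  refine le_core_of_locKBal' (f := coreHom p _) hp le_rfl (inf_pker_coreHom hp _) hA
    (fun a ha => mem_cen1.2 (hab a ha)) hc hk (fun a ha h2 => delta_inf_le hp _ ha h2) fun L hL => ?_
  rw [pmap_coreHom] at hL
  exact h b hb L (comp_top.1 hL)

end Cfsg.Agent.S1298
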