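import Cfsg.Statements.S1299
import Mathlib
import Cfsg.Agent.H2.Fix

set_option autoImplicit false
open Cfsg

namespace Cfsg.Agent.S1299

open Cfsg.Agent.FT Subgroup
open scoped commutatorElement

/-- Let G be finite and k-balanced for the prime p (k ≥ 1), A an elementary abelian p-subgroup of order at least p^(k+2) such that O_{p'}(C_G(a)) is solvable for every non-identity a ∈ A. For a ∈ A put θ a = the subgroup generated by the Δ_G(D) ∩ C_G(a) over the subgroups D ≤ A of order p^k. Then θ is an A-signalizer functor. -/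
theorem result {G : Type*} [Group G] [Finite G] (p k : ℕ) [Fact p.Prime] (hk : 1 ≤ k) (hbal : Cfsg.IsKBalanced p k G) (A : Subgroup G) (hA : Cfsg.IsElementaryAbelian p A) (hAk : p ^ (k + 2) ≤ Nat.card ↥A) (hsolv : ∀ a ∈ A, a ≠ 1 → Group.IsSolvable ↥(Cfsg.centralizerPPrimeCore p a)) : Cfsg.IsSignalizerFunctor p A (fun a => ⨆ D : {D : Subgroup G // D ≤ A ∧ Nat.card ↥D = p ^ k}, Cfsg.signalizerDelta p (D : Subgroup G) ⊓ Subgroup.centralizer {a}) := by
  have hp : p.Prime := Fact.out
  have hE : Abelem p A := hA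
  refine kbal (D := fun D : {D : Subgroup G // D ≤ A ∧ Nat.card ↥D = p ^ k} => D.1) hp hE hAk (fun i => i.2.1)
    (fun F hF h => ?_) (fun i a ha a1 => ?_) fun a ha a1 => cenCore_eq hp a ▸ hsolv a ha a1
  · obtain ⟨D, -, h1, h2⟩ := ((hE.mono hF).pGrp hp).exists_between hp bot_le
      (by rw [card_bot']; exact Nat.one_le_pow _ _ hp.pos) h
    exact ⟨⟨D, h1.trans hF, h2⟩, h1⟩
  · exact cenCore_eq hp a ▸ hbal _ (hE.mono i.2.1) i.2.2 a (hE.orderOf hp ha a1) fun b hb => hE.ab.comm (i.2.1 hb) ha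

end Cfsg.Agent.S1299
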