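import Cfsg.Statements.S1300
import Mathlib
import Cfsg.Agent.H2.Balance3

set_option autoImplicit false
open Cfsg

namespace Cfsg.Agent.S1300

open Cfsg.Agent.FT Subgroup
open scoped commutatorElement

/-- For a finite group G, balance in the sense of commuting involutions is the same as 1-balance for the prime 2. -/
theorem result {G : Type*} [Group G] [Finite G] : Cfsg.IsBalanced G ↔ Cfsg.IsKBalanced 2 1 G := by
  have hp := Nat.prime_two
  constructor
  · intro h A hA hc b hb hab
    obtain ⟨a, ha, h1⟩ := exists_ne_one (H := A) (ne_bot_of_one_lt_card (by rw [hc]; norm_num))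
    have h2 := h a b (Abelem.orderOf hA hp ha h1) hb (hab a ha)
    refine (inf_le_inf_right _ ((delta_le hp ha h1).trans (cenCore_eq hp a).ge)).trans (h2.le.trans inf_le_left)
  · intro h
    have key : ∀ x y : G, orderOf x = 2 → orderOf y = 2 → x * y = y * x →
        centralizerPPrimeCore 2 x ⊓ C[y] ≤ centralizerPPrimeCore 2 y ⊓ C[x] := fun x y hx hy e => by
      have hc : #⟪x⟫ = 2 := by rw [card_zpowers', hx]
      refine le_inf (le_trans (inf_le_inf_right _ (le_iInf fun a => ?_)) (h ⟪x⟫ (abelem_of_card_prime hp hc) hc y hy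
        fun a ha => mem_cen1.1 (zpowers_le.2 (mem_cen1.2 e) ha))) (inf_le_left.trans (map_subtype_le _))
      rw [cenCore_eq hp, cenCore_eq hp, cen1_eq_of_prime (hc ▸ hp) a.2.1 a.2.2, cen_zpowers]
    intro x y hx hy e
    exact le_antisymm (key x y hx hy e) (key y x hy hx e.symm)

end Cfsg.Agent.S1300
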