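import Cfsg.Statements.S1302
import Cfsg.Agent.H23.Trans

set_option autoImplicit false
open Cfsg

namespace Cfsg.Agent.S1302

/-- Let X be a finite p-constrained group, p an odd prime, and A an abelian p-subgroup of X containing every element of order p of C_X(A). Then every subgroup of X of order prime to p that is normalized by A lies in O_{p'}(X). -/
theorem result {X : Type*} [Group X] [Finite X] (p : ℕ) [Fact p.Prime] (hp : p ≠ 2) (hX : Cfsg.IsPConstrained p X) (A : Subgroup X) (hA : IsMulCommutative ↥A) (hAp : IsPGroup p ↥A) (hΩ : ∀ x ∈ Subgroup.centralizer (A : Set X), orderOf x = p → x ∈ A) (Q : Subgroup X) (hQ : ¬ p ∣ Nat.card ↥Q) (hAQ : A ≤ Subgroup.normalizer (Q : Set X)) : Q ≤ Cfsg.pPrimeCore p X := by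
  have hp' : p.Prime := Fact.out
  have hX' : Cfsg.IsPConstrained p (⊤ : Subgroup X) := by
    rw [← FT.nrm_bot]; exact (H5b.IsPConstrained.normalizer hX (P := ⊥) IsPGroup.of_bot).1
  have := H23.thompson_bender hp' hp hX' le_top (FT.pGrp_of_isPGroup hp' hAp) (fun x hx e => by
    by_cases h1 : x = 1
    · exact h1 ▸ one_mem A
    · exact hΩ x hx.2 (orderOf_eq_prime e h1)) le_top (FT.p'grp_of_not_dvd hQ) hAQ
  rwa [FT.pcore_top, FT.piCore_compl_singleton hp'] at this

end Cfsg.Agent.S1302
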