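import Cfsg.Statements.S1303
import Cfsg.Agent.H5.PLen
import Cfsg.Agent.H1.Chain
import Cfsg.Agent.H6.Frobenius
import Cfsg.Agent.H2.Cores
-- import your own Cfsg.Agent.* helpers here

set_option autoImplicit false
open Cfsg

namespace Cfsg.Agent.S1303

theorem card_sl : Nat.card (Matrix.SpecialLinearGroup (Fin 2) (ZMod 3)) = 24 := by
  rw [Nat.card_eq_fintype_card]; decide +kernel

theorem key : ∀ x : Matrix.SpecialLinearGroup (Fin 2) (ZMod 3), x ^ 3 = 1 →
    (∀ g, (x⁻¹ * (g * x * g⁻¹)) ^ 3 = 1) → x = 1 := by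
  decide +kernel

theorem key2 : ∀ x : Matrix.SpecialLinearGroup (Fin 2) (ZMod 3), x ^ 2 = 1 →
    ∀ g, g * x = x * g := by
  decide +kernel

/-- The group X = SL(2, 3): it is 2-constrained, O_{2'}(X) = 1, its centre A = Z(X) contains every involution of X = C_X(A), and X has a subgroup of order 3 (normalized by A) not contained in O_{2'}(X). -/
theorem result : Cfsg.IsPConstrained 2 (Matrix.SpecialLinearGroup (Fin 2) (ZMod 3)) ∧ Cfsg.pPrimeCore 2 (Matrix.SpecialLinearGroup (Fin 2) (ZMod 3)) = ⊥ ∧ (∀ t : Matrix.SpecialLinearGroup (Fin 2) (ZMod 3), orderOf t = 2 → t ∈ Subgroup.center (Matrix.SpecialLinearGroup (Fin 2) (ZMod 3))) ∧ ∃ Q : Subgroup (Matrix.SpecialLinearGroup (Fin 2) (ZMod 3)), Nat.card ↥Q = 3 ∧ ¬ (Q ≤ Cfsg.pPrimeCore 2 (Matrix.SpecialLinearGroup (Fin 2) (ZMod 3))) := by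
  have hO : Cfsg.pPrimeCore 2 (Matrix.SpecialLinearGroup (Fin 2) (ZMod 3)) = ⊥ := by
    rw [pPrimeCore, sSup_eq_bot]
    rintro N ⟨hN, hc⟩
    have hd := N.card_subgroup_dvd_card
    rw [card_sl] at hd
    have h3 : Nat.card N ∣ 3 :=
      Nat.Coprime.dvd_of_dvd_mul_left (hc.pow_right 3) (show _ ∣ 2 ^ 3 * 3 from hd)
    have hp : ∀ x ∈ N, x ^ 3 = 1 := fun x hx =>
      orderOf_dvd_iff_pow_eq_one.mp ((N.orderOf_dvd_natCard hx).trans h3)
    rw [eq_bot_iff]
    intro x hx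
    exact key x (hp x hx) fun g => hp _ (mul_mem (inv_mem hx) (hN.conj_mem x hx g))
  refine ⟨H5b.isPConstrained_of_pSolvable (H1.isPSolvable_of_isSolvable Nat.prime_two
    (H6.isSolvable_of_card_dvd (a := 3) (b := 1) Nat.prime_two Nat.prime_three
      (by rw [card_sl]; norm_num))), hO, fun t ht => Subgroup.mem_center_iff.mpr
      (key2 t (orderOf_dvd_iff_pow_eq_one.mp ht.dvd)), ?_⟩
  have : Fact (Nat.Prime 3) := ⟨Nat.prime_three⟩
  obtain ⟨x, hx⟩ := exists_prime_orderOf_dvd_card' (G := Matrix.SpecialLinearGroup (Fin 2) (ZMod 3))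
    3 (by rw [card_sl]; norm_num)
  refine ⟨Subgroup.zpowers x, by rw [Nat.card_zpowers, hx], fun h => ?_⟩
  rw [hO, le_bot_iff, Subgroup.zpowers_eq_bot] at h
  rw [h, orderOf_one] at hx
  omega

end Cfsg.Agent.S1303
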