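import Cfsg.Statements.S1305
import Mathlib
import Cfsg.Agent.H2.Pump

set_option autoImplicit false
open Cfsg

namespace Cfsg.Agent.S1305

open Cfsg.Agent.FT Subgroup
open scoped commutatorElement

/-- Let G be a finite group of component type with the B-property and no nontrivial normal subgroup of odd order. Let a be an involution and K a component of C_G(a) such that (a) |K| is maximal among the orders of components of centralizers of involutions of G, (b) subject to (a) the 2-rank of the centralizer of K in C_G(a) is as large as possible, and (c) K has 2-rank at least 2. If B is an elementary abelian 2-subgroup of that centralizer of the largest possible order, then K is a component of C_G(b) for every non-identity b ∈ B. -/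
theorem result {G : Type*} [Group G] [Finite G] (hO : Cfsg.oddCore G = ⊥) (hB : Cfsg.HasBProperty G) (hct : Cfsg.IsComponentType G) (a : G) (ha : orderOf a = 2) (K : Subgroup G) (hKa : K ≤ Subgroup.centralizer ({a} : Set G)) (hK : Cfsg.IsComponent (K.subgroupOf (Subgroup.centralizer ({a} : Set G)))) (hmax : ∀ y : G, orderOf y = 2 → ∀ K' : Subgroup G, K' ≤ Subgroup.centralizer ({y} : Set G) → Cfsg.IsComponent (K'.subgroupOf (Subgroup.centralizer ({y} : Set G))) → Nat.card ↥K' ≤ Nat.card ↥K ∧ (Nat.card ↥K' = Nat.card ↥K → ∀ k : ℕ, Cfsg.PRankLE 2 k ↥(Subgroup.centralizer ({a} : Set G) ⊓ Subgroup.centralizer (K : Set G)) → Cfsg.PRankLE 2 k ↥(Subgroup.centralizer ({y} : Set G) ⊓ Subgroup.centralizer (K' : Set G)))) (hrk : ¬ Cfsg.PRankLE 2 1 ↥K) (B : Subgroup G) (hBle : B ≤ Subgroup.centralizer ({a} : Set G) ⊓ Subgroup.centralizer (K : Set G)) (hBel : Cfsg.IsElementaryAbelian 2 B) (hBmax : ∀ B' : Subgroup G, B' ≤ Subgroup.centralizer ({a} : Set G) ⊓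 Subgroup.centralizer (K : Set G) → Cfsg.IsElementaryAbelian 2 B' → Nat.card ↥B' ≤ Nat.card ↥B) (b : G) (hb : b ∈ B) (hb1 : b ≠ 1) : K ≤ Subgroup.centralizer ({b} : Set G) ∧ Cfsg.IsComponent (K.subgroupOf (Subgroup.centralizer ({b} : Set G))) := by
  have hp := Nat.prime_two
  have hK' := comp_iff.2 ⟨hKa, hK⟩
  have hb2 := Abelem.orderOf hBel hp hb hb1
  have hBa : B ≤ C[a] := hBle.trans inf_le_left
  have hBK : B ≤ C(K) := hBle.trans inf_le_right
  have hKb : K ≤ C[b] := le_cen1.2 (hBK hb)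
  have hab : a ∈ C[b] := cen1_comm.1 (hBa hb)
  have hBb : B ≤ C[b] := Ab.le_cen1 hBel.1 hb
  have hL : L[2](C[b]) ≤ E(C[b]) := play_le_lay_of_cents (comm_eq_bot.1 (by
    have := hB b hb2
    rw [map_commutator, ← play_eq hp, oddCore_map, hO] at this
    exact le_bot_iff.1 this))
  have h1 : Comp K (C[b] ⊓ C[a]) := hK'.mono (le_inf hKb hKa) inf_le_right
  have h2 : K ≤ E(C[b]) := h1.le_lay.trans (by
    rw [← cen_zpowers a]; exact lay_balance hL (pGrp_zpowers hp ha) (norms_of_le (zpowers_le.2 hab)))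
  obtain ⟨D, hD, h⟩ := h1.pumpup h2 hp ha (le_nrm _ hab)
  obtain ⟨hc, hr⟩ := hmax b hb2 D hD.le (comp_iff.1 hD).2
  refine comp_iff.1 ?_
  rcases h with rfl | h | ⟨hd, hn, rfl⟩
  · exact hD
  · exact absurd (card_lt h.1) (not_lt.2 hc)
  exfalso
  have hk := hd.pker_eq_bot hc
  obtain ⟨k, hk'⟩ := Abelem.card hBel hp
  have h3 := prankLE_iff.1 (hr (card_of_equiv (hd.equiv hk)) k
    (prankLE_iff.2 fun A h1 h2 => (hBmax A h1 h2).trans hk'.le))
  obtain ⟨E, hE, hEa, hE2⟩ : ∃ E, E ≤ D ∧ Abelem 2 E ∧ 2 ^ 1 < #E := by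
    by_contra h
    push Not at h
    refine hrk (prankLE_iff.2 fun A h1 h2 => ?_)
    have h4 : pmap hd.hom (ppre hd.hom A) = A := pmap_ppre_of_le h1
    have e := pmapEquiv (f := hd.hom) (ppre_le hd.hom A) (by rw [hk, bot_inf_eq])
    rw [h4] at e
    exact (card_of_equiv e).ge.trans (h _ (ppre_le _ _) (h2.of_equiv e.symm))
  have hca : cj a D ≤ C(D) := by simpa using hd.cen 1 one_pos one_lt_two
  have ha2 : a * a = 1 := by rw [← sq, hd.pow]
  have h4 : B ⊓ N(D) ≤ C(D) := hd.cents hD.perf inf_le_right (inf_le_left.trans hBK)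
  have h5 : B ⊓ N(D) ≤ C(cj a D) := by
    rw [← cj_of_mem_cen (centsS inf_le_left le_rfl (le_cen1.1 hBa) : a ∈ C(B ⊓ N(D))), cj_cents]; exact h4
  have h6 : B ⊓ N(D) ⊓ cj a E = ⊥ := by
    refine (eq_bot_iff_forall _).2 fun u hu => ?_
    obtain ⟨z, hz, rfl⟩ := mem_cj'.1 hu.2
    have e1 : a * z * a⁻¹ = z := by
      have := mem_cen1.1 (hBa hu.1.1)
      rw [inv_mul_cancel_right, ← mul_assoc, ← mul_assoc, ha2, one_mul, ← mul_right_inj a, ← mul_assoc, ← mul_assoc, ha2,
        one_mul] at this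
      exact this.symm
    have e2 : z ∈ pker hd.hom := mem_pker.2 ⟨hE hz, by rw [hd.pfun_hom (hE hz), dfun_two, e1, ← sq, hEa.pow hz]⟩
    rw [hk] at e2
    rw [e1]; exact e2
  have h7 := h3 (B ⊓ N(D) ⊔ cj a E) (sup_le (le_inf (inf_le_left.trans hBb) h4)
    (le_inf (cj_le_of_mem hab (hE.trans hD.le)) ((cj_mono a hE).trans hca)))
    ((Abelem.mono hBel inf_le_left).sup (hEa.cj a) (centsC (centsS (cj_mono a hE) h5)))
  rw [card_sup_of_inf (cents_norm (centsC (centsS (cj_mono a hE) h5))) h6, card_cj] at h7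
  have h8 : N(D).relIndex B ≤ 2 := by
    by_cases hn : B ≤ N(D)
    · rw [relIndex_eq_one.2 hn]; norm_num
    obtain ⟨u, hu, hu'⟩ := SetLike.not_le_iff_exists.1 hn
    have key : ∀ v ∈ B, v ∉ N(D) → cj v D = cj a D := fun v hv hv' => by
      obtain ⟨i, hi, e⟩ := hD.cj_eq_of_cents_diag hd (le_nrm _ hab) (le_nrm _ (hBb hv)) (hBK hv)
      interval_cases i
      · rw [pow_zero, cj_one] at e; exact absurd (cj_eq_self.1 e) hv'
      · rwa [pow_one] at e
    refine (relIndex_eq_two_iff.2 ⟨u, hu, fun v hv => ?_⟩).le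
    by_cases hv' : v ∈ N(D)
    · exact Or.inr ⟨hv', fun e => hu' ((N(D).mul_mem_cancel_left hv').1 e)⟩
    · refine Or.inl ⟨?_, hv'⟩
      have := cj_eq_cj_iff.1 ((key u hu hu').trans (key v⁻¹ (inv_mem hv) (by rwa [inv_mem_iff])).symm)
      rwa [inv_inv] at this
  have h9 := card_inf_mul_relIndex N(D) B
  rw [inf_comm, hk'] at h9
  obtain ⟨j, hj⟩ := hEa.card hp
  have h10 : 2 ^ 2 ≤ #E := by
    rw [hj] at hE2 ⊢
    exact Nat.pow_le_pow_right two_pos ((Nat.pow_lt_pow_iff_right one_lt_two).1 hE2)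
  have := card_pos (B ⊓ N(D))
  nlinarith

end Cfsg.Agent.S1305
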