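import Cfsg.Statements.S1306
import Mathlib
import Cfsg.Agent.H2.Pump

set_option autoImplicit false
open Cfsg

namespace Cfsg.Agent.S1306

open Cfsg.Agent.FT Subgroup
open scoped commutatorElement

/-- Let G be finite, x an involution and L ≤ C_G(x) a component of C_G(x). Suppose L is a component of C_G(y) for every involution y ∈ C_G(L), and ⁅L, g L g⁻¹⁆ ≠ 1 whenever g L g⁻¹ ≠ L. Then L is a standard subgroup of G. -/
theorem result {G : Type*} [Group G] [Finite G] (x : G) (hx : orderOf x = 2) (L : Subgroup G) (hLx : L ≤ Subgroup.centralizer ({x} : Set G)) (hL : Cfsg.IsComponent (L.subgroupOf (Subgroup.centralizer ({x} : Set G)))) (hne : ∀ y : G, orderOf y = 2 → y ∈ Subgroup.centralizer (L : Set G) → L ≤ Subgroup.centralizer ({y} : Set G) ∧ Cfsg.IsComponent (L.subgroupOf (Subgroup.centralizer ({y} : Set G)))) (hnc : ∀ g : G, L.map (MulAut.conj g).toMonoidHom ≠ L → ⁅L, L.map (MulAut.conj g).toMonoidHom⁆ ≠ ⊥) : Cfsg.IsStandardSubgroup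 L := by
  have hK := comp_iff.2 ⟨hLx, hL⟩
  have key : ∀ g y : G, orderOf y = 2 → y ∈ C(L) → y ∈ C(cj g L) → g ∈ N(L) := fun g y hy h1 h2 => by
    have h3 := (comp_iff.2 (hne (g⁻¹ * y * g⁻¹⁻¹) (by rw [orderOf_conj, hy]) (by
      rw [← cj_cen, mem_cj] at h2; rwa [inv_inv]))).cj g
    rw [← cj_cen1, cj_cj_inv] at h3
    refine cj_eq_self.1 (by_contra fun e => hnc g e (comm_eq_bot'.2 (h3.cents_of_ne (comp_iff.2 (hne y hy h1)) e)))
  have hx' : x ∈ C(L) := le_cen1.1 hLx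
  refine ⟨hK.qs, ⟨even_iff_two_dvd.2 (hx ▸ orderOf_dvd_card' hx'), fun g hg => odd_iff_piGrp.2 (by_contra fun e => ?_)⟩,
    hnc, le_antisymm (norms_cent le_rfl) fun g hg => key g x hx hx' ?_⟩
  · obtain ⟨y, hy, h2⟩ := exists_inv_of_not_odd e
    exact hg (norms_cent le_rfl (key g y h2 hy.1 (cj_cen g L ▸ hy.2)))
  · rw [← cj_cen, cj_of_mem_nrm hg]; exact hx'

end Cfsg.Agent.S1306
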