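import Cfsg.Statements.S1307
import Mathlib
import Cfsg.Agent.H2.Pump

set_option autoImplicit false
open Cfsg

namespace Cfsg.Agent.S1307

open Cfsg.Agent.FT Subgroup
open scoped commutatorElement

/-- Let G be finite, x an involution and L ≤ C_G(x) a component of C_G(x) of even order and 2-rank 1, such that L is a component of C_G(y) for every involution y ∈ C_G(L). Then some involution of L is a classical involution of G. -/
theorem result {G : Type*} [Group G] [Finite G] (x : G) (hx : orderOf x = 2) (L : Subgroup G) (hLx : L ≤ Subgroup.centralizer ({x} : Set G)) (hL : Cfsg.IsComponent (L.subgroupOf (Subgroup.centralizer ({x} : Set G)))) (heven : Even (Nat.card ↥L)) (hrk : Cfsg.PRankLE 2 1 ↥L) (hne : ∀ y : G, orderOf y = 2 → y ∈ Subgroup.centralizer (L : Set G) → L ≤ Subgroup.centralizer ({y} : Set G) ∧ Cfsg.IsComponent (L.subgroupOf (Subgroup.centralizer ({y} : Set G)))) : ∃ t ∈ L, Cfsg.IsClassicalInvolution t := by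
  have hp := Nat.prime_two
  have hK := comp_iff.2 ⟨hLx, hL⟩
  obtain ⟨S, hS⟩ := exists_syl 2 L
  obtain ⟨a, b, m, h⟩ := (Cfsg.Agent.H3.cyc_or_mcq_of_rank hS.pi ((prank_mono 2 hS.le).trans
    ((prankLE_iff_prank hp).1 hrk))).resolve_left (hK.qs.pqs_two.not_cyc_two hS)
  have hz := h.le h.z_mem
  have h1 : ⟪a ^ 2 ^ (m - 1)⟫ ≤ C(L) := hK.qs.cents_of_comm ((zstar_rel hS hz fun g _ hg =>
    h.eq_z_of_sq hg (by rw [conj_pow, h.z_sq]; group) (conj_ne_one.2 h.z_ne)).trans hK.qs.core_cents)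
  obtain ⟨h2, h3⟩ := hne _ h.ord_z (zpowers_le.1 h1)
  obtain ⟨T, rfl⟩ := hS.exists_sylow hp
  obtain ⟨e⟩ := h.iso
  refine ⟨_, hS.le hz, h.ord_z, L, h2, hS.le hz, (comp_iff.2 ⟨h2, h3⟩).subn.subn, T, m - 2, ⟨?_⟩⟩
  rw [show m - 2 + 1 = m - 1 by have := h.two_le; omega]
  exact (subtypeEquiv _).trans e

end Cfsg.Agent.S1307
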