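import Cfsg.Statements.S1314
import Mathlib
import Cfsg.Agent.H2.Pump

set_option autoImplicit false
open Cfsg

namespace Cfsg.Agent.S1314

open Cfsg.Agent.FT Subgroup
open scoped commutatorElement

/-- Let x be an involution of a group G and L a perfect subgroup with ⁅L, x L x⁻¹⁆ = 1. Then l ↦ l (x l x⁻¹) is a group homomorphism π from L to G whose kernel is central in L and whose image lies in C_G(x); and the commutator subgroup of C_{L ⊔ xLx⁻¹}(x) equals the image of π. -/
theorem result {G : Type*} [Group G] [Finite G] (x : G) (hx : orderOf x = 2) (L : Subgroup G) (hperf : ⁅L, L⁆ = L) (hcomm : ⁅L, L.map (MulAut.conj x).toMonoidHom⁆ = ⊥) : ∃ π : ↥L →* G, (∀ l : ↥L, π l = (l : G) * (x * (l : G) * x⁻¹)) ∧ π.ker ≤ Subgroup.center ↥L ∧ π.range ≤ Subgroup.centralizer ({x} : Set G) ∧ ⁅(L ⊔ L.map (MulAut.conj x).toMonoidHom) ⊓ Subgroup.centralizer ({x} : Set G), (L ⊔ L.map (MulAut.conj x).toMonoidHom) ⊓ Subgroup.centralizer ({x} : Set G)⁆ = π.range := by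
  have h := diag_two hx (comm_eq_bot'.1 hcomm)
  refine ⟨h.hom, fun l => dfun_two x l, fun l hl => ?_, ?_, ?_⟩
  · have h1 := h.pker_le (show (l : G) ∈ pker h.hom from ⟨l, hl, rfl⟩)
    exact mem_center_iff.2 fun g => Subtype.ext (mem_cen.1 h1 g g.2)
  · rw [← pmap_dom]; exact h.diag_le.trans inf_le_right
  · rw [← pmap_dom, ← cj_def, ← orbs_two hx]; exact h.der_cent hperf

end Cfsg.Agent.S1314
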