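import Cfsg.Statements.S1324
import Mathlib
import Cfsg.Agent.H21.SigBasic

set_option autoImplicit false
open Cfsg

namespace Cfsg.Agent.S1324

open Cfsg.Agent.FT Cfsg.Agent.H21 Subgroup

/-- Let A be a noncyclic elementary abelian p-subgroup of a finite group H normalizing a subgroup X of order prime to p. Then X is generated by the subgroups X ∩ C_H(B), B ranging over the subgroups of A of index at most p. -/
theorem result {H : Type*} [Group H] [Finite H] (p : ℕ) [Fact p.Prime] (A X : Subgroup H) (hA : Cfsg.IsElementaryAbelian p A) (hA2 : p ^ 2 ≤ Nat.card ↥A) (hX : ¬ p ∣ Nat.card ↥X) (hAX : A ≤ Subgroup.normalizer (X : Set H)) : X = ⨆ B : {B : Subgroup H // B ≤ A ∧ B.relIndex A ≤ p}, X ⊓ Subgroup.centralizer ((B : Subgroup H) : Set H) := by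
  have hp : p.Prime := Fact.out
  refine le_antisymm (coprime_abelem_gen_cent hp hA (fun e => not_cyc_of_sq_le hp hA hA2 (e ▸ cyc_bot)) hAX
    ((p'grp_of_not_dvd hX).cop' (Abelem.pGrp hA hp)) fun B h1 h2 => ?_) (iSup_le fun _ => inf_le_left)
  exact le_iSup (fun B : {B : Subgroup H // B ≤ A ∧ B.relIndex A ≤ p} => X ⊓ C(B.1)) ⟨B, h1, h2.le⟩

end Cfsg.Agent.S1324
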