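import Cfsg.Statements.S1328
import Mathlib
import Cfsg.Agent.H2.Balance3

set_option autoImplicit false
open Cfsg

namespace Cfsg.Agent.S1328

open Cfsg.Agent.FT Subgroup
open scoped commutatorElement

/-- Let G be finite, H ≤ G with O(H) = 1, t an involution of G normalizing H, and Y a nontrivial subgroup of O(C_H(t)). Then some component E of H is normalized by t and by Y and centralized by neither t nor Y. -/
theorem result {G : Type*} [Group G] [Finite G] (H : Subgroup G) (hO : Cfsg.oddCore ↥H = ⊥) (t : G) (ht : orderOf t = 2) (htH : t ∈ Subgroup.normalizer (H : Set G)) (Y : Subgroup G) (hY1 : Y ≠ ⊥) (hY : Y ≤ (Cfsg.oddCore ↥(H ⊓ Subgroup.centralizer ({t} : Set G))).map (H ⊓ Subgroup.centralizer ({t} : Set G)).subtype) : ∃ E : Subgroup ↥H, Cfsg.IsComponent E ∧ (E.map H.subtype).map (MulAut.conj t).toMonoidHom = E.map H.subtype ∧ Y ≤ Subgroup.normalizer ((E.map H.subtype : Subgroup G) : Set G) ∧ ¬ (t ∈ Subgroup.centralizer ((E.map H.subtype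 : Subgroup G) : Set G)) ∧ ¬ (Y ≤ Subgroup.centralizer ((E.map H.subtype : Subgroup G) : Set G)) := by
  have hp := Nat.prime_two
  have hP := pGrp_zpowers hp ht
  rw [oddCore_map] at hY
  have hn : H ⊴ H ⊔ ⟪t⟫ := nml_sup_left (zpowers_le.2 htH)
  have h1 : O[{2}ᶜ](H ⊔ ⟪t⟫) = ⊥ := by
    have h2 : O[{2}ᶜ](H ⊔ ⟪t⟫) ≤ H := (pcore_pi _ _).le_of_relIndex (pcore_le _ _) hn.nrm (by
      rw [piNat_compl_compl, relIndex_sup_norm (zpowers_le.2 htH)]; exact hP.relIndex _)
    rw [← inf_eq_left.2 h2, pcore_inf_nml _ hn, ← oddCore_map, hO, Subgroup.map_bot]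
  have h2 : Y ≤ O[{2}ᶜ]((H ⊔ ⟪t⟫) ⊓ C[t]) := hY.trans (pcore_mono_nml _ (hn.inf_right _))
  by_contra hc
  push Not at hc
  have h0 := le_sup_left.trans (core_play_cents_pcore_local (M := H ⊔ ⟪t⟫) hP (norms_of_le le_sup_right))
  rw [cen_zpowers] at h0
  refine hY1 (eq_bot_of_cents_comps h1 ((pcore_pi _ _).mono h2) (h2.trans ((pcore_le _ _).trans inf_le_left))
    (h2.trans h0) fun L hL => ?_)
  by_cases h3 : t ∈ N(L)
  swap
  · exact h2.trans (hL.cents_core_of_moved (hL.not_p' h1) ht (mem_sup_right (mem_zpowers t)) h3)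
  by_cases h4 : t ∈ C(L)
  · have := hL.cents_core_of_cents (hL.not_p' h1) (centsC (zpowers_le.2 h4))
    rw [cen_zpowers] at this
    exact h2.trans this
  have h5 : L ≤ H := perf_le_of_le_sup hL.perf hL.le (zpowers_le.2 htH) (sol_zpowers t)
  have h6 := hc (L.subgroupOf H) (comp_iff.1 (hL.mono h5 hn.le)).2
  rw [map_so h5] at h6
  exact h6 (cj_eq_self.2 h3)
    (h2.trans (cen_zpowers t ▸ (hL.pcomp_of_core h1).core_local_norms hP le_sup_right)) h4

end Cfsg.Agent.S1328
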