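import Cfsg.Statements.S1329
import Mathlib
import Cfsg.Agent.H2.Fix

set_option autoImplicit false
open Cfsg

namespace Cfsg.Agent.S1329

open Cfsg.Agent.FT Subgroup
open scoped commutatorElement

/-- Let A be an abelian 2-subgroup of the finite group G, B ≤ A, and Y a subgroup of odd order normalized by A with ⁅Y, A⁆ = Y. Then Y ∩ C_G(B) is generated by the subgroups Y ∩ C_G(B) ∩ ⁅Y ∩ C_G(B₀), A⁆, B₀ ranging over the subgroups of B with B / B₀ cyclic. -/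
theorem result {G : Type*} [Group G] [Finite G] (A B Y : Subgroup G) (hA2 : IsPGroup 2 ↥A) (hAc : IsMulCommutative ↥A) (hB : B ≤ A) (hYodd : Odd (Nat.card ↥Y)) (hAY : A ≤ Subgroup.normalizer (Y : Set G)) (hYA : ⁅Y, A⁆ = Y) : Y ⊓ Subgroup.centralizer (B : Set G) = ⨆ B₀ : {B₀ : Subgroup G // B₀ ≤ B ∧ ∀ [(B₀.subgroupOf B).Normal], IsCyclic (↥B ⧸ B₀.subgroupOf B)}, Y ⊓ Subgroup.centralizer (B : Set G) ⊓ ⁅Y ⊓ Subgroup.centralizer ((B₀ : Subgroup G) : Set G), A⁆ := by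
  have hp := Nat.prime_two
  have hA : Ab A := hAc
  have pA : PGrp 2 A := pGrp_of_isPGroup hp hA2
  have oY : PiGrp {2}ᶜ Y := odd_iff_piGrp.1 hYodd
  have hc := oY.cop' pA
  refine le_antisymm ?_ (iSup_le fun _ => inf_le_left)
  generalize hH : (⨆ B₀ : {B₀ : Subgroup G // B₀ ≤ B ∧ ∀ [(B₀.subgroupOf B).Normal], IsCyclic (↥B ⧸ B₀.subgroupOf B)},
    Y ⊓ C(B) ⊓ ⁅Y ⊓ C(B₀.1), A⁆) = H
  have h0 : ∀ D, D ≤ B → Cyc (B /ₛ D) → Y ⊓ C(B) ⊓ ⁅Y ⊓ C(D), A⁆ ≤ H := fun D h1 h2 => hH ▸ le_iSup_of_le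
    ⟨D, h1, fun {_} => (quotEquiv (hB.trans (hA.norms (h1.trans hB)))).isCyclic.2 h2⟩ le_rfl
  have nC : ∀ D, D ≤ A → A ≤ N(Y ⊓ C(D)) := fun D hD => norms_subcent hAY (hA.norms hD)
  refine (coprime_cent_prod (nC B hB) (hc.mono_left inf_le_left) (sol_of_odd (oY.inf_left _))).sup.ge.trans
    (sup_le (le_trans (le_inf (comm_le_left (nC B hB)) le_rfl) (h0 B le_rfl (by rw [quo_self]; exact cyc_bot))) ?_)
  refine (inf_le_inf_right _ inf_le_left).trans (cent_le_of_comm (f := fun i : {D : Subgroup G // D ≤ B ∧ Cyc (B /ₛ D)} => i.1)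
    hA (sol_of_odd oY) hc hAY hYA (fun i => i.2.1.trans hB) (fun N h1 h2 L h3 => coprime_abelian_gen_cent (hA.mono hB)
      (hB.trans h2) (hc.mono h1 hB) fun D h4 h5 => h3 ⟨D, h4, h5⟩) fun i => le_trans ?_ (h0 i i.2.1 i.2.2))
  exact le_inf (le_inf (inf_le_left.trans ((comm_le_left (nC _ (i.2.1.trans hB))).trans inf_le_left))
    (inf_le_right.trans (cen_anti hB))) inf_le_left

end Cfsg.Agent.S1329
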