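import Cfsg.Statements.S1330
import Cfsg.Agent.G75.Fun
import Cfsg.Agent.H2.Sig2
import Cfsg.Agent.H2.Balance2
-- import your own Cfsg.Agent.* helpers here

set_option autoImplicit false
open Cfsg

namespace Cfsg.Agent.S1330

open Subgroup Cfsg.Agent.FT Cfsg.Agent.GW Cfsg.Agent.G75
open scoped commutatorElement

section
variable {G : Type*} [Group G] [Finite G] {A B H K M P W X : Subgroup G} {a b x : G}

theorem nrm_iInf {Φ : Subgroup G → Prop} (h : ∀ g ∈ X, ∀ K, Φ K → Φ (cj g K)) :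
    X ≤ N(⨅ K : {K // Φ K}, C(K.1)) := le_nrm_iff.2 fun g hg x hx => mem_iInf.2 fun K => by
  have := mem_iInf.1 hx ⟨_, h _ (inv_mem hg) _ K.2⟩
  rwa [← cj_cen, ← conj_mem_cj (g := g), cj_cj_inv] at this

theorem le_pcore2 (hO : Od(H) = ⊥) (hM : W ≤ H) (h1 : W ≤ C(O[{2}](H)))
    (h2 : ∀ L, Comp L H → W ≤ C(L)) : W ≤ O[{2}](H) := by
  rw [← fitting_eq_pcore hO]
  refine (le_inf hM ?_).trans (cent_gfit H)
  rw [gfit_eq_lay_sup_pcore hO]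
  exact centsY (centsC (lay_le_iff.2 fun L hL => centsC (h2 L hL))) h1

theorem core3 (hO : Od(H) = ⊥) (hB : B ≤ H) (pB : PGrp 2 B) (hAB : B ≤ C(A)) (pP : PGrp 2 P)
    (hP : P ≤ H) (hP' : P ≤ A ⊔ B) (sep : ∀ K, Comp K H → K ≤ C(A) ∨ K ≤ C(B))
    (h1 : W ≤ Od(H ⊓ C(P))) (h2 : W ≤ C(A)) (h3 : ∀ K, Comp K H → K ≤ C(A) → W ≤ C(K)) :
    W ≤ Od(H ⊓ C(A)) := by
  obtain ⟨D, hD⟩ : ∃ D, D = H ⊓ C(A) ⊓
    (C(O[{2}](H)) ⊓ ⨅ K : {K // Comp K H ∧ K ≤ C(A)}, C(K.1)) := ⟨_, rfl⟩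
  have n0 : D ⊴ H ⊓ C(A) := hD ▸ nml_inf_of_norms (normsI (norms_cent (inf_le_left.trans
    (pcore_nrm _ _))) (nrm_iInf fun g hg K hK => ⟨hK.1.cj_of_mem hg.1, cj_le_of_mem hg.2 hK.2⟩))
  have nJ : H ⊓ C(A) ≤ N(⨅ K : {K // Comp K H ∧ ¬ K ≤ C(A)}, C(K.1)) :=
    nrm_iInf fun g hg K hK => ⟨hK.1.cj_of_mem hg.1, mt (cj_le_iff_of_mem hg.2).1 hK.2⟩
  have d1 : ⁅B, D⁆ ≤ D := comm_le_right ((le_inf hB hAB).trans n0.nrm)
  have d2 : D ≤ C(O[{2}](H)) := hD ▸ inf_le_right.trans inf_le_left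
  have T : ⁅B, D⁆ ≤ O[{2}](H) := le_pcore2 hO (d1.trans (n0.le.trans inf_le_left)) (d1.trans d2)
    fun L hL => by
      by_cases e : L ≤ C(A)
      · exact d1.trans (hD ▸ inf_le_right.trans (inf_le_right.trans
          (iInf_le (fun K : {K // Comp K H ∧ K ≤ C(A)} => C(K.1)) ⟨L, hL, e⟩)))
      · exact ((commSS (le_iInf fun K => centsC ((sep _ K.2.1).resolve_left K.2.2)) le_rfl).trans
          (comm_le_left (n0.le.trans nJ))).trans
          (iInf_le (fun K : {K // Comp K H ∧ ¬ K ≤ C(A)} => C(K.1)) ⟨L, hL, e⟩)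
  have R : piGen {2}ᶜ D ≤ C(B) := piGen_le_iff.2 fun x hx hx' => by
    have z := zpowers_le.2 hx
    have n := hB.trans (pcore_nrm {2} H)
    have c : ⁅B ⊔ O[{2}](H), ⟪x⟫⁆ ≤ O[{2}](H) := comm_sup_le (sup_le n (le_nrm _))
      ((commSS le_rfl z).trans T) (comm_le_left (cents_norm (z.trans d2)))
    exact cen_anti le_sup_left (stable_factor_cent (norms_of_comm_le (c.trans le_sup_right))
      ((pB.sup' (pcore_pi _ _) n).cop hx'.zpowers) c (z.trans d2) (mem_zpowers x))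
  have w : W ≤ D := hD ▸ le_inf (le_inf (h1.trans ((pcore_le _ _).trans inf_le_left)) h2)
    (le_inf (h1.trans (le_sup_left.trans (core_play_cents_pcore_local pP (hP.trans (le_nrm H)))))
      (le_iInf fun K => h3 _ K.2.1 K.2.2))
  have r := (piGen_le {2}ᶜ D).trans n0.le
  exact ((le_inf h1 (le_piGen ((pcore_pi _ _).mono h1) w)).trans (pcore_inf_le _ (le_inf
    (r.trans inf_le_left) ((centsY (r.trans inf_le_right) R).trans (cen_anti hP'))))).trans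
    (pcore_mono_subn _ ((piGen_nml _ _).subn.trans n0.subn))

theorem loc : Od(C(P)) ⊓ M ≤ Od(M ⊓ C(P)) :=
  (le_inf inf_le_left (le_inf inf_le_right (inf_le_left.trans (pcore_le _ _)))).trans
    (pcore_inf_le _ inf_le_right)

theorem qcore (pP : PGrp 2 P) (hP : P ≤ M) :
    Od(M ⊓ C(P)) /ₛ Od(M) = O[{2}ᶜ]((M /ₛ Od(M)) ⊓ C(P /ₛ Od(M))) :=
  pmap_core_core (pcore_nrm _ M) (by rw [qker]; exact (pcore_pi _ _).inf_right _) pP hP

theorem l1 (hK : PComp 2 K M) (pP : PGrp 2 P) (hP : P ≤ M) (hX : X ≤ Od(C(P)) ⊓ M) (hA : A ≤ M)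
    (h : ⁅K, A⁆ ≤ Od(M)) : ⁅K, ⁅X, A⁆⁆ ≤ Od(M) := by
  have n := (hX.trans inf_le_right).trans (pcore_nrm {2}ᶜ M)
  rw [commC]
  exact three_subgroup_mod (hA.trans (pcore_nrm _ _)) hK.norms_core n
    ((commSS (commC K A ▸ h) le_rfl).trans (comm_le_left n))
    ((commSS (comm_le_left ((hX.trans loc).trans (hK.core_local_norms pP hP))) le_rfl).trans h)

theorem l2 (hK : PComp 2 K M) (pA : PGrp 2 A) (hA : A ≤ M) (h : ⁅K, A⁆ ≤ Od(M)) :
    ⁅K, Od(C(A)) ⊓ M⁆ ≤ Od(M) :=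
  (quo_cents_iff hK.norms_core (inf_le_right.trans (pcore_nrm _ _))).1 (centsC
    ((quo_mono _ loc).trans ((qcore pA hA).le.trans (hK.quo_comp.cents_core_of_cents
      hK.quo_comp.qs.not_odd (quo_cents_of_comm_le h)))))

theorem l0 (pP : PGrp 2 P) (hP : P ≤ M) (hX : X ≤ Od(C(P)) ⊓ M)
    (h : ∀ K, PComp 2 K M → ⁅K, X⁆ ≤ Od(M)) : X ≤ Od(M) := by
  have a := core_play_cents_pcore_local (p := 2) (pP.quo Od(M))
    ((quo_mono Od(M) hP).trans (le_nrm _))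
  rw [← qcore pP hP] at a
  refine (quo_eq_bot ((hX.trans inf_le_right).trans (pcore_nrm _ _))).1 (eq_bot_of_cents_comps
    (p := 2) (pcore_quo_pcore {2}ᶜ M) (((pcore_pi {2}ᶜ _).mono (hX.trans inf_le_left)).quo _)
    (quo_mono _ (hX.trans inf_le_right)) ((quo_mono _ (hX.trans loc)).trans (le_sup_left.trans a))
    fun L hL => ?_)
  obtain ⟨K, hK, rfl⟩ := exists_pcomp_of_comp hL
  exact centsC (quo_cents_of_comm_le (h K hK))

theorem l3 (hA : A ≤ M) (pA : PGrp 2 A) (hM : C(A) ≤ M) (pB : PGrp 2 B) (hAB : B ≤ C(A))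
    (pP : PGrp 2 P) (hP' : P ≤ A ⊔ B)
    (sep : ∀ K, PComp 2 K M → ⁅K, A⁆ ≤ Od(M) ∨ ⁅K, B⁆ ≤ Od(M)) (h1 : W ≤ Od(C(P))) (h2 : W ≤ C(A))
    (h3 : ∀ K, PComp 2 K M → ⁅K, A⁆ ≤ Od(M) → ⁅K, W⁆ ≤ Od(M)) : W ≤ Od(C(A)) := by
  have n := pcore_nrm {2}ᶜ M
  have hB := hAB.trans hM
  have hP := hP'.trans (sup_le hA hB)
  have := core3 (W := W /ₛ Od(M)) (pcore_quo_pcore _ M) (quo_mono _ hB) (pB.quo _) (quo_cents _ hAB)
    (pP.quo _) (quo_mono _ hP) ((quo_mono _ hP').trans (quo_sup (hA.trans n) (hB.trans n)).le)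
    (fun L hL => by
      obtain ⟨K, hK, rfl⟩ := exists_pcomp_of_comp hL
      exact (sep K hK).imp quo_cents_of_comm_le quo_cents_of_comm_le)
    ((quo_mono _ ((le_inf h1 (h2.trans hM)).trans loc)).trans (qcore pP hP).le) (quo_cents _ h2)
    fun L hL e => by
      obtain ⟨K, hK, rfl⟩ := exists_pcomp_of_comp hL
      exact centsC (quo_cents_of_comm_le (h3 K hK ((quo_cents_iff hK.norms_core (hA.trans n)).1 e)))
  have m := ((pcore_le {2}ᶜ C(A)).trans hM).trans n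
  rw [← qcore pA hA, inf_of_le_right hM, quo_le_quo ((h2.trans hM).trans n) m] at this
  exact (le_inf h2 this).trans ((inf_sup_right m (pcore_le _ _)).le.trans
    (sup_le ((inf_comm _ _).le.trans (pcore_inf_le _ hM)) le_rfl))

structure CS (A B : Subgroup G) : Prop where
  eA : Abelem 2 A
  eB : Abelem 2 B
  ncA : ¬ Cyc A
  ncB : ¬ Cyc B
  cen : B ≤ C(A)
  sep : ∀ a ∈ A ⊔ B, a ≠ 1 → ∀ K, PComp 2 K C[a] → ⁅K, A⁆ ≤ Od(C[a]) ∨ ⁅K, B⁆ ≤ Od(C[a])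

namespace CS
variable (h : CS A B)
include h

theorem symm : CS B A := ⟨h.eB, h.eA, h.ncB, h.ncA, centsC h.cen, fun a ha h1 K hK =>
  (h.sep a (sup_comm A B ▸ ha) h1 K hK).symm⟩
theorem el : Abelem 2 (A ⊔ B) := h.eA.sup h.eB h.cen
theorem pA : PGrp 2 A := h.eA.pGrp Nat.prime_two
theorem pz (ha : a ∈ A ⊔ B) : PGrp 2 ⟪a⟫ := (h.el.pGrp Nat.prime_two).mono (zpowers_le.2 ha)
theorem cA (ha : a ∈ A ⊔ B) : A ≤ C[a] := le_sup_left.trans (h.el.ab.le_cen1 ha)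

theorem nrm_th (ha : a ∈ A ⊔ B) : A ⊔ B ≤ N(th A B a) :=
  normsI (nrm_th1 (h.el.ab.le_cen1 ha) (h.el.ab.cents le_sup_left le_rfl))
    (nrm_th1 (h.el.ab.le_cen1 ha) (h.el.ab.cents le_sup_right le_rfl))

theorem th_le (ha : a ∈ A ⊔ B) : th A B a ≤ Od(C[a]) := inf_le_left.trans (th1_le (h.cA ha))

theorem claim (ha : a ∈ A ⊔ B) : ⁅Od(C[a]), A⁆ ⊓ C(A) ≤ Od(C(A)) := by
  have h1 := nrm_core (h.cA ha)
  have h2 := odd_le (odd_core _) (comm_le_left h1)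
  have h3 := (cop_of_odd h.pA h2).symm
  refine cent_le_of_comm (f := fun c : {c // c ∈ A ∧ c ≠ 1} => ⟪(c : G)⟫) h.eA.ab (sol_odd h2) h3
    (norm_comm_right _ _) (coprime_commGid h1 (cop_of_odd h.pA (odd_core _)).symm)
    (fun c => zpowers_le.2 c.2.1) (fun N hN nN L hL => coprime_abelian_gen_cent1 h.eA.ab h.ncA nN
      (Cop.mono_left h3 hN) fun c hc h4 => cen_zpowers c ▸ hL ⟨c, hc, h4⟩) fun ⟨c, hc, h4⟩ => ?_
  have h5 : ⁅Od(C[a]), A⁆ ⊓ C(⟪c⟫) ≤ Od(C(⟪a⟫)) ⊓ C[c] := by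
    rw [cen_zpowers, cen_zpowers]; exact inf_le_inf_right _ (comm_le_left h1)
  have h6 := h.cA (mem_sup_left hc)
  exact l3 h6 h.pA (cen_le_cen1 hc) h.symm.pA h.cen (h.pz ha) (zpowers_le.2 ha)
    (h.sep c (mem_sup_left hc) h4) (inf_le_left.trans ((comm_le_left (normsI (norm_comm_right _ _)
      (norms_of_le ((cen_zpowers c).symm ▸ h6)))).trans (h5.trans inf_le_left))) inf_le_right
    fun K hK e => (commSS le_rfl inf_le_left).trans (l1 hK (h.pz ha)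
      ((zpowers_le.2 ha).trans (h.el.ab.le_cen1 (mem_sup_left hc))) h5 h6 e)

theorem th_cen (ha : a ∈ A ⊔ B) : th A B a ⊓ C(A) ≤ Od(C(A)) := by
  refine (inf_le_inf_right _ inf_le_left).trans ?_
  rw [inf_comm, th1, FT.inf_sup_right (inf_le_left.trans (norm_comm_left _ _))
    (inf_le_right.trans (pcore_le _ _))]
  exact sup_le ((inf_comm _ _).le.trans (h.claim ha)) inf_le_right

theorem bal0 (ha : a ∈ A ⊔ B) (hb : b ∈ A ⊔ B) (hK : PComp 2 K C[b]) (e : ⁅K, A⁆ ≤ Od(C[b])) :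
    ⁅K, th A B a ⊓ C[b]⁆ ≤ Od(C[b]) := by
  have h2 := odd_le (odd_core _) (inf_le_left.trans (h.th_le ha) : th A B a ⊓ C[b] ≤ _)
  have h3 : A ≤ N(th A B a ⊓ C[b]) :=
    le_sup_left.trans (normsI (h.nrm_th ha) (norms_of_le (h.el.ab.le_cen1 hb)))
  refine (commSS le_rfl (dec h2 h.pA h3 le_sup_left le_sup_right)).trans (comm_sup_le'
    ((sup_le (comm_le_left h3) inf_le_left).trans (inf_le_right.trans (pcore_nrm _ _))) ?_ ?_)
  · exact l1 hK (h.pz ha) ((zpowers_le.2 ha).trans (h.el.ab.le_cen1 hb))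
      (inf_le_inf_right _ ((cen_zpowers a).symm ▸ h.th_le ha)) (h.cA hb) e
  · exact (commSS le_rfl (le_inf ((inf_le_inf_right _ inf_le_left).trans (h.th_cen ha))
      (inf_le_left.trans inf_le_right))).trans (l2 hK h.pA (h.cA hb) e)

theorem bal (ha : a ∈ A ⊔ B) (hb : b ∈ A ⊔ B) (h1 : b ≠ 1) : th A B a ⊓ C[b] ≤ th A B b := by
  have h3 : A ⊔ B ≤ N(th A B a ⊓ C[b]) := normsI (h.nrm_th ha) (norms_of_le (h.el.ab.le_cen1 hb))
  have h5 : th A B a ⊓ C[b] ≤ Od(C[b]) := l0 (h.pz ha) ((zpowers_le.2 ha).trans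
    (h.el.ab.le_cen1 hb)) (inf_le_inf_right _ ((cen_zpowers a).symm ▸ h.th_le ha)) fun K hK =>
      (h.sep b hb h1 K hK).elim (h.bal0 ha hb hK) fun e =>
        th_comm A B ▸ h.symm.bal0 (sup_comm A B ▸ ha) (sup_comm A B ▸ hb) hK e
  exact le_inf (le_th1 h5 h.pA (le_sup_left.trans h3) ((inf_le_inf_right _ inf_le_left).trans
    (h.th_cen ha))) (le_th1 h5 h.symm.pA (le_sup_right.trans h3) ((inf_le_inf_right _
      inf_le_left).trans (th_comm A B ▸ h.symm.th_cen (sup_comm A B ▸ ha))))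

end CS
end


/-- Let A₁, A₂ be core-separated four-subgroups of the finite group G and A = A₁A₂. For a ∈ G put O_a = O(C_G(a)) and θ a = ⋂_{i=1,2} ( ⁅O_a, A_i⁆ · (O_a ∩ O(C_G(A_i))) ). Then θ is an A-signalizer functor for the prime 2. -/
theorem result {G : Type*} [Group G] [Finite G] (A₁ A₂ : Subgroup G) (hcs : Cfsg.IsCoreSeparated A₁ A₂) : Cfsg.IsSignalizerFunctor 2 (A₁ ⊔ A₂) (fun a => (⁅Cfsg.centralizerPPrimeCore 2 a, A₁⁆ ⊔ (Cfsg.centralizerPPrimeCore 2 a ⊓ ((Cfsg.oddCore ↥(Subgroup.centralizer ((A₁ : Subgroup G) : Set G))).map (Subgroup.centralizer ((A₁ : Subgroup G) : Set G)).subtype))) ⊓ (⁅Cfsg.centralizerPPrimeCore 2 a, A₂⁆ ⊔ (Cfsg.centralizerPPrimeCore 2 a ⊓ ((Cfsg.oddCore ↥(Subgroup.centralizer ((A₂ : Subgroup G) : Set G))).map (Subgroup.centralizer ((A₂ : Subgroup G) : Set G)).subtype)))) := by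
  obtain ⟨e1, e2, c1, c2, -, -, hc, hs⟩ := hcs
  have hp := Nat.prime_two
  have h : CS A₁ A₂ := ⟨e1, e2, Abelem.not_cyc_of_card e1 c1.ge, Abelem.not_cyc_of_card e2 c2.ge,
    fun y hy x hx => hc x hx y hy, fun a ha h1 K hK => by
      have := hs a ha h1 _ ((pcomp_iff hp).1 hK).2
      rwa [subgroupOf_map_subtype, inf_of_le_left hK.le, cenCore_eq hp] at this⟩
  simp only [cenCore_eq hp, oddCore_map]
  exact ⟨fun a ha _ => (h.th_le ha).trans (pcore_le _ _),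
    fun a ha _ => (odd_le (odd_core _) (h.th_le ha)).not_two_dvd_nat,
    fun a ha _ b hb x hx => conj_mem (h.nrm_th ha hb) hx, fun a ha _ b hb h1 => h.bal ha hb h1⟩


end Cfsg.Agent.S1330
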