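import Cfsg.Statements.S1331
import Mathlib
import Cfsg.Agent.H21.SigBasic

set_option autoImplicit false
open Cfsg

namespace Cfsg.Agent.S1331

open Cfsg.Agent.FT Cfsg.Agent.H21 Subgroup

/-- Let θ be a solvable A-signalizer functor on the finite group G for the prime p, A elementary abelian of rank at least 3, X a member of the family of θ, and B ≤ A with |B| ≥ p². Then X is generated by the subgroups X ∩ ⋂_{d ∈ D, d ≠ 1} θ d, D ranging over the subgroups of index p in B. -/
theorem result {G : Type*} [Group G] [Finite G] (p : ℕ) [Fact p.Prime] (A : Subgroup G) (hA : Cfsg.IsElementaryAbelian p A) (hA3 : p ^ 3 ≤ Nat.card ↥A) (θ : G → Subgroup G) (hθ : Cfsg.IsSolvableSignalizerFunctor p A θ) (X : Subgroup G) (hX : X ∈ Cfsg.signalizerFamily p A θ) (B : Subgroup G) (hB : B ≤ A) (hB2 : p ^ 2 ≤ Nat.card ↥B) : X = ⨆ D : {D : Subgroup G // D ≤ B ∧ D.relIndex B = p}, X ⊓ Cfsg.signalizerInf (D : Subgroup G) θ := by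
  have hp : p.Prime := Fact.out
  let σ := sigOf Fact.out hA (sq_le_of_cube_le Fact.out hA3) hθ
  have h : σ.Mem X := Sig.mem_iff.2 hX
  have hB' := Abelem.mono hA hB
  refine le_antisymm (coprime_abelem_gen_cent hp hB' (fun e => not_cyc_of_sq_le hp hB' hB2 (e ▸ cyc_bot))
    (hB.trans h.nrm) (h.cop hB) fun D h1 h2 => ?_) (iSup_le fun _ => inf_le_left)
  exact (le_inf inf_le_left (h.le_th (h1.trans hB))).trans
    (le_iSup (fun D : {D : Subgroup G // D ≤ B ∧ D.relIndex B = p} =>
      X ⊓ Cfsg.signalizerInf D.1 θ) ⟨D, h1, h2⟩)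

end Cfsg.Agent.S1331
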