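import Cfsg.Statements.S1335
import Mathlib
import Cfsg.Agent.H2.Balance3

set_option autoImplicit false
open Cfsg

namespace Cfsg.Agent.S1335

open Cfsg.Agent.FT Subgroup
open scoped commutatorElement

/-- Let H be a subgroup of the finite group G, p a prime, k ≥ 1, P a Sylow p-subgroup of H of p-rank at least k, and suppose N_G(X) ≤ H for every subgroup X ≤ P of p-rank at least k. Then P is a Sylow p-subgroup of G. -/
theorem result {G : Type*} [Group G] [Finite G] {p : ℕ} [Fact p.Prime] (k : ℕ) (hk : 1 ≤ k) (H : Subgroup G) (P : Sylow p ↥H) (hP : ¬ Cfsg.PRankLE p (k - 1) ↥(P : Subgroup ↥H)) (hΓ : (∀ X : Subgroup G, X ≤ (P : Subgroup ↥H).map H.subtype → ¬ Cfsg.PRankLE p (k - 1) ↥X → Subgroup.normalizer (X : Set G) ≤ H)) : ∃ Q : Sylow p G, (Q : Subgroup G) = (P : Subgroup ↥H).map H.subtype := by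
  have hp : p.Prime := Fact.out
  refine (syl_top_iff hp).1 ((syl_map_subtype hp P).syl_top_of_nrm_le (hΓ _ le_rfl fun e => hP fun A h1 h2 => ?_))
  have := e (A.map (subtypeEquiv (P : Subgroup H)).toMonoidHom) (Ab.map _ h1) (by
    rintro _ ⟨a, ha, rfl⟩; rw [← map_pow, h2 a ha, map_one])
  rwa [card_map_inj (subtypeEquiv (P : Subgroup H)).injective] at this

end Cfsg.Agent.S1335
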