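import Cfsg.Statements.S1336
import Mathlib
import Cfsg.Agent.H2.Misc

set_option autoImplicit false
open Cfsg

namespace Cfsg.Agent.S1336

open Cfsg.Agent.FT Subgroup
open scoped commutatorElement

/-- the edges of the commuting graph -/
def Ed {G : Type*} [Group G] (p : ℕ) (A B : Subgroup G) : Prop :=
  IsElementaryAbelian p A ∧ p ^ 1 ≤ #A ∧ IsElementaryAbelian p B ∧ p ^ 1 ≤ #B ∧ ∀ a ∈ A, ∀ b ∈ B, a * b = b * a

variable {G : Type*} [Group G] [Finite G] {p : ℕ} {A B S : Subgroup G}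

theorem symm (h : Relation.ReflTransGen (Ed p) A B) : Relation.ReflTransGen (Ed p) B A := by
  induction h with
  | refl => rfl
  | tail _ h ih => exact ih.head ⟨h.2.2.1, h.2.2.2.1, h.1, h.2.1, fun a ha b hb => (h.2.2.2.2 b hb a ha).symm⟩

theorem conj (h : Relation.ReflTransGen (Ed p) A B) (g : G) : Relation.ReflTransGen (Ed p) (cj g A) (cj g B) :=
  h.lift (cj g) fun A B h => ⟨Abelem.cj h.1 g, (card_cj g A).symm ▸ h.2.1, Abelem.cj h.2.2.1 g,
    (card_cj g B).symm ▸ h.2.2.2.1, fun a ha b hb =>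
      mem_cen.1 ((cj_cents.2 (show B ≤ C(A) from fun b hb => mem_cen.2 fun a ha => h.2.2.2.2 a ha b hb)) hb) a ha⟩

theorem conn (hp : p.Prime) (hS : PGrp p S) (hA : Abelem p A) (h1 : p ^ 1 ≤ #A) (hB : Abelem p B) (h2 : p ^ 1 ≤ #B)
    (hAS : A ≤ S) (hBS : B ≤ S) : Relation.ReflTransGen (Ed p) A B := by
  have hZ := abelem_Ohm_center p S
  have h3 : p ^ 1 ≤ #Ω[p](Z(S)) := (pow_one p).symm ▸ (hZ.pGrp hp).le_card (hS.Ohm_center_ne_bot
    (ne_bot_of_le hAS (ne_bot_of_one_lt_card (hp.one_lt.trans_le (pow_one p ▸ h1)))))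
  exact (Relation.ReflTransGen.single ⟨hA, h1, hZ, h3, fun a ha b hb => mem_cen.1 (Ohm_center_le_cen p hAS hb) a ha⟩).tail
    ⟨hZ, h3, hB, h2, fun a ha b hb => (mem_cen.1 (Ohm_center_le_cen p hBS ha) b hb).symm⟩

/-- Let G be finite and p prime. Then G has a proper subgroup H with p ∣ |H| and p ∤ |H ∩ gHg⁻¹| for every g ∉ H (a strongly p-embedded subgroup) if and only if G is not 1-connected for p. -/
theorem result {G : Type*} [Group G] [Finite G] (p : ℕ) [Fact p.Prime] : (∃ H : Subgroup G, H ≠ ⊤ ∧ p ∣ Nat.card ↥H ∧ ∀ g : G, g ∉ H → ¬ p ∣ Nat.card ↥(H ⊓ H.map (MulAut.conj g).toMonoidHom)) ↔ ¬ Cfsg.IsKConnected p 1 G := by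
  have hp : p.Prime := Fact.out
  change _ ↔ ¬ ∀ E E' : Subgroup G, _ → _ → _ → _ → Relation.ReflTransGen (Ed p) E E'
  constructor
  · rintro ⟨H, h1, h2, h3⟩ h
    obtain ⟨E, hE, e⟩ := exists_card_prime_le hp h2
    obtain ⟨g, -, hg⟩ := SetLike.not_le_iff_exists.1 (mt top_le_iff.1 h1)
    have h4 : ∀ B, Relation.ReflTransGen (Ed p) E B → B ≤ H := fun B hB => by
      induction hB with
      | refl => exact hE
      | tail _ h ih =>
        intro b hb
        by_contra hn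
        obtain ⟨a, ha, ho⟩ := (Abelem.pGrp h.1 hp).exists_elt
          (ne_bot_of_one_lt_card (hp.one_lt.trans_le (pow_one p ▸ h.2.1)))
        refine h3 b hn (ho ▸ orderOf_dvd_card' (H := H ⊓ cj b H) ⟨ih ha, mem_cj.2 ?_⟩)
        rw [mul_assoc, h.2.2.2.2 a ha b hb, inv_mul_cancel_left]; exact ih ha
    have hE' := abelem_of_card_prime hp e
    have h5 := h4 _ (h E (cj g E) hE' (by rw [e, pow_one]) (hE'.cj g) (by rw [card_cj, e, pow_one]))
    exact h3 g hg ((e.symm.trans (card_cj g E).symm).dvd.trans (card_dvd (le_inf h5 (cj_mono g hE))))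
  · intro h
    push Not at h
    obtain ⟨E, E', hE, h1, hE', h2, h⟩ := h
    let H : Subgroup G :=
      { carrier := {g | Relation.ReflTransGen (Ed p) E (cj g E)}
        mul_mem' := fun {a b} ha hb => ha.trans (cj_cj a b E ▸ conj hb a)
        one_mem' := by rw [Set.mem_setOf_eq, cj_one]
        inv_mem' := fun {a} ha => symm (by simpa only [cj_inv_cj] using conj ha a⁻¹) }
    have hH : ∀ g, g ∈ H ↔ Relation.ReflTransGen (Ed p) E (cj g E) := fun _ => Iff.rfl
    obtain ⟨S, hS, hES⟩ := (Abelem.pGrp hE hp).exists_syl le_top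
    have hSH : S ≤ H := fun s hs => (hH s).2
      (conn hp hS.pi hE h1 (Abelem.cj hE s) ((card_cj s E).symm ▸ h1) hES (cj_le_of_mem hs hES))
    have key : ∀ X, Abelem p X → p ^ 1 ≤ #X → ∀ g ∈ H, cj g X ≤ S → Relation.ReflTransGen (Ed p) E X :=
      fun X hX h3 g hg h4 => ((hH _).1 (inv_mem hg)).trans (by
        simpa only [cj_inv_cj] using conj (conn hp hS.pi hE h1 (hX.cj g) ((card_cj g X).symm ▸ h3) hES h4) g⁻¹)
    refine ⟨H, fun e => ?_, ((Abelem.pGrp hE hp).dvd_of_le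
      (ne_bot_of_one_lt_card (hp.one_lt.trans_le (pow_one p ▸ h1))) (hES.trans hSH)), fun g hg h3 => hg ?_⟩
    · obtain ⟨g, -, hg⟩ := hS.syl_Jsub (Abelem.pGrp hE' hp) le_top
      exact h (key E' hE' h2 g (e.ge (mem_top g)) hg)
    · obtain ⟨X, hX, e⟩ := exists_card_prime_le hp h3
      have h4 : ∀ X, X ≤ H → #X = p → Relation.ReflTransGen (Ed p) E X := fun X hX e => by
        obtain ⟨u, hu, h5⟩ := (hS.subl hSH le_top).syl_Jsub (pGrp_of_card_prime hp e) hX
        exact key X (abelem_of_card_prime hp e) (by rw [e, pow_one]) u hu h5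
      have h5 := conj (h4 _ (le_cj_iff.1 (hX.trans inf_le_right)) ((card_cj _ _).trans e)) g
      rw [cj_cj_inv] at h5
      exact (h4 X (hX.trans inf_le_left) e).trans (symm h5)

end Cfsg.Agent.S1336
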