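import Cfsg.Statements.S1338
import Mathlib
import Cfsg.Agent.H19.Conn

set_option autoImplicit false
open Cfsg

namespace Cfsg.Agent.S1338

open Cfsg.Agent.H19


/-- A finite 3-group of 3-rank at least 4 is 2-connected for the prime 3: its commuting graph on elementary abelian subgroups of order ≥ 9 is connected. -/
theorem result {P : Type*} [Group P] [Finite P] (hP : IsPGroup 3 P) (hrk : ¬ Cfsg.PRankLE 3 3 P) : Cfsg.IsKConnected 3 2 P := by
  haveI : Fact (Nat.Prime 3) := ⟨Nat.prime_three⟩
  obtain ⟨U, hn, hU, hc⟩ := Conn.exU hP fun h => hrk (H3.pRankLE_mono h (by norm_num))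
  intro E E' hE h2 hE' h2'
  have h1 := Conn.path hP hU hc hE h2 (Conn.three hP hrk hE h2)
  have h3 := Conn.path hP hU hc hE' h2' (Conn.three hP hrk hE' h2')
  refine h1.trans ?_
  have : ∀ X Y : Subgroup P, Relation.ReflTransGen (Conn.Adj 3) X Y → Relation.ReflTransGen (Conn.Adj 3) Y X := by
    intro X Y h
    induction h with
    | refl => exact .refl
    | tail _ h ih => exact .head ⟨h.2.2.1, h.2.2.2.1, h.1, h.2.1, fun a ha b hb => (h.2.2.2.2 b hb a ha).symm⟩ ih
  exact this _ _ h3

end Cfsg.Agent.S1338
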