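import Cfsg.Statements.S1343
import Mathlib
import Cfsg.Agent.H2.Balance2

set_option autoImplicit false
open Cfsg

namespace Cfsg.Agent.S1343

open Cfsg.Agent.FT Subgroup
open scoped commutatorElement

/-- Let X be finite. Then L*_{2'}(X) = L_{2'}(X) ⊔ F for some subgroup F of odd order normalized by a Sylow 2-subgroup of X. -/
theorem result {X : Type*} [Group X] [Finite X] : ∃ F : Subgroup X, Odd (Nat.card ↥F) ∧ (∃ S : Sylow 2 X, (S : Subgroup X) ≤ Subgroup.normalizer (F : Set X)) ∧ Cfsg.extendedTwoLayer X = Cfsg.pLayer 2 X ⊔ F := by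
  have hp := Nat.prime_two
  obtain ⟨S'⟩ : Nonempty (Sylow 2 X) := inferInstance
  have hS := syl_top hp S'
  have hT := hS.inf_nml (pgfit_nml 2 ⊤)
  have h1 : (S' : Subgroup X) ≤ N(S' ⊓ pgfit 2 (⊤ : Subgroup X)) :=
    normsI (le_nrm _) (le_top.trans (pgfit_nml 2 ⊤).nrm)
  refine ⟨O[{2}ᶜ]((⊤ : Subgroup X)) ⊔ O[{2}ᶜ](⊤ ⊓ C(S' ⊓ pgfit 2 (⊤ : Subgroup X))), odd_iff_piGrp.2
    ((pcore_pi _ _).sup (pcore_pi _ _) (le_top.trans (pcore_nrm _ _))),
    ⟨S', normsY (le_top.trans (pcore_nrm _ _)) (norms_pcore _ (norms_subcent ?_ h1))⟩, ?_⟩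
  · rw [nrm_top]; exact le_top
  · rw [← xplay_top, xplay_eq_of_syl hp hT, play_top hp, sup_assoc]

end Cfsg.Agent.S1343
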