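import Cfsg.Statements.S1347
import Mathlib
import Cfsg.Agent.H2.Pump

set_option autoImplicit false
open Cfsg

namespace Cfsg.Agent.S1347

open Cfsg.Agent.FT Subgroup
open scoped commutatorElement

/-- Let A be a standard subgroup of the finite group G with O(G) = 1, and t an involution of C_G(A). Then (i) A is normal in G; or (ii) there is a non-abelian simple subgroup X ≅ A with X and tXt⁻¹ commuting, meeting trivially and generating E(G), and C_G(A) = ⟨t⟩; or (iii) A ≤ E(G) and E(G) is non-abelian simple. -/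
theorem result {G : Type*} [Group G] [Finite G] (A : Subgroup G) (hA : Cfsg.IsStandardSubgroup A) (hO : Cfsg.oddCore G = ⊥) (t : G) (ht : orderOf t = 2) (htA : t ∈ Subgroup.centralizer (A : Set G)) : A.Normal ∨ (∃ X : Subgroup G, IsSimpleGroup ↥X ∧ ¬ IsMulCommutative ↥X ∧ Nonempty (↥X ≃* ↥A) ∧ (∀ a ∈ X, ∀ b ∈ X.map (MulAut.conj t).toMonoidHom, a * b = b * a) ∧ X ⊓ X.map (MulAut.conj t).toMonoidHom = ⊥ ∧ X ⊔ X.map (MulAut.conj t).toMonoidHom = Cfsg.layer G ∧ Subgroup.centralizer (A : Set G) = Subgroup.zpowers t) ∨ (A ≤ Cfsg.layer G ∧ IsSimpleGroup ↥(Cfsg.layer G) ∧ ¬ IsMulCommutative ↥(Cfsg.layer G)) := by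
  have hp := Nat.prime_two
  have hq : Qs A := hA.1
  have hO' : O[{2}ᶜ]((⊤ : Subgroup G)) = ⊥ := (p'core_top hp).trans hO
  have hodd : ∀ X, X ⊴ (⊤ : Subgroup G) → PiGrp {2}ᶜ X → X = ⊥ := fun X h1 h2 => eq_bot_of_le (pcore_max h2 h1) hO'
  have h1 : Comp A (⊤ ⊓ C[t]) := by rw [top_inf_eq]; exact std_comp hA ht htA
  have h2 : A ≤ E((⊤ : Subgroup G)) := h1.le_lay.trans (by
    rw [← cen_zpowers]; exact lay_balance (play_eq_lay hO').le (pGrp_zpowers hp ht) (le_nrm_top _))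
  have key : ∀ X, A ≤ X → Subn X ⊤ → X ≤ E((⊤ : Subgroup G)) → ¬ X ≤ N(A) → X = E((⊤ : Subgroup G)) ∧ C(X) = ⊥ := by
    intro X h3 h4 h5 h6
    have h7 : PiGrp {2}ᶜ C(X) := by_contra fun e => by
      obtain ⟨y, hy, hy2⟩ := exists_inv_of_not_odd e
      exact h6 ((le_cen1.2 hy).trans (std_cen_le hA hy2 (cen_anti h3 hy)))
    have h8 : X = E((⊤ : Subgroup G)) := le_antisymm h5 (lay_le_iff.2 fun K hK =>
      (hK.le_or_cents h4).resolve_right fun e => hK.qs.not_odd (h7.mono e))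
    exact ⟨h8, hodd _ ⟨le_top, norms_cent (h8 ▸ lay_nrm ⊤)⟩ h7⟩
  obtain ⟨D, hD, h⟩ := h1.pumpup h2 hp ht (le_nrm_top ⊤ trivial)
  rcases h with rfl | h | ⟨hd, hn, rfl⟩
  · exact Or.inl (std_normal hA hD.subn)
  · refine or_iff_not_imp_left.2 fun hn => Or.inr ?_
    obtain ⟨h3, h4⟩ := key D h.1.le hD.subn hD.le_lay fun e => hn (std_normal hA ((Nml.subn ⟨h.1.le, e⟩).trans hD.subn))
    rw [← lay_top, ← h3]
    exact ⟨h.1.le, hD.qs.isSimpleGroup (by rw [h4, inf_bot_eq]), hD.qs.not_ab⟩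
  refine Or.inr (Or.inl ?_)
  have hle := hd.diag_le
  obtain ⟨h3, h4⟩ := key _ (hle.trans inf_le_left) (hD.subn.orbs (le_nrm_top _)) (hD.orbs_le_lay (le_nrm_top _)) fun e =>
    hn (cents_norm le_rfl (le_cen1.1 ((hd.le_comm hD.perf).trans ((comm_le_right ((le_orbs _ D).trans e)).trans
      (hle.trans inf_le_right)))))
  have hc : cj t D ≤ C(D) := by simpa using hd.cen 1 one_pos one_lt_two
  have h5 : Z(D) = ⊥ := by
    rw [orbs_two ht] at h4
    exact eq_bot_of_le (centsY inf_le_right (inf_le_left.trans (centsC hc))) h4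
  have h6 : ∀ u ∈ C(hd.diag), u ∈ N(D) → u = 1 := fun u hu hu' => by
    have a1 : u ∈ C(D) := zpowers_le.1 (hd.cents hD.perf (zpowers_le.2 hu') (zpowers_le.2 hu))
    exact mem_bot.1 (h4 ▸ cen_anti hd.orbs_le_two ((cen_sup _ _).ge ⟨a1, hu⟩))
  refine ⟨D, hD.qs.isSimpleGroup h5, hD.qs.not_ab, ⟨hd.equiv (eq_bot_of_le (le_inf (pker_le _) hd.pker_le) h5)⟩,
    fun a ha b hb => mem_cen.1 (hc hb) a ha, eq_bot_of_le (inf_le_inf_left D hc) h5, ?_,
    le_antisymm (fun u hu => ?_) (zpowers_le.2 htA)⟩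
  · rw [← cj_def, ← orbs_two ht, h3, lay_top]
  · obtain ⟨i, -, e⟩ := hD.cj_eq_of_cents_diag hd (le_nrm_top ⊤ trivial) (le_nrm_top ⊤ trivial) hu
    have := h6 _ (mul_mem (inv_mem (pow_mem htA i)) hu) (cj_eq_cj_iff.1 e)
    rw [inv_mul_eq_one] at this
    exact this ▸ pow_mem (mem_zpowers t) i

end Cfsg.Agent.S1347
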