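import Cfsg.Statements.S1348
import Cfsg.Agent.H10.SL
import Cfsg.Agent.H2.Quasisimple
import Cfsg.Agent.L0.SL2Conj
-- import your own Cfsg.Agent.* helpers here

set_option autoImplicit false
open Cfsg

namespace Cfsg.Agent.S1348

open Subgroup Matrix

theorem std {G : Type*} [Group G] [Finite G] {L : Subgroup G} {t : G} (hq : IsQuasisimple L)
    (ht : t * t = 1) (h1 : t ≠ 1) (htC : t ∈ centralizer (L : Set G))
    (hu : ∀ g ∈ centralizer (L : Set G), g * g = 1 → g ≠ 1 → g = t)
    (hc : ∀ x ∈ centralizer (L : Set G), ∀ y ∈ centralizer (L : Set G), x * y = y * x)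
    (hN : centralizer {t} ≤ normalizer (L : Set G)) : IsStandardSubgroup L := by
  have o : orderOf t = 2 := orderOf_eq_prime (by rw [sq, ht]) h1
  have n1 : normalizer (L : Set G) ≤ normalizer (centralizer (L : Set G) : Set G) := by
    have k : ∀ g ∈ normalizer (L : Set G), ∀ x ∈ centralizer (L : Set G),
        g * x * g⁻¹ ∈ centralizer (L : Set G) := fun g hg x hx y hy => by
      have := hx _ ((mem_normalizer_iff.1 (inv_mem hg) y).1 hy)
      rw [inv_inv] at this
      calc y * (g * x * g⁻¹) = g * (g⁻¹ * y * g * x) * g⁻¹ := by group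
        _ = _ := by rw [this]; group
    refine fun g hg => mem_normalizer_iff.2 fun x => ⟨k g hg x, fun h => ?_⟩
    have := k _ (inv_mem hg) _ h
    rwa [show g⁻¹ * (g * x * g⁻¹) * g⁻¹⁻¹ = x by group] at this
  have cj : ∀ g : G, g * t * g⁻¹ ∈ centralizer (L : Set G) → g ∈ centralizer {t} := fun g h => by
    have := hu _ h (by rw [show g * t * g⁻¹ * (g * t * g⁻¹) = g * (t * t) * g⁻¹ by group, ht]; group)
      (by simpa using h1)
    rw [mem_centralizer_singleton_iff, ← mul_inv_eq_iff_eq_mul, this]
  refine ⟨hq, ⟨?_, fun g hg => ?_⟩, fun g _ h => ?_, le_antisymm n1 fun g hg =>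
    hN (cj g ((mem_normalizer_iff.1 hg t).1 htC))⟩
  · exact even_iff_two_dvd.2 (o ▸ orderOf_dvd_natCard _ htC)
  · refine Nat.not_even_iff_odd.1 fun h => hg ?_
    obtain ⟨⟨x, hx, y, hy, e⟩, h2⟩ := exists_prime_orderOf_dvd_card' 2 (even_iff_two_dvd.1 h)
    rw [← orderOf_coe] at h2
    have hx2 : x * x = 1 := by rw [← sq, ← h2, pow_orderOf_eq_one]
    have hx1 : x ≠ 1 := fun r => by simp [r] at h2
    have e' : g * y * g⁻¹ = x := e
    have : y = t := hu y hy (by
      rw [show y * y = g⁻¹ * (g * y * g⁻¹ * (g * y * g⁻¹)) * g by group, e', hx2]; group)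
      fun r => hx1 (by rw [← e', r]; group)
    exact n1 (hN (cj g (by rw [← this, e']; exact hx)))
  · rw [commutator_comm, commutator_eq_bot_iff_le_centralizer] at h
    have := H2.isQuasisimple_nontrivial hq
    have b : commutator L = ⊥ := (commutator_eq_bot_iff L).2 ⟨⟨fun a b => Subtype.ext ?_⟩⟩
    · exact top_ne_bot (hq.1.1.symm.trans b)
    have := hc _ (h ⟨_, a.2, rfl⟩) _ (h ⟨_, b.2, rfl⟩)
    rw [← map_mul, ← map_mul] at this
    exact (MulAut.conj g).injective this

section
variable {ι F : Type*} [Fintype ι] [DecidableEq ι] [Field F] (l : ι)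

def emb : SpecialLinearGroup {i // i ≠ l} F →* SpecialLinearGroup ι F where
  toFun A := ⟨(fromBlocks A.1 0 0 1).submatrix (Equiv.sumCompl (· ≠ l)).symm
    (Equiv.sumCompl (· ≠ l)).symm, by rw [det_submatrix_equiv_self, det_fromBlocks_zero₂₁]; simp⟩
  map_one' := Subtype.ext (by simp)
  map_mul' A B := Subtype.ext (by
    show _ = submatrix _ _ _ * submatrix _ _ _
    simp [submatrix_mul_equiv, fromBlocks_multiply])

theorem emb_ap (A : SpecialLinearGroup {i // i ≠ l} F) (i j : ι) : emb l A i j = if hi : i ≠ l then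
    if hj : j ≠ l then A ⟨i, hi⟩ ⟨j, hj⟩ else 0 else if j ≠ l then 0 else 1 := by
  show (fromBlocks A.1 0 0 1) ((Equiv.sumCompl (· ≠ l)).symm i)
    ((Equiv.sumCompl (· ≠ l)).symm j) = _
  split_ifs with hi hj hj
  · rw [Equiv.sumCompl_symm_apply_of_pos (p := (· ≠ l)) hi, Equiv.sumCompl_symm_apply_of_pos (p := (· ≠ l)) hj]; rfl
  · rw [Equiv.sumCompl_symm_apply_of_pos (p := (· ≠ l)) hi, Equiv.sumCompl_symm_apply_of_neg (p := (· ≠ l)) hj]; rfl
  · rw [Equiv.sumCompl_symm_apply_of_neg (p := (· ≠ l)) hi, Equiv.sumCompl_symm_apply_of_pos (p := (· ≠ l)) hj]; rfl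
  · rw [Equiv.sumCompl_symm_apply_of_neg (p := (· ≠ l)) hi, Equiv.sumCompl_symm_apply_of_neg (p := (· ≠ l)) hj]
    obtain rfl := not_not.1 hi
    obtain rfl := not_not.1 hj
    exact one_apply_eq _

def Blk (M : SpecialLinearGroup ι F) : Prop := ∀ i ≠ l, M i l = 0 ∧ M l i = 0

theorem emb_inj : Function.Injective (emb (F := F) l) := fun A B h => by
  ext i j
  have := congrArg (fun M : SpecialLinearGroup ι F => M i.1 j.1) h
  simpa [emb_ap, i.2, j.2] using this

theorem mem_emb {M : SpecialLinearGroup ι F} : M ∈ (emb l).range ↔ Blk l M ∧ M l l = 1 := by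
  constructor
  · rintro ⟨A, rfl⟩
    refine ⟨fun i hi => ?_, ?_⟩ <;> simp [emb_ap, *]
  rintro ⟨hB, h1⟩
  have d := twoBlockTriangular_det M.1 (· ≠ l) fun i hi j hj => by
    rw [not_not.1 hi]; exact (hB j hj).2
  have u : toSquareBlockProp M.1 (fun i => ¬ i ≠ l) = 1 := by
    ext ⟨i, hi⟩ ⟨j, hj⟩
    obtain rfl := not_not.1 hi
    obtain rfl := not_not.1 hj
    simpa [toSquareBlockProp_def] using h1
  rw [u, det_one, mul_one, M.2] at d
  refine ⟨⟨_, d.symm⟩, ?_⟩
  ext i j
  refine (emb_ap l _ i j).trans ?_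
  split_ifs with hi hj hj
  · rfl
  · rw [not_not.1 hj, (hB i hi).1]
  · rw [not_not.1 hi, (hB j hj).2]
  · rw [not_not.1 hi, not_not.1 hj, h1]

variable {l} {t : SpecialLinearGroup ι F} (h2 : (2 : F) ≠ 0)
  (ht : t.1 = diagonal fun i => if i = l then 1 else -1)
include h2 ht

theorem mem_c {M : SpecialLinearGroup ι F} : M ∈ centralizer {t} ↔ Blk l M := by
  rw [mem_centralizer_singleton_iff, Matrix.SpecialLinearGroup.ext_iff]
  simp only [Matrix.SpecialLinearGroup.coe_mul, ht, mul_diagonal, diagonal_mul]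
  refine ⟨fun h i hi => ⟨?_, ?_⟩, fun h i j => ?_⟩
  · have := h i l
    simp only [hi, if_true, if_false] at this
    exact (mul_eq_zero.1 (by linear_combination this : 2 * M i l = 0)).resolve_left h2
  · have := h l i
    simp only [hi, if_true, if_false] at this
    exact (mul_eq_zero.1 (by linear_combination -this : 2 * M l i = 0)).resolve_left h2
  · by_cases hi : i = l <;> by_cases hj : j = l <;> simp [h _, *]

def phi : centralizer {t} →* Fˣ := MonoidHom.toHomUnits
  { toFun M := M.1 l l
    map_one' := by simp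
    map_mul' A B := by
      simp only [Subgroup.coe_mul, Matrix.SpecialLinearGroup.coe_mul, mul_apply]
      exact Finset.sum_eq_single l (fun i _ hi => by rw [(((mem_c h2 ht).1 A.2) i hi).2, zero_mul])
        (by simp) }

theorem ker_phi : (phi h2 ht).ker = (emb l).range.subgroupOf _ := by
  ext M
  rw [MonoidHom.mem_ker, mem_subgroupOf, mem_emb, Units.ext_iff]
  exact ⟨fun h => ⟨(mem_c h2 ht).1 M.2, h⟩, fun h => h.2⟩

theorem main (h3 : 4 ≤ Fintype.card ι) (ho : Odd (Fintype.card ι)) [Finite F] :
    IsStandardSubgroup ((layer (centralizer {t})).map (centralizer {t}).subtype) := by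
  have c3 : 3 ≤ Fintype.card {i // i ≠ l} := by simp; omega
  have le : (emb l).range ≤ centralizer {t} := fun M h => (mem_c h2 ht).2 ((mem_emb l).1 h).1
  have q : IsQuasisimple (emb (F := F) l).range := H2.isQuasisimple_of_equiv
    (MonoidHom.ofInjective (emb_inj l)) ⟨⟨H10.commutator_SL_eq_top c3⟩, H10.isSimpleGroup_PSL c3⟩
  have e : layer (centralizer {t}) = (phi h2 ht).ker := le_antisymm (sSup_le fun K hK k hk => by
      have := Abelianization.commutator_subset_ker ((phi h2 ht).comp K.subtype)
      rw [hK.2.1.1] at this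
      exact this (mem_top ⟨k, hk⟩))
    (le_sSup ⟨(MonoidHom.normal_ker _).isSubnormal, by
      rw [ker_phi]; exact H2.isQuasisimple_of_equiv (subgroupOfEquivOfLe le).symm q⟩)
  rw [e, ker_phi, subgroupOf_map_subtype, inf_eq_left.2 le]
  have tt : t * t = 1 := Subtype.ext (by
    rw [Matrix.SpecialLinearGroup.coe_mul, ht, diagonal_mul_diagonal]
    ext i j; by_cases h : i = j <;> simp [h, diagonal_apply, one_apply]; split_ifs <;> simp)
  have tL : t ∈ (emb l).range := (mem_emb l).2 ⟨(mem_c h2 ht).1 (mem_centralizer_singleton_iff.2 rfl),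
    by simp [ht]⟩
  have tr : ∀ g ∈ centralizer ((emb (F := F) l).range : Set (SpecialLinearGroup ι F)), ∀ i ≠ l,
      ∀ j ≠ l, i ≠ j → ∀ a, g a i = if a = i then g j j else 0 := fun g hg i hi j hj hij a => by
    have := hg (SpecialLinearGroup.transvection hij 1) ((mem_emb l).2 ⟨fun k hk => by
      simp [SpecialLinearGroup.transvection_coe, hk, hk.symm, hi, hj], by
      simp [SpecialLinearGroup.transvection_coe, hi]⟩)
    have := congrArg (fun M : SpecialLinearGroup ι F => M a j) this
    simp only [Matrix.SpecialLinearGroup.coe_mul, SpecialLinearGroup.transvection_coe, add_mul,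
      mul_add, one_mul, mul_one, Matrix.add_apply, add_right_inj, mul_single_apply_same] at this
    rw [← this]
    split_ifs with h
    · rw [h, single_mul_apply_same, one_mul]
    · exact single_mul_apply_of_ne _ _ _ _ _ h _
  have dg : ∀ g ∈ centralizer ((emb (F := F) l).range : Set (SpecialLinearGroup ι F)),
      g.1 = diagonal fun i => g i i := fun g hg => by
    have b := (mem_c h2 ht).1 (mem_centralizer_singleton_iff.2 (hg t tL).symm)
    ext a i
    by_cases h : a = i
    · simp [h]
    rw [diagonal_apply_ne _ h]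
    by_cases hi : i = l
    · subst hi; exact (b a h).1
    obtain ⟨k, k1, k2⟩ := H10.exists_third (i := i) (j := l) (by omega)
    rw [tr g hg i hi k k2 k1.symm, if_neg h]
  obtain ⟨k, hk, -⟩ := H10.exists_third (i := l) (j := l) (by omega)
  refine std q tt (fun r => h2 ?_) (fun M h => mem_centralizer_singleton_iff.1 (le h))
    (fun g hg gg g1 => ?_) (fun x hx y hy => Subtype.ext ?_) fun g hg => ?_
  · have := congrFun (congrFun ht k) k
    simp only [r, diagonal_apply_eq, hk, if_false, Matrix.SpecialLinearGroup.coe_one,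
      one_apply_eq] at this
    linear_combination this
  · have sc : ∀ i ≠ l, g i i = g k k := fun i hi => by
      by_cases h : i = k
      · rw [h]
      · rw [tr g hg i hi k hk h, if_pos rfl]
    have s2 : g k k * g k k = 1 := by
      have := congrArg (fun M : SpecialLinearGroup ι F => M k k) gg
      simp only [Matrix.SpecialLinearGroup.coe_mul] at this
      rw [dg g hg, diagonal_mul_diagonal] at this
      simpa using this
    have d := g.2
    rw [dg g hg, det_diagonal, ← Finset.mul_prod_erase _ _ (Finset.mem_univ l),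
      Finset.prod_congr rfl fun i hi => sc i (Finset.ne_of_mem_erase hi), Finset.prod_const,
      Finset.card_erase_of_mem (Finset.mem_univ l), Finset.card_univ] at d
    obtain ⟨m, hm⟩ := ho
    rw [hm, Nat.add_sub_cancel, pow_mul, sq, s2, one_pow, mul_one] at d
    rcases mul_self_eq_one_iff.1 s2 with r | r
    · refine absurd (Subtype.ext ?_) g1
      rw [dg g hg, Matrix.SpecialLinearGroup.coe_one, ← diagonal_one]
      congr 1; ext i
      by_cases h : i = l
      · rw [h, d]
      · rw [sc i h, r]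
    · refine Subtype.ext ?_
      rw [dg g hg, ht]
      congr 1; ext i
      split_ifs with h
      · rw [h, d]
      · rw [sc i h, r]
  · rw [Matrix.SpecialLinearGroup.coe_mul, Matrix.SpecialLinearGroup.coe_mul, dg x hx, dg y hy,
      diagonal_mul_diagonal, diagonal_mul_diagonal]
    simp only [mul_comm]
  · have := (MonoidHom.normal_ker (phi h2 ht))
    rw [ker_phi] at this
    exact (normal_subgroupOf_iff_le_normalizer le).1 this hg

end


/-- Let F be a finite field of odd order, n ≥ 7 odd, and t ∈ SL(n, F) the diagonal matrix with entries −1, …, −1, 1. Then E(C(t)) is a standard subgroup of SL(n, F). -/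
theorem result {F : Type*} [Field F] [Fintype F] [DecidableEq F] (hF : Odd (Fintype.card F)) (n : ℕ) (hn : 7 ≤ n) (hodd : Odd n) (t : Matrix.SpecialLinearGroup (Fin n) F) (ht : (t : Matrix (Fin n) (Fin n) F) = Matrix.diagonal (fun i : Fin n => if (i : ℕ) + 1 = n then (1 : F) else -1)) : Cfsg.IsStandardSubgroup ((Cfsg.layer ↥(Subgroup.centralizer ({t} : Set (Matrix.SpecialLinearGroup (Fin n) F)))).map (Subgroup.centralizer ({t} : Set (Matrix.SpecialLinearGroup (Fin n) F))).subtype) := by
  obtain ⟨m, rfl⟩ : ∃ m, n = m + 1 := ⟨n - 1, by omega⟩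
  refine main (l := Fin.last m) (L0.two_ne_zero_of_odd hF) ?_ (by simp; omega) (by simpa using hodd)
  rw [ht]; congr 1; ext i
  simp [Fin.ext_iff]


end Cfsg.Agent.S1348
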