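import Cfsg.Statements.S1363
import Mathlib
import Cfsg.Agent.FT.BG14d

set_option autoImplicit false
open Cfsg

namespace Cfsg.Agent.S1363

/-- Let G be a minimal simple group of odd order and M a maximal subgroup with standard factorisation M = K U M_σ and K ≠ 1. Then U is abelian and the normalizer of U in G is not contained in M. -/
theorem result {G : Type*} [Group G] [Finite G] (hG : Cfsg.IsMinSimpleOddOrder G)
    (M : Subgroup G) (hM : IsCoatom M) (K U : Subgroup G) (hKU : Cfsg.IsSigmaDecomposition M K U) (hK1 : K ≠ ⊥) :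
    IsMulCommutative U ∧ ¬ Subgroup.normalizer (U : Set G) ≤ M := by
  haveI : FT.FTG G := ⟨hG⟩
  have h := (FT.kappaCompl_iff hM).2 hKU
  refine ⟨FT.kappa_compl_abelian hM h hK1, fun hN => ?_⟩
  have hP := (FT.nontrivg_kappa hM h.hK).1 hK1
  by_cases hU : U = ⊥
  · rw [hU, FT.nrm_bot] at hN
    exact hM.1 (top_le_iff.1 hN)
  · have h2 := hP.p1_or_p2.resolve_left fun e => hU ((FT.trivg_kappa_compl hM h).2 e)
    obtain ⟨L, hL⟩ := FT.Ptype_embedding hP h.hK
    obtain ⟨r, hr, hd⟩ := FT.exists_prime_dvd_card hU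
    obtain ⟨R, hR⟩ := FT.exists_syl r U
    obtain ⟨H, hH, hRH⟩ := FT.u_ex_mmax_nrm hR.pi (hR.ne_bot rfl ⟨hr, hd⟩)
    exact (FT.P2type_signalizer h h2 hL.typePst.max hL.uniq_cent hR hH hRH).2.2.2.1 (inf_le_right.trans hN)

end Cfsg.Agent.S1363
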