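import Cfsg.Statements.S1365
import Mathlib
import Cfsg.Agent.FT.BG14d

set_option autoImplicit false
open Cfsg

namespace Cfsg.Agent.S1365

/-- Let G be a minimal simple group of odd order and M a maximal subgroup with standard factorisation M = K U M_σ and K ≠ 1. Then the derived subgroup of M is generated by U and M_σ, and M_σ ∩ C_G(K) is contained in the second derived subgroup of M. -/
theorem result {G : Type*} [Group G] [Finite G] (hG : Cfsg.IsMinSimpleOddOrder G)
    (M : Subgroup G) (hM : IsCoatom M) (K U : Subgroup G) (hKU : Cfsg.IsSigmaDecomposition M K U) (hK1 : K ≠ ⊥) :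
    ⁅M, M⁆ = U ⊔ Cfsg.sigmaCore M ∧ (Cfsg.sigmaCore M ⊓ Subgroup.centralizer (K : Set G)) ≤ ⁅⁅M, M⁆, ⁅M, M⁆⁆ := by
  haveI : FT.FTG G := ⟨hG⟩
  have h := (FT.kappaCompl_iff hM).2 hKU
  have hP := (FT.nontrivg_kappa hM h.hK).1 hK1
  obtain ⟨L, hL⟩ := FT.Ptype_embedding hP h.hK
  refine ⟨(FT.Ptype_der1 hP h).trans (sup_comm _ _), le_trans ?_ (FT.coprime_der1_sdprod hL.der ?_
    ((FT.mmax_sol hM).mono (FT.der_le M)) le_rfl).2⟩
  · exact inf_le_inf_right _ ((FT.Ptype_der1 hP h).ge.trans' le_sup_left)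
  · have := h.hK.coprime
    rw [hL.der.relIndex_right] at this
    exact this.symm

end Cfsg.Agent.S1365
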