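import Cfsg.Statements.S1374
import Mathlib
import Cfsg.Agent.FT.BG14d

set_option autoImplicit false
open Cfsg

namespace Cfsg.Agent.S1374

/-- Let G be a minimal simple group of odd order, M a maximal subgroup and x a non-identity element of M_σ. Then C_M(x) has order coprime to its index in C_G(x), and C_G(x) has a normal subgroup R complementing C_M(x) such that for every conjugate gMg⁻¹ containing x there is exactly one r ∈ R with rMr⁻¹ = gMg⁻¹. -/
theorem result {G : Type*} [Group G] [Finite G] (hG : Cfsg.IsMinSimpleOddOrder G)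
    (M : Subgroup G) (hM : IsCoatom M) (x : G) (hx : x ∈ Cfsg.sigmaCore M) (hx1 : x ≠ 1) :
    (Nat.card ↥(M ⊓ Subgroup.centralizer ({x} : Set G))).Coprime ((M ⊓ Subgroup.centralizer ({x} : Set G)).relIndex (Subgroup.centralizer ({x} : Set G))) ∧
      ∃ R : Subgroup G, Subgroup.centralizer ({x} : Set G) ≤ Subgroup.normalizer (R : Set G) ∧ Cfsg.IsComplIn (M ⊓ Subgroup.centralizer ({x} : Set G)) R (Subgroup.centralizer ({x} : Set G)) ∧
        ∀ g : G, x ∈ M.map (MulAut.conj g).toMonoidHom → ∃! r : G, r ∈ R ∧ M.map (MulAut.conj r).toMonoidHom = M.map (MulAut.conj g).toMonoidHom := by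
  haveI : FT.FTG G := ⟨hG⟩
  have hs : FT.SigMax x M := ⟨hM, hx⟩
  have h := FT.FT_signalizer_sdprod hx1 hs
  refine ⟨?_, FT.sigR x, h.nml.nrm, h.isComplIn', fun g hg => ?_⟩
  · have := (FT.FT_signalizer_Hall ⟨hx1, M, hs⟩).cop
    rw [h.relIndex_left] at this
    rw [h.relIndex_right]
    exact this.symm
  · have hg' : FT.SigMax x (FT.cj g M) := ⟨FT.isCoatom_cj.2 hM, by
      have h1 := FT.Msigma_Hall (FT.isCoatom_cj.2 hM : IsCoatom (FT.cj g M))
      refine h1.mem_of_nml (FT.Msigma_nml _).nrm hg ?_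
      rw [FT.sigmaJ]; exact hs.piElt⟩
    obtain ⟨r, hr, e⟩ := FT.FT_signalizer_trans hx1 hs hg'
    exact ⟨r, ⟨hr, e⟩, fun s h2 => FT.FT_signalizer_sharp hx1 hs h2.1 hr (h2.2.trans e.symm)⟩

end Cfsg.Agent.S1374
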