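import Cfsg.Statements.S1375
import Mathlib
import Cfsg.Agent.FT.BG14d

set_option autoImplicit false
open Cfsg

namespace Cfsg.Agent.S1375

/-- Let G be a minimal simple group of odd order, M a maximal subgroup, x ≠ 1 in M_σ with C_G(x) not contained in M. Then exactly one maximal subgroup N contains C_G(x); for it N_σ = N_F, C_{N_σ}(x) is a normal subgroup of C_G(x) complementing C_M(x), M ∩ N is a complement to N_σ in N, and for every standard factorisation N = K' U' N_σ one has U' ≠ 1 and x ∈ A(N) with x ∉ N_σ. -/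
theorem result {G : Type*} [Group G] [Finite G] (hG : Cfsg.IsMinSimpleOddOrder G)
    (M : Subgroup G) (hM : IsCoatom M) (x : G) (hx : x ∈ Cfsg.sigmaCore M) (hx1 : x ≠ 1) (hxM : ¬ Subgroup.centralizer ({x} : Set G) ≤ M) :
    ∃ N : Subgroup G, (IsCoatom N ∧ Subgroup.centralizer ({x} : Set G) ≤ N) ∧ (∀ L : Subgroup G, IsCoatom L → Subgroup.centralizer ({x} : Set G) ≤ L → L = N) ∧
        Cfsg.sigmaCore N = Cfsg.fittingHallOf N ∧
        Subgroup.centralizer ({x} : Set G) ≤ Subgroup.normalizer ((Cfsg.sigmaCore N ⊓ Subgroup.centralizer ({x} : Set G) : Subgroup G) : Set G) ∧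
        Cfsg.IsComplIn (M ⊓ Subgroup.centralizer ({x} : Set G)) (Cfsg.sigmaCore N ⊓ Subgroup.centralizer ({x} : Set G)) (Subgroup.centralizer ({x} : Set G)) ∧
        Cfsg.IsComplIn (M ⊓ N) (Cfsg.sigmaCore N) N ∧
        ∀ K' U' : Subgroup G, Cfsg.IsSigmaDecomposition N K' U' → U' ≠ ⊥ ∧ x ∈ Cfsg.sigmaA N U' ∧ x ∉ Cfsg.sigmaCore N := by
  haveI : FT.FTG G := ⟨hG⟩
  have hs : FT.SigMax x M := ⟨hM, hx⟩
  have hn := (FT.sigMany_iff hx1 hs).2 hxM
  have hu := FT.FT_signalizer_base_uniq hx1 hn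
  have ht := FT.FT_signalizer_base_type hx1 hn
  have h := FT.FT_signalizer_sdprod hx1 hs
  have h2 := FT.FT_signalizer_tau2 hx1 hn
  refine ⟨FT.sigBase x, ⟨hu.max, hu.le⟩, hu.uniq, (FT.bg14_Fcore_eq hu.max (FT.notP1type_Msigma_nil ht)).symm,
    h.nml.nrm, h.isComplIn', (FT.u_sd_sigma hu.max (FT.FT_signalizer_compl hx1 hn hs)).isComplIn',
    fun K U hKU => ?_⟩
  have hc := (FT.kappaCompl_iff hu.max).2 hKU
  have hxN := hu.le (FT.self_mem_cen1 x)
  refine ⟨fun e => (FT.not_typeP1_iff hu.max).2 ht ((FT.trivg_kappa_compl hu.max hc).1 e), ⟨⟨hxN, ?_⟩, ?_⟩,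
    fun e => ?_⟩
  · obtain ⟨y, hy, hy1⟩ := FT.exists_ne_one (FT.FT_signalizer_neq1 hx1 hn)
    exact ⟨y, hy.1, hy1, FT.sigR_comm hy⟩
  · have hsd := FT.kappa_compl_sdprod_kappa hu.max hc
    rw [sup_comm]
    refine FT.le_of_coprime_relIndex (Subgroup.zpowers_le.2 hxN) hsd.nml.nrm ?_ (Subgroup.mem_zpowers x)
    rw [hsd.relIndex_left, FT.card_zpowers']
    exact FT.PiNat.coprime h2 (hc.hK.pi.sub fun p hp => FT.kappa_tau2' hp)
  · obtain ⟨p, hp, hd⟩ := Nat.exists_prime_and_dvd (fun e => hx1 (orderOf_eq_one_iff.1 e))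
    exact FT.u_tau2_sigma' (h2 p hp hd) (FT.SigMax.piElt ⟨hu.max, e⟩ p hp hd)

end Cfsg.Agent.S1375
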