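import Cfsg.Statements.S1396
import Mathlib
import Cfsg.Agent.FT.BG07b
import Cfsg.Agent.FT.Elem

set_option autoImplicit false
open Cfsg

namespace Cfsg.Agent.S1396

/-- Let G be a minimal simple group of odd order, p a prime dividing the order of G and A an abelian p-subgroup. Suppose either (1) A consists exactly of the elements x of C_G(A) with x^p = 1, and every proper subgroup of G has p-length at most one, or (2) A is normal and self-centralizing in some Sylow p-subgroup of G and has rank at least 2. Then A satisfies the transitivity hypothesis. -/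
theorem result {G : Type*} [Group G] [Finite G] (hG : Cfsg.IsMinSimpleOddOrder G)
    (p : ℕ) [Fact p.Prime] (hp : p ∣ Nat.card G) (A : Subgroup G) (hAp : IsPGroup p A) (hAc : IsMulCommutative A)
    (h : (∀ x ∈ Subgroup.centralizer (A : Set G), x ^ p = 1 ↔ x ∈ A) ∧ (∀ H : Subgroup G, H ≠ ⊤ → Cfsg.PLengthLE p 1 H) ∨
      ∃ P : Sylow p G, Cfsg.IsSCN (P : Subgroup G) A ∧ ¬ Cfsg.PRankLE p 1 A) :
    Cfsg.TransitivityHypothesis A := by
  haveI : FT.FTG G := ⟨hG⟩
  have hpp : p.Prime := Fact.out
  refine FT.normedConstrained_iff.1 ?_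
  rcases h with ⟨h1, h2⟩ | ⟨P, h1, h2⟩
  · refine FT.plength_1_normed_constrained hpp ?_ ?_ h2
    · rintro rfl
      obtain ⟨x, hx⟩ := exists_prime_orderOf_dvd_card' p hp
      have := (h1 x (by simp [Subgroup.mem_centralizer_iff])).1 (hx ▸ pow_orderOf_eq_one x)
      rw [Subgroup.mem_bot] at this
      rw [this, orderOf_one] at hx
      exact hpp.one_lt.ne hx
    · exact FT.pmaxElem_of_forall ⟨hAc, fun a ha => (h1 a (FT.Ab.le_cen hAc ha)).2 ha⟩ le_top
        fun x _ hx e => (h1 x hx).1 e
  · exact FT.SCN_normed_constrained (FT.syl_top hpp P) ⟨⟨h1.1, h1.2.1⟩, h1.2.2⟩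
      (((FT.lt_prank_iff hpp).2 h2).trans_le (FT.prank_le_rank p A))

end Cfsg.Agent.S1396
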