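import Cfsg.Statements.S1399
import Mathlib
import Cfsg.Agent.FT.BG09

set_option autoImplicit false
open Cfsg

namespace Cfsg.Agent.S1399

/-- Let G be a minimal simple group of odd order, L a subgroup contained in exactly one maximal subgroup of G, and K a subgroup of C_G(L) having, for some prime p, an elementary abelian subgroup of order p ^ 2. Then K is contained in exactly one maximal subgroup of G. -/
theorem result {G : Type*} [Group G] [Finite G] (hG : Cfsg.IsMinSimpleOddOrder G)
    (L K : Subgroup G) (hL : Cfsg.InUniqueMaximal L) (hK : K ≤ Subgroup.centralizer (L : Set G)) (hKr : ¬ Cfsg.RankLE 1 K) :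
    Cfsg.InUniqueMaximal K := by
  haveI : FT.FTG G := ⟨hG⟩
  exact FT.uniq_iff_inUniqueMaximal.1 (FT.cent_uniq_Uniqueness (FT.uniq_iff_inUniqueMaximal.2 hL) hK
    (not_le.1 fun h => hKr (FT.rank_le_iff.1 h)))

end Cfsg.Agent.S1399
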