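import Cfsg.Statements.S1400
import Mathlib
import Cfsg.Agent.FT.BG09

set_option autoImplicit false
open Cfsg

namespace Cfsg.Agent.S1400

/-- Let G be a minimal simple group of odd order, p a prime, A an abelian p-subgroup containing an elementary abelian subgroup of order p ^ 3 and lying in exactly one maximal subgroup, and B a noncyclic p-subgroup whose centralizer contains an elementary abelian subgroup of order p ^ 3. Then B lies in exactly one maximal subgroup of G. -/
theorem result {G : Type*} [Group G] [Finite G] (hG : Cfsg.IsMinSimpleOddOrder G)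
    (p : ℕ) [Fact p.Prime] (A B : Subgroup G) (hAp : IsPGroup p A) (hAc : IsMulCommutative A) (hA3 : ¬ Cfsg.PRankLE p 2 ↥A)
    (hAU : Cfsg.InUniqueMaximal A) (hBp : IsPGroup p B) (hBnc : ¬ IsCyclic B) (hB3 : ¬ Cfsg.PRankLE p 2 ↥(Subgroup.centralizer (B : Set G))) :
    Cfsg.InUniqueMaximal B := by
  haveI : FT.FTG G := ⟨hG⟩
  have hpp : p.Prime := Fact.out
  exact FT.uniq_iff_inUniqueMaximal.1 (FT.any_cent_rank3_Uniquness hAc (FT.pGrp_of_isPGroup hpp hAp)
    (((FT.lt_prank_iff hpp).2 hA3).trans_le (FT.prank_le_rank p A)) (FT.uniq_iff_inUniqueMaximal.2 hAU)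
    (FT.pGrp_of_isPGroup hpp hBp) hBnc ((FT.lt_prank_iff hpp).2 hB3))

end Cfsg.Agent.S1400
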