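import Cfsg.Statements.S1401
import Mathlib
import Cfsg.Agent.FT.BG09

set_option autoImplicit false
open Cfsg

namespace Cfsg.Agent.S1401

/-- Let G be a minimal simple group of odd order, p a prime, and M a maximal subgroup whose Fitting subgroup contains an elementary abelian subgroup of order p ^ 3. Then every abelian p-subgroup of G containing an elementary abelian subgroup of order p ^ 3 lies in exactly one maximal subgroup of G. -/
theorem result {G : Type*} [Group G] [Finite G] (hG : Cfsg.IsMinSimpleOddOrder G)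
    (M : Subgroup G) (hM : IsCoatom M) (p : ℕ) [Fact p.Prime] (hF : ¬ Cfsg.PRankLE p 2 ↥(Cfsg.fittingOf M))
    (A : Subgroup G) (hAp : IsPGroup p A) (hAc : IsMulCommutative A) (hA3 : ¬ Cfsg.PRankLE p 2 ↥A) :
    Cfsg.InUniqueMaximal A := by
  haveI : FT.FTG G := ⟨hG⟩
  have hpp : p.Prime := Fact.out
  exact FT.uniq_iff_inUniqueMaximal.1 (FT.any_rank3_Fitting_Uniqueness hM ((FT.lt_prank_iff hpp).2 hF)
    (FT.pGrp_of_isPGroup hpp hAp) (((FT.lt_prank_iff hpp).2 hA3).trans_le (FT.prank_le_rank p A)))

end Cfsg.Agent.S1401
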