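import Cfsg.Statements.S1405
import Mathlib
import Cfsg.Agent.FT.BG10a

set_option autoImplicit false
open Cfsg

namespace Cfsg.Agent.S1405

open Cfsg.Agent.FT

/-- Let G be a minimal simple group of odd order and M a maximal subgroup, α(M) the set of primes p with M of p-rank at least 3, and M_α = O_{α(M)}(M). Then M_α is a Hall α(M)-subgroup of M and of G, M_α ≤ M_σ, the quotient M/M_α has no elementary abelian subgroup of order p ^ 3 for any prime p, and the image of M' in M/M_α is nilpotent. -/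
theorem result {G : Type*} [Group G] [Finite G] (hG : Cfsg.IsMinSimpleOddOrder G)
    (M : Subgroup G) (hM : IsCoatom M) :
    Cfsg.IsPiHallOf (Cfsg.alpha M) (Cfsg.alphaCore M) M ∧ Cfsg.IsPiHall (Cfsg.alpha M) (Cfsg.alphaCore M) ∧
      Cfsg.alphaCore M ≤ Cfsg.sigmaCore M ∧ Cfsg.RankLE 2 (↥M ⧸ Cfsg.piCore (Cfsg.alpha M) ↥M) ∧
      Group.IsNilpotent ↥((commutator ↥M).map (QuotientGroup.mk' (Cfsg.piCore (Cfsg.alpha M) ↥M))) := by
  haveI : FT.FTG G := ⟨hG⟩
  refine ⟨hall_iff.1 (Malpha_Hall hM), hall_top_iff.1 (Malpha_Hall_G hM), Malpha_sub_Msigma hM, ?_, ?_⟩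
  · rw [← rank_top_le_iff,
      rank_of_equiv (Subgroup.topEquiv.trans (quotEquiv' (piCore (alpha M) M)))]
    exact Malpha_quo_rank2 hM
  · have h := Malpha_quo_nil hM
    rw [quo_der (Malpha_nrm M), der_eq_map] at h
    have h2 : Group.IsNilpotent (commutator (M /ₛ Mα(M))) := Nil.of_equiv h (subtypeEquiv (commutator (M /ₛ Mα(M)))).symm
    have e : (M ⧸ piCore (alpha M) M) ≃* (M /ₛ Mα(M)) := quotEquiv' (piCore (alpha M) M)
    have h3 : Group.IsNilpotent ((commutator (M /ₛ Mα(M))).map e.symm.toMonoidHom) :=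
      Nil.map e.symm.toMonoidHom h2
    rw [map_commutator_eq, MonoidHom.range_eq_top.2 (show Function.Surjective e.symm.toMonoidHom from e.symm.surjective)] at h3
    rw [map_commutator_eq, MonoidHom.range_eq_top.2 (QuotientGroup.mk'_surjective _)]
    exact h3

end Cfsg.Agent.S1405
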