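import Cfsg.Statements.S1417
import Mathlib
import Cfsg.Agent.FT.BG12b

set_option autoImplicit false
open Cfsg

namespace Cfsg.Agent.S1417

/-- Let G be a minimal simple group of odd order, M a maximal subgroup, p ∈ τ₂(M) and A ≤ M elementary abelian of order p ^ 2. Then (a) M_σ is nilpotent; (b) every Sylow p-subgroup P of M is abelian, and if A ≤ P then the elements of P of order dividing p are exactly those of A and N_G(P) is not contained in M; (c) M normalizes M_σA; (d) M_σ ∩ C_G(A) = 1; (e) M_σ ∩ M* = 1 for every maximal subgroup M* ≠ M containing A; (f) M_σ ∩ C_G(A₁) = 1 for some subgroup A₁ ≤ A of order p. -/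
theorem result {G : Type*} [Group G] [Finite G] (hG : Cfsg.IsMinSimpleOddOrder G)
    (M : Subgroup G) (hM : IsCoatom M) (p : ℕ) [Fact p.Prime] (hp : p ∈ Cfsg.tau2 M) (A : Subgroup G) (hA : (A ≤ M ∧ Cfsg.IsElementaryAbelian p A ∧ Nat.card A = p ^ 2)) :
    Group.IsNilpotent (Cfsg.sigmaCore M) ∧
      (∀ P : Sylow p M, IsMulCommutative (P : Subgroup M) ∧
        (A ≤ (P : Subgroup M).map M.subtype →
          (∀ x ∈ (P : Subgroup M).map M.subtype, x ^ p = 1 ↔ x ∈ A) ∧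
          ¬ Subgroup.normalizer ((((P : Subgroup M).map M.subtype : Subgroup G)) : Set G) ≤ M)) ∧
      M ≤ Subgroup.normalizer ((Cfsg.sigmaCore M ⊔ A : Subgroup G) : Set G) ∧
      Cfsg.sigmaCore M ⊓ Subgroup.centralizer (A : Set G) = ⊥ ∧
      (∀ Mstar : Subgroup G, IsCoatom Mstar → Mstar ≠ M → A ≤ Mstar → Cfsg.sigmaCore M ⊓ Mstar = ⊥) ∧
      ∃ A₁ : Subgroup G, A₁ ≤ A ∧ Nat.card A₁ = p ∧ Cfsg.sigmaCore M ⊓ Subgroup.centralizer (A₁ : Set G) = ⊥ := by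
  haveI : FT.FTG G := ⟨hG⟩
  have hA' : FT.PnElem p 2 A M := ⟨Fact.out, hA.1, hA.2.1, hA.2.2⟩
  obtain ⟨h1, h2, h3, h4, A₁, h5, h6⟩ := FT.tau2_context hM hp hA'
  refine ⟨FT.tau2_Msigma_nil hM hp, fun P => ?_, h2.nrm, h3, fun H hH hne hAH => h4 H hH hAH hne,
    A₁, h5.le, h5.card_one, h6⟩
  obtain ⟨h7, h8⟩ := h1 _ (FT.syl_map_subtype Fact.out P)
  refine ⟨?_, fun h => ⟨fun x hx => ?_, (h8 h).2⟩⟩
  · refine ⟨⟨fun a b => Subtype.ext (Subtype.ext ?_)⟩⟩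
    exact h7.comm (Subgroup.mem_map_of_mem _ a.2) (Subgroup.mem_map_of_mem _ b.2)
  · rw [← (h8 h).1, h7.mem_Ohm_iff]
    exact ⟨fun e => ⟨hx, e⟩, fun e => e.2⟩

end Cfsg.Agent.S1417
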