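import Cfsg.Statements.S1441
import Mathlib
import Cfsg.Agent.H1.Coprime2

set_option autoImplicit false
open Cfsg

namespace Cfsg.Agent.S1441

/-- Let G be a finite group, H a solvable subgroup and A a subgroup normalizing H. Suppose there is a chain H = H₀ ≥ H₁ ≥ ⋯ ≥ H_n = 1 of subgroups normal in H and normalized by A such that A acts trivially on each factor H_{i-1}/H_i (that is, [H_{i-1}, A] ≤ H_i). Then every prime dividing the index of C_A(H) in A divides the order of H. -/
theorem result {G : Type*} [Group G] [Finite G] (H A : Subgroup G) (hH : Group.IsSolvable H) (hA : (A ≤ Subgroup.normalizer (H : Set G)))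
    (n : ℕ) (c : Fin (n + 1) → Subgroup G) (hc0 : c 0 = H) (hcn : c (Fin.last n) = ⊥) (hanti : Antitone c)
    (hcN : ∀ i, H ≤ Subgroup.normalizer ((c i : Subgroup G) : Set G)) (hcA : ∀ i, A ≤ Subgroup.normalizer ((c i : Subgroup G) : Set G))
    (htriv : ∀ i : Fin n, ⁅c i.castSucc, A⁆ ≤ c i.succ) :
    ∀ p : ℕ, p.Prime → p ∣ (A ⊓ Subgroup.centralizer (H : Set G)).relIndex A → p ∣ Nat.card H := by
  intro p hp hd
  by_contra hnd
  haveI := Fact.mk hp
  obtain ⟨P⟩ : Nonempty (Sylow p A) := inferInstance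
  set Q := (P : Subgroup A).map A.subtype
  have hQA : Q ≤ A := Subgroup.map_subtype_le _
  have hQ : IsPGroup p Q := P.isPGroup'.map _
  have hcop : (Nat.card Q).Coprime (Nat.card H) :=
    (H1.coprime_card_of_isPGroup hQ ((Nat.Prime.coprime_iff_not_dvd hp).mpr hnd).symm).symm
  have key : ∀ i : Fin (n + 1), ⁅H, Q⁆ ≤ c i := by
    intro i
    induction i using Fin.induction with
    | zero => rw [hc0]; exact H1.commutator_le_left_of_le_normalizer (hQA.trans hA)
    | succ i ih =>
      rw [← H1.commutator_commutator_eq Q H (hQA.trans hA) hcop]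
      exact (Subgroup.commutator_mono ih hQA).trans (htriv i)
  have h1 : ⁅H, Q⁆ = ⊥ := le_bot_iff.mp (hcn ▸ key _)
  rw [Subgroup.commutator_comm, Subgroup.commutator_eq_bot_iff_le_centralizer] at h1
  have h2 : (P : Subgroup A) ≤ (A ⊓ Subgroup.centralizer (H : Set G)).subgroupOf A :=
    fun x hx => ⟨x.2, h1 (Subgroup.mem_map_of_mem _ hx)⟩
  exact P.not_dvd_index (hd.trans (Subgroup.index_dvd_of_le h2))

end Cfsg.Agent.S1441
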