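import Cfsg.Statements.S1446
import Mathlib
import Cfsg.Agent.H28.Wielandt

set_option autoImplicit false
open Cfsg

namespace Cfsg.Agent.S1446

/-- Let X be a finite group with subgroups K, R, M such that: K and R are nontrivial, K ∩ R = 1, R normalizes K, no non-identity element of R centralizes a non-identity element of K, K ⊔ R is solvable of odd order; M is nilpotent and nontrivial, normalized by K and by R, with order coprime to that of K ⊔ R, M ∩ C(K) = 1, and M ∩ C(x) = M ∩ C(R) for all non-identity x ∈ R. Then R has prime order p, #M = #(M ∩ C(R)) ^ p, and if M ∩ C(R) is cyclic then [K, K] centralizes M. -/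
theorem result {X : Type*} [Group X] [Finite X] (K R M : Subgroup X) (hK1 : K ≠ ⊥) (hR1 : R ≠ ⊥) (hKR : K ⊓ R = ⊥)
    (hRK : R ≤ Subgroup.normalizer (K : Set X)) (hfrob : ∀ r ∈ R, r ≠ 1 → K ⊓ Subgroup.centralizer ({r} : Set X) = ⊥)
    (hsolv : Group.IsSolvable ↥(K ⊔ R)) (hodd : Odd (Nat.card ↥(K ⊔ R)))
    (hM1 : M ≠ ⊥) (hMn : Group.IsNilpotent M) (hKM : K ≤ Subgroup.normalizer (M : Set X)) (hRM : R ≤ Subgroup.normalizer (M : Set X))
    (hcop : (Nat.card ↥(K ⊔ R)).Coprime (Nat.card M)) (hCK : M ⊓ Subgroup.centralizer (K : Set X) = ⊥)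
    (hpr : ∀ x ∈ R, x ≠ 1 → M ⊓ Subgroup.centralizer ({x} : Set X) = M ⊓ Subgroup.centralizer (R : Set X)) :
    (Nat.card R).Prime ∧ Nat.card M = Nat.card ↥(M ⊓ Subgroup.centralizer (R : Set X)) ^ Nat.card R ∧
      (IsCyclic ↥(M ⊓ Subgroup.centralizer (R : Set X)) → ⁅K, K⁆ ≤ Subgroup.centralizer (M : Set X)) := by
  have hreg : H28.SemiReg K R := H28.semiReg_iff.2 hfrob
  have hs : Group.IsSolvable M := inferInstance
  have hn : K ⊔ R ≤ Subgroup.normalizer (M : Set X) := sup_le hKM hRM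
  have h1 := H28.card_eq_pow_of_inf_eq_bot hRK hreg hn hs hcop.symm hCK
  refine ⟨?_, h1, H28.commutator_le_centralizer_of_isCyclic hRK hreg hn hs hcop.symm⟩
  obtain ⟨p, hp, hd⟩ := Nat.exists_prime_and_dvd (R.one_lt_card_iff_ne_bot.2 hR1).ne'
  haveI := Fact.mk hp
  obtain ⟨x, hx⟩ := exists_prime_orderOf_dvd_card' p hd
  have hx1 : (x : X) ≠ 1 := by
    intro e
    rw [show x = 1 from Subtype.ext e, orderOf_one] at hx
    exact hp.one_lt.ne hx
  have hle : Subgroup.zpowers (x : X) ≤ R := Subgroup.zpowers_le.2 x.2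
  have hle' : K ⊔ Subgroup.zpowers (x : X) ≤ K ⊔ R := sup_le_sup_left hle K
  have h2 := H28.card_eq_pow_of_inf_eq_bot (hle.trans hRK) (hreg.mono le_rfl hle) (hle'.trans hn) hs
    (H1.coprime_of_le hcop.symm le_rfl hle') hCK
  rw [H1.centralizer_zpowers, hpr x x.2 hx1, Nat.card_zpowers, Subgroup.orderOf_coe, hx] at h2
  have h3 : 1 < Nat.card M := M.one_lt_card_iff_ne_bot.2 hM1
  have h4 : 2 ≤ Nat.card ↥(M ⊓ Subgroup.centralizer (R : Set X)) := by
    by_contra h
    have h5 : Nat.card ↥(M ⊓ Subgroup.centralizer (R : Set X)) = 1 := by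
      have := Nat.card_pos (α := ↥(M ⊓ Subgroup.centralizer (R : Set X)))
      omega
    rw [h5, one_pow] at h1
    omega
  rw [Nat.pow_right_injective h4 (h1.symm.trans h2)]
  exact hp

end Cfsg.Agent.S1446
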