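import Cfsg.Statements.S1447
import Mathlib
import Cfsg.Agent.H3.Bridge

set_option autoImplicit false
open Cfsg

namespace Cfsg.Agent.S1447

/-- Let G be a finite group, p an odd prime, R a metacyclic p-subgroup and A a subgroup of order coprime to p normalizing R. Then [R, A] is abelian; R is generated by [R, A] and R ∩ C_G(A), which meet trivially; and if R is non-abelian and A does not centralize R, then [R, A] and R ∩ C_G(A) are nontrivial cyclic groups and [R, R] ≤ [R, A]. -/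
theorem result {G : Type*} [Group G] [Finite G] (p : ℕ) [Fact p.Prime] (hp : p ≠ 2) (R A : Subgroup G) (hR : IsPGroup p R) (hRm : Cfsg.IsMetacyclic R)
    (hA : (A ≤ Subgroup.normalizer (R : Set G))) (hcop : (Nat.card A).Coprime p) :
    IsMulCommutative ↥⁅R, A⁆ ∧ ⁅R, A⁆ ⊔ (R ⊓ Subgroup.centralizer (A : Set G)) = R ∧ ⁅R, A⁆ ⊓ (R ⊓ Subgroup.centralizer (A : Set G)) = ⊥ ∧
      (¬ IsMulCommutative R → ¬ A ≤ Subgroup.centralizer (R : Set G) →
        ⁅R, A⁆ ≠ ⊥ ∧ IsCyclic ↥⁅R, A⁆ ∧ (R ⊓ Subgroup.centralizer (A : Set G)) ≠ ⊥ ∧ IsCyclic ↥(R ⊓ Subgroup.centralizer (A : Set G)) ∧ ⁅R, R⁆ ≤ ⁅R, A⁆) := by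
  have h1 := FT.coprime_metacyclic_cent_sdprod Fact.out (H3.pGrp_of hR) (H3.odd_card_of_isPGroup hp hR)
    (H3.p'grp_of hcop) hRm hA
  refine ⟨h1.1, h1.2.sup, h1.2.inf, fun h2 h3 => ?_⟩
  have h4 : ⁅R, A⁆ ≠ ⊥ := fun e => h3 (FT.comm_eq_bot'.1 e)
  obtain ⟨h5, h6, h7, h8⟩ := FT.coprime_metacyclic_cent_sdprod_cyclic Fact.out (H3.pGrp_of hR)
    (H3.odd_card_of_isPGroup hp hR) (H3.p'grp_of hcop) hRm hA h2 h4
  exact ⟨h4, h6, h5, h7, h8⟩

end Cfsg.Agent.S1447
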