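import Cfsg.Statements.S1450
import Mathlib
import Cfsg.Agent.H3.Bridge
import Cfsg.Agent.FT.BG05

set_option autoImplicit false
open Cfsg

namespace Cfsg.Agent.S1450

/-- Let G be a solvable group of odd order, p a prime dividing its order with G having no elementary abelian subgroup of order p ^ 3. Then every prime dividing the index of O_{p'}(G) is at most p; if p = 3 or p is the smallest prime divisor of #G then G has a normal p-complement; the derived subgroup G' has a normal p-complement; every subgroup of G' of order coprime to p lies in O_{p'}(G'); and G/O_{p',p}(G) is abelian of order coprime to p. -/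
theorem result {G : Type*} [Group G] [Finite G] [Group.IsSolvable G] (hodd : Odd (Nat.card G)) (p : ℕ) [Fact p.Prime] (hpG : p ∣ Nat.card G) (hr : Cfsg.PRankLE p 2 G) :
    (∀ q : ℕ, q.Prime → q ∣ (Cfsg.pPrimeCore p G).index → q ≤ p) ∧
      ((p = 3 ∨ ∀ q : ℕ, q.Prime → q ∣ Nat.card G → p ≤ q) → Cfsg.HasNormalPComplement p G) ∧
      Cfsg.HasNormalPComplement p ↥(commutator G) ∧
      (∀ L : Subgroup ↥(commutator G), (Nat.card L).Coprime p → L ≤ Cfsg.pPrimeCore p ↥(commutator G)) ∧
      commutator G ≤ Cfsg.pPrimePCore p G ∧ ((Cfsg.pPrimePCore p G).index).Coprime p := by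
  have hp' : p.Prime := Fact.out
  have hs : FT.Sol (⊤ : Subgroup G) := FT.sol_top.2 inferInstance
  have hr' := (FT.prank_top_le_iff hp').2 hr
  have h1 := fun q hq => FT.rank2_max_pdiv hp' (q := q) hq hs (H3.odd_top hodd) hr'
  obtain ⟨h2, h3⟩ := FT.rank2_der1_complement hp' hs (H3.odd_top hodd) hr'
  rw [H3.p'core_top, Subgroup.relIndex_top_right] at h1
  rw [H3.ppCore_top, Subgroup.relIndex_top_right] at h3
  refine ⟨h1, fun h => (FT.npc_top_iff hp').1 (FT.npc_of_relIndex fun q hq hd => ?_), (FT.npc_iff hp').1 h2,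
    fun L hL => ?_, h3.1, (FT.p'nat_iff_coprime hp').1 h3.2⟩
  · rw [H3.p'core_top, Subgroup.relIndex_top_right] at hd
    have h4 := hd.trans (Subgroup.index_dvd_card _)
    refine le_antisymm (h1 q hq hd) (h.elim (fun e => ?_) fun h => h q hq h4)
    have := FT.two_lt_of_odd hq (FT.card_top' (G := G) ▸ h4) (H3.odd_top hodd)
    omega
  · have h4 := h2.hall.le_pcore ((FT.piGrp_map_inj (commutator G).subtype_injective).2 (H3.p'grp_of hL))
      (Subgroup.map_subtype_le L)
    rw [FT.pcore_compl_singleton hp'] at h4
    exact (Subgroup.map_le_map_iff_of_injective (commutator G).subtype_injective).1 h4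

end Cfsg.Agent.S1450
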