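import Cfsg.Statements.S1451
import Mathlib
import Cfsg.Agent.H3.Bridge
import Cfsg.Agent.FT.BG05

set_option autoImplicit false
open Cfsg

namespace Cfsg.Agent.S1451

/-- Let G be a solvable group of odd order such that G, or its Fitting subgroup, has no elementary abelian subgroup of order q ^ 3 for any prime q. Then G' is nilpotent; for every Sylow subgroup S of G, every characteristic subgroup T of S with T ≤ [S, S] is normal in G; and for every prime p, G has a characteristic subgroup that is a Hall subgroup for the set of primes greater than p. -/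
theorem result {G : Type*} [Group G] [Finite G] [Group.IsSolvable G] (hodd : Odd (Nat.card G)) (hr : Cfsg.RankLE 2 G ∨ Cfsg.RankLE 2 (Cfsg.fittingSubgroup G)) :
    Group.IsNilpotent ↥(commutator G) ∧
      (∀ (q : ℕ) [Fact q.Prime] (S : Sylow q G) (T : Subgroup ↥(S : Subgroup G)), T.Characteristic → T.map (S : Subgroup G).subtype ≤ ⁅(S : Subgroup G), (S : Subgroup G)⁆ →
        (T.map (S : Subgroup G).subtype).Normal) ∧
      ∀ p : ℕ, ∃ N : Subgroup G, N.Characteristic ∧ Cfsg.IsPiHall {q | q.Prime ∧ p < q} N := by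
  have hs : FT.Sol (⊤ : Subgroup G) := FT.sol_top.2 inferInstance
  have ho := H3.odd_top hodd
  have hr' : FT.rank (Cfsg.fittingOf (⊤ : Subgroup G)) ≤ 2 := by
    rcases hr with h | h
    · exact (FT.rank_mono le_top).trans (FT.rank_top_le_iff.2 h)
    · rw [FT.fitting_top]; exact FT.rank_le_iff.2 h
  refine ⟨(FT.fitting_nil ⊤).mono (FT.rank2_der1_sub_Fitting ho hs hr'), fun q _ S T hT h => ?_, fun p => ?_⟩
  · exact FT.nml_top_iff.1 (FT.rank2_char_Sylow_normal Fact.out ho hs hr' (H3.syl_coe S) (FT.char_map_subtype T) h)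
  · exact ⟨_, H3.char_top_iff.1 (FT.pcore_char _ ⊤), FT.hall_top_iff.1
      ((FT.rank2_ge_pcore_Hall (p + 1) ho hs hr').congr fun q hq _ => ⟨fun h => ⟨hq, h⟩, fun h => h.2⟩)⟩

end Cfsg.Agent.S1451
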