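import Cfsg.Statements.S1454
import Mathlib
import Cfsg.Agent.H3.Bridge
import Cfsg.Agent.FT.BG05

set_option autoImplicit false
open Cfsg

namespace Cfsg.Agent.S1454

/-- Let G be a finite group, p an odd prime, R a narrow p-subgroup and A a solvable subgroup of odd order normalizing R with A ∩ C_G(R) = 1. Then [A, A] ≤ O_p(A) and the index of O_p(A) in A is coprime to p; if R has an elementary abelian subgroup of order p ^ 3 then the order of every element of A of order coprime to p divides p − 1; and if the order of A is a prime not dividing p(p − 1), then 2·#A divides p + 1, and if in addition [R, A] = R and R is non-abelian then #R = p ^ 3. -/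
theorem result {G : Type*} [Group G] [Finite G] (p : ℕ) [Fact p.Prime] (hp : p ≠ 2) (R A : Subgroup G) (hR : IsPGroup p R) (hRn : Cfsg.IsNarrow p R)
    (hA : (A ≤ Subgroup.normalizer (R : Set G))) (hAs : Group.IsSolvable A) (hAodd : Odd (Nat.card A)) (hfaith : A ⊓ Subgroup.centralizer (R : Set G) = ⊥) :
    (commutator ↥A ≤ Cfsg.pCore p ↥A ∧ ((Cfsg.pCore p ↥A).index).Coprime p) ∧
      (¬ Cfsg.PRankLE p 2 R → ∀ a ∈ A, (orderOf a).Coprime p → orderOf a ∣ p - 1) ∧
      ((Nat.card A).Prime → ¬ Nat.card A ∣ p * (p - 1) →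
        2 * Nat.card A ∣ p + 1 ∧ (⁅R, A⁆ = R → ¬ IsMulCommutative R → Nat.card R = p ^ 3)) := by
  have hp' : p.Prime := Fact.out
  have hR' := H3.pGrp_of hR
  have hodd := H3.odd_card_of_isPGroup hp hR
  have hn := (FT.narrow_iff_isNarrow hp' hR' hodd).2 hRn
  refine ⟨?_, fun hr a ha h => ?_, fun h1 h2 => ?_⟩
  · obtain ⟨B, h1, -, h2, h3, h4⟩ := FT.Aut_narrow hp' hR' hodd hn hA hAs hAodd
    have h5 : FT.PGrp p B := by
      refine FT.piGrp_of_relIndex ?_ h3
      rw [FT.inf_eq_bot_mono ((inf_comm _ _).trans hfaith) le_rfl h1.le]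
      exact FT.piGrp_bot _
    have h6 := FT.pcore_max h5 h1
    have h7 := (FT.p'nat_iff_coprime hp').1 (h4.of_dvd (FT.relIndex_dvd_of_le h6 A))
    rw [Subgroup.relIndex, FT.pcore_subgroupOf, FT.piCore_singleton hp'] at h7
    refine ⟨?_, h7⟩
    have h8 := h2.trans h6
    rwa [FT.der_eq_map, FT.pcore_singleton hp', Subgroup.map_le_map_iff_of_injective A.subtype_injective] at h8
  · have h1 := FT.bg5_exponent hp' hR' hodd hn (hR'.rank_eq ▸ (FT.lt_prank_iff hp').2 hr) (hA ha)
      ((FT.p'elt_iff_coprime hp').2 h)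
    exact orderOf_dvd_of_pow_eq_one (FT.eq_one_of_mem_inf hfaith (pow_mem ha _) h1)
  · exact FT.Aut_narrow_prime hp' hR' hodd hn hA h1 hAodd
      (fun h => FT.ne_bot_of_prime_card h1 ((inf_eq_left.2 h).symm.trans hfaith)) h2

end Cfsg.Agent.S1454
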