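import Cfsg.Statements.S1457
import Mathlib
import Cfsg.Agent.H5.Stable

set_option autoImplicit false
open Cfsg

namespace Cfsg.Agent.S1457

open Subgroup Cfsg.Agent.H18 Cfsg.Agent.H22 Cfsg.Agent.H5b
open scoped commutatorElement

/-- Let G be a solvable group of odd order, p a prime, S a Sylow p-subgroup of G and A an abelian subgroup of S normal in S. Then A ≤ O_{p',p}(G). -/
theorem result {G : Type*} [Group G] [Finite G] [Group.IsSolvable G] (hodd : Odd (Nat.card G)) (p : ℕ) [Fact p.Prime] (S : Sylow p G) (A : Subgroup G) (hA : A ≤ (S : Subgroup G)) (hAc : IsMulCommutative A)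
    (hAn : (S : Subgroup G) ≤ Subgroup.normalizer (A : Set G)) :
    A ≤ Cfsg.pPrimePCore p G := by
  exact (qf_of_odd hodd).le_pPrimePCore (H1.isPSolvable_of_isSolvable Fact.out ‹_›) S hAc hAn

end Cfsg.Agent.S1457
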