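import Cfsg.Statements.S1458
import Mathlib
import Cfsg.Agent.H5.ZJ

set_option autoImplicit false
open Cfsg

namespace Cfsg.Agent.S1458

open Subgroup Cfsg.Agent.H18 Cfsg.Agent.H22 Cfsg.Agent.H5b
open scoped commutatorElement

/-- Let G be a solvable group of odd order, p a prime and S a Sylow p-subgroup of G. Then the subgroup generated by the centre of the Thompson subgroup of S and O_{p'}(G) is normal in G. -/
theorem result {G : Type*} [Group G] [Finite G] [Group.IsSolvable G] (hodd : Odd (Nat.card G)) (p : ℕ) [Fact p.Prime] (S : Sylow p G) :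
    (Cfsg.centerThompsonOf p (S : Subgroup G) ⊔ Cfsg.pPrimeCore p G).Normal := by
  rw [centerThompsonOf_eq, sup_comm]
  by_cases hp : p = 2
  · have hS : (S : Subgroup G) = ⊥ := pgrp_eq_bot_of_coprime S.isPGroup' (by
      subst hp
      exact Nat.Coprime.coprime_dvd_left (card_subgroup_dvd_card _) (Nat.coprime_two_right.2 hodd))
    have : ZJn p (S : Subgroup G) = ⊥ := eq_bot_iff.2 (((isFn_ZJn p).le _).trans hS.le)
    rw [this, sup_bot_eq]; infer_instance
  exact (ZJn_factorization hp (Or.inr rfl)
    (isPConstrained_of_pSolvable (H1.isPSolvable_of_isSolvable Fact.out inferInstance))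
    ((qf_of_odd hodd).quotient _).stab S).1

end Cfsg.Agent.S1458
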