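import Cfsg.Statements.S1463
import Mathlib
import Cfsg.Agent.H28.GL2

set_option autoImplicit false
open scoped MatrixGroups
open Cfsg

namespace Cfsg.Agent.S1463

/-- Let F be a field of odd characteristic p and H a finite subgroup of odd order of GL(2, F) that leaves no 1-dimensional subspace of F² invariant. Then p does not divide the order of H. -/
theorem result {F : Type*} [Field F] (p : ℕ) [Fact p.Prime] [CharP F p] (hp : p ≠ 2)
    (H : Subgroup (GL (Fin 2) F)) [Finite H] (hodd : Odd (Nat.card H))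
    (hirr : ∀ v : Fin 2 → F, v ≠ 0 → ∃ g ∈ H, (g : Matrix (Fin 2) (Fin 2) F).mulVec v ∉ Submodule.span F {v}) :
    ¬ p ∣ Nat.card H := by
  intro hd
  have hpp : p.Prime := Fact.out
  let ρ : Representation F H (Fin 2 → F) :=
    ((Matrix.toLinAlgEquiv' (R := F) (n := Fin 2)).toMonoidHom.comp (Units.coeHom _)).comp H.subtype
  have hρ : ∀ (g : H) v, ρ g v = ((g : GL (Fin 2) F) : Matrix (Fin 2) (Fin 2) F).mulVec v :=
    fun _ _ => rfl
  have hf : Function.Injective ρ :=
    (Matrix.toLinAlgEquiv'.injective.comp Units.val_injective).comp H.subtype_injective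
  have h2 : Module.finrank F (Fin 2 → F) = 2 := by simp
  have hk : (p : F) = 0 := CharP.cast_eq_zero F p
  obtain ⟨P, hP⟩ := (H28.isPGroup_commutator_of_gl2 ρ h2.le hodd hf hpp hk).exists_le_sylow
  haveI : (P : Subgroup H).Normal := Subgroup.Normal.of_commutator_le _ hP
  have h0 := H28.rfix_ne_bot_of_isPGroup ρ hpp hk P.isPGroup'
  have ht : H28.rfix ρ P ≠ ⊤ := by
    rw [Ne, H28.rfix_eq_top_iff, (MonoidHom.ker_eq_bot_iff ρ).2 hf, le_bot_iff]
    exact P.ne_bot_of_dvd_card hd
  obtain ⟨v, hv, hv0⟩ := Submodule.exists_mem_ne_zero_of_ne_bot h0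
  obtain ⟨g, hg, hgv⟩ := hirr v hv0
  apply hgv
  have e : Submodule.span F {v} = H28.rfix ρ P := by
    apply Submodule.eq_of_le_of_finrank_le ((Submodule.span_singleton_le_iff_mem _ _).2 hv)
    have := Submodule.finrank_lt ht
    rw [finrank_span_singleton hv0]
    omega
  rw [e, ← hρ ⟨g, hg⟩]
  intro x hx
  have := hv _ (this.conj_mem x hx (⟨g, hg⟩ : H)⁻¹)
  rw [inv_inv, map_mul, map_mul, Module.End.mul_apply, Module.End.mul_apply,
    ρ.inv_apply_eq_iff] at this
  exact this

end Cfsg.Agent.S1463
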