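import Cfsg.Statements.S1466
import Mathlib
import Cfsg.Agent.H5.Fn

set_option autoImplicit false
open Cfsg

namespace Cfsg.Agent.S1466

open Subgroup Cfsg.Agent.H18 Cfsg.Agent.H22 Cfsg.Agent.H5b
open scoped commutatorElement

/-- Let p be a prime and R a nontrivial finite p-group. Then for every i > 0, Z(R) ≤ C_R(L_i(R)) ≤ L_i(R); likewise Z(R) ≤ C_R(L_*(R)) ≤ L_*(R) and Z(R) ≤ C_R(L(R)) ≤ L(R); and L(R) ≠ 1, L_*(R) ≠ 1. -/
theorem result {R : Type*} [Group R] [Finite R] (p : ℕ) [Fact p.Prime] (hR : IsPGroup p R) [Nontrivial R] :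
    (∀ i : ℕ, 0 < i → Subgroup.center R ≤ Subgroup.centralizer ((Cfsg.puigSeq R i : Subgroup R) : Set R) ∧
        Subgroup.centralizer ((Cfsg.puigSeq R i : Subgroup R) : Set R) ≤ Cfsg.puigSeq R i) ∧
      (Subgroup.center R ≤ Subgroup.centralizer ((Cfsg.puigLower R : Subgroup R) : Set R) ∧ Subgroup.centralizer ((Cfsg.puigLower R : Subgroup R) : Set R) ≤ Cfsg.puigLower R) ∧
      (Subgroup.center R ≤ Subgroup.centralizer ((Cfsg.puigSubgroup R : Subgroup R) : Set R) ∧ Subgroup.centralizer ((Cfsg.puigSubgroup R : Subgroup R) : Set R) ≤ Cfsg.puigSubgroup R) ∧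
      Cfsg.puigSubgroup R ≠ ⊥ ∧ Cfsg.puigLower R ≠ ⊥ := by
  have hT : IsPGroup p (⊤ : Subgroup R) := pgrp_top_iff.mpr hR
  have hz : ∀ X : Subgroup R, center R ≤ C[X] := fun X => by rw [← C_top]; exact C_anti le_top
  have hne : ∀ X : Subgroup R, C[X] ≤ X → X ≠ ⊥ := by
    rintro X h rfl
    exact top_ne_bot (le_bot_iff.mp ((le_C_iff_comm'.mpr (commutator_bot_left _)).trans h))
  have h1 : C[puigLower R] ≤ puigLower R := by
    simpa only [pLo_top, top_inf_eq] using inf_C_pLo_le hT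
  have h2 : C[puigSubgroup R] ≤ puigSubgroup R := by
    simpa only [pUp_top, top_inf_eq] using inf_C_pUp_le hT
  refine ⟨fun i hi => ⟨hz _, ?_⟩, ⟨hz _, h1⟩, ⟨hz _, h2⟩, hne _ h2, hne _ h1⟩
  simpa only [pAt_top, top_inf_eq] using inf_C_pAt_le hT hi

end Cfsg.Agent.S1466
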