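import Cfsg.Statements.S1467
import Mathlib
import Cfsg.Agent.H5.Fn

set_option autoImplicit false
open Cfsg

namespace Cfsg.Agent.S1467

open Subgroup Cfsg.Agent.H18 Cfsg.Agent.H22 Cfsg.Agent.H5b
open scoped commutatorElement

/-- Let G be a finite group with Puig series L_n(G). Then L_0 = 1, L_1 = G; L_{2n} ≤ L_{2n+2} ≤ L_{2m+3} ≤ L_{2m+1} for all n, m; there is k with L_{2n}(G) = L_*(G) and L_{2n+1}(G) = L(G) for all n ≥ k; L_*(G) ≤ L(G); and applying one Puig step to L_*(G) gives L(G) and to L(G) gives L_*(G). -/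
theorem result {G : Type*} [Group G] [Finite G] :
    Cfsg.puigSeq G 0 = ⊥ ∧ Cfsg.puigSeq G 1 = ⊤ ∧
      (∀ n m : ℕ, Cfsg.puigSeq G (2 * n) ≤ Cfsg.puigSeq G (2 * n + 2) ∧ Cfsg.puigSeq G (2 * n) ≤ Cfsg.puigSeq G (2 * m + 1) ∧
        Cfsg.puigSeq G (2 * m + 3) ≤ Cfsg.puigSeq G (2 * m + 1)) ∧
      (∃ k : ℕ, ∀ n : ℕ, k ≤ n → Cfsg.puigSeq G (2 * n) = Cfsg.puigLower G ∧ Cfsg.puigSeq G (2 * n + 1) = Cfsg.puigSubgroup G) ∧
      Cfsg.puigLower G ≤ Cfsg.puigSubgroup G ∧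
      Cfsg.puigStep (Cfsg.puigLower G) = Cfsg.puigSubgroup G ∧ Cfsg.puigStep (Cfsg.puigSubgroup G) = Cfsg.puigLower G := by
  simp only [← pAt_top, ← pUp_top, ← pLo_top, ← pStep_top]
  refine ⟨pAt_zero _, pAt_one _, fun n m => ⟨?_, pAt_even_le_odd _ n m, ?_⟩, exists_pAt_stable _,
    pLo_le_pUp _, pStep_pLo _, pStep_pUp _⟩
  · have := pAt_even_mono (⊤ : Subgroup G) (Nat.le_add_right n 1)
    simpa only [mul_add, mul_one] using this
  · have := pAt_odd_anti (⊤ : Subgroup G) (Nat.le_add_right m 1)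
    simpa only [mul_add, mul_one, add_assoc, Nat.reduceAdd] using this

end Cfsg.Agent.S1467
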