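import Cfsg.Statements.S1469
import Mathlib
import Cfsg.Agent.H5.Fn

set_option autoImplicit false
open Cfsg

namespace Cfsg.Agent.S1469

open Subgroup Cfsg.Agent.H18 Cfsg.Agent.H22 Cfsg.Agent.H5b
open scoped commutatorElement

/-- Let p be an odd prime, G a solvable group of odd order and S a Sylow p-subgroup, and let Z be the centre of the Puig subgroup L(S), viewed inside G. Then G is generated by O_{p'}(G) and N_G(Z); and if O_{p'}(G) = 1 then Z is normal in G. -/
theorem result {G : Type*} [Group G] [Finite G] [Group.IsSolvable G] (hodd : Odd (Nat.card G)) (p : ℕ) [Fact p.Prime] (hp : p ≠ 2) (S : Sylow p G) :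
    Cfsg.pPrimeCore p G ⊔ Subgroup.normalizer ((((Subgroup.center ↥(Cfsg.puigSubgroup ↥(S : Subgroup G))).map (Cfsg.puigSubgroup ↥(S : Subgroup G)).subtype).map (S : Subgroup G).subtype : Subgroup G) : Set G) = ⊤ ∧
      (Cfsg.pPrimeCore p G = ⊥ → (((Subgroup.center ↥(Cfsg.puigSubgroup ↥(S : Subgroup G))).map (Cfsg.puigSubgroup ↥(S : Subgroup G)).subtype).map (S : Subgroup G).subtype).Normal) := by
  have h : ((Subgroup.center ↥(Cfsg.puigSubgroup ↥(S : Subgroup G))).map
      (Cfsg.puigSubgroup ↥(S : Subgroup G)).subtype).map (S : Subgroup G).subtype =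
      pUp (S : Subgroup G) ⊓ C[pUp (S : Subgroup G)] := by
    rw [map_center_subtype, map_inf_C_inj (S : Subgroup G).subtype_injective]
    rfl
  rw [h]
  exact ⟨(center_pUp_factorization (qf_of_odd hodd) (H1.isPSolvable_of_isSolvable Fact.out ‹_›) S).2,
    fun hO => center_pUp_normal (H2.centralizer_pCore_le_of_isSolvable hO)
      (fun P _ hP => (qf_of_odd hodd).isPStableOn P hP) S⟩

end Cfsg.Agent.S1469
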