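import Cfsg.Statements.S1470
import Mathlib
import Cfsg.Agent.H20.AppC2

set_option autoImplicit false
open Cfsg

namespace Cfsg.Agent.S1470

open Cfsg.Agent.H20
theorem norm_iff (p q : ℕ) [Fact p.Prime] [Fact q.Prime] (a : GaloisField p q) :
    Algebra.norm (ZMod p) a = 1 ↔ a ^ (∑ i ∈ Finset.range q, p ^ i) = 1 := by
  have hp : p.Prime := Fact.out
  have hq : q.Prime := Fact.out
  rw [← (algebraMap (ZMod p) (GaloisField p q)).injective.eq_iff, map_one,
    FiniteField.algebraMap_norm_eq_pow, GaloisField.card p q hq.ne_zero, Nat.card_zmod,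
    appC_geom p q hp.one_lt]

/-- Let p and q be odd primes with (p^q − 1)/(p − 1) coprime to p − 1, and let E be the set of elements a of the field with p ^ q elements whose norm to the prime field is 1 and for which 2 − a also has norm 1. If a⁻¹ ∈ E for every a ∈ E and E has at least two elements, then p ≤ q. -/
theorem result (p q : ℕ) [Fact p.Prime] [Fact q.Prime] (hp : p ≠ 2) (hq : q ≠ 2) (hA : Nat.Coprime ((p ^ q - 1) / (p - 1)) (p - 1))
    (hinv : ∀ a ∈ {a : GaloisField p q | Algebra.norm (ZMod p) a = 1 ∧ Algebra.norm (ZMod p) (2 - a) = 1}, a⁻¹ ∈ {a : GaloisField p q | Algebra.norm (ZMod p) a = 1 ∧ Algebra.norm (ZMod p) (2 - a) = 1})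
    (h2 : 2 ≤ Set.ncard {a : GaloisField p q | Algebra.norm (ZMod p) a = 1 ∧ Algebra.norm (ZMod p) (2 - a) = 1}) :
    p ≤ q := by
  have hq' : q.Prime := Fact.out
  simp only [Set.mem_setOf_eq, norm_iff] at hinv h2
  obtain ⟨a, ha, ha1⟩ := Set.exists_ne_of_one_lt_ncard (lt_of_lt_of_le one_lt_two h2) 1
  exact appC1 p q hq'.pos (fun a h1 h2 => (hinv a ⟨h1, h2⟩).2) a ha1 ha.1 ha.2

end Cfsg.Agent.S1470
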