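import Cfsg.Statements.S1471
import Mathlib
import Cfsg.Agent.H20.AppC2
import Cfsg.Agent.S1470

set_option autoImplicit false
open Cfsg

namespace Cfsg.Agent.S1471

open Cfsg.Agent.H20

/-- Let p and q be odd primes with (p^q − 1)/(p − 1) coprime to p − 1. Then there are at least two elements a of the field with p ^ q elements such that both a and 2 − a have norm 1 to the prime field. -/
theorem result (p q : ℕ) [Fact p.Prime] [Fact q.Prime] (hp : p ≠ 2) (hq : q ≠ 2) (hA : Nat.Coprime ((p ^ q - 1) / (p - 1)) (p - 1)) :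
    2 ≤ Set.ncard {a : GaloisField p q | Algebra.norm (ZMod p) a = 1 ∧ Algebra.norm (ZMod p) (2 - a) = 1} := by
  have hq' : q.Prime := Fact.out
  simp only [S1470.norm_iff]
  have hq3 : q = 3 ∨ 5 ≤ q := by
    have := hq'.two_le
    have h4 : q ≠ 4 := by rintro rfl; exact absurd hq' (by decide)
    omega
  haveI := Fintype.ofFinite (GaloisField p q)
  obtain ⟨a, ha1, ha, ha2⟩ := appC2 (F := GaloisField p q) p q hp hq3
    (by rw [← Nat.card_eq_fintype_card, GaloisField.card p q hq'.ne_zero])
  refine (Set.one_lt_ncard (Set.toFinite _)).2 ⟨a, ⟨ha, ha2⟩, 1, ⟨by simp, ?_⟩, ha1⟩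
  norm_num

end Cfsg.Agent.S1471
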