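import Cfsg.Statements.S1475
import Mathlib
import Cfsg.Agent.H20.CN2

set_option autoImplicit false
open Cfsg

namespace Cfsg.Agent.S1475

open Cfsg.Agent.H20

/-- Let G be a finite solvable group such that the order of every element is a prime power (1 included). Then at most two distinct primes divide the order of G. -/
theorem result {G : Type*} [Group G] [Finite G] [Group.IsSolvable G] (h : ∀ g : G, IsPrimePow (orderOf g) ∨ g = 1) :
    (Nat.card G).primeFactors.card ≤ 2 := by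
  by_contra hc
  push Not at hc
  have hnt : Nontrivial G := by
    by_contra hn
    rw [not_nontrivial_iff_subsingleton] at hn
    rw [Nat.card_unique] at hc
    simp at hc
  have key : ∀ p q : ℕ, p.Prime → q.Prime → p ≠ q → ∀ a b : G, PE p a → PE q b → Commute a b →
      a = 1 ∨ b = 1 := by
    intro p q hp hq hne a b ha hb hab
    by_contra hn
    push Not at hn
    have ho := hab.orderOf_mul_eq_mul_orderOf_of_coprime
      (Nat.Coprime.symm (hb.coprime (Nat.Coprime.symm (ha.coprime_of_ne hp hq hne))))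
    rcases h (a * b) with h1 | h1
    · rw [isPrimePow_iff_unique_prime_dvd] at h1
      exact hne (h1.unique ⟨hp, ho ▸ (ha.dvd_orderOf hp hn.1).mul_right _⟩
        ⟨hq, ho ▸ (hb.dvd_orderOf hq hn.2).mul_left _⟩)
    · rw [h1, orderOf_one] at ho
      exact hn.1 (orderOf_eq_one_iff.1 (Nat.eq_one_of_mul_eq_one_right ho.symm))
  obtain ⟨p, hp, hP⟩ := H2.exists_pCore_ne_bot (G := G)
  obtain ⟨E, hE⟩ := H1.exists_isPiHall ({p}ᶜ) (inferInstance : Group.IsSolvable G)
  have hEp : ∀ x ∈ E, ∀ q, q.Prime → PE q x → x ≠ 1 → q ≠ p := fun x hx q hq h1 h2 =>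
    hE.1 q hq (h1.dvd_card hq h2 hx)
  have hreg : H28.SemiReg (pCore p G) E := by
    intro e he he1 x hx hex
    obtain ⟨q, n, hq, h1, h2⟩ := exists_pow_PE_ne_one he1
    exact (key q p hq hp (hEp _ (E.pow_mem he n) q hq h1 h2) _ x h1
      (PE.of_mem H22.pgrp_pCore hx) (Commute.pow_left hex n)).resolve_left h2
  have hdE : ∀ q, q.Prime → q ∣ Nat.card G → q ≠ p → q ∣ Nat.card E := by
    intro q hq h1 h2
    rw [← E.card_mul_index] at h1
    exact ((Nat.Prime.dvd_mul hq).1 h1).resolve_right (hE.2 q hq h2)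
  have h2 : ∀ q, ∃ r, r.Prime ∧ r ∣ Nat.card E ∧ r ≠ q := by
    intro q
    obtain ⟨r, hr, hr'⟩ := Finset.exists_mem_notMem_of_card_lt_card
      (s := {p, q}) (t := (Nat.card G).primeFactors) (lt_of_le_of_lt Finset.card_le_two hc)
    simp only [Finset.mem_insert, Finset.mem_singleton, not_or] at hr'
    exact ⟨r, Nat.prime_of_mem_primeFactors hr,
      hdE r (Nat.prime_of_mem_primeFactors hr) (Nat.dvd_of_mem_primeFactors hr) hr'.1, hr'.2⟩
  have hE0 : E ≠ ⊥ := by
    rintro rfl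
    obtain ⟨r, hr, hd, -⟩ := h2 0
    rw [Subgroup.card_bot] at hd
    exact hr.one_lt.ne' (Nat.dvd_one.1 hd)
  haveI := (Subgroup.nontrivial_iff_ne_bot E).2 hE0
  obtain ⟨q, hq, hQ⟩ := H2.exists_pCore_ne_bot (G := E)
  obtain ⟨r, hr, hd, hne⟩ := h2 q
  haveI : Fact r.Prime := ⟨hr⟩
  obtain ⟨b, hb, ho⟩ := H22.exists_mem_orderOf_eq hd
  have hb1 : b ≠ 1 := by
    rintro rfl
    rw [orderOf_one] at ho
    exact hr.one_lt.ne ho
  obtain ⟨b', hb', h1, a, ha, ha1, hab⟩ := semiReg_exists_commute hp H22.pgrp_pCore hP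
    (H22.le_N_of_normal _ _) hreg (H22.pCoreOf_le (p := q) E)
    (fun e => hQ (H22.pCoreOf_eq_bot_iff.1 e)) hb hb1 (H22.le_N_pCoreOf E hb)
  rcases key r q hr hq hne b' a (PE.of_mem (PE.of_orderOf ho).pgrp hb')
    (PE.of_mem (H22.pgrp_pCoreOf E) ha) hab with h3 | h3
  · exact h1 h3
  · exact ha1 h3

end Cfsg.Agent.S1475
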