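import Cfsg.Statements.S1480
import Cfsg.Agent.H23.Trans

set_option autoImplicit false
open Cfsg

namespace Cfsg.Agent.S1480

/-- Let G be a finite group and p a prime such that the normalizer of every nontrivial p-subgroup of G is p-constrained; if p = 2 assume also that the Sylow 2-subgroups of G have nilpotency class at most 2. Let E be an abelian p-subgroup containing an elementary abelian subgroup of order p ^ 3 and containing every element of p-power order of C_G(E). Then for every prime q ≠ p, any two maximal E-invariant q-subgroups of G are conjugate by an element of O_{p'}(C_G(E)). -/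
theorem result {G : Type*} [Group G] [Finite G] (p : ℕ) [Fact p.Prime]
    (hloc : ∀ T : Subgroup G, IsPGroup p T → T ≠ ⊥ → Cfsg.IsPConstrained p ↥(Subgroup.normalizer (T : Set G)))
    (h2 : p = 2 → ∀ S : Sylow p G, Group.IsNilpotent (S : Subgroup G) ∧ Group.nilpotencyClass (S : Subgroup G) ≤ 2)
    (E : Subgroup G) (hEp : IsPGroup p E) (hEc : IsMulCommutative E) (hE3 : ¬ Cfsg.PRankLE p 2 E)
    (hEfull : ∀ x ∈ Subgroup.centralizer (E : Set G), IsPGroup p (Subgroup.zpowers x) → x ∈ E)
    (q : ℕ) [Fact q.Prime] (hqp : q ≠ p) :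
    ∀ Q₁ ∈ Cfsg.maxInvSubgroups ⊤ E {q}, ∀ Q₂ ∈ Cfsg.maxInvSubgroups ⊤ E {q},
        ∃ k ∈ Cfsg.piCoreOf (Cfsg.primesNotDvd p) (Subgroup.centralizer (E : Set G)), Q₂ = Q₁.map (MulAut.conj k).toMonoidHom := by
  have hp : p.Prime := Fact.out
  have e : Cfsg.piCoreOf (Cfsg.primesNotDvd p) (Subgroup.centralizer (E : Set G)) =
      Cfsg.piCoreOf {p}ᶜ (Subgroup.centralizer (E : Set G)) :=
    FT.pcore_congr fun r hr _ => by simp [primesNotDvd, hr, Nat.prime_dvd_prime_iff_eq hr hp]
  rw [e]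
  intro Q₁ h₁ Q₂ h₂
  refine H23.transitivity hp hqp (fun T hT => hloc T hT.isPGroup) (fun e S hS => ?_) (FT.pGrp_of_isPGroup hp hEp) hEc
    ((FT.lt_prank_iff hp).2 hE3) (fun x hx hx' => hEfull x hx hx'.zpowers.isPGroup) Q₁ Q₂ h₁ h₂
  obtain ⟨T, hT⟩ := hS.isPGroup.exists_le_sylow
  obtain ⟨h1, h3⟩ := h2 e T
  have h4 := Subgroup.lowerCentralSeries_eq_bot_iff_nilpotencyClass_le.2 h3
  have h5 := congrArg (Subgroup.map (T : Subgroup G).subtype) h4
  simp only [Subgroup.lowerCentralSeries_succ, Subgroup.lowerCentralSeries_zero, Subgroup.map_commutator, FT.map_subtype_top,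
    Subgroup.map_bot] at h5
  exact eq_bot_iff.2 (h5 ▸ FT.commSS (FT.commSS hT hT) hT)

end Cfsg.Agent.S1480
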