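import Cfsg.Statements.S1481
import Cfsg.Agent.FT.BG01
-- import your own Cfsg.Agent.* helpers here

set_option autoImplicit false
open Cfsg

namespace Cfsg.Agent.S1481

open Subgroup Cfsg.Agent.FT
open scoped commutatorElement


/-- Let G be a finite group and H a local subgroup (the normalizer of a nontrivial subgroup of prime-power order) not properly contained in any local subgroup; let F = F(H), suppose at least two primes divide #F, put X = H ∩ C_G(F), let M ≤ F with F ∩ C_G(M) ≤ M, and let R be a solvable subgroup normalized by M and by X. Then for every prime q not dividing #F there is exactly one maximal M-invariant q-subgroup of R, and it is a Sylow q-subgroup of the largest normal subgroup of R of order coprime to #F. -/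
theorem result {G : Type*} [Group G] [Finite G] (H : Subgroup G) (hH : Cfsg.IsLocalSubgroup H) (hHmax : ∀ L : Subgroup G, Cfsg.IsLocalSubgroup L → H ≤ L → L = H)
    (hF2 : 2 ≤ (Nat.card (Cfsg.fittingOf H)).primeFactors.card)
    (M : Subgroup G) (hM : M ≤ Cfsg.fittingOf H) (hCM : Cfsg.fittingOf H ⊓ Subgroup.centralizer (M : Set G) ≤ M)
    (R : Subgroup G) (hR : Group.IsSolvable R) (hMR : M ≤ Subgroup.normalizer (R : Set G))
    (hXR : H ⊓ Subgroup.centralizer (Cfsg.fittingOf H : Set G) ≤ Subgroup.normalizer (R : Set G))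
    (q : ℕ) [Fact q.Prime] (hq : ¬ q ∣ Nat.card (Cfsg.fittingOf H)) :
    ∃! Q : Subgroup G, Q ∈ Cfsg.maxInvSubgroups R M {q} ∧
      (∀ Q' : Subgroup G, Q' ∈ Cfsg.maxInvSubgroups R M {q} →
        Q' ≤ Cfsg.piCoreOf (Cfsg.primesNotDvd (Nat.card (Cfsg.fittingOf H))) R ∧
        ¬ q ∣ Q'.relIndex (Cfsg.piCoreOf (Cfsg.primesNotDvd (Nat.card (Cfsg.fittingOf H))) R)) := by
  obtain ⟨Z, hZ⟩ : ∃ Z : ℕ → Subgroup G, ∀ p, Z p = O[{p}](F(H)) ⊓ C(F(H)) := ⟨_, fun _ => rfl⟩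
  have nF := fitting_nml H
  have z1 : ∀ p, Z p ⊴ H := fun p => hZ p ▸ (nF.pcore _).subcent nF.nrm
  have z2 : ∀ p, PGrp p (Z p) := fun p => hZ p ▸ (pcore_pi _ _).inf_left _
  have z3 : ∀ p, M ≤ C(Z p) := fun p => hZ p ▸ centsC (inf_le_right.trans (cen_anti hM))
  have z4 : ∀ p, Z p ≤ M := fun p =>
    (le_inf (hZ p ▸ inf_le_left.trans (pcore_le _ _)) (centsC (z3 p))).trans hCM
  have z5 : ∀ p ∈ piOf F(H), C(Z p) ≤ H := fun p hp => (cen_le_nrm _).trans (hHmax _ ⟨p, _, hp.1,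
    (z2 p).isPGroup, hZ p ▸ (fitting_nil H).meet_cen (pcore_nml _ _) ((fitting_nil H).pcore_ne_bot
      hp rfl), rfl⟩ (z1 p).nrm).le
  have cop : ∀ Y : Subgroup G, PiGrp (primesNotDvd #F(H)) Y → Cop Y F(H) := fun Y h =>
    Nat.coprime_of_dvd fun p hp h1 => (h p hp h1).2
  have A : ∀ Y, Y ≤ R → PiGrp (primesNotDvd #F(H)) Y → M ≤ N(Y) → ∀ p ∈ piOf F(H),
      Y ⊓ C(Z p) = ⊥ := fun Y h1 h2 h3 p hp => by
    have a1 := (cop Y h2).mono_left (inf_le_left : Y ⊓ C(Z p) ≤ Y)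
    have a2 : Y ⊓ C(Z p) ≤ H := inf_le_right.trans (z5 p hp)
    have a3 : Y ⊓ C(Z p) ≤ C(M) := comm_eq_bot.1 (eq_bot_of_le (le_inf (comm_le_left (normsI h3
      (norms_of_le (z3 p)))) ((commSS le_rfl hM).trans (comm_le_right (a2.trans nF.nrm)))) a1.inf)
    have a4 := p_times_q_nil (by rw [sup_eq_right.2 hM]; exact fitting_nil H) a1.symm (centsC a3)
      (norms_of_le hM) (a2.trans nF.nrm) (hCM.trans (centsC a3))
    have a5 : F(H ⊓ C(F(H)) ⊓ R) ≤ F(H) :=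
      fitting_mono_subn ((nml_inf_of_norms hXR).subn.trans (subcent_nml nF.nrm).subn)
    have a6 := le_inf (le_inf a2 a4) (inf_le_left.trans h1)
    exact eq_bot_of_le (le_inf le_rfl ((le_inf a6 (a4.trans (cen_anti a5))).trans
      ((cent_sub_Fitting (Sol.mono hR inf_le_right)).trans a5))) a1.inf
  have ex : ∀ p, ∃ r ∈ piOf F(H), r ≠ p := fun p => by
    obtain ⟨r, h1, h2⟩ := Finset.exists_mem_ne hF2 p
    exact ⟨r, ⟨Nat.prime_of_mem_primeFactors h1, Nat.dvd_of_mem_primeFactors h1⟩, h2⟩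
  have B : ∀ Y, Y ≤ R → PiGrp (primesNotDvd #F(H)) Y → M ≤ N(Y) →
      Y ≤ O[primesNotDvd #F(H)](R) := fun Y h1 h2 h3 => by
    refine (le_inf h1 (le_iInf fun p : piOf F(H) => (?_ : Y ≤ O[{p.1}ᶜ](R ⊔ M)))).trans (pcore_max
      (fun p hp hd => ⟨hp, fun e => ?_⟩) (nml_inf_of_norms (norms_iInf fun p =>
        le_sup_left.trans (pcore_nrm _ _))))
    · obtain ⟨p, hp⟩ := p
      obtain ⟨r, hr, ne⟩ := ex p
      have b1 : Z r ≤ O[{p}ᶜ](R ⊔ M) := (pcore_max ((z2 r).p' ne) ⟨le_inf ((z4 r).trans le_sup_right)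
        ((z4 r).trans (z3 p)), inf_le_right.trans ((z5 p hp).trans (z1 r).nrm)⟩).trans
        (p'core_cent_pgroup (z2 p) ((z4 p).trans le_sup_right)
          (Sol.sup hR ((fitting_nil H).sol.mono hM) hMR))
      have b2 := (coprime_cent_prod ((z4 r).trans h3) ((cop Y h2).mono_right ((z4 r).trans hM))
        (Sol.mono hR h1)).sup
      rw [A Y h1 h2 h3 r hr, sup_bot_eq] at b2
      exact b2.ge.trans ((commSS le_rfl b1).trans (comm_le_right ((h1.trans le_sup_left).trans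
        (pcore_nrm _ _))))
    · exact ((pcore_pi {p}ᶜ (R ⊔ M)).mono (inf_le_right.trans (iInf_le
        (fun p : piOf F(H) => O[{p.1}ᶜ](R ⊔ M)) ⟨p, hp, e⟩))) p hp hd rfl
  have k1 := norms_pcore (primesNotDvd #F(H)) hMR
  have k2 := (cop _ (pcore_pi _ R)).mono_right hM
  have k3 := Or.inl (b := Sol M) (Sol.mono hR (pcore_le (primesNotDvd #F(H)) R))
  obtain ⟨P, hP, nP⟩ := coprime_Sylow_exists q k1 k2 k3
  have C : ∀ Y ∈ invSubgroups R M {q}, Y ≤ P := fun Y ⟨h1, h2, h3⟩ => by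
    obtain ⟨c, hc, e⟩ := coprime_Sylow_Jsub k1 k2 k3 hP nP (B Y h1 (fun p hp hd =>
      ⟨hp, by rwa [h2 p hp hd]⟩) h3) h2 h3
    obtain ⟨r, hr, -⟩ := ex 0
    rwa [mem_bot.1 ((A _ (pcore_le _ _) (pcore_pi _ _) k1 r hr).le ⟨hc.1, cen_anti (z4 r) hc.2⟩),
      cj_one] at e
  have m : P ∈ invSubgroups R M {q} := ⟨hP.le.trans (pcore_le _ _), hP.pi, nP⟩
  have u : ∀ Q ∈ maxInvSubgroups R M {q}, Q = P := fun Q h => (h.2 P m (C Q h.1)).symm
  exact ⟨P, ⟨⟨m, fun Y hY e => (C Y hY).antisymm e⟩, fun Q h => u Q h ▸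
    ⟨hP.le, (p'nat_iff Fact.out).1 hP.idx⟩⟩, fun Q h => u Q h.1⟩


end Cfsg.Agent.S1481
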