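import Cfsg.Statements.S1483
import Mathlib
import Cfsg.Agent.H20.CN1

set_option autoImplicit false
open Cfsg

namespace Cfsg.Agent.S1483

open Cfsg.Agent.H20

/-- Let G be a minimal simple group of odd order in which every non-identity element has nilpotent centralizer. Then any two nilpotent subgroups each contained in no larger nilpotent subgroup are either conjugate or of coprime orders; and for primes p, q, r: if some elements x, y ≠ 1 of p-power and q-power order commute, and some elements y', z ≠ 1 of q-power and r-power order commute, then some elements of p-power and r-power order, both ≠ 1, commute. -/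
theorem result {G : Type*} [Group G] [Finite G] (hG : Cfsg.IsMinSimpleOddOrder G) (hCN : Cfsg.IsCNGroup G) :
    (∀ H₁ H₂ : Subgroup G, (Group.IsNilpotent ↥H₁ ∧ ∀ L : Subgroup G, Group.IsNilpotent L → H₁ ≤ L → L = H₁) → (Group.IsNilpotent ↥H₂ ∧ ∀ L : Subgroup G, Group.IsNilpotent L → H₂ ≤ L → L = H₂) → (∃ g : G, H₂ = H₁.map (MulAut.conj g).toMonoidHom) ∨ (Nat.card H₁).Coprime (Nat.card H₂)) ∧
      ∀ (p q r : ℕ), p.Prime → q.Prime → r.Prime → ∀ (x y y' z : G), x ≠ 1 → y ≠ 1 → y' ≠ 1 → z ≠ 1 →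
        IsPGroup p (Subgroup.zpowers x) → IsPGroup q (Subgroup.zpowers y) → IsPGroup q (Subgroup.zpowers y') → IsPGroup r (Subgroup.zpowers z) →
        x * y = y * x → y' * z = z * y' →
        ∃ x' z' : G, x' ≠ 1 ∧ z' ≠ 1 ∧ IsPGroup p (Subgroup.zpowers x') ∧ IsPGroup r (Subgroup.zpowers z') ∧ x' * z' = z' * x' := by
  refine ⟨fun H₁ H₂ h1 h2 => MaxNil.conj_or_coprime hCN h1 h2, ?_⟩
  intro p q r hp hq hr x y y' z hx hy hy' hz px qy qy' rz c1 c2
  by_cases e1 : p = r
  · subst e1; exact ⟨x, x, hx, hx, px, px, rfl⟩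
  by_cases e2 : p = q
  · subst e2; exact ⟨y', z, hy', hz, qy', rz, c2⟩
  by_cases e3 : q = r
  · subst e3; exact ⟨x, y, hx, hy, px, qy, c1⟩
  haveI : Fact q.Prime := ⟨hq⟩
  obtain ⟨Q, hQ, hle⟩ := H18.exists_sylIn_ge qy le_top
  obtain ⟨g, -, hg⟩ := H22.syl_exists_cj_le hQ le_top qy'
  have h1 : g * y' * g⁻¹ ∈ Q := hg (H22.conj_mem_cj (Subgroup.mem_zpowers y'))
  have hz' : g * z * g⁻¹ ≠ 1 := by simpa using hz
  have rz' := (PE.of_pgrp rz).conj g
  have h2 : Commute y (g * z * g⁻¹) := cn_commute_left hCN hq hr e3 hQ.isP h1 (by simpa using hy')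
    rz' (Commute.map (f := (MulAut.conj g).toMonoidHom) c2) (hle (Subgroup.mem_zpowers y))
  exact ⟨x, g * z * g⁻¹, hx, hz', px, rz'.pgrp,
    cn_commute hCN hy (Eq.symm c1) h2 hp hr e1 (PE.of_pgrp px) rz'⟩

end Cfsg.Agent.S1483
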