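import Cfsg.Statements.S1484
import Mathlib
import Cfsg.Agent.H20.CN4

set_option autoImplicit false
open Cfsg

namespace Cfsg.Agent.S1484

open Cfsg.Agent.H20

/-- Let G be a minimal simple group of odd order in which every non-identity element has nilpotent centralizer, and M₁, …, M_k maximal subgroups, pairwise non-conjugate, such that every maximal subgroup is conjugate to some M_i. Let H_i be the largest normal nilpotent Hall subgroup of M_i. Then the orders of the H_i are pairwise coprime, their product is the order of G, and every element of G is conjugate to an element of some H_i. -/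
theorem result {G : Type*} [Group G] [Finite G] (hG : Cfsg.IsMinSimpleOddOrder G) (hCN : Cfsg.IsCNGroup G) (k : ℕ) (Mrep : Fin k → Subgroup G) (hmax : ∀ i, IsCoatom (Mrep i))
    (hnc : ∀ i j, i ≠ j → ∀ g : G, Mrep j ≠ (Mrep i).map (MulAut.conj g).toMonoidHom) (hall : ∀ M : Subgroup G, IsCoatom M → ∃ i, ∃ g : G, M = (Mrep i).map (MulAut.conj g).toMonoidHom) :
    (∀ i j, i ≠ j → (Nat.card (Cfsg.fittingHallOf (Mrep i))).Coprime (Nat.card (Cfsg.fittingHallOf (Mrep j)))) ∧
      ∏ i, Nat.card (Cfsg.fittingHallOf (Mrep i)) = Nat.card G ∧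
      ∀ x : G, ∃ i, ∃ g : G, g * x * g⁻¹ ∈ Cfsg.fittingHallOf (Mrep i) := by
  choose H hH hM using fun i => ms_exists_maxNil hG hCN (hmax i)
  have hF : ∀ i, Cfsg.fittingHallOf (Mrep i) = H i := fun i => by
    rw [hM i, fittingHallOf_N hCN (hH i)]
  simp only [hF]
  have hcop : ∀ i j, i ≠ j → (Nat.card (H i)).Coprime (Nat.card (H j)) := by
    intro i j hij
    refine ((hH i).conj_or_coprime hCN (hH j)).resolve_left ?_
    rintro ⟨g, hg⟩
    exact hnc i j hij g (by rw [hM i, hM j, hg, H22.cj_def, H22.cj_N])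
  have hcov : ∀ K : Subgroup G, Group.IsNilpotent K → ∃ i g, H22.cj g K ≤ H i := by
    intro K hK
    obtain ⟨L, hL, hle⟩ := exists_maxNil hK
    obtain ⟨i, g, e⟩ := hall _ (ms_coatom hG hCN hL)
    rw [hM i, H22.cj_def, H22.cj_N] at e
    have h1 := fittingHallOf_N hCN hL
    rw [e, fittingHallOf_N hCN ((hH i).cj g)] at h1
    exact ⟨i, g⁻¹, H22.le_cj_iff.1 (h1 ▸ hle)⟩
  refine ⟨hcop, ?_, fun x => ?_⟩
  · apply Nat.dvd_antisymm
    · exact Finset.prod_dvd_of_isRelPrime
        (fun i _ j _ hij => Nat.coprime_iff_isRelPrime.1 (hcop i j hij))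
        fun i _ => Subgroup.card_subgroup_dvd_card _
    · rw [Nat.dvd_iff_prime_pow_dvd_dvd]
      intro p n hp hd
      haveI : Fact p.Prime := ⟨hp⟩
      obtain ⟨K, hK⟩ := Sylow.exists_subgroup_card_pow_prime p hd
      obtain ⟨i, g, h⟩ := hcov K (H22.pgrp_nilp (IsPGroup.of_card hK))
      have := Subgroup.card_dvd_of_le h
      rw [H22.card_cj, hK] at this
      exact this.trans (Finset.dvd_prod_of_mem _ (Finset.mem_univ i))
  · obtain ⟨i, g, h⟩ := hcov (Subgroup.zpowers x) (nil_of_commute fun _ _ _ _ _ a ha b hb _ _ =>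
      H22.mem_C.1 (H22.isMulComm_iff.1 inferInstance hb) a ha)
    exact ⟨i, g, h (H22.conj_mem_cj (Subgroup.mem_zpowers x))⟩

end Cfsg.Agent.S1484
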