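import Cfsg.Statements.S1485
import Cfsg.Agent.H24.Bridge

set_option autoImplicit false
open Cfsg

namespace Cfsg.Agent.S1485

/-- Let H be a normal subgroup of the finite group G and θ an irreducible character of H. On H, the function induced from θ equals r times the sum of the distinct G-conjugates of θ, where r is the number of elements of G fixing θ under conjugation divided by the order of H (the index of H in the inertia group). -/
theorem result {G : Type*} [Group G] [Fintype G] (H : Subgroup G) [hN : H.Normal] (θ : H → ℂ) (hθ : Cfsg.IsIrrCharacter H θ) : (fun h : H => Cfsg.indFun H θ h) = ((Nat.card {g : G // ∀ h : H, θ ⟨g * h * g⁻¹, hN.conj_mem h h.2 g⟩ = θ h} : ℂ) / (Nat.card H : ℂ)) • ∑ᶠ ψ ∈ {ψ : H → ℂ | ∃ g : G, ψ = fun h : H => θ ⟨g * h * g⁻¹, hN.conj_mem h h.2 g⟩}, ψ := by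
  classical
  have h := H24.cfInd_sum_cfclass (H24.Nrm.top H) (H24.irr_CF (H24.extL_mem_irr.2 hθ))
  rw [H24.ind_top_extL] at h
  have hle : H ≤ ⊤ ⊓ H24.inertia (H24.extL H θ) :=
    le_inf le_top (H24.le_inertia (H24.irr_CF (H24.extL_mem_irr.2 hθ)))
  have e1 : Nat.card {g : G // ∀ h : H, θ ⟨g * h * g⁻¹, hN.conj_mem h h.2 g⟩ = θ h} =
      Nat.card ↥(⊤ ⊓ H24.inertia (H24.extL H θ)) :=
    Nat.card_congr (Equiv.subtypeEquivRight fun g => by rw [top_inf_eq, H24.mem_inertia_extL])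
  have e2 : {ψ : H → ℂ | ∃ g : G, ψ = fun h : H => θ ⟨g * h * g⁻¹, hN.conj_mem h h.2 g⟩} =
      ((H24.cfclass ⊤ (H24.extL H θ)).image (H24.subL H) : Finset (H → ℂ)) := by
    ext ψ
    simp only [Set.mem_setOf_eq, Finset.coe_image, Set.mem_image, Finset.mem_coe]
    constructor
    · intro t; exact ⟨_, H24.mem_cfclass_extL.2 t, H24.subL_extL ψ⟩
    · rintro ⟨φ, hφ, rfl⟩
      obtain ⟨g, -, rfl⟩ := H24.mem_cfclass.1 hφ
      exact ⟨g, by rw [H24.cfConj_extL, H24.subL_extL]⟩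
  have hs := H24.cfclass_subset_irr (L := ⊤) (H24.Nrm.top H).nrm (H24.extL_mem_irr.2 hθ)
  rw [e1, e2, finsum_mem_coe_finset, Finset.sum_image fun a ha b hb e =>
    H24.subL_inj (H24.irr_supp (hs ha)) (H24.irr_supp (hs hb)) e, ← H24.relIndex_eq_div_C hle,
    ← map_sum, ← map_smul, ← h]
  rfl

end Cfsg.Agent.S1485
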