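import Cfsg.Statements.S1486
import Cfsg.Agent.H24.Bridge

set_option autoImplicit false
open Cfsg

namespace Cfsg.Agent.S1486

/-- Let H be a normal subgroup of the finite group G and θ, φ irreducible characters of H. If φ is a G-conjugate of θ then the functions induced from θ and φ coincide; if φ is not a G-conjugate of θ then the induced functions are orthogonal. -/
theorem result {G : Type*} [Group G] [Fintype G] (H : Subgroup G) [hN : H.Normal] (θ φ : H → ℂ) (hθ : Cfsg.IsIrrCharacter H θ) (hφ : Cfsg.IsIrrCharacter H φ) : ((∃ g : G, φ = fun h : H => θ ⟨g * h * g⁻¹, hN.conj_mem h h.2 g⟩) → Cfsg.indFun H φ = Cfsg.indFun H θ) ∧ ((¬ ∃ g : G, φ = fun h : H => θ ⟨g * h * g⁻¹, hN.conj_mem h h.2 g⟩) → Cfsg.classInner (Cfsg.indFun H φ) (Cfsg.indFun H θ) = 0) := by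
  rw [← H24.mem_cfclass_extL, ← H24.ind_top_extL, ← H24.ind_top_extL, ← H24.dot_top]
  exact ⟨fun h => H24.ind_eq_of_mem_cfclass (H24.Nrm.top H).nrm h, fun h =>
    H24.not_cfclass_Ind_ortho (H24.Nrm.top H) (H24.extL_mem_irr.2 hθ) (H24.extL_mem_irr.2 hφ) h⟩

end Cfsg.Agent.S1486
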