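import Cfsg.Statements.S1488
import Cfsg.Agent.H24.Bridge

set_option autoImplicit false
open Cfsg

namespace Cfsg.Agent.S1488

/-- Let A be a normal subgroup of the finite group G contained in the subgroup H, let θ be a function on H and θ₁ a function on the image of H in G ⧸ A whose composite with the projection is θ. Then the function induced from θ₁ to G ⧸ A, composed with the projection G → G ⧸ A, equals the function induced from θ to G. -/
theorem result {G : Type*} [Group G] [Fintype G] (A H : Subgroup G) [A.Normal] (hAH : A ≤ H) [Fintype (G ⧸ A)] [Fintype ↥(H.map (QuotientGroup.mk' A))] (θ : H → ℂ) (θ₁ : ↥(H.map (QuotientGroup.mk' A)) → ℂ) (hθ : ∀ x : H, θ₁ ⟨QuotientGroup.mk' A x, Subgroup.mem_map_of_mem _ x.2⟩ = θ x) (g : G) : Cfsg.indFun (H.map (QuotientGroup.mk' A)) θ₁ (QuotientGroup.mk' A g) = Cfsg.indFun H θ g := by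
  let m : (⊤ : Subgroup G) →* G ⧸ A := (QuotientGroup.mk' A).comp (⊤ : Subgroup G).subtype
  have hp : ∀ x, FT.pfun m x = QuotientGroup.mk' A x := fun x => by simp [FT.pfun, m]
  have hm : ∀ K : Subgroup G, FT.pmap m K = K.map (QuotientGroup.mk' A) := fun K => by
    ext y
    simp [FT.pmap, m, Subgroup.mem_subgroupOf]
  have h := H24.ind_cfMorph (m := m) (K := H) (L := ⊤) le_top le_rfl (fun x hx => hAH ?_)
    (H24.extL _ θ₁)
  · have e : H24.cfMorph m H (H24.extL _ θ₁) = H24.extL H θ :=
      H24.CF_ext (H24.cfMorph_mem_Supp _) (H24.extL_mem_Supp _) fun x hx => by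
        rw [H24.cfMorph_apply _ hx, hp, H24.extL_of_mem _ (Subgroup.mem_map_of_mem _ hx),
          H24.extL_of_mem _ hx, hθ ⟨x, hx⟩]
    rw [e, hm, hm, Subgroup.map_top_of_surjective _ (QuotientGroup.mk'_surjective A),
      H24.ind_top_extL, H24.ind_top_extL] at h
    rw [h, H24.cfMorph_apply _ (Subgroup.mem_top g), hp]
  · obtain ⟨y, hy, rfl⟩ := hx.2
    simpa [m] using hy

end Cfsg.Agent.S1488
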