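import Cfsg.Statements.S1489
import Cfsg.Agent.H24.Bridge

set_option autoImplicit false
open Cfsg

namespace Cfsg.Agent.S1489

/-- Let H be a normal subgroup of the finite group G, θ an irreducible character of H, and T the inertia group of θ (the elements g with θ(g h g⁻¹) = θ(h) for all h ∈ H). If ψ and ψ' are irreducible characters of T having nonzero inner product with the function induced from θ to T, then the function induced from ψ to G is an irreducible character of G, and it equals the one induced from ψ' only if ψ = ψ'. -/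
theorem result {G : Type*} [Group G] [Fintype G] (H T : Subgroup G) [hN : H.Normal] [Fintype T] (θ : H → ℂ) (hθ : Cfsg.IsIrrCharacter H θ) (hT : ∀ g : G, g ∈ T ↔ ∀ h : H, θ ⟨g * h * g⁻¹, hN.conj_mem h h.2 g⟩ = θ h) (hHT : H ≤ T) (ψ ψ' : T → ℂ) (hψ : Cfsg.IsIrrCharacter T ψ) (hψ' : Cfsg.IsIrrCharacter T ψ') (hc : Cfsg.classInner (Cfsg.indFun (H.subgroupOf T) (fun x => θ ⟨(x : T), Subgroup.mem_subgroupOf.mp x.2⟩)) ψ ≠ 0) (hc' : Cfsg.classInner (Cfsg.indFun (H.subgroupOf T) (fun x => θ ⟨(x : T), Subgroup.mem_subgroupOf.mp x.2⟩)) ψ' ≠ 0) : Cfsg.IsIrrCharacter G (Cfsg.indFun T ψ) ∧ (Cfsg.indFun T ψ = Cfsg.indFun T ψ' → ψ = ψ') := by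
  have hT' := H24.top_inf_inertia_eq hT
  have key : ∀ ψ : T → ℂ, IsIrrCharacter T ψ → Cfsg.classInner (Cfsg.indFun (H.subgroupOf T)
      (fun x => θ ⟨(x : T), Subgroup.mem_subgroupOf.mp x.2⟩)) ψ ≠ 0 →
      H24.dot H (H24.extL T ψ) (H24.extL H θ) ≠ 0 := fun ψ hψ hc h0 => hc (by
    have := H24.dot_ind_left hHT (H24.extL H θ) (H24.irr_CF (H24.extL_mem_irr.2 hψ))
    rw [H24.dot_symm_zero h0, H24.dot_eq_classInner, H24.subL_ind hHT, H24.subL_extL] at this
    rw [← this]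
    congr 2
    ext x
    rw [H24.extL_of_mem])
  have h1 := @H24.constt_Inertia_irr G _ _ H ⊤ (H24.extL T ψ) _ (H24.Nrm.top H) (H24.extL_mem_irr.2 hθ)
  have h2 := @H24.constt_Inertia_inj G _ _ H ⊤ (H24.extL T ψ) (H24.extL T ψ') _ (H24.Nrm.top H)
    (H24.extL_mem_irr.2 hθ)
  rw [hT'] at h1 h2
  simp only [H24.ind_top_extL, H24.mem_irr_top, H24.extL_mem_irr] at h1 h2
  exact ⟨(h1 hψ (key ψ hψ hc)).1, fun e =>
    H24.extL_injective (h2 hψ hψ' (key ψ hψ hc) (key ψ' hψ' hc') e)⟩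

end Cfsg.Agent.S1489
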