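import Cfsg.Statements.S1491
import Cfsg.Agent.H24.Bridge

set_option autoImplicit false
open Cfsg

namespace Cfsg.Agent.S1491

/-- Let H be a normal subgroup of the finite group G and θ an irreducible character of H with inertia group T, where T/H is abelian (commutators of T lie in H) and the index of H in T is coprime to the order of H. Then the function induced from θ is the sum of a set of exactly [T:H] irreducible characters of G, each of degree [G:T] * θ(1). -/
theorem result {G : Type*} [Group G] [Fintype G] (H T : Subgroup G) [hN : H.Normal] (θ : H → ℂ) (hθ : Cfsg.IsIrrCharacter H θ) (hT : ∀ g : G, g ∈ T ↔ ∀ h : H, θ ⟨g * h * g⁻¹, hN.conj_mem h h.2 g⟩ = θ h) (hab : ∀ x ∈ T, ∀ y ∈ T, x * y * x⁻¹ * y⁻¹ ∈ H) (hcop : Nat.Coprime (Nat.card H) (H.relIndex T)) : ∃ C : Finset (G → ℂ), (∀ χ ∈ C, Cfsg.IsIrrCharacter G χ) ∧ C.card = H.relIndex T ∧ Cfsg.indFun H θ = ∑ χ ∈ C, χ ∧ ∀ χ ∈ C, χ 1 = (T.index : ℂ) * θ 1 := by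
  have hT' := H24.top_inf_inertia_eq hT
  have h := H24.cfInd_Hall_central_Inertia (H24.Nrm.top H) (H24.extL_mem_irr.2 hθ)
  have hle : H ≤ T := hT' ▸ le_inf le_top (H24.le_inertia (H24.irr_CF (H24.extL_mem_irr.2 hθ)))
  rw [hT', H24.ind_top_extL, Subgroup.relIndex_top_right, ← top_inf_eq (H24.inertia _), hT',
    H24.extL_one] at h
  obtain ⟨C, h2, h3, h4, h5⟩ := h (H24.commutator_le_of_forall hab) ⟨hle, hcop⟩
  exact ⟨C, fun χ hχ => H24.mem_irr_top.1 (h2 hχ), h3, h4, h5⟩

end Cfsg.Agent.S1491
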