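import Cfsg.Statements.S1500
import Cfsg.Agent.H24.Bridge

set_option autoImplicit false
open Cfsg

namespace Cfsg.Agent.S1500

/-- Under the Dade hypothesis for (A, L, H), let α be a class function of L vanishing outside A. Then (i) for every class function β of L vanishing outside A, the inner product over G of the Dade images of α and β equals the inner product of α and β over L; and (ii) for every class function χ of G and every function ψ on L whose value at each a ∈ A is the average of χ over the coset a·H(a), the inner product over G of the Dade image of α with χ equals the inner product over L of α with ψ. -/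
theorem result {G : Type*} [Group G] [Fintype G] (A : Set G) (L : Subgroup G) [Fintype L] (H : G → Subgroup G) (hD : Cfsg.DadeHypothesis A L H) (α : L → ℂ) (hα : Cfsg.IsClassFunction L α) (hαA : ∀ x : L, (x : G) ∉ A → α x = 0) : (∀ β : L → ℂ, Cfsg.IsClassFunction L β → (∀ x : L, (x : G) ∉ A → β x = 0) → Cfsg.classInner (Cfsg.dadeIsometry A L H α) (Cfsg.dadeIsometry A L H β) = Cfsg.classInner α β) ∧ (∀ (χ : G → ℂ) (ψ : L → ℂ), Cfsg.IsClassFunction G χ → (∀ a : L, (a : G) ∈ A → ψ a = (Nat.card (H a) : ℂ)⁻¹ * ∑ᶠ u ∈ (H a : Set G), χ (a * u)) → Cfsg.classInner (Cfsg.dadeIsometry A L H α) χ = Cfsg.classInner α ψ) := by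
  have e : ∀ β : L → ℂ, IsClassFunction L β → dadeIsometry A L H β = H24.dade A H (H24.extL L β) :=
    fun β hβ => by rw [H24.dade_eq_dadeIsometry hD (H24.extL_mem_CF.2 hβ), H24.subL_extL]
  refine ⟨fun β hβ _ => ?_, fun χ ψ hχ hψ => ?_⟩
  · rw [e α hα, e β hβ, ← H24.dot_top, H24.Dade_isometry hD (H24.extL_mem_CF.2 hα)
      (H24.extL_mem_Supp_of hαA) (H24.extL_mem_CF.2 hβ), H24.dot_extL]
  · rw [e α hα, ← H24.dot_top, ← H24.dot_extL]
    refine H24.general_Dade_reciprocity hD (H24.extL_mem_CF.2 hα) (H24.extL_mem_Supp_of hαA)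
      (H24.mem_CF_top.2 hχ) fun a ha => ?_
    rw [H24.extL_of_mem _ (hD.subset ha), hψ _ ha, H24.finsum_mem_eq_sum_fs]

end Cfsg.Agent.S1500
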