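import Cfsg.Statements.S1502
import Cfsg.Agent.H24.Bridge

set_option autoImplicit false
open Cfsg

namespace Cfsg.Agent.S1502

/-- Let W₁, W₂ be nontrivial subgroups of the finite group G generating a cyclic subgroup W = W₁ ⊔ W₂ of odd order that is the normaliser of every nonempty set of its elements outside W₁ ∪ W₂. Then there is a family attaching to each linear character ω of W an irreducible character of G up to sign, orthonormal, sending the trivial character to the principal character, with χ ω = ω on W outside W₁ ∪ W₂, and such that inducing (1 − φ)(1 − ψ) to G gives 1 − χ φ − χ ψ + χ (φψ) whenever φ ≠ 1 is trivial on W₂ and ψ ≠ 1 is trivial on W₁. -/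
theorem result {G : Type*} [Group G] [Fintype G] (W₁ W₂ : Subgroup G) (hW : Cfsg.IsSelfNormalizingCyclic W₁ W₂) (hodd : Odd (Nat.card ↥(W₁ ⊔ W₂))) : ∃ χ : (↥(W₁ ⊔ W₂) →* ℂˣ) → (G → ℂ), Cfsg.IsCyclicTIFamily W₁ W₂ χ := by
  have h := (H24.cycTI_top_iff hodd).2 hW
  refine ⟨fun ω => H24.eta ⊤ (H24.linEquiv h.dp ω).1 (H24.linEquiv h.dp ω).2,
    fun ω => H24.dirr_top.1 (h.dirr_eta _ _), fun ω ω' => ?_, ?_, fun ω w h1 h2 => ?_,
    fun φ ψ _ _ h1 h2 => ?_⟩
  · rw [← H24.dot_top, h.dot_eta]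
    by_cases t : ω = ω'
    · simp [t]
    · rw [if_neg t, if_neg fun s => t ((H24.linEquiv h.dp).injective (Prod.ext s.1 s.2))]
  · rw [H24.linEquiv_one, h.eta_one_one, H24.one_top]; rfl
  · rw [h.eta_on _ _ ((H24.mem_zhat h.dp).2 ⟨w.2, h1, h2⟩), ← H24.lin_eq_omega', H24.lin_coe]
  · rw [← H24.ind_top_extL, H24.extL_eq_cycAlpha h.dp h1 h2, h.ind_cycAlpha,
      H24.linEquiv_mul_of h.dp h1 h2, (H24.linEquiv_snd_one h.dp).2 h1,
      (H24.linEquiv_fst_one h.dp).2 h2, H24.one_top]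
    rfl

end Cfsg.Agent.S1502
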