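import Cfsg.Statements.S1504
import Cfsg.Agent.H24.Bridge

set_option autoImplicit false
open Cfsg

namespace Cfsg.Agent.S1504

/-- Let W₁, W₂ be subgroups of a finite group with W₁ ⊓ W₂ = ⊥ whose elements commute, and W = W₁ ⊔ W₂. For linear characters φ, ψ of W with φ trivial on W₂ and ψ trivial on W₁, the function (1 − φ)(1 − ψ) vanishes on W₁ ∪ W₂; and the family of these functions, indexed by pairs (φ, ψ) with φ ≠ 1 ≠ ψ, is linearly independent over ℂ. -/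
theorem result {G : Type*} [Group G] [Finite G] (W₁ W₂ : Subgroup G) (hdisj : W₁ ⊓ W₂ = ⊥) (hcomm : ∀ a ∈ W₁, ∀ b ∈ W₂, a * b = b * a) : (∀ φ ψ : ↥(W₁ ⊔ W₂) →* ℂˣ, (∀ w : ↥(W₁ ⊔ W₂), (w : G) ∈ W₂ → φ w = 1) → (∀ w : ↥(W₁ ⊔ W₂), (w : G) ∈ W₁ → ψ w = 1) → ∀ w : ↥(W₁ ⊔ W₂), ((w : G) ∈ W₁ ∨ (w : G) ∈ W₂) → (1 - (φ w : ℂ) - (ψ w : ℂ) + (φ w : ℂ) * (ψ w : ℂ)) = 0) ∧ LinearIndependent ℂ (fun p : {p : (↥(W₁ ⊔ W₂) →* ℂˣ) × (↥(W₁ ⊔ W₂) →* ℂˣ) // p.1 ≠ 1 ∧ p.2 ≠ 1 ∧ (∀ w : ↥(W₁ ⊔ W₂), (w : G) ∈ W₂ → p.1 w = 1) ∧ (∀ w : ↥(W₁ ⊔ W₂), (w : G) ∈ W₁ → p.2 w = 1)} => fun w : ↥(W₁ ⊔ W₂) => 1 - (p.1.1 w : ℂ) - (p.1.2 w : ℂ) + (p.1.1 w : ℂ) * (p.1.2 w : ℂ)) := by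
  classical
  have h : FT.DP W₁ W₂ (W₁ ⊔ W₂) :=
    ⟨fun b hb => Subgroup.mem_centralizer_iff.2 fun a ha => hcomm a ha b hb, rfl, hdisj⟩
  refine ⟨fun φ ψ h1 h2 w hw => ?_, ?_⟩
  · rcases hw with hw | hw
    · rw [h2 w hw]; simp
    · rw [h1 w hw]; simp
  · refine LinearIndependent.of_comp (H24.extL (W₁ ⊔ W₂)) (linearIndependent_iff'.2 fun s c hc p hp => ?_)
    have e := congrArg (fun f => H24.dot (W₁ ⊔ W₂) f
      (H24.omega (H24.linEquiv h p.1.1).1 (H24.linEquiv h p.1.2).2)) hc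
    have n1 : (1 : W₁ →* ℂˣ) ≠ (H24.linEquiv h p.1.1).1 := fun t => p.2.1 ((H24.linEquiv h).injective
      (by rw [H24.linEquiv_left h p.2.2.2.1, ← t]; rfl))
    have n2 : (1 : W₂ →* ℂˣ) ≠ (H24.linEquiv h p.1.2).2 := fun t => p.2.2.1 ((H24.linEquiv h).injective
      (by rw [H24.linEquiv_right h p.2.2.2.2, ← t]; rfl))
    simp only [H24.dot_sum_left, H24.dot_smul_left, Function.comp_apply, H24.dot_zero_left] at e
    rw [Finset.sum_eq_single p (fun q _ hq => ?_) (fun t => absurd hp t),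
      H24.extL_eq_cycAlpha h p.2.2.2.1 p.2.2.2.2, H24.dot_cycAlpha_omega h] at e
    · simpa [n1, n2] using e
    · rw [H24.extL_eq_cycAlpha h q.2.2.2.1 q.2.2.2.2, H24.dot_cycAlpha_omega h, if_neg n1, if_neg n2]
      by_cases t1 : (H24.linEquiv h q.1.1).1 = (H24.linEquiv h p.1.1).1
      · by_cases t2 : (H24.linEquiv h q.1.2).2 = (H24.linEquiv h p.1.2).2
        · refine absurd (Subtype.ext (Prod.ext ((H24.linEquiv h).injective ?_)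
            ((H24.linEquiv h).injective ?_))) hq
          · rw [H24.linEquiv_left h q.2.2.2.1, H24.linEquiv_left h p.2.2.2.1, t1]
          · rw [H24.linEquiv_right h q.2.2.2.2, H24.linEquiv_right h p.2.2.2.2, t2]
        · simp [t2]
      · simp [t1]

end Cfsg.Agent.S1504
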