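import Cfsg.Statements.S1505
import Cfsg.Agent.H24.Bridge

set_option autoImplicit false
open Cfsg

namespace Cfsg.Agent.S1505

open Classical in
/-- Let W₁, W₂ ≤ G form a self-normalising cyclic subgroup W = W₁ ⊔ W₂. For nontrivial linear characters φ, φ' of W trivial on W₂ and ψ, ψ' trivial on W₁, put α = (1 − φ)(1 − ψ) and α' = (1 − φ')(1 − ψ'). Then the function induced from α to G has inner product 1 with the principal character, and the inner product of the functions induced from α and α' is 1 + a + b + ab where a = 1 if φ = φ' (else 0) and b = 1 if ψ = ψ' (else 0). -/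
theorem result {G : Type*} [Group G] [Fintype G] (W₁ W₂ : Subgroup G) (hW : Cfsg.IsSelfNormalizingCyclic W₁ W₂) (φ φ' ψ ψ' : ↥(W₁ ⊔ W₂) →* ℂˣ) (hφ : φ ≠ 1) (hφ' : φ' ≠ 1) (hψ : ψ ≠ 1) (hψ' : ψ' ≠ 1) (hφ₂ : ∀ w : ↥(W₁ ⊔ W₂), (w : G) ∈ W₂ → φ w = 1 ∧ φ' w = 1) (hψ₁ : ∀ w : ↥(W₁ ⊔ W₂), (w : G) ∈ W₁ → ψ w = 1 ∧ ψ' w = 1) : Cfsg.classInner (Cfsg.indFun (W₁ ⊔ W₂) (fun w => 1 - (φ w : ℂ) - (ψ w : ℂ) + (φ w : ℂ) * (ψ w : ℂ))) (fun _ => 1) = 1 ∧ Cfsg.classInner (Cfsg.indFun (W₁ ⊔ W₂) (fun w => 1 - (φ w : ℂ) - (ψ w : ℂ) + (φ w : ℂ) * (ψ w : ℂ))) (Cfsg.indFun (W₁ ⊔ W₂) (fun w => 1 - (φ' w : ℂ) - (ψ' w : ℂ) + (φ' w : ℂ) * (ψ' w : ℂ))) = 1 + (if φ = φ' then 1 else 0) + (if ψ = ψ' then 1 else 0) + (if φ = φ' then 1 else 0) * (if ψ = ψ' then 1 else 0) := by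
  have h := H24.preTI_top_iff.2 hW
  have n1 : ∀ a : ↥(W₁ ⊔ W₂) →* ℂˣ, ∀ b, (∀ w : ↥(W₁ ⊔ W₂), (w : G) ∈ W₂ → a w = 1) →
      (∀ w : ↥(W₁ ⊔ W₂), (w : G) ∈ W₂ → b w = 1) →
      ((H24.linEquiv h.dp a).1 = (H24.linEquiv h.dp b).1 ↔ a = b) := fun a b ha hb =>
    ⟨fun t => (H24.linEquiv h.dp).injective (by
      rw [H24.linEquiv_left h.dp ha, H24.linEquiv_left h.dp hb, t]), fun t => by rw [t]⟩
  have n2 : ∀ a : ↥(W₁ ⊔ W₂) →* ℂˣ, ∀ b, (∀ w : ↥(W₁ ⊔ W₂), (w : G) ∈ W₁ → a w = 1) →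
      (∀ w : ↥(W₁ ⊔ W₂), (w : G) ∈ W₁ → b w = 1) →
      ((H24.linEquiv h.dp a).2 = (H24.linEquiv h.dp b).2 ↔ a = b) := fun a b ha hb =>
    ⟨fun t => (H24.linEquiv h.dp).injective (by
      rw [H24.linEquiv_right h.dp ha, H24.linEquiv_right h.dp hb, t]), fun t => by rw [t]⟩
  have a1 := fun w hw => (hφ₂ w hw).1
  have a2 := fun w hw => (hφ₂ w hw).2
  have b1 := fun w hw => (hψ₁ w hw).1
  have b2 := fun w hw => (hψ₁ w hw).2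
  have c1 := mt (n1 φ 1 a1 fun _ _ => rfl).1 hφ
  have c2 := mt (n1 φ' 1 a2 fun _ _ => rfl).1 hφ'
  have d1 := mt (n2 ψ 1 b1 fun _ _ => rfl).1 hψ
  have d2 := mt (n2 ψ' 1 b2 fun _ _ => rfl).1 hψ'
  rw [← H24.ind_top_extL, ← H24.ind_top_extL, H24.extL_eq_cycAlpha h.dp a1 b1,
    H24.extL_eq_cycAlpha h.dp a2 b2, ← H24.dot_top, ← H24.dot_top, h.dot_ind_cycAlpha c1 c2 d1 d2]
  refine ⟨?_, ?_⟩
  · have := h.dot_ind_cycAlpha_one c1 d1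
    rwa [H24.one_top] at this
  · simp only [n1 φ φ' a1 a2, n2 ψ ψ' b1 b2]
    split_ifs <;> ring

end Cfsg.Agent.S1505
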