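import Cfsg.Statements.S1507
import Cfsg.Agent.H24.Bridge

set_option autoImplicit false
open Cfsg

namespace Cfsg.Agent.S1507

open Classical in
/-- Let W₁, W₂ ≤ G form a self-normalising cyclic subgroup W = W₁ ⊔ W₂ of odd order with Nat.card W₁ < Nat.card W₂, and χ an orthonormal family of irreducible characters of G up to sign, indexed by the linear characters ω of W, with χ_1 = 1, χ_ω = ω on W outside W₁ ∪ W₂, and the induction identity for (1 − φ)(1 − ψ). Let θ be a class function of G vanishing on W outside W₁ ∪ W₂, and suppose fewer than 2 · Nat.card W₁ linear characters ω of W have ⟨θ, χ ω⟩ ≠ 0. Then one of: all ⟨θ, χ ω⟩ vanish; or there are ψ₀ and a with ⟨θ, χ ω⟩ = a when ω ψ₀⁻¹ is trivial on W₂ and 0 otherwise; or there are φ₀ and a with ⟨θ, χ ω⟩ = a when ω φ₀⁻¹ is trivial on W₁ and 0 otherwise. -/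
theorem result {G : Type*} [Group G] [Fintype G] (W₁ W₂ : Subgroup G) (hW : Cfsg.IsSelfNormalizingCyclic W₁ W₂) (hodd : Odd (Nat.card ↥(W₁ ⊔ W₂))) (χ : (↥(W₁ ⊔ W₂) →* ℂˣ) → (G → ℂ)) (hχ : Cfsg.IsCyclicTIFamily W₁ W₂ χ) (hlt : Nat.card W₁ < Nat.card W₂) (θ : G → ℂ) (hθ : Cfsg.IsClassFunction G θ) (hθV : ∀ w : ↥(W₁ ⊔ W₂), (w : G) ∉ W₁ → (w : G) ∉ W₂ → θ w = 0) (hfew : Nat.card {ω : ↥(W₁ ⊔ W₂) →* ℂˣ // Cfsg.classInner θ (χ ω) ≠ 0} < 2 * Nat.card W₁) : (∀ ω, Cfsg.classInner θ (χ ω) = 0) ∨ (∃ (ψ₀ : ↥(W₁ ⊔ W₂) →* ℂˣ) (a : ℂ), ∀ ω, Cfsg.classInner θ (χ ω) = if (∀ w : ↥(W₁ ⊔ W₂), (w : G) ∈ W₂ → (ω * ψ₀⁻¹) w = 1) then a else 0) ∨ (∃ (φ₀ : ↥(W₁ ⊔ W₂) →* ℂˣ) (a : ℂ), ∀ ω, Cfsg.classInner θ (χ ω) = if (∀ w : ↥(W₁ ⊔ W₂), (w : G) ∈ W₁ → (ω * φ₀⁻¹) w = 1) then a else 0) := by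
  have h := (H24.cycTI_top_iff hodd).2 hW
  refine or_iff_not_imp_left.2 fun hn => ?_
  obtain ⟨ω₀, h0⟩ := not_forall.1 hn
  have hc : (Finset.univ.filter fun p : (W₁ →* ℂˣ) × (W₂ →* ℂˣ) =>
      H24.dot ⊤ θ (χ ((H24.linEquiv h.dp).symm (p.1, p.2))) ≠ 0).card =
      Nat.card {ω : ↥(W₁ ⊔ W₂) →* ℂˣ // Cfsg.classInner θ (χ ω) ≠ 0} := by
    rw [← Nat.card_eq_finsetCard]
    exact Nat.card_congr ((H24.linEquiv h.dp).symm.subtypeEquiv fun p => by simp [H24.dot_top])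
  have key := (H24.etaFam_of_family h.dp hχ).small h (H24.mem_CF_top.2 hθ) (fun x hx =>
    hθV ⟨x, ((H24.mem_zhat h.dp).1 hx).1⟩ ((H24.mem_zhat h.dp).1 hx).2.1 ((H24.mem_zhat h.dp).1 hx).2.2)
    (by rw [hc]; exact hfew) (by rw [hc]; omega) (i₀ := (H24.linEquiv h.dp ω₀).1)
    (j₀ := (H24.linEquiv h.dp ω₀).2) (by simpa [H24.dot_top] using h0)
  simp only [H24.dot_top, Prod.mk.eta, Equiv.symm_apply_apply] at key
  refine key.imp (fun t => ⟨ω₀, classInner θ (χ ω₀), fun ω => ?_⟩)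
    (fun t => ⟨ω₀, classInner θ (χ ω₀), fun ω => ?_⟩)
  · have := t (H24.linEquiv h.dp ω).1 (H24.linEquiv h.dp ω).2
    rw [Prod.mk.eta, Equiv.symm_apply_apply] at this
    rw [this]
    simp only [H24.linEquiv_snd_eq, MonoidHom.mul_apply, MonoidHom.inv_apply, mul_inv_eq_one]
  · have := t (H24.linEquiv h.dp ω).1 (H24.linEquiv h.dp ω).2
    rw [Prod.mk.eta, Equiv.symm_apply_apply] at this
    rw [this]
    simp only [H24.linEquiv_fst_eq, MonoidHom.mul_apply, MonoidHom.inv_apply, mul_inv_eq_one]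

end Cfsg.Agent.S1507
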