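import Cfsg.Statements.S1511
import Cfsg.Agent.H24.Bridge

set_option autoImplicit false
open Cfsg

namespace Cfsg.Agent.S1511

/-- Let L be a finite group with K normal with complement W₁ ≠ 1 a cyclic Hall subgroup, and W₂ ≠ 1 a cyclic subgroup of K equal to C_K(x) for every non-identity x ∈ W₁, with W₁W₂ of odd order. Then there are a map μ from the linear characters of W = W₁ ⊔ W₂ to irreducible characters of L, injective, and a sign δ(ω) ∈ {1, −1} depending only on the values of ω on W₂, such that: for ω, ω' agreeing on W₂, the function induced to L from ω − ω' equals δ(ω) • (μ ω − μ ω'); μ ω x = δ(ω) ω x for x ∈ W outside W₂; every irreducible character of L not of the form μ ω vanishes on W outside W₂; and μ ω 1 − δ(ω) is an integer multiple of Nat.card W₁. -/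
theorem result {L : Type*} [Group L] [Fintype L] (K W₁ W₂ : Subgroup L) [hK : K.Normal] (hKW₁ : K ⊓ W₁ = ⊥) (hKW₁' : K ⊔ W₁ = ⊤) (hW₁ : W₁ ≠ ⊥) (hW₁c : IsCyclic W₁) (hHall : Nat.Coprime (Nat.card W₁) W₁.index) (hW₂ : W₂ ≠ ⊥) (hW₂c : IsCyclic W₂) (hW₂K : W₂ ≤ K) (hC : ∀ x ∈ W₁, x ≠ 1 → K ⊓ Subgroup.centralizer ({x} : Set L) = W₂) (hodd : Odd (Nat.card ↥(W₁ ⊔ W₂))) : ∃ (μ : (↥(W₁ ⊔ W₂) →* ℂˣ) → (L → ℂ)) (δ : (↥(W₁ ⊔ W₂) →* ℂˣ) → ℂ), Function.Injective μ ∧ (∀ ω, Cfsg.IsIrrCharacter L (μ ω)) ∧ (∀ ω, δ ω = 1 ∨ δ ω = -1) ∧ (∀ ω ω' : ↥(W₁ ⊔ W₂) →* ℂˣ, (∀ w : ↥(W₁ ⊔ W₂), (w : L) ∈ W₂ → ω w = ω' w) → δ ω = δ ω' ∧ Cfsg.indFun (W₁ ⊔ W₂) (fun w => (ω w : ℂ) - (ω' w : ℂ)) = δ ω • (μ ω - μ ω')) ∧ (∀ ω, ∀ w : ↥(W₁ ⊔ W₂), (w : L) ∉ W₂ → μ ω w = δ ω * (ω w : ℂ)) ∧ (∀ θ : L → ℂ, Cfsg.IsIrrCharacter L θ → (∀ ω, θ ≠ μ ω) → ∀ w : ↥(W₁ ⊔ W₂), (w : L) ∉ W₂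 → θ w = 0) ∧ (∀ ω, ∃ n : ℤ, μ ω 1 - δ ω = n * (Nat.card W₁ : ℂ)) := by
  have h := H24.primeTI_top hKW₁ hKW₁' hW₁ hW₁c hHall hW₂ hW₂c hW₂K hC hodd
  refine ⟨fun ω => H24.prIrr ⊤ (H24.linEquiv h.dp ω).1 (H24.linEquiv h.dp ω).2,
    fun ω => H24.prSign ⊤ W₁ (H24.linEquiv h.dp ω).2,
    fun a b e => (H24.linEquiv h.dp).injective (Prod.ext_iff.2 (h.prIrr_inj.1 e)),
    fun ω => H24.mem_irr_top.1 (h.prIrr_mem_irr _ _), fun ω => ?_, fun ω ω' e => ?_,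
    fun ω w hw => ?_, fun θ hθ hn w hw => ?_, fun ω => ?_⟩
  · rcases H24.prSign_cases ⊤ W₁ (H24.linEquiv h.dp ω).2 with e | e <;> simp [e]
  · have e' := (H24.linEquiv_snd_eq h.dp).2 e
    beta_reduce
    refine ⟨by rw [e'], ?_⟩
    have := h.ind_sub_omega (H24.linEquiv h.dp ω).1 (H24.linEquiv h.dp ω').1 (H24.linEquiv h.dp ω).2
    rw [← H24.lin_eq_omega'] at this
    conv_lhs at this => rw [e', ← H24.lin_eq_omega']
    rw [← H24.ind_top_extL, Int.cast_smul_eq_zsmul, ← e', ← this, H24.lin, H24.lin, ← map_sub]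
    rfl
  · beta_reduce
    rw [h.prIrr_id _ _ w.2 hw, ← H24.lin_eq_omega', H24.lin_coe]
  · exact h.not_prIrr_vanish (H24.mem_irr_top.2 hθ) (fun i j => by
      simpa using hn ((H24.linEquiv h.dp).symm (i, j))) w.2 hw
  · obtain ⟨n, hn⟩ := h.prIrr_one_mod (H24.linEquiv h.dp ω).1 (H24.linEquiv h.dp ω).2
    refine ⟨n, ?_⟩
    beta_reduce
    rw [← H24.irr_deg_eq (h.prIrr_mem_irr _ _), mul_comm]
    exact_mod_cast hn

end Cfsg.Agent.S1511
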