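import Cfsg.Statements.S1512
import Cfsg.Agent.H24.Bridge

set_option autoImplicit false
open Cfsg

namespace Cfsg.Agent.S1512

/-- Let K be a normal subgroup of the finite group L and x a non-identity element whose order is coprime to the order of K, such that K ⊓ C_L(y) = W₂ for every non-identity element y of the cyclic group generated by x. Then the number of conjugacy classes of K mapped to themselves by conjugation by x is at most Nat.card W₂. -/
theorem result {L : Type*} [Group L] [Finite L] (K W₂ : Subgroup L) [hK : K.Normal] (x : L) (hx1 : x ≠ 1) (hx : Nat.Coprime (orderOf x) (Nat.card K)) (hC : ∀ y ∈ Subgroup.zpowers x, y ≠ 1 → K ⊓ Subgroup.centralizer ({y} : Set L) = W₂) : Nat.card {C : ConjClasses K // ConjClasses.map (MulEquiv.toMonoidHom ((MulAut.conjNormal x : MulAut K))) C = C} ≤ Nat.card W₂ := by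
  rw [← hC x (Subgroup.mem_zpowers x) hx1]
  have key : ∀ C : {C : ConjClasses K // ConjClasses.map (MulEquiv.toMonoidHom
      ((MulAut.conjNormal x : MulAut K))) C = C}, ∃ c : ↥(K ⊓ Subgroup.centralizer ({x} : Set L)),
      ConjClasses.mk (⟨c, c.2.1⟩ : K) = C.1 := by
    rintro ⟨C, hCx⟩
    obtain ⟨h, rfl⟩ := ConjClasses.mk_surjective C
    have hc : IsConj (MulAut.conjNormal x h) h := ConjClasses.mk_eq_mk_iff_isConj.1 hCx
    obtain ⟨a, ha⟩ := isConj_iff.1 hc.symm
    obtain ⟨k, hk, e⟩ := H24.exists_cent_mem_class (H := K) (x := x) (h := h)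
      ((H24.Nrm.top K).nrm (Subgroup.mem_top x)) hx (H24.mem_clsupp_singleton.2 ⟨a, a.2, by
        simpa using (congrArg Subtype.val ha).symm⟩)
    refine ⟨⟨k * h * k⁻¹, K.mul_mem (K.mul_mem hk h.2) (K.inv_mem hk),
      Subgroup.mem_centralizer_singleton_iff.2 e.symm⟩, ConjClasses.mk_eq_mk_iff_isConj.2 ?_⟩
    exact IsConj.symm (isConj_iff.2 ⟨(⟨k, hk⟩ : K), rfl⟩)
  choose f hf using key
  exact Nat.card_le_card_of_injective f fun a b e => Subtype.ext (by rw [← hf, ← hf, e])

end Cfsg.Agent.S1512
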