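import Cfsg.Statements.S1513
import Cfsg.Agent.H24.Bridge

set_option autoImplicit false
open Cfsg

namespace Cfsg.Agent.S1513

/-- Let L be a finite group with K normal with complement W₁ ≠ 1 a cyclic Hall subgroup, and W₂ ≠ 1 a cyclic subgroup of K equal to C_K(x) for every non-identity x ∈ W₁, with W₁W₂ of odd order. For an irreducible character θ of K: if θ is not fixed under conjugation by some element of W₁, then the function induced from θ to L is an irreducible character of L; and the irreducible characters of K fixed by all of W₁ are exactly Nat.card W₂ in number, each inducing to the sum of Nat.card W₁ pairwise distinct irreducible characters of L. -/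
theorem result {L : Type*} [Group L] [Fintype L] (K W₁ W₂ : Subgroup L) [hK : K.Normal] (hKW₁ : K ⊓ W₁ = ⊥) (hKW₁' : K ⊔ W₁ = ⊤) (hW₁ : W₁ ≠ ⊥) (hW₁c : IsCyclic W₁) (hHall : Nat.Coprime (Nat.card W₁) W₁.index) (hW₂ : W₂ ≠ ⊥) (hW₂c : IsCyclic W₂) (hW₂K : W₂ ≤ K) (hC : ∀ x ∈ W₁, x ≠ 1 → K ⊓ Subgroup.centralizer ({x} : Set L) = W₂) (hodd : Odd (Nat.card ↥(W₁ ⊔ W₂))) : (∀ θ : K → ℂ, Cfsg.IsIrrCharacter K θ → (∃ x ∈ W₁, (fun k : K => θ ⟨x * k * x⁻¹, hK.conj_mem (k : L) k.2 x⟩) ≠ θ) → Cfsg.IsIrrCharacter L (Cfsg.indFun K θ)) ∧ Nat.card {θ : Cfsg.IrrCharacter K // ∀ x ∈ W₁, (fun k : K => (θ : K → ℂ) ⟨x * k * x⁻¹, hK.conj_mem (k : L) k.2 x⟩) = θ} = Nat.card W₂ ∧ (∀ θ : K → ℂ, Cfsg.IsIrrCharacter K θ → (∀ x ∈ W₁, (fun k : K => θ ⟨x * k * x⁻¹, hK.conj_mem (k : L) k.2 x⟩) = θ) → ∃ C : Finset (L → ℂ), C.card = Nat.card W₁ ∧ (∀ μ ∈ C, Cfsg.IsIrrCharacter L μ) ∧ Cfsg.indFun K θ = ∑ μ ∈ C, μ)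 := by
  classical
  have h := H24.primeTI_top hKW₁ hKW₁' hW₁ hW₁c hHall hW₂ hW₂c hW₂K hC hodd
  obtain ⟨a, ha⟩ := H24.sharp_nonempty hW₁
  simp only [← H24.mem_inertia_extL', Ne]
  refine ⟨fun θ hθ ⟨x, _, hx⟩ => ?_, ?_, fun θ hθ hx => ?_⟩
  · rcases h.prRes_irr_cases (H24.extL_mem_irr.2 hθ) with ⟨j, e⟩ | ⟨t, -⟩
    · exact absurd (e ▸ h.le_inertia_prRes j (Subgroup.mem_top x)) hx
    · rwa [H24.ind_top_extL, H24.mem_irr_top] at t
  · rw [← h.cycTI.card_lin₂, ← Nat.card_eq_fintype_card]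
    have hi : ∀ j : W₂ →* ℂˣ, ∀ x ∈ W₁,
        x ∈ H24.inertia (H24.extL K (H24.subL K (H24.prRes ⊤ K W₁ j))) := fun j x _ => by
      rw [H24.extL_subL, H24.res_eq_self (H24.irr_supp (h.prRes_mem_irr j))]
      exact h.le_inertia_prRes j (Subgroup.mem_top x)
    refine (Nat.card_congr (Equiv.ofBijective (fun j => ⟨⟨H24.subL K (H24.prRes ⊤ K W₁ j),
      (H24.mem_irr.1 (h.prRes_mem_irr j)).2⟩, hi j⟩) ⟨fun a b e => ?_, fun θ => ?_⟩)).symm
    · exact h.prRes_inj.1 (H24.subL_inj (H24.irr_supp (h.prRes_mem_irr a))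
        (H24.irr_supp (h.prRes_mem_irr b)) (congrArg (fun t => t.1.1) e))
    · obtain ⟨j, e⟩ := h.eq_prRes_of_inertia (H24.extL_mem_irr.2 θ.1.2) ha.1 ha.2 (θ.2 a ha.1)
      exact ⟨j, Subtype.ext (Subtype.ext (by simp only [← e, H24.subL_extL]))⟩
  · obtain ⟨j, e⟩ := h.eq_prRes_of_inertia (H24.extL_mem_irr.2 hθ) ha.1 ha.2 (hx a ha.1)
    have hinj : Function.Injective fun i : W₁ →* ℂˣ => H24.prIrr ⊤ i j :=
      fun a b e => (h.prIrr_inj.1 e).1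
    refine ⟨Finset.univ.image fun i : W₁ →* ℂˣ => H24.prIrr ⊤ i j, ?_, fun μ hμ => ?_, ?_⟩
    · rw [Finset.card_image_of_injective _ hinj, Finset.card_univ, h.cycTI.card_lin₁]
    · obtain ⟨i, -, rfl⟩ := Finset.mem_image.1 hμ
      exact H24.mem_irr_top.1 (h.prIrr_mem_irr i j)
    · rw [Finset.sum_image fun a _ b _ e => hinj e, ← H24.ind_top_extL, e, h.ind_prRes, H24.prRed]

end Cfsg.Agent.S1513
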