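import Cfsg.Statements.S1515
import Mathlib
import Cfsg.Agent.H2.CohBridge

set_option autoImplicit false
open Cfsg

namespace Cfsg.Agent.S1515

open Cfsg.Agent.H24

/-- Let (S, τ, R) be a coherence system from L to G, χ ∈ S, and ψ an integer combination of S with ⟨χ, ψ⟩ = ⟨conj χ, ψ⟩ = 0. Let τ₁ be a linear isometry on the integer combinations of χ − ψ and χ − conj χ, with virtual-character values, agreeing with τ on integer multiples of χ − conj χ. Then the sum over α ∈ R χ of the squared absolute values of ⟨τ₁(χ − ψ), α⟩ is at least ⟨χ, χ⟩; and if ⟨τ₁(χ − ψ), τ₁(χ − ψ)⟩ minus that sum is at least ⟨ψ, ψ⟩, then the sum equals ⟨χ, χ⟩ and every ⟨τ₁(χ − ψ), α⟩ with α ∈ R χ is 0 or 1. -/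
theorem result {L : Type*} [Group L] [Fintype L] {G : Type*} [Group G] [Fintype G] (S : Set (L → ℂ)) (τ : (L → ℂ) → (G → ℂ)) (R : (L → ℂ) → Finset (G → ℂ)) (hS : Cfsg.IsCoherenceSystem S τ R) (χ : L → ℂ) (hχ : χ ∈ S) (ψ : L → ℂ) (hψ : ψ ∈ Cfsg.zspan S) (h1 : Cfsg.classInner χ ψ = 0) (h2 : Cfsg.classInner (Cfsg.conjFun χ) ψ = 0) (τ₁ : (L → ℂ) → (G → ℂ)) (hτ₁ : Cfsg.IsLinearIsometryOn (Cfsg.zspan {χ - ψ, χ - Cfsg.conjFun χ}) τ₁) (hagree : ∀ n : ℤ, τ₁ (n • (χ - Cfsg.conjFun χ)) = τ (n • (χ - Cfsg.conjFun χ))) : (Cfsg.classInner χ χ).re ≤ ∑ α ∈ R χ, ‖Cfsg.classInner (τ₁ (χ - ψ)) α‖ ^ 2 ∧ ((Cfsg.classInner ψ ψ).re ≤ (Cfsg.classInner (τ₁ (χ - ψ)) (τ₁ (χ - ψ))).re - ∑ α ∈ R χ, ‖Cfsg.classInner (τ₁ (χ - ψ)) α‖ ^ 2 → (∑ α ∈ R χ, ‖Cfsg.classInner (τ₁ (χ - ψ)) α‖ ^ 2 = (Cfsg.classInner χ χ).re ∧ ∀ α ∈ R χ, Cfsg.classInner (τ₁ (χ - ψ))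 α = 0 ∨ Cfsg.classInner (τ₁ (χ - ψ)) α = 1)) := by
  classical
  obtain ⟨S, rfl⟩ := (H2.finite_of_system hS).exists_finset_coe
  obtain ⟨τ', h, e⟩ := H2.subcoh_of_system hS
  have m1 : χ - ψ ∈ Cfsg.zspan {χ - ψ, χ - Cfsg.conjFun χ} := Submodule.subset_span (by simp)
  have m2 : χ - Cfsg.conjFun χ ∈ Cfsg.zspan {χ - ψ, χ - Cfsg.conjFun χ} := Submodule.subset_span (by simp)
  have hb := mem_ZIrr_top.2 (hτ₁.2.2.2 _ m1)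
  have a1 := hagree 1
  have n1 := hτ₁.2.2.1 _ m1 _ m1
  have n2 := hτ₁.2.2.1 _ m1 _ m2
  rw [one_smul] at a1
  rw [a1, conjFun_eq_star, ← e _ (h.sub_star_ZS hχ).1 (h.sub_star_ZS hχ).2] at n2
  simp only [← dot_top] at h1 h2 n1 n2 ⊢
  generalize τ₁ (χ - ψ) = b at hb n1 n2 ⊢
  have hon := h.on χ hχ
  have hY : ∀ a ∈ R χ, dot ⊤ (∑ a ∈ R χ, dot ⊤ b a • a - b) a = 0 := fun a ha => by
    rw [← neg_sub, dot_neg_left, hon.dot_sub_proj b ha, neg_zero]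
  obtain ⟨k1, k2⟩ := subcoherent_norm h hχ h1 h2 (X := ∑ a ∈ R χ, dot ⊤ b a • a)
    (sum_mem fun a ha => ZIrr_smul_CInt (ZIrr_dot_CInt hb (h.zirr χ hχ a ha)) (h.zirr χ hχ a ha))
    (dot_symm_zero (dot_sum_smul_eq_zero _ hY)) hY (by rw [sub_sub_cancel, nrm, n1, nrm]) (by rwa [sub_sub_cancel])
  rw [hon.nrm_sum_smul] at k1 k2
  refine ⟨k1, fun hle => ?_⟩
  obtain ⟨k3, -, E, hE, k4⟩ := k2 (by
    have := hon.nrm_eq_proj b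
    rw [nrm_sub_comm]
    change nrm ⊤ ψ ≤ nrm ⊤ b - _ at hle
    linarith)
  refine ⟨k3, fun a ha => ?_⟩
  rw [← hon.dot_sum_smul (fun a => dot ⊤ b a) ha, k4, hon.dot_sum_subset hE ha]
  split_ifs <;> simp

end Cfsg.Agent.S1515
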