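import Cfsg.Statements.S1516
import Mathlib
import Cfsg.Agent.H2.CohBridge

set_option autoImplicit false
open Cfsg

namespace Cfsg.Agent.S1516

open Cfsg.Agent.H24

/-- Let (S, τ, R) be a coherence system from L to G with degrees φ 1 = d φ and squared norms ⟨φ, φ⟩ = n φ for φ ∈ S. Let S₁ ⊆ S be a finite subset closed under complex conjugation such that (S₁, L minus 1, τ) is coherent, let χ ∈ S with χ ∉ S₁ and conj χ ∉ S₁, and let χ₁ ∈ S₁ with d χ₁ dividing d χ and 2 d χ d χ₁ < Σ_{φ ∈ S₁} (d φ)² / n φ. Then S₁ together with χ and conj χ is coherent. -/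
theorem result {L : Type*} [Group L] [Fintype L] {G : Type*} [Group G] [Fintype G] (S : Set (L → ℂ)) (τ : (L → ℂ) → (G → ℂ)) (R : (L → ℂ) → Finset (G → ℂ)) (hS : Cfsg.IsCoherenceSystem S τ R) (d n : (L → ℂ) → ℕ) (hd : ∀ φ ∈ S, φ 1 = (d φ : ℂ)) (hn : ∀ φ ∈ S, Cfsg.classInner φ φ = (n φ : ℂ)) (S₁ : Finset (L → ℂ)) (hS₁ : ↑S₁ ⊆ S) (hS₁c : ∀ φ ∈ S₁, Cfsg.conjFun φ ∈ S₁) (hcoh : Cfsg.IsCoherent (↑S₁ : Set (L → ℂ)) {1}ᶜ τ) (χ : L → ℂ) (hχ : χ ∈ S) (hχ₁ : χ ∉ S₁) (hχ₂ : Cfsg.conjFun χ ∉ S₁) (χ₁ : L → ℂ) (hχ₁S : χ₁ ∈ S₁) (hdvd : d χ₁ ∣ d χ) (hineq : (2 * d χ * d χ₁ : ℝ) < ∑ φ ∈ S₁, ((d φ : ℝ) ^ 2 / (n φ : ℝ))) : Cfsg.IsCoherent (↑S₁ ∪ {χ, Cfsg.conjFun χ} : Set (L → ℂ)) {1}ᶜ τ := by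
  classical
  obtain ⟨S, rfl⟩ := (H2.finite_of_system hS).exists_finset_coe
  obtain ⟨τ', h, e⟩ := H2.subcoh_of_system hS
  have hs : ConjSub S₁ S := ⟨by exact_mod_cast hS₁, hS₁c⟩
  have hd' : ∀ φ ∈ S, d φ = deg φ := fun φ hφ => (deg_of_eq (hd φ hφ)).symm
  have := extend_coherent h hs hχ₁S hχ hχ₁ (H2.coh_of_isCoherent hcoh fun α hα => e α (ZS_mono hs.sub hα))
    (by rwa [← hd' χ hχ, ← hd' χ₁ (hs.sub hχ₁S)]) (by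
      rw [← hd' χ hχ, ← hd' χ₁ (hs.sub hχ₁S)]
      refine hineq.trans_eq (Finset.sum_congr rfl fun φ hφ => ?_)
      rw [hd' φ (hs.sub hφ), nrm, dot_top, hn φ (hs.sub hφ), Complex.natCast_re])
  convert H2.isCoherent_of_conjSub h e (hs.insert_pair hχ (h.star_mem χ hχ)) ⟨χ, by simp⟩ this
    using 1
  ext x
  simp [conjFun_eq_star, or_comm]

end Cfsg.Agent.S1516
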