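import Cfsg.Statements.S1520
import Mathlib
import Cfsg.Agent.H6.Feit

set_option autoImplicit false
open Cfsg

namespace Cfsg.Agent.S1520

open Cfsg.Agent.H6

/-- Let K be a solvable normal subgroup of the finite group L and (S, τ, R) a coherence system from L to G with S the functions induced from non-principal irreducible characters of K; S(A) the members of S induced from characters whose kernel contains A. Let M ≤ H₁ ≤ H ≤ K be normal subgroups of L such that every term of the lower central series of H eventually lies in M (H/M nilpotent), S(H₁) is coherent and [H:H₁] > 4 * [L:K]^2 + 1. Then S(M) is coherent. -/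
theorem result {L : Type*} [Group L] [Fintype L] {G : Type*} [Group G] [Fintype G] (K : Subgroup L) [hK : K.Normal] (hsolv : Group.IsSolvable K) (τ : (L → ℂ) → (G → ℂ)) (R : (L → ℂ) → Finset (G → ℂ)) (hS : Cfsg.IsCoherenceSystem (Cfsg.inducedIrrAbove K ⊥) τ R) (M H₁ H : Subgroup L) [M.Normal] [H₁.Normal] [H.Normal] (hMH₁ : M ≤ H₁) (hH₁H : H₁ ≤ H) (hHK : H ≤ K) [(M.subgroupOf H).Normal] (hnil : Group.IsNilpotent (↥H ⧸ M.subgroupOf H)) (hcoh : Cfsg.IsCoherent (Cfsg.inducedIrrAbove K H₁) {1}ᶜ τ) (hbig : 4 * K.index ^ 2 + 1 < H₁.relIndex H) : Cfsg.IsCoherent (Cfsg.inducedIrrAbove K M) {1}ᶜ τ := by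
  have h1 := hH₁H.trans hHK
  have h2 := hMH₁.trans h1
  rw [← H6.coe_seqIndD_top bot_le] at hS
  rw [← H6.coe_seqIndD_top h1] at hcoh
  rw [← H6.coe_seqIndD_top h2]
  obtain ⟨τ', h, e⟩ := H2.subcoh_of_system hS
  have hne : ¬ K ≤ M := fun hle => by
    have : H₁.relIndex H = 1 := Subgroup.relIndex_eq_one.2 ((hHK.trans hle).trans hMH₁)
    omega
  exact H2.isCoherent_of_conjSub h e (H24.seqIndD_conjSub le_rfl bot_le)
    (H24.seqIndD_nonempty ((H24.Nrm.top M).mono h2 le_top) hne)
    (H24.bounded_seqIndD_coherence (H24.Nrm.top K) hsolv h (H24.Nrm.top M) (H24.Nrm.top H)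
      (H24.Nrm.top H₁) hMH₁ hH₁H hHK (H6.nilMod_of_quot (hMH₁.trans hH₁H) hnil)
      (H2.coh_of_isCoherent hcoh fun α hα => e α (H24.ZS_mono (H24.seqIndD_mono le_rfl bot_le) hα))
      (by rwa [Subgroup.relIndex_top_right]))

end Cfsg.Agent.S1520
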