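import Cfsg.Statements.S1521
import Mathlib
import Cfsg.Agent.H6.Feit

set_option autoImplicit false
open Cfsg

namespace Cfsg.Agent.S1521

open Cfsg.Agent.H6

/-- Let K be a solvable normal subgroup of the finite group L of odd order and (S, τ, R) a coherence system from L to G with S the functions induced from non-principal irreducible characters of K; S(A) as before. Let M ≤ K be normal in L with K/M nilpotent, H₁ = [K, K] ⊔ M, H₁ < K < L, and suppose every element of K outside H₁ is centralised modulo H₁ only from inside K (L/H₁ is a Frobenius group with kernel K/H₁). Suppose one of the following: some normal subgroup of L lies strictly between H₁ and K; or [K:H₁] > 4[L:K]^2 + 1; or [K:M] is not a prime power; or [K,K] ≤ M; or [K:M] is a power of a prime p with [L:K] dividing p − 1. Then S(M) is coherent. -/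
theorem result {L : Type*} [Group L] [Fintype L] {G : Type*} [Group G] [Fintype G] (K : Subgroup L) [hK : K.Normal] (hsolv : Group.IsSolvable K) (τ : (L → ℂ) → (G → ℂ)) (R : (L → ℂ) → Finset (G → ℂ)) (hS : Cfsg.IsCoherenceSystem (Cfsg.inducedIrrAbove K ⊥) τ R) (hodd : Odd (Nat.card L)) (M : Subgroup L) [M.Normal] (hMK : M ≤ K) [(M.subgroupOf K).Normal] (hnil : Group.IsNilpotent (↥K ⧸ M.subgroupOf K)) (H₁ : Subgroup L) (hH₁ : H₁ = ⁅K, K⁆ ⊔ M) (hH₁K : H₁ < K) (hKL : K < ⊤) (hfrob : ∀ k ∈ K, k ∉ H₁ → ∀ x : L, x * k * x⁻¹ * k⁻¹ ∈ H₁ → x ∈ K) (hgood : (∃ N : Subgroup L, N.Normal ∧ H₁ < N ∧ N < K) ∨ 4 * K.index ^ 2 + 1 < H₁.relIndex K ∨ (¬ ∃ p m : ℕ, p.Prime ∧ M.relIndex K = p ^ m) ∨ ⁅K, K⁆ ≤ M ∨ (∃ p m : ℕ, p.Prime ∧ M.relIndex K = p ^ m ∧ K.index ∣ p - 1)) : Cfsg.IsCoherent (Cfsg.inducedIrrAbove K M) {1}ᶜ τ := by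
  subst hH₁
  rw [← H6.coe_seqIndD_top bot_le] at hS
  rw [← H6.coe_seqIndD_top hMK]
  obtain ⟨τ', h, e⟩ := H2.subcoh_of_system hS
  have hq : H24.OddFrobQuo K ⊤ M := ⟨by rwa [Subgroup.card_top], H24.Nrm.top M, hMK,
    H6.nilMod_of_quot hMK hnil, not_le_of_gt hH₁K, hKL, fun k hk hk' x _ => hfrob k hk hk' x⟩
  refine H2.isCoherent_of_conjSub h e (H24.seqIndD_conjSub le_rfl bot_le)
    (H24.seqIndD_nonempty ((H24.Nrm.top M).mono hMK le_top)
      (fun hle => not_le_of_gt hH₁K (hle.trans le_sup_right))) ?_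
  by_contra hc
  obtain ⟨h1, h2, p, hp, ⟨n, hn⟩, h3, h4⟩ := H24.non_coherent_chief (H24.Nrm.top K) hsolv h hq hc
  rw [Subgroup.relIndex_top_right] at h2 h4
  rcases hgood with ⟨N, hN, a, b⟩ | a | a | a | ⟨q, m, hq', a, b⟩
  · exact b.ne (h1.max N a b.le (H24.Nrm.top N).nrm)
  · omega
  · exact a ⟨p, n, hp, hn⟩
  · exact h3 a
  · have h5 := FT.one_lt_relIndex (fun hle => not_le_of_gt hH₁K (le_trans hle (le_sup_right (b := M))))
    have : q = p := by
      rcases m with _ | m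
      · rw [a] at h5; simp at h5
      · exact (Nat.prime_dvd_prime_iff_eq hq' hp).1
          (hq'.dvd_of_dvd_pow (n := n) (by rw [← hn, a]; exact Dvd.intro_left _ (pow_succ q m).symm))
    exact h4 (this ▸ b)

end Cfsg.Agent.S1521
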