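import Cfsg.Statements.S1522
import Mathlib
import Cfsg.Agent.H6.Feit

set_option autoImplicit false
open Cfsg

namespace Cfsg.Agent.S1522

open Cfsg.Agent.H6

/-- Let K be a nilpotent normal subgroup of the finite group L of odd order with [K,K] < K < L and L/[K,K] a Frobenius group with kernel K/[K,K] (elements of K outside [K,K] are centralised modulo [K,K] only from inside K); let (S, τ, R) be a coherence system from L to G with S the functions induced from non-principal irreducible characters of K. Let Z be a nontrivial normal subgroup of L contained in the centre of K, and suppose every member of S outside S(Z) is an irreducible character of L. Then S minus S(Z) is the set of irreducible characters χ of L with χ z ≠ χ 1 for some z ∈ Z, and it is coherent. -/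
theorem result {L : Type*} [Group L] [Fintype L] {G : Type*} [Group G] [Fintype G] (K : Subgroup L) [hK : K.Normal] (hsolv : Group.IsSolvable K) (τ : (L → ℂ) → (G → ℂ)) (R : (L → ℂ) → Finset (G → ℂ)) (hS : Cfsg.IsCoherenceSystem (Cfsg.inducedIrrAbove K ⊥) τ R) (hodd : Odd (Nat.card L)) (hnil : Group.IsNilpotent K) (hH₁K : ⁅K, K⁆ < K) (hKL : K < ⊤) (hfrob : ∀ k ∈ K, k ∉ ⁅K, K⁆ → ∀ x : L, x * k * x⁻¹ * k⁻¹ ∈ ⁅K, K⁆ → x ∈ K) (Z : Subgroup L) [Z.Normal] (hZ1 : Z ≠ ⊥) (hZK : Z ≤ K) (hZc : ∀ z ∈ Z, ∀ k ∈ K, z * k = k * z) (hirr : ∀ χ ∈ Cfsg.inducedIrrAbove K ⊥ \ Cfsg.inducedIrrAbove K Z, Cfsg.IsIrrCharacter L χ) : Cfsg.inducedIrrAbove K ⊥ \ Cfsg.inducedIrrAbove K Z = {χ | Cfsg.IsIrrCharacter L χ ∧ ∃ z ∈ Z, χ z ≠ χ 1} ∧ Cfsg.IsCoherent (Cfsg.inducedIrrAbove K ⊥ \ Cfsg.inducedIrrAbove K Z) {1}ᶜ τ := by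
  have hn := H24.Nrm.top K
  have hd : Cfsg.inducedIrrAbove K ⊥ \ Cfsg.inducedIrrAbove K Z = H24.seqIndD K ⊤ Z ⊥ := by
    rw [← H6.coe_seqIndD_top bot_le, ← H6.coe_seqIndD_top hZK]
    ext φ
    simp only [Set.mem_diff, Finset.mem_coe, H24.mem_seqIndD_iff_kerLe hn hn.nrm (FT.nml_bot ⊤).nrm,
      H24.mem_seqIndD_iff_kerLe hn hn.nrm (H24.Nrm.top Z).nrm,
      H24.mem_seqIndD_iff_kerLe hn (H24.Nrm.top Z).nrm (FT.nml_bot ⊤).nrm]
    have := fun h : H24.KerLe K φ => h.mono hZK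
    tauto
  rw [hd] at hirr ⊢
  rw [← H6.coe_seqIndD_top bot_le] at hS
  obtain ⟨τ', h, e⟩ := H2.subcoh_of_system hS
  have hq : H24.OddFrobQuo K ⊤ ⊥ := ⟨by rwa [Subgroup.card_top], FT.nml_bot ⊤, bot_le,
    H24.nilMod_bot.2 hnil, by rw [sup_bot_eq]; exact not_le_of_gt hH₁K, hKL,
    by rw [sup_bot_eq]; exact fun k hk hk' x _ => hfrob k hk hk' x⟩
  obtain ⟨h1, h2⟩ := H24.seqIndD_irr_coherence hn h hq (H24.Nrm.top Z) hZ1
    (fun z hz => ⟨hZK hz, fun k hk => (hZc z hz k hk).symm⟩)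
    (fun χ hχ => H24.mem_irr_top.2 (hirr χ hχ))
  refine ⟨?_, H2.isCoherent_of_conjSub h e (H24.seqIndD_conjSub hZK le_rfl)
    (H24.seqIndD_nonempty (FT.nml_bot K) (by rwa [le_bot_iff])) h2⟩
  ext χ
  rw [Finset.mem_coe, h1, H24.mem_irr_top]
  simp only [H24.KerLe, not_forall, exists_prop, Set.mem_ofPred_eq]

end Cfsg.Agent.S1522
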