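import Cfsg.Statements.S1524
import Mathlib
import Cfsg.Agent.H6.Feit

set_option autoImplicit false
open Cfsg

namespace Cfsg.Agent.S1524

open Cfsg.Agent.H6

/-- Let G be a finite group and H ≤ L subgroups with L of odd order, H ≠ ⊥ nilpotent and normal in L with a nontrivial complement W₁ in L (H ⊓ W₁ = ⊥, H ⊔ W₁ = L) acting on H without non-identity fixed points (L is a Frobenius group with kernel H), and suppose the underlying set of H is a TI-subset of G whose normaliser is L. Let S be the set of functions on L induced from the non-principal irreducible characters of H. Then (S, L minus 1, induction to G) is coherent. -/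
theorem result {G : Type*} [Group G] [Fintype G] (H L W₁ : Subgroup G) [Fintype L] (hodd : Odd (Nat.card L)) (hHL : H ≤ L) (hW₁L : W₁ ≤ L) (hH1 : H ≠ ⊥) (hW1 : W₁ ≠ ⊥) (hnil : Group.IsNilpotent H) (hHn : ∀ x ∈ L, ∀ h ∈ H, x * h * x⁻¹ ∈ H) (hinf : H ⊓ W₁ = ⊥) (hsup : H ⊔ W₁ = L) (hfpf : ∀ w ∈ W₁, w ≠ 1 → ∀ h ∈ H, w * h = h * w → h = 1) (hTI : Cfsg.IsTISubset (H : Set G)) (hN : Subgroup.normalizer (H : Set G) = L) : Cfsg.IsCoherent (Cfsg.inducedIrrAbove (H.subgroupOf L) ⊥) {1}ᶜ (fun α : L → ℂ => Cfsg.indFun L α) := by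
  have hn := H24.Nrm.of_conj hHL hHn
  have hF : H24.FrobK L H := ⟨W₁, ⟨hW₁L.trans hn.nrm, hsup, hinf⟩, hH1, hW1, fun w hw h1 =>
    eq_bot_iff.2 fun h hh => hfpf w hw h1 h hh.1 (FT.mem_cen1.1 hh.2).symm⟩
  rw [← H6.image_seqIndD_sub hHL]
  obtain ⟨χ, hχ⟩ := H24.seqIndD_nonempty (L := L) (H := H) (FT.nml_bot H) (by rwa [le_bot_iff])
  exact H6.isCoherent_sub (H24.seqIndC1_subset_irr hF) (Finset.one_lt_card.2 ⟨_, H24.seqIndD_star hχ, χ, hχ,
    H24.seqIndD_star_ne hn hodd le_rfl hχ⟩)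
    (H24.Sibley_coherence_Frob hodd hnil ((H24.nti_sharp_iff hH1).2 ⟨hTI, hN⟩) hF)

end Cfsg.Agent.S1524
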