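import Cfsg.Statements.S1525
import Cfsg.Agent.H24.Bridge

set_option autoImplicit false
open Cfsg

namespace Cfsg.Agent.S1525

/-- Under the Dade hypothesis for (A, L, H), let χ be a class function of G and let ψ be a function on L whose value at each a ∈ A is the average of χ over the coset a·H(a). Then (1/|G|) Σ |χ g|² over the elements g of G conjugate into some coset a·H(a) with a ∈ A is at least (1/|L|) Σ_{a ∈ A ∩ L} |ψ a|². -/
theorem result {G : Type*} [Group G] [Fintype G] (A : Set G) (L : Subgroup G) [Fintype L] (H : G → Subgroup G) (hD : Cfsg.DadeHypothesis A L H) (χ : G → ℂ) (hχ : Cfsg.IsClassFunction G χ) (ψ : L → ℂ) (hψ : ∀ a : L, (a : G) ∈ A → ψ a = (Nat.card (H a) : ℂ)⁻¹ * ∑ᶠ u ∈ (H a : Set G), χ (a * u)) : (Nat.card L : ℝ)⁻¹ * ∑ᶠ a ∈ {a : L | (a : G) ∈ A}, ‖ψ a‖ ^ 2 ≤ (Nat.card G : ℝ)⁻¹ * ∑ᶠ g ∈ {g : G | ∃ a ∈ A, ∃ u ∈ H a, ∃ x : G, x * g * x⁻¹ = a * u}, ‖χ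 g‖ ^ 2 := by
  have h := H24.leC_cfnorm_invDade_support hD (H24.mem_CF_top.2 hχ)
  have e : {g : G | ∃ a ∈ A, ∃ u ∈ H a, ∃ x : G, x * g * x⁻¹ = a * u} = H24.dadeSupp A H := by
    ext g
    constructor
    · rintro ⟨a, ha, u, hu, x, e⟩
      exact ⟨a, ha, u, hu, x⁻¹, by rw [← e]; group⟩
    · rintro ⟨a, ha, u, hu, x, rfl⟩
      exact ⟨a, ha, u, hu, x⁻¹, by group⟩
  rw [e, H24.finsum_mem_eq_sum_fs, H24.finsum_mem_eq_sum_fs]
  refine le_trans (le_of_eq ?_) h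
  rw [H24.nrm_of_Supp hD.subset (H24.invDade_mem_Supp A H χ)]
  congr 1
  rw [← H24.sum_fs_bij (A := {a : L | (a : G) ∈ A}) (B := A) Subtype.val
    ⟨fun a ha => ha, fun a _ b _ e => Subtype.ext e, fun a ha => ⟨⟨a, hD.subset ha⟩, ha, rfl⟩⟩]
  refine H24.sum_fs_congr fun a ha => ?_
  rw [hψ a ha, H24.invDadeE (A := A) χ ha, H24.finsum_mem_eq_sum_fs]

end Cfsg.Agent.S1525
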