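import Cfsg.Statements.S1527
import Cfsg.Agent.H24.Bridge

set_option autoImplicit false
open Cfsg

namespace Cfsg.Agent.S1527

/-- Let G be a finite group and H i (i in a finite index type) subgroups of pairwise coprime orders, each of whose underlying sets is a TI-subset of G, such that every non-identity element of G is conjugate to an element of some H i. Then Nat.card G − 1 = Σ_i [G : N_G(H i)] · (Nat.card (H i) − 1). -/
theorem result {G : Type*} [Group G] [Finite G] {ι : Type*} [Fintype ι] (H : ι → Subgroup G) (hcop : ∀ i j, i ≠ j → Nat.Coprime (Nat.card (H i)) (Nat.card (H j))) (hTI : ∀ i, Cfsg.IsTISubset (H i : Set G)) (hcover : ∀ g : G, g ≠ 1 → ∃ i, ∃ x : G, x * g * x⁻¹ ∈ H i) : Nat.card G - 1 = ∑ i, (Subgroup.normalizer (H i : Set G)).index * (Nat.card (H i) - 1) := by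
  classical
  have e : FT.nz (⊤ : Subgroup G) = ⋃ i, FT.classSupp (FT.nz (H i)) ⊤ := by
    ext g
    simp only [Set.mem_iUnion, H24.mem_sharp, Subgroup.mem_top, true_and]
    constructor
    · intro hg
      obtain ⟨i, x, hx⟩ := hcover g hg
      exact ⟨i, _, ⟨hx, by simpa using hg⟩, x⁻¹, Subgroup.mem_top _, by group⟩
    · rintro ⟨i, a, ha, x, -, rfl⟩
      simpa using ha.2
  have h := H24.ncard_sharp (⊤ : Subgroup G)
  rw [Subgroup.card_top, e, Set.ncard_iUnion_of_finite (fun _ => Set.toFinite _),
    finsum_eq_sum_of_fintype] at h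
  · rw [← h]
    refine Finset.sum_congr rfl fun i _ => ?_
    by_cases h0 : H i = ⊥
    · have : FT.classSupp (FT.nz (H i)) ⊤ = ∅ := by
        ext g
        simp only [Set.mem_empty_iff_false, iff_false]
        rintro ⟨a, ha, -⟩
        exact ha.2 (by simpa [h0] using ha.1)
      rw [this]; simp [h0]
    · rw [((H24.nti_sharp_iff h0).2 ⟨hTI i, rfl⟩).card_clsupp, H24.ncard_sharp,
        Subgroup.relIndex_top_right, mul_comm]
  · intro i j hij
    refine Set.disjoint_left.2 ?_
    rintro _ ⟨a, ha, x, -, rfl⟩ ⟨b, hb, y, -, e⟩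
    have h1 : orderOf a = orderOf b := by
      rw [← orderOf_injective (MulAut.conj x).toMonoidHom (MulAut.conj x).injective a,
        ← orderOf_injective (MulAut.conj y).toMonoidHom (MulAut.conj y).injective b]
      exact congrArg orderOf e
    exact ha.2 (orderOf_eq_one_iff.1 (Nat.eq_one_of_dvd_coprimes (hcop i j hij)
      (Subgroup.orderOf_dvd_natCard _ ha.1) (h1 ▸ Subgroup.orderOf_dvd_natCard _ hb.1)))

end Cfsg.Agent.S1527
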