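import Cfsg.Statements.S1528
import Cfsg.Agent.H24.Bridge

set_option autoImplicit false
open Cfsg

namespace Cfsg.Agent.S1528

/-- Let N be a normal subgroup of the finite group G such that every element of G commuting with a non-identity element of N lies in N. If χ is an irreducible character of G with χ n ≠ χ 1 for some n ∈ N, then χ is the function induced from some irreducible character of N. -/
theorem result {G : Type*} [Group G] [Fintype G] (N : Subgroup G) [N.Normal] (hC : ∀ n ∈ N, n ≠ 1 → Subgroup.centralizer ({n} : Set G) ≤ N) (χ : G → ℂ) (hχ : Cfsg.IsIrrCharacter G χ) (hker : ∃ n ∈ N, χ n ≠ χ 1) : ∃ φ : N → ℂ, Cfsg.IsIrrCharacter N φ ∧ χ = Cfsg.indFun N φ := by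
  have hχ' := H24.mem_irr_top.2 hχ
  obtain ⟨θ, hθ, hd⟩ := H24.exists_constt_res (le_top (a := N)) hχ'
  have h1 : θ ≠ H24.one N := by
    rintro rfl
    obtain ⟨n, hn, e⟩ := hker
    exact e (H24.kerLe_of_dot_one_ne_zero (H24.Nrm.top N) hχ' hd n hn)
  have h2 := H24.inertia_Ind_irr (H24.Nrm.top N) hθ (H24.inertia_le_of_cent (H24.Nrm.top N)
    (fun k hk h1 => inf_le_right.trans (hC k hk h1)) hθ h1)
  have h3 := H24.eq_ind_of_constt le_top hχ' h2 hd
  obtain ⟨φ, hφ, rfl⟩ := H24.irr_eq_extL hθ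
  exact ⟨φ, hφ, by rw [h3, H24.ind_top_extL]⟩

end Cfsg.Agent.S1528
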