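import Cfsg.Statements.S1530
import Mathlib
import Cfsg.Agent.H2.CohBridge

set_option autoImplicit false
open Cfsg

namespace Cfsg.Agent.S1530

open Cfsg.Agent.H24

/-- Let N be a subgroup of the finite group G and S₀ a finite set of irreducible characters of N, χ an irreducible character of N not in S₀, with degrees ξ 1 = d ξ. Let τ be a linear isometry on the integer combinations of S₀ ∪ {χ} vanishing at 1, with values virtual characters of G vanishing at 1, such that (S₀, N minus 1, τ) is coherent. If some ψ ∈ S₀ has d ψ dividing d χ and 2 · d ψ · d χ < Σ_{ξ ∈ S₀} (d ξ)², then (S₀ ∪ {χ}, N minus 1, τ) is coherent. -/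
theorem result {G : Type*} [Group G] [Fintype G] (N : Subgroup G) [Fintype N] (S₀ : Finset (N → ℂ)) (χ : N → ℂ) (hirr : ∀ ξ ∈ S₀, Cfsg.IsIrrCharacter N ξ) (hχ : Cfsg.IsIrrCharacter N χ) (hχS : χ ∉ S₀) (d : (N → ℂ) → ℕ) (hd : ∀ ξ ∈ insert χ S₀, ξ 1 = (d ξ : ℂ)) (τ : (N → ℂ) → (G → ℂ)) (hτ : Cfsg.IsLinearIsometryOn (Cfsg.zspanOn (↑(insert χ S₀) : Set (N → ℂ)) {1}ᶜ) τ) (hτ1 : ∀ α ∈ Cfsg.zspanOn (↑(insert χ S₀) : Set (N → ℂ)) {1}ᶜ, τ α 1 = 0) (hcoh : Cfsg.IsCoherent (↑S₀ : Set (N → ℂ)) {1}ᶜ τ) (ψ : N → ℂ) (hψ : ψ ∈ S₀) (hdvd : d ψ ∣ d χ) (hlt : 2 * d ψ * d χ < ∑ ξ ∈ S₀, d ξ ^ 2) : Cfsg.IsCoherent (↑(insert χ S₀) : Set (N → ℂ)) {1}ᶜ τ := by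
  obtain ⟨τ', h1, e⟩ := H2.exists_iso1 hτ hτ1
  have hd' : ∀ φ ∈ insert χ S₀, d φ = deg φ := fun φ hφ => (deg_of_eq (hd φ hφ)).symm
  have hs := Finset.subset_insert χ S₀
  have hm := Finset.mem_insert_self χ S₀
  refine H2.isCoherent_of_coh ?_ e ?_
  · convert H2.feit_extend (fun ξ hξ => mem_irr_top.2 (hirr ξ hξ)) (mem_irr_top.2 hχ) hχS (by convert h1)
      (H2.coh_of_isCoherent hcoh fun α hα => e α (ZS_mono hs hα)) hψ (by rwa [← hd' χ hm, ← hd' ψ (hs hψ)]) (by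
        rw [← hd' χ hm, ← hd' ψ (hs hψ)]
        exact hlt.trans_eq (Finset.sum_congr rfl fun φ hφ => by rw [hd' φ (hs hφ)]))
  · obtain ⟨α, hα, h0⟩ := hcoh.1
    rw [H2.mem_zspanOn] at hα
    exact ⟨α, ZS_mono hs hα.1, hα.2, h0⟩

end Cfsg.Agent.S1530
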