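import Cfsg.Statements.S1531
import Mathlib
import Cfsg.Agent.H2.CohBridge

set_option autoImplicit false
open Cfsg

namespace Cfsg.Agent.S1531

open Cfsg.Agent.H24

/-- Let N be a subgroup of the finite group G, S a set of irreducible characters of N, and α a linear isometry on the integer combinations of S vanishing at 1 with values virtual characters of G vanishing at 1. Let X, Y ⊆ S be disjoint, each with at least two members, and σ, τ linear isometries on ℤ[X], ℤ[Y] into virtual characters agreeing with α on the members vanishing at 1. Then ⟨σ χ, τ η⟩ = 0 for χ ∈ X, η ∈ Y; and if for some χ₀ ∈ X, η₀ ∈ Y with degrees c = χ₀ 1, e = η₀ 1 one has α (c • η₀ − e • χ₀) = c • τ η₀ − e • σ χ₀, then (X ∪ Y, N minus 1, α) is coherent. -/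
theorem result {G : Type*} [Group G] [Fintype G] (N : Subgroup G) [Fintype N] (S X Y : Set (N → ℂ)) (hirr : ∀ ξ ∈ S, Cfsg.IsIrrCharacter N ξ) (hXS : X ⊆ S) (hYS : Y ⊆ S) (hXY : Disjoint X Y) (hX2 : ∃ a ∈ X, ∃ b ∈ X, a ≠ b) (hY2 : ∃ a ∈ Y, ∃ b ∈ Y, a ≠ b) (α : (N → ℂ) → (G → ℂ)) (hα : Cfsg.IsLinearIsometryOn (Cfsg.zspanOn S {1}ᶜ) α) (hα1 : ∀ θ ∈ Cfsg.zspanOn S {1}ᶜ, α θ 1 = 0) (σ τ : (N → ℂ) → (G → ℂ)) (hσ : Cfsg.IsLinearIsometryOn (Cfsg.zspan X) σ) (hσα : ∀ θ ∈ Cfsg.zspanOn X {1}ᶜ, σ θ = α θ) (hτ : Cfsg.IsLinearIsometryOn (Cfsg.zspan Y) τ) (hτα : ∀ θ ∈ Cfsg.zspanOn Y {1}ᶜ, τ θ = α θ) : (∀ χ ∈ X, ∀ η ∈ Y, Cfsg.classInner (σ χ) (τ η) = 0) ∧ ((∃ χ₀ ∈ X, ∃ η₀ ∈ Y, α (χ₀ 1 • η₀ - η₀ 1 • χ₀) = χ₀ 1 • τ η₀ - η₀ 1 • σ χ₀) → Cfsg.IsCoherent (X ∪ Y) {1}ᶜ α) := by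
  letI : DecidableEq (N → ℂ) := fun a b => Classical.propDecidable (a = b)
  obtain ⟨S, rfl, hi⟩ := H2.finite_of_irr hirr
  obtain ⟨X, rfl, hX⟩ := H2.finite_of_irr fun ξ hξ => hirr ξ (hXS hξ)
  obtain ⟨Y, rfl, hY⟩ := H2.finite_of_irr fun ξ hξ => hirr ξ (hYS hξ)
  rw [Finset.coe_subset] at hXS hYS
  rw [Finset.disjoint_coe] at hXY
  obtain ⟨α', h1, e⟩ := H2.exists_iso1 hα hα1
  obtain ⟨μ₁, h₁, e₁⟩ := H2.cohWith_of_isometry (τ' := α') hσ fun θ hθ a => by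
    rw [e θ (ZS_mono hXS hθ) a, hσα θ (H2.mem_zspanOn.2 ⟨hθ, a⟩)]
  obtain ⟨μ₂, h₂, e₂⟩ := H2.cohWith_of_isometry (τ' := α') hτ fun θ hθ a => by
    rw [e θ (ZS_mono hYS hθ) a, hτα θ (H2.mem_zspanOn.2 ⟨hθ, a⟩)]
  have o := fun φ (hφ : φ ∈ X) ψ (hψ : ψ ∈ Y) => H2.cohWith_irr_ortho hi h1 hXS hYS hXY h₁ h₂
    (Finset.one_lt_card.2 hX2) (Finset.one_lt_card.2 hY2) hφ hψ
  refine ⟨fun χ hχ η hη => by rw [← e₁ χ (mem_ZS_of_mem hχ), ← e₂ η (mem_ZS_of_mem hη), ← dot_top, o χ hχ η hη], ?_⟩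
  rintro ⟨χ, hχ, η, hη, h⟩
  have hu := Finset.union_subset hXS hYS
  have hZ : χ 1 • η - η 1 • χ ∈ ZS (X ∪ Y) :=
    sub_mem (ZS_smul_CInt (ZIrr_one_CInt (irr_ZIrr (hX hχ))) (mem_ZS_of_mem (Finset.mem_union_right _ hη)))
      (ZS_smul_CInt (ZIrr_one_CInt (irr_ZIrr (hY hη))) (mem_ZS_of_mem (Finset.mem_union_left _ hχ)))
  have h0 : (χ 1 • η - η 1 • χ) 1 = 0 := by simp [mul_comm]
  rw [← Finset.coe_union]
  refine H2.isCoherent_of_coh (H2.cohWith_union hX hY hXY h₁ h₂ o hχ hη ?_) (fun θ hθ => e θ (ZS_mono hu hθ))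
    ⟨_, hZ, h0, fun h' => irr_one_ne_zero (hX hχ) ?_⟩
  · rw [e _ (ZS_mono hu hZ) h0, h, e₁ χ (mem_ZS_of_mem hχ), e₂ η (mem_ZS_of_mem hη)]
  · have := congrArg (fun f => dot ⊤ f η) h'
    simpa [dot_irr_self (hY hη), dot_irr_ne (hX hχ) (hY hη) fun e => Finset.disjoint_left.1 hXY hχ (e ▸ hη)]
      using this

end Cfsg.Agent.S1531
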