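import Cfsg.Statements.S1532
import Mathlib
import Cfsg.Agent.H6.Feit

set_option autoImplicit false
open Cfsg

namespace Cfsg.Agent.S1532

open Cfsg.Agent.H6

/-- Let G be a finite group, p an odd prime and P a Sylow p-subgroup that is non-abelian, whose underlying set is a TI-subset of G, with P properly contained in its set normaliser N and C_G(x) ≤ P for every non-identity x ∈ P. Let Z be a nontrivial subgroup of the centre of P normalised by N. Then the set of irreducible characters χ of N with χ z ≠ χ 1 for some z ∈ Z is coherent for the map induced by induction from N to G. -/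
theorem result {G : Type*} [Group G] [Fintype G] (p : ℕ) [Fact p.Prime] (hp : p ≠ 2) (P : Sylow p G) (hna : ¬ IsMulCommutative (P : Subgroup G)) (hTI : Cfsg.IsTISubset ((P : Subgroup G) : Set G)) (hlt : (P : Subgroup G) < Subgroup.normalizer ((P : Subgroup G) : Set G)) (hC : ∀ k ∈ (P : Subgroup G), k ≠ 1 → Subgroup.centralizer ({k} : Set G) ≤ (P : Subgroup G)) [Fintype ↥(Subgroup.normalizer ((P : Subgroup G) : Set G))] (Z : Subgroup G) (hZ1 : Z ≠ ⊥) (hZP : ∀ z ∈ Z, z ∈ (P : Subgroup G) ∧ ∀ y ∈ (P : Subgroup G), z * y = y * z) (hZn : ∀ x ∈ Subgroup.normalizer ((P : Subgroup G) : Set G), ∀ z ∈ Z, x * z * x⁻¹ ∈ Z) : Cfsg.IsCoherent {χ : ↥(Subgroup.normalizer ((P : Subgroup G) : Set G)) → ℂ | Cfsg.IsIrrCharacter ↥(Subgroup.normalizer ((P : Subgroup G) : Set G)) χ ∧ ∃ z : ↥(Subgroup.normalizer ((P : Subgroup G) : Set G)), (z : G) ∈ Z ∧ χ z ≠ χ 1} {1}ᶜ (fun α => Cfsg.indFun (Subgroup.normalizer ((P : Subgroup G) : Set G)) α) := by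
  have hZle : Z ≤ P := fun z hz => (hZP z hz).1
  have hP1 : (P : Subgroup G) ≠ ⊥ := fun e => hZ1 (le_bot_iff.1 (e ▸ hZle))
  have hF := H6.frobK_normalizer hP1 hlt hC
  have hZ := H24.Nrm.of_conj (hZle.trans Subgroup.le_normalizer) hZn
  have hti := (H24.nti_sharp_iff hP1).2 ⟨hTI, rfl⟩
  have hodd : Odd (Nat.card ↥(Subgroup.normalizer ((P : Subgroup G) : Set G))) := by
    rw [← H24.card_mul_relIndex hF.nml.le]
    refine Odd.mul ?_ (Nat.not_even_iff_odd.1 fun h => hna (H6.frob_ab_of_even hF h))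
    obtain ⟨n, hn⟩ := IsPGroup.iff_card.1 P.isPGroup'
    rw [hn]
    exact ((Fact.out : p.Prime).odd_of_ne_two hp).pow
  have hirr := H24.seqIndC1_subset_irr hF
  obtain ⟨R, hR, -⟩ := H24.irr_subcoherent hirr (fun _ => H24.seqIndD_star)
    (fun _ => H24.seqIndD_star_ne hF.nml hodd le_rfl) (H6.iso1_ind_nz hF.nml hti)
  have hs := (H24.seqIndD_mono hZle le_rfl).trans hirr
  rw [← H6.image_seqIndD_frob hF hZ hZle]
  obtain ⟨χ, hχ⟩ := H24.seqIndD_nonempty (L := Subgroup.normalizer ((P : Subgroup G) : Set G))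
    (FT.nml_bot (P : Subgroup G)) (by rwa [le_bot_iff] : ¬ Z ≤ ⊥)
  exact H6.isCoherent_sub hs (Finset.one_lt_card.2 ⟨_, H24.seqIndD_star hχ, χ, hχ,
    H24.seqIndD_star_ne hF.nml hodd hZle hχ⟩)
    (H24.seqIndD_irr_coherence hF.nml hR (H24.oddFrobQuo_of_frobK hodd hF P.isPGroup'.isNilpotent) hZ hZ1
      (fun z hz => ⟨hZle hz, fun y hy => ((hZP z hz).2 y hy).symm⟩) hs).2

end Cfsg.Agent.S1532
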