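import Cfsg.Statements.S1533
import Mathlib
import Cfsg.Agent.H6.Feit

set_option autoImplicit false
open Cfsg

namespace Cfsg.Agent.S1533

open Cfsg.Agent.H6

/-- Let G be a finite group, p an odd prime, and P a nontrivial Sylow p-subgroup whose underlying set is a TI-subset of G, with P properly contained in its set normaliser N and C_G(x) ≤ P for every non-identity x ∈ P. Let S be the set of irreducible characters χ of N with χ x ≠ χ 1 for some x ∈ P. Then either S has exactly one member, P is elementary abelian and Nat.card P = [N:P] + 1; or (S, N minus 1, induction to G) is coherent. -/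
theorem result {G : Type*} [Group G] [Fintype G] (p : ℕ) [Fact p.Prime] (hp : p ≠ 2) (P : Sylow p G) (hP1 : (P : Subgroup G) ≠ ⊥) (hTI : Cfsg.IsTISubset ((P : Subgroup G) : Set G)) (hlt : (P : Subgroup G) < Subgroup.normalizer ((P : Subgroup G) : Set G)) (hC : ∀ k ∈ (P : Subgroup G), k ≠ 1 → Subgroup.centralizer ({k} : Set G) ≤ (P : Subgroup G)) [Fintype ↥(Subgroup.normalizer ((P : Subgroup G) : Set G))] : (Nat.card {χ : ↥(Subgroup.normalizer ((P : Subgroup G) : Set G)) → ℂ // Cfsg.IsIrrCharacter ↥(Subgroup.normalizer ((P : Subgroup G) : Set G)) χ ∧ ∃ x : ↥(Subgroup.normalizer ((P : Subgroup G) : Set G)), (x : G) ∈ (P : Subgroup G) ∧ χ x ≠ χ 1} = 1 ∧ Cfsg.IsElementaryAbelian p (P : Subgroup G) ∧ Nat.card (P : Subgroup G) = ((P : Subgroup G).subgroupOf (Subgroup.normalizer ((P : Subgroup G) : Set G))).index + 1) ∨ Cfsg.IsCoherent {χ : ↥(Subgroup.normalizer ((P : Subgroup G) : Set G)) → ℂ | Cfsg.IsIrrCharacter ↥(Subgroup.normalizer ((P : Subgroup G) : Set G)) χ ∧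 ∃ x : ↥(Subgroup.normalizer ((P : Subgroup G) : Set G)), (x : G) ∈ (P : Subgroup G) ∧ χ x ≠ χ 1} {1}ᶜ (fun α => Cfsg.indFun (Subgroup.normalizer ((P : Subgroup G) : Set G)) α) := by
  have hF := H6.frobK_normalizer hP1 hlt hC
  have hti := (H24.nti_sharp_iff hP1).2 ⟨hTI, rfl⟩
  have hnil : Group.IsNilpotent (P : Subgroup G) := P.isPGroup'.isNilpotent
  have hirr := H24.seqIndC1_subset_irr hF
  have hS := H6.image_seqIndD_frob hF hF.nml le_rfl
  obtain ⟨n, hn⟩ := IsPGroup.iff_card.1 P.isPGroup'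
  by_cases he : Nat.card (P : Subgroup G) =
      (P : Subgroup G).relIndex (Subgroup.normalizer ((P : Subgroup G) : Set G)) + 1
  · obtain ⟨h1, q, hq, h2⟩ := H6.frob_sharp hF (FT.Nil.sol hnil) he
    have : q = p := (Nat.prime_dvd_prime_iff_eq hq Fact.out).1 (hq.dvd_of_dvd_pow (n := n)
      (hn ▸ (FT.Abelem.pGrp h2 hq).dvd hP1))
    refine Or.inl ⟨?_, this ▸ h2, he⟩
    rw [← h1, ← H6.card_image_subL hirr, hS]
    rfl
  · right
    rw [← hS]
    exact H6.isCoherent_sub hirr (H6.frob_two_le hF (FT.Nil.sol hnil) he) (H6.sibley_coh hF hnil hti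
      (by rw [hn]; exact ((Fact.out : p.Prime).odd_of_ne_two hp).pow) he)

end Cfsg.Agent.S1533
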