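import Cfsg.Statements.S1534
import Mathlib
import Cfsg.Agent.H6.Feit

set_option autoImplicit false
open Cfsg

namespace Cfsg.Agent.S1534

open Cfsg.Agent.H6

/-- Let G be a finite group and K a nontrivial nilpotent subgroup whose underlying set is a TI-subset of G, properly contained in its set normaliser N, with C_G(k) ≤ K for every non-identity k ∈ K; let e be the index of K in N and S the set of irreducible characters χ of N with χ k ≠ χ 1 for some k ∈ K. Then one of: S has exactly one member, Nat.card K = e + 1 and K is an elementary abelian p-group for some prime p; or K is a Sylow 2-subgroup of G (Nat.card K is the largest power of 2 dividing Nat.card G) and [K : [K,K]] < 4e²; or (S, N minus 1, induction to G) is coherent. -/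
theorem result {G : Type*} [Group G] [Fintype G] (K : Subgroup G) (hK1 : K ≠ ⊥) (hnil : Group.IsNilpotent K) (hTI : Cfsg.IsTISubset (K : Set G)) (hlt : K < Subgroup.normalizer (K : Set G)) (hC : ∀ k ∈ K, k ≠ 1 → Subgroup.centralizer ({k} : Set G) ≤ K) [Fintype ↥(Subgroup.normalizer (K : Set G))] : (Nat.card {χ : ↥(Subgroup.normalizer (K : Set G)) → ℂ // Cfsg.IsIrrCharacter ↥(Subgroup.normalizer (K : Set G)) χ ∧ ∃ k : ↥(Subgroup.normalizer (K : Set G)), (k : G) ∈ K ∧ χ k ≠ χ 1} = 1 ∧ Nat.card K = (K.subgroupOf (Subgroup.normalizer (K : Set G))).index + 1 ∧ ∃ p : ℕ, p.Prime ∧ Cfsg.IsElementaryAbelian p K) ∨ (Nat.card K = 2 ^ (Nat.card G).factorization 2 ∧ (⁅K, K⁆.subgroupOf K).index < 4 * (K.subgroupOf (Subgroup.normalizer (K : Set G))).index ^ 2) ∨ Cfsg.IsCoherent {χ : ↥(Subgroup.normalizer (K : Set G)) → ℂ | Cfsg.IsIrrCharacter ↥(Subgroup.normalizer (K : Set G)) χ ∧ ∃ k : ↥(Subgroup.normalizer (K : Set G)), (k : G) ∈ K ∧ χ k ≠ χ 1} {1}ᶜ (fun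 α => Cfsg.indFun (Subgroup.normalizer (K : Set G)) α) := by
  have hF := H6.frobK_normalizer hK1 hlt hC
  have hti := (H24.nti_sharp_iff hK1).2 ⟨hTI, rfl⟩
  have hirr := H24.seqIndC1_subset_irr hF
  have hS := H6.image_seqIndD_frob hF hF.nml le_rfl
  by_cases he : Nat.card K = K.relIndex (Subgroup.normalizer (K : Set G)) + 1
  · obtain ⟨h1, h2⟩ := H6.frob_sharp hF (FT.Nil.sol hnil) he
    refine Or.inl ⟨?_, he, h2⟩
    rw [← h1, ← H6.card_image_subL hirr, hS]
    rfl
  right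
  rw [← hS, or_iff_not_imp_right]
  intro hc
  have hc' := fun h => hc (H6.isCoherent_sub hirr (H6.frob_two_le hF (FT.Nil.sol hnil) he) h)
  obtain ⟨p, hp, ⟨m, hm⟩, -, hb⟩ := (H6.feit_coh hF hnil he (H6.iso1_ind_nz hF.nml hti)).resolve_left hc'
  have hev : Even (Nat.card K) := Nat.not_odd_iff_even.1 fun ho => hc' (H6.sibley_coh hF hnil hti ho he)
  obtain rfl : 2 = p := (Nat.prime_dvd_prime_iff_eq Nat.prime_two hp).1
    (Nat.prime_two.dvd_of_dvd_pow (hm ▸ hev.two_dvd))
  have hpg : FT.PGrp 2 K := fun r hr hr' =>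
    (Nat.prime_dvd_prime_iff_eq hr hp).1 (hr.dvd_of_dvd_pow (hm ▸ hr'))
  have hodd : ¬ 2 ∣ K.relIndex (Subgroup.normalizer (K : Set G)) := fun h =>
    absurd (Nat.eq_one_of_dvd_coprimes hF.coprime hev.two_dvd h) (by norm_num)
  have hsyl : FT.Syl 2 K ⊤ := FT.syl_of_subnorm le_top (by
    rw [top_inf_eq]; exact FT.syl_of_not_dvd hlt.le hpg hodd)
  refine ⟨by rw [hsyl.card_syl hp, Subgroup.card_top], ?_⟩
  obtain ⟨a, -, ha⟩ := (Nat.dvd_prime_pow hp).1 (hm ▸ FT.relIndex_dvd ⁅K, K⁆ K)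
  have h2 : 1 < K.relIndex (Subgroup.normalizer (K : Set G)) := FT.one_lt_relIndex (not_le_of_gt hlt)
  show (⁅K, K⁆).relIndex K < 4 * K.relIndex (Subgroup.normalizer (K : Set G)) ^ 2
  generalize K.relIndex (Subgroup.normalizer (K : Set G)) = e at *
  rw [ha] at hb ⊢
  rcases hb.eq_or_lt with h | h
  · rcases a with _ | a
    · nlinarith
    · omega
  rcases (Nat.lt_succ_iff.1 h).eq_or_lt with h' | h'
  · obtain ⟨b, -, hb'⟩ := (Nat.dvd_prime_pow hp).1 (show e ∣ 2 ^ a from ⟨4 * e, by rw [h']; ring⟩)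
    rcases b with _ | b
    · omega
    · exact absurd ⟨2 ^ b, by rw [hb']; ring⟩ hodd
  · exact h'

end Cfsg.Agent.S1534
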