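import Cfsg.Statements.S1535
import Mathlib
import Cfsg.Agent.H6.Feit
import Cfsg.Agent.H5.Frob

set_option autoImplicit false
open Cfsg

namespace Cfsg.Agent.S1535

open Cfsg.Agent.H6

/-- Let N be a finite group with a proper nontrivial normal subgroup H such that every element commuting with a non-identity element of H lies in H (N is a Frobenius group with kernel H); let e be the index of H and suppose Nat.card H ≠ e + 1. Let S be the set of irreducible characters χ of N with χ h ≠ χ 1 for some h ∈ H, and τ a linear isometry on the integer combinations of S vanishing at 1, with values virtual characters of a finite group G vanishing at 1. Then (S, N minus 1, τ) is coherent, or there is a prime p with Nat.card H a power of p, H non-abelian and [H : [H,H]] ≤ 4e² + 1. -/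
theorem result {N : Type*} [Group N] [Fintype N] {G : Type*} [Group G] [Fintype G] (H : Subgroup N) [H.Normal] (hH1 : H ≠ ⊥) (hH2 : H ≠ ⊤) (hC : ∀ h ∈ H, h ≠ 1 → Subgroup.centralizer ({h} : Set N) ≤ H) (he : Nat.card H ≠ H.index + 1) (τ : (N → ℂ) → (G → ℂ)) (hτ : Cfsg.IsLinearIsometryOn (Cfsg.zspanOn {χ : N → ℂ | Cfsg.IsIrrCharacter N χ ∧ ∃ h ∈ H, χ h ≠ χ 1} {1}ᶜ) τ) (hτ1 : ∀ α ∈ Cfsg.zspanOn {χ : N → ℂ | Cfsg.IsIrrCharacter N χ ∧ ∃ h ∈ H, χ h ≠ χ 1} {1}ᶜ, τ α 1 = 0) : Cfsg.IsCoherent {χ : N → ℂ | Cfsg.IsIrrCharacter N χ ∧ ∃ h ∈ H, χ h ≠ χ 1} {1}ᶜ τ ∨ ∃ p : ℕ, p.Prime ∧ (∃ m : ℕ, Nat.card H = p ^ m) ∧ ¬ IsMulCommutative H ∧ (⁅H, H⁆.subgroupOf H).index ≤ 4 * H.index ^ 2 + 1 := by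
  have hF : H24.FrobK ⊤ H := H24.frobK_of_cent (FT.nml_top_iff.2 inferInstance) hH1 hH2
    fun k hk h1 => inf_le_right.trans (hC k hk h1)
  have hnil : Group.IsNilpotent H := by obtain ⟨E, hE⟩ := hF; exact H5b.frob_ker_nil hE
  rw [← H6.coe_seqIndD_frob hF] at hτ hτ1 ⊢
  obtain ⟨τ', h1, h2⟩ := H2.exists_iso1 hτ hτ1
  rw [← H.relIndex_top_right] at he ⊢
  refine (H6.feit_coh hF hnil he h1).imp (fun h => H2.isCoherent_of_coh h h2
    (H6.exists_ne_zero_of_two (H24.seqIndC1_subset_irr hF) (H6.frob_two_le hF (FT.Nil.sol hnil) he))) id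

end Cfsg.Agent.S1535
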