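import Cfsg.Statements.S1536
import Cfsg.Agent.H24.Bridge

set_option autoImplicit false
open Cfsg

namespace Cfsg.Agent.S1536

/-- Let H be a normal subgroup of the finite group M whose order is coprime to its index. For x ∈ M: some non-principal irreducible character of H is unchanged under h ↦ θ(x h x⁻¹) if and only if some non-identity element of H commutes with x. -/
theorem result {M : Type*} [Group M] [Finite M] (H : Subgroup M) [hN : H.Normal] (hHall : Nat.Coprime (Nat.card H) H.index) (x : M) : (∃ θ : H → ℂ, Cfsg.IsIrrCharacter H θ ∧ θ ≠ (fun _ => 1) ∧ (fun h : H => θ ⟨x * h * x⁻¹, hN.conj_mem h h.2 x⟩) = θ) ↔ ∃ h ∈ H, h ≠ 1 ∧ x * h = h * x := by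
  classical
  have hx : x ∈ Subgroup.normalizer (H : Set M) := (H24.Nrm.top H).nrm (Subgroup.mem_top x)
  simp only [← H24.mem_inertia_extL']
  constructor
  · rintro ⟨θ, hθ, h1, hi⟩
    by_contra hc
    push Not at hc
    refine h1 (H24.extL_injective ?_)
    rw [H24.extL_const_one]
    refine H24.eq_one_of_mem_inertia hx ?_ ?_ (H24.extL_mem_irr.2 hθ) hi
    · by_contra hn
      obtain ⟨p, hp, h2, h3⟩ := Nat.Prime.not_coprime_iff_dvd.1 hn
      have ho : orderOf (x ^ (orderOf x / p)) = p := orderOf_pow_orderOf_div (orderOf_pos x).ne' h2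
      have hm : x ^ (orderOf x / p) ∈ H := by
        rw [← QuotientGroup.eq_one_iff, ← orderOf_eq_one_iff]
        refine Nat.eq_one_of_dvd_coprimes (hHall.coprime_dvd_left h3) ?_ (orderOf_dvd_natCard _)
        exact (orderOf_map_dvd (QuotientGroup.mk' H) _).trans ho.dvd
      exact hc _ hm (fun t => by rw [t, orderOf_one] at ho; exact hp.one_lt.ne ho)
        (Commute.pow_right rfl _)
    · refine (Subgroup.eq_bot_iff_forall _).2 fun h hh => ?_
      by_contra t
      exact hc h hh.1 t (Subgroup.mem_centralizer_singleton_iff.1 hh.2).symm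
  · rintro ⟨h, hh, h1, e⟩
    have key := H24.card_fix_irr_classes hx
    have two : 1 < ((H24.irr H).filter (fun θ => x ∈ H24.inertia θ)).card := by
      rw [key]
      have fix : ∀ k ∈ H, x * k = k * x → FT.classSupp {k} H ∈ (((H24.fs (H : Set M)).image
          (fun h => FT.classSupp {h} H)).filter (fun c => ∀ h ∈ c, x * h * x⁻¹ ∈ c)) := fun k hk e => by
        refine Finset.mem_filter.2 ⟨Finset.mem_image.2 ⟨k, H24.mem_fs.2 hk, rfl⟩, fun y hy => ?_⟩
        obtain ⟨a, ha, rfl⟩ := H24.mem_clsupp_singleton.1 hy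
        refine H24.mem_clsupp_singleton.2 ⟨x * a * x⁻¹, hN.conj_mem a ha x, ?_⟩
        calc x * (a * k * a⁻¹) * x⁻¹ = x * a * x⁻¹ * (x * k) * a⁻¹ * x⁻¹ := by group
          _ = _ := by rw [e]; group
      refine Finset.one_lt_card.2 ⟨_, fix h hh e, _, fix 1 H.one_mem (by simp), fun t => h1 ?_⟩
      have : h ∈ FT.classSupp {1} H := t ▸ H24.subset_clsupp _ _ rfl
      obtain ⟨a, -, e⟩ := H24.mem_clsupp_singleton.1 this
      simpa using e
    obtain ⟨θ, hθ, h2⟩ := Finset.exists_mem_ne two (H24.one H)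
    obtain ⟨φ, hφ, rfl⟩ := H24.irr_eq_extL (Finset.mem_filter.1 hθ).1
    exact ⟨φ, hφ, fun t => h2 (by rw [t, H24.extL_const_one]), (Finset.mem_filter.1 hθ).2⟩

end Cfsg.Agent.S1536
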