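import Cfsg.Statements.S1546
import Cfsg.Agent.H24.Basic

set_option autoImplicit false
open Cfsg

namespace Cfsg.Agent.S1546

/-- Let p and q be odd primes and N = (p ^ q − 1) / (p − 1) = 1 + p + ⋯ + p^(q−1). Then N is odd; if p ≡ 1 (mod q) then q ∣ N; and if p is not ≡ 1 (mod q) then N is coprime to p − 1 and every divisor of N is ≡ 1 (mod q). -/
theorem result (p q : ℕ) (hp : p.Prime) (hq : q.Prime) (hp2 : p ≠ 2) (hq2 : q ≠ 2) : Odd ((p ^ q - 1) / (p - 1)) ∧ (p % q = 1 → q ∣ (p ^ q - 1) / (p - 1)) ∧ (p % q ≠ 1 → Nat.Coprime ((p ^ q - 1) / (p - 1)) (p - 1) ∧ ∀ x : ℕ, x ∣ (p ^ q - 1) / (p - 1) → x % q = 1) := by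
  have hp1 := hp.one_lt
  have e : (p ^ q - 1) / (p - 1) = ∑ i ∈ Finset.range q, p ^ i := (Nat.geomSum_eq hp.two_le q).symm
  have e' : (∑ i ∈ Finset.range q, p ^ i) * (p - 1) + 1 = p ^ q := by
    have := Nat.geomSum_eq hp.two_le q
    rw [this, Nat.div_mul_cancel (Nat.sub_one_dvd_pow_sub_one p q)]
    have := Nat.one_le_pow q p hp.pos
    omega
  rw [e]
  have key : ∀ m : ℕ, (p : ZMod m) = 1 → ((∑ i ∈ Finset.range q, p ^ i : ℕ) : ZMod m) = q :=
    fun m h => by simp [h]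
  refine ⟨?_, fun h => ?_, fun h => ?_⟩
  · rw [← ZMod.natCast_eq_one_iff_odd, key 2 (ZMod.natCast_eq_one_iff_odd.2 (hp.odd_of_ne_two hp2))]
    exact ZMod.natCast_eq_one_iff_odd.2 (hq.odd_of_ne_two hq2)
  · rw [← ZMod.natCast_eq_zero_iff, key q (by rw [← ZMod.natCast_mod, h, Nat.cast_one]),
      ZMod.natCast_self]
  have hc : Nat.Coprime (∑ i ∈ Finset.range q, p ^ i) (p - 1) := by
    refine Nat.coprime_of_dvd fun r hr h1 h2 => h ?_
    have h3 : (p : ZMod r) = 1 := by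
      have := (ZMod.natCast_eq_zero_iff _ _).2 h2
      rwa [Nat.cast_sub hp1.le, Nat.cast_one, sub_eq_zero] at this
    have h4 := (ZMod.natCast_eq_zero_iff _ _).2 h1
    rw [key r h3, ZMod.natCast_eq_zero_iff, Nat.prime_dvd_prime_iff_eq hr hq] at h4
    subst h4
    have := (ZMod.natCast_eq_natCast_iff' p 1 r).1 (by rw [h3, Nat.cast_one])
    rwa [Nat.mod_eq_of_lt hr.one_lt] at this
  refine ⟨hc, fun x hx => ?_⟩
  have hpr : ∀ r : ℕ, r.Prime → r ∣ ∑ i ∈ Finset.range q, p ^ i → r % q = 1 := fun r hr h1 => by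
    haveI := Fact.mk hr
    haveI := Fact.mk hq
    have h2 : (p : ZMod r) ^ q = 1 := by
      rw [← Nat.cast_pow, ← e', Nat.cast_add, Nat.cast_mul, (ZMod.natCast_eq_zero_iff _ _).2 h1]; simp
    have h3 : (p : ZMod r) ≠ 1 := fun t => hr.one_lt.ne' (Nat.eq_one_of_dvd_coprimes hc h1 (by
      rw [← ZMod.natCast_eq_zero_iff, Nat.cast_sub hp1.le, t]; simp))
    have h4 := orderOf_eq_prime h2 h3
    have h5 : (p : ZMod r) ≠ 0 := fun t => by rw [t, zero_pow hq.ne_zero] at h2; exact zero_ne_one h2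
    have h6 := ZMod.orderOf_dvd_card_sub_one h5
    rw [h4] at h6
    obtain ⟨c, hc⟩ := h6
    have : r = 1 + q * c := by have := hr.one_lt; omega
    rw [this, Nat.add_mul_mod_self_left, Nat.mod_eq_of_lt hq.one_lt]
  have h0 : ∑ i ∈ Finset.range q, p ^ i ≠ 0 := fun t => by
    rw [t] at e'
    have := Nat.one_lt_pow hq.ne_zero hp1
    omega
  induction x using Nat.recOnMul with
  | zero => exact absurd (zero_dvd_iff.1 hx) h0
  | one => exact Nat.mod_eq_of_lt hq.one_lt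
  | prime r hr => exact hpr r hr hx
  | mul a b ha hb =>
    rw [Nat.mul_mod, ha (dvd_of_mul_right_dvd hx), hb (dvd_of_mul_left_dvd hx)]
    exact Nat.mod_eq_of_lt hq.one_lt

end Cfsg.Agent.S1546
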