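import Cfsg.Statements.S1552
import Mathlib
import Cfsg.Agent.H14.M24d

set_option autoImplicit false
open scoped Pointwise
open Cfsg

namespace Cfsg.Agent.S1552

/-- A sextet stabiliser has four orbits on the 1771 sextets, of sizes 1, 90, 240, 1440; and the stabiliser is a maximal proper subgroup. -/
theorem result (S : Finset (Finset Cfsg.GolayPt)) (hS : S ∈ Cfsg.sextets) : ∃ X₁ ∈ Cfsg.sextets, ∃ X₂ ∈ Cfsg.sextets, ∃ X₃ ∈ Cfsg.sextets, (MulAction.orbit ↥(MulAction.stabilizer Cfsg.M24 S) X₁).ncard = 90 ∧ (MulAction.orbit ↥(MulAction.stabilizer Cfsg.M24 S) X₂).ncard = 240 ∧ (MulAction.orbit ↥(MulAction.stabilizer Cfsg.M24 S) X₃).ncard = 1440 ∧ Cfsg.sextets = {S} ∪ MulAction.orbit ↥(MulAction.stabilizer Cfsg.M24 S) X₁ ∪ MulAction.orbit ↥(MulAction.stabilizer Cfsg.M24 S) X₂ ∪ MulAction.orbit ↥(MulAction.stabilizer Cfsg.M24 S) X₃ ∧ IsCoatom (MulAction.stabilizer Cfsg.M24 S) := by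
  obtain ⟨g, rfl⟩ := H14.m24_sextet H14.X0_mem hS
  obtain ⟨a, b, c, h⟩ := H14.orbDec_SX_sextets
  have h' := h.smul g
  rw [H14.smul_sextets] at h'
  obtain ⟨X₁, h1, X₂, h2, X₃, h3, h4, h5, h6, h7⟩ := h'.one_three
  exact ⟨X₁, h1, X₂, h2, X₃, h3, h4, h5, h6, h7, H14.isCoatom_stabilizer_smul g H14.coatom_SX⟩

end Cfsg.Agent.S1552
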