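import Cfsg.Statements.S1553
import Cfsg.Agent.L1.Iso

set_option autoImplicit false
open scoped Pointwise
open Cfsg

namespace Cfsg.Agent.S1553

open Cfsg.Agent.H14 MulAction
open scoped Pointwise

/-- The stabiliser of an octad in the group of the length-24 code induces on the octad exactly its alternating group. -/
theorem result (o : Finset Cfsg.GolayPt) (ho : o ∈ Cfsg.octads) : {e : Equiv.Perm ↥o | ∃ g : Equiv.Perm Cfsg.GolayPt, g ∈ Cfsg.M24 ∧ ∃ h : (∀ x, g x ∈ o ↔ x ∈ o), g.subtypePerm h = e} = (alternatingGroup ↥o : Set (Equiv.Perm ↥o)) := by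
  have hS : ∀ g ∈ stabilizer M24 o, ∀ x ∈ o, g • x ∈ o := fun g hg x hx => smul_mem_of_stab hg hx
  have h := range_eq_alt (L := fixingSubgroup M24 (o : Set GolayPt)) hS
    (fun g => ⟨fun hg => ⟨smul_finset_of_fix ((mem_fixingSubgroup_iff M24).mp hg),
      (mem_fixingSubgroup_iff M24).mp hg⟩, fun hg => (mem_fixingSubgroup_iff M24).mpr hg.2⟩)
    (by rw [card_fix_octad ho, card_stab_octad ho, (mem_octads.mp ho).2]; rfl)
  rw [← h]
  ext e
  constructor
  · rintro ⟨g, hg, h, rfl⟩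
    refine ⟨⟨⟨g, hg⟩, mem_stabilizer_iff.mpr (Finset.eq_of_subset_of_card_le (fun x hx => ?_)
      (by rw [Finset.card_smul_finset]))⟩, Equiv.ext fun x => Subtype.ext rfl⟩
    obtain ⟨y, hy, rfl⟩ := Finset.mem_smul_finset.mp hx
    exact (h y).mpr hy
  · rintro ⟨g, rfl⟩
    exact ⟨g.1.1, g.1.2, fun x => ⟨fun hx => by
      by_contra hc
      exact smul_not_mem_of_stab g.2 hc hx, fun hx => smul_mem_of_stab g.2 hx⟩,
      Equiv.ext fun x => Subtype.ext rfl⟩

end Cfsg.Agent.S1553
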