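import Cfsg.Statements.S1554
import Cfsg.Agent.L1.Iso

set_option autoImplicit false
open scoped Pointwise
open Cfsg

namespace Cfsg.Agent.S1554

open Cfsg.Agent.H14 MulAction
open scoped Pointwise

theorem key {o : Finset GolayPt} (ho : o ∈ octads) {p : GolayPt} (hp : p ∉ o) {g : M24}
    (h : ∀ x ∈ o, g • x = x) (h' : g • p = p) : g = 1 :=
  eq_one_of_fix9 (P := insert p o) (fun x hx => by
    rcases Finset.mem_insert.mp hx with rfl | hx
    · exact h'
    · exact h x hx) (by rw [Finset.card_insert_of_notMem hp, (mem_octads.mp ho).2])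

theorem orb {o : Finset GolayPt} (ho : o ∈ octads) {p : GolayPt} (hp : p ∉ o) {K : Subgroup M24}
    (h1 : fixingSubgroup M24 (o : Set GolayPt) ≤ K) (h2 : K ≤ stabilizer M24 o) :
    orbit K p = (oᶜ : Finset GolayPt) := by
  have hsub : ∀ L ≤ stabilizer M24 o, orbit L p ⊆ (oᶜ : Finset GolayPt) := fun L hL y hy => by
    obtain ⟨g, hg, rfl⟩ := mem_orbit_sub.mp hy
    exact Finset.mem_coe.mpr (Finset.mem_compl.mpr (smul_not_mem_of_stab (hL hg) hp))
  refine (hsub K h2).antisymm (Set.Subset.trans ?_ (orbit_subset_of_le h1 p))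
  refine (orbit_eq_of_card (hsub _ (h1.trans h2)) (Set.toFinite _) ?_).ge
  have e : fixingSubgroup M24 (o : Set GolayPt) ⊓ stabilizer M24 p = ⊥ :=
    (Subgroup.eq_bot_iff_forall _).mpr fun g hg =>
      key ho hp ((mem_fixingSubgroup_iff M24).mp hg.1) hg.2
  rw [e, Subgroup.card_bot, card_fix_octad ho, Set.ncard_coe_finset, Finset.card_compl,
    (mem_octads.mp ho).2]
  rfl

/-- An octad stabiliser is a split extension: the joint stabiliser of the octad and a point outside it is a complement to the pointwise stabiliser of the octad, and is isomorphic to the alternating group of degree 8. -/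
theorem result (o : Finset Cfsg.GolayPt) (ho : o ∈ Cfsg.octads) (p : Cfsg.GolayPt) (hp : p ∉ o) : (Cfsg.M24 ⊓ fixingSubgroup (Equiv.Perm Cfsg.GolayPt) (o : Set Cfsg.GolayPt)) ⊓ (Cfsg.M24 ⊓ MulAction.stabilizer (Equiv.Perm Cfsg.GolayPt) o ⊓ MulAction.stabilizer (Equiv.Perm Cfsg.GolayPt) p) = ⊥ ∧ (Cfsg.M24 ⊓ fixingSubgroup (Equiv.Perm Cfsg.GolayPt) (o : Set Cfsg.GolayPt)) ⊔ (Cfsg.M24 ⊓ MulAction.stabilizer (Equiv.Perm Cfsg.GolayPt) o ⊓ MulAction.stabilizer (Equiv.Perm Cfsg.GolayPt) p) = (Cfsg.M24 ⊓ MulAction.stabilizer (Equiv.Perm Cfsg.GolayPt) o) ∧ Nonempty (↥(Cfsg.M24 ⊓ MulAction.stabilizer (Equiv.Perm Cfsg.GolayPt) o ⊓ MulAction.stabilizer (Equiv.Perm Cfsg.GolayPt) p) ≃* alternatingGroup (Fin 8)) := by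
  have hle : fixingSubgroup M24 (o : Set GolayPt) ≤ stabilizer M24 o := fun g hg =>
    smul_finset_of_fix ((mem_fixingSubgroup_iff M24).mp hg)
  refine ⟨(Subgroup.eq_bot_iff_forall _).mpr fun g hg => ?_, le_antisymm (sup_le
    (fun g hg => ⟨hg.1, hle (show (⟨g, hg.1⟩ : M24) ∈ _ from (mem_fixingSubgroup_iff M24).mpr
      ((mem_fixingSubgroup_iff _).mp hg.2))⟩) inf_le_left) fun g hg => ?_, ?_⟩
  · exact congrArg Subtype.val (key ho hp (g := ⟨g, hg.1.1⟩)
      ((mem_fixingSubgroup_iff _).mp hg.1.2) hg.2.2)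
  · have h1 : (⟨g, hg.1⟩ : M24) • p ∈ orbit (fixingSubgroup M24 (o : Set GolayPt)) p := by
      rw [orb ho hp le_rfl hle]
      exact Finset.mem_coe.mpr (Finset.mem_compl.mpr
        (smul_not_mem_of_stab (g := (⟨g, hg.1⟩ : M24)) hg.2 hp))
    obtain ⟨n, hn, e⟩ := mem_orbit_sub.mp h1
    have h2 : (n : Equiv.Perm GolayPt) ∈ M24 ⊓ fixingSubgroup (Equiv.Perm GolayPt) (o : Set GolayPt) :=
      ⟨n.2, (mem_fixingSubgroup_iff _).mpr ((mem_fixingSubgroup_iff M24).mp hn)⟩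
    have h3 : (n : Equiv.Perm GolayPt)⁻¹ * g ∈ M24 ⊓ stabilizer (Equiv.Perm GolayPt) o ⊓
        stabilizer (Equiv.Perm GolayPt) p :=
      ⟨⟨M24.mul_mem (M24.inv_mem n.2) hg.1, Subgroup.mul_mem _ (Subgroup.inv_mem _ (hle hn)) hg.2⟩,
        mem_stabilizer_iff.mpr (by rw [mul_smul, inv_smul_eq_iff]; exact e.symm)⟩
    have := Subgroup.mul_mem _ (Subgroup.mem_sup_left (T := M24 ⊓ stabilizer (Equiv.Perm GolayPt) o ⊓
        stabilizer (Equiv.Perm GolayPt) p) h2) (Subgroup.mem_sup_right h3)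
    rwa [mul_inv_cancel_left] at this
  · have h1 := card_eq_orbit_mul_inf (stabilizer M24 o) p
    rw [orb ho hp hle le_rfl, card_stab_octad ho, Set.ncard_coe_finset, Finset.card_compl,
      (mem_octads.mp ho).2, show Fintype.card GolayPt - 8 = 16 from rfl] at h1
    obtain ⟨e⟩ := iso_alt (K := stabilizer M24 o ⊓ stabilizer M24 p) (S := o) (n := 8)
      (fun g hg x hx => smul_mem_of_stab hg.1 hx) (fun g hg h => key ho hp h hg.2)
      (mem_octads.mp ho).2 (by rw [show Nat.factorial 8 = 40320 from rfl]; omega)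
    exact ⟨(subEquiv (M := M24) (K := stabilizer M24 o ⊓ stabilizer M24 p)
      (L := M24 ⊓ stabilizer (Equiv.Perm GolayPt) o ⊓ stabilizer (Equiv.Perm GolayPt) p)
      (fun g hg => hg.1.1) fun g =>
      ⟨fun h => ⟨⟨g.2, h.1⟩, h.2⟩, fun h => ⟨h.1.2, h.2⟩⟩).symm.trans e⟩

end Cfsg.Agent.S1554
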