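import Cfsg.Statements.S1558
import Cfsg.Agent.S1551
import Cfsg.Agent.L1.Inv

set_option autoImplicit false
open scoped Pointwise
open Cfsg

namespace Cfsg.Agent.S1558

open Cfsg.Agent.H14 MulAction
open scoped Pointwise

/-- the normal subgroup of order 64. -/
noncomputable def N : CSub A24 := CSub.small A24 [0x8cc8cb26e7584d47a24a8341510dc5, 0x2bd845b408b0e5599cd0526f470451,
    0x7126fa9c29a5d4b636069207628222, 0x926fa99caa452b641a744856016e3,
    0x14c8cb1c69581547b606920358dcae, 0x1926fab448a164b61cd0525d6bc401]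
    [0xbdab49ca307b9ac5a928398a418820, 0xbcc8cb2a265b8f47c9096c0b518820,
    0xbd6cb22627638cfa224a834b318820, 0xb926faa22da3a0b6255231cb618820,
    0xbbd8459e29b39559b606920b418820, 0xbae957b6289ba44b1cd0524ac18820,
    0xbb1f3a4232ab916218ed4a8ab18820, 0xbd17661a2a23933ac1a7448af18820,
    0x8926facaf0a05ab629283981610dc5, 0x8d6cb22ae6604efa49096c01310dc5,
    0x8cc8cb26e7584d47a24a8341510dc5, 0x8dab49a2ed7860c5a55231c0410dc5,
    0x8d17661ee920553ab6069200f10dc5, 0x8b1f3a36e8a865621cd05240b10dc5,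
    0x8ae957c2f298504b18ed4a80c10dc5, 0x8bd8459aeab05359c1a74481410dc5,
    0x2dab49a80678cec5c9096c2e470451, 0x2cc8cb481058db47a92839af570451,
    0x2d6cb2200d60e0fa255231ef370451, 0x2926faa407a0ccb6224a836f670451,
    0x2bd845b408b0e5599cd0526f470451, 0x2ae9579c0998d44b3606922ec70451,
    0x2b1f3a180aa8d36241a744aeb70451, 0x2d1766401220d13a98ed4aaef70451,
    0x126faa8a6a08eb649096c2360b877, 0x56cb248b0609afa292839a330b877,
    0x4c8cb20ad58a147a55231e350b877, 0x5ab49a4a7788cc5a24a836240b877,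
    0x5176634a820a53a9cd05262f0b877, 0x31f3a1ca9a8956236069222b0b877,
    0x2e95798aa98924b41a744a2c0b877, 0x3d845c0b2b0915998ed4aa340b877,
    0xdab499dc97c54c5b60692044016e3, 0xcc8cb35c85c65479cd052455016e3,
    0xd6cb241d26450fa18ed4a853016e3, 0x926fa99caa452b641a744856016e3,
    0xbd845c9d0b45b59a92839854016e3, 0xae957a9c69c4e4b49096c04c016e3,
    0xb1f3a25c7ac4d62224a8344b016e3, 0xd176621cd24613aa55231c4f016e3,
    0x7126fa9c29a5d4b636069207628222, 0x756cb2342865e4fa1cd05247328222,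
    0x74c8cb40325dd14798ed4a87528222, 0x75ab49982a7dd2c5c1a74486428222,
    0x751766483025db3aa9283986f28222, 0x731f3a2826adcf6249096c06b28222,
    0x72e957a4279dcc4b224a8346c28222, 0x73d845a02db5e159a55231c7428222,
    0x15ab49b4687824c59cd0524248dcae, 0x14c8cb1c69581547b606920358dcae,
    0x156cb2186a6012fa41a7448338dcae, 0x1126fac072a010b618ed4a8368dcae,
    0x13d845a866b00f59c9096c0348dcae, 0x12e957c870981a4b29283982c8dcae,
    0x131f3a206da82162255231c2b8dcae, 0x1517662467200d3aa24a8342f8dcae,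
    0x1926fab448a164b61cd0525d6bc401, 0x1d6cb21c496154fa3606921d3bc401,
    0x1cc8cb184a595347c1a7449d5bc401, 0x1dab49c0527950c598ed4a9c4bc401,
    0x1d17662846214f3ac9096c1cfbc401, 0x1b1f3a4850a95b622928399cbbc401,
    0x1ae957a04d99604b255231dccbc401, 0x1bd845a447b14d59a24a835d4bc401]
    64 (by decide +kernel)

/-- vectors with a label. -/
def W := (Fin 3 → ZMod 2) × Fin 3

instance : MulAction (GL (Fin 3) (ZMod 2) × Equiv.Perm (Fin 3)) W where
  smul h w := (h.1 • w.1, h.2 w.2)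
  one_smul w := Prod.ext (one_smul _ w.1) rfl
  mul_smul a b w := Prod.ext (mul_smul a.1 b.1 w.1) rfl

/-- a class of 21 involutions. -/
def tab : List ℕ := [0x0, 0x2dab49a80678cec5c9096c2e470451, 0x75ab49982a7dd2c5c1a74486428222,
    0x1dab49c0527950c598ed4a9c4bc401, 0xdab499dc97c54c5b60692044016e3,
    0x15ab49b4687824c59cd0524248dcae, 0x8dab49a2ed7860c5a55231c0410dc5,
    0x5ab49a4a7788cc5a24a836240b877, 0x0, 0x2cc8cb481058db47a92839af570451,
    0x751766483025db3aa9283986f28222, 0x1b1f3a4850a95b622928399cbbc401,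
    0xbd845c9d0b45b59a92839854016e3, 0x12e957c870981a4b29283982c8dcae,
    0x8926facaf0a05ab629283981610dc5, 0x56cb248b0609afa292839a330b877, 0x0,
    0xbcc8cb2a265b8f47c9096c0b518820, 0xbd17661a2a23933ac1a7448af18820,
    0xbb1f3a4232ab916218ed4a8ab18820, 0xbbd8459e29b39559b606920b418820,
    0xbae957b6289ba44b1cd0524ac18820, 0xb926faa22da3a0b6255231cb618820,
    0xbd6cb22627638cfa224a834b318820]

/-- the label of a vector. -/
noncomputable def code (w : W) : ℕ :=
  nth tab ((w.1 0).val + 2 * (w.1 1).val + 4 * (w.1 2).val + 8 * w.2.val)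

theorem iso : ∃ (N : Subgroup STs.K) (_ : N.Normal), Nat.card N = 64 ∧ (∀ x ∈ N, x ^ 2 = 1) ∧
    Nonempty (STs.K ⧸ N ≃* GL (Fin 3) (ZMod 2) × Equiv.Perm (Fin 3)) := by
  have hV : ∀ w : W, w.1 ≠ 0 → A24.ok (code w) := fun w hw =>
    A24_ok ((by decide +kernel : ∀ v i, v ≠ 0 → A24.okb (code (v, i)) = true) w.1 w.2 hw)
  have hN := STs.normal_subgroupOf N (by decide +kernel)
  have hc := STs.card_subgroupOf N (by decide +kernel)
  have key : ∀ p ∈ ([(0x8926facaf0a05ab629283981610dc5, [0x801c28ad242aa81bbed3654c391da8]),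
      (0x2dab49a80678cec5c9096c2e470451, [0x7dc2271e901cda02a2464a89162eb6]),
      (0xdab499dc97c54c5b60692044016e3, [0x7517562026980e4b25526c06f8dca2,
      0x2daac9a0075b8d47a552836e418831])] : List (ℕ × List ℕ)),
      ∃ v i, v ≠ 0 ∧ code (v, i) = p.1 := by decide +kernel
  have hs : ∀ T ∈ STs.gens, ∃ h, (A24.el T, h) ∈
      link (H := GL (Fin 3) (ZMod 2) × Equiv.Perm (Fin 3)) {w : W | w.1 ≠ 0}
        (fun h w hw => gl_ne_zero h.1 w.1 hw) fun w => (cjL tab).dec (code w) := fun T hT => by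
    have h : ∀ (M : Matrix (Fin 3) (Fin 3) (ZMod 2)) (hM : M.det ≠ 0) (σ : Equiv.Perm (Fin 3)),
        (∀ v i, v ≠ 0 → Nat.beq ((cjL tab).h ((cjL tab).fn T (code (v, i))))
          ((cjL tab).h (code (M.mulVec v, σ i))) = true) → ∃ h, (A24.el T, h) ∈
        link (H := GL (Fin 3) (ZMod 2) × Equiv.Perm (Fin 3)) {w : W | w.1 ≠ 0}
          (fun h w hw => gl_ne_zero h.1 w.1 hw) fun w => (cjL tab).dec (code w) :=
      fun M hM σ h => ⟨(Matrix.GeneralLinearGroup.mkOfDetNeZero M hM, σ),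
        (compat_cjL tab).mem_link hV (STs.gens_ok T hT) fun w hw => h w.1 w.2 hw⟩
    rcases List.mem_pair.mp hT with rfl | rfl
    · exact h !![0, 1, 0; 0, 0, 1; 1, 1, 0] (by decide +kernel) ⟨![1, 0, 2], ![1, 0, 2], by decide, by decide⟩
        (by decide +kernel)
    · exact h !![1, 0, 0; 0, 0, 1; 1, 1, 0] (by decide +kernel) ⟨![2, 0, 1], ![1, 2, 0], by decide, by decide⟩
        (by decide +kernel)
  obtain ⟨e, -⟩ := STs.iso_left (H := GL (Fin 3) (ZMod 2) × Equiv.Perm (Fin 3))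
    (link {w : W | w.1 ≠ 0} (fun h w hw => gl_ne_zero h.1 w.1 hw) fun w => (cjL tab).dec (code w))
    hs (N.K.subgroupOf STs.K) (fun g h => STs.mem_of_labels N _ (compat_cjL tab) code
      hV (fuel := 22) (fun p hp => (key p hp).elim fun v h => h.elim fun i h => ⟨(v, i), h⟩)
      (by decide +kernel) g.2 fun w hw => by simpa using h w hw)
    (by rw [hc, Nat.card_prod, Matrix.card_GL_field, Nat.card_perm]; simp; decide +kernel)
  exact ⟨_, hN, hc, fun x hx =>
    Subtype.ext ((N.pow_eq_one (p := 2) (by decide +kernel)).2 x hx), ⟨e⟩⟩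

theorem L_K : fixingSubgroup M24 (T0 : Set (Finset GolayPt)) ≤ SOO0.K := fun g hg => by
  have h := (mem_fixingSubgroup_iff _).mp hg
  exact ⟨h o0 (by rw [T0, mT_dec]; decide +kernel),
    h (gC.set 0x527c0) (by rw [T0, mT_dec]; decide +kernel)⟩

/-- Structure of a trio stabiliser: every permutation of the three octads is induced, and there is a normal subgroup of order 64 of elements squaring to the identity whose quotient is isomorphic to the product of GL(3, 2) with the symmetric group of degree 3. -/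
theorem result (T : Finset (Finset Cfsg.GolayPt)) (hT : T ∈ Cfsg.trios) : (∀ e : Equiv.Perm ↥T, ∃ g ∈ MulAction.stabilizer Cfsg.M24 T, ∀ o : ↥T, (g : Equiv.Perm Cfsg.GolayPt) • (o : Finset Cfsg.GolayPt) = ((e o : ↥T) : Finset Cfsg.GolayPt)) ∧ ∃ (N : Subgroup ↥(MulAction.stabilizer Cfsg.M24 T)) (_ : N.Normal), Nat.card N = 64 ∧ (∀ x ∈ N, x * x = 1) ∧ Nonempty (↥(MulAction.stabilizer Cfsg.M24 T) ⧸ N ≃* GL (Fin 3) (ZMod 2) × Equiv.Perm (Fin 3)) := by
  obtain ⟨k, rfl⟩ := m24_trio T0_mem hT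
  have e := stabilizerEquivStabilizer (g := k) (a := T0) rfl
  refine ⟨fun σ => induces_all (fun g hg x hx => smul_mem_of_stab hg hx) (S1551.mem_fix _) ?_ σ, ?_⟩
  · have h1 : _ ≤ 10752 := (Subgroup.card_le_of_le L_K).trans SOO0.card_eq.le
    have h2 : _ = 64512 := ST.card_eq
    rw [S1551.card_fix, hT.1, ← Nat.card_congr e.toEquiv]
    exact (Nat.mul_le_mul_right _ h1).trans (le_of_eq_of_le (by decide) h2.ge)
  · obtain ⟨N, hN, h2, h3, h4⟩ := ext_congr (K := STs.K) e iso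
    exact ⟨N, hN, h2, fun x hx => pow_two x ▸ h3 x hx, h4⟩

end Cfsg.Agent.S1558
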