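import Cfsg.Statements.S1560
import Mathlib
import Cfsg.Agent.H14.M24c

set_option autoImplicit false
open scoped Pointwise
open Cfsg

namespace Cfsg.Agent.S1560

/-- Intersection numbers of dodecads: a dodecad meets every other dodecad in 0, 4, 6 or 8 points, meeting 495 of them in 4 points, 1584 in 6 points and 495 in 8 points. -/
theorem result (d : Finset Cfsg.GolayPt) (hd : d ∈ Cfsg.dodecads) : (∀ d' ∈ Cfsg.dodecads, d' ≠ d → (d ∩ d').card = 0 ∨ (d ∩ d').card = 4 ∨ (d ∩ d').card = 6 ∨ (d ∩ d').card = 8) ∧ {d' : Finset Cfsg.GolayPt | d' ∈ Cfsg.dodecads ∧ (d ∩ d').card = 4}.ncard = 495 ∧ {d' : Finset Cfsg.GolayPt | d' ∈ Cfsg.dodecads ∧ (d ∩ d').card = 6}.ncard = 1584 ∧ {d' : Finset Cfsg.GolayPt | d' ∈ Cfsg.dodecads ∧ (d ∩ d').card = 8}.ncard = 495 := by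
  have h := H14.invDec_dodecad_dodecads hd
  refine ⟨fun d' hd' hne => ?_, h.count (4, 495) (by simp), h.count (6, 1584) (by simp),
    h.count (8, 495) (by simp)⟩
  have h1 := h.val d' hd'
  have h2 : (d ∩ d').card ≠ 12 := fun e => by
    have e1 := Finset.eq_of_subset_of_card_le (Finset.inter_subset_left (s₁ := d) (s₂ := d'))
      (by rw [e, hd.2])
    have e2 := Finset.eq_of_subset_of_card_le (Finset.inter_subset_right (s₁ := d) (s₂ := d'))
      (by rw [e, hd'.2])
    exact hne (e2.symm.trans e1)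
  simp only [List.mem_cons, List.not_mem_nil, or_false, exists_eq_or_imp, exists_eq_left] at h1
  omega

end Cfsg.Agent.S1560
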