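import Cfsg.Statements.S1563
import Mathlib
import Cfsg.Agent.H14.M24d

set_option autoImplicit false
open scoped Pointwise
open Cfsg

namespace Cfsg.Agent.S1563

/-- The stabiliser of a pair of points (setwise) is a maximal proper subgroup of the group of the length-24 code. -/
theorem result (s : Finset Cfsg.GolayPt) (hs : s.card = 2) : IsCoatom (MulAction.stabilizer Cfsg.M24 s) := by
  obtain ⟨g, rfl⟩ := H14.m24_finset (s := H14.gC.set 0x800001) (t := s)
    (by rw [H14.card_gset]; decide +kernel) (by rw [hs, H14.card_gset]; decide +kernel)
  exact H14.isCoatom_stabilizer_smul g H14.coatom_SP2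

end Cfsg.Agent.S1563
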