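import Cfsg.Statements.S1566
import Mathlib
import Cfsg.Agent.H14.M24d

set_option autoImplicit false
open scoped Pointwise
open Cfsg

namespace Cfsg.Agent.S1566

/-- The setwise stabiliser of a dodecad together with its complement is a maximal proper subgroup of the group of the length-24 code. -/
theorem result (d : Finset Cfsg.GolayPt) (hd : d ∈ Cfsg.dodecads) : IsCoatom (MulAction.stabilizer Cfsg.M24 ({d, dᶜ} : Finset (Finset Cfsg.GolayPt))) := by
  obtain ⟨g, rfl⟩ := H14.m24_dodecad H14.d0_mem hd
  have := H14.isCoatom_stabilizer_smul g H14.coatom_SDD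
  rwa [Finset.smul_finset_insert, Finset.smul_finset_singleton, H14.smul_finset_compl] at this

end Cfsg.Agent.S1566
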