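import Cfsg.Statements.S1568
import Mathlib
import Cfsg.Agent.H25.Leech

set_option autoImplicit false
open Cfsg

namespace Cfsg.Agent.S1568
open H25.Leech
attribute [-simp] Fintype.sum_option Fintype.prod_option

theorem cnt (al k : ℕ) (h : Nat.beq (cntm al sqd 48 0 + cntm al sqd 48 1) k = true) :
    {x : V | x ∈ L ∧ sqNorm x = 48 ∧ ∀ i, al.testBit (x i + 8).toNat}.ncard = k := by
  rw [← Nat.eq_of_beq_eq_true h, ← ncard_LSet]
  congr 1; ext x
  exact (mem_LSet_sq (by norm_num)).symm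

theorem bits (al : ℕ) (P : ℤ → Prop) (h : ∀ d < 17, al.testBit d ↔ P ((d : ℤ) - 8)) {x : V}
    (hx : sqNorm x = 48) : (∀ i, al.testBit (x i + 8).toNat) ↔ ∀ i, P (x i) :=
  forall_congr' fun i => by
    have := abs_le8 (x := x) (by omega) i
    rw [h _ (by omega)]
    congr! 1; omega

theorem cnt' (al k : ℕ) (c : ℤ) (h : Nat.beq (cntm al sqd 48 0 + cntm al sqd 48 1) k = true)
    (h2 : ∀ d < 17, al.testBit d ↔ |(d : ℤ) - 8| ≠ c) :
    {x : V | x ∈ L ∧ sqNorm x = 48 ∧ ∃ i, |x i| = c}.ncard = 16773120 - k := by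
  rw [← cnt al k h, ← ncard_Sh48, ← Set.ncard_sdiff (t := Sh 48) (fun x hx => ⟨hx.1, hx.2.1⟩)
    ((Sh_finite (n := 48) (by norm_num)).subset fun x hx => ⟨hx.1, hx.2.1⟩)]
  congr 1; ext x
  simp only [Set.mem_setOf_eq, Set.mem_diff, Sh]
  constructor
  · rintro ⟨a, b, i, e⟩
    exact ⟨⟨a, b⟩, fun h => (bits al (|·| ≠ c) h2 b).1 h.2.2 i e⟩
  · rintro ⟨⟨a, b⟩, e⟩
    refine ⟨a, b, ?_⟩
    by_contra hc
    exact e ⟨a, b, (bits al (|·| ≠ c) h2 b).2 fun i hi => hc ⟨i, hi⟩⟩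

theorem three {x : V} (h1 : x ∈ L) (h2 : sqNorm x = 48) :
    (∃ i j k, i ≠ j ∧ j ≠ k ∧ i ≠ k ∧ |x i| = 3 ∧ |x j| = 3 ∧ |x k| = 3) ↔
      ∀ i, |x i| = 1 ∨ |x i| = 3 := by
  have key : ∀ T : Finset GolayPt, ∑ i, (x i ^ 2 - 1 - 8 * ic T i) = 24 - 8 * (T.card : ℤ) := fun T => by
    simp only [Finset.sum_sub_distrib, ← Finset.mul_sum, sum_ic, Finset.sum_const, Finset.card_univ,
      card24]
    unfold sqNorm at h2
    rw [h2]; simp
  constructor
  · rintro ⟨i, j, k, a, b, c, d, e, f⟩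
    obtain ⟨m, hm, C, -, h3, -⟩ := (mem_iff.1 h1).norm
    have hodd : ∀ l, x l % 2 = 1 := fun l => by
      have := h3 i; have := h3 l; rcases abs_eq (by norm_num : (0 : ℤ) ≤ 3) |>.1 d with h | h <;> omega
    have hs := key {i, j, k}
    rw [Finset.card_eq_three.2 ⟨i, j, k, a, c, b, rfl⟩] at hs
    have hT : ∀ l ∈ ({i, j, k} : Finset GolayPt), |x l| = 3 := by simp [d, e, f]
    have hnn : ∀ l ∈ Finset.univ, 0 ≤ x l ^ 2 - 1 - 8 * ic {i, j, k} l := fun l _ => by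
      by_cases hl : l ∈ ({i, j, k} : Finset GolayPt)
      · rw [← sq_abs, hT l hl]; simp only [ic, hl, if_true]; norm_num
      · have : x l ≠ 0 := fun h => by have := hodd l; omega
        have := sq_pos_of_ne_zero this
        simp only [ic, hl, if_false]; omega
    intro l
    by_cases hl : l ∈ ({i, j, k} : Finset GolayPt)
    · exact Or.inr (hT l hl)
    · have := (Finset.sum_eq_zero_iff_of_nonneg hnn).1 (by rw [hs]; norm_num) l (Finset.mem_univ _)
      simp only [ic, hl, if_false] at this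
      left
      rw [← sq_eq_sq₀ (abs_nonneg _) zero_le_one, sq_abs]; omega
  · intro h
    have hs := key (Finset.univ.filter fun i => |x i| = 3)
    rw [Finset.sum_eq_zero fun l _ => by
      rw [← sq_abs]
      rcases h l with h | h <;> simp [ic, h]] at hs
    obtain ⟨i, j, k, a, b, c, e⟩ := Finset.card_eq_three.1
      (show (Finset.univ.filter fun i => |x i| = 3).card = 3 by omega)
    have : ∀ l ∈ ({i, j, k} : Finset GolayPt), |x l| = 3 := fun l hl =>
      by rw [← e] at hl; exact (Finset.mem_filter.1 hl).2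
    exact ⟨i, j, k, a, c, b, this _ (by simp), this _ (by simp), this _ (by simp)⟩

/-- Shape census of the lattice vectors of sum of squares 48 (customary norm 6): the four families (2^12, 0^12), (±3^3, ±1^21), (±4, ±2^8, 0^15) and (±5, ±1^23) have 5275648, 8290304, 3108864 and 98304 members. -/
theorem result : {x : Cfsg.GolayPt → ℤ | x ∈ Cfsg.leechLattice ∧ Cfsg.sqNorm x = 48 ∧ ∀ i, x i = 0 ∨ x i = 2 ∨ x i = -2}.ncard = 5275648 ∧ {x : Cfsg.GolayPt → ℤ | x ∈ Cfsg.leechLattice ∧ Cfsg.sqNorm x = 48 ∧ ∃ i j k, i ≠ j ∧ j ≠ k ∧ i ≠ k ∧ |x i| = 3 ∧ |x j| = 3 ∧ |x k| = 3}.ncard = 8290304 ∧ {x : Cfsg.GolayPt → ℤ | x ∈ Cfsg.leechLattice ∧ Cfsg.sqNorm x = 48 ∧ ∃ i, |x i| = 4}.ncard = 3108864 ∧ {x : Cfsg.GolayPt → ℤ | x ∈ Cfsg.leechLattice ∧ Cfsg.sqNorm x = 48 ∧ ∃ i, |x i| = 5}.ncard = 98304 := by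
  refine ⟨?_, ?_, cnt' 126959 13664256 4 (by decide +kernel) (by decide),
    cnt' 122871 16674816 5 (by decide +kernel) (by decide)⟩
  · rw [← cnt 1344 5275648 (by decide +kernel)]
    congr 1; ext x
    exact and_congr_right fun _ => and_congr_right fun h =>
      (bits 1344 (fun a => a = 0 ∨ a = 2 ∨ a = -2) (by decide) h).symm
  · rw [← cnt 2720 8290304 (by decide +kernel)]
    congr 1; ext x
    exact and_congr_right fun h1 => and_congr_right fun h => (three h1 h).trans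
      (bits 2720 (fun a => |a| = 1 ∨ |a| = 3) (by decide) h).symm

end Cfsg.Agent.S1568
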