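import Cfsg.Statements.S1573
import Mathlib
import Cfsg.Agent.H25.Co2

set_option autoImplicit false
open Cfsg

namespace Cfsg.Agent.S1573
open H25.Leech

/-- Census of minimal vectors by inner product with a fixed minimal vector: 4600 have customary inner product −2, 47104 have −1, and 93150 are orthogonal. -/
theorem result (v : Cfsg.GolayPt → ℤ) (hv : v ∈ Cfsg.leechLattice) (hvn : Cfsg.sqNorm v = 32) : {w : Cfsg.GolayPt → ℤ | w ∈ Cfsg.leechLattice ∧ Cfsg.sqNorm w = 32 ∧ Cfsg.dotInt v w = -16}.ncard = 4600 ∧ {w : Cfsg.GolayPt → ℤ | w ∈ Cfsg.leechLattice ∧ Cfsg.sqNorm w = 32 ∧ Cfsg.dotInt v w = -8}.ncard = 47104 ∧ {w : Cfsg.GolayPt → ℤ | w ∈ Cfsg.leechLattice ∧ Cfsg.sqNorm w = 32 ∧ Cfsg.dotInt v w = 0}.ncard = 93150 := by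
  obtain ⟨g, e⟩ := trans32 (y := ⟨v, hv⟩) sqU hvn
  obtain rfl : v = (g • U).1 := (congrArg Subtype.val e).symm
  have key : ∀ d : ℤ, {w | w ∈ leechLattice ∧ sqNorm w = 32 ∧ dotInt (g • U).1 w = d}.ncard =
      (Cl fun a _ _ => a = d).ncard := fun d =>
    (ncard_L fun w => sqNorm w = 32 ∧ dotInt (g • U).1 w = d).symm.trans
      (ncard_tr g fun x => by rw [g_sq, g_dot])
  exact ⟨(key _).trans (cnt _ (by decide +kernel)), (key _).trans (cnt _ (by decide +kernel)),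
    (key _).trans (cnt _ (by decide +kernel))⟩

end Cfsg.Agent.S1573
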