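import Cfsg.Statements.S1577
import Mathlib
import Cfsg.Agent.H18.CU62

set_option autoImplicit false
open Cfsg

namespace Cfsg.Agent.S1577

open H25 H25.Leech

/-- The joint stabiliser of two minimal vectors of customary inner product −2 is isomorphic to PSU(6, 2). -/
theorem result (v w : ↥Cfsg.leechLattice) (hv : Cfsg.sqNorm (v : Cfsg.GolayPt → ℤ) = 32) (hw : Cfsg.sqNorm (w : Cfsg.GolayPt → ℤ) = 32) (hd : Cfsg.dotInt (v : Cfsg.GolayPt → ℤ) (w : Cfsg.GolayPt → ℤ) = -16) (F : Type) [Field F] [Fintype F] (hF : Fintype.card F = 4) : Nonempty (↥(MulAction.stabilizer ↥Cfsg.Co0 v ⊓ MulAction.stabilizer ↥Cfsg.Co0 w) ≃* Cfsg.PSU 6 F 2) := by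
  obtain ⟨g, rfl, rfl⟩ := pair32 (w := -A) sqU' ((sq_neg A.1).trans sqA) hv hw (d := -16) (by simp)
    ((dot_neg _ _).trans (congrArg _ dU'A)) hd
  have e : St U' ⊓ St (-A) = U6 := Subgroup.ext fun k => by
    simp only [Subgroup.mem_inf, MulAction.mem_stabilizer_iff, g_neg, neg_inj]
  obtain ⟨f⟩ := H18.CU62.iso hF (fix2 H18.CU62.hfix ptU' ptA) card_U6.le
  exact ⟨((stEq2 g U' (-A)).symm.trans (MulEquiv.subgroupCongr e)).trans f⟩

end Cfsg.Agent.S1577
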