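import Cfsg.Statements.S1578
import Mathlib
import Cfsg.Agent.H25.Co2

set_option autoImplicit false
open Cfsg

namespace Cfsg.Agent.S1578
open H25.Leech

/-- A lattice vector of customary norm 6 is the sum of an unordered pair of minimal vectors in exactly 276 ways (552 ordered summands). -/
theorem result (u : ↥Cfsg.leechLattice) (hu : Cfsg.sqNorm (u : Cfsg.GolayPt → ℤ) = 48) : {v : ↥Cfsg.leechLattice | Cfsg.sqNorm (v : Cfsg.GolayPt → ℤ) = 32 ∧ Cfsg.sqNorm ((u - v) : Cfsg.GolayPt → ℤ) = 32}.ncard = 552 := by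
  obtain ⟨g, rfl⟩ := trans48 sqW hu
  refine (ncard_tr g (Q := fun x => x ∈ Cl fun _ _ c => c = 24) fun x => ?_).trans
    (cnt (fun _ _ c => c = 24) (by decide +kernel))
  exact ⟨fun h => ⟨(g_sq g x).symm.trans h.1, (g_dot g W x).symm.trans ((sq_sub_iff hu h.1).1 h.2)⟩,
    fun h => ⟨(g_sq g x).trans h.1, (sq_sub_iff hu ((g_sq g x).trans h.1)).2 ((g_dot g W x).trans h.2)⟩⟩

end Cfsg.Agent.S1578
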