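import Cfsg.Statements.S1580
import Mathlib
import Cfsg.Agent.H25.Co2

set_option autoImplicit false
open Cfsg

namespace Cfsg.Agent.S1580
open H25.Leech

/-- The McLaughlin configuration: for u of customary norm 6 and v minimal with u − v minimal, there are 275 further such summands x of customary inner product 2 with v, permuted transitively by the stabiliser of u and v. -/
theorem result (u v : ↥Cfsg.leechLattice) (hu : Cfsg.sqNorm (u : Cfsg.GolayPt → ℤ) = 48) (hv : Cfsg.sqNorm (v : Cfsg.GolayPt → ℤ) = 32 ∧ Cfsg.sqNorm ((u - v) : Cfsg.GolayPt → ℤ) = 32) : {x : ↥Cfsg.leechLattice | Cfsg.sqNorm (x : Cfsg.GolayPt → ℤ) = 32 ∧ Cfsg.sqNorm ((u - x) : Cfsg.GolayPt → ℤ) = 32 ∧ Cfsg.dotInt (v : Cfsg.GolayPt → ℤ) (x : Cfsg.GolayPt → ℤ) = 16}.ncard = 275 ∧ ∀ x ∈ {x : ↥Cfsg.leechLattice | Cfsg.sqNorm (x : Cfsg.GolayPt → ℤ) = 32 ∧ Cfsg.sqNorm ((u - x) : Cfsg.GolayPt → ℤ) = 32 ∧ Cfsg.dotInt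 (v : Cfsg.GolayPt → ℤ) (x : Cfsg.GolayPt → ℤ) = 16}, ∀ x' ∈ {x : ↥Cfsg.leechLattice | Cfsg.sqNorm (x : Cfsg.GolayPt → ℤ) = 32 ∧ Cfsg.sqNorm ((u - x) : Cfsg.GolayPt → ℤ) = 32 ∧ Cfsg.dotInt (v : Cfsg.GolayPt → ℤ) (x : Cfsg.GolayPt → ℤ) = 16}, ∃ g : ↥Cfsg.Co0, g • u = u ∧ g • v = v ∧ g • x = x' := by
  obtain ⟨g, rfl, rfl⟩ := pairMc hu hv
  have key : ∀ x : L, (sqNorm (g • x).1 = 32 ∧ sqNorm ((g • -W).1 - (g • x).1) = 32 ∧
      dotInt (g • U).1 (g • x).1 = 16) ↔ x ∈ Cl fun a _ c => a = 16 ∧ c = -24 := fun x => by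
    refine (and_congr_right fun h => by rw [sq_sub_iff hu h]).trans ?_
    simp only [dt, g_dot, g_sq, Cl, Set.mem_setOf_eq]
    rw [show dotInt (-W).1 x.1 = _ from dt_neg W x]
    exact and_congr_right fun _ => by simp only [dt]; omega
  refine ⟨(ncard_tr g key).trans (cnt (fun a _ c => a = 16 ∧ c = -24) (by decide +kernel)),
    fun x hx y hy => ?_⟩
  obtain ⟨x, rfl⟩ := MulAction.surjective g x
  obtain ⟨y, rfl⟩ := MulAction.surjective g y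
  obtain ⟨k, hk, e⟩ := trn K1_Mc fMc _ 11 (by decide +kernel) x ((key x).1 hx) y ((key y).1 hy)
  exact ⟨g * k * g⁻¹, by simp [mul_smul, g_neg, show k • W = W from hk.2],
    by simp [mul_smul, show k • U = U from hk.1], by simp [mul_smul, e]⟩

end Cfsg.Agent.S1580
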