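import Cfsg.Statements.S1581
import Mathlib
import Cfsg.Agent.H17.LeO

set_option autoImplicit false
open Cfsg

namespace Cfsg.Agent.S1581

open Cfsg.Agent.H17
open scoped commutatorElement

open H25 H25.Leech H17.LeO MulAction

/-- The McLaughlin group acts with rank 3 and subdegrees 1, 112, 162 on its 275 points: the point stabiliser has two orbits on the remaining points, distinguished by customary inner product 1 or 2 with the fixed point. -/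
theorem result (u v x : ↥Cfsg.leechLattice) (hu : Cfsg.sqNorm (u : Cfsg.GolayPt → ℤ) = 48) (hv : Cfsg.sqNorm (v : Cfsg.GolayPt → ℤ) = 32 ∧ Cfsg.sqNorm ((u - v) : Cfsg.GolayPt → ℤ) = 32) (hx : x ∈ {x : ↥Cfsg.leechLattice | Cfsg.sqNorm (x : Cfsg.GolayPt → ℤ) = 32 ∧ Cfsg.sqNorm ((u - x) : Cfsg.GolayPt → ℤ) = 32 ∧ Cfsg.dotInt (v : Cfsg.GolayPt → ℤ) (x : Cfsg.GolayPt → ℤ) = 16}) : {y : ↥Cfsg.leechLattice | y ∈ {x : ↥Cfsg.leechLattice | Cfsg.sqNorm (x : Cfsg.GolayPt → ℤ) = 32 ∧ Cfsg.sqNorm ((u - x) : Cfsg.GolayPt → ℤ) = 32 ∧ Cfsg.dotInt (v : Cfsg.GolayPt → ℤ) (x : Cfsg.GolayPt → ℤ) = 16} ∧ Cfsg.dotInt (x : Cfsg.GolayPt → ℤ) (y : Cfsg.GolayPt → ℤ) = 8}.ncard = 112 ∧ {y : ↥Cfsg.leechLattice | y ∈ {x : ↥Cfsg.leechLattice | Cfsg.sqNorm (x : Cfsg.GolayPt → ℤ) = 32 ∧ Cfsg.sqNorm ((u - x) : Cfsg.GolayPt → ℤ) = 32 ∧ Cfsg.dotInt (v : Cfsg.GolayPt → ℤ) (x : Cfsg.GolayPt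 → ℤ) = 16} ∧ y ≠ x ∧ Cfsg.dotInt (x : Cfsg.GolayPt → ℤ) (y : Cfsg.GolayPt → ℤ) = 16}.ncard = 162 ∧ ∀ y ∈ {x : ↥Cfsg.leechLattice | Cfsg.sqNorm (x : Cfsg.GolayPt → ℤ) = 32 ∧ Cfsg.sqNorm ((u - x) : Cfsg.GolayPt → ℤ) = 32 ∧ Cfsg.dotInt (v : Cfsg.GolayPt → ℤ) (x : Cfsg.GolayPt → ℤ) = 16}, ∀ y' ∈ {x : ↥Cfsg.leechLattice | Cfsg.sqNorm (x : Cfsg.GolayPt → ℤ) = 32 ∧ Cfsg.sqNorm ((u - x) : Cfsg.GolayPt → ℤ) = 32 ∧ Cfsg.dotInt (v : Cfsg.GolayPt → ℤ) (x : Cfsg.GolayPt → ℤ) = 16}, y ≠ x → y' ≠ x → Cfsg.dotInt (x : Cfsg.GolayPt → ℤ) (y : Cfsg.GolayPt → ℤ) = Cfsg.dotInt (x : Cfsg.GolayPt → ℤ) (y' : Cfsg.GolayPt → ℤ) → ∃ g : ↥Cfsg.Co0, g • u = u ∧ g • v = v ∧ g • x = x ∧ g • y = y' := by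
  obtain ⟨g0, rfl, rfl⟩ := pairMc hu hv
  have key : ∀ (g : Co0) (x : L), (sqNorm (g • x).1 = 32 ∧ sqNorm ((g • -W).1 - (g • x).1) = 32 ∧
      dotInt (g • U).1 (g • x).1 = 16) ↔ x ∈ Cl fun a _ c => a = 16 ∧ c = -24 := fun g x => by
    have hu' : sqNorm (g • -W).1 = 48 := by rw [g_sq, ← g_sq g0]; exact hu
    refine (and_congr_right fun h => by rw [sq_sub_iff hu' h]).trans ?_
    simp only [dt, g_dot, g_sq, Cl, Set.mem_setOf_eq]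
    rw [show dotInt (-W).1 x.1 = _ from dt_neg W x]
    exact and_congr_right fun _ => by simp only [dt]; omega
  obtain ⟨x, rfl⟩ := MulAction.surjective g0 x
  obtain ⟨k0, h0, rfl⟩ := trn K1_Mc fMc (fun a _ c => a = 16 ∧ c = -24) 11 (by decide +kernel) (R 65)
    (R_mem (by decide) (by decide +kernel)) x ((key _ x).1 hx)
  clear hu hv hx
  beta_reduce
  rw [← show (g0 * k0) • U = g0 • U by rw [mul_smul, show k0 • U = U from h0.1],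
    ← show (g0 * k0) • -W = g0 • -W by rw [mul_smul, g_neg k0, show k0 • W = W from h0.2], ← mul_smul]
  generalize g0 * k0 = g
  obtain ⟨m1, m2, m3⟩ := mcl
  refine ⟨(ncard_tr g fun y => and_congr (key g y) (by rw [g_dot])).trans m1,
    (ncard_tr g fun y => and_congr (key g y) (and_congr (MulAction.injective g).ne_iff
      (by rw [g_dot]))).trans m2, fun y hy y' hy' a b c => ?_⟩
  obtain ⟨y, rfl⟩ := MulAction.surjective g y
  obtain ⟨y', rfl⟩ := MulAction.surjective g y'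
  rw [g_dot, g_dot] at c
  obtain ⟨k, hk, e⟩ := m3 y ((key g y).1 hy) y' ((key g y').1 hy') (fun h => a (by rw [h]))
    (fun h => b (by rw [h])) c
  exact ⟨g * k * g⁻¹, by simp [mul_smul, g_neg, show k • W = W from hk.1.2],
    by simp [mul_smul, show k • U = U from hk.1.1], by simp [mul_smul, show k • R 65 = R 65 from hk.2],
    by simp [mul_smul, e]⟩

end Cfsg.Agent.S1581
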