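import Cfsg.Statements.S1583
import Mathlib
import Cfsg.Agent.H25.Co2

set_option autoImplicit false
open Cfsg

namespace Cfsg.Agent.S1583
open H25.Leech

/-- The Higman–Sims configuration: for two vectors of customary norm 6 with inner product −4, exactly 100 minimal vectors have customary inner products 3 and −3 with them, and the joint stabiliser permutes these transitively. -/
theorem result (v w : ↥Cfsg.leechLattice) (hv : Cfsg.sqNorm (v : Cfsg.GolayPt → ℤ) = 48) (hw : Cfsg.sqNorm (w : Cfsg.GolayPt → ℤ) = 48) (hvw : Cfsg.dotInt (v : Cfsg.GolayPt → ℤ) (w : Cfsg.GolayPt → ℤ) = -32) : {x : ↥Cfsg.leechLattice | Cfsg.sqNorm (x : Cfsg.GolayPt → ℤ) = 32 ∧ Cfsg.dotInt (v : Cfsg.GolayPt → ℤ) (x : Cfsg.GolayPt → ℤ) = 24 ∧ Cfsg.dotInt (w : Cfsg.GolayPt → ℤ) (x : Cfsg.GolayPt → ℤ) = -24}.ncard = 100 ∧ ∀ x ∈ {x : ↥Cfsg.leechLattice | Cfsg.sqNorm (x : Cfsg.GolayPt → ℤ)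 = 32 ∧ Cfsg.dotInt (v : Cfsg.GolayPt → ℤ) (x : Cfsg.GolayPt → ℤ) = 24 ∧ Cfsg.dotInt (w : Cfsg.GolayPt → ℤ) (x : Cfsg.GolayPt → ℤ) = -24}, ∀ x' ∈ {x : ↥Cfsg.leechLattice | Cfsg.sqNorm (x : Cfsg.GolayPt → ℤ) = 32 ∧ Cfsg.dotInt (v : Cfsg.GolayPt → ℤ) (x : Cfsg.GolayPt → ℤ) = 24 ∧ Cfsg.dotInt (w : Cfsg.GolayPt → ℤ) (x : Cfsg.GolayPt → ℤ) = -24}, ∃ g : ↥Cfsg.Co0, g • v = v ∧ g • w = w ∧ g • x = x' := by
  obtain ⟨g, rfl, rfl⟩ := pairHS hv hw hvw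
  have key : ∀ x : L, (sqNorm (g • x).1 = 32 ∧ dotInt (g • W).1 (g • x).1 = 24 ∧
      dotInt (g • W').1 (g • x).1 = -24) ↔ x ∈ Cl fun _ b c => b = 0 ∧ c = 24 := fun x => by
    simp only [g_dot, g_sq, Cl, Set.mem_setOf_eq]
    rw [show dotInt W'.1 x.1 = _ from dtW' x]
    exact and_congr_right fun _ => by simp only [dt]; omega
  refine ⟨(ncard_tr g key).trans (cnt (fun _ b c => b = 0 ∧ c = 24) (by decide +kernel)),
    fun x hx y hy => ?_⟩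
  obtain ⟨x, rfl⟩ := MulAction.surjective g x
  obtain ⟨y, rfl⟩ := MulAction.surjective g y
  obtain ⟨k, hk, e⟩ := trn K1_Hs fHs _ 10 (by decide +kernel) x ((key x).1 hx) y ((key y).1 hy)
  exact ⟨g * k * g⁻¹, by simp [mul_smul, show k • W = W from hk.2],
    by simp [mul_smul, (smul_W' hk.2).2 hk.1], by simp [mul_smul, e]⟩

end Cfsg.Agent.S1583
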