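import Cfsg.Statements.S1584
import Mathlib
import Cfsg.Agent.H25.Co2

set_option autoImplicit false
open Cfsg

namespace Cfsg.Agent.S1584
open H25.Leech

/-- The Higman–Sims group acts with rank 3 and subdegrees 1, 22, 77 on its 100 points, the orbits of a point stabiliser being distinguished by customary inner product 1 with the fixed point. -/
theorem result (v w x : ↥Cfsg.leechLattice) (hv : Cfsg.sqNorm (v : Cfsg.GolayPt → ℤ) = 48) (hw : Cfsg.sqNorm (w : Cfsg.GolayPt → ℤ) = 48) (hvw : Cfsg.dotInt (v : Cfsg.GolayPt → ℤ) (w : Cfsg.GolayPt → ℤ) = -32) (hx : x ∈ {x : ↥Cfsg.leechLattice | Cfsg.sqNorm (x : Cfsg.GolayPt → ℤ) = 32 ∧ Cfsg.dotInt (v : Cfsg.GolayPt → ℤ) (x : Cfsg.GolayPt → ℤ) = 24 ∧ Cfsg.dotInt (w : Cfsg.GolayPt → ℤ) (x : Cfsg.GolayPt → ℤ) = -24}) : {y : ↥Cfsg.leechLattice | y ∈ {x : ↥Cfsg.leechLattice | Cfsg.sqNorm (x : Cfsg.GolayPt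 → ℤ) = 32 ∧ Cfsg.dotInt (v : Cfsg.GolayPt → ℤ) (x : Cfsg.GolayPt → ℤ) = 24 ∧ Cfsg.dotInt (w : Cfsg.GolayPt → ℤ) (x : Cfsg.GolayPt → ℤ) = -24} ∧ Cfsg.dotInt (x : Cfsg.GolayPt → ℤ) (y : Cfsg.GolayPt → ℤ) = 8}.ncard = 22 ∧ {y : ↥Cfsg.leechLattice | y ∈ {x : ↥Cfsg.leechLattice | Cfsg.sqNorm (x : Cfsg.GolayPt → ℤ) = 32 ∧ Cfsg.dotInt (v : Cfsg.GolayPt → ℤ) (x : Cfsg.GolayPt → ℤ) = 24 ∧ Cfsg.dotInt (w : Cfsg.GolayPt → ℤ) (x : Cfsg.GolayPt → ℤ) = -24} ∧ y ≠ x ∧ Cfsg.dotInt (x : Cfsg.GolayPt → ℤ) (y : Cfsg.GolayPt → ℤ) ≠ 8}.ncard = 77 ∧ ∀ y ∈ {x : ↥Cfsg.leechLattice | Cfsg.sqNorm (x : Cfsg.GolayPt → ℤ) = 32 ∧ Cfsg.dotInt (v : Cfsg.GolayPt → ℤ) (x : Cfsg.GolayPt → ℤ) = 24 ∧ Cfsg.dotInt (w : Cfsg.GolayPt → ℤ) (x : Cfsg.GolayPt → ℤ) = -24}, ∀ y' ∈ {x : ↥Cfsg.leechLattice | Cfsg.sqNorm (x : Cfsg.GolayPt → ℤ) = 32 ∧ Cfsg.dotInt (v : Cfsg.GolayPt →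 ℤ) (x : Cfsg.GolayPt → ℤ) = 24 ∧ Cfsg.dotInt (w : Cfsg.GolayPt → ℤ) (x : Cfsg.GolayPt → ℤ) = -24}, y ≠ x → y' ≠ x → (Cfsg.dotInt (x : Cfsg.GolayPt → ℤ) (y : Cfsg.GolayPt → ℤ) = 8 ↔ Cfsg.dotInt (x : Cfsg.GolayPt → ℤ) (y' : Cfsg.GolayPt → ℤ) = 8) → ∃ g : ↥Cfsg.Co0, g • v = v ∧ g • w = w ∧ g • x = x ∧ g • y = y' := by
  obtain ⟨g0, rfl, rfl⟩ := pairHS hv hw hvw
  have key : ∀ (g : Co0) (x : L), (sqNorm (g • x).1 = 32 ∧ dotInt (g • W).1 (g • x).1 = 24 ∧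
      dotInt (g • W').1 (g • x).1 = -24) ↔ x ∈ Cl fun _ b c => b = 0 ∧ c = 24 := fun g x => by
    simp only [g_dot, g_sq, Cl, Set.mem_setOf_eq]
    rw [show dotInt W'.1 x.1 = _ from dtW' x]
    exact and_congr_right fun _ => by simp only [dt]; omega
  obtain ⟨x, rfl⟩ := MulAction.surjective g0 x
  obtain ⟨k0, h0, rfl⟩ := trn K1_Hs fHs _ 10 (by decide +kernel) (-U)
    (show -U ∈ Cl fun _ b c => b = 0 ∧ c = 24 by unfold Cl; decide +kernel) x ((key _ x).1 hx)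
  beta_reduce
  rw [← show (g0 * k0) • W = g0 • W by rw [mul_smul, show k0 • W = W from h0.2],
    ← show (g0 * k0) • W' = g0 • W' by rw [mul_smul, (smul_W' h0.2).2 h0.1], ← mul_smul]
  generalize g0 * k0 = g
  have d : ∀ y : L, dotInt (g • -U).1 (g • y).1 = -dt U y := fun y => (g_dot g _ y).trans (dt_neg U y)
  have ne : ∀ y ∈ Cl fun _ b c => b = 0 ∧ c = 24, (g • y ≠ g • -U ↔ dt U y ≠ -32) := fun y hy => by
    rw [(MulAction.injective g).ne_iff, not_iff_not]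
    refine ⟨fun e => by rw [e]; decide +kernel, fun e => eq_neg_of_add_eq_zero_right (Subtype.ext (sq_eq_zero ?_))⟩
    rw [sq_add', sqU, hy.1, e]; rfl
  refine ⟨(ncard_tr g (Q := fun x => x ∈ Cl fun a b c => (b = 0 ∧ c = 24) ∧ a = -8) fun y => ?_).trans
      (cnt (fun a b c => (b = 0 ∧ c = 24) ∧ a = -8) (by decide +kernel)),
    (ncard_tr g (Q := fun x => x ∈ Cl fun a b c => (b = 0 ∧ c = 24) ∧ a ≠ -32 ∧ a ≠ -8) fun y => ?_).trans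
      (cnt (fun a b c => (b = 0 ∧ c = 24) ∧ a ≠ -32 ∧ a ≠ -8) (by decide +kernel)), fun y hy z hz a b c => ?_⟩
  · rw [Set.mem_setOf_eq, key, d, neg_eq_iff_eq_neg]; exact and_assoc
  · rw [Set.mem_setOf_eq, key, d]
    refine (and_congr_right fun h => by rw [ne y h, ne_eq (-dt U y), neg_eq_iff_eq_neg]).trans and_assoc
  · obtain ⟨y, rfl⟩ := MulAction.surjective g y
    obtain ⟨z, rfl⟩ := MulAction.surjective g z
    beta_reduce at *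
    have hy := (key g y).1 hy
    have hz := (key g z).1 hz
    rw [ne y hy] at a
    rw [ne z hz] at b
    rw [d, d, neg_eq_iff_eq_neg, neg_eq_iff_eq_neg] at c
    obtain ⟨k, hk, e⟩ : ∃ k ∈ K1, k • y = z := by
      by_cases h : dt U y = -8
      · exact trn le_rfl fK1 (fun a b c => (b = 0 ∧ c = 24) ∧ a = -8) 103 (by decide +kernel) y
          ⟨hy.1, hy.2, h⟩ z ⟨hz.1, hz.2, c.1 h⟩
      · exact trn le_rfl fK1 (fun a b c => (b = 0 ∧ c = 24) ∧ a ≠ -32 ∧ a ≠ -8) 28 (by decide +kernel) y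
          ⟨hy.1, hy.2, a, h⟩ z ⟨hz.1, hz.2, b, fun h' => h (c.2 h')⟩
    exact ⟨g * k * g⁻¹, by simp [mul_smul, show k • W = W from hk.2],
      by simp [mul_smul, (smul_W' hk.2).2 hk.1.2], by simp [mul_smul, g_neg, show k • U = U from hk.1.1],
      by simp [mul_smul, e]⟩

end Cfsg.Agent.S1584
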