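import Cfsg.Statements.S1589
import Mathlib
import Cfsg.Agent.H17.MIdx2

set_option autoImplicit false
open scoped Pointwise
open Cfsg

namespace Cfsg.Agent.S1589

open Cfsg.Agent.H17
open scoped commutatorElement

open H14 H17.MIdx MulAction
open scoped Pointwise

theorem eq_stab {X : Type*} [MulAction M24 X] {H : Subgroup M24} {g : M24} {x : X}
    (h : cj g H ≤ stabilizer M24 x) (c : Nat.card (stabilizer M24 x) ≤ Nat.card H) :
    H = stabilizer M24 (g • x) :=
  cj_inj g ((Subgroup.eq_of_le_of_card_ge h (by rwa [card_cj])).trans (cj_stab g x).symm)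

theorem two {H : Subgroup M24} {n : ℕ} (c : Nat.card H = n)
    (hn : 2 ^ 10 ∣ n ∧ 64512 < n ∧ ∀ p ∈ [11, 17, 19, 23], ¬ p ∣ n) : ∃ g : M24,
      cj g H ≤ stabilizer M24 o0 ∧ n ∣ 322560 ∨ cj g H ≤ stabilizer M24 X0 ∧ n ∣ 138240 := by
  obtain ⟨k, -, h⟩ := sylow_le (p := 2) (n := 10) (m := 239085) (K := ⊤) (H := H) (by norm_num) le_top le_top
    P2.card_eq G24.card_eq.symm (by norm_num) (c ▸ hn.1)
  rw [← card_cj k] at c
  exact ⟨k, (m24 h (c ▸ hn.2.2) (c ▸ hn.2.1)).imp
    (fun h => ⟨h, c ▸ (Subgroup.card_dvd_of_le h).trans SO.card_eq.dvd⟩)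
    fun h => ⟨h, c ▸ (Subgroup.card_dvd_of_le h).trans SX.card_eq.dvd⟩⟩

/-- Subgroups of the group of the length-24 code of index 759, 276 and 1771 are exactly the octad, duad and sextet stabilisers, and no subgroup has index 253. -/
theorem result : (∀ H : Subgroup ↥Cfsg.M24, H.index = 759 → ∃ o ∈ Cfsg.octads, H = MulAction.stabilizer Cfsg.M24 o) ∧ (∀ H : Subgroup ↥Cfsg.M24, H.index = 276 → ∃ s : Finset Cfsg.GolayPt, s.card = 2 ∧ H = MulAction.stabilizer Cfsg.M24 s) ∧ (∀ H : Subgroup ↥Cfsg.M24, H.index = 1771 → ∃ S ∈ Cfsg.sextets, H = MulAction.stabilizer Cfsg.M24 S) ∧ ∀ H : Subgroup ↥Cfsg.M24, H.index ≠ 253 := by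
  have c := fun H : Subgroup M24 => H.card_mul_index.trans card_M24
  refine ⟨fun H h => ?_, fun H h => ?_, fun H h => ?_, fun H h => ?_⟩ <;> have c := c H <;> rw [h] at c
  · have c : Nat.card H = 322560 := by omega
    obtain ⟨g, h | h⟩ := two c (by decide)
    · exact ⟨_, (m24_smul_octads g).2 o0_mem, eq_stab h.1 (SO.card_eq.trans c.symm).le⟩
    · exact absurd h.2 (by decide)
  · have c : Nat.card H = 887040 := by omega
    obtain ⟨k, -, h⟩ := sylow_le (m := 22256640) (K := ⊤) (H := H) (by norm_num) le_top le_top card_a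
      G24.card_eq.symm (by norm_num) (c ▸ by decide)
    exact ⟨_, (Finset.card_smul_finset k _).trans (by decide +kernel), eq_stab
      (m276 (h (Subgroup.mem_zpowers _)) ((card_cj _ _).trans c)) (SP2.card_eq.trans c.symm).le⟩
  · have c : Nat.card H = 138240 := by omega
    obtain ⟨g, h | h⟩ := two c (by decide)
    · exact absurd h.2 (by decide)
    · exact ⟨_, (m24_smul_sextets g).2 X0_mem, eq_stab h.1 (SX.card_eq.trans c.symm).le⟩
  · obtain ⟨g, h | h⟩ := two (show Nat.card H = 967680 by omega) (by decide) <;> exact absurd h.2 (by decide)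

end Cfsg.Agent.S1589
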