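import Cfsg.Statements.S1590
import Cfsg.Agent.L1.Tern

set_option autoImplicit false
open Cfsg

namespace Cfsg.Agent.S1590

open Cfsg.Agent.H14

/-- The length-12 ternary code has 729 words with weight distribution 0^1 6^264 9^440 12^24. -/
theorem result : Nat.card ↥Cfsg.ternaryGolayCode = 729 ∧ (∀ x ∈ Cfsg.ternaryGolayCode, x ≠ 0 → (Cfsg.ternarySupport x).card = 6 ∨ (Cfsg.ternarySupport x).card = 9 ∨ (Cfsg.ternarySupport x).card = 12) ∧ {x : Cfsg.ArrayPt → ZMod 3 | x ∈ Cfsg.ternaryGolayCode ∧ (Cfsg.ternarySupport x).card = 6}.ncard = 264 ∧ {x : Cfsg.ArrayPt → ZMod 3 | x ∈ Cfsg.ternaryGolayCode ∧ (Cfsg.ternarySupport x).card = 9}.ncard = 440 ∧ {x : Cfsg.ArrayPt → ZMod 3 | x ∈ Cfsg.ternaryGolayCode ∧ (Cfsg.ternarySupport x).card = 12}.ncard = 24 := by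
  refine ⟨?_, fun x hx h0 => ?_, ?_, ?_, ?_⟩
  · have := ncard_tern fun _ => True
    simp only [and_true, Finset.filter_true, Finset.card_univ, Fintype.card_fun, ZMod.card,
      Fintype.card_fin] at this
    exact this
  · obtain ⟨a, rfl⟩ := exists_tw hx
    have : ∀ a, a = 0 ∨ pop24 (tM a) = 6 ∨ pop24 (tM a) = 9 ∨ pop24 (tM a) = 12 := by
      decide +kernel
    rw [card_supp_tw]
    refine (this a).resolve_left ?_
    rintro rfl
    exact h0 (by ext p; simp [tw])
  all_goals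
    rw [ncard_tern]
    simp only [card_supp_tw]
    decide +kernel

end Cfsg.Agent.S1590
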