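import Cfsg.Statements.S1591
import Cfsg.Agent.L1.Tern

set_option autoImplicit false
open Cfsg

namespace Cfsg.Agent.S1591

open Cfsg.Agent.H14

/-- Any two words of the length-12 ternary code have dot product zero. -/
theorem result (x y : Cfsg.ArrayPt → ZMod 3) (hx : x ∈ Cfsg.ternaryGolayCode) (hy : y ∈ Cfsg.ternaryGolayCode) : ∑ p, x p * y p = 0 := by
  obtain ⟨a, rfl⟩ := exists_tw hx
  obtain ⟨b, rfl⟩ := exists_tw hy
  have h : ∀ j k, ∑ p, tB j p * tB k p = 0 := by decide +kernel
  have e : ∀ p, tw a p * tw b p = ∑ j, ∑ k, a j * b k * (tB j p * tB k p) := fun p => by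
    rw [tw, tw, Finset.sum_mul_sum]
    exact Finset.sum_congr rfl fun j _ => Finset.sum_congr rfl fun k _ => by ring
  simp only [e]
  rw [Finset.sum_comm]
  refine Finset.sum_eq_zero fun j _ => ?_
  rw [Finset.sum_comm]
  exact Finset.sum_eq_zero fun k _ => by rw [← Finset.mul_sum, h, mul_zero]

end Cfsg.Agent.S1591
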