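import Cfsg.Statements.S1593
import Cfsg.Agent.L1.Tern

set_option autoImplicit false
open Cfsg

namespace Cfsg.Agent.S1593

open Cfsg.Agent.H14

theorem const (c : ArrayPt → (ZMod 3)ˣ) (h : MPres ternaryGolayCode 1 c) (p q : ArrayPt) :
    c p = c q := by
  have h1 : ∀ j p, tB j p ≠ 0 → c p = c (tI j) := fun j p hp => by
    obtain ⟨a, ha⟩ := exists_tw (h _ (tB_mem j))
    have e : ∀ p, tw a p = c p * tB j p := fun p => congrFun ha p
    have hI : ∀ j k, tB j (tI k) = if j = k then 1 else 0 := by decide +kernel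
    have ea : ∀ k, a k = if j = k then (c (tI j) : ZMod 3) else 0 := fun k => by
      rw [← tw_I a, e, hI]; split_ifs with hk
      · rw [hk, mul_one]
      · rw [mul_zero]
    have := e p
    simp only [tw, ea, ite_mul, zero_mul, Finset.sum_ite_eq, Finset.mem_univ, if_true] at this
    haveI h3 : Fact (Nat.Prime 3) := ⟨Nat.prime_three⟩
    exact Units.ext (mul_right_cancel₀ hp this).symm
  have h2 : ∀ p, ∃ j, tB j p ≠ 0 ∧ (tB j (3, 1) ≠ 0 ∨ tB j (3, 2) ≠ 0) := by decide +kernel
  have h3 : c (3, 1) = c (3, 2) := by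
    rw [h1 0 (3, 1) (by decide +kernel), h1 0 (3, 2) (by decide +kernel)]
  have h4 : ∀ p, c p = c (3, 2) := fun p => by
    obtain ⟨j, a, b | b⟩ := h2 p
    · rw [h1 j p a, ← h3, h1 j _ b]
    · rw [h1 j p a, h1 j _ b]
  rw [h4 p, h4 q]

/-- The only sign changes preserving the length-12 ternary code are the identity and negation of all coordinates. -/
theorem result (c : Cfsg.ArrayPt → (ZMod 3)ˣ) (h : (∀ x ∈ Cfsg.ternaryGolayCode, Cfsg.monomialMap 1 c x ∈ Cfsg.ternaryGolayCode)) : (∀ p, c p = 1) ∨ (∀ p, c p = -1) := by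
  have h2 : ∀ u : (ZMod 3)ˣ, u = 1 ∨ u = -1 := by decide
  exact (h2 (c (0, 0))).imp (fun e p => (const c h p _).trans e) fun e p => (const c h p _).trans e

end Cfsg.Agent.S1593
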