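import Cfsg.Statements.S1594
import Cfsg.Agent.L1.Tern
import Cfsg.Agent.S1593
import Cfsg.Agent.S0425
import Cfsg.Agent.H14.PermAmb

set_option autoImplicit false
open Cfsg

namespace Cfsg.Agent.S1594

open Cfsg.Agent.H14
open scoped Pointwise

instance fact3 : Fact (Nat.Prime 3) := ⟨Nat.prime_three⟩

theorem le_aut : mPerm ternaryGolayCode ≤ setSystemAut tH := by
  have key : ∀ σ ∈ mPerm ternaryGolayCode, ∀ h ∈ tH, σ • h ∈ tH := by
    rintro σ ⟨c, hc⟩ _ ⟨x, hx, rfl, h6⟩
    refine ⟨_, hc x hx, ?_, by rw [Finset.card_smul_finset, h6]⟩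
    ext p
    rw [← Finset.inv_smul_mem_iff]
    simp [ternarySupport, monomialMap, Equiv.Perm.inv_def]
  intro σ hσ
  exact mem_stabilizer_of_maps (Set.toFinite _) (key σ hσ)

/-- a stabiliser chain. -/
def lv : List (ℕ × List ℕ) :=
  [(0, [0x518814096028d27]), (1, [0x584ea310a940860]), (2, [0x594e8188c922820]), (3,
    [0x5950a21d2330820]), (4, [0x494e432d0a18820, 0x42ca7510c918820])]

theorem le_card : 95040 ≤ Nat.card (mPerm ternaryGolayCode) := by
  have H := (tC.permAmb 5 (by decide)).chainChk_spec (test := fun _ => true) (lv := lv)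
    (m := 95040) (by decide +kernel)
  refine H.2.trans (Subgroup.card_le_of_le (Model.gen_le _ |>.mpr fun T hT => ?_))
  have h : ∀ T ∈ chainGens lv, ∃ s ∈ [3, 6, 1065, 1439, 1647], ∀ j, TW fun p =>
      ((if tb s (tC.idx p) then -1 else 1 : (ZMod 3)ˣ) : ZMod 3) * tB j (tC.fn 5 T p) := by
    decide +kernel
  obtain ⟨s, -, hs⟩ := h T hT
  refine (mPerm _).inv_mem_iff.mp ⟨fun p => if tb s (tC.idx p) then -1 else 1,
    mpres_of_span tern_le_span ?_⟩
  rintro _ ⟨j, rfl⟩
  refine mem_tern.mpr ?_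
  convert hs j using 2 with p
  exact congrArg (fun q => _ * tB j q) (tC.perm_apply (H.1 T hT).1.1 p)

theorem eq_aut : mPerm ternaryGolayCode = setSystemAut tH :=
  Subgroup.eq_of_le_of_card_ge le_aut
    ((S0425.result (by decide) steiner_tH).1.2.le.trans le_card)

/-- The monomial automorphism group of the length-12 ternary code has order 190080 and its permutation parts are exactly the automorphisms of its hexad system. -/
theorem result : Nat.card {f : Equiv.Perm Cfsg.ArrayPt × (Cfsg.ArrayPt → (ZMod 3)ˣ) // (∀ x ∈ Cfsg.ternaryGolayCode, Cfsg.monomialMap f.1 f.2 x ∈ Cfsg.ternaryGolayCode)} = 190080 ∧ {σ : Equiv.Perm Cfsg.ArrayPt | ∃ c : Cfsg.ArrayPt → (ZMod 3)ˣ, (∀ x ∈ Cfsg.ternaryGolayCode, Cfsg.monomialMap σ c x ∈ Cfsg.ternaryGolayCode)} = (Cfsg.setSystemAut {h : Finset Cfsg.ArrayPt | ∃ x ∈ Cfsg.ternaryGolayCode, Cfsg.ternarySupport x = h ∧ h.card = 6} : Set (Equiv.Perm Cfsg.ArrayPt)) := by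
  refine ⟨(card_mpres ternaryGolayCode S1593.const).trans ?_, congrArg SetLike.coe eq_aut⟩
  rw [eq_aut, (S0425.result (by decide) steiner_tH).1.2, Nat.card_eq_fintype_card]
  decide

end Cfsg.Agent.S1594
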