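import Cfsg.Statements.S1595
import Mathlib
import Cfsg.Agent.H14.Steiner

set_option autoImplicit false
open Cfsg

namespace Cfsg.Agent.S1595

/-- Leech triangle of S(5, 6, 12): blocks meet in 0, 2, 3 or 4 points, and a block is met exactly in a given 2-, 3- or 4-subset by 3, 2, 3 blocks respectively. -/
theorem result {α : Type*} [Fintype α] [DecidableEq α] (hα : Fintype.card α = 12) {B : Set (Finset α)} (hB : Cfsg.IsSteinerSystem 5 6 B) (b : Finset α) (hb : b ∈ B) : (∀ c ∈ B, c ≠ b → (b ∩ c).card = 0 ∨ (b ∩ c).card = 2 ∨ (b ∩ c).card = 3 ∨ (b ∩ c).card = 4) ∧ ∀ s ⊆ b, (s.card = 2 → {c : Finset α | c ∈ B ∧ b ∩ c = s}.ncard = 3) ∧ (s.card = 3 → {c : Finset α | c ∈ B ∧ b ∩ c = s}.ncard = 2) ∧ (s.card = 4 → {c : Finset α | c ∈ B ∧ b ∩ c = s}.ncard = 3) := by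
  refine ⟨fun c hc hcb => H14.steiner12_inter hα hB hb hc hcb.symm, fun s hs => ?_⟩
  have h := H14.ncard_trace (H14.lam12_block hα hB hb subset_rfl) hs
  rw [hB.1 b hb] at h
  refine ⟨fun e => ?_, fun e => ?_, fun e => ?_⟩
  · rw [e, show H14.tri H14.lam12 (6 - 2) 2 = 3 by decide] at h; exact_mod_cast h
  · rw [e, show H14.tri H14.lam12 (6 - 3) 3 = 2 by decide] at h; exact_mod_cast h
  · rw [e, show H14.tri H14.lam12 (6 - 4) 4 = 3 by decide] at h; exact_mod_cast h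

end Cfsg.Agent.S1595
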