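import Cfsg.Statements.S1596
import Cfsg.Agent.L1.Quart

set_option autoImplicit false
open scoped Pointwise
open Cfsg

namespace Cfsg.Agent.S1596

open Cfsg.Agent.H14 MulAction
open scoped Pointwise

/-- A quartet of a dodecad is determined by any two of its triples: two disjoint triples uniting to a hexad extend to exactly one quartet. -/
theorem result (d : Finset Cfsg.GolayPt) (hd : d ∈ Cfsg.dodecads) (t u : Finset Cfsg.GolayPt) (ht : t.card = 3) (hu : u.card = 3) (htu : Disjoint t u) (hh : t ∪ u ∈ Cfsg.hexadsOn d) : ∃! Q : Finset (Finset Cfsg.GolayPt), Q ∈ Cfsg.quartets d ∧ t ∈ Q ∧ u ∈ Q := by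
  obtain ⟨k, rfl, rfl, rfl⟩ := trans_dtu hd ht hu hh
  refine ⟨k • Q0, ⟨smul_quartets k Q0_mem, Finset.smul_mem_smul_finset (mem_Q0.mpr (Or.inl rfl)),
    Finset.smul_mem_smul_finset (mem_Q0.mpr (Or.inr (Or.inl rfl)))⟩, fun Q hQ => ?_⟩
  obtain ⟨Q, rfl⟩ := MulAction.surjective k Q
  rw [eq_Q0 ((smul_quartets_iff k).mp hQ.1) ((Finset.smul_mem_smul_finset_iff k).mp hQ.2.1)
    ((Finset.smul_mem_smul_finset_iff k).mp hQ.2.2)]

end Cfsg.Agent.S1596
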