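import Cfsg.Statements.S1597
import Cfsg.Agent.L1.Quart

set_option autoImplicit false
open scoped Pointwise
open Cfsg

namespace Cfsg.Agent.S1597

open Cfsg.Agent.H14 MulAction
open scoped Pointwise

/-- A dodecad has 220 quartets and its stabiliser is transitive on them. -/
theorem result (d : Finset Cfsg.GolayPt) (hd : d ∈ Cfsg.dodecads) : (Cfsg.quartets d).ncard = 220 ∧ ∀ Q ∈ Cfsg.quartets d, ∀ Q' ∈ Cfsg.quartets d, ∃ g : Equiv.Perm Cfsg.GolayPt, g ∈ Cfsg.M24 ∧ g • d = d ∧ g • Q = Q' := by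
  refine ⟨?_, fun Q hQ Q' hQ' => ?_⟩
  · obtain ⟨k, rfl⟩ := m24_dodecad d0_mem hd
    exact (ncard_smul_congr k fun y => smul_quartets_iff k).trans ncard_quartets
  · obtain ⟨k, h1, rfl⟩ := trans_dQ hd hQ
    obtain ⟨k', h1', rfl⟩ := trans_dQ hd hQ'
    refine ⟨(k' * k⁻¹ : M24), (k' * k⁻¹).2, ?_, ?_⟩
    · show (k' * k⁻¹) • d = d
      rw [mul_smul, inv_smul_eq_iff.mpr h1.symm, h1']
    · show (k' * k⁻¹) • k • Q0 = k' • Q0
      rw [mul_smul, inv_smul_smul]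

end Cfsg.Agent.S1597
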