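import Cfsg.Statements.S1598
import Cfsg.Agent.L1.Quart

set_option autoImplicit false
open scoped Pointwise
open Cfsg

namespace Cfsg.Agent.S1598

open Cfsg.Agent.H14 MulAction
open scoped Pointwise

/-- the normal subgroup of order 9. -/
noncomputable def N : CSub A24 := CSub.small A24 [0x751f3b42265950caa9a93cae418041, 0xaba65bca30b3d23a290d3996c20041]
    [0xbdab49ca307b9ac5a928398a418820, 0x751f3b42265950caa9a93cae418041,
    0x2cd76a1a32add2c7a90d3c1c418402, 0x5de8e29a329d503b29a93c1ec20820,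
    0xaba65bca30b3d23a290d3996c20041, 0x796d774226a2da39a9283caac20402,
    0xb2dd57c2262d124ba90d3ca6360820, 0xa54af59a32bcda4729283c2c360041,
    0x9beebaca30759042a9a939a8360402]
    9 (by decide +kernel)

/-- its non-identity elements as labels of the non-zero vectors. -/
def tab : List ℕ := [0x0, 0x5de8e29a329d503b29a93c1ec20820, 0xb2dd57c2262d124ba90d3ca6360820,
    0x796d774226a2da39a9283caac20402, 0x9beebaca30759042a9a939a8360402,
    0x2cd76a1a32add2c7a90d3c1c418402, 0xa54af59a32bcda4729283c2c360041,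
    0x751f3b42265950caa9a93cae418041, 0xaba65bca30b3d23a290d3996c20041]

/-- the label of a vector. -/
noncomputable def code (w : Fin 2 → ZMod 3) : ℕ := nth tab ((w 0).val + 3 * (w 1).val)

theorem iso : ∃ (N : Subgroup SQ.K) (_ : N.Normal), Nat.card N = 9 ∧ (∀ x ∈ N, x ^ 0 = 1) ∧
    Nonempty (SQ.K ⧸ N ≃* GL (Fin 2) (ZMod 3)) := by
  have hV : ∀ w, w ≠ 0 → A24.ok (code w) := fun w hw =>
    A24_ok ((by decide +kernel : ∀ w, w ≠ 0 → A24.okb (code w) = true) w hw)
  have hN := SQ.normal_subgroupOf N (by decide +kernel)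
  have hc := SQ.card_subgroupOf N (by decide +kernel)
  refine ⟨_, hN, hc, fun x _ => pow_zero x, SQ.iso_gl (cjL tab) (compat_cjL _) code hV
    (fun T hT => ?_) _ (fun g h => SQ.mem_of_labels N _ (compat_cjL _) code hV
      (fuel := 9) (lv := [(0x751f3b42265950caa9a93cae418041, [0x5be7672548bd012ac4413b4a68106c]),
      (0x5de8e29a329d503b29a93c1ec20820, [0xbd6cf58141a39a49c528388ac19a12,
      0x9acb5788e0bda44744d05068363528])])
      (by decide +kernel) (by decide +kernel) g.2 h) (by rw [hc]; decide +kernel)⟩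
  rcases List.mem_pair.mp hT with rfl | rfl
  · exact ⟨!![1, 0; 2, 1], by decide +kernel, by decide +kernel⟩
  · exact ⟨!![0, 2; 2, 1], by decide +kernel, by decide +kernel⟩

/-- A quartet stabiliser inside the dodecad stabiliser has order 432, a normal subgroup of order 9 with quotient GL(2, 3), and is transitive on the dodecad. -/
theorem result (d : Finset Cfsg.GolayPt) (hd : d ∈ Cfsg.dodecads) (Q : Finset (Finset Cfsg.GolayPt)) (hQ : Q ∈ Cfsg.quartets d) : Nat.card ↥(MulAction.stabilizer Cfsg.M24 d ⊓ MulAction.stabilizer Cfsg.M24 Q) = 432 ∧ (∃ (N : Subgroup ↥(MulAction.stabilizer Cfsg.M24 d ⊓ MulAction.stabilizer Cfsg.M24 Q)) (_ : N.Normal), Nat.card N = 9 ∧ Nonempty (↥(MulAction.stabilizer Cfsg.M24 d ⊓ MulAction.stabilizer Cfsg.M24 Q) ⧸ N ≃* GL (Fin 2) (ZMod 3))) ∧ ∀ p ∈ d, ∀ q ∈ d, ∃ g ∈ (MulAction.stabilizer Cfsg.M24 d ⊓ MulAction.stabilizer Cfsg.M24 Q), ((g : ↥Cfsg.M24) : Equiv.Perm Cfsg.GolayPt) p = q := by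
  obtain ⟨k, rfl, rfl⟩ := trans_dQ hd hQ
  have e := stabEquiv2 k d0 Q0
  obtain ⟨N, hN, h1, -, h2⟩ := ext_congr e iso
  refine ⟨(Nat.card_congr e.toEquiv).symm.trans SQ.card_eq, ⟨N, hN, h1, h2⟩, fun p hp q hq => ?_⟩
  have key : ∀ p ∈ d0, p ∈ orbit SQ.K (gC.pt 0) := fun p hp => by
    rw [← gC.pt_idx p]
    exact (SQ.mem_orbit_iff A24.toModel A24.compat_self (fuel := 25) (U := 0x05335f)
      (by decide : 0 < 24) (by decide +kernel) (gC.idx_lt p)).mpr (gC.mem_set.mp hp)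
  obtain ⟨p, hp', rfl⟩ := Finset.mem_smul_finset.mp hp
  obtain ⟨q, hq', rfl⟩ := Finset.mem_smul_finset.mp hq
  obtain ⟨g, hg, e⟩ := exists_smul_of_mem_orbit (key p hp') (key q hq')
  refine ⟨k * g * k⁻¹, ⟨conj_mem_stabilizer hg.1, conj_mem_stabilizer hg.2⟩, ?_⟩
  show (k * g * k⁻¹) • k • p = k • q
  rw [conj_smul_smul, e]

end Cfsg.Agent.S1598
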