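import Cfsg.Statements.S1599
import Cfsg.Agent.L1.Quart

set_option autoImplicit false
open scoped Pointwise
open Cfsg

namespace Cfsg.Agent.S1599

open Cfsg.Agent.H14 MulAction
open scoped Pointwise

theorem dec : ∃ a b c e, OrbDec (stabilizer M24 (d0, Q0)) (quartets d0)
    [(Q0, 1), (a, 12), (b, 27), (c, 72), (e, 108)] := by
  rw [stabilizer_prod]
  exact ⟨_, _, _, _, SQ.orbDec mQ compat_mQ (Set.toFinite _) (fun g hg y hy => by
      have := smul_quartets g hy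
      rwa [show g • d0 = d0 from hg.1] at this)
    (vb := fun c => anyL [0xbdab49ca307b9ac5a928398a418820, 0x53cf48c272b39a95dd81a98a219100,
      0x79ef49b229a9408758325356418a06, 0x3ded48866852cd02d649781c21918d,
      0x9d9517428dbac23a9589391e801a42]
      fun T => band (band (A24.okb T) (SDs.test T)) (Nat.beq (mQ.fn T 0x50040002300001018000007) c))
    (fun c h => ⟨V_mQ c, by
      obtain ⟨T, -, h⟩ := anyL_iff.mp h
      rw [band_iff, band_iff, nbeq_iff] at h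
      rw [← h.2, ← compat_mQ.smul_dec (A24_ok h.1.1) (V_mQ _), ← orbit_Q0]
      exact mem_orbit_sub.mpr ⟨_, (SDs.test_iff T (A24_ok h.1.1)).mp h.1.2, rfl⟩⟩)
    (fuel := 109) ncard_quartets (reps := [(0x50040002300001018000007, 1), (0x5004000300200020c000111, 12), (0x3200040003000118010044,
      27), (0x10304024001000c003010, 72), (0x12010001202000109040044, 108)]) (by decide +kernel)⟩

/-- A quartet stabiliser has five orbits on the quartets of its dodecad, of sizes 1, 12, 27, 72, 108. -/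
theorem result (d : Finset Cfsg.GolayPt) (hd : d ∈ Cfsg.dodecads) (Q : Finset (Finset Cfsg.GolayPt)) (hQ : Q ∈ Cfsg.quartets d) : ∃ X₁ ∈ Cfsg.quartets d, ∃ X₂ ∈ Cfsg.quartets d, ∃ X₃ ∈ Cfsg.quartets d, ∃ X₄ ∈ Cfsg.quartets d, (MulAction.orbit ↥(MulAction.stabilizer Cfsg.M24 d ⊓ MulAction.stabilizer Cfsg.M24 Q) X₁).ncard = 12 ∧ (MulAction.orbit ↥(MulAction.stabilizer Cfsg.M24 d ⊓ MulAction.stabilizer Cfsg.M24 Q) X₂).ncard = 27 ∧ (MulAction.orbit ↥(MulAction.stabilizer Cfsg.M24 d ⊓ MulAction.stabilizer Cfsg.M24 Q) X₃).ncard = 72 ∧ (MulAction.orbit ↥(MulAction.stabilizer Cfsg.M24 d ⊓ MulAction.stabilizer Cfsg.M24 Q) X₄).ncard = 108 ∧ Cfsg.quartets d = {Q} ∪ MulAction.orbit ↥(MulAction.stabilizer Cfsg.M24 d ⊓ MulAction.stabilizer Cfsg.M24 Q) X₁ ∪ MulAction.orbit ↥(MulAction.stabilizer Cfsg.M24 d ⊓ MulAction.stabilizer Cfsg.M24 Q) X₂ ∪ MulAction.orbit ↥(MulAction.stabilizer Cfsg.M24 d ⊓ MulAction.stabilizer Cfsg.M24 Q) X₃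 ∪ MulAction.orbit ↥(MulAction.stabilizer Cfsg.M24 d ⊓ MulAction.stabilizer Cfsg.M24 Q) X₄ := by
  obtain ⟨k, rfl, rfl⟩ := trans_dQ hd hQ
  obtain ⟨a, b, c, e, h⟩ := dec
  have h1 := h.smul k
  have h2 : k • quartets d0 = quartets (k • d0) := by
    ext y
    obtain ⟨y, rfl⟩ := MulAction.surjective k y
    rw [Set.smul_mem_smul_set_iff, smul_quartets_iff]
  rw [h2, Prod.smul_mk, stabilizer_prod] at h1
  exact h1.one_four

end Cfsg.Agent.S1599
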