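import Cfsg.Statements.S1600
import Mathlib
import Cfsg.Agent.H14.M24f

set_option autoImplicit false
open scoped Pointwise
open Cfsg

namespace Cfsg.Agent.S1600

/-- The pointwise stabiliser of three points of a dodecad inside the dodecad stabiliser (order 72) is transitive on the complementary dodecad. -/
theorem result (d : Finset Cfsg.GolayPt) (hd : d ∈ Cfsg.dodecads) (p q r : Cfsg.GolayPt) (hp : p ∈ d) (hq : q ∈ d) (hr : r ∈ d) (hpq : p ≠ q) (hpr : p ≠ r) (hqr : q ≠ r) : Nat.card ↥(MulAction.stabilizer Cfsg.M24 d ⊓ MulAction.stabilizer Cfsg.M24 p ⊓ MulAction.stabilizer Cfsg.M24 q ⊓ MulAction.stabilizer Cfsg.M24 r) = 72 ∧ ∀ x ∉ d, ∀ y ∉ d, ∃ g ∈ (MulAction.stabilizer Cfsg.M24 d ⊓ MulAction.stabilizer Cfsg.M24 p ⊓ MulAction.stabilizer Cfsg.M24 q ⊓ MulAction.stabilizer Cfsg.M24 r), ((g : ↥Cfsg.M24) : Equiv.Perm Cfsg.GolayPt) x = y := by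
  obtain ⟨k, rfl, rfl, rfl, rfl⟩ := H14.m24_dod_three hd hp hq hr hpq hpr hqr
  refine ⟨?_, fun x hx y hy => ?_⟩
  · rw [← Nat.card_congr (H14.stabEquiv4 k _ _ _ _).toEquiv]
    exact H14.SD2.card_eq
  · have key : ∀ z : GolayPt, z ∉ H14.d0 → z ∈ MulAction.orbit H14.SD2.K (H14.gC.pt 23) := fun z hz => by
      rw [← H14.gC.pt_idx z]
      refine (H14.SD2.mem_orbit_iff H14.A24.toModel H14.A24.compat_self (c := 23) (fuel := 25)
        (U := 0xfacca0) (by decide : 23 < 24) (by decide +kernel) (H14.gC.idx_lt z)).mpr ?_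
      show (0xfacca0 : ℕ).testBit (H14.gC.idx z) = true
      revert z; decide
    obtain ⟨g, hg, h⟩ := H14.exists_smul_of_mem_orbit
      (key (k⁻¹ • x) fun hi => hx (Finset.inv_smul_mem_iff.mp hi))
      (key (k⁻¹ • y) fun hi => hy (Finset.inv_smul_mem_iff.mp hi))
    refine ⟨k * g * k⁻¹, ⟨⟨⟨H14.conj_mem_stabilizer hg.1.1.1, H14.conj_mem_stabilizer hg.1.1.2⟩,
      H14.conj_mem_stabilizer hg.1.2⟩, H14.conj_mem_stabilizer hg.2⟩, ?_⟩
    show (k * g * k⁻¹) • x = y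
    rw [mul_smul, mul_smul, h, smul_inv_smul]

end Cfsg.Agent.S1600
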