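import Cfsg.Statements.S1602
import Cfsg.Agent.L1.Iso

set_option autoImplicit false
open scoped Pointwise
open Cfsg

namespace Cfsg.Agent.S1602

open Cfsg.Agent.H14 MulAction
open scoped Pointwise

/-- the stabiliser in the standard position. -/
noncomputable def S : CSub A24 := SD0s.stab m3 compat_m3 0x800020 67
  [(3, [0x2aab13ca827b9ac5d8269a2e324120]), (4, [0x2b9557b2c19ae4489d22a1aed1c100]), (12,
      [0x2daa78b26873db25a830a0ae419920]), (13, [0x2ceb4b36295ba4c79e06522e418440])]
  120 (V_m3 (by decide +kernel)) (by decide +kernel)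

/-- In the 12-point action of the smallest Mathieu group the setwise stabiliser of a pair is isomorphic to the symmetric group of degree 5. -/
theorem result (d : Finset Cfsg.GolayPt) (hd : d ∈ Cfsg.dodecads) (p q q' : Cfsg.GolayPt) (hp : p ∈ d) (hq : q ∉ d) (hq' : q' ∉ d) (hqq' : q ≠ q') : Nonempty (↥(MulAction.stabilizer Cfsg.M24 d ⊓ MulAction.stabilizer Cfsg.M24 p ⊓ MulAction.stabilizer Cfsg.M24 ({q, q'} : Finset Cfsg.GolayPt)) ≃* Equiv.Perm (Fin 5)) := by
  obtain ⟨k, rfl, rfl, rfl, rfl⟩ := m24_dod_out hd hp hq hq' hqq'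
  obtain ⟨e⟩ := iso_perm (K := S.K) (S := gC.set 0x43018) (n := 5)
    (S.smul_mem_mask (by decide +kernel))
    (fun g hg h => S.eq_one_of_mask (lv :=
      [(3, [0x2aab13ca827b9ac5d8269a2e324120]), (4, [0x2b9557b2c19ae4489d22a1aed1c100]), (12,
      [0x2daa78b26873db25a830a0ae419920]), (13, [0x2ceb4b36295ba4c79e06522e418440])]) (by decide +kernel) hg h)
    ((gC.card_set _).trans (by decide +kernel)) S.card_eq.ge
  have h : ({k • none, k • some 5} : Finset GolayPt) = k • gC.set 0x800020 := by
    rw [show gC.set 0x800020 = {none, some 5} by decide, Finset.smul_finset_insert,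
      Finset.smul_finset_singleton]
  rw [h]
  exact ⟨(stabEquiv3 k d0 (some 0 : GolayPt) (gC.set 0x800020)).symm.trans e⟩

end Cfsg.Agent.S1602
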