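import Cfsg.Statements.S1605
import Mathlib
import Cfsg.Agent.H14.M24e

set_option autoImplicit false
open scoped Pointwise
open Cfsg

namespace Cfsg.Agent.S1605

/-- The two-point stabiliser acts on the 176 octads through the first point avoiding the second with rank 3 and subdegrees 1, 70, 105 (intersections 8, 2, 4). -/
theorem result (p q : Cfsg.GolayPt) (hpq : p ≠ q) : {x : Finset Cfsg.GolayPt | (x ∈ Cfsg.octads ∧ p ∈ x ∧ q ∉ x)}.ncard = 176 ∧ (∀ o o' : Finset Cfsg.GolayPt, (o ∈ Cfsg.octads ∧ p ∈ o ∧ q ∉ o) → (o' ∈ Cfsg.octads ∧ p ∈ o' ∧ q ∉ o') → ∃ g : Equiv.Perm Cfsg.GolayPt, g ∈ Cfsg.M24 ∧ g p = p ∧ g q = q ∧ g • o = o') ∧ ∀ o : Finset Cfsg.GolayPt, (o ∈ Cfsg.octads ∧ p ∈ o ∧ q ∉ o) → {x : Finset Cfsg.GolayPt | (x ∈ Cfsg.octads ∧ p ∈ x ∧ q ∉ x) ∧ (o ∩ x).card = 2}.ncard = 70 ∧ {x : Finset Cfsg.GolayPt | (x ∈ Cfsg.octads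 ∧ p ∈ x ∧ q ∉ x) ∧ (o ∩ x).card = 4}.ncard = 105 ∧ ∀ o' o'' : Finset Cfsg.GolayPt, (o' ∈ Cfsg.octads ∧ p ∈ o' ∧ q ∉ o') → (o'' ∈ Cfsg.octads ∧ p ∈ o'' ∧ q ∉ o'') → (o ∩ o').card = (o ∩ o'').card → ∃ g : Equiv.Perm Cfsg.GolayPt, g ∈ Cfsg.M24 ∧ g p = p ∧ g q = q ∧ g • o = o ∧ g • o' = o'' := by
  refine ⟨?_, fun o o' ho ho' => ?_, fun o ho => ?_⟩
  · obtain ⟨g, rfl, rfl⟩ := H14.m24_two (show (none : GolayPt) ≠ some 0 by decide) hpq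
    rw [← H14.ncard_pnq]
    exact H14.ncard_smul_congr g fun y => by simp [H14.m24_smul_octads]
  · obtain ⟨a, h1, h2, h3⟩ := H14.trans_pnq hpq ho.1 ho.2.1 ho.2.2
    obtain ⟨b, h4, h5, h6⟩ := H14.trans_pnq hpq ho'.1 ho'.2.1 ho'.2.2
    refine ⟨(b * a⁻¹ : M24), (b * a⁻¹).2, ?_, ?_, ?_⟩
    · show (b * a⁻¹) • p = p
      rw [mul_smul, inv_smul_eq_iff.mpr h1.symm, h4]
    · show (b * a⁻¹) • q = q
      rw [mul_smul, inv_smul_eq_iff.mpr h2.symm, h5]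
    · show (b * a⁻¹) • o = o'
      rw [mul_smul, inv_smul_eq_iff.mpr h3.symm, h6]
  · have h' := H14.invDec_pnq hpq ho.1 ho.2.1 ho.2.2
    refine ⟨h'.count (2, 70) (by simp), h'.count (4, 105) (by simp), fun o' o'' h1 h2 h3 => ?_⟩
    obtain ⟨k, hk, e⟩ := h'.conj o' h1 o'' h2 h3
    obtain ⟨e1, e2, e3⟩ := H14.mem_stab3.mp hk
    exact ⟨k, k.2, e1, e2, e3, e⟩

end Cfsg.Agent.S1605
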