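import Cfsg.Statements.S1606
import Mathlib
import Cfsg.Agent.H17.MIdx2

set_option autoImplicit false
open scoped Pointwise
open Cfsg

namespace Cfsg.Agent.S1606

open Cfsg.Agent.H17
open scoped commutatorElement

open H14 H17.MIdx MulAction

/-- The stabiliser of two points in the group of the length-24 code has no subgroups of index 56 or 210. -/
theorem result (p q : Cfsg.GolayPt) (hpq : p ≠ q) (H : Subgroup ↥(MulAction.stabilizer Cfsg.M24 p ⊓ MulAction.stabilizer Cfsg.M24 q)) : H.index ≠ 56 ∧ H.index ≠ 210 := by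
  obtain ⟨g, rfl, rfl⟩ := m24_two (p := none) (q := some 0) (by decide) hpq
  have l : cj g (H.map (Subgroup.subtype _)) ≤ S22.K :=
    (cj_mono g (Subgroup.map_subtype_le H)).trans (by rw [cj_inf, cj_stab, cj_stab]; rfl)
  have c := H.card_mul_index
  rw [← card_cj g, cj_inf, cj_stab, cj_stab, ← S22_K, S22.card_eq, show S22.ord = 443520 from rfl,
    ← Subgroup.card_subtype, ← card_cj g] at c
  generalize cj g _ = K at l c
  have key : 11 ∣ Nat.card K → ¬ 7 ∣ Nat.card K → Nat.card K ≤ 1632 := fun h11 h7 => by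
    obtain ⟨k, hk, h⟩ := sylow_le (m := 40320) (by norm_num) a_mem l card_a S22.card_eq.symm (by norm_num) h11
    rw [← card_cj k] at h7 ⊢
    exact m22 (h (Subgroup.mem_zpowers _)) (fun x hx => (mul_mem_cancel_left hk).1
      ((mul_mem_cancel_right (inv_mem hk)).1 (l hx))) h7
  constructor <;> intro e <;> rw [e] at c <;> omega

end Cfsg.Agent.S1606
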