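import Cfsg.Statements.S1607
import Mathlib
import Cfsg.Agent.H14.M24e

set_option autoImplicit false
open scoped Pointwise
open Cfsg

namespace Cfsg.Agent.S1607

/-- The point stabiliser acts on the 253 heptads of its S(4, 7, 23) with rank 3 and subdegrees 1, 112, 140 (intersections 8, 2, 4). -/
theorem result (x : Cfsg.GolayPt) (o : Finset Cfsg.GolayPt) (ho : o ∈ Cfsg.octads) (hx : x ∈ o) : {o' : Finset Cfsg.GolayPt | o' ∈ Cfsg.octads ∧ x ∈ o' ∧ (o ∩ o').card = 2}.ncard = 112 ∧ {o' : Finset Cfsg.GolayPt | o' ∈ Cfsg.octads ∧ x ∈ o' ∧ (o ∩ o').card = 4}.ncard = 140 ∧ ∀ o' o'' : Finset Cfsg.GolayPt, o' ∈ Cfsg.octads → o'' ∈ Cfsg.octads → x ∈ o' → x ∈ o'' → (o ∩ o').card = (o ∩ o'').card → ∃ g : Equiv.Perm Cfsg.GolayPt, g ∈ Cfsg.M24 ∧ g x = x ∧ g • o = o ∧ g • o' = o'' := by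
  have h' := H14.invDec_po ho hx
  refine ⟨?_, ?_, fun o' o'' h1 h2 h3 h4 h5 => ?_⟩
  · simpa only [Set.mem_ofPred_eq, and_assoc] using h'.count (2, 112) (by simp)
  · simpa only [Set.mem_ofPred_eq, and_assoc] using h'.count (4, 140) (by simp)
  · obtain ⟨k, hk, e⟩ := h'.conj o' ⟨h1, h3⟩ o'' ⟨h2, h4⟩ h5
    obtain ⟨e1, e2⟩ := H14.mem_stab2.mp hk
    exact ⟨k, k.2, e1, e2, e⟩

end Cfsg.Agent.S1607
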