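import Cfsg.Statements.S1609
import Mathlib
import Cfsg.Agent.H17.MIdx

set_option autoImplicit false
open scoped Pointwise
open Cfsg

namespace Cfsg.Agent.S1609

open Cfsg.Agent.H17
open scoped commutatorElement

open H14 H17.MIdx MulAction
open scoped Pointwise

/-- Subgroups of index 253 in the Mathieu group of degree 23 are exactly the duad stabilisers and the heptad stabilisers. -/
theorem result (x : Cfsg.GolayPt) (H : Subgroup ↥(MulAction.stabilizer Cfsg.M24 x)) (hH : H.index = 253) : (∃ s : Finset Cfsg.GolayPt, s.card = 2 ∧ x ∉ s ∧ H = (MulAction.stabilizer Cfsg.M24 s).subgroupOf (MulAction.stabilizer Cfsg.M24 x)) ∨ ∃ o ∈ Cfsg.octads, x ∈ o ∧ H = (MulAction.stabilizer Cfsg.M24 o).subgroupOf (MulAction.stabilizer Cfsg.M24 x) := by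
  obtain ⟨g0, rfl⟩ := m24_one none x
  have l : cj g0 (H.map (Subgroup.subtype _)) ≤ S23.K :=
    (cj_mono g0 (Subgroup.map_subtype_le H)).trans (cj_stab _ _).le
  have c := H.card_mul_index
  rw [← card_cj g0 (stabilizer _ _), cj_stab, show Nat.card (stabilizer M24 none) = 10200960 from S23.card_eq,
    ← Subgroup.card_subtype, hH] at c
  obtain ⟨k, hk, h⟩ := sylow_le (p := 2) (n := 7) (m := 79695) (by norm_num) (inf_le_right : P23.K ≤ S23.K) l
    P23.card_eq S23.card_eq.symm (by norm_num) (by rw [card_cj]; omega)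
  have e : (g0 * k) • (none : GolayPt) = g0 • none := by rw [mul_smul, show k • none = none from hk]
  rw [cj_cj] at h
  generalize g0 * k = g at h e
  clear l
  revert H
  rw [← e]
  intro H _ c h
  have l : cj g (H.map (Subgroup.subtype _)) ≤ S23.K :=
    (cj_mono g (Subgroup.map_subtype_le H)).trans (cj_stab _ _).le
  have key : ∀ s : Finset GolayPt, cj g (H.map (Subgroup.subtype _)) ≤ stabilizer M24 s →
      Nat.card ↥(S23.K ⊓ stabilizer M24 s) ≤ 40320 →
      H = (stabilizer M24 (g • s)).subgroupOf (stabilizer M24 (g • none)) := fun s a b => by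
    have := Subgroup.eq_of_le_of_card_ge (le_inf l a) (by rw [card_cj]; omega)
    rw [← Subgroup.inf_subgroupOf_left, ← cj_inj g (K := stabilizer M24 (g • none) ⊓ stabilizer M24 (g • s))
      (this.trans (by rw [cj_inf, cj_stab, cj_stab]; rfl))]
    exact (Subgroup.comap_map_eq_self_of_injective (Subgroup.subtype_injective _) H).symm
  rcases m23 h l (by rw [card_cj, show Nat.card _ = 40320 by omega]; decide) with h | h | ⟨h, -⟩
  · exact .inr ⟨_, (m24_smul_octads g).2 o0_mem, Finset.smul_mem_smul_finset (by decide +kernel),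
      key _ h (S23.stab_le mC compat_mC (fuel := 254) isCW_o0 (by decide +kernel))⟩
  · have := (Subgroup.card_le_of_le (le_inf l h)).trans (S23.stab_le m3 compat_m3 (fuel := 1772) (m := 5760)
      (V_m3 (by decide +kernel)) (by decide +kernel))
    rw [card_cj] at this
    omega
  · exact .inl ⟨_, (Finset.card_smul_finset _ _).trans (by decide +kernel),
      mt (Finset.smul_mem_smul_finset_iff g).1 (by decide +kernel),
      key _ h (S23.stab_le m3 compat_m3 (fuel := 254) (V_m3 (by decide +kernel)) (by decide +kernel))⟩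

end Cfsg.Agent.S1609
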