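import Cfsg.Statements.S1610
import Cfsg.Agent.L1.Hex
import Cfsg.Agent.S0380

set_option autoImplicit false
open Cfsg

namespace Cfsg.Agent.S1610

open Cfsg.Agent.H14

open S0380 (K card_K)

theorem count {F : Type*} [Field F] [Fintype F] [DecidableEq F] {ω : F} (h2 : (2 : F) = 0)
    (hω : ω ^ 2 + ω + 1 = 0) (e : F ≃+* K) (P : ℕ → Prop) [DecidablePred P] :
    {x | x ∈ hexacode F ω ∧ P (Finset.univ.filter fun i => x i ≠ 0).card}.ncard =
      (Finset.univ.filter fun a : Fin 3 → K =>
        P (Finset.univ.filter fun i => hexW (e ω) a i ≠ 0).card).card := by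
  have h : ∀ (a : Fin 3 → F) i, hexW (e ω) (fun j => e (a j)) i = e (hexW ω a i) := fun a i => by
    fin_cases i <;> simp [hexW]
  have hi : Function.Injective fun (a : Fin 3 → K) => hexW ω fun j => e.symm (a j) :=
    fun a b h => funext fun j => e.symm.injective (congrFun (hexW_inj h) j)
  have hs : ∀ a : Fin 3 → F, (Finset.univ.filter fun i => hexW (e ω) (fun j => e (a j)) i ≠ 0) =
      Finset.univ.filter fun i => hexW ω a i ≠ 0 := fun a => by simp [h]
  rw [← Set.ncard_coe_finset, ← Set.ncard_image_of_injective _ hi]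
  congr 1
  ext x
  simp only [Set.mem_ofPred_eq, Set.mem_image, Finset.coe_filter, Finset.mem_univ, true_and]
  constructor
  · rintro ⟨hx, hp⟩
    obtain ⟨a, rfl⟩ := exists_hexW h2 hω hx
    exact ⟨fun j => e (a j), by rwa [hs], by simp⟩
  · rintro ⟨a, hp, rfl⟩
    refine ⟨hexW_mem h2 hω _, ?_⟩
    rw [← hs]
    simpa using hp

/-- The hexacode has 64 words, minimum weight 4, and weight distribution 0^1 4^45 6^18. -/
theorem result (F : Type*) [Field F] [Fintype F] [DecidableEq F] (hF : Fintype.card F = 4) (ω : F) (hω : ω ^ 2 + ω + 1 = 0) : Nat.card ↥(Cfsg.hexacode F ω) = 64 ∧ (∀ x ∈ Cfsg.hexacode F ω, x ≠ 0 → (Finset.univ.filter fun i => x i ≠ 0).card = 4 ∨ (Finset.univ.filter fun i => x i ≠ 0).card = 6) ∧ {x : Fin 6 → F | x ∈ Cfsg.hexacode F ω ∧ (Finset.univ.filter fun i => x i ≠ 0).card = 4}.ncard = 45 ∧ {x : Fin 6 → F | x ∈ Cfsg.hexacode F ω ∧ (Finset.univ.filter fun i => x i ≠ 0).card = 6}.ncard = 18 := by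
  have h2 := two_of_card4 hF
  obtain ⟨e⟩ : Nonempty (F ≃+* K) := by
    have := Fintype.card_eq.mp (hF.trans card_K.symm)
    exact ⟨FiniteField.ringEquivOfCardEq (hF.trans card_K.symm)⟩
  have hw : e ω ^ 2 + e ω + 1 = 0 := by simpa using congrArg e hω
  have key : ∀ w : K, w ^ 2 + w + 1 = 0 → (Finset.univ.filter fun a : Fin 3 → K =>
      ¬ ((Finset.univ.filter fun i => hexW w a i ≠ 0).card = 0 ∨
        (Finset.univ.filter fun i => hexW w a i ≠ 0).card = 4 ∨
        (Finset.univ.filter fun i => hexW w a i ≠ 0).card = 6)).card = 0 ∧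
      (Finset.univ.filter fun a : Fin 3 → K =>
        (Finset.univ.filter fun i => hexW w a i ≠ 0).card = 4).card = 45 ∧
      (Finset.univ.filter fun a : Fin 3 → K =>
        (Finset.univ.filter fun i => hexW w a i ≠ 0).card = 6).card = 18 := by decide +kernel
  obtain ⟨k0, k4, k6⟩ := key _ hw
  refine ⟨?_, fun x hx h0 => ?_, (count h2 hω e (· = 4)).trans k4, (count h2 hω e (· = 6)).trans k6⟩
  · have := count h2 hω e fun _ => True
    simp only [and_true, Finset.filter_true, Finset.card_univ, Fintype.card_fun, card_K,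
      Fintype.card_fin] at this
    exact this
  · have := (count h2 hω e fun n => ¬ (n = 0 ∨ n = 4 ∨ n = 6)).trans k0
    rw [Set.ncard_eq_zero, Set.eq_empty_iff_forall_notMem] at this
    by_contra hc
    refine this x ⟨hx, fun h => hc (h.resolve_left fun h => h0 (funext fun i => ?_))⟩
    simpa using Finset.filter_eq_empty_iff.mp (Finset.card_eq_zero.mp h) (Finset.mem_univ i)

end Cfsg.Agent.S1610
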