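import Cfsg.Statements.S1611
import Cfsg.Agent.L1.Hex
import Cfsg.Agent.H14.PermAmb

set_option autoImplicit false
open Cfsg

namespace Cfsg.Agent.S1611

open Cfsg.Agent.H14

section

variable {F : Type*} [Field F] [Fintype F] {ω : F} (h2 : (2 : F) = 0) (hω : ω ^ 2 + ω + 1 = 0)
include h2 hω

theorem const (c : Fin 6 → Fˣ) (h : MPres (hexacode F ω) 1 c) (i j : Fin 6) : c i = c j := by
  have a := (mem_hex h2 hω).mp (h _ (hexW_mem h2 hω ![0, 0, 1]))
  have b := (mem_hex h2 hω).mp (h _ (hexW_mem h2 hω ![0, 1, 0]))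
  have d := (mem_hex h2 hω).mp (h _ (hexW_mem h2 hω ![1, 0, 0]))
  simp [monomialMap, hexW, Equiv.Perm.one_def, Units.val_inj] at a b d
  have : ∀ i, c i = c 3 := fun i => by
    fin_cases i
    exacts [d.1.symm, b.1.symm, a.1.symm, rfl, a.2.1.trans a.1.symm, a.2.2.trans a.1.symm]
  rw [this i, this j]

theorem not_swap : Equiv.swap 0 1 ∉ mPerm (hexacode F ω) := by
  rintro ⟨c, h⟩
  have a := (mem_hex h2 hω).mp (h _ (hexW_mem h2 hω ![0, 0, 1]))
  have d := (mem_hex h2 hω).mp (h _ (hexW_mem h2 hω ![1, 0, 0]))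
  simp [monomialMap, hexW, Equiv.swap_apply_def] at a d
  have := (c 1).ne_zero
  grind

theorem gen {T : ℕ} (hT : isPerm 6 5 T = true) (f : Fin 6 → Fin 6)
    (hf : ∀ i, (finCoord 5).fn 5 T i = f i) (k : Fin 6 → ℕ)
    (h : ∀ a, let x := fun i => ω ^ k i * hexW ω a (f i)
      x 3 = x 0 + x 1 + x 2 ∧ x 4 = ω ^ 2 * x 0 + ω * x 1 + x 2 ∧
        x 5 = ω * x 0 + ω ^ 2 * x 1 + x 2) : (finCoord 5).perm 5 T ∈ mPerm (hexacode F ω) := by
  have h0 : ω ≠ 0 := by rintro rfl; simp at hω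
  refine (mPerm _).inv_mem_iff.mp ⟨fun i => Units.mk0 ω h0 ^ k i, fun x hx => ?_⟩
  obtain ⟨a, rfl⟩ := exists_hexW h2 hω hx
  have : monomialMap ((finCoord 5).perm 5 T)⁻¹ (fun i => Units.mk0 ω h0 ^ k i) (hexW ω a) =
      fun i => ω ^ k i * hexW ω a (f i) := funext fun i => by
    rw [← hf]
    exact congrArg₂ (· * hexW ω a ·) (by simp) ((finCoord 5).perm_apply hT i)
  rw [this]
  exact (mem_hex h2 hω).mpr (h a)

theorem le_card : 360 ≤ Nat.card (mPerm (hexacode F ω)) := by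
  have H := ((finCoord 5).permAmb 5 (by decide)).chainChk_spec (test := fun _ => true)
    (lv := [(3, [0x2510c04]), (2, [0x44184a0]), (1, [0x2418805]), (0, [0x8018825])])
    (m := 360) (by decide +kernel)
  refine H.2.trans (Subgroup.card_le_of_le (Model.gen_le _ |>.mpr fun T hT => ?_))
  obtain rfl | rfl | rfl | rfl : T = 0x2510c04 ∨ T = 0x44184a0 ∨ T = 0x2418805 ∨ T = 0x8018825 := by
    simpa [chainGens] using hT
  · exact gen h2 hω (H.1 _ hT).1.1 ![4, 0, 3, 2, 5, 1] (by decide) ![0, 0, 1, 2, 0, 0] fun a => by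
      refine ⟨?_, ?_, ?_⟩ <;> simp [hexW] <;> grind
  · exact gen h2 hω (H.1 _ hT).1.1 ![0, 5, 1, 3, 4, 2] (by decide) ![0, 1, 2, 1, 2, 0] fun a => by
      refine ⟨?_, ?_, ?_⟩ <;> simp [hexW] <;> grind
  · exact gen h2 hω (H.1 _ hT).1.1 ![5, 0, 2, 3, 4, 1] (by decide) ![0, 0, 1, 2, 0, 0] fun a => by
      refine ⟨?_, ?_, ?_⟩ <;> simp [hexW] <;> grind
  · exact gen h2 hω (H.1 _ hT).1.1 ![5, 1, 2, 3, 0, 4] (by decide) ![0, 0, 2, 1, 0, 0] fun a => by
      refine ⟨?_, ?_, ?_⟩ <;> simp [hexW] <;> grind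

theorem eq_alt : mPerm (hexacode F ω) = alternatingGroup (Fin 6) := by
  apply Equiv.Perm.eq_alternatingGroup_of_index_eq_two
  have h1 := (mPerm (hexacode F ω)).index_mul_card
  have h3 := le_card h2 hω
  have h4 : (mPerm (hexacode F ω)).index ≠ 1 := fun h =>
    not_swap h2 hω (Subgroup.index_eq_one.mp h ▸ Subgroup.mem_top _)
  rw [Nat.card_perm, Nat.card_eq_fintype_card (α := Fin 6), Fintype.card_fin] at h1
  have h5 : (mPerm (hexacode F ω)).index ≠ 0 := Subgroup.index_ne_zero_of_finite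
  have : (mPerm (hexacode F ω)).index < 3 := by
    by_contra hc
    have := Nat.mul_le_mul (not_lt.mp hc) h3
    rw [h1] at this
    revert this; decide
  omega

end

/-- The monomial automorphism group of the hexacode has order 1080: its diagonal part is the scalars and its permutation parts form the alternating group of degree 6. -/
theorem result (F : Type*) [Field F] [Fintype F] [DecidableEq F] (hF : Fintype.card F = 4) (ω : F) (hω : ω ^ 2 + ω + 1 = 0) : Nat.card {f : Equiv.Perm (Fin 6) × (Fin 6 → Fˣ) // (∀ x ∈ Cfsg.hexacode F ω, Cfsg.monomialMap f.1 f.2 x ∈ Cfsg.hexacode F ω)} = 1080 ∧ (∀ c : Fin 6 → Fˣ, (∀ x ∈ Cfsg.hexacode F ω, Cfsg.monomialMap 1 c x ∈ Cfsg.hexacode F ω) → ∀ i j, c i = c j) ∧ {σ : Equiv.Perm (Fin 6) | ∃ c : Fin 6 → Fˣ, (∀ x ∈ Cfsg.hexacode F ω, Cfsg.monomialMap σ c x ∈ Cfsg.hexacode F ω)} = (alternatingGroup (Fin 6) : Set (Equiv.Perm (Fin 6))) := by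
  have h2 := two_of_card4 hF
  refine ⟨(card_mpres (hexacode F ω) (const h2 hω)).trans ?_, const h2 hω,
    congrArg SetLike.coe (eq_alt h2 hω)⟩
  rw [eq_alt h2 hω, nat_card_alternatingGroup, Nat.card_units, Nat.card_eq_fintype_card,
    Nat.card_eq_fintype_card, hF]
  decide

end Cfsg.Agent.S1611
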