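import Cfsg.Statements.S1617
import Mathlib
import Cfsg.Agent.H27.Pt4

set_option autoImplicit false
open Cfsg

namespace Cfsg.Agent.S1617

/-- A generating conjugacy class of involutions on which the group (with trivial solvable radical) acts with rank 3 is a class of 3-transpositions. -/
theorem result {G : Type*} [Group G] [Finite G] (hsol : ∀ N : Subgroup G, N.Normal → Group.IsSolvable ↥N → N = ⊥) {D : Set G} (hinv : ∀ d ∈ D, orderOf d = 2) (hconj : ∃ d ∈ D, D = conjugatesOf d) (hgen : Subgroup.closure D = ⊤) (hrank : ∀ x ∈ D, ∃ y ∈ D, ∃ z ∈ D, {w : G | ∃ g : G, Commute g x ∧ g * y * g⁻¹ = w} ≠ {w : G | ∃ g : G, Commute g x ∧ g * x * g⁻¹ = w} ∧ {w : G | ∃ g : G, Commute g x ∧ g * z * g⁻¹ = w} ≠ {w : G | ∃ g : G, Commute g x ∧ g * x * g⁻¹ = w} ∧ {w : G | ∃ g : G, Commute g x ∧ g * y * g⁻¹ = w} ≠ {w : G | ∃ g : G, Commute g x ∧ g * z * g⁻¹ = w} ∧ D = {w : G | ∃ g : G, Commute g x ∧ g * x * g⁻¹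 = w} ∪ {w : G | ∃ g : G, Commute g x ∧ g * y * g⁻¹ = w} ∪ {w : G | ∃ g : G, Commute g x ∧ g * z * g⁻¹ = w}) : Cfsg.IsThreeTranspositionClass D := by
  obtain ⟨x, hx, rfl⟩ := hconj
  obtain ⟨y, hy, z, hz, h1, -, -, h4⟩ := hrank x hx
  have key : ∀ v w : G, w ∈ {w : G | ∃ g : G, Commute g x ∧ g * v * g⁻¹ = w} → orderOf (x * w) = orderOf (x * v) := by
    rintro v _ ⟨g, hg, rfl⟩
    have : x * (g * v * g⁻¹) = MulAut.conj g (x * v) := by
      rw [MulAut.conj_apply, ← mul_assoc g, hg.eq]; group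
    rw [this, (MulAut.conj g).orderOf_eq]
  refine ⟨⟨hinv, H27.Pt.rank_three hsol (hinv x hx) hgen hy (fun e => h1 (by rw [e]))
    (m := orderOf (x * y)) (n := orderOf (x * z)) fun w hw => ?_⟩, ⟨x, hx, rfl⟩, hgen⟩
  rw [h4] at hw
  rcases hw with (⟨g, hg, rfl⟩ | hw) | hw
  · left; rw [hg.eq, mul_inv_cancel_right]
  · exact Or.inr (Or.inl (key _ _ hw))
  · exact Or.inr (Or.inr (key _ _ hw))

end Cfsg.Agent.S1617
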