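import Cfsg.Statements.S1626
import Mathlib
import Cfsg.Agent.H18.J3b

set_option autoImplicit false
open scoped MatrixGroups
open Matrix
open Cfsg

namespace Cfsg.Agent.S1626

open H25 H25.J3 H18.J3 Cfsg.Spor

theorem cen_smul {c : Γ} {t : K} (h : (c : GL F9 K).val = t • (1 : Matrix F9 F9 K)) (v : F9 → K) :
    c • v = t • v := by
  show (c : GL F9 K).val *ᵥ v = _
  rw [h, Matrix.smul_mulVec, Matrix.one_mulVec]

theorem cen_ne {c : Γ} {t : K} (h : (c : GL F9 K).val = t • (1 : Matrix F9 F9 K)) : t ≠ 0 := by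
  rintro rfl
  exact (c : GL F9 K).ne_zero (by rw [h, zero_smul])

theorem cen_of {t : K} (ht : t ≠ 0) : ∃ c ∈ Subgroup.center Γ, ∀ v : F9 → K, c • v = t • v := by
  obtain ⟨s, hs⟩ := scalar_of_center hz.1
  have h1 : s ≠ 1 := by
    rintro rfl
    have := vm.ne (u := [6]) (by decide +kernel)
    rw [ev_cons, ev_nil, mul_one] at this
    exact this (Subtype.ext (Units.ext (by rw [hs, one_smul]; rfl)))
  have h2 : ∀ s t : K, s ≠ 0 → s ≠ 1 → t ≠ 0 → t = 1 ∨ t = s ∨ t = s * s := by decide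
  rcases h2 s t (cen_ne hs) h1 ht with rfl | rfl | rfl
  · exact ⟨1, Subgroup.one_mem _, fun v => by rw [one_smul, one_smul]⟩
  · exact ⟨_, hz.1, cen_smul hs⟩
  · exact ⟨_, Subgroup.mul_mem _ hz.1 hz.1, fun v => by rw [mul_smul, cen_smul hs, cen_smul hs, mul_smul]⟩

theorem line_iff {F : Type} [Field F] (φ : K ≃+* F) (u v : F9 → K) :
    (F ∙ (fun z => φ (u z))) = (F ∙ (fun z => φ (v z))) ↔ OQ.mk Γ u = OQ.mk Γ v := by
  rw [eq_comm, Submodule.span_singleton_eq_span_singleton, OQ.eq]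
  constructor
  · rintro ⟨t, ht⟩
    obtain ⟨c, hc, e⟩ := cen_of (t := φ.symm t) (by simp)
    refine ⟨c, hc, (e v).trans (funext fun z => φ.injective ?_)⟩
    rw [← congrFun ht z]
    simp [Units.smul_def]
  · rintro ⟨c, hc, rfl⟩
    obtain ⟨t, ht⟩ := scalar_of_center hc
    refine ⟨Units.mk0 (φ t) (by simpa using cen_ne ht), funext fun z => ?_⟩
    rw [cen_smul ht]
    simp [Units.smul_def]

theorem act_map {F : Type} [Field F] (φ : K ≃+* F) {ω : F} (h : φ om = ω) (y : Γ) (v : F9 → K) :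
    ((isoOf φ h y : threeJ3 F ω) : GL F9 F).val *ᵥ (fun z => φ (v z)) = fun z => φ ((y • v) z) := by
  funext z
  show ∑ i, φ ((y : GL F9 K).val z i) * φ (v i) = φ (∑ i, (y : GL F9 K).val z i * v i)
  simp [map_sum]

theorem iso5 {v : F9 → K} (hv : v ≠ 0) (h : ∑ z, v z ^ 3 = 0) : ∃ y : Γ, y • v = dec 5 := by
  obtain ⟨y, r, hr, e⟩ := reduce hTA red_all v
  have h1 : ∑ z, dec r z ^ 3 = 0 := by
    have := herm y v v
    rw [show (y : GL F9 K).val *ᵥ v = dec r from e] at this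
    simp only [← pow_succ'] at this
    exact this.trans h
  simp only [List.mem_cons, List.not_mem_nil, or_false] at hr
  rcases hr with rfl | rfl | rfl | rfl
  · refine absurd ((smul_eq_zero_iff_eq y).1 (e.trans ?_)) hv
    simp [dec, vdec]
  · simp only [dec, dec_eq] at h1
    exact absurd h1 (by decide +kernel)
  · exact ⟨y, e⟩
  · simp only [dec, dec_eq] at h1
    exact absurd h1 (by decide +kernel)


/-- Orbits of the triple cover of the third Janko group on lines of its 9-space over the field with 4 elements: the line through the first basis vector has exactly 23256 images, and the isotropic lines (nonzero v with Σ v_z³ = 0) form a single orbit. -/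
theorem result (F : Type) [Field F] [Fintype F] (hF : Fintype.card F = 4) (ω : F) (hω : ω ^ 2 + ω + 1 = 0) : {L : Submodule F (Cfsg.Spor.F9 → F) | ∃ g ∈ Cfsg.Spor.threeJ3 F ω, L = F ∙ ((g : Matrix Cfsg.Spor.F9 Cfsg.Spor.F9 F) *ᵥ (Pi.single (0 : Cfsg.Spor.F9) (1 : F) : Cfsg.Spor.F9 → F))}.ncard = 23256 ∧ ∀ v w : Cfsg.Spor.F9 → F, v ≠ 0 → w ≠ 0 → ∑ z, (v z) ^ 3 = 0 → ∑ z, (w z) ^ 3 = 0 → ∃ g ∈ Cfsg.Spor.threeJ3 F ω, ∃ c : F, c ≠ 0 ∧ (g : Matrix Cfsg.Spor.F9 Cfsg.Spor.F9 F) *ᵥ v = c • w := by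
  obtain ⟨φ, hφ⟩ := exists_iso hF hω
  constructor
  · have e0 : (Pi.single (0 : F9) (1 : F) : F9 → F) = fun z => φ (bas 0 z) := by
      funext z
      simp [bas, show el 0 = 0 from rfl, Pi.single_apply, apply_ite φ]
    have key : ∀ u : F9 → K, (∃ y : Γ, OQ.mk Γ u = OQ.mk Γ (y • bas 0)) ↔
        ∃ i < 23256, OQ.mk Γ (vdec 18 7 bas (cd i)) = OQ.mk Γ u := fun u => by
      have := Set.ext_iff.1 orb0 (OQ.mk Γ u)
      refine Iff.trans ⟨?_, ?_⟩ this
      · rintro ⟨y, hy⟩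
        exact ⟨(y : G0), hy.symm⟩
      · rintro ⟨y, hy⟩
        obtain ⟨y, rfl⟩ := QuotientGroup.mk_surjective y
        exact ⟨y, Eq.symm hy⟩
    rw [show {L : Submodule F (F9 → F) | ∃ g ∈ threeJ3 F ω,
        L = F ∙ ((g : Matrix F9 F9 F) *ᵥ (Pi.single (0 : F9) (1 : F) : F9 → F))} =
        (fun i => F ∙ (fun z => φ (vdec 18 7 bas (cd i) z))) '' (Finset.range 23256 : Set ℕ) from ?_,
      Set.ncard_image_of_injOn, Set.ncard_coe_finset, Finset.card_range]
    · intro i hi j hj e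
      exact injv i (by simpa using hi) j (by simpa using hj) ((line_iff φ _ _).1 e)
    · ext L
      constructor
      · rintro ⟨g, hg, rfl⟩
        obtain ⟨y, hy⟩ := (isoOf φ hφ).surjective ⟨g, hg⟩
        obtain rfl : ((isoOf φ hφ y : threeJ3 F ω) : GL F9 F) = g := congrArg Subtype.val hy
        obtain ⟨i, hi, e⟩ := (key (y • bas 0)).1 ⟨y, rfl⟩
        refine ⟨i, by simpa using hi, ?_⟩
        rw [e0, act_map]
        exact (line_iff φ _ _).2 e
      · rintro ⟨i, hi, rfl⟩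
        obtain ⟨y, e⟩ := (key _).2 ⟨i, by simpa using hi, rfl⟩
        refine ⟨_, (isoOf φ hφ y).2, ?_⟩
        rw [e0, act_map]
        exact (line_iff φ _ _).2 e
  · intro v w hv hw h1 h2
    have tr : ∀ v : F9 → F, v ≠ 0 → ∑ z, v z ^ 3 = 0 → ∃ y : Γ, y • (fun z => φ.symm (v z)) = dec 5 :=
      fun v hv h => iso5 (fun e => hv (funext fun z => by simpa using congrFun e z))
        (by simpa [map_sum] using congrArg φ.symm h)
    obtain ⟨y1, e1⟩ := tr v hv h1
    obtain ⟨y2, e2⟩ := tr w hw h2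
    refine ⟨_, (isoOf φ hφ (y2⁻¹ * y1)).2, 1, one_ne_zero, ?_⟩
    have := act_map φ hφ (y2⁻¹ * y1) (fun z => φ.symm (v z))
    rw [mul_smul, e1, ← e2, inv_smul_smul] at this
    simpa using this

end Cfsg.Agent.S1626
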