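import Cfsg.Statements.S1632
import Mathlib
import Cfsg.Agent.L1.Theta

set_option autoImplicit false
open Matrix
open Cfsg

namespace Cfsg.Agent.S1632

open Cfsg.Agent.L1Th Complex ModularForm EisensteinSeries
open UpperHalfPlane hiding I
open scoped Real MatrixGroups ArithmeticFunction.sigma


variable {B : Matrix (Fin 24) (Fin 24) ℤ}

theorem Q_cast (B : Matrix (Fin 24) (Fin 24) ℤ) (x : Fin 24 → ℤ) :
    Q (B.map (Int.castRingHom ℝ)) (fun i => (x i : ℝ)) = (x ⬝ᵥ (B *ᵥ x) : ℤ) := by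
  simp [Q, dotProduct, mulVec]

theorem pd (hsymm : B.IsSymm) (hpos : ∀ x : Fin 24 → ℤ, x ≠ 0 → 0 < x ⬝ᵥ (B *ᵥ x))
    (hdet : B.det = 1) :
    PD (B.map (Int.castRingHom ℝ)) (B.adjugate.map (Int.castRingHom ℝ)) := by
  have hs : (B.map (Int.castRingHom ℝ))ᵀ = B.map (Int.castRingHom ℝ) := by
    rw [← transpose_map, hsymm.eq]
  have h0 : ∀ x, 0 ≤ Q (B.map (Int.castRingHom ℝ)) x := fun x => by
    refine (DenseRange.piMap fun _ : Fin 24 => (Rat.denseRange_cast (𝕜 := ℝ))).induction_on x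
      (isClosed_le continuous_const continuous_Q) fun q => ?_
    obtain ⟨b, hb⟩ := IsLocalization.exist_integer_multiples_of_finite (nonZeroDivisors ℤ) q
    choose y hy using hb
    have e : (fun i => (y i : ℝ)) = ((b : ℤ) : ℝ) • Pi.map (fun _ => Rat.cast) q := by
      ext i
      have := congrArg (Rat.cast : ℚ → ℝ) (hy i)
      simpa using this
    have h1 : 0 ≤ Q (B.map (Int.castRingHom ℝ)) fun i => (y i : ℝ) := by
      rw [Q_cast]
      by_cases h : y = 0
      · simp [h]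
      · exact_mod_cast (hpos y h).le
    rw [e, Q_smul] at h1
    have : (((b : ℤ) : ℝ)) ≠ 0 := by exact_mod_cast nonZeroDivisors.coe_ne_zero b
    exact nonneg_of_mul_nonneg_right h1 (by positivity)
  have h1 : (B.map (Int.castRingHom ℝ)).PosDef :=
    (PosSemidef.of_dotProduct_mulVec_nonneg (by simpa [IsHermitian] using hs)
      fun x => h0 x).posDef_iff_det_ne_zero.mpr (by
        rw [← RingHom.mapMatrix_apply, ← RingHom.map_det, hdet]; simp)
  exact ⟨hs, fun x hx => h1.dotProduct_mulVec_pos hx, by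
    rw [← Matrix.map_mul, mul_adjugate, hdet]; simp⟩

/-- the theta series. -/
noncomputable def th (B : Matrix (Fin 24) (Fin 24) ℤ) (s : ℂ) : ℂ :=
  ∑' x : Fin 24 → ℤ, cexp (-π * s * (x ⬝ᵥ (B *ᵥ x) : ℤ))

theorem T_eq (s : ℂ) (x : Fin 24 → ℤ) :
    T (B.map (Int.castRingHom ℝ)) s 0 0 x = cexp (-π * s * (x ⬝ᵥ (B *ᵥ x) : ℤ)) := by
  simp only [T, sub_zero, Q_cast, zero_dotProduct, ofReal_zero, mul_zero, add_zero, ofReal_intCast]

variable (h : PD (B.map (Int.castRingHom ℝ)) (B.adjugate.map (Int.castRingHom ℝ)))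
include h

theorem summ {c : ℝ} (hc : 0 < c) :
    Summable fun x : Fin 24 → ℤ => Real.exp (-c * (x ⬝ᵥ (B *ᵥ x) : ℤ)) := by
  simpa only [sub_zero, Q_cast] using h.summ hc 0

theorem th_inv (hdet : B.det = 1) {s : ℂ} (hs : 0 < s.re) : th B s⁻¹ = s ^ 12 * th B s := by
  obtain ⟨r, hr⟩ := h.poisson
  have key : ∀ s : ℂ, 0 < s.re → th B s = r * (s ^ 12)⁻¹ * th B s⁻¹ := fun s hs => by
    have := hr s hs 0
    rw [_root_.one_div_pow, ← cpow_nat_mul, show ((24 : ℕ) : ℂ) * (1 / 2) = (12 : ℕ) by norm_num,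
      cpow_natCast, one_div] at this
    simp only [th, ← T_eq]
    rw [this, ← (Equiv.tsum_eq ⟨(B *ᵥ ·), (B.adjugate *ᵥ ·), fun x => by
      simp [adjugate_mul, hdet], fun x => by simp [mul_adjugate, hdet]⟩ _)]
    refine congrArg _ (tsum_congr fun x => ?_)
    have e : (fun i => ((B *ᵥ x) i : ℝ)) = B.map (Int.castRingHom ℝ) *ᵥ fun i => (x i : ℝ) := by
      ext i; simp [mulVec, dotProduct]
    simp only [T, Equiv.coe_fn_mk, sub_zero, e, h.Q_inv, zero_dotProduct]
  have h1 : th B 1 ≠ 0 := by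
    have := (summ h Real.pi_pos).tsum_pos (fun _ => (Real.exp_pos _).le) 0 (Real.exp_pos _)
    have e := ofReal_tsum (L := .unconditional _) fun x : Fin 24 → ℤ => Real.exp (-π * (x ⬝ᵥ (B *ᵥ x) : ℤ))
    simp only [ofReal_exp, ofReal_mul, ofReal_neg, ofReal_intCast] at e
    simp only [th, mul_one, ← e]
    exact_mod_cast this.ne'
  have h2 := key 1 (by simp)
  simp only [one_pow, inv_one, mul_one] at h2
  have hs0 : s ≠ 0 := by rintro rfl; simp at hs
  rw [key s hs, right_eq_mul₀ h1 |>.mp h2]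
  field_simp

theorem fin (m : ℤ) : {x : Fin 24 → ℤ | x ⬝ᵥ (B *ᵥ x) = m}.Finite :=
  ((summ h one_pos).tendsto_cofinite_zero.eventually
    (gt_mem_nhds (Real.exp_pos (-1 * m)))).subset fun x hx => by
      simp only [Set.mem_compl_iff, Set.mem_ofPred_eq] at hx ⊢
      rw [hx]
      exact lt_irrefl _

theorem hasSum (heven : ∀ x : Fin 24 → ℤ, (2 : ℤ) ∣ x ⬝ᵥ (B *ᵥ x)) (τ : ℍ) :
    HasSum (fun m : ℕ => ({x : Fin 24 → ℤ | x ⬝ᵥ (B *ᵥ x) = 2 * m}.ncard : ℂ) •
      Function.Periodic.qParam 1 τ ^ m) (th B (-I * τ)) := by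
  have h1 : ∀ x : Fin 24 → ℤ, ∀ m : ℕ, (x ⬝ᵥ (B *ᵥ x) / 2).toNat = m ↔ x ⬝ᵥ (B *ᵥ x) = 2 * m :=
    fun x m => by
      have h0 : 0 ≤ x ⬝ᵥ (B *ᵥ x) := by
        by_cases hx : x = 0
        · simp [hx]
        · have := h.pos (fun i => (x i : ℝ)) fun e => hx (funext fun i => by
            simpa using congrFun e i)
          rw [Q_cast] at this
          exact_mod_cast this.le
      have := heven x
      omega
  have h2 := (h.summ_norm (s := -I * τ) (by simpa using τ.im_pos) 0 0).of_norm.hasSum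
  rw [funext (T_eq _)] at h2
  refine ((Equiv.sigmaFiberEquiv fun x : Fin 24 → ℤ =>
    (x ⬝ᵥ (B *ᵥ x) / 2).toNat).hasSum_iff.mpr h2).sigma fun m => ?_
  have e : {x : Fin 24 → ℤ // (x ⬝ᵥ (B *ᵥ x) / 2).toNat = m} ≃
    {x : Fin 24 → ℤ | x ⬝ᵥ (B *ᵥ x) = 2 * m} := Equiv.subtypeEquivRight fun x => h1 x m
  have := (fin h (2 * m)).to_subtype
  have := Finite.of_equiv _ e.symm
  have := Fintype.ofFinite {x : Fin 24 → ℤ // (x ⬝ᵥ (B *ᵥ x) / 2).toNat = m}
  convert hasSum_fintype _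
  rw [Finset.sum_congr rfl (g := fun _ => Function.Periodic.qParam 1 τ ^ m) fun x _ => ?_,
    Finset.sum_const, Finset.card_univ, ← Nat.card_eq_fintype_card, Nat.card_congr e,
    Nat.card_coe_set_eq, Nat.cast_smul_eq_nsmul]
  simp only [Function.comp, Equiv.sigmaFiberEquiv_apply, (h1 _ _).mp x.2,
    Function.Periodic.qParam, ← exp_nat_mul]
  congr 1
  push_cast
  ring

/-- the theta series as a modular form. -/
noncomputable def form (hdet : B.det = 1) (heven : ∀ x : Fin 24 → ℤ, (2 : ℤ) ∣ x ⬝ᵥ (B *ᵥ x)) :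
    ModularForm 𝒮ℒ 12 :=
  have hS : (fun τ : ℍ => th B (-I * τ)) ∣[(12 : ℤ)] ModularGroup.S = fun τ : ℍ => th B (-I * τ) := by
    ext z
    have e : -I * (-(z : ℂ))⁻¹ = (-I * z)⁻¹ := by
      have := z.ne_zero
      field_simp
      simp
    rw [ModularForm.SL_slash_apply, modular_S_smul]
    simp only [coe_mk, e, th_inv h hdet (s := -I * z) (by simpa using z.im_pos),
      ModularGroup.denom_S]
    have := z.ne_zero
    rw [mul_pow, Even.neg_pow (by decide),
      show I ^ 12 = 1 by rw [show 12 = 4 * 3 from rfl, pow_mul, I_pow_four, one_pow]]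
    field_simp
  have hT : (fun τ : ℍ => th B (-I * τ)) ∣[(12 : ℤ)] ModularGroup.T = fun τ : ℍ => th B (-I * τ) := by
    ext z
    have := hasSum h heven ((1 : ℝ) +ᵥ z)
    rw [show Function.Periodic.qParam 1 (((1 : ℝ) +ᵥ z : ℍ) : ℂ) =
      Function.Periodic.qParam 1 z by
        simp [Function.Periodic.qParam, mul_add, exp_add]] at this
    rw [ModularForm.SL_slash_apply, modular_T_smul, this.unique (hasSum h heven z)]
    have : denom ModularGroup.T z = 1 := by
      rw [ModularGroup.denom_apply]; simp [ModularGroup.T]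
    rw [this, _root_.one_zpow, mul_one]
  { toFun := fun τ => th B (-I * τ)
    slash_action_eq' := fun A hA => by
      obtain ⟨A, rfl⟩ := hA
      exact SlashInvariantForm.slash_action_generators_SL2Z hS hT A
    holo' := by
      rw [UpperHalfPlane.mdifferentiable_iff]
      refine DifferentiableOn.congr (f := fun z => th B (-I * z)) (fun z hz => ?_) fun z hz => by
        simp [ofComplex_apply_of_im_pos hz]
      have hU : IsOpen {w : ℂ | z.im / 2 < w.im} := isOpen_lt continuous_const continuous_im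
      have hz' : 0 < z.im / 2 := half_pos hz
      refine ((differentiableOn_tsum_of_summable_norm (summ h (mul_pos Real.pi_pos hz'))
        (fun x => by fun_prop) hU fun x w hw => ?_).differentiableAt
        (hU.mem_nhds (show z.im / 2 < z.im from half_lt_self hz))).differentiableWithinAt
      rw [← T_eq, norm_T, sub_zero, Real.exp_le_exp, ← Q_cast]
      obtain ⟨ε, h1, h2⟩ := h.coer
      have h3 := le_trans (by positivity) (h2 fun i => (x i : ℝ))
      have h4 : z.im / 2 ≤ (-I * w).re := by simpa using le_of_lt hw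
      have := Real.pi_pos
      gcongr
    bdd_at_cusps' := fun hc => by
      rw [Subgroup.IsArithmetic.isCusp_iff_isCusp_SL2Z] at hc
      rw [OnePoint.isBoundedAt_iff_forall_SL2Z hc]
      intro γ _
      rw [SlashInvariantForm.slash_action_generators_SL2Z hS hT]
      exact isBoundedAtImInfty_of_hasSum_qExpansion one_pos (hasSum h heven) }

omit h in
theorem expand (f : ModularForm 𝒮ℒ 12) (h0 : (qExpansion 1 f).coeff 0 = 1)
    (h1 : (qExpansion 1 f).coeff 1 = 0) : (qExpansion 1 f).coeff 2 = 196560 ∧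
      (qExpansion 1 f).coeff 3 = 16773120 ∧ (qExpansion 1 f).coeff 4 = 398034000 := by
  let g : ModularForm 𝒮ℒ 12 := f - ((7 / 12 : ℂ) • ModularForm.mcast (by decide) (E₄.pow 3) +
    (5 / 12 : ℂ) • ModularForm.mcast (by decide) (E₆.pow 2))
  have e : qExpansion 1 g = qExpansion 1 f - ((7 / 12 : ℂ) •
      (qExpansion 1 E₄ * qExpansion 1 E₄ * qExpansion 1 E₄) +
      (5 / 12 : ℂ) • (qExpansion 1 E₆ * qExpansion 1 E₆)) := by
    rw [FunLike.coe_sub, ModularForm.qExpansion_sub one_pos one_mem_strictPeriods_SL,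
      FunLike.coe_add, ModularForm.qExpansion_add one_pos one_mem_strictPeriods_SL,
      FunLike.coe_smul, FunLike.coe_smul,
      ModularForm.qExpansion_smul one_pos one_mem_strictPeriods_SL,
      ModularForm.qExpansion_smul one_pos one_mem_strictPeriods_SL]
    simp only [coe_mcast, ModularForm.qExpansion_pow one_pos one_mem_strictPeriods_SL]
    ring_nf
  have a : ∀ m, (qExpansion 1 E₄).coeff m = if m = 0 then 1 else (240 * σ 3 m : ℂ) := fun m => by
    norm_num [E_qExpansion_coeff _ ⟨2, rfl⟩, show bernoulli 4 = -1 / 30 by decide +kernel]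
  have b : ∀ m, (qExpansion 1 E₆).coeff m = if m = 0 then 1 else (-504 * σ 5 m : ℂ) := fun m => by
    norm_num [E_qExpansion_coeff _ ⟨3, rfl⟩, show bernoulli 6 = 1 / 42 by decide +kernel]
  have s : σ 3 1 = 1 ∧ σ 3 2 = 9 ∧ σ 3 3 = 28 ∧ σ 3 4 = 73 ∧ σ 5 1 = 1 ∧ σ 5 2 = 33 ∧
      σ 5 3 = 244 ∧ σ 5 4 = 1057 := by decide +kernel
  have hg : g = 0 := sturm_bound_levelOne (lt_of_lt_of_le (by norm_num; rfl)
    (PowerSeries.nat_le_order _ 2 fun i hi => by
      interval_cases i <;>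
        norm_num [e, PowerSeries.coeff_mul, Finset.Nat.antidiagonal_succ, a, b, s, h0, h1,
          -PowerSeries.coeff_zero_eq_constantCoeff]))
  rw [hg, FunLike.coe_zero, qExpansion_zero, eq_comm, sub_eq_zero] at e
  refine ⟨?_, ?_, ?_⟩ <;>
    norm_num [e, PowerSeries.coeff_mul, Finset.Nat.antidiagonal_succ, a, b, s,
      -PowerSeries.coeff_zero_eq_constantCoeff]

omit h

/-- An even unimodular lattice of rank 24 without roots has 196560, 16773120 and 398034000 vectors of norms 4, 6 and 8. -/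
theorem result (B : Matrix (Fin 24) (Fin 24) ℤ) (hsymm : B.IsSymm) (hpos : ∀ x : Fin 24 → ℤ, x ≠ 0 → 0 < x ⬝ᵥ (B *ᵥ x)) (heven : ∀ x : Fin 24 → ℤ, (2 : ℤ) ∣ x ⬝ᵥ (B *ᵥ x)) (hdet : B.det = 1) (h2 : ∀ x : Fin 24 → ℤ, x ⬝ᵥ (B *ᵥ x) ≠ 2) : {x : Fin 24 → ℤ | x ⬝ᵥ (B *ᵥ x) = 4}.ncard = 196560 ∧ {x : Fin 24 → ℤ | x ⬝ᵥ (B *ᵥ x) = 6}.ncard = 16773120 ∧ {x : Fin 24 → ℤ | x ⬝ᵥ (B *ᵥ x) = 8}.ncard = 398034000 := by
  have h := pd hsymm hpos hdet
  have c := ModularFormClass.qExpansion_coeff_unique (f := form h hdet heven) one_pos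
    one_mem_strictPeriods_SL (hasSum h heven)
  have := expand (form h hdet heven) (by
    rw [← c, show {x : Fin 24 → ℤ | x ⬝ᵥ (B *ᵥ x) = 2 * (0 : ℕ)} = {0} from Set.ext fun x =>
      ⟨fun e => by_contra fun hx => (hpos x hx).ne' e, fun e => by simp [show x = 0 from e]⟩]
    simp) (by
    rw [← c, show {x : Fin 24 → ℤ | x ⬝ᵥ (B *ᵥ x) = 2 * (1 : ℕ)} = ∅ from
      Set.eq_empty_of_forall_notMem h2]
    simp)
  rw [← c, ← c, ← c] at this
  exact_mod_cast this

end Cfsg.Agent.S1632
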