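import Cfsg.Statements.S1633
import Mathlib
import Cfsg.Agent.H18.CU35

set_option autoImplicit false
open Cfsg

namespace Cfsg.Agent.S1633

open H25 H25.Leech

/-- The Higman–Sims group acts transitively on 352 vectors, a set closed under x ↦ −w − x, with vector stabiliser isomorphic to PSU(3, 5). -/
theorem result (v w : ↥Cfsg.leechLattice) (hv : Cfsg.sqNorm (v : Cfsg.GolayPt → ℤ) = 48) (hw : Cfsg.sqNorm (w : Cfsg.GolayPt → ℤ) = 48) (hvw : Cfsg.dotInt (v : Cfsg.GolayPt → ℤ) (w : Cfsg.GolayPt → ℤ) = -32) (F : Type) [Field F] [Fintype F] (hF : Fintype.card F = 25) : {x : ↥Cfsg.leechLattice | Cfsg.sqNorm (x : Cfsg.GolayPt → ℤ) = 32 ∧ Cfsg.dotInt (v : Cfsg.GolayPt → ℤ) (x : Cfsg.GolayPt → ℤ) = 16 ∧ Cfsg.dotInt (w : Cfsg.GolayPt → ℤ) (x : Cfsg.GolayPt → ℤ) = -24}.ncard = 352 ∧ (∀ x ∈ {x : ↥Cfsg.leechLattice | Cfsg.sqNorm (x : Cfsg.GolayPt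 → ℤ) = 32 ∧ Cfsg.dotInt (v : Cfsg.GolayPt → ℤ) (x : Cfsg.GolayPt → ℤ) = 16 ∧ Cfsg.dotInt (w : Cfsg.GolayPt → ℤ) (x : Cfsg.GolayPt → ℤ) = -24}, -w - x ∈ {x : ↥Cfsg.leechLattice | Cfsg.sqNorm (x : Cfsg.GolayPt → ℤ) = 32 ∧ Cfsg.dotInt (v : Cfsg.GolayPt → ℤ) (x : Cfsg.GolayPt → ℤ) = 16 ∧ Cfsg.dotInt (w : Cfsg.GolayPt → ℤ) (x : Cfsg.GolayPt → ℤ) = -24}) ∧ (∀ x ∈ {x : ↥Cfsg.leechLattice | Cfsg.sqNorm (x : Cfsg.GolayPt → ℤ) = 32 ∧ Cfsg.dotInt (v : Cfsg.GolayPt → ℤ) (x : Cfsg.GolayPt → ℤ) = 16 ∧ Cfsg.dotInt (w : Cfsg.GolayPt → ℤ) (x : Cfsg.GolayPt → ℤ) = -24}, ∀ x' ∈ {x : ↥Cfsg.leechLattice | Cfsg.sqNorm (x : Cfsg.GolayPt → ℤ) = 32 ∧ Cfsg.dotInt (v : Cfsg.GolayPt → ℤ) (x : Cfsg.GolayPt → ℤ) = 16 ∧ Cfsg.dotInt (w : Cfsg.GolayPt → ℤ) (x : Cfsg.GolayPt → ℤ) = -24}, ∃ g : ↥Cfsg.Co0, g • v = v ∧ g • w = w ∧ g • x = x') ∧ ∀ x ∈ {x : ↥Cfsg.leechLattice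 | Cfsg.sqNorm (x : Cfsg.GolayPt → ℤ) = 32 ∧ Cfsg.dotInt (v : Cfsg.GolayPt → ℤ) (x : Cfsg.GolayPt → ℤ) = 16 ∧ Cfsg.dotInt (w : Cfsg.GolayPt → ℤ) (x : Cfsg.GolayPt → ℤ) = -24}, Nonempty (↥(MulAction.stabilizer ↥Cfsg.Co0 v ⊓ MulAction.stabilizer ↥Cfsg.Co0 w ⊓ MulAction.stabilizer ↥Cfsg.Co0 x) ≃* Cfsg.PSU 3 F 5) := by
  refine ⟨?_, fun x hx => ?_, ?_⟩
  rotate_left
  · obtain ⟨h1, h2, h3⟩ := hx
    have e : (-w - x).1 = -w.1 - x.1 := rfl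
    simp only [Set.mem_ofPred_eq, e, sq_sub, sq_neg, dot_sub, dot_neg, neg_dot, dot_self]
    omega
  all_goals
    obtain ⟨g, rfl, rfl⟩ := pairHS hv hw hvw
    have key : ∀ x : L, (sqNorm (g • x).1 = 32 ∧ dotInt (g • W).1 (g • x).1 = 16 ∧
        dotInt (g • W').1 (g • x).1 = -24) ↔ x ∈ Cl fun _ b c => b = 8 ∧ c = 16 := fun x => by
      simp only [g_dot, g_sq, Cl, Set.mem_ofPred_eq]
      rw [show dotInt W'.1 x.1 = _ from dtW' x]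
      exact and_congr_right fun _ => by simp only [dt]; omega
  · refine ⟨fun x hx y hy => ?_, fun x hx => ?_⟩
    · obtain ⟨x, rfl⟩ := MulAction.surjective g x
      obtain ⟨y, rfl⟩ := MulAction.surjective g y
      obtain ⟨k, hk, e⟩ := trn K1_Hs fHs _ 50 (by decide +kernel) x ((key x).1 hx) y ((key y).1 hy)
      exact ⟨g * k * g⁻¹, by simp [mul_smul, show k • W = W from hk.2],
        by simp [mul_smul, (smul_W' hk.2).2 hk.1], by simp [mul_smul, e]⟩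
    obtain ⟨x, rfl⟩ := MulAction.surjective g x
    have h0 : R 50 ∈ Cl fun _ b c => b = 8 ∧ c = 16 := by
      obtain ⟨-, a, c⟩ := root_dot (j := 50) (by decide)
      exact ⟨sqR (by norm_num), a.trans (by decide +kernel), c.trans (by decide +kernel)⟩
    obtain ⟨k, hk, rfl⟩ := trn K1_Hs fHs _ 50 (by decide +kernel) _ h0 x ((key x).1 hx)
    have ho : MulAction.orbit Hs (R 50) = Cl fun _ b c => b = 8 ∧ c = 16 :=
      orbit_Cl K1_Hs fHs _ 50 (by decide +kernel) h0 fun k h =>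
        ⟨(g_sq k _).trans h0.1, (dt_fix h.1 _).trans h0.2.1, (dt_fix h.2 _).trans h0.2.2⟩
    have hc := H14.card_eq_orbit_mul_inf Hs (R 50)
    rw [ho, cnt _ (n := 352) (by decide +kernel), card_Hs] at hc
    obtain ⟨f⟩ := H18.CU35.iso hF (fix3 H18.CU35.hfix ptU' ptW ⟨rvc 50 (by decide), rfl⟩)
      (Nat.le_of_mul_le_mul_left (hc.ge.trans_eq (show _ = 352 * 126000 by norm_num)) (by norm_num))
    have e : St W ⊓ St W' ⊓ St (R 50) = Hs ⊓ St (R 50) := Subgroup.ext fun k =>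
      and_congr_left fun _ => ⟨fun h => ⟨(smul_W' h.1).1 h.2, h.1⟩, fun h => ⟨h.2, (smul_W' h.2).2 h.1⟩⟩
    have e2 := stEq3 (g * k) W W' (R 50)
    rw [mul_smul, mul_smul, mul_smul, show k • W = W from hk.2, (smul_W' hk.2).2 hk.1] at e2
    exact ⟨(e2.symm.trans (MulEquiv.subgroupCongr e)).trans f⟩
  · exact (ncard_tr g key).trans (cnt (fun _ b c => b = 8 ∧ c = 16) (by decide +kernel))

end Cfsg.Agent.S1633
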