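import Cfsg.Statements.S1634
import Mathlib
import Cfsg.Agent.H17.LeO

set_option autoImplicit false
open Cfsg

namespace Cfsg.Agent.S1634

open Cfsg.Agent.H17
open scoped commutatorElement

open H25 H25.Leech H17.LeO MulAction

/-- The McLaughlin group acts on 2025 points (minimal vectors orthogonal to v with customary inner product 2 with w) transitively with rank 4 and subdegrees 1, 330, 462, 1232. -/
theorem result (v w : ↥Cfsg.leechLattice) (hv : Cfsg.sqNorm (v : Cfsg.GolayPt → ℤ) = 32) (hw : Cfsg.sqNorm (w : Cfsg.GolayPt → ℤ) = 32) (hvw : Cfsg.dotInt (v : Cfsg.GolayPt → ℤ) (w : Cfsg.GolayPt → ℤ) = -8) : {x : ↥Cfsg.leechLattice | Cfsg.sqNorm (x : Cfsg.GolayPt → ℤ) = 32 ∧ Cfsg.dotInt (v : Cfsg.GolayPt → ℤ) (x : Cfsg.GolayPt → ℤ) = 0 ∧ Cfsg.dotInt (w : Cfsg.GolayPt → ℤ) (x : Cfsg.GolayPt → ℤ) = 16}.ncard =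 2025 ∧ (∀ x ∈ {x : ↥Cfsg.leechLattice | Cfsg.sqNorm (x : Cfsg.GolayPt → ℤ) = 32 ∧ Cfsg.dotInt (v : Cfsg.GolayPt → ℤ) (x : Cfsg.GolayPt → ℤ) = 0 ∧ Cfsg.dotInt (w : Cfsg.GolayPt → ℤ) (x : Cfsg.GolayPt → ℤ) = 16}, ∀ x' ∈ {x : ↥Cfsg.leechLattice | Cfsg.sqNorm (x : Cfsg.GolayPt → ℤ) = 32 ∧ Cfsg.dotInt (v : Cfsg.GolayPt → ℤ) (x : Cfsg.GolayPt → ℤ) = 0 ∧ Cfsg.dotInt (w : Cfsg.GolayPt → ℤ) (x : Cfsg.GolayPt → ℤ) = 16}, ∃ g : ↥Cfsg.Co0, g • v = v ∧ g • w = w ∧ g • x = x') ∧ ∀ x ∈ {x : ↥Cfsg.leechLattice | Cfsg.sqNorm (x : Cfsg.GolayPt → ℤ) = 32 ∧ Cfsg.dotInt (v : Cfsg.GolayPt → ℤ) (x : Cfsg.GolayPt → ℤ) = 0 ∧ Cfsg.dotInt (w : Cfsg.GolayPt → ℤ) (x : Cfsg.GolayPt → ℤ) = 16}, ∃ y₁ ∈ {x : ↥Cfsg.leechLattice | Cfsg.sqNorm (x : Cfsg.GolayPt → ℤ) = 32 ∧ Cfsg.dotInt (v : Cfsg.GolayPt → ℤ) (x : Cfsg.GolayPt → ℤ) = 0 ∧ Cfsg.dotInt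 (w : Cfsg.GolayPt → ℤ) (x : Cfsg.GolayPt → ℤ) = 16}, ∃ y₂ ∈ {x : ↥Cfsg.leechLattice | Cfsg.sqNorm (x : Cfsg.GolayPt → ℤ) = 32 ∧ Cfsg.dotInt (v : Cfsg.GolayPt → ℤ) (x : Cfsg.GolayPt → ℤ) = 0 ∧ Cfsg.dotInt (w : Cfsg.GolayPt → ℤ) (x : Cfsg.GolayPt → ℤ) = 16}, ∃ y₃ ∈ {x : ↥Cfsg.leechLattice | Cfsg.sqNorm (x : Cfsg.GolayPt → ℤ) = 32 ∧ Cfsg.dotInt (v : Cfsg.GolayPt → ℤ) (x : Cfsg.GolayPt → ℤ) = 0 ∧ Cfsg.dotInt (w : Cfsg.GolayPt → ℤ) (x : Cfsg.GolayPt → ℤ) = 16}, (MulAction.orbit ↥(MulAction.stabilizer ↥Cfsg.Co0 v ⊓ MulAction.stabilizer ↥Cfsg.Co0 w ⊓ MulAction.stabilizer ↥Cfsg.Co0 x) y₁).ncard = 330 ∧ (MulAction.orbit ↥(MulAction.stabilizer ↥Cfsg.Co0 v ⊓ MulAction.stabilizer ↥Cfsg.Co0 w ⊓ MulAction.stabilizer ↥Cfsg.Co0 x) y₂).ncard = 462 ∧ (MulAction.orbit ↥(MulAction.stabilizer ↥Cfsg.Co0 v ⊓ MulAction.stabilizer ↥Cfsg.Co0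 w ⊓ MulAction.stabilizer ↥Cfsg.Co0 x) y₃).ncard = 1232 := by
  obtain ⟨g0, rfl, rfl⟩ := pair32 sqU sqA hv hw (d := -8) (by simp) dUA hvw
  have key : ∀ (g : Co0) (x : L), (sqNorm (g • x).1 = 32 ∧ dotInt (g • U).1 (g • x).1 = 0 ∧
      dotInt (g • A).1 (g • x).1 = 16) ↔ x ∈ Cl fun a _ c => a = 0 ∧ c = -16 := fun g x => by
    simp only [g_dot, g_sq, Cl, Set.mem_setOf_eq]
    rw [show dotInt A.1 x.1 = _ from dtA x]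
    exact and_congr_right fun _ => by simp only [dt]; omega
  have tr := trn K1_Mc fMc (fun a _ c => a = 0 ∧ c = -16) 8 (by decide +kernel)
  refine ⟨(ncard_tr g0 (key g0)).trans (cnt (fun a _ c => a = 0 ∧ c = -16) (by decide +kernel)),
    fun x hx y hy => ?_, fun x hx => ?_⟩
  · obtain ⟨x, rfl⟩ := MulAction.surjective g0 x
    obtain ⟨y, rfl⟩ := MulAction.surjective g0 y
    obtain ⟨k, hk, e⟩ := tr x ((key _ x).1 hx) y ((key _ y).1 hy)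
    exact ⟨g0 * k * g0⁻¹, by simp [mul_smul, show k • U = U from hk.1],
      by simp [mul_smul, (smul_A hk.1).2 hk.2], by simp [mul_smul, e]⟩
  obtain ⟨x, rfl⟩ := MulAction.surjective g0 x
  obtain ⟨k0, h0, rfl⟩ := tr U' ⟨sqU', dUU', dWU'⟩ x ((key _ x).1 hx)
  beta_reduce
  rw [← show (g0 * k0) • U = g0 • U by rw [mul_smul, show k0 • U = U from h0.1],
    ← show (g0 * k0) • A = g0 • A by rw [mul_smul, (smul_A h0.1).2 h0.2], ← mul_smul]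
  generalize g0 * k0 = g
  have hK : ∀ k, k ∈ K1 ↔ g * k * g⁻¹ ∈ stabilizer Co0 (g • U) ⊓ stabilizer Co0 (g • A) ⊓
      stabilizer Co0 (g • U') := fun k => by
    simp only [Subgroup.mem_inf, conj_stab]
    exact ⟨fun h => ⟨⟨h.1.1, (smul_A h.1.1).2 h.2⟩, h.1.2⟩, fun h => ⟨⟨h.1.1, h.2⟩, (smul_A h.1.1).1 h.1.2⟩⟩
  have o1 := orb_K1 (d := 0) (r := 29) (by decide +kernel)
  have o2 := orb_K1 (d := 16) (r := 16) (by decide +kernel)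
  have o3 := orb_K1 (d := 8) (r := 68) (by decide +kernel)
  have m : ∀ {d r}, orbit K1 (R r) = Cl (fun a b c => b = d ∧ a = 0 ∧ c = -16) →
      R r ∈ Cl fun a _ c => a = 0 ∧ c = -16 := fun h =>
    ⟨(h.le (mem_orbit_self _)).1, (h.le (mem_orbit_self _)).2.2⟩
  exact ⟨_, (key g _).2 (m o1), _, (key g _).2 (m o2), _, (key g _).2 (m o3),
    (orb_tr g hK _).trans (o1 ▸ cnt _ (by decide +kernel)),
    (orb_tr g hK _).trans (o2 ▸ cnt _ (by decide +kernel)),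
    (orb_tr g hK _).trans (o3 ▸ cnt _ (by decide +kernel))⟩

end Cfsg.Agent.S1634
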