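import Cfsg.Statements.S1636
import Cfsg.Agent.L1.AG

set_option autoImplicit false
open Cfsg

namespace Cfsg.Agent.S1636

open Cfsg.Agent.H14 Finset
open scoped symmDiff

theorem norm_punct (w : GolayPt → ZMod 2) :
    hammingNorm (fun x : ZMod 23 => w (some x)) = ((support₂ w).erase none).card := by
  rw [hammingNorm_eq_card, ← card_image_of_injective _ (Option.some_injective _)]
  congr 1
  ext x
  cases x <;> simp [mem_support₂]

theorem seven_le {w : GolayPt → ZMod 2} (hw : w ∈ golayCode) (h : w ≠ 0) :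
    7 ≤ hammingNorm (fun x : ZMod 23 => w (some x)) := by
  rw [norm_punct]
  have h1 := ag_gcode.min _ (support_mem_gcode.mpr hw) fun e =>
    h (support₂_injective (e.trans support₂_zero.symm))
  have := pred_card_le_card_erase (s := support₂ w) (a := none)
  omega

theorem cnt (P : ℕ → Prop) (p : ℕ → Bool) (hp : ∀ k, p k = true ↔ P k) :
    {u : ZMod 23 → ZMod 2 | u ∈ {u : ZMod 23 → ZMod 2 | ∃ w ∈ golayCode,
      ∀ x : ZMod 23, u x = w (some x)} ∧ P (hammingNorm u)}.ncard =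
      cntLt2 64 64 (fun n => p (pop24 (Nat.land (cw n) 0x7fffff))) := by
  rw [← ncard_gcode (P := fun s => P (s.erase none).card) (p := fun m => p (pop24 (Nat.land m
    0x7fffff))) fun m _ => by
      rw [hp, ← card_inter_gset]
      have : gC.set 0x7fffff = univ.erase none := by decide +kernel
      rw [this, inter_erase, inter_univ]]
  have e1 : {s | s ∈ GCode ∧ P (s.erase none).card} = support₂ '' {w | w ∈ golayCode ∧
      P (hammingNorm fun x : ZMod 23 => w (some x))} := by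
    ext s
    constructor
    · rintro ⟨⟨w, hw, rfl⟩, h⟩; exact ⟨w, ⟨hw, by rwa [norm_punct]⟩, rfl⟩
    · rintro ⟨w, ⟨hw, h⟩, rfl⟩; exact ⟨⟨w, hw, rfl⟩, by rwa [norm_punct] at h⟩
  rw [e1, Set.ncard_image_of_injective _ support₂_injective,
    ← Set.InjOn.ncard_image (f := fun (w : GolayPt → ZMod 2) (x : ZMod 23) => w (some x))]
  · congr 1
    ext u
    constructor
    · rintro ⟨⟨w, hw, e⟩, h⟩
      obtain rfl : u = fun x => w (some x) := funext e
      exact ⟨w, ⟨hw, h⟩, rfl⟩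
    · rintro ⟨w, ⟨hw, h⟩, rfl⟩; exact ⟨⟨w, hw, fun _ => rfl⟩, h⟩
  · intro v hv w hw e
    by_contra hne
    have := seven_le (golayCode.sub_mem hv.1 hw.1) (sub_ne_zero.mpr hne)
    have e' : (fun x : ZMod 23 => (v - w) (some x)) = 0 := by
      ext x; simpa [sub_eq_zero] using congrFun e x
    rw [e', hammingNorm_zero] at this
    omega

/-- The punctured length-23 code has weight distribution 0^1 7^253 8^506 11^1288 12^1288 15^506 16^253 23^1. -/
theorem result : {u : ZMod 23 → ZMod 2 | ∃ w ∈ Cfsg.golayCode, ∀ x : ZMod 23, u x = w (some x)}.ncard = 4096 ∧ {u : ZMod 23 → ZMod 2 | u ∈ {u : ZMod 23 → ZMod 2 | ∃ w ∈ Cfsg.golayCode, ∀ x : ZMod 23, u x = w (some x)} ∧ hammingNorm u = 7}.ncard = 253 ∧ {u : ZMod 23 → ZMod 2 | u ∈ {u : ZMod 23 → ZMod 2 | ∃ w ∈ Cfsg.golayCode, ∀ x : ZMod 23, u x = w (some x)} ∧ hammingNorm u = 8}.ncard = 506 ∧ {u : ZMod 23 → ZMod 2 | u ∈ {u : ZMod 23 → ZMod 2 | ∃ w ∈ Cfsg.golayCode, ∀ x : ZMod 23, u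 x = w (some x)} ∧ hammingNorm u = 11}.ncard = 1288 ∧ {u : ZMod 23 → ZMod 2 | u ∈ {u : ZMod 23 → ZMod 2 | ∃ w ∈ Cfsg.golayCode, ∀ x : ZMod 23, u x = w (some x)} ∧ hammingNorm u = 12}.ncard = 1288 ∧ {u : ZMod 23 → ZMod 2 | u ∈ {u : ZMod 23 → ZMod 2 | ∃ w ∈ Cfsg.golayCode, ∀ x : ZMod 23, u x = w (some x)} ∧ hammingNorm u = 15}.ncard = 506 ∧ {u : ZMod 23 → ZMod 2 | u ∈ {u : ZMod 23 → ZMod 2 | ∃ w ∈ Cfsg.golayCode, ∀ x : ZMod 23, u x = w (some x)} ∧ hammingNorm u = 16}.ncard = 253 ∧ ∀ u ∈ {u : ZMod 23 → ZMod 2 | ∃ w ∈ Cfsg.golayCode, ∀ x : ZMod 23, u x = w (some x)}, u ≠ 0 → 7 ≤ hammingNorm u := by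
  refine ⟨?_, ?_, ?_, ?_, ?_, ?_, ?_, ?_⟩
  · have := cnt (fun _ => True) (fun _ => true) (by simp)
    simp only [and_true, Set.setOf_mem_eq] at this
    exact this.trans (by decide +kernel)
  · exact (cnt (· = 7) (Nat.beq · 7) fun _ => nbeq_iff).trans (by decide +kernel)
  · exact (cnt (· = 8) (Nat.beq · 8) fun _ => nbeq_iff).trans (by decide +kernel)
  · exact (cnt (· = 11) (Nat.beq · 11) fun _ => nbeq_iff).trans (by decide +kernel)
  · exact (cnt (· = 12) (Nat.beq · 12) fun _ => nbeq_iff).trans (by decide +kernel)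
  · exact (cnt (· = 15) (Nat.beq · 15) fun _ => nbeq_iff).trans (by decide +kernel)
  · exact (cnt (· = 16) (Nat.beq · 16) fun _ => nbeq_iff).trans (by decide +kernel)
  · rintro u ⟨w, hw, e⟩ h
    obtain rfl : u = fun x => w (some x) := funext e
    exact seven_le hw fun e => h (by subst e; rfl)

end Cfsg.Agent.S1636
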