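import Cfsg.Statements.S1637
import Cfsg.Agent.S1636

set_option autoImplicit false
open Cfsg

namespace Cfsg.Agent.S1637

open Cfsg.Agent.H14 Finset
open scoped symmDiff

/-- The punctured length-23 code is a perfect 3-error-correcting code: each word of length 23 is within distance 3 of exactly one codeword. -/
theorem result (u : ZMod 23 → ZMod 2) : ∃! c : ZMod 23 → ZMod 2, c ∈ {u : ZMod 23 → ZMod 2 | ∃ w ∈ Cfsg.golayCode, ∀ x : ZMod 23, u x = w (some x)} ∧ hammingDist u c ≤ 3 := by
  have hu : ∀ c c' : ZMod 23 → ZMod 2, (∃ w ∈ golayCode, ∀ x : ZMod 23, c x = w (some x)) ∧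
      hammingDist u c ≤ 3 → (∃ w ∈ golayCode, ∀ x : ZMod 23, c' x = w (some x)) ∧
      hammingDist u c' ≤ 3 → c = c' := by
    rintro c c' ⟨⟨v, hv, e⟩, h⟩ ⟨⟨w, hw, e'⟩, h'⟩
    obtain rfl : c = fun x => v (some x) := funext e
    obtain rfl : c' = fun x => w (some x) := funext e'
    by_contra hne
    have h1 := S1636.seven_le (golayCode.sub_mem hv hw) (sub_ne_zero.mpr fun e => hne (by rw [e]))
    have h2 := hammingDist_triangle_left (fun x => w (some x)) (fun x => v (some x)) u
    rw [hammingDist_eq_hammingNorm, neg_add_eq_sub] at h2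
    have h3 : hammingNorm (fun x : ZMod 23 => (v - w) (some x)) =
      hammingNorm ((fun x => v (some x)) - fun x => w (some x)) := rfl
    omega
  have key : ∀ b : ZMod 2, ∀ v : GolayPt → ZMod 2, (fun p => Option.elim p b u) + v ∈ golayCode →
      hammingNorm (fun x : ZMod 23 => v (some x)) ≤ 3 → ∃! c : ZMod 23 → ZMod 2,
        (∃ w ∈ golayCode, ∀ x : ZMod 23, c x = w (some x)) ∧ hammingDist u c ≤ 3 := by
    intro b v h1 h2
    have : (∃ w ∈ golayCode, ∀ x : ZMod 23, (u + fun x => v (some x)) x = w (some x)) ∧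
        hammingDist u (u + fun x => v (some x)) ≤ 3 := by
      refine ⟨⟨_, h1, fun _ => rfl⟩, ?_⟩
      rw [hammingDist_eq_hammingNorm, neg_add_cancel_left]
      exact h2
    exact ⟨_, this, fun c hc => hu _ _ hc this⟩
  have hle : ∀ v : GolayPt → ZMod 2, hammingNorm (fun x : ZMod 23 => v (some x)) ≤ hammingNorm v :=
    fun v => by rw [S1636.norm_punct, hammingNorm_eq_card]; exact card_erase_le
  obtain ⟨b, hb⟩ : ∃ b : ZMod 2, Odd (support₂ (fun p : GolayPt => Option.elim p b u)).card := by
    have e : support₂ (fun p : GolayPt => Option.elim p 1 u) =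
        insert none (support₂ (fun p : GolayPt => Option.elim p 0 u)) := by
      ext x; cases x <;> simp [mem_support₂]
    rcases Nat.even_or_odd (support₂ (fun p : GolayPt => Option.elim p 0 u)).card with h | h
    · refine ⟨1, ?_⟩
      rw [e, card_insert_of_notMem (by simp [mem_support₂])]
      exact h.add_one
    · exact ⟨0, h⟩
  rcases AG.coset_words (C := golayCode) ag_gcode card_golayPt (fun p => Option.elim p b u) with
    ⟨v, h1, h2⟩ | ⟨h1, h2⟩
  · have : v ∈ ({v} : Set _) := rfl
    rw [← h1] at this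
    exact key b v this.1 ((hle v).trans h2)
  · exfalso
    obtain ⟨v, hv⟩ := Set.nonempty_of_ncard_ne_zero (by rw [h1]; norm_num)
    have h3 := (h2 v hv).1
    have h4 := ag_gcode.even _ (support_mem_gcode.mpr hv.1)
    rw [support₂_add] at h4
    have h5 := card_symmDiff_add (support₂ fun p : GolayPt => Option.elim p b u) (support₂ v)
    rw [hammingNorm_eq_card] at h3
    obtain ⟨k, hk⟩ := h4
    obtain ⟨l, hl⟩ := hb
    omega

end Cfsg.Agent.S1637
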