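import Cfsg.Statements.S1638
import Mathlib
import Cfsg.Agent.H14.M24e

set_option autoImplicit false
open scoped Pointwise
open Cfsg

namespace Cfsg.Agent.S1638

/-- Fix two points p ≠ q and a pair s of two further points. Among the pairs avoiding p, q and disjoint from s, exactly 30 lie in an octad together with p, q and s and exactly 160 do not; and any two pairs other than s that meet s in equally many points and agree on that octad property are carried to one another by an element of the group of the length-24 code fixing p, q and s. -/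
theorem result (p q : Cfsg.GolayPt) (hpq : p ≠ q) (s : Finset Cfsg.GolayPt) (hs : (s.card = 2 ∧ p ∉ s ∧ q ∉ s)) : {t : Finset Cfsg.GolayPt | (t.card = 2 ∧ p ∉ t ∧ q ∉ t) ∧ Disjoint s t ∧ (∃ o ∈ Cfsg.octads, p ∈ o ∧ q ∈ o ∧ s ∪ t ⊆ o)}.ncard = 30 ∧ {t : Finset Cfsg.GolayPt | (t.card = 2 ∧ p ∉ t ∧ q ∉ t) ∧ Disjoint s t ∧ ¬ (∃ o ∈ Cfsg.octads, p ∈ o ∧ q ∈ o ∧ s ∪ t ⊆ o)}.ncard = 160 ∧ ∀ t t' : Finset Cfsg.GolayPt, (t.card = 2 ∧ p ∉ t ∧ q ∉ t) → (t'.card = 2 ∧ p ∉ t' ∧ q ∉ t') → t ≠ s → t' ≠ s → (s ∩ t).card = (s ∩ t').card → ((∃ o ∈ Cfsg.octads, p ∈ o ∧ q ∈ o ∧ s ∪ t ⊆ o) ↔ (∃ o ∈ Cfsg.octads, p ∈ o ∧ q ∈ o ∧ s ∪ t' ⊆ o)) → ∃ g : Equiv.Perm Cfsg.GolayPt, g ∈ Cfsg.M24 ∧ g p = p ∧ g q = q ∧ g • s = s ∧ g • t = t' := by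
  have h' := H14.invDec_pair hpq hs
  refine ⟨?_, ?_, fun t t' h1 h2 _ _ h3 h4 => ?_⟩
  · refine Eq.trans ?_ (h'.count (1, 30) (by simp))
    congr 1
    ext t
    simp only [Set.mem_ofPred_eq]
    rw [Finset.disjoint_iff_inter_eq_empty, ← Finset.card_eq_zero]
    exact and_congr_right fun _ => ⟨fun h => by rw [h.1, H14.ind_eq_one.mpr h.2],
      fun h => ⟨by omega, H14.ind_eq_one.mp (by omega)⟩⟩
  · refine Eq.trans ?_ (h'.count (0, 160) (by simp))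
    congr 1
    ext t
    simp only [Set.mem_ofPred_eq]
    rw [Finset.disjoint_iff_inter_eq_empty, ← Finset.card_eq_zero]
    exact and_congr_right fun _ => ⟨fun h => by rw [h.1, H14.ind_eq_zero.mpr h.2],
      fun h => ⟨by omega, H14.ind_eq_zero.mp (by omega)⟩⟩
  · obtain ⟨k, hk, e⟩ := h'.conj t h1 t' h2 (by rw [h3, H14.ind_congr h4])
    obtain ⟨e1, e2, e3⟩ := H14.mem_stab3.mp hk
    exact ⟨k, k.2, e1, e2, e3, e⟩

end Cfsg.Agent.S1638
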