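import Cfsg.Statements.S1641
import Mathlib
import Cfsg.Agent.H17.LeO

set_option autoImplicit false
open Cfsg

namespace Cfsg.Agent.S1641

open Cfsg.Agent.H17
open scoped commutatorElement

open H25 H25.Leech H17.LeO MulAction

/-- The third Conway group acts on the 11178 cosets of the Higman–Sims group with rank 5 and subdegrees 1, 352, 1100, 4125, 5600. -/
theorem result (u x : ↥Cfsg.leechLattice) (hu : Cfsg.sqNorm (u : Cfsg.GolayPt → ℤ) = 48) (hx : x ∈ {x : ↥Cfsg.leechLattice | Cfsg.sqNorm (x : Cfsg.GolayPt → ℤ) = 32 ∧ Cfsg.dotInt (u : Cfsg.GolayPt → ℤ) (x : Cfsg.GolayPt → ℤ) = -16}) : ∃ y₁ ∈ {x : ↥Cfsg.leechLattice | Cfsg.sqNorm (x : Cfsg.GolayPt → ℤ) = 32 ∧ Cfsg.dotInt (u : Cfsg.GolayPt → ℤ) (x : Cfsg.GolayPt → ℤ) = -16}, ∃ y₂ ∈ {x : ↥Cfsg.leechLattice | Cfsg.sqNorm (x : Cfsg.GolayPt → ℤ) = 32 ∧ Cfsg.dotInt (u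 : Cfsg.GolayPt → ℤ) (x : Cfsg.GolayPt → ℤ) = -16}, ∃ y₃ ∈ {x : ↥Cfsg.leechLattice | Cfsg.sqNorm (x : Cfsg.GolayPt → ℤ) = 32 ∧ Cfsg.dotInt (u : Cfsg.GolayPt → ℤ) (x : Cfsg.GolayPt → ℤ) = -16}, ∃ y₄ ∈ {x : ↥Cfsg.leechLattice | Cfsg.sqNorm (x : Cfsg.GolayPt → ℤ) = 32 ∧ Cfsg.dotInt (u : Cfsg.GolayPt → ℤ) (x : Cfsg.GolayPt → ℤ) = -16}, (MulAction.orbit ↥(MulAction.stabilizer ↥Cfsg.Co0 u ⊓ MulAction.stabilizer ↥Cfsg.Co0 x) y₁).ncard = 352 ∧ (MulAction.orbit ↥(MulAction.stabilizer ↥Cfsg.Co0 u ⊓ MulAction.stabilizer ↥Cfsg.Co0 x) y₂).ncard = 1100 ∧ (MulAction.orbit ↥(MulAction.stabilizer ↥Cfsg.Co0 u ⊓ MulAction.stabilizer ↥Cfsg.Co0 x) y₃).ncard = 4125 ∧ (MulAction.orbit ↥(MulAction.stabilizer ↥Cfsg.Co0 u ⊓ MulAction.stabilizer ↥Cfsg.Co0 x) y₄).ncard = 5600 ∧ {x : ↥Cfsg.leechLattice | Cfsg.sqNorm (x : Cfsg.GolayPt → ℤ) = 32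 ∧ Cfsg.dotInt (u : Cfsg.GolayPt → ℤ) (x : Cfsg.GolayPt → ℤ) = -16} = {x} ∪ MulAction.orbit ↥(MulAction.stabilizer ↥Cfsg.Co0 u ⊓ MulAction.stabilizer ↥Cfsg.Co0 x) y₁ ∪ MulAction.orbit ↥(MulAction.stabilizer ↥Cfsg.Co0 u ⊓ MulAction.stabilizer ↥Cfsg.Co0 x) y₂ ∪ MulAction.orbit ↥(MulAction.stabilizer ↥Cfsg.Co0 u ⊓ MulAction.stabilizer ↥Cfsg.Co0 x) y₃ ∪ MulAction.orbit ↥(MulAction.stabilizer ↥Cfsg.Co0 u ⊓ MulAction.stabilizer ↥Cfsg.Co0 x) y₄ := by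
  obtain ⟨g, rfl, rfl⟩ := pair48 sqW sqU' hu hx.1 (d := -16) (by simp) dWU' hx.2
  have hK : ∀ k, k ∈ Hs ↔ g * k * g⁻¹ ∈ stabilizer Co0 (g • W) ⊓ stabilizer Co0 (g • U') := fun k => by
    simp only [Subgroup.mem_inf, conj_stab, and_comm]
  have o1 := orb_Hs' (d := -8) (r := 43) (by decide +kernel)
  have o2 := orb_Hs' (d := 16) (r := 12) (by decide +kernel)
  have o3 := orb_Hs' (d := 0) (r := 17) (by decide +kernel)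
  have o4 := orb_Hs' (d := 8) (r := 36) (by decide +kernel)
  have m : ∀ {d r}, orbit Hs (R r) = Cl (fun _ b c => b = d ∧ c = -16) →
      g • R r ∈ {x : L | sqNorm x.1 = 32 ∧ dotInt (g • W).1 x.1 = -16} := fun h =>
    ⟨(g_sq _ _).trans (h.le (mem_orbit_self _)).1, (g_dot _ _ _).trans (h.le (mem_orbit_self _)).2.2⟩
  refine ⟨_, m o1, _, m o2, _, m o3, _, m o4, (orb_tr g hK _).trans (o1 ▸ cnt _ (by decide +kernel)),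
    (orb_tr g hK _).trans (o2 ▸ cnt _ (by decide +kernel)),
    (orb_tr g hK _).trans (o3 ▸ cnt _ (by decide +kernel)),
    (orb_tr g hK _).trans (o4 ▸ cnt _ (by decide +kernel)), Set.ext fun z => ?_⟩
  obtain ⟨z, rfl⟩ := MulAction.surjective g z
  beta_reduce
  simp only [Set.mem_union, orbit_conj g hK, o1, o2, o3, o4, Set.mem_singleton_iff, smul_left_cancel_iff,
    Set.mem_setOf_eq, g_sq, g_dot, Cl]
  refine ⟨fun ⟨a, b⟩ => ?_, ?_⟩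
  · have := of_all (fun _ b c => c = -16 → b = 32 ∨ b = -8 ∨ b = 16 ∨ b = 0 ∨ b = 8) (by decide +kernel) a b
    have := eq_of_dt sqU' a
    tauto
  · rintro ((((rfl | h) | h) | h) | h)
    exacts [⟨sqU', dWU'⟩, ⟨h.1, h.2.2⟩, ⟨h.1, h.2.2⟩, ⟨h.1, h.2.2⟩, ⟨h.1, h.2.2⟩]

end Cfsg.Agent.S1641
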