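import Cfsg.Statements.S1642
import Mathlib
import Cfsg.Agent.H25.Co2

set_option autoImplicit false
open Cfsg

namespace Cfsg.Agent.S1642

open scoped commutatorElement

open H25 H25.Leech MulAction

/-- a dodecad vector -/
def v0 : L := ⟨_, two_ic_mem (C := H14.d0) H14.d0_mem.1⟩
/-- a second dodecad vector -/
def w0 : L := -v0 + ⟨_, four_mem (y := ic {some 0, some 1}) (by decide +kernel)⟩

theorem aux : ∃ (v w : L) (g : Co0), sqNorm v.1 = 48 ∧ sqNorm w.1 = 48 ∧ dt v w = -32 ∧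
    g • v = v ∧ g • w = w ∧ orderOf g = 2 ∧ ∀ x : L, dotInt v.1 x.1 = 24 → g • x ≠ x := by
  have hd : H14.d0 ∈ H14.GCode := H14.d0_mem.1
  have hc := H14.compl_mem_gcode hd
  have val : ∀ (x : L) i, (mon 1 ⟨_, hc⟩ • x).1 i = if i ∈ H14.d0 then x.1 i else -x.1 i := fun x i => by
    have := mon_apply 1 ⟨_, hc⟩ x i
    by_cases h : i ∈ H14.d0 <;> simpa [h] using this
  have fx : ∀ x : L, (∀ i, i ∉ H14.d0 → x.1 i = 0) → mon 1 ⟨_, hc⟩ • x = x := fun x h =>
    Subtype.ext (funext fun i => by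
      rw [val]
      split_ifs with hi
      · rfl
      · rw [h i hi]; rfl)
  refine ⟨v0, w0, mon 1 ⟨_, hc⟩, by decide +kernel, by decide +kernel, by decide +kernel,
    fx _ (by decide +kernel), fx _ (by decide +kernel), orderOf_eq_prime ?_ fun h => ?_,
    fun x hx h => ?_⟩
  · refine co_ext fun v => Subtype.ext (funext fun i => ?_)
    rw [sq, mul_smul, val, val, one_smul]
    split_ifs <;> simp
  · have := val (e8 none) none
    rw [h, one_smul, if_neg (by decide +kernel), e8_val, if_pos rfl] at this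
    omega
  · have z : ∀ i, i ∉ H14.d0 → x.1 i = 0 := fun i hi => by
      have := val x i
      rw [h, if_neg hi] at this
      omega
    obtain ⟨m, C, -, h1, h2⟩ := mem_iff.1 x.2
    have h3 := h1 none
    rw [z none (by decide +kernel)] at h3
    have : dotInt ((2 : ℤ) • ic H14.d0) x.1 = 2 * ∑ i, x.1 i := by
      rw [dotInt, Finset.mul_sum]
      refine Finset.sum_congr rfl fun i _ => ?_
      by_cases hi : i ∈ H14.d0
      · simp [ic, hi]
      · simp [z i hi]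
    have hx' : dotInt ((2 : ℤ) • ic H14.d0) x.1 = 24 := hx
    omega

/-- Some involution of the Higman–Sims group acts without fixed points on its 100 points. -/
theorem result (v w : ↥Cfsg.leechLattice) (hv : Cfsg.sqNorm (v : Cfsg.GolayPt → ℤ) = 48) (hw : Cfsg.sqNorm (w : Cfsg.GolayPt → ℤ) = 48) (hvw : Cfsg.dotInt (v : Cfsg.GolayPt → ℤ) (w : Cfsg.GolayPt → ℤ) = -32) : ∃ g : ↥Cfsg.Co0, g • v = v ∧ g • w = w ∧ orderOf g = 2 ∧ ∀ x ∈ {x : ↥Cfsg.leechLattice | Cfsg.sqNorm (x : Cfsg.GolayPt → ℤ) = 32 ∧ Cfsg.dotInt (v : Cfsg.GolayPt → ℤ) (x : Cfsg.GolayPt → ℤ) = 24 ∧ Cfsg.dotInt (w : Cfsg.GolayPt → ℤ) (x : Cfsg.GolayPt → ℤ) = -24}, g • x ≠ x := by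
  obtain ⟨v0, w0, g0, a, b, c, h1, h2, h3, h4⟩ := aux
  obtain ⟨p, p1, p2⟩ := pairHS a b c
  obtain ⟨q, rfl, rfl⟩ := pairHS hv hw hvw
  have e1 : (q * p⁻¹) • v0 = q • W := by rw [← p1, mul_smul, inv_smul_smul]
  have e2 : (q * p⁻¹) • w0 = q • W' := by rw [← p2, mul_smul, inv_smul_smul]
  rw [← e1, ← e2]
  generalize q * p⁻¹ = g
  refine ⟨g * g0 * g⁻¹, by simp [mul_smul, h1], by simp [mul_smul, h2], ?_, fun x hx h => ?_⟩
  · rw [← h3, ← MulAut.conj_apply, MulEquiv.orderOf_eq]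
  · obtain ⟨x, rfl⟩ := MulAction.surjective g x
    refine h4 x ((g_dot g _ _).symm.trans hx.2.1) (MulAction.injective g ?_)
    simpa [mul_smul] using h

end Cfsg.Agent.S1642
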