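import Cfsg.Statements.S1643
import Cfsg.Agent.L1.Inv
import Cfsg.Agent.L1.Iso
import Cfsg.Agent.L1.Fix

set_option autoImplicit false
open scoped Pointwise
open Cfsg

namespace Cfsg.Agent.S1643

open Cfsg.Agent.H14 MulAction
open scoped Pointwise

/-- the table of `x ↦ 2 x`. -/
def tM : ℕ := 0xbd6717b56939461b52507314831040

/-- the Frobenius group of order 253. -/
noncomputable def H : CSub A24 := CSub.small A24 [tTr, tM]
    [0xbdab49ca307b9ac5a928398a418820, 0xbd6717b56939461b52507314831040,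
    0xbcdeb38ed2728c2ac5a92869062080, 0xbbcf671aad2d1849ac7250a290c100,
    0xb9dd52b263544287d8cda117212600, 0xbb8b3505e6a2c503d5838a2cd24920,
    0xb954fa08ec8d88974c265c2a343640, 0xbaa87891c15d5122bc4cb266680da0,
    0xbd22e5a0a2b4e0d51c81ac9ec49860, 0xbc565b4144abd23a39029b4e1930c0,
    0xbaecaaa68899e468960478dc268580, 0xb82d5a4e5183dcd62d4941cc520c41,
    0xbda928398a41882056717b56939461, 0xbd20c410137ace3b49ca30ab16a4a1,
    0xbc10079ece355a5a309358e4a14521, 0xba1f6336845c849800eea95931aa21,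
    0xbbcd458a07ab071459a49240e2cd41, 0xb9970a8d0d900aa7d047646c44ba61,
    0xbaea8915e2659333406d02a87891c1, 0xbd64f624c30522e5a0a2b4e0d51c81,
    0xbc98604565b4144abd23a39029b4e1, 0xbb00bb2aa9a226791a25811e3709a1,
    0xb8416ad2728c1ee6b16a4a0e629062, 0xb82b38bdab49ca30da928398a41882,
    0xbd62d494348310404deb38ed2728c2, 0xbc5218200f3d9c6ab4b46126b1c942,
    0xba6003baa564c6a8850fb19b422e42, 0xbc0f560e28b3492481c59a82f35162,
    0xb9d91b112e984cb854686c80553e82, 0xbb2c999a03681543c48e0aea8915e2,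
    0xbda706a8e40d64f624c30522e5a0a2, 0xbcda70c98604565b4144abd23a3902,
    0xbb42c02ecaaa68899e468960478dc2, 0xb8820b56939460f7358b5250731483,
    0xb86d4941cc520c4102b38bdab49ca3, 0xbda4e518558b5250d20c410137ace3,
    0xbc9428a430401e7b38d56968c24d63, 0xbaa2143ec66d08b9093001dd52b263,
    0xbc51669249038b3505e6a2c503d583, 0xba1b20154fa08ec8d88974c265c2a3,
    0xbb40aa1e2470575448af132c999a03, 0xb829172d0515a706a8e40d64f624c3,
    0xbd1c814da70c98604565b4144abd23, 0xbb84d0b00bb2aa9a226791a25811e3,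
    0xb8c4105ab49ca307b9ac5a928398a4, 0xb88159c5ed5a4e5186d4941cc520c4,
    0xb826f59c76939461562d4943483104, 0xbcd63928514860803cf671aad2d184,
    0xbae424c007754ac98d510a1f633684, 0xbc9207166a0bcd458a07ab071459a4,
    0xba5d309970a8d0d900aa7d047646c4, 0xbb82baa245789964ccd01b40aa1e24,
    0xb86b27b1261829172d0515a706a8e4, 0xbd5e91d1c814da70c98604565b4144,
    0xbbc6e1342c02ecaaa68899e4689604, 0xb9062082d5a4e5183dcd62d4941cc5,
    0xb8c36a4a0e62906208159c5ed5a4e5, 0xb8690620809bd671da4e518558b525,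
    0xbd1849ac7250a290c10079ece355a5, 0xbb263544287d8cda1172126003baa5,
    0xbcd4179a8b140f560e28b3492481c5, 0xba9f411d91b112e984cb854686c805,
    0xbbc4cb266680da0550f12382baa245, 0xb8ad383547206b27b1261829172d05,
    0xbda0a255e91d1c814da70c98604565, 0xbc08f1b84d0b00bb2aa9a226791a25,
    0xb948310416ad2728c1ee6b16a4a0e6, 0xb9040ace2f6ad2728c36a4a0e62906,
    0xb8ab16a4a1a41882026f59c7693946, 0xbd5a5a309358e4a145218200f3d9c6,
    0xbb6845c849800eea95931aa2143ec6, 0xbd16281eac1c51669249038b3505e6,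
    0xbae151a1b20154fa08ec8d88974c26, 0xbc06d02a87891c15d5122bc4cb2666,
    0xb8c148b96828ad383547206b27b126, 0xb822b2da0a255e91d1c814da70c986,
    0xbc4b023c6e1342c02ecaaa68899e46, 0xb98a418820b56939460f7358b52507,
    0xb9461b52507314831040ace2f6ad27, 0xb8ed2728c2ac5a928690620809bd67,
    0xbd9c6ab4b46126b1c9428a430401e7, 0xbbaa564c6a8850fb19b422e424c007,
    0xbd5838a2cd249207166a0bcd458a07, 0xbb236225d309970a8d0d900aa7d047,
    0xbc48e0aea8915e2659333406d02a87, 0xb903593d8930c148b96828ad383547,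
    0xb864c3022b2da0a255e91d1c814da7, 0xbc8d12c08f1b84d0b00bb2aa9a2267,
    0xb9cc520c4105ab49ca307b9ac5a928, 0xb9882056717b56939461b525073148,
    0xb90137ace3b49ca30ab16a4a1a4188, 0xb81e7b38d56968c24d639285148608,
    0xbbec66d08b9093001dd52b26354428, 0xbd9a49240e2cd4179a8b140f560e28,
    0xbb6402a9f411d91b112e984cb85468, 0xbc8af132c999a03681543c48e0aea8,
    0xb94569c1aa3903593d8930c148b968, 0xb8a6d3864c3022b2da0a255e91d1c8,
    0xbccf2344b023c6e1342c02ecaaa688, 0xba0e629062082d5a4e5183dcd62d49,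
    0xb9ca30da928398a41882056717b569, 0xb94348310404deb38ed2728c2ac5a9,
    0xb860803cf671aad2d1849ac7250a29, 0xbc007754ac98d510a1f6336845c849,
    0xb81c59a82f3516281eac1c51669249, 0xbba6132e151a1b20154fa08ec8d889,
    0xbccd01b40aa1e2470575448af132c9, 0xb9860a45cb414569c1aa3903593d89,
    0xb8e8e40a6d3864c3022b2da0a255e9, 0xbd1133c8d12c08f1b84d0b00bb2aa9,
    0xba5073148310416ad2728c1ee6b16a, 0xba0c4102b38bdab49ca30da928398a,
    0xb98558b5250d20c410137ace3b49ca, 0xb8a290c10079ece355a5a309358e4a,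
    0xbc4287d8cda1172126003baa564c6a, 0xb85e6a2c503d5838a2cd249207166a,
    0xbbe823b236225d309970a8d0d900aa, 0xbd0f12382baa245789964ccd01b40a,
    0xb9c81ac9ec49860a45cb414569c1aa, 0xb92af48e8e40a6d3864c3022b2da0a,
    0xbd53444cf2344b023c6e1342c02eca, 0xba928398a418820b56939460f7358b,
    0xba4e5186d4941cc520c4102b38bdab, 0xb9c76939461562d494348310404deb,
    0xb8e4a145218200f3d9c6ab4b46126b, 0xbc849800eea95931aa2143ec66d08b,
    0xb8a07ab071459a49240e2cd4179a8b, 0xbc2a3436402a9f411d91b112e984cb,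
    0xbd5122bc4cb266680da0550f12382b, 0xba0a2b4e0d51c81ac9ec49860a45cb,
    0xb96d0512af48e8e40a6d3864c3022b, 0xbd9554d1133c8d12c08f1b84d0b00b,
    0xbad4941cc520c4105ab49ca307b9ac, 0xba906208159c5ed5a4e5186d4941cc,
    0xba0809bd671da4e518558b5250d20c, 0xb926b1c9428a430401e7b38d56968c,
    0xbcc6a8850fb19b422e424c007754ac, 0xb8e28b3492481c59a82f3516281eac,
    0xbc6c44ba6132e151a1b20154fa08ec, 0xbd9333406d02a87891c15d5122bc4c,
    0xba4c30522e5a0a2b4e0d51c81ac9ec, 0xb9811596d0512af48e8e40a6d3864c,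
    0xb81765553444cf2344b023c6e1342c, 0xbb16a4a0e629062082d5a4e5183dcd,
    0xbad2728c36a4a0e62906208159c5ed, 0xba4a1a41882026f59c76939461562d,
    0xb968c24d63928514860803cf671aad, 0xbd08b9093001dd52b263544287d8cd,
    0xb9249038b3505e6a2c503d5838a2cd, 0xbc80553e823b236225d309970a8d0d,
    0xb81543c48e0aea8915e2659333406d, 0xba8e40d64f624c30522e5a0a2b4e0d,
    0xb9c3261811596d0512af48e8e40a6d, 0xb85805d9554d1133c8d12c08f1b84d,
    0xbb58b525073148310416ad2728c1ee, 0xbb14831040ace2f6ad2728c36a4a0e,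
    0xba8c2ac5a928690620809bd671da4e, 0xb9aad2d1849ac7250a290c10079ece,
    0xbd4ac98d510a1f6336845c849800ee, 0xb966a0bcd458a07ab071459a49240e,
    0xbcc265c2a3436402a9f411d91b112e, 0xb8575448af132c999a03681543c48e,
    0xbad0515a706a8e40d64f624c30522e, 0xba05369c3261811596d0512af48e8e,
    0xb89a1601765553444cf2344b023c6e, 0xbb9ac5a928398a418820b56939460f,
    0xbb56939461b52507314831040ace2f, 0xbace3b49ca30ab16a4a1a41882026f,
    0xb9ece355a5a309358e4a145218200f, 0xbd8cda1172126003baa564c6a8850f,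
    0xb9a8b140f560e28b3492481c59a82f, 0xbd047646c44ba6132e151a1b20154f,
    0xb89964ccd01b40aa1e2470575448af, 0xbb1261829172d0515a706a8e40d64f,
    0xba4747205369c3261811596d0512af, 0xb8dc2685805d9554d1133c8d12c08f,
    0xbbdcd62d4941cc520c4105ab49ca30, 0xbb98a41882056717b56939461b5250,
    0xbb10404deb38ed2728c2ac5a928690, 0xba00f3d9c6ab4b46126b1c9428a430,
    0xb80eea95931aa2143ec66d08b90930, 0xb9eac1c51669249038b3505e6a2c50,
    0xbd4686c80553e823b236225d309970, 0xb8da0550f12382baa245789964ccd0,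
    0xbb547206b27b1261829172d0515a70, 0xba8957a4747205369c3261811596d0,
    0xb91e3709a1601765553444cf2344b0, 0xbc1ee6b16a4a0e629062082d5a4e51,
    0xbbdab49ca30da928398a4188205671, 0xbb5250d20c410137ace3b49ca30ab1,
    0xba430401e7b38d56968c24d6392851, 0xb850fb19b422e424c007754ac98d51,
    0xba2cd249207166a0bcd458a07ab071, 0xbd88974c265c2a3436402a9f411d91,
    0xb91c15d5122bc4cb266680da0550f1, 0xbb96828ad383547206b27b12618291,
    0xbacb6828957a4747205369c3261811, 0xb960478dc2685805d9554d1133c8d1,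
    0xbc60f7358b525073148310416ad272, 0xbc1cc520c4102b38bdab49ca30da92,
    0xbb9461562d494348310404deb38ed2, 0xba8514860803cf671aad2d1849ac72,
    0xb893001dd52b263544287d8cda1172, 0xba40e2cd4179a8b140f560e28b3492,
    0xb80aa7d047646c44ba6132e151a1b2, 0xb95e2659333406d02a87891c15d512,
    0xbbd8930c148b96828ad383547206b2, 0xbb0c08acb6828957a4747205369c32,
    0xb9a25811e3709a1601765553444cf2, 0xbca307b9ac5a928398a418820b5693,
    0xbc5ed5a4e5186d4941cc520c4102b3, 0xbbd671da4e518558b5250d20c41013,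
    0xbac7250a290c10079ece355a5a3093, 0xb8d510a1f6336845c849800eea9593,
    0xba82f3516281eac1c51669249038b3, 0xb84cb854686c80553e823b236225d3,
    0xb9a03681543c48e0aea8915e265933, 0xbc1aa3903593d8930c148b96828ad3,
    0xbb4e1930c08acb6828957a47472053, 0xb9e468960478dc2685805d9554d113,
    0xbce5183dcd62d4941cc520c4105ab4, 0xbca0e62906208159c5ed5a4e5186d4,
    0xbc1882026f59c76939461562d49434, 0xbb09358e4a145218200f3d9c6ab4b4,
    0xb9172126003baa564c6a8850fb19b4, 0xbac503d5838a2cd249207166a0bcd4,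
    0xb88ec8d88974c265c2a3436402a9f4, 0xb9e2470575448af132c999a0368154,
    0xbc5cb414569c1aa3903593d8930c14, 0xbb9029b4e1930c08acb6828957a474,
    0xba26791a25811e3709a16017655534, 0xbd2728c1ee6b16a4a0e629062082d5,
    0xbce2f6ad2728c36a4a0e6290620815, 0xbc5a928690620809bd671da4e51855,
    0xbb4b46126b1c9428a430401e7b38d5, 0xb95931aa2143ec66d08b9093001dd5,
    0xbb071459a49240e2cd4179a8b140f5, 0xb8d0d900aa7d047646c44ba6132e15,
    0xba245789964ccd01b40aa1e2470575, 0xbc9ec49860a45cb414569c1aa39035,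
    0xbbd23a39029b4e1930c08acb682895, 0xba68899e468960478dc2685805d955,
    0xbd6939460f7358b525073148310416, 0xbd2507314831040ace2f6ad2728c36,
    0xbc9ca30ab16a4a1a41882026f59c76, 0xbb8d56968c24d63928514860803cf6,
    0xb99b422e424c007754ac98d510a1f6, 0xbb492481c59a82f3516281eac1c516,
    0xb912e984cb854686c80553e823b236, 0xba66680da0550f12382baa24578996,
    0xbce0d51c81ac9ec49860a45cb41456, 0xbc144abd23a39029b4e1930c08acb6,
    0xbaaa9a226791a25811e3709a160176]
    253 (by decide +kernel)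

/-- its kernel. -/
noncomputable def P : CSub A24 :=
  CSub.cyc A24 tTr 23 [(0, [tTr])] (by decide +kernel)

/-- programs that produce a fixed involution. -/
def progs : List (ℕ × List (ℕ × ℕ)) :=
  [(0xbcc8cb2a265b8f47c9096c0b518820, []), (0xba64d4562f83a87312d362caa18820, [(0, 0), (0, 3), (0,
    2), (0, 4), (0, 6), (0, 0), (0, 0), (8, 8), (0, 0), (0, 2), (2, 11), (0, 0), (0, 13), (3, 0)]),
    (0xba1474922b3398d85676a3cb218820, [(1, 1), (0, 2), (0, 3), (0, 5), (0, 5), (0, 6), (0, 7), (0,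
    9), (0, 0), (0, 0), (11, 0), (8, 12), (0, 0), (2, 0)]), (0xb9e086be3593a6952d94b10a618820, [(1,
    1), (0, 2), (0, 3), (0, 4), (0, 5), (0, 7), (0, 6), (0, 8), (0, 0), (0, 0), (5, 0), (0, 7)]),
    (0xbb4c93ae2453ac893e8c9d4b018820, [(1, 1), (0, 2), (0, 3), (0, 3), (0, 6), (0, 6), (0, 7), (0,
    8), (0, 0), (6, 6), (0, 1), (0, 9)]), (0xbb1f3a4232ab916218ed4a8ab18820, [(1, 0), (0, 2), (0,
    4), (0, 3), (0, 0), (0, 1), (0, 0), (0, 3), (9, 9), (0, 10), (0, 2), (2, 2), (0, 0), (2, 0)]),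
    (0xbd17661a2a23933ac1a7448af18820, [(1, 1), (0, 1), (0, 4), (0, 4), (0, 5), (0, 7), (0, 6), (0,
    9), (0, 0), (0, 0), (9, 0), (10, 10), (0, 0), (0, 14), (3, 0)]),
    (0xbbd8459e29b39559b606920b418820, [(2, 0), (0, 3), (0, 2), (0, 3), (0, 4), (0, 0), (0, 0), (8,
    0), (9, 9), (0, 0), (0, 11), (0, 0), (4, 0)]), (0xbae957b6289ba44b1cd0524ac18820, [(0, 2), (0,
    1), (0, 0), (0, 1), (0, 0), (0, 3), (7, 7), (0, 0), (0, 9), (0, 0), (0, 4), (0, 12)]),
    (0xbc0ea332364b892451ebaccad18820, [(1, 0), (0, 2), (0, 3), (0, 4), (0, 6), (0, 6), (0, 7), (0,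
    0), (0, 1), (0, 0), (0, 3)]), (0xb99b28523343aaa4b16f258a718820, [(0, 1), (0, 3), (0, 2), (0,
    4), (0, 4), (0, 6), (0, 0), (0, 1), (0, 0), (0, 3), (11, 11), (0, 0), (0, 13), (0, 3), (3, 15),
    (0, 0), (2, 0)]), (0xbc92655a2c3b9706cea47d0a818820, [(2, 0), (0, 1), (0, 2), (0, 4), (0, 6),
    (0, 5), (0, 8), (0, 8), (0, 0), (0, 1), (10, 10), (0, 0), (0, 2), (1, 1), (0, 14), (0, 0), (0,
    16), (4, 0)]), (0xba91094e346b9e63d8955b0a918820, [(2, 0), (0, 1), (0, 4), (0, 3), (0, 6), (0,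
    6), (0, 0), (0, 1)]), (0xbd6cb22627638cfa224a834b318820, [(0, 2), (0, 2), (0, 3), (0, 3), (0,
    4), (0, 5), (0, 0), (0, 1), (0, 0), (0, 3), (11, 11), (0, 0), (0, 0), (0, 3), (3, 15), (1, 0)]),
    (0xb926faa22da3a0b6255231cb618820, [(0, 1), (0, 2), (0, 2), (0, 4), (0, 4), (0, 7), (0, 0), (0,
    0), (8, 8), (0, 9), (0, 0), (0, 3), (3, 3), (0, 0), (0, 0), (0, 15), (4, 0)])]

theorem H_le : H.K ≤ S23s.K := S23s.le_of_test H (by decide +kernel)

theorem orb : orbit H.K o0 = {x | x ∈ octads ∧ (none : GolayPt) ∈ x} :=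
  orbit_eq_of_ncard (orbit_subset_of_inv ⟨o0_mem, by decide⟩ fun g hg x hx =>
    ⟨(m24_smul_octads g).mpr hx.1, (mem_of_stab (H_le hg)).mpr hx.2⟩) (Set.toFinite _) (by
    rw [ncard_of_orbit mC compat_mC isCW_o0 orbit_o0 (q := fun c => tb c 23) (fuel := 760)
      (n := 253) (fun c _ => none_mem_gset.symm) (by decide +kernel)]
    exact (H.orbit_ncard mC compat_mC (fuel := 254) isCW_o0 (by decide +kernel)).ge)

theorem of_even {L : Subgroup M24} (h1 : H.K ≤ L) (h2 : L ≤ S23s.K) (h : 2 ∣ Nat.card L) :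
    L = S23s.K := by
  obtain ⟨⟨t, ht⟩, ho⟩ := exists_prime_orderOf_dvd_card' 2 h
  rw [Subgroup.orderOf_mk] at ho
  have h3 : fixP t ∈ orbit H.K o0 :=
    orb ▸ ⟨inv_fix_octad ho (h2 ht), mem_fixP.mpr (h2 ht)⟩
  obtain ⟨k, hk, e⟩ := exists_smul_of_mem_orbit h3 (mem_orbit_self _)
  rw [← fixP_conj] at e
  obtain ⟨T, ok, e1, h4⟩ := S18.forall_el e18_chk (p := fun T => bor (Nat.beq T A24.one)
    (anyL progs fun p => band (Nat.beq p.1 T) (A24.slp p.2 (fun L' =>
      allL [0xbcc8cb2a265b8f47c9096c0b518820] fun T => anyL L' (Nat.beq T)) [tTr, tM, T])))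
    (by decide +kernel) (mem_S18.mpr fun p hp => mem_fixP.mp (e ▸ hp))
  have hab : ∀ T U, A24.ok T ∧ A24.el T ∈ L → U ∈ [tTr, tM, T] → A24.ok U ∧ A24.el U ∈ L :=
    fun T U h hU => by
      rcases List.mem_append.mp (show U ∈ [tTr, tM] ++ [T] from hU) with hU | hU
      · exact ⟨H.gens_ok U hU, h1 (H.el_mem hU)⟩
      · exact List.mem_singleton.mp hU ▸ h
  rcases bor_iff.mp h4 with h4 | h4
  · rw [← A24.el_eq_one_iff ok, e1, conj_eq_one_iff] at h4
    simp [h4] at ho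
  obtain ⟨p, -, h4⟩ := anyL_iff.mp h4
  have h5 := A24.slp_mem (fun U => hab T U ⟨ok, e1 ▸ mul_mem (mul_mem (h1 hk) ht)
    (inv_mem (h1 hk))⟩) (band_iff.mp h4).2 _ (List.mem_singleton_self _)
  exact le_antisymm h2 (S23s.le_iff.mpr fun U hU => (A24.slp_mem (fun U => hab _ U h5)
    (prog := [(1, 1), (2, 0), (3, 0), (5, 0), (5, 0), (6, 0), (8, 0), (1, 0), (2, 0), (11, 0), (4, 0), (5,
      0), (6, 6), (7, 0), (16, 0), (9, 0), (10, 0), (19, 9), (12, 0), (13, 0), (22, 0), (15, 0),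
      (24, 0), (0, 11), (7, 0), (13, 0), (14, 9), (10, 0), (16, 0), (6, 6), (18, 0), (8, 0), (0, 6),
      (1, 0), (22, 0), (18, 0), (38, 0), (31, 0), (40, 0), (40, 0), (41, 0), (42, 0), (42, 0), (43,
      0), (44, 0), (46, 0), (48, 0), (47, 0), (31, 19), (26, 0), (52, 0), (45, 0), (54, 0), (47, 0),
      (56, 0), (56, 0), (57, 0), (58, 0), (60, 0), (60, 0), (60, 0), (61, 0), (63, 0), (65, 0), (64,
      0)])
    (by decide +kernel) U hU).2)

theorem P_le : P.K ≤ H.K := H.le_of_test P (by decide +kernel)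

theorem syl {L : Subgroup M24} (h : P.K ≤ L) :
    (Subgroup.normalizer (P.K : Set M24)).relIndex L % 23 = 1 := by
  have : Fact (Nat.Prime 23) := ⟨by norm_num⟩
  have hc : Nat.card (P.K.subgroupOf L) = 23 :=
    (Nat.card_congr (Subgroup.subgroupOfEquivOfLe h).toEquiv).trans P.card_eq
  have hp : IsPGroup 23 (P.K.subgroupOf L) := IsPGroup.of_card (hc.trans (pow_one 23).symm)
  have h1 := card_sylow_modEq_one 23 L
  rw [(hp.toSylow fun hd => by
    have := (Nat.mul_dvd_mul_left 23 hd).trans (dvd_of_eq (hc ▸ Subgroup.card_mul_index _))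
    have := this.trans L.card_subgroup_dvd_card
    rw [card_M24] at this
    norm_num at this).card_eq_index_normalizer] at h1
  rw [Subgroup.relIndex, Subgroup.subgroupOf_normalizer_eq h]
  exact h1

theorem idx : H.K.relIndex S23s.K = 40320 := by
  have := (H.K.subgroupOf S23s.K).card_mul_index
  rw [S23s.card_subgroupOf H (by decide +kernel), S23s.card_eq] at this
  exact Nat.eq_of_mul_eq_mul_left (by decide : 0 < 253) this

theorem of_odd {L : Subgroup M24} (h1 : H.K ≤ L) (h2 : L ≤ S23s.K) (h : ¬ 2 ∣ Nat.card L)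
    (h3 : H.K.relIndex L % 23 = 1) : L = H.K :=
  le_antisymm (Subgroup.relIndex_eq_one.mp ((by decide +kernel : ∀ k ∈ Nat.divisors 40320,
    ¬ 2 ∣ k → k % 23 = 1 → k = 1) _ (Nat.mem_divisors.mpr
      ⟨idx ▸ Dvd.intro _ (Subgroup.relIndex_mul_relIndex _ _ _ h1 h2), by decide⟩)
    (fun e => h (e.trans (Subgroup.relIndex_dvd_card _ _))) h3)) h1

theorem norm : Subgroup.normalizer (P.K : Set M24) ⊓ S23s.K = H.K := by
  have h1 : H.K ≤ _ ⊓ S23s.K := le_inf (P.le_normalizer H (by decide +kernel)) H_le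
  by_cases h : 2 ∣ Nat.card ↥(Subgroup.normalizer (P.K : Set M24) ⊓ S23s.K)
  · have ok : A24.ok 0xba4c3734a490aaf38588982cb82a91 := A24_ok (by decide +kernel)
    have ok2 : A24.ok tTr := A24_ok (by decide +kernel)
    have := inf_eq_right.mp (of_even h1 inf_le_right h)
      ((S23s.test_iff _ ok).mp (by decide +kernel))
    have := (Subgroup.mem_normalizer_iff.mp this _).mp ((P.test_iff _ ok2).mp (by decide +kernel))
    rw [← A24.el_cj _ _ ok ok2, ← P.test_iff _ (A24.ok_cj _ _ ok ok2)] at this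
    exact absurd this (by decide +kernel)
  · refine of_odd h1 inf_le_right h ?_
    have h2 := Subgroup.relIndex_mul_relIndex _ _ _ h1 inf_le_right
    have h3 := syl (P_le.trans H_le)
    rw [idx, Subgroup.inf_relIndex_right] at h2
    have := congrArg (· % 23) h2
    simpa [Nat.mul_mod, h3] using this

theorem max {L : Subgroup M24} (h1 : H.K ≤ L) (h2 : L ≤ S23s.K) : L = H.K ∨ L = S23s.K := by
  by_cases h : 2 ∣ Nat.card L
  · exact Or.inr (of_even h1 h2 h)
  · refine Or.inl (of_odd h1 h2 h ?_)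
    rw [← norm, ← Subgroup.inf_relIndex_right, inf_assoc, inf_eq_right.mpr h2,
      Subgroup.inf_relIndex_right]
    exact syl (P_le.trans h1)

/-- the projective line group. -/
noncomputable def K : Subgroup M24 := A24.gen [tTr, tInv, tM]

theorem ok3 : ∀ T ∈ [tTr, tInv, tM], A24.ok T := fun T hT =>
  A24_ok (allL_iff.mp (by decide +kernel) T hT)

theorem H_le_K : H.K ≤ K := H.le_iff.mpr fun T hT => A24.el_mem_gen (by
  rcases List.mem_pair.mp hT with rfl | rfl <;> simp)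

theorem above {L : Subgroup M24} (h : K ≤ L) : L = ⊤ ∨ Nat.card L = 6072 := by
  have h1 := card_eq_orbit_mul_inf L (gC.pt 23)
  have h2 : (orbit L (gC.pt 23)).ncard = 24 := le_antisymm
    ((Set.ncard_le_card _).trans (by rw [Nat.card_eq_fintype_card, card_golayPt]))
    ((A24.orbit_ncard ok3 (fuel := 25) (by decide : 23 < 24) (by decide +kernel)).ge.trans
      (Set.ncard_le_ncard (orbit_subset_of_le h _)))
  rcases max (L := L ⊓ stabilizer M24 (gC.pt 23)) (le_inf (H_le_K.trans h) H_le) inf_le_right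
    with e | e <;> rw [e, h2, CSub.card_eq] at h1
  · exact Or.inr h1
  · exact Or.inl (Subgroup.eq_top_of_card_eq _ (h1.trans card_M24.symm))

theorem K_ne : K ≠ ⊤ := fun e => by
  have := mX.orbit_ncard ok3 (fuel := 254) (n := 253) V_X0 (by decide +kernel)
  rw [show mX.gen _ = ⊤ from e, show orbit (⊤ : Subgroup M24) (mX.dec _) = _ from orbit_X0,
    ncard_sextets] at this
  omega

theorem card_K : Nat.card K = 6072 := (above le_rfl).resolve_left K_ne

/-- multiplications. -/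
def mu : (ZMod 23)ˣ →* Equiv.Perm GolayPt :=
  MonoidHom.mk' (fun u => Equiv.optionCongr (Units.mulLeft u)) fun a b => by
    ext (_ | x) <;> simp [mul_assoc]

theorem cl (s : Set (Equiv.Perm GolayPt)) (Ts : List ℕ) (h1 : tM ∈ Ts)
    (h2 : ∀ g, g ∈ s ∨ g = A0.el tM ↔ ∃ T ∈ Ts, A0.el T = g) (h3 : ∀ T ∈ Ts, A24.ok T) :
    Subgroup.closure (s ∪ {g : Equiv.Perm GolayPt | ∃ u : (ZMod 23)ˣ, IsSquare u ∧
      g = Equiv.optionCongr (Units.mulLeft u)}) = (A24.gen Ts).map M24.subtype := by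
  have e : A0.el tM = mu (Units.mkOfMulEqOne 5 14 rfl * Units.mkOfMulEqOne 5 14 rfl) :=
    (gC.eq_perm (w := 5) (T := tM) (by decide +kernel) (by decide +kernel)).symm
  rw [map_gen_A24 h3]
  refine le_antisymm ((Subgroup.closure_le _).mpr ?_) (A0.gen_le.mpr fun T hT => ?_)
  · rintro g (hg | ⟨_, ⟨v, rfl⟩, rfl⟩)
    · obtain ⟨T, hT, rfl⟩ := (h2 g).mp (Or.inl hg)
      exact A0.el_mem_gen hT
    · obtain ⟨k, -, hk⟩ := (by decide +kernel : ∀ v : (ZMod 23)ˣ, ∃ k < 11, v * v =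
        (Units.mkOfMulEqOne 5 14 rfl * Units.mkOfMulEqOne 5 14 rfl) ^ k) v
      show mu _ ∈ _
      rw [hk, map_pow, ← e]
      exact pow_mem (A0.el_mem_gen h1) k
  · rcases (h2 _).mpr ⟨T, hT, rfl⟩ with h | h
    · exact Subgroup.subset_closure (Or.inl h)
    · exact Subgroup.subset_closure (Or.inr ⟨_, ⟨_, rfl⟩, h.trans e⟩)

/-- PSL(2, 23) = ⟨t ↦ t+1, t ↦ u t (u square), t ↦ −1/t⟩ is maximal of order 6072 in the group of the length-24 code, and its point stabiliser 23:11 (order 253) is maximal in the Mathieu group of degree 23. -/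
theorem result : (Subgroup.closure ({Equiv.optionCongr (Equiv.addRight (1 : ZMod 23)), Cfsg.projInv} ∪ {g : Equiv.Perm Cfsg.GolayPt | ∃ u : (ZMod 23)ˣ, IsSquare u ∧ g = Equiv.optionCongr (Units.mulLeft u)}) ≤ Cfsg.M24 ∧ Nat.card ↥(Subgroup.closure ({Equiv.optionCongr (Equiv.addRight (1 : ZMod 23)), Cfsg.projInv} ∪ {g : Equiv.Perm Cfsg.GolayPt | ∃ u : (ZMod 23)ˣ, IsSquare u ∧ g = Equiv.optionCongr (Units.mulLeft u)})) = 6072 ∧ IsCoatom ((Subgroup.closure ({Equiv.optionCongr (Equiv.addRight (1 : ZMod 23)), Cfsg.projInv} ∪ {g : Equiv.Perm Cfsg.GolayPt | ∃ u : (ZMod 23)ˣ, IsSquare u ∧ g = Equiv.optionCongr (Units.mulLeft u)})).subgroupOf Cfsg.M24)) ∧ (Subgroup.closure ({Equiv.optionCongr (Equiv.addRight (1 : ZMod 23))} ∪ {g : Equiv.Perm Cfsg.GolayPt | ∃ u : (ZMod 23)ˣ, IsSquare u ∧ g = Equiv.optionCongr (Units.mulLeft u)}) ≤ Cfsg.M24 ⊓ MulAction.stabilizer (Equiv.Perm Cfsg.GolayPt) (none : Cfsg.GolayPt) ∧ Nat.card ↥(Subgroup.closure ({Equiv.optionCongr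 (Equiv.addRight (1 : ZMod 23))} ∪ {g : Equiv.Perm Cfsg.GolayPt | ∃ u : (ZMod 23)ˣ, IsSquare u ∧ g = Equiv.optionCongr (Units.mulLeft u)})) = 253 ∧ IsCoatom (((Subgroup.closure ({Equiv.optionCongr (Equiv.addRight (1 : ZMod 23))} ∪ {g : Equiv.Perm Cfsg.GolayPt | ∃ u : (ZMod 23)ˣ, IsSquare u ∧ g = Equiv.optionCongr (Units.mulLeft u)})).subgroupOf Cfsg.M24).subgroupOf (MulAction.stabilizer Cfsg.M24 (none : Cfsg.GolayPt)))) := by
  have a : A0.el tTr = _ := perm_tTr
  have b : A0.el tInv = _ := perm_tInv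
  have c : ∀ L : Subgroup M24, (L.map M24.subtype).subgroupOf M24 = L := fun L =>
    Subgroup.comap_map_eq_self_of_injective M24.subtype_injective L
  rw [cl _ [tTr, tInv, tM] (by simp) (by simp [a, b, eq_comm, or_assoc]) ok3,
    cl _ [tTr, tM] (by simp) (by simp [a, eq_comm]) H.gens_ok, c, c, Subgroup.card_subtype,
    Subgroup.card_subtype, ← show H.K = A24.gen [tTr, tM] from H.eq_gen]
  refine ⟨⟨Subgroup.map_subtype_le _, card_K, K_ne, fun L hL => (above hL.le).resolve_right fun e =>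
    hL.ne (Subgroup.eq_of_le_of_card_ge hL.le (e.trans card_K.symm).le)⟩,
    le_inf (Subgroup.map_subtype_le _) ?_, H.card_eq, fun e => ?_, fun L hL => ?_⟩
  · rintro _ ⟨g, hg, rfl⟩
    exact H_le hg
  · have := Subgroup.card_le_of_le (H := S23s.K) (Subgroup.subgroupOf_eq_top.mp e)
    rw [CSub.card_eq, CSub.card_eq] at this
    exact absurd this (by decide)
  · rcases max (L := L.map S23s.K.subtype) (by
      rw [← Subgroup.map_subgroupOf_eq_of_le H_le]
      exact Subgroup.map_mono hL.le) (Subgroup.map_subtype_le _) with e | e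
    · exact absurd (by
        rw [← e]; exact Subgroup.comap_map_eq_self_of_injective (Subgroup.subtype_injective _) _)
        hL.ne
    · exact Subgroup.map_injective (Subgroup.subtype_injective _)
        (e.trans ((MonoidHom.range_eq_map _).symm.trans (Subgroup.range_subtype _)).symm)

end Cfsg.Agent.S1643
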