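import Cfsg.Statements.S1666
import Cfsg.Agent.L1.HSg

set_option autoImplicit false
open Cfsg

namespace Cfsg.Agent.S1666

open Cfsg.Agent.H14

/-- Recognition of the Higman–Sims group as a rank 3 permutation group: a transitive permutation group on 100 points in which the stabiliser of a point is isomorphic to the Mathieu group M₂₂ and has two further orbits, of sizes 22 and 77, is isomorphic to the Higman–Sims group. -/
theorem result {Ω : Type*} [Fintype Ω] [DecidableEq Ω] (hΩ : Fintype.card Ω = 100) (G : Subgroup (Equiv.Perm Ω)) [MulAction.IsPretransitive G Ω] (a : Ω)  (e : MulAction.stabilizer G a ≃* Cfsg.Spor.M22) (b c : Ω) (hb : (MulAction.orbit (MulAction.stabilizer G a) b).ncard = 22) (hc : (MulAction.orbit (MulAction.stabilizer G a) c).ncard = 77) : Cfsg.Spor.IsoHS G := by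
  obtain ⟨Γ, _, hΓ, ρ, hρ⟩ := rank3_srg (H := G) hΩ a b c hb hc
  obtain ⟨H, ⟨φ⟩⟩ := hs_embed hΓ
  have hi : Function.Injective ρ := (injective_iff_map_eq_one ρ).mpr fun g hg => by
    ext x
    have := hρ g x
    rw [hg] at this
    exact this.symm
  have hA := card_aut_hs hΓ
  have : Finite (Γ ≃g Γ) := Nat.finite_of_card_ne_zero (by rw [hA]; norm_num)
  have hH : Nat.card H = 44352000 := (Nat.card_congr φ.toEquiv).trans H25.Leech.card_HS
  have hG : Nat.card ρ.range = 44352000 := by
    rw [← Nat.card_congr (MonoidHom.ofInjective hi).toEquiv,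
      ← Nat.card_congr (MulAction.orbitProdStabilizerEquivGroup G a), Nat.card_prod,
      Nat.card_congr e.toEquiv, card_M22, MulAction.orbit_eq_univ, Nat.card_coe_set_eq,
      Set.ncard_univ, Nat.card_eq_fintype_card, hΩ]
  have := H25.Leech.simple_HS
  have := φ.isSimpleGroup
  have h1 := ρ.range.card_mul_index
  have h2 := H.card_mul_index
  rw [hA] at h1 h2
  rw [hG] at h1
  rw [hH] at h2
  have h3 : ρ.range = H := eq_of_index_two (by omega) (by omega) (by rw [hH]; norm_num)
  exact ⟨(MonoidHom.ofInjective hi).trans ((MulEquiv.subgroupCongr h3).trans φ)⟩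

end Cfsg.Agent.S1666
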