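import Cfsg.Statements.S1667
import Mathlib
import Cfsg.Agent.H7.Mc6

set_option autoImplicit false
open Cfsg

namespace Cfsg.Agent.S1667

/-- Recognition of the McLaughlin group as a rank 3 permutation group: a transitive permutation group on 275 points in which the stabiliser of a point is isomorphic to the unitary group U₄(3) and has two further orbits, of sizes 112 and 162, is isomorphic to the McLaughlin group. -/
theorem result {Ω : Type*} [Fintype Ω] [DecidableEq Ω] (hΩ : Fintype.card Ω = 275) (G : Subgroup (Equiv.Perm Ω)) [MulAction.IsPretransitive G Ω] (a : Ω) (K : Type) [Field K] [Fintype K] (hK : Fintype.card K = 9) (e : MulAction.stabilizer G a ≃* Cfsg.PSU 4 K 3) (b c : Ω) (hb : (MulAction.orbit (MulAction.stabilizer G a) b).ncard = 112) (hc : (MulAction.orbit (MulAction.stabilizer G a) c).ncard = 162) : Cfsg.Spor.IsoMcL G := by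
  obtain ⟨f, hf⟩ := H7.Mc.embed (G := G) hΩ hb hc hK e
  obtain ⟨φ, hφ⟩ := H7.Mc.embed_McL hK
  have hi : Function.Injective f := (injective_iff_map_eq_one f).mpr fun g hg =>
    Subtype.ext (Equiv.ext (hf g hg))
  have := H25.Leech.simple_McL
  have := (MonoidHom.ofInjective hφ).symm.isSimpleGroup
  have h3 : f.range = φ.range := H7.Mc.eq_small (by
    rw [← Nat.card_congr (MonoidHom.ofInjective hi).toEquiv,
      ← Nat.card_congr (MulAction.orbitProdStabilizerEquivGroup G a), Nat.card_prod,
      Nat.card_congr e.toEquiv, H7.Mc.card_U43 hK, MulAction.orbit_eq_univ, Nat.card_coe_set_eq,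
      Set.ncard_univ, Nat.card_eq_fintype_card, hΩ])
    ((Nat.card_congr (MonoidHom.ofInjective hφ).toEquiv).symm.trans H25.Leech.card_McL)
    H7.Mc.card_Aut0
  exact ⟨(MonoidHom.ofInjective hi).trans
    ((MulEquiv.subgroupCongr h3).trans (MonoidHom.ofInjective hφ).symm)⟩

end Cfsg.Agent.S1667
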