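import Cfsg.Statements.S1669
import Mathlib
import Cfsg.Agent.H7.Rv9

set_option autoImplicit false
open Cfsg

namespace Cfsg.Agent.S1669

/-- Recognition of the Rudvalis group as a rank 3 permutation group: a transitive permutation group on 4060 points in which the stabiliser of a point is isomorphic to the Ree group ²F₄(2) and has two further orbits, of sizes 1755 and 2304, is isomorphic to the Rudvalis group. -/
theorem result {Ω : Type*} [Fintype Ω] [DecidableEq Ω] (hΩ : Fintype.card Ω = 4060) (G : Subgroup (Equiv.Perm Ω)) [MulAction.IsPretransitive G Ω] (a : Ω)  (e : MulAction.stabilizer G a ≃* Cfsg.Lie.twistedF4 (ZMod 2) 1) (b c : Ω) (hb : (MulAction.orbit (MulAction.stabilizer G a) b).ncard = 1755) (hc : (MulAction.orbit (MulAction.stabilizer G a) c).ncard = 2304) : Cfsg.Spor.IsoRu G := by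
  obtain ⟨f, hf⟩ := H7.Rv.embed (G := G) hΩ hb hc e
  obtain ⟨φ⟩ := H7.Rv.embed_Ru
  have hi : Function.Injective f := (injective_iff_map_eq_one f).mpr fun g hg =>
    Subtype.ext (Equiv.ext (hf g hg))
  refine ⟨(MulEquiv.ofBijective f (hi.bijective_of_nat_card_le (H7.Rv.card_Aut0.trans_eq ?_))).trans φ.symm⟩
  rw [← Nat.card_congr (MulAction.orbitProdStabilizerEquivGroup G a), Nat.card_prod,
    Nat.card_congr e.toEquiv, MulAction.orbit_eq_univ, Nat.card_coe_set_eq,
    Set.ncard_univ, Nat.card_eq_fintype_card, hΩ]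
  exact (congrArg (4060 * ·) H7.Ti.card_GG).symm

end Cfsg.Agent.S1669
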