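import Cfsg.Statements.S1681
import Cfsg.Agent.H15.Suz
import Cfsg.Agent.H15.SzB
import Cfsg.Agent.H15.SzG
-- import your own Cfsg.Agent.* helpers here

set_option autoImplicit false
open Cfsg

namespace Cfsg.Agent.S1681

/-- In the presented sporadic Suzuki group (generators a, …, g), the subgroup generated by the images of a, b, c, d, f, g has index 22880. -/
theorem result : (((Subgroup.closure ({Cfsg.Spor.Suz.a, Cfsg.Spor.Suz.b, Cfsg.Spor.Suz.c, Cfsg.Spor.Suz.d, Cfsg.Spor.Suz.f, Cfsg.Spor.Suz.g} : Set (FreeGroup Cfsg.Spor.Suz.Gen))).map (PresentedGroup.mk (Cfsg.Spor.coxRelators Cfsg.Spor.Suz.edges ∪ {r | r ∈ Cfsg.Spor.Suz.extra})))).index = 22880 := by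
  rw [H15.Suz.good.map_closure [Cfsg.Spor.Suz.a, Cfsg.Spor.Suz.b, Cfsg.Spor.Suz.c, Cfsg.Spor.Suz.d, Cfsg.Spor.Suz.f, Cfsg.Spor.Suz.g] (by simp) (ws := [[0], [1], [2], [3], [5], [6]]) (by decide +kernel)]
  have h1 : H15.CardLe (H15.gp H15.Suz.E [[0], [1], [2], [3], [5], [6]]) (9072 * 2160) :=
    H15.Suz.cE.step (H15.SzG.idx H15.Suz.good.hi H15.Suz.good.hB [[0], [1], [2], [3], [5], [6]] (by decide +kernel))
      (by decide +kernel)
  refine (H15.index_eq_of_card (m := 9072 * 2160) H15.Suz.card ?_ h1.2 (by norm_num)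
    (by norm_num)).1
  rw [← Subgroup.relIndex_top_right, ← H15.Suz.top]
  exact (H15.SzB.idx H15.Suz.good.hi H15.Suz.good.hB [[0], [1], [2], [3], [4], [5], [6]] (by decide +kernel)).2

end Cfsg.Agent.S1681
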