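import Cfsg.Statements.S1717
import Mathlib
import Cfsg.Agent.H19.Tvc

set_option autoImplicit false
open Cfsg

namespace Cfsg.Agent.S1717

open Cfsg.Agent.H19


/-- Let G be a finite group with an involution z whose centraliser C is isomorphic to the centraliser of a transvection of SL(5, 2). Then a Sylow 2-subgroup of C, viewed in G, is a Sylow 2-subgroup of G (its index in G is odd). -/
theorem result {G : Type*} [Group G] [Finite G] (s : Matrix.SpecialLinearGroup (Fin 5) (ZMod 2)) (hs : (s : Matrix (Fin 5) (Fin 5) (ZMod 2)) = Matrix.transvection 0 1 1) (z : G) (hz : orderOf z = 2) (e : (Subgroup.centralizer ({z} : Set G)) ≃* Subgroup.centralizer ({s} : Set (Matrix.SpecialLinearGroup (Fin 5) (ZMod 2)))) (T : Sylow 2 (Subgroup.centralizer ({z} : Set G))) : ¬ 2 ∣ ((T : Subgroup (Subgroup.centralizer ({z} : Set G))).map (Subgroup.subtype (Subgroup.centralizer ({z} : Set G)))).index := by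
  let C := Subgroup.centralizer ({z} : Set G)
  have zc : z ∈ C := Subgroup.mem_centralizer_singleton_iff.2 rfl
  have z1 : z ≠ 1 := fun r => by simp [r] at hz
  have key : ∀ g : C, (∀ x ∈ pCore 2 C, x * g = g * x) → (e g).1 = 1 ∨ (e g).1 = s := fun g hg =>
    cent_tv (by simp) (by decide) hs (e g) fun x hx => by
      rw [← H2.pCore_map_equiv e] at hx
      obtain ⟨y, hy, rfl⟩ := hx
      simpa using congrArg e (hg y hy)
  have cz : ∀ x : C, x * ⟨z, zc⟩ = ⟨z, zc⟩ * x := fun x => Subtype.ext (Subgroup.mem_centralizer_singleton_iff.1 x.2)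
  have n1 : ∀ g : C, (e g).1 = 1 → g.1 = 1 := fun g h => congrArg Subtype.val (e.map_eq_one_iff.1 (Subtype.ext h))
  have ez := (key _ fun x _ => cz x).resolve_left fun r => z1 (n1 _ r)
  set P := (T : Subgroup C).map C.subtype
  have hP : IsPGroup 2 P := T.2.map _
  have zP : z ∈ P := ⟨⟨z, zc⟩, H2.pCore_le_sylow T (H2.le_pCore (N := Subgroup.zpowers _)
    (hN := ⟨fun _ ⟨n, h⟩ g => by
      rw [← h, (Commute.zpow_right (cz g) n).eq, mul_inv_cancel_right]; exact ⟨n, rfl⟩⟩)
    (IsPGroup.of_card (n := 1) (by simp [← Subgroup.orderOf_coe, hz])) (Subgroup.mem_zpowers _)), rfl⟩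
  have nl : Subgroup.normalizer (P : Set G) ≤ C := fun g hg => by
    have m := (Subgroup.mem_normalizer_iff.1 hg z).1 zP
    obtain ⟨y, hy, h⟩ := m
    have := key y fun x hx => Subtype.ext (by
      have k := (Subgroup.mem_normalizer_iff.1 (inv_mem hg) x).1 ⟨x, H2.pCore_le_sylow T hx, rfl⟩
      obtain ⟨w, -, hw⟩ := k
      have := Subgroup.mem_centralizer_singleton_iff.1 w.2
      change y.1 = _ at h; change w.1 = _ at hw
      rw [hw] at this
      change x.1 * y.1 = y.1 * x.1
      rw [h]
      calc _ = g * (g⁻¹ * x * g⁻¹⁻¹ * z) * g⁻¹ := by group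
      _ = _ := by rw [this]; group)
    rcases this with r | r
    · exact (z1 (by simpa using h.symm.trans (n1 _ r))).elim
    · have : y = ⟨z, zc⟩ := e.injective (Subtype.ext (r.trans ez.symm))
      subst this
      exact Subgroup.mem_centralizer_singleton_iff.2 (mul_inv_eq_iff_eq_mul.1 h.symm)
  intro hd
  obtain ⟨n, hn⟩ := IsPGroup.iff_card.1 hP
  have := (Sylow.prime_pow_dvd_card_normalizer (by
    rw [← P.card_mul_index, hn, pow_succ]; exact Nat.mul_dvd_mul_left _ hd) hn).trans (Subgroup.card_dvd_of_le nl)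
  rw [← (T : Subgroup C).card_mul_index, ← Subgroup.card_map_of_injective C.subtype_injective, hn, pow_succ] at this
  exact T.not_dvd_index (Nat.dvd_of_mul_dvd_mul_left (by positivity) this)

end Cfsg.Agent.S1717
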