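import Cfsg.Statements.S1743
import Mathlib
import Cfsg.Agent.H19.Gt3
import Cfsg.Agent.H12.GtM
import Cfsg.Agent.H9.GtN
import Cfsg.Agent.H16.GtS

set_option autoImplicit false
open Cfsg

namespace Cfsg.Agent.S1743


/-- Let G be a finite simple group whose Sylow 2-subgroups are isomorphic to a Sylow 2-subgroup of the Chevalley group of type G₂ over a finite field of odd order, and let S be a Sylow 2-subgroup of G. Then either all involutions of G are conjugate, or S has order 64 and the involutions of G form exactly two conjugacy classes. -/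
theorem result {G : Type*} [Group G] [Finite G] [IsSimpleGroup G]
    {F : Type*} [Field F] [Fintype F] (hF : Odd (Fintype.card F)) (S : Sylow 2 G) (P : Sylow 2 ↥(Cfsg.Lie.chevG2.group F))
    (hS : Nonempty (↥(S : Subgroup G) ≃* ↥(P : Subgroup ↥(Cfsg.Lie.chevG2.group F)))) :
    (∀ x y : G, orderOf x = 2 → orderOf y = 2 → IsConj x y) ∨
      (Nat.card ↥(S : Subgroup G) = 64 ∧ ∃ x y : G, orderOf x = 2 ∧ orderOf y = 2 ∧ ¬ IsConj x y ∧
        ∀ z : G, orderOf z = 2 → IsConj z x ∨ IsConj z y) := by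
  obtain ⟨e⟩ := hS
  obtain ⟨Φ, h1, h2⟩ := H12.gM hF
  obtain ⟨n, H, τ, u, v, hn, h3, h4⟩ := H9.GtN.gN hF Φ h1 h2
  haveI : NeZero n := ⟨hn⟩
  obtain ⟨K2, τ2, u2, v2, h5, h6⟩ := H16.GtS.gS h3 h4 S P e
  exact H19.Gt.gF S h5 h6

end Cfsg.Agent.S1743
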