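import Cfsg.Statements.S1754
import Mathlib
import Cfsg.Agent.H22.Core
import Cfsg.Agent.H2.Components

set_option autoImplicit false
open Cfsg

namespace Cfsg.Agent.S1754

/-- Let A be a standard subgroup of the finite group G (A quasisimple, C_G(A) tightly embedded of even order, A commuting elementwise with no other conjugate of itself, and N_G(A) = N_G(C_G(A))), and let t be an involution of G centralizing A. Then the centralizer of t lies in the normalizer of A; in particular A, viewed inside C_G(t), is a component of C_G(t). -/
theorem result {G : Type*} [Group G] [Finite G]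
    (A : Subgroup G) (hA : Cfsg.IsStandardSubgroup A) (t : G) (ht : orderOf t = 2) (htA : t ∈ Subgroup.centralizer (A : Set G)) :
    Subgroup.centralizer ({t} : Set G) ≤ Subgroup.normalizer (A : Set G) ∧
      Cfsg.IsComponent (A.subgroupOf (Subgroup.centralizer ({t} : Set G))) := by
  have h1 : Subgroup.centralizer ({t} : Set G) ≤ Subgroup.normalizer (A : Set G) := fun g hg => by
    rw [hA.2.2.2]
    by_contra h
    have h2 := hA.2.1.2 g h
    have h3 : t ∈ Subgroup.centralizer (A : Set G) ⊓ (Subgroup.centralizer (A : Set G)).map
        (MulAut.conj g).toMonoidHom := ⟨htA, t, htA, by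
      simp [Subgroup.mem_centralizer_singleton_iff.1 hg]⟩
    have h4 := H22.orderOf_dvd_card_of_mem h3
    rw [ht] at h4
    exact (Nat.not_even_iff_odd.2 h2) (even_iff_two_dvd.2 h4)
  have h2 : A ≤ Subgroup.centralizer ({t} : Set G) := fun a ha =>
    Subgroup.mem_centralizer_singleton_iff.2 (htA a ha)
  exact ⟨h1, (H22.normal_subgroupOf_of_le_N h1).isSubnormal, (H2.isQuasisimple_subgroupOf_iff h2).2 hA.1⟩

end Cfsg.Agent.S1754
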