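import Cfsg.Statements.S1755
import Mathlib
import Cfsg.Agent.H29.Large
import Cfsg.Agent.H29.CI
import Cfsg.Agent.H1.Coprime
import Cfsg.Agent.H20.Invol

set_option autoImplicit false
open Cfsg

namespace Cfsg.Agent.S1755

open Cfsg.Agent.H22

/-- Let G be a finite group and let z be an involution of G such that Q, the generalized Fitting subgroup of the centralizer C of z, is a 2-group of symplectic type (every characteristic abelian subgroup of Q is cyclic). Let B be a characteristic abelian subgroup of Q, viewed as a subgroup of G. Then for every g in G, the conjugate of B by g either equals B or meets B trivially. -/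
theorem result {G : Type*} [Group G] [Finite G] (z : G) (hz : orderOf z = 2) (hQ : Cfsg.IsOfSymplecticType ↥(Cfsg.generalizedFittingSubgroup ↥(Subgroup.centralizer ({z} : Set G))))
    (B : Subgroup ↥(Cfsg.generalizedFittingSubgroup ↥(Subgroup.centralizer ({z} : Set G)))) (hBc : B.Characteristic) (hBa : IsMulCommutative ↥B) (g : G) :
    ((B.map (Cfsg.generalizedFittingSubgroup ↥(Subgroup.centralizer ({z} : Set G))).subtype).map (Subgroup.centralizer ({z} : Set G)).subtype).map (MulAut.conj g).toMonoidHom =
        (B.map (Cfsg.generalizedFittingSubgroup ↥(Subgroup.centralizer ({z} : Set G))).subtype).map (Subgroup.centralizer ({z} : Set G)).subtype ∨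
      ((B.map (Cfsg.generalizedFittingSubgroup ↥(Subgroup.centralizer ({z} : Set G))).subtype).map (Subgroup.centralizer ({z} : Set G)).subtype).map (MulAut.conj g).toMonoidHom ⊓
        (B.map (Cfsg.generalizedFittingSubgroup ↥(Subgroup.centralizer ({z} : Set G))).subtype).map (Subgroup.centralizer ({z} : Set G)).subtype = ⊥ := by
  have hzF : z ∈ (Cfsg.generalizedFittingSubgroup ↥(Subgroup.centralizer ({z} : Set G))).map
      (Subgroup.centralizer ({z} : Set G)).subtype := by
    rw [(H29.genFitting_cent hz hQ.1).1]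
    exact H29.mem_pCoreOf_cent ⟨1, by rw [pow_one, ← hz, pow_orderOf_eq_one]⟩
  have hFn : (Cfsg.generalizedFittingSubgroup ↥(Subgroup.centralizer ({z} : Set G))).Normal :=
    H2.generalizedFitting_normal _
  generalize Cfsg.generalizedFittingSubgroup ↥(Subgroup.centralizer ({z} : Set G)) = F at *
  set B' := (B.map F.subtype).map (Subgroup.centralizer ({z} : Set G)).subtype with hB'
  have hz2 := H20.mul_self_of_orderOf_two hz
  have hz1 := H20.ne_one_of_orderOf_two hz
  have key : ∀ w ∈ B', w ≠ 1 → w * w = 1 → w = z := by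
    rintro _ ⟨_, ⟨w, hw, rfl⟩, rfl⟩ h1 h2
    obtain ⟨c, hc, hcz⟩ := hzF
    have hcz' : (c : G) = z := hcz
    have hc0 : (⟨c, hc⟩ : F) ∈ Subgroup.center F := Subgroup.mem_center_iff.2 fun y =>
      Subtype.ext (Subtype.ext (by simpa [hcz'] using H29.mem_C1.1 (y : Subgroup.centralizer ({z} : Set G)).2))
    have hcyc := hQ.2 (B ⊔ Subgroup.center F) (Subgroup.characteristic_iff_map_eq.2 fun φ => by
      rw [Subgroup.map_sup, Subgroup.characteristic_iff_map_eq.1 hBc, Subgroup.characteristic_iff_map_eq.1 inferInstance]) (isMulComm_iff.2 (by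
      rw [C_sup]
      have h3 : Subgroup.center F ≤ C[B] := Subgroup.center_le_centralizer _
      exact le_inf (sup_le (isMulComm_iff.1 hBa) h3)
        (sup_le (Subgroup.le_centralizer_iff.1 h3) (Subgroup.center_le_centralizer _))))
    have := H29.cyc_inv_eq hcyc (Subgroup.mem_sup_left hw) (Subgroup.mem_sup_right hc0)
      (fun h => h1 (by simp [h])) (fun h => hz1 (by rw [← hcz']; simpa using h))
      (Subtype.ext (Subtype.ext h2)) (Subtype.ext (Subtype.ext (by simpa [hcz'] using hz2)))
    rw [this]; exact hcz'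
  rw [or_iff_not_imp_right]
  intro hne
  have hp : IsPGroup 2 B' := ((hQ.1.to_subgroup B).map _).map _
  obtain ⟨w, hw, hw2⟩ := pgrp_exists_orderOf_eq (hp.to_le inf_le_right) hne
  have h1 := key w hw.2 (H20.ne_one_of_orderOf_two hw2) (H20.mul_self_of_orderOf_two hw2)
  have h3 : orderOf (g⁻¹ * w * g) = 2 := by rw [H20.orderOf_conj', hw2]
  have h2 := key _ (mem_cj.1 hw.1) (H20.ne_one_of_orderOf_two h3) (H20.mul_self_of_orderOf_two h3)
  haveI : (B.map F.subtype).Normal := normal_of_top_le_N
    ((le_N_of_normal ⊤ F).trans (H1.normalizer_le_normalizer_map_of_characteristic B))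
  refine cj_eq_of_mem_N (le_N_map_subtype (B.map F.subtype) (H29.mem_C1.2 ?_))
  rw [h1] at h2
  calc g * z = g * (g⁻¹ * z * g) := by rw [h2]
    _ = _ := by group

end Cfsg.Agent.S1755
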