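import Cfsg.Statements.S1756
import Mathlib
import Cfsg.Agent.H29.ES

set_option autoImplicit false
open Cfsg

namespace Cfsg.Agent.S1756

open Cfsg.Agent.H22 Subgroup
open scoped commutatorElement

/-- Let Q be an extraspecial 2-subgroup of the finite group G (special with centre of order 2) and t an involution of G normalizing Q such that the centralizer of t in Q has index at most 2 in Q. Then t lies in the product of Q with the centralizer of Q. -/
theorem result {G : Type*} [Group G] [Finite G] (Q : Subgroup G)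
    (hQ : Cfsg.IsExtraspecial 2 ↥Q) (t : G) (ht : orderOf t = 2) (htN : t ∈ Subgroup.normalizer (Q : Set G))
    (hi : (Subgroup.centralizer ({t} : Set G) ⊓ Q).relIndex Q ≤ 2) :
    t ∈ Q ⊔ Subgroup.centralizer (Q : Set G) := by
  obtain ⟨z, h⟩ := H29.es_of_isExtraspecial hQ
  have tt := H20.mul_self_of_orderOf_two ht
  refine h.mem_sup_C fun x hx => h.comm_mem_of_index_two htN (fun a ha b hb h1 h2 => ?_) (fun x hx _ e => ?_) hx
  · have h3 : (centralizer ({t} : Set G) ⊓ Q).relIndex Q ≠ 0 := index_ne_zero_of_finite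
    have h4 : (centralizer ({t} : Set G) ⊓ Q).relIndex Q ≠ 1 := fun e =>
      h1 (H29.mem_C1.1 (relIndex_eq_one.1 e ha).1)
    have h5 := (mul_mem_iff_of_index_two (show (centralizer ({t} : Set G) ⊓ Q).relIndex Q = 2 by omega)
      (a := ⟨a, ha⟩) (b := ⟨b, hb⟩)).2 (iff_of_false (fun e => h1 (H29.mem_C1.1 e.1)) fun e => h2 (H29.mem_C1.1 e.1))
    exact H29.mem_C1.1 h5.1
  · have ti : t⁻¹ = t := inv_eq_of_mul_eq_one_right tt
    nth_rewrite 1 [← mul_inv_cancel_right ⁅t, x⁆ t]
    rw [e, commutatorElement_def]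
    calc _ = (t * t) * x * t⁻¹ * x⁻¹ * x * t⁻¹ * x⁻¹ := by group
      _ = 1 := by rw [tt, ti, one_mul, inv_mul_cancel_right, mul_assoc x, tt]; simp

end Cfsg.Agent.S1756
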