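import Cfsg.Statements.S1774
import Mathlib
import Cfsg.Agent.H29.Symp

set_option autoImplicit false
open Cfsg

namespace Cfsg.Agent.S1774

open Cfsg.Agent.H22

/-- Let G be a finite group and let z be an involution of G such that Q, the generalized Fitting subgroup of the centralizer C of z, is a 2-group of symplectic type (every characteristic abelian subgroup of Q is cyclic); suppose every element of Q has order dividing 4. Let g ∈ G with z' = g z g⁻¹ ≠ z and z' ∈ Q. Then z lies in the conjugate g Q g⁻¹, and the subgroup X generated by Q and g Q g⁻¹ induces every automorphism of the four-group generated by z and z': for any two distinct non-identity elements u, v of that four-group there is x ∈ X with x z x⁻¹ = u and x z' x⁻¹ = v. -/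
theorem result {G : Type*} [Group G] [Finite G] (z : G) (hz : orderOf z = 2) (hQ : Cfsg.IsOfSymplecticType ↥(Cfsg.generalizedFittingSubgroup ↥(Subgroup.centralizer ({z} : Set G))))
    (h4 : ∀ q ∈ (Cfsg.generalizedFittingSubgroup ↥(Subgroup.centralizer ({z} : Set G))).map (Subgroup.centralizer ({z} : Set G)).subtype, q ^ 4 = 1) (g : G) (hne : g * z * g⁻¹ ≠ z) (hin : g * z * g⁻¹ ∈ (Cfsg.generalizedFittingSubgroup ↥(Subgroup.centralizer ({z} : Set G))).map (Subgroup.centralizer ({z} : Set G)).subtype) :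
    z ∈ ((Cfsg.generalizedFittingSubgroup ↥(Subgroup.centralizer ({z} : Set G))).map (Subgroup.centralizer ({z} : Set G)).subtype).map (MulAut.conj g).toMonoidHom ∧
      ∀ u ∈ Subgroup.closure ({z, g * z * g⁻¹} : Set G), ∀ v ∈ Subgroup.closure ({z, g * z * g⁻¹} : Set G),
        u ≠ 1 → v ≠ 1 → u ≠ v →
          ∃ x ∈ (Cfsg.generalizedFittingSubgroup ↥(Subgroup.centralizer ({z} : Set G))).map (Subgroup.centralizer ({z} : Set G)).subtype ⊔ ((Cfsg.generalizedFittingSubgroup ↥(Subgroup.centralizer ({z} : Set G))).map (Subgroup.centralizer ({z} : Set G)).subtype).map (MulAut.conj g).toMonoidHom, x * z * x⁻¹ = u ∧ x * (g * z * g⁻¹) * x⁻¹ = v := by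
  obtain ⟨hF, hC⟩ := H29.genFitting_cent hz hQ.1
  have hz2 := H20.mul_self_of_orderOf_two hz
  have hz1 := H20.ne_one_of_orderOf_two hz
  have hzQ : z ∈ pCoreOf 2 (Subgroup.centralizer {z}) :=
    H29.mem_pCoreOf_cent ⟨1, by rw [pow_one, pow_two, hz2]⟩
  have hQ' : IsOfSymplecticType (pCoreOf 2 (Subgroup.centralizer ({z} : Set G))) := by
    rw [← hF]
    have e := (Cfsg.generalizedFittingSubgroup ↥(Subgroup.centralizer ({z} : Set G))).equivMapOfInjective _
      (Subgroup.centralizer ({z} : Set G)).subtype_injective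
    refine ⟨hQ.1.of_equiv e, fun A hA hc => ?_⟩
    have := hQ.2 (A.comap e.toMonoidHom) (Subgroup.characteristic_iff_comap_eq.2 fun φ => by
      have := Subgroup.characteristic_iff_comap_eq.1 hA (e.symm.trans (φ.trans e))
      conv_rhs => rw [← this]
      ext x; simp) (A.comap_injective_isMulCommutative e.injective)
    exact isCyclic_of_surjective _ (e.toMonoidHom.subgroupComap_surjective_of_surjective A e.surjective)
  rw [hF] at h4 hin ⊢
  have hc : (⟨z, hzQ⟩ : pCoreOf 2 (Subgroup.centralizer ({z} : Set G))) ∈ Subgroup.center _ :=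
    Subgroup.mem_center_iff.2 fun y => Subtype.ext (H29.mem_C1.1 (pCoreOf_le _ y.2))
  have h : H29.LX (pCoreOf 2 (Subgroup.centralizer {z})) z := by
    refine H29.lx_of_sp ⟨hz1, hz2, hzQ, fun x hx => ?_, fun x hx hx' e => ?_⟩ hC
    · simpa [Subtype.ext_iff] using H29.symp_sq hQ' hc (by simpa [Subtype.ext_iff] using hz1) (Subtype.ext hz2)
        (fun y => Subtype.ext (h4 y y.2)) ⟨x, hx⟩
    · simpa [Subtype.ext_iff] using H29.symp_inv hQ' hc (by simpa [Subtype.ext_iff] using hz1) (Subtype.ext hz2)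
        (W := ⊤) (v := ⟨x, hx⟩) ⟨trivial, mem_C.2 fun y _ => Subtype.ext (mem_C.1 hx' y y.2)⟩ (Subtype.ext e)
  have h1 := h.sym' le_rfl hin
  have h' := h.cj g
  refine ⟨h1, fun u hu v hv hu1 hv1 huv => ?_⟩
  rw [H29.closure_pair'] at hu hv
  obtain ⟨q, hq, e⟩ := h.exists_conj le_rfl hin (h.not_mem_C hin h'.zz h'.ne hne)
  obtain ⟨p, hp, e'⟩ := h'.exists_conj le_rfl h1 (h'.not_mem_C h1 h.zz h.ne hne.symm)
  exact H29.pair_conj h.zz h'.zz (h.comm_z hin).symm (H29.mem_C1'.1 (h.le_Cz hq)) e
    (H29.mem_C1'.1 (h'.le_Cz hp)) e' (Subgroup.mem_sup_left hq) (Subgroup.mem_sup_right hp) hu hv hu1 hv1 huv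

end Cfsg.Agent.S1774
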