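import Cfsg.Statements.S1775
import Mathlib
import Cfsg.Agent.H2.Misc

set_option autoImplicit false
open Cfsg

namespace Cfsg.Agent.S1775

open Cfsg.Agent.FT Subgroup
open scoped commutatorElement

/-- Let G be a finite group whose generalized Fitting subgroup is a non-abelian simple group and in which every proper section (every quotient H/N of a proper subgroup H, or of G by a nontrivial normal subgroup) has the B-property. Let x, y be commuting involutions, let D be the intersection of the 2-layer of C_G(x) with C_G(y), and let J be a 2-component of D. Write Q for the quotient of C_G(y) by its largest normal odd-order subgroup. Then (i) the image of J in Q is a component of the centralizer in Q of the image of x; and (ii) for every J-invariant subgroup E of odd order of C_G(x) ∩ C_G(y), the commutator subgroup [J, E] lies in the largest normal odd-order subgroup of C_G(y). -/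
theorem result {G : Type*} [Group G] [Finite G]
    (hF : IsSimpleGroup ↥(Cfsg.generalizedFittingSubgroup G)) (hF' : ¬ IsMulCommutative ↥(Cfsg.generalizedFittingSubgroup G))
    (hsec : ∀ (H : Subgroup G) (N : Subgroup ↥H) [N.Normal], (H ≠ ⊤ ∨ N ≠ ⊥) → Cfsg.HasBProperty (↥H ⧸ N))
    (x y : G) (hx : orderOf x = 2) (hy : orderOf y = 2) (hxy : x * y = y * x)
    (J : Subgroup ↥((Cfsg.pLayer 2 ↥(Subgroup.centralizer ({x} : Set G))).map (Subgroup.centralizer ({x} : Set G)).subtype ⊓ Subgroup.centralizer ({y} : Set G)))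
    (hJ : Cfsg.IsPComponent 2 J) :
    Cfsg.IsComponent
        ((((J.map (Subgroup.subtype _)).subgroupOf (Subgroup.centralizer ({y} : Set G))).map (QuotientGroup.mk' (Cfsg.oddCore ↥(Subgroup.centralizer ({y} : Set G))))).subgroupOf
          (Subgroup.centralizer ({(QuotientGroup.mk' (Cfsg.oddCore ↥(Subgroup.centralizer ({y} : Set G))) ⟨x, Subgroup.mem_centralizer_singleton_iff.mpr hxy⟩ : ↥(Subgroup.centralizer ({y} : Set G)) ⧸ Cfsg.oddCore ↥(Subgroup.centralizer ({y} : Set G)))} : Set _))) ∧
      ∀ E : Subgroup G, E ≤ Subgroup.centralizer ({x} : Set G) ⊓ Subgroup.centralizer ({y} : Set G) → Odd (Nat.card ↥E) →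
        (∀ j ∈ J.map (Subgroup.subtype _), ∀ e ∈ E, j * e * j⁻¹ ∈ E) →
          ⁅J.map (Subgroup.subtype _), E⁆ ≤ (Cfsg.oddCore ↥(Subgroup.centralizer ({y} : Set G))).map (Subgroup.centralizer ({y} : Set G)).subtype := by
  have hp := Nat.prime_two
  have h1 : C[y] ≠ ⊤ := fun e => by
    have h2 : ⟪y⟫ ≤ Z((⊤ : Subgroup G)) := le_inf le_top (zpowers_le.2 (le_cen1.1 e.ge))
    have h3 : ⟪y⟫ ≤ generalizedFittingSubgroup G :=
      (h2.trans ((center_le_fitting ⊤).trans (fitting_le_gfit ⊤))).trans gfit_top.le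
    rcases ((nml_of_le_center h2).mono h3 le_top).normal.eq_bot_or_eq_top with h | h
    · exact zpowers_ne_bot' (ne_one_of_orderOf hy) ((map_so h3).symm.trans (by rw [h, Subgroup.map_bot]))
    · exact hF' ((ab_zpowers y).mono (subgroupOf_eq_top.1 h))
  have hB := hsec C[y] (oddCore C[y]) (Or.inl h1)
  have hJ1 := (pcomp_map_subtype hp).2 hJ
  generalize J.map (Subgroup.subtype _) = K at *
  rw [← play_eq hp] at hJ1
  have hK : PComp 2 K (C[y] ⊓ C[x]) := hJ1.trans (inf_comm C[x] _ ▸ ((play_nml 2 _).inf_right _).subn)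
  have hk := pi_of_ker_core (inf_pker_coreHom hp C[y])
  have hxy' : x ∈ C[y] := mem_cen1.2 hxy
  have h2 := hK.pmap_p' (f := coreHom 2 C[y]) inf_le_left (hk.mono (inf_le_inf_right _ inf_le_left))
  rw [pmap_subcent1 le_rfl hk (piElt_iff.2 (pGrp_zpowers hp hx)) hxy', pmap_coreHom, top_inf_eq] at h2
  have h3 := hB _ (orderOf_pfun_core hp le_rfl hk hx hxy')
  have h4 := pmap_core_eq_bot le_rfl (inf_pker_coreHom hp C[y])
  rw [pmap_coreHom, p'core_top hp] at h4
  rw [map_commutator, ← play_eq hp, oddCore_map] at h3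
  have h5 := h2.comp_of_qs (h2.pqs.qs (centsC (centSS h2.core_le h2.le_play (comm_eq_bot.1 (eq_bot_of_le h3 h4)))))
  refine ⟨(pfun_of_mem (coreHom 2 C[y]) hxy' ▸ comp_iff.1 h5).2, fun E hE ho hn => ?_⟩
  rw [oddCore_map, ← pker_coreHom hp, ← pmap_cents_iff (hK.le.trans inf_le_left) (hE.trans inf_le_right)]
  refine h5.cents_sol ?_ ((sol_of_odd (odd_iff_piGrp.1 ho)).pmap _) (pmap_norms _ (le_nrm_iff.2 hn))
  exact (pmap_mono _ (hE.trans inf_le_left)).trans (pmap_cen1_le _ hxy')

end Cfsg.Agent.S1775
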