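import Cfsg.Statements.S1781
import Mathlib
import Cfsg.Agent.H29.TI

set_option autoImplicit false
open Cfsg

namespace Cfsg.Agent.S1781

open Cfsg.Agent.H22

/-- Let A be an abelian 2-subgroup of the finite group G such that every conjugate of A equals A or meets A trivially, and let g ∈ G with g A g⁻¹ ≠ A. Then either the subgroup of those elements of A that normalize g A g⁻¹ is an elementary abelian 2-group, or A and g A g⁻¹ commute elementwise. -/
theorem result {G : Type*} [Group G] [Finite G] (A : Subgroup G)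
    (hA2 : IsPGroup 2 ↥A) (hAa : IsMulCommutative ↥A)
    (hti : ∀ h : G, A.map (MulAut.conj h).toMonoidHom = A ∨ A.map (MulAut.conj h).toMonoidHom ⊓ A = ⊥)
    (g : G) (hg : A.map (MulAut.conj g).toMonoidHom ≠ A) :
    Cfsg.IsElementaryAbelian 2 (A ⊓ Subgroup.normalizer ((A.map (MulAut.conj g).toMonoidHom : Subgroup G) : Set G)) ∨
      ⁅A, A.map (MulAut.conj g).toMonoidHom⁆ = ⊥ := by
  rw [cj_def] at *
  have hab := isMulComm_iff.1 hAa
  refine or_iff_not_imp_left.2 fun h => ?_
  rw [elemAb_iff, not_and] at h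
  have h1 := h (inf_le_left.trans (hab.trans (C_anti inf_le_left)))
  push Not at h1
  obtain ⟨t, ht, ht2⟩ := h1
  obtain ⟨htA, htN⟩ := Subgroup.mem_inf.1 ht
  have hI : cj g A ⊓ A = ⊥ := (hti g).resolve_left hg
  have habg : cj g A ≤ C[cj g A] := by rw [← cj_C]; exact cj_mono g hab
  have h2 : t ∈ C[cj g A] := by
    refine H29.mem_C_of_sq (isPGroup_cj g hA2) habg htN (pgrp_iff.1 hA2 t htA) fun b hb hc => ?_
    have h3 : b ∈ N[A] := H29.mem_N_of_ti (hti b) (pow_mem htA 2) ht2 hc.symm
    have h4 : t * b * t⁻¹ * b⁻¹ ∈ cj g A ⊓ A :=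
      Subgroup.mem_inf.2 ⟨mul_mem (conj_mem_of_N htN hb) (inv_mem hb), by
        have := mul_mem htA (conj_mem_of_N h3 (inv_mem htA))
        simpa only [mul_assoc] using this⟩
    rw [hI, Subgroup.mem_bot, mul_inv_eq_one, mul_inv_eq_iff_eq_mul] at h4
    exact h4
  refine H29.ti_norm_commute (p := 2) hA2 (isPGroup_cj g hA2) (fun a _ => ?_) (card_cj g A).ge (inf_comm A _ ▸ hI)
    fun b hb => H29.mem_N_of_ti (hti b) htA (by rintro rfl; simp at ht2) (mem_C.1 h2 b hb)
  have := hti (g⁻¹ * a * g)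
  rw [cj_def, ← cj_inj (g := g), ← cj_eq_bot (g := g), cj_inf, ← cj_mul] at this
  simpa only [← cj_mul, mul_assoc, mul_inv_cancel_left] using this

end Cfsg.Agent.S1781
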