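import Cfsg.Statements.S1783
import Mathlib
import Cfsg.Agent.H29.TI
import Cfsg.Agent.H3.Frattini
import Cfsg.Agent.H1.Coprime
import Cfsg.Agent.H2.Components

set_option autoImplicit false
open Cfsg

namespace Cfsg.Agent.S1783

open Cfsg.Agent.H22 Subgroup
open scoped commutatorElement

/-- Let X be a finite group whose generalized Fitting subgroup equals its largest normal 2-subgroup Q, and let A be an abelian 2-subgroup of X such that every conjugate of A equals A or meets A trivially. Let B be the subgroup generated by the squares of the elements of A. Then B lies in Q, and if B is not an elementary abelian 2-group then the normal closure of B in X is commutative. -/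
theorem result {X : Type*} [Group X] [Finite X]
    (hX : Cfsg.generalizedFittingSubgroup X = Cfsg.pCore 2 X) (A : Subgroup X) (hA2 : IsPGroup 2 ↥A) (hAa : IsMulCommutative ↥A)
    (hti : ∀ h : X, A.map (MulAut.conj h).toMonoidHom = A ∨ A.map (MulAut.conj h).toMonoidHom ⊓ A = ⊥) :
    Subgroup.closure ((fun a : X => a ^ 2) '' (A : Set X)) ≤ Cfsg.pCore 2 X ∧
      (¬ Cfsg.IsElementaryAbelian 2 (Subgroup.closure ((fun a : X => a ^ 2) '' (A : Set X))) →
        IsMulCommutative ↥(Subgroup.normalClosure ((fun a : X => a ^ 2) '' (A : Set X)))) := by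
  have hC : C[pCore 2 X] ≤ pCore 2 X := (H2.generalizedFitting_eq_pCore_iff 2).1 hX
  have hab := isMulComm_iff.1 hAa
  have hQ : IsPGroup 2 (pCore 2 X) := pgrp_pCore
  haveI : (pCore 2 X).Normal := inferInstance
  have habg : ∀ g, cj g A ≤ C[cj g A] := fun g => by rw [← cj_C]; exact cj_mono g hab
  have htig : ∀ g h : X, cj g A = cj h A ∨ cj g A ⊓ cj h A = ⊥ := fun g h => by
    have := hti (h⁻¹ * g)
    rw [cj_def, ← cj_inj (g := h), ← cj_eq_bot (g := h), cj_inf, ← cj_mul] at this
    simpa only [mul_inv_cancel_left] using this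
  set B := closure ((fun a : X => a ^ 2) '' (A : Set X)) with hB
  have hBA : B ≤ A := (closure_le _).2 (by rintro _ ⟨a, ha, rfl⟩; exact pow_mem ha 2)
  have h1 : B ≤ pCore 2 X := by
    refine (closure_le _).2 ?_
    rintro _ ⟨a, ha, rfl⟩
    by_cases ha2 : a ^ 2 = 1
    · simp only [ha2]; exact one_mem _
    set F := (frattini (pCore 2 X)).map (pCore 2 X).subtype with hF
    haveI : F.Normal := H3.map_frattini_normal _
    have hD : cmod (pCore 2 X) F ≤ pCore 2 X := by
      refine le_pCore (normal_of_top_le_N (le_N_cmod (le_N_of_normal _ _) (le_N_of_normal _ _)))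
        (pgrp_of_forall_coprime fun x hx hc => eq_one_of_pgrp_of_coprime hQ (hC ?_) hc)
      refine H1.le_centralizer_of_commutator_le_frattini (zpowers x) _ (le_N_of_normal _ _) ?_
        ((le_cmod.1 (zpowers_le.2 hx)).2) (mem_zpowers x)
      rw [Nat.card_zpowers]
      exact pgrp_coprime (hQ.to_subgroup _) hc
    refine hD ⟨mem_N_of_normal _ _, fun q hq => ?_⟩
    have hS := pgrp_sup hA2 hQ (le_N_of_normal _ _)
    have hc : cj q A ≤ C[A] := by
      by_cases he : cj q A = A
      · rw [he]; exact hab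
      refine le_C_iff_comm.2 (H29.ti_family_commute hS (Δ := Set.range fun g => cj g A) ?_ ?_ ?_ ?_ ⟨q, rfl⟩
        ⟨1, cj_one A⟩ (cj_le_of_mem (mem_sup_right hq) le_sup_left) le_sup_left he)
      · rintro s - _ ⟨g, rfl⟩
        exact ⟨s * g, cj_mul _ _ _⟩
      · rintro _ ⟨g, rfl⟩
        exact ⟨_, conj_mem_cj ha, by simpa [conj_pow] using ha2⟩
      · rintro _ ⟨g, rfl⟩ _ ⟨h, rfl⟩
        rw [card_cj, card_cj]
      · rintro _ ⟨g, rfl⟩ _ ⟨h, rfl⟩
        exact htig g h
    have h2 : Commute a (q * a * q⁻¹) := mem_C.1 (hc (conj_mem_cj ha)) a ha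
    have h3 : ⁅q, a ^ 2⁆ = ⁅q, a⁆ ^ 2 := by
      rw [commutatorElement_def, commutatorElement_def, h2.inv_left.symm.mul_pow, conj_pow, inv_pow]
    show ⁅q, a ^ 2⁆ ∈ F
    rw [h3]
    refine H3.pow_mem_map_frattini hQ ?_
    rw [commutatorElement_def, mul_assoc, mul_assoc]
    exact mul_mem hq (by simpa only [mul_assoc] using conj_mem_of_N (mem_N_of_normal a _) (inv_mem hq))
  refine ⟨h1, fun h => ?_⟩
  have hBab : B ≤ C[B] := hBA.trans (hab.trans (C_anti hBA))
  rw [elemAb_iff, not_and] at h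
  have h2 := h hBab
  push Not at h2
  obtain ⟨b, hb, hb2⟩ := h2
  have hN : N[A] ≤ N[B] := fun x hx => mem_N_of_cj_le (by
    rw [hB, cj_closure]
    refine closure_mono ?_
    rintro _ ⟨_, ⟨a, ha, rfl⟩, rfl⟩
    exact ⟨_, conj_mem_of_N hx ha, conj_pow⟩)
  have key : ∀ g h : X, cj g B ≤ C[cj h B] := fun g h => by
    by_cases he : cj g B = cj h B
    · rw [he, ← cj_C]; exact cj_mono h hBab
    refine le_C_iff_comm.2 (H29.ti_family_commute hQ (Δ := Set.range fun g => cj g B) ?_ ?_ ?_ ?_ ⟨g, rfl⟩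
        ⟨h, rfl⟩ (cj_le_of_mem_N (mem_N_of_normal _ _) h1) (cj_le_of_mem_N (mem_N_of_normal _ _) h1) he)
    · rintro s - _ ⟨g, rfl⟩
      exact ⟨s * g, cj_mul _ _ _⟩
    · rintro _ ⟨g, rfl⟩
      exact ⟨_, conj_mem_cj hb, by simpa [conj_pow] using hb2⟩
    · rintro _ ⟨g, rfl⟩ _ ⟨h, rfl⟩
      rw [card_cj, card_cj]
    · rintro _ ⟨g, rfl⟩ _ ⟨h, rfl⟩
      refine (htig g h).imp (fun e => ?_) fun e => ?_
      · have : h⁻¹ * g ∈ N[B] := hN (mem_N_iff_cj.2 (by rw [cj_mul, e, cj_inv_cj]))
        show cj g B = cj h B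
        rw [← mul_inv_cancel_left h g, cj_mul, cj_eq_of_mem_N this]
      · exact le_bot_iff.1 (e ▸ inf_le_inf (cj_mono g hBA) (cj_mono h hBA))
  rw [← normalClosure_closure_eq_normalClosure, ← ncl_top, isMulComm_iff]
  refine ncl_le_iff.2 fun g _ => le_centralizer_iff.1 (ncl_le_iff.2 fun h _ => key h g)

end Cfsg.Agent.S1783
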