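import Cfsg.Statements.S1784
import Mathlib
import Cfsg.Agent.H29.Large

set_option autoImplicit false
open Cfsg

namespace Cfsg.Agent.S1784

open Cfsg.Agent.H22 Subgroup
open scoped commutatorElement

/-- Let G be a finite group and let z be an involution of G such that Q, the generalized Fitting subgroup of the centralizer C of z, is a 2-group of symplectic type (every characteristic abelian subgroup of Q is cyclic); suppose Q is extraspecial, and view Q inside G. Let α be an involution of C that is not in Q, and let Q₀ be the subgroup of those q ∈ Q whose commutator with α lies in the subgroup generated by z. Then (a) the subgroup generated by the commutators α q α⁻¹ q⁻¹, q ∈ Q, equals the centre of Q₀; and (b) if Q₀ is not contained in the product of the centralizer of α in Q with the subgroup generated by z, then some element of Q conjugates α to α z. -/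
theorem result {G : Type*} [Group G] [Finite G] (z : G) (hz : orderOf z = 2) (hQ : Cfsg.IsOfSymplecticType ↥(Cfsg.generalizedFittingSubgroup ↥(Subgroup.centralizer ({z} : Set G)))) (hE : Cfsg.IsExtraspecial 2 ↥(Cfsg.generalizedFittingSubgroup ↥(Subgroup.centralizer ({z} : Set G))))
    (α : G) (hα : orderOf α = 2) (hαC : α ∈ Subgroup.centralizer ({z} : Set G)) (hαQ : α ∉ (Cfsg.generalizedFittingSubgroup ↥(Subgroup.centralizer ({z} : Set G))).map (Subgroup.centralizer ({z} : Set G)).subtype)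
    (Q₀ : Subgroup G) (hQ₀ : ∀ q : G, q ∈ Q₀ ↔ (q ∈ (Cfsg.generalizedFittingSubgroup ↥(Subgroup.centralizer ({z} : Set G))).map (Subgroup.centralizer ({z} : Set G)).subtype ∧ α * q * α⁻¹ * q⁻¹ ∈ Subgroup.zpowers z)) :
    Subgroup.closure ((fun q : G => α * q * α⁻¹ * q⁻¹) '' ((Cfsg.generalizedFittingSubgroup ↥(Subgroup.centralizer ({z} : Set G))).map (Subgroup.centralizer ({z} : Set G)).subtype : Set G)) = (Subgroup.center ↥Q₀).map Q₀.subtype ∧
      (¬ Q₀ ≤ ((Cfsg.generalizedFittingSubgroup ↥(Subgroup.centralizer ({z} : Set G))).map (Subgroup.centralizer ({z} : Set G)).subtype ⊓ Subgroup.centralizer ({α} : Set G)) ⊔ Subgroup.zpowers z →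
        ∃ q ∈ (Cfsg.generalizedFittingSubgroup ↥(Subgroup.centralizer ({z} : Set G))).map (Subgroup.centralizer ({z} : Set G)).subtype, q * α * q⁻¹ = α * z) := by
  set Q := (generalizedFittingSubgroup (centralizer ({z} : Set G))).map (centralizer {z}).subtype with hQd
  obtain ⟨h, -⟩ := H29.le_of_genFitting hz hQd.symm (by
    obtain ⟨w, hw⟩ := H29.es_of_isExtraspecial hE
    exact (hw.map _ fun x _ e => subtype_injective _ (e.trans (map_one _).symm)).isExtraspecial)
  have aa := H20.mul_self_of_orderOf_two hα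
  have hN := h.nrm hαC
  have haz : α * z * α⁻¹ = z := H29.mem_C1'.1 hαC
  refine ⟨?_, fun hn => ?_⟩
  · set B := closure ((fun q : G => α * q * α⁻¹ * q⁻¹) '' (Q : Set G)) with hB
    have hm : ∀ q ∈ Q, ⁅α, q⁆ ∈ B := fun q hq => subset_closure ⟨q, hq, rfl⟩
    have hmQ : ∀ q ∈ Q, ⁅α, q⁆ ∈ Q := fun q hq => mul_mem (conj_mem_of_N hN hq) (inv_mem hq)
    have hBQ : B ≤ Q := (closure_le _).2 (by rintro _ ⟨q, hq, rfl⟩; exact hmQ q hq)
    have hzB : z ∈ B := by
      refine h.z_mem hBQ (le_N_iff_cj.2 fun x hx => ?_) fun e => hαQ (h.cenle (mem_C.2 fun q hq =>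
        (commutatorElement_eq_one_iff_mul_comm.1 (mem_bot.1 (e ▸ hm q hq))).symm))
      rw [hB, cj_closure, closure_le]
      rintro _ ⟨_, ⟨q, hq, rfl⟩, rfl⟩
      have := mul_mem (inv_mem (hm x hx)) (hm _ (mul_mem hx hq))
      show x * (α * q * α⁻¹ * q⁻¹) * x⁻¹ ∈ B
      convert this using 1
      simp only [commutatorElement_def]; group
    have hc : ∀ x ∈ zpowers z, α * x * α⁻¹ = x := fun x hx => by
      rcases (H29.mem_zp2 h.zz).1 hx with rfl | rfl
      exacts [by simp, haz]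
    have hcq : ∀ x ∈ zpowers z, ∀ q ∈ Q, q * x * q⁻¹ = x := fun x hx q hq => by
      rcases (H29.mem_zp2 h.zz).1 hx with rfl | rfl
      exacts [by simp, H29.mem_C1'.1 (h.le_Cz hq)]
    -- invariance of the commutator form
    have key : ∀ x ∈ Q, ∀ q ∈ Q, x * ⁅α, q⁆ = ⁅α, q⁆ * x ↔ ⁅α⁻¹, x⁆ * q = q * ⁅α⁻¹, x⁆ := fun x hx q hq => by
      have h1 := hc _ (h.comm_mem (conj_mem_of_N' hN hx) hq)
      have h2 := hcq _ (h.comm_mem hx (inv_mem hq)) _ (conj_mem_of_N hN hq)
      have h3 := hcq _ (h.comm_mem (inv_mem hx) hq) _ (conj_mem_of_N' hN hx)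
      have h4 := hcq _ (h.comm_mem hx (inv_mem hq)) _ hq
      have h5 := hcq _ (h.comm_mem (inv_mem hx) hq) _ hx
      have e1 : ⁅x, ⁅α, q⁆⁆ = ⁅α⁻¹ * x * α, q⁆ * ⁅x, q⁆⁻¹ := by
        rw [← h1, show ⁅x, q⁆⁻¹ = q * ⁅x, q⁻¹⁆ * q⁻¹ by simp only [commutatorElement_def]; group, h4, ← h2]
        simp only [commutatorElement_def]; group
      have e2 : ⁅⁅α⁻¹, x⁆, q⁆ = ⁅x, q⁆⁻¹ * ⁅α⁻¹ * x * α, q⁆ := by
        rw [show ⁅x, q⁆⁻¹ = x * ⁅x⁻¹, q⁆ * x⁻¹ by simp only [commutatorElement_def]; group, h5, ← h3]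
        simp only [commutatorElement_def]; group
      rw [← commutatorElement_eq_one_iff_mul_comm, ← commutatorElement_eq_one_iff_mul_comm, e1, e2,
        mul_inv_eq_one, inv_mul_eq_one, eq_comm]
    have ai : α⁻¹ = α := inv_eq_of_mul_eq_one_right aa
    have h0 : Q₀ = Q ⊓ C[B] := by
      ext x
      rw [hQ₀, mem_inf, ← h.center, hB, centralizer_closure]
      rw [ai] at key
      refine and_congr_right fun hx => ⟨fun e => ?_, fun e => ⟨hmQ x hx, mem_C.2 fun q hq =>
        ((key x hx q hq).1 (e _ ⟨q, hq, rfl⟩).symm).symm⟩⟩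
      rintro _ ⟨q, hq, rfl⟩
      exact ((key x hx q hq).2 (mem_C.1 e.2 q hq).symm).symm
    rw [map_center_subtype]
    refine le_antisymm (le_inf ?_ (h0 ▸ le_centralizer_iff.1 inf_le_right)) ?_
    · refine (closure_le _).2 ?_
      rintro _ ⟨q, hq, rfl⟩
      refine (hQ₀ _).2 ⟨hmQ q hq, ?_⟩
      have := inv_mem (h.sq_mem (hmQ q hq))
      convert this using 1
      calc _ = α * α * q * α⁻¹ * q⁻¹ * α⁻¹ * (α * q * α⁻¹ * q⁻¹)⁻¹ := by group
        _ = (α * q * α⁻¹ * q⁻¹ * (α⁻¹ * q * α * q⁻¹))⁻¹ := by rw [aa]; nth_rewrite 2 [ai]; group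
        _ = _ := by rw [commutatorElement_def, ai]
    · rw [← (h.card_perp hBQ hzB).2, ← h0]
      exact inf_le_inf_right _ (h0 ▸ inf_le_left)
  · obtain ⟨q, hq, hqn⟩ := SetLike.not_le_iff_exists.1 hn
    obtain ⟨h1, h2⟩ := (hQ₀ q).1 hq
    refine ⟨q, h1, ?_⟩
    rcases (H29.mem_zp2 h.zz).1 h2 with e | e
    · exact (hqn (mem_sup_left ⟨h1, H29.mem_C1.2 (commutatorElement_eq_one_iff_mul_comm.1 e).symm⟩)).elim
    · rw [← e, inv_eq_of_mul_eq_one_right aa, ← mul_assoc, ← mul_assoc, ← mul_assoc, aa, one_mul]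

end Cfsg.Agent.S1784
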