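import Cfsg.Statements.S1785
import Mathlib
import Cfsg.Agent.H29.Two

set_option autoImplicit false
open Cfsg

namespace Cfsg.Agent.S1785

open Cfsg.Agent.H22

/-- Let X be a finite 2-group having a normal elementary abelian subgroup of order at least 32. Then (a) for any two elementary abelian subgroups A, B of X of order 8 there is a chain A = A₁, A₂, …, Aₙ = B of elementary abelian subgroups of order 8 in which consecutive members commute elementwise; and (b) every elementary abelian subgroup of X of order 4 is contained in an elementary abelian subgroup of order 8. -/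
theorem result {X : Type*} [Group X] [Finite X]
    (hX : IsPGroup 2 X) (E : Subgroup X) [E.Normal] (hE : Cfsg.IsElementaryAbelian 2 E) (hE32 : 32 ≤ Nat.card ↥E) :
    (∀ A B : Subgroup X, Cfsg.IsElementaryAbelian 2 A → Nat.card ↥A = 8 → Cfsg.IsElementaryAbelian 2 B → Nat.card ↥B = 8 →
        Relation.ReflTransGen
          (fun C D : Subgroup X => Cfsg.IsElementaryAbelian 2 C ∧ Nat.card ↥C = 8 ∧ Cfsg.IsElementaryAbelian 2 D ∧ Nat.card ↥D = 8 ∧ ⁅C, D⁆ = ⊥)
          A B) ∧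
      (∀ V : Subgroup X, Cfsg.IsElementaryAbelian 2 V → Nat.card ↥V = 4 →
        ∃ A : Subgroup X, V ≤ A ∧ Cfsg.IsElementaryAbelian 2 A ∧ Nat.card ↥A = 8) := by
  have hpow : ∀ A : Subgroup X, ∃ n, Nat.card A = 2 ^ n := fun A => pgrp_card (hX.to_subgroup A)
  have hEc := (elemAb_iff.1 hE).1
  have key : ∀ A : Subgroup X, IsElementaryAbelian 2 A → Nat.card A ≤ 8 → ¬ A ≤ E →
      2 * Nat.card ↥(A ⊓ E) ≤ Nat.card ↥(E ⊓ C[A]) := fun A hA h8 hAE => by
    obtain ⟨i, hi⟩ := hpow (A ⊓ E)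
    obtain ⟨j, hj⟩ := hpow (E ⊓ C[A])
    have h1 : Nat.card ↥(A ⊓ E) < Nat.card A :=
      card_lt_of_lt (lt_of_le_of_ne inf_le_left fun h => hAE (by rw [← h]; exact inf_le_right))
    have hi3 : i < 3 := (Nat.pow_lt_pow_iff_right (by norm_num : 1 < 2)).1 (by omega)
    have h2 := H29.card_le_pow hA (3 - i) hE (le_N_of_normal _ _) (inf_le_left : A ⊓ E ≤ A)
      (inf_le_right.trans hEc) (by rw [hi, ← pow_add, Nat.sub_add_cancel hi3.le]; omega)
    rw [hj, ← pow_mul] at h2
    have h3 : 5 ≤ j * 2 ^ (3 - i) := (Nat.pow_le_pow_iff_right (by norm_num : 1 < 2)).1 (by omega)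
    rw [hi, hj, ← pow_succ']
    refine Nat.pow_le_pow_right two_pos ?_
    interval_cases i <;> omega
  have hea : ∀ A : Subgroup X, IsElementaryAbelian 2 A → IsElementaryAbelian 2 (A ⊔ (E ⊓ C[A])) :=
    fun A hA => elemAb_sup hA (elemAb_le hE inf_le_left) (Subgroup.le_centralizer_iff.1 inf_le_right)
  set r := fun C D : Subgroup X => Cfsg.IsElementaryAbelian 2 C ∧ Nat.card ↥C = 8 ∧
    Cfsg.IsElementaryAbelian 2 D ∧ Nat.card ↥D = 8 ∧ ⁅C, D⁆ = ⊥ with hr
  have step : ∀ k : ℕ, ∀ A : Subgroup X, IsElementaryAbelian 2 A → Nat.card A = 8 →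
      8 ≤ 2 ^ k * Nat.card ↥(A ⊓ E) → ∃ B ≤ E, Nat.card B = 8 ∧ Relation.ReflTransGen r A B := by
    intro k
    induction k with
    | zero =>
      intro A hA h8 h
      exact ⟨A, inf_eq_left.1 (Subgroup.eq_of_le_of_card_ge inf_le_left (by omega)), h8, .refl⟩
    | succ k ih =>
      intro A hA h8 h
      by_cases hAE : A ≤ E
      · exact ⟨A, hAE, h8, .refl⟩
      have h1 := key A hA h8.le hAE
      obtain ⟨i, hi⟩ := hpow (A ⊓ E)
      have h2 : Nat.card ↥(A ⊓ E) < Nat.card A :=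
        card_lt_of_lt (lt_of_le_of_ne inf_le_left fun h => hAE (by rw [← h]; exact inf_le_right))
      have hi3 : i < 3 := (Nat.pow_lt_pow_iff_right (by norm_num : 1 < 2)).1 (by omega)
      obtain ⟨F, -, hF, cF⟩ := H3.exists_between_card_eq_pow hX
        (le_inf inf_le_right (inf_le_left.trans (elemAb_iff.1 hA).1) : A ⊓ E ≤ E ⊓ C[A]) (i + 1)
        (by rw [hi, pow_succ]; omega) (by rw [pow_succ, ← hi]; omega)
      obtain ⟨A', h3, h4, cA⟩ := H3.exists_between_card_eq_pow hX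
        (hF.trans le_sup_right : F ≤ A ⊔ (E ⊓ C[A])) 3
        (by rw [cF]; exact Nat.pow_le_pow_right two_pos hi3)
        (by have := Subgroup.card_le_of_le (le_sup_left : A ≤ A ⊔ (E ⊓ C[A])); omega)
      have hA' := elemAb_le (hea A hA) h4
      have h5 := Subgroup.card_le_of_le (le_inf h3 (hF.trans inf_le_left) : F ≤ A' ⊓ E)
      obtain ⟨B, hB, cB, hc⟩ := ih A' hA' cA (by
        rw [cF, pow_succ, ← hi] at h5
        calc 8 ≤ _ := h
          _ = 2 ^ k * (Nat.card ↥(A ⊓ E) * 2) := by ring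
          _ ≤ _ := Nat.mul_le_mul_left _ h5)
      exact ⟨B, hB, cB, .head ⟨hA, h8, hA', cA, le_C_iff_comm.1
        (le_sup_left.trans ((elemAb_iff.1 (hea A hA)).1.trans (C_anti h4)))⟩ hc⟩
  refine ⟨fun A B hA cA hB cB => ?_, fun V hV cV => ?_⟩
  · obtain ⟨A', h1, c1, r1⟩ := step 3 A hA cA (by have := card_pos' (A ⊓ E); omega)
    obtain ⟨B', h2, c2, r2⟩ := step 3 B hB cB (by have := card_pos' (B ⊓ E); omega)
    haveI hs : Std.Symm r := ⟨fun C D h => ⟨h.2.2.1, h.2.2.2.1, h.1, h.2.1, by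
      rw [Subgroup.commutator_comm]; exact h.2.2.2.2⟩⟩
    exact (r1.tail ⟨elemAb_le hE h1, c1, elemAb_le hE h2, c2,
      le_C_iff_comm.1 (h1.trans (hEc.trans (C_anti h2)))⟩).trans (Relation.ReflTransGen.stdSymm.symm _ _ r2)
  · have : ∃ B, V < B ∧ IsElementaryAbelian 2 B := by
      by_cases hVE : V ≤ E
      · exact ⟨E, lt_of_le_of_ne hVE (by rintro rfl; omega), hE⟩
      · refine ⟨_, lt_of_le_of_ne le_sup_left fun h => ?_, hea V hV⟩
        have h1 := key V hV (by omega) hVE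
        have h2 := Subgroup.card_le_of_le
          (le_inf (le_sup_right.trans h.symm.le) inf_le_left : E ⊓ C[V] ≤ V ⊓ E)
        have := card_pos' (V ⊓ E)
        omega
    obtain ⟨B, h1, hB⟩ := this
    obtain ⟨A, h2, h3, cA⟩ := H3.exists_between_card_eq_pow hX h1.le 3 (by omega)
      (by have := pgrp_mul_card_le (hX.to_subgroup B) h1; omega)
    exact ⟨A, h2, elemAb_le hB h3, cA⟩

end Cfsg.Agent.S1785
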