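import Cfsg.Statements.S1850
import Mathlib
import Cfsg.Agent.H29.ChP

set_option autoImplicit false
open Cfsg

namespace Cfsg.Agent.S1850

/-- Let G be a non-abelian finite simple QTKE-group and T a Sylow 2-subgroup of G. If U is a nontrivial 2-subgroup of G with U ∩ Z(T) ≠ 1, then F*(N_G(U)) = O₂(N_G(U)). -/
theorem result {G : Type*} [Group G] [Finite G] [IsSimpleGroup G]
    (hG : ¬ IsMulCommutative G) (hQ : Cfsg.IsQTKE G) (T : Sylow 2 G) (U : Subgroup G)
    (hU : IsPGroup 2 ↥U) (hZ : U ⊓ ((T : Subgroup G) ⊓ Subgroup.centralizer ((T : Subgroup G) : Set G)) ≠ ⊥) :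
    Subgroup.normalizer (U : Set G) ∈ Cfsg.calHe G := by
  refine (H2.generalizedFitting_eq_pCore_iff 2).2 (H22.chP_iff.1 (H29.chP_N_of_le hU inf_le_left
    (V := U ⊓ ((T : Subgroup G) ⊓ Subgroup.centralizer ((T : Subgroup G) : Set G))) (H22.chP_iff.2 ?_)))
  refine hQ.2.2 _ ⟨_, hU.to_le inf_le_left, hZ, rfl⟩ ⟨T, le_trans ?_ (H22.C_le_N _)⟩
  exact Subgroup.le_centralizer_iff.1 fun x hx => hx.2.2

end Cfsg.Agent.S1850
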