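import Cfsg.Statements.S1851
import Mathlib
import Cfsg.Agent.H22.JC
import Cfsg.Agent.H22.Sub
import Cfsg.Agent.H2.Components
-- import your own Cfsg.Agent.* helpers here

set_option autoImplicit false
open Cfsg

namespace Cfsg.Agent.S1851


open Subgroup Cfsg.Agent.FT Cfsg.Agent.P22
open scoped commutatorElement

section
variable {G : Type*} [Group G] [Finite G] {K L T : Subgroup G}

theorem odd_eq (K : Subgroup G) : oddGenerated K = piGen {2}ᶜ K :=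
  le_antisymm ((closure_le _).2 fun _ hx => mem_piGen hx.1 ((p'elt_iff_coprime Nat.prime_two).2
    (Nat.coprime_two_right.2 hx.2))) (piGen_le_iff.2 fun _ hx h => subset_closure
    ⟨hx, Nat.coprime_two_right.1 ((p'elt_iff_coprime Nat.prime_two).1 h)⟩)

theorem mV_eq (K : Subgroup G) : moduleV K = ⁅Ω[2](Z(O[{2}](K))), K⁆ := by
  rw [pcore_singleton Nat.prime_two]; rfl

theorem facts (h : L ∈ calL T) : L ≠ ⊥ ∧ piGen {2}ᶜ L = L ∧ Subn L (L ⊔ T) ∧ Syl 2 T (L ⊔ T) ∧ O[{2}](L ⊔ T) ≠ ⊥ := by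
  obtain ⟨⟨h1, h2, h3, -⟩, h4, h5⟩ := h
  have hp : ⁅L, L⁆ = L := by
    have := congrArg (map (L ⊔ T).subtype) h2
    rwa [map_commutator, map_subgroupOf_eq_of_le le_sup_left] at this
  refine ⟨fun e => h1 (by rw [e, bot_subgroupOf]), ?_, ⟨le_sup_left, h3⟩,
    (syl_iff_sylow Nat.prime_two le_sup_right).2 h4, fun e => h5 ?_⟩
  · have hn := piGen_nml {2}ᶜ L
    have h6 : PGrp 2 (L /ₛ piGen {2}ᶜ L) := by
      have := piGen_relIndex {2}ᶜ L
      rwa [compl_compl, ← card_quo hn.nrm] at this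
    refine le_antisymm hn.le ((quo_eq_bot hn.nrm).1 ?_)
    by_contra h7
    refine (h6.nil.sol.der_lt h7).ne ?_
    rw [← quo_comm hn.nrm hn.nrm, hp]
  · rwa [pcore_singleton Nat.prime_two, map_eq_bot_iff_of_injective _ (subtype_injective _)] at e

end

/-- Let G be a non-abelian finite simple QTKE-group and T a Sylow 2-subgroup of G, and let L be a member of ℒ_f(G, T) (a member of ℒ(G, T) that lies in 𝒳 — L ≠ 1, L = O²(L), F*(L) = O₂(L) — and acts nontrivially on Ω₁(Z(O₂(L)))). Then (1) every member K of ℒ(G, T) containing L is again in ℒ_f(G, T) (a sharper form of (1) also compares the modules [Ω₁(Z(R)), L] and [Ω₁(Z(R')), K] for suitable 2-subgroups R, R'; that comparison is not included); and (2) if L is maximal under inclusion among the members of ℒ_f(G, T), then L is a maximal member of ℒ(G, T), hence a member of ℒ_f*(G, T). -/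
theorem result {G : Type*} [Group G] [Finite G] [IsSimpleGroup G]
    (hG : ¬ IsMulCommutative G) (hQ : Cfsg.IsQTKE G) (T : Sylow 2 G) (L : Subgroup G)
    (hL : L ∈ Cfsg.calLf (T : Subgroup G)) :
    (∀ K ∈ Cfsg.calL (T : Subgroup G), L ≤ K → K ∈ Cfsg.calLf (T : Subgroup G)) ∧
    ((∀ K ∈ Cfsg.calLf (T : Subgroup G), L ≤ K → K = L) → L ∈ Cfsg.calLfMax (T : Subgroup G)) := by
  suffices h : ∀ K ∈ Cfsg.calL (T : Subgroup G), L ≤ K → K ∈ Cfsg.calLf (T : Subgroup G) from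
    ⟨h, fun hm => ⟨⟨hL.1, fun K hK hLK => hm K (h K hK hLK) hLK⟩, hL.2⟩⟩
  intro K hK hLK
  obtain ⟨-, eL, sL, -, -⟩ := facts hL.1
  obtain ⟨K1, eK, sK, tK, oK⟩ := facts hK
  set Q := O[{2}](K ⊔ T) with hQ'
  have pQ : PGrp 2 Q := pcore_pi _ _
  have nQ : Q ⊴ K ⊔ T := pcore_nml _ _
  have hc : H22.ChP 2 (K ⊔ T) := by
    refine H22.ChP.of_pCoreOf_le (H := N(Q)) (H22.chP_iff.2 (hQ.2.2 _ ⟨Q, pQ.isPGroup, oK, rfl⟩
      ⟨T, le_sup_right.trans nQ.nrm⟩)) nQ.nrm ?_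
    rw [pCoreOf_eq]
    exact (pcore_le_syl ((syl_top Nat.prime_two T).subl (le_sup_right.trans nQ.nrm) le_top)).trans le_sup_right
  have hcK := hc.of_sn ⟨sK.le, sK.subn⟩
  refine ⟨hK, ⟨K1, (odd_eq K).trans eK, (H2.generalizedFitting_eq_pCore_iff 2).2 (H22.chP_iff.1 hcK)⟩, ?_⟩
  rw [H22.ChP, pCoreOf_eq] at hc
  have hV := hL.2.2
  rw [mV_eq] at hV ⊢
  set V := Ω[2](Z(O[{2}](L))) with hV'
  set R := O[{2}](L ⊔ T) with hR'
  have pR : PGrp 2 R := pcore_pi _ _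
  have nR : R ⊴ L ⊔ T := pcore_nml _ _
  have hVR : V ≤ R := ((Ohm_le _ _).trans inf_le_left).trans (pcore_mono_subn _ sL)
  have hRL : R ≤ N(L) := norms_of_subn eL sL pR nR
  have nV : ∀ X : Subgroup G, X ≤ N(L) → X ≤ N(V) := fun X h =>
    norms_Ohm 2 (norms_center (norms_pcore _ h))
  obtain ⟨x, hx, hx', hxV⟩ : ∃ x ∈ L, PiElt {2}ᶜ x ∧ x ∉ C(V) := by
    by_contra h
    push Not at h
    exact hV (comm_eq_bot'.2 (eL.ge.trans (piGen_le_iff.2 h)))
  have hz : ⟪x⟫ ≤ L := zpowers_le.2 hx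
  have hLR : L ≤ N(R) := le_sup_left.trans nR.nrm
  have hm := coprime_cent_prod (hz.trans hLR) (pR.cop hx'.zpowers) pR.nil.sol
  have h1 : ⁅R, ⟪x⟫⁆ ≤ C(V) := by
    refine le_trans ?_ (centsC ((Ohm_le _ _).trans inf_le_right))
    rw [← pcore_inf_subn _ sL]
    exact le_inf (comm_le_left (hz.trans hLR)) ((commSS le_rfl hz).trans (comm_le_right hRL))
  have hQR : Q ≤ R := pcore_max pQ ⟨(pcore_le_syl tK).trans le_sup_right, (sup_le_sup_right hLK _).trans nQ.nrm⟩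
  set W := Ω[2](Z(Q)) with hW'
  have h2 : V ⊓ C(R ⊓ C(⟪x⟫)) ≤ W := by
    have h3 : V ⊓ C(R ⊓ C(⟪x⟫)) ≤ C(Q) := by
      refine le_trans ?_ (cen_anti hQR)
      nth_rw 2 [← hm.sup]
      rw [cen_sup]
      exact inf_le_inf_right _ (centsC h1)
    intro v hv
    exact (ab_center Q).mem_Ohm_iff.2 ⟨⟨hc ⟨(sup_le_sup_right hLK _) (nR.le (hVR hv.1)), h3 hv⟩, h3 hv⟩,
      (abelem_Ohm_center 2 _).pow hv.1⟩
  have nW : K ≤ N(W) := le_sup_left.trans (norms_Ohm 2 (norms_center nQ.nrm))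
  have pW : PGrp 2 W := pQ.mono ((Ohm_le _ _).trans inf_le_left)
  have h3 : ⁅W, K⁆ ≤ Ω[2](Z(O[{2}](K))) := by
    have h4 : ⁅W, K⁆ ≤ W := comm_le_left nW
    have h5 : ⁅W, K⁆ ≤ O[{2}](K) := by
      rw [← pcore_inf_subn _ sK]
      exact le_inf (h4.trans ((Ohm_le _ _).trans inf_le_left))
        (comm_le_right (((Ohm_le _ _).trans inf_le_left).trans (norms_of_subn eK sK pQ nQ)))
    intro v hv
    exact (ab_center _).mem_Ohm_iff.2 ⟨⟨h5 hv, cen_anti (pcore_mono_subn _ sK) (Ohm_le _ _ (h4 hv)).2⟩,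
      (abelem_Ohm_center 2 _).pow (h4 hv)⟩
  intro h
  refine hxV (zpowers_le.1 (p_times_q (pR.inf_left C(⟪x⟫)) (pR.mono hVR) hx'.zpowers inf_le_right
    (nV _ (inf_le_left.trans hRL)) (nV _ (hz.trans (le_nrm L))) (h2.trans (comm_eq_bot.1 ?_))))
  rw [← coprime_commGid ((hz.trans hLK).trans nW) (pW.cop hx'.zpowers), eq_bot_iff, ← h]
  exact commSS ((commSS le_rfl (hz.trans hLK)).trans h3) (hz.trans hLK)

end Cfsg.Agent.S1851
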