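import Cfsg.Statements.S1970
import Mathlib
import Cfsg.Agent.H21.SecTr

set_option autoImplicit false
universe u
open Cfsg

namespace Cfsg.Agent.S1970

open Subgroup Cfsg.Agent.H22 Cfsg.Agent.H18 Cfsg.Agent.H21

/-- Let p be a prime, G a finite group and W an isomorphism-invariant p-group functor (W assigns to every group Q a subgroup W(Q), nontrivial whenever Q is a nontrivial finite p-group, and every isomorphism from a finite p-group Q onto a group R carries W(Q) onto W(R)). Suppose that for every section G* = K/R of G with C_{G*}(O_p(G*)) ≤ O_p(G*) and every Sylow p-subgroup S* of G*, one has O_p(G*) ∩ (G*)' = O_p(G*) ∩ (N_{G*}(W(S*)))'. Then W controls transfer in every section G* of G: S* ∩ (G*)' = S* ∩ (N_{G*}(W(S*)))' for a Sylow p-subgroup S* of G*. -/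
theorem result {G : Type u} [Group G] [Finite G] {p : ℕ} [Fact p.Prime] (W : ∀ (Q : Type u) [Group Q], Subgroup Q) (hW : Cfsg.IsCharPFunctor.{u} p W) (hloc : ∀ (K R : Subgroup G) [hR : (R.subgroupOf K).Normal], Subgroup.centralizer ((Cfsg.pCore p (↥K ⧸ R.subgroupOf K) : Subgroup (↥K ⧸ R.subgroupOf K)) : Set (↥K ⧸ R.subgroupOf K)) ≤ Cfsg.pCore p (↥K ⧸ R.subgroupOf K) → ∀ T : Sylow p (↥K ⧸ R.subgroupOf K), Cfsg.pCore p (↥K ⧸ R.subgroupOf K) ⊓ commutator (↥K ⧸ R.subgroupOf K) = Cfsg.pCore p (↥K ⧸ R.subgroupOf K) ⊓ ⁅Subgroup.normalizer ((Cfsg.inducedFunctor (G := (↥K ⧸ R.subgroupOf K)) W ((T : Subgroup (↥K ⧸ R.subgroupOf K))) : Subgroup (↥K ⧸ R.subgroupOf K)) : Set (↥K ⧸ R.subgroupOf K)), Subgroup.normalizer ((Cfsg.inducedFunctor (G := (↥K ⧸ R.subgroupOf K)) W ((T : Subgroup (↥K ⧸ R.subgroupOf K))) : Subgroup (↥K ⧸ R.subgroupOf K)) : Set (↥K ⧸ R.subgroupOf K))⁆) : ∀ (K R : Subgroup G) [hR : (R.subgroupOf K).Normal], Cfsg.ControlsTransferIn p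 (Cfsg.inducedFunctor (G := (↥K ⧸ R.subgroupOf K)) W) ⊤ := by
  intro K R _
  refine (trT_single_iff hW).1 (trT_of_inf (G := G) hW (fun X _ _ hX hc S hS => ?_) _ (Sec.section' K R))
  obtain ⟨K, R, _, ⟨e⟩⟩ := hX.exists_equiv
  obtain ⟨T, rfl⟩ := exists_sylow_map_equiv e hS
  have := map_mono (f := e.toMonoidHom) ((hloc K R (chp_of_equiv e.symm hc) T).le.trans inf_le_right)
  rwa [Subgroup.map_inf _ _ _ e.injective, map_pCore_equiv, _root_.commutator_def, map_commutator,
    map_commutator, map_top_of_surjective _ e.surjective, map_N_equiv,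
    map_induced_equiv hW e T.isPGroup'] at this

end Cfsg.Agent.S1970
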