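import Cfsg.Statements.S1985
import Mathlib
import Cfsg.Agent.H5.Weak

set_option autoImplicit false
universe u
open Cfsg

namespace Cfsg.Agent.S1985

open Subgroup Cfsg.Agent.H22 Cfsg.Agent.H5b
open Cfsg.Agent.H18 hiding cj mem_cj conj_mem_cj conj_mem_cj_iff cj_le_iff cj_cj cj_one cj_inv_cj
  cj_cj_inv cj_mono cj_inf cj_sup cj_eq_iff cj_eq_of_mem cj_eq_of_normal cj_top card_cj isPGroup_cj
open scoped commutatorElement

/-- Let p be an odd prime and G a finite group. Then the lower K-infinity subgroup controls weak closure of elements in G: the lower K-infinity subgroup of every p-subgroup P of G contains Z(P), and for some (equivalently, every) Sylow p-subgroup S of G, with K the lower K-infinity subgroup of S, every element of S commuting with all of N_G(K) is weakly closed in S with respect to G (every G-conjugate of it lying in S equals it). -/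
theorem result {G : Type u} [Group G] [Finite G] {p : ℕ} [Fact p.Prime] (hp : p ≠ 2) : Cfsg.ControlsWeakClosureOfElementsIn p (Cfsg.inducedFunctor (G := G) Cfsg.kInfLower) ⊤ := by
  refine wc_of_deg (H21.cf_induced (H21.isCharPFunctor_kInfLower p)) (fun P _ => ?_)
    (fun H T hT hn => ?_) ⊤
  · rw [H21.inducedFunctor_kInfLower]; exact H21.center_le_kL P
  rw [H21.inducedFunctor_kInfLower] at hn
  obtain ⟨g, h1, h2, h3⟩ := kL_quad H T hT hn
  refine ⟨g, h1, h2, fun U V hUV hU => ?_⟩
  have h4 : 2 ≤ p - 1 := by
    have := (Fact.out : p.Prime).two_le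
    omega
  have hn := hUV.2.1
  refine (H21.ic_anti ((zpowers_le.2 (hT.le h1)).trans (le_N_map_subtype U)) h4).trans ?_
  refine le_trans ?_ (h3.le.trans bot_le)
  exact commutator_mono (commutator_mono hU le_rfl) le_rfl

end Cfsg.Agent.S1985
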