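import Cfsg.Statements.S1989
import Mathlib
import Cfsg.Agent.H5.QdFree

set_option autoImplicit false
universe u
open Cfsg

namespace Cfsg.Agent.S1989

open Subgroup Cfsg.Agent.H18 Cfsg.Agent.H22 Cfsg.Agent.H5b
open scoped commutatorElement

/-- Let p be an odd prime and G a finite group. Then Qd(p) (the natural semidirect product of an elementary abelian group of order p² by SL₂(p)) is not involved in G if and only if, in every section K/R of G and for every Sylow p-subgroup T of K/R, the lower K-infinity subgroup of T controls strong fusion in K/R. -/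
theorem result {G : Type u} [Group G] [Finite G] {p : ℕ} [Fact p.Prime] (hp : p ≠ 2) : ¬ Cfsg.Involves ↥(Cfsg.qd p) G ↔ ∀ (K R : Subgroup G) [hR : (R.subgroupOf K).Normal], ∀ T : Sylow p (↥K ⧸ R.subgroupOf K), Cfsg.ControlsStrongFusion p (Cfsg.inducedFunctor (G := (↥K ⧸ R.subgroupOf K)) Cfsg.kInfLower (T : Subgroup (↥K ⧸ R.subgroupOf K))) := by
  constructor
  · intro h K R _ T
    exact (H21.fusT_kInf_of_stable fun X _ hX => by
      haveI := hX.finite
      exact isNormalizerPStable_of_qdFree hp
        (not_involves_of_sec h ((H21.Sec.section' K R).trans hX))).1.controls T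
  · intro h hq
    obtain ⟨K, R, _, hb⟩ := exists_badFus_section hq
    obtain ⟨S, hS⟩ := hb.exists_not_controls
    have hW := H21.isCharPFunctor_kInfLower.{u} p
    exact hS _ (H21.inducedFunctor_le _ _)
      ((H21.cf_induced hW _ S.isPGroup').2.1 (hb.sylow_ne_bot S))
      (charIn_induced hW S.isPGroup') (h K R S)

end Cfsg.Agent.S1989
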