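import Cfsg.Statements.S1990
import Mathlib
import Cfsg.Agent.H21.NPC
import Cfsg.Agent.H5.Stable

set_option autoImplicit false
universe u
open Cfsg

namespace Cfsg.Agent.S1990

open Subgroup Cfsg.Agent.H22 Cfsg.Agent.H18 Cfsg.Agent.H21

theorem solv_ab2 {X : Type*} [Group X] [Finite X] {p : ℕ} [Fact p.Prime] (hp : p ≠ 2)
    (h : Cfsg.HasNormalPComplement p X) {S : Subgroup X} (hS : SylIn p S ⊤) (hmax : IsCoatom S) :
    Group.IsSolvable X ∧ H5b.Ab2 X := by
  have hc := H4.hasNPC_iff_pResidual.1 h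
  have h0 : Nat.card (Cfsg.pResidual p X) ≠ 1 := by
    rw [Ne, card_eq_one, H4.pResidual_eq_bot_iff]
    exact fun h => hmax.1 (hS.eq_of_isPGroup (h.to_subgroup ⊤))
  obtain ⟨q, hq, hd⟩ := Nat.exists_prime_and_dvd h0
  have := Fact.mk hq
  obtain ⟨T, hT⟩ := H1.exists_invariant_sylow S (Cfsg.pResidual p X) (le_N_of_normal _ _)
    (pgrp_coprime hS.isP hc).symm (Or.inl (pgrp_solvable hS.isP)) q
  have hT' := sylIn_map_subtype T
  set Z := (T : Subgroup (Cfsg.pResidual p X)).map (Cfsg.pResidual p X).subtype ⊓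
    C[(T : Subgroup (Cfsg.pResidual p X)).map (Cfsg.pResidual p X).subtype] with hZ
  have hZ0 : Z ≠ ⊥ := pgrp_center_ne_bot hT'.isP (syl_ne_bot hT' hd)
  have hZc : Z ≤ C[Z] := H22.center_le_C _
  have hSZ : S ≤ N[Z] := le_N_inf hT (le_N_C hT)
  have h1 : S ⊔ Z = ⊤ := hmax.2 _ (left_lt_sup.2 fun h => hZ0 (le_bot_iff.1
    ((le_inf h (inf_le_left.trans hT'.le)).trans (pgrp_inf_eq_bot hS.isP hc).le)))
  constructor
  · have : IsMulCommutative Z := isMulComm_iff.2 hZc
    have h2 : Group.IsSolvable Z := Group.isSolvable_of_comm this.is_comm.comm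
    have h3 := pgrp_solvable hS.isP
    have := H2.isSolvable_sup_of_le_normalizer hSZ
    rw [h1] at this
    exact H2.isSolvable_of_equiv topEquiv
  · intro A hA
    have : Fact (Nat.Prime 2) := ⟨Nat.prime_two⟩
    have h2 : A ≤ Z := (le_pResidualOf le_top (pgrp_coprime hA
      ((Nat.coprime_primes Fact.out Nat.prime_two).2 hp)).symm).trans
      (pResidualOf_le_of_le_sup hS.isP hSZ (by rw [sup_comm, h1]))
    exact isMulComm_iff.2 (h2.trans (hZc.trans (C_anti h2)))

/-- Let p be an odd prime, G a finite group with Sylow p-subgroup S, and W an isomorphism-invariant p-group functor (W assigns to every group Q a subgroup W(Q), nontrivial whenever Q is a nontrivial finite p-group, and every isomorphism from a finite p-group Q onto a group R carries W(Q) onto W(R)). Suppose N_G(W(S)) has a normal p-complement, and W(T) controls strong fusion in every section G* = K/R of G all of whose sections are p-stable in the normalizer form, for every Sylow p-subgroup T of G*. Then G has a normal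 p-complement. -/
theorem result {G : Type u} [Group G] [Finite G] {p : ℕ} [Fact p.Prime] (hp : p ≠ 2) (W : ∀ (Q : Type u) [Group Q], Subgroup Q) (hW : Cfsg.IsCharPFunctor.{u} p W) (S : Sylow p G) (hN : Cfsg.HasNormalPComplement p ↥(Subgroup.normalizer ((Cfsg.inducedFunctor (G := G) W (S : Subgroup G) : Subgroup G) : Set G))) (hctl : ∀ (K R : Subgroup G) [hR : (R.subgroupOf K).Normal], (∀ (K' R' : Subgroup (↥K ⧸ R.subgroupOf K)) [hR' : (R'.subgroupOf K').Normal], Cfsg.IsNormalizerPStable p (↥K' ⧸ R'.subgroupOf K')) → ∀ T : Sylow p (↥K ⧸ R.subgroupOf K), Cfsg.ControlsStrongFusion p (Cfsg.inducedFunctor (G := (↥K ⧸ R.subgroupOf K)) W (T : Subgroup (↥K ⧸ R.subgroupOf K)))) : Cfsg.HasNormalPComplement p G := by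
  refine hasNPC_of_functor (G := G) hW (fun X _ _ _ hX hc hq S hS hmax => ?_) G (Sec.refl G) S
    (sylIn_top S) hN
  have hs := QuotientGroup.mk'_surjective (Cfsg.pCore p X)
  have hQS := pCore_le_syl hS
  obtain ⟨h1, h2⟩ := solv_ab2 hp hq (sylIn_map_top hS _ hs) (by
    refine ⟨fun h => hmax.1 ?_, fun H hH => ?_⟩
    · have := congrArg (comap (QuotientGroup.mk' (Cfsg.pCore p X))) h
      rwa [comap_map_eq, QuotientGroup.ker_mk', sup_eq_left.2 hQS] at this
    · rw [← map_comap_eq_self_of_surjective hs H, hmax.2 (H.comap _) ?_, map_top_of_surjective _ hs]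
      refine lt_of_le_of_ne (map_le_iff_le_comap.1 hH.le) fun e => hH.ne ?_
      rw [e, map_comap_eq_self_of_surjective hs])
  have h3 : Group.IsSolvable X := by
    have := pgrp_solvable (pgrp_pCore (p := p) (G := X))
    exact Group.isSolvable_of_ker_le_range (Cfsg.pCore p X).subtype (QuotientGroup.mk' (Cfsg.pCore p X))
      (by simp)
  have h4 : H5b.Ab2 X := by
    intro A hA
    have : Fact (Nat.Prime 2) := ⟨Nat.prime_two⟩
    have h5 := le_C_iff_comm.1 (isMulComm_iff.1 (h2 _ (hA.map (QuotientGroup.mk' _))))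
    rw [← map_commutator, Subgroup.map_eq_bot_iff, QuotientGroup.ker_mk'] at h5
    refine isMulComm_iff.2 (le_C_iff_comm.2 (le_bot_iff.1 ((le_inf h5 (commutator_le_self A)).trans
      (pgrp_inf_eq_bot pgrp_pCore ?_).le)))
    exact (pgrp_coprime hA ((Nat.coprime_primes Fact.out Nat.prime_two).2 hp)).symm
  obtain ⟨K, R, _, ⟨e⟩⟩ := hX.exists_equiv
  obtain ⟨T, rfl⟩ := exists_sylow_map_equiv e hS
  rw [induced_normal_equiv hW e T.isPGroup']
  obtain ⟨T', -, h5⟩ := hctl K R (fun K' R' _ => by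
    obtain ⟨L, f, hf⟩ := (Sec.of_surjective e.symm.toMonoidHom e.symm.surjective).trans
      (Sec.section' K' R')
    refine H5b.isNormalizerPStable_of_qf (H5b.qf_subgroup_of_pSolvable hp
      (H1.isPSolvable_of_isSolvable Fact.out (Group.isSolvable_of_surjective hf))
      fun _ => (h4.subgroup L).of_surjective f hf)) T
  refine normal_of_top_le_N fun g _ => ?_
  have := normal_pCore (p := p) (G := K ⧸ R.subgroupOf K)
  obtain ⟨x, hx, h6⟩ := (h5 _ (pCore_le_sylow T')).2 g (by
    rintro _ ⟨a, ha, rfl⟩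
    exact pCore_le_sylow T' (this.conj_mem a ha g))
  have h7 := chp_of_equiv e.symm hc (agree_iff_mem_C.1 h6)
  have := mul_mem hx (cf_N_le (cf_induced hW) T.isPGroup' (le_normalizer (pCore_le_sylow T h7)))
  simpa using this

end Cfsg.Agent.S1990
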