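import Cfsg.Statements.S1992
import Mathlib
import Cfsg.Agent.H21.SecTr
import Cfsg.Agent.S1991
import Cfsg.Agent.S0144

set_option autoImplicit false
open Cfsg

namespace Cfsg.Agent.S1992

open Subgroup Cfsg.Agent.H22 Cfsg.Agent.H18 Cfsg.Agent.H21

/-- Let G be a finite group in which, for every prime q dividing the order of G, every Sylow q-subgroup is its own normalizer. Then the order of G is a power of a single prime (G is a q-group for some prime q; for G trivial any prime works). -/
theorem result {G : Type*} [Group G] [Finite G] (h : ∀ q : ℕ, q.Prime → q ∣ Nat.card G → ∀ Q : Sylow q G, Subgroup.normalizer ((Q : Subgroup G) : Set G) = Q) : ∃ q : ℕ, q.Prime ∧ IsPGroup q G := by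
  have key : ∀ q : ℕ, q.Prime → ∀ K : Subgroup G, K.Normal → K.index = q → IsPGroup q G := by
    intro q hq K _ hK
    have := Fact.mk hq
    rw [IsPGroup.iff_card]
    refine ⟨_, Nat.eq_prime_pow_of_unique_prime_dvd Nat.card_pos.ne' fun {r} hr hd => ?_⟩
    by_contra hne
    have := Fact.mk hr
    obtain ⟨R⟩ := (inferInstance : Nonempty (Sylow r G))
    have h1 : (R : Subgroup G) ≤ K := by
      intro x hx
      obtain ⟨k, hk⟩ := pgrp_iff_orderOf.1 R.isPGroup' x hx
      refine mem_of_pow_mem_of_coprime (K.pow_index_mem x) ?_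
      rw [hK, hk]
      exact ((Nat.coprime_primes hq hr).2 (Ne.symm hne)).pow_right _
    have h2 := syl_frattini_sup ((sylIn_top R).mono h1 le_top) (H := ⊤) le_top (le_N_of_normal _ _)
    rw [h r hr hd R, top_inf_eq, sup_eq_left.2 h1] at h2
    rw [h2, index_top] at hK
    exact hq.one_lt.ne hK
  by_cases h5 : ∃ q : ℕ, q.Prime ∧ q ∣ Nat.card G ∧ 5 ≤ q
  · obtain ⟨q, hq, hd, h5⟩ := h5
    have := Fact.mk hq
    obtain ⟨Q⟩ := (inferInstance : Nonempty (Sylow q G))
    obtain ⟨K, h1, h2⟩ := S1991.result h5 Q (syl_ne_bot (sylIn_top Q) (by simpa using hd)) (by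
      intro g hg hc
      rw [h q hq hd Q] at hg
      rw [eq_one_of_pgrp_of_coprime Q.isPGroup' hg hc]
      exact one_mem _)
    exact ⟨q, hq, key q hq K h1 h2⟩
  rcases subsingleton_or_nontrivial G with hG | hG
  · exact ⟨2, Nat.prime_two, fun g => ⟨0, Subsingleton.elim _ _⟩⟩
  have hc : Nat.card G = 2 ^ (Nat.card G).factorization 2 * 3 ^ (Nat.card G).factorization 3 := by
    conv_lhs => rw [← Nat.prod_factorization_pow_eq_self (Nat.card_pos (α := G)).ne']
    rw [Finsupp.prod_of_support_subset _ (s := {2, 3}) ?_ _ (by simp)]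
    · simp
    · intro q hq
      rw [Nat.support_factorization, Nat.mem_primeFactors] at hq
      have h1 : q < 5 := not_le.1 fun h' => h5 ⟨q, hq.1, hq.2.1, h'⟩
      have h2 := hq.1.two_le
      have h3 : q ≠ 4 := by rintro rfl; exact absurd hq.1 (by norm_num)
      simp; omega
  have := S0144.result 2 3 _ _ Nat.prime_two Nat.prime_three hc
  obtain ⟨M, hM, h1⟩ := (eq_top_or_exists_le_coatom (_root_.commutator G)).resolve_left
    (Group.IsSolvable.commutator_lt_top_of_nontrivial G).ne
  have hn : M.Normal := ⟨fun m hm g => by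
    have := M.mul_mem (h1 (commutator_mem_commutator (mem_top g) (mem_top m))) hm
    simpa [commutatorElement_def] using this⟩
  have hs : IsSimpleGroup (G ⧸ M) := by
    have : Nontrivial (G ⧸ M) := by
      rw [QuotientGroup.nontrivial_iff]; exact hM.1
    refine ⟨fun K hK => ?_⟩
    have h2 : M ≤ K.comap (QuotientGroup.mk' M) := (QuotientGroup.ker_mk' M).ge.trans (ker_le_comap _ _)
    have e := map_comap_eq_self_of_surjective (QuotientGroup.mk'_surjective M) K
    rcases h2.eq_or_lt with h3 | h3
    · left; rw [← e, ← h3, Subgroup.map_eq_bot_iff, QuotientGroup.ker_mk']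
    · right; rw [← e, hM.2 _ h3, map_top_of_surjective _ (QuotientGroup.mk'_surjective M)]
  have hcomm : IsMulCommutative (G ⧸ M) := Normal.quotient_commutative_iff_commutator_le.2 h1
  have hq : M.index.Prime := by
    let _ : CommGroup (G ⧸ M) := { (inferInstance : Group (G ⧸ M)) with mul_comm := hcomm.is_comm.comm }
    exact IsSimpleGroup.prime_card
  exact ⟨_, hq, key _ hq M hn rfl⟩

end Cfsg.Agent.S1992
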