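import Cfsg.Statements.S1996
import Mathlib
import Cfsg.Agent.H21.FusMin

set_option autoImplicit false
universe u
open Cfsg

namespace Cfsg.Agent.S1996

open Subgroup Cfsg.Agent.H22 Cfsg.Agent.H18 Cfsg.Agent.H21

/-- Let p be a prime, G a finite group and W₁, W₂ two isomorphism-invariant p-group functors (W assigns to every group Q a subgroup W(Q), nontrivial whenever Q is a nontrivial finite p-group, and every isomorphism from a finite p-group Q onto a group R carries W(Q) onto W(R)). Suppose that G* = N_{G*}(W₁(S*)) N_{G*}(W₂(S*)) whenever G* = K/R is a section of G with C_{G*}(O_p(G*)) ≤ O_p(G*) and S* is a Sylow p-subgroup of G*. Then the pair {W₁, W₂} controls strong fusion in G. -/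
theorem result {G : Type u} [Group G] [Finite G] {p : ℕ} [Fact p.Prime] (W₁ W₂ : ∀ (Q : Type u) [Group Q], Subgroup Q) (hW₁ : Cfsg.IsCharPFunctor.{u} p W₁) (hW₂ : Cfsg.IsCharPFunctor.{u} p W₂) (hfac : ∀ (K R : Subgroup G) [hR : (R.subgroupOf K).Normal], Subgroup.centralizer ((Cfsg.pCore p (↥K ⧸ R.subgroupOf K) : Subgroup (↥K ⧸ R.subgroupOf K)) : Set (↥K ⧸ R.subgroupOf K)) ≤ Cfsg.pCore p (↥K ⧸ R.subgroupOf K) → ∀ T : Sylow p (↥K ⧸ R.subgroupOf K), ∀ x : (↥K ⧸ R.subgroupOf K), ∃ a ∈ Subgroup.normalizer ((Cfsg.inducedFunctor (G := (↥K ⧸ R.subgroupOf K)) W₁ (T : Subgroup (↥K ⧸ R.subgroupOf K)) : Subgroup (↥K ⧸ R.subgroupOf K)) : Set (↥K ⧸ R.subgroupOf K)), ∃ b ∈ Subgroup.normalizer ((Cfsg.inducedFunctor (G := (↥K ⧸ R.subgroupOf K)) W₂ (T : Subgroup (↥K ⧸ R.subgroupOf K)) : Subgroup (↥K ⧸ R.subgroupOf K)) : Set (↥K ⧸ R.subgroupOf K)), x = a * b) : Cfsg.FamilyControlsStrongFusionIn p {Cfsg.inducedFunctor (G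 := G) W₁, Cfsg.inducedFunctor (G := G) W₂} ⊤ := by
  have := (fusT_iff (by simp [hW₁, hW₂])).1 (fusT_pair (G := G) hW₁ hW₂ fun X _ _ hX hc S hS x => ?_)
  · rwa [IW, Set.image_pair] at this
  obtain ⟨K, R, _, ⟨e⟩⟩ := hX.exists_equiv
  obtain ⟨T, rfl⟩ := exists_sylow_map_equiv e hS
  obtain ⟨a, ha, b, hb, h⟩ := hfac K R (chp_of_equiv e.symm hc) T (e.symm x)
  rw [← map_induced_equiv hW₁ e T.isPGroup', ← map_induced_equiv hW₂ e T.isPGroup', ← map_N_equiv,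
    ← map_N_equiv]
  exact ⟨e a, mem_map_of_mem e.toMonoidHom ha, e b, mem_map_of_mem e.toMonoidHom hb, by
    rw [← map_mul, ← h, e.apply_symm_apply]⟩

end Cfsg.Agent.S1996
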