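import Cfsg.Statements.S2007
import Mathlib
import Cfsg.Agent.H21.Ctl
import Cfsg.Agent.H4.PComp
import Cfsg.Agent.H22.Cop

set_option autoImplicit false
open Cfsg

namespace Cfsg.Agent.S2007

open Subgroup Cfsg.Agent.H22 Cfsg.Agent.H18

/-- Let p be a prime, G a finite group with Sylow p-subgroup S, and T a normal subgroup of S containing C_S(T). If N_G(T)/C_G(T) is a p-group (every element of N_G(T) of order prime to p centralizes T), then N_G(T) has a normal p-complement. -/
theorem result {G : Type*} [Group G] [Finite G] {p : ℕ} [Fact p.Prime] (S : Sylow p G) (T : Subgroup G) (hTS : T ≤ (S : Subgroup G)) (hTn : (S : Subgroup G) ≤ Subgroup.normalizer ((T : Subgroup G) : Set G)) (hC : (S : Subgroup G) ⊓ Subgroup.centralizer ((T : Subgroup G) : Set G) ≤ T) (hN : ∀ g ∈ Subgroup.normalizer ((T : Subgroup G) : Set G), (orderOf g).Coprime p → g ∈ Subgroup.centralizer ((T : Subgroup G) : Set G)) : Cfsg.HasNormalPComplement p ↥(Subgroup.normalizer ((T : Subgroup G) : Set G)) := by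
  have hS : SylIn p (S : Subgroup G) N[T] := (sylIn_top S).mono hTn le_top
  have h1 := syl_inf' hS (N_le_N_C T) (C_le_N T)
  obtain ⟨P, hP⟩ := h1.exists_sylow
  have h2 : Cfsg.HasNormalPComplement p C[T] := by
    refine H4.hasNPC_of_sylow_le_center P fun x hx => ?_
    rw [hP] at hx
    rw [mem_center_iff]
    intro c
    exact Subtype.ext (mem_C.1 c.2 _ (hC hx)).symm
  refine H4.hasNPC_of_pResidual_le (H := C[T].subgroupOf N[T]) ?_
    ((H4.hasNPC_subgroupOf_iff (C_le_N T)).2 h2)
  rw [Cfsg.pResidual, closure_le]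
  intro g hg
  exact hN g g.2 (by simpa using hg)

end Cfsg.Agent.S2007
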