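import Cfsg.Statements.S2009
import Cfsg.Agent.H5.Frob
import Cfsg.Agent.H23.Klein4
-- import your own Cfsg.Agent.* helpers here

set_option autoImplicit false
open Cfsg

namespace Cfsg.Agent.S2009

/-- Let H be a finite group and z an involution such that every proper normal subgroup of H meets the centralizer of z trivially, and suppose z lies in a Klein four-subgroup E of H all three of whose involutions are conjugate to z in H. Then H is simple. -/
theorem result {H : Type*} [Group H] [Finite H] (z : H) (hz : orderOf z = 2) (hN : ∀ N : Subgroup H, N.Normal → N ≠ ⊤ → N ⊓ Subgroup.centralizer ({z} : Set H) = ⊥) (E : Subgroup H) (hE : IsKleinFour ↥E) (hzE : z ∈ E) (hc : ∀ e ∈ E, e ≠ 1 → IsConj z e) : IsSimpleGroup H := by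
  have hz1 : z ≠ 1 := H20.ne_one_of_orderOf_two hz
  have : Nontrivial H := ⟨z, 1, hz1⟩
  refine ⟨fun N hNn => ?_⟩
  by_cases hT : N = ⊤
  · exact Or.inr hT
  left
  have hreg : ∀ e ∈ E, e ≠ 1 → N ⊓ Subgroup.centralizer ({e} : Set H) = ⊥ := by
    intro e he he1
    obtain ⟨g, hg⟩ := isConj_iff.mp (hc e he he1)
    rw [eq_bot_iff]
    rintro x ⟨hx, hxe⟩
    have h1 : g⁻¹ * x * g⁻¹⁻¹ ∈ N ⊓ Subgroup.centralizer ({z} : Set H) := by
      refine ⟨hNn.conj_mem x hx _, Subgroup.mem_centralizer_singleton_iff.mpr ?_⟩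
      have := Subgroup.mem_centralizer_singleton_iff.mp hxe
      rw [← hg] at this
      calc g⁻¹ * x * g⁻¹⁻¹ * z = g⁻¹ * (x * (g * z * g⁻¹)) * g := by group
        _ = z * (g⁻¹ * x * g⁻¹⁻¹) := by rw [this]; group
    rw [hN N hNn hT, Subgroup.mem_bot] at h1
    have : x = g * (g⁻¹ * x * g⁻¹⁻¹) * g⁻¹ := by group
    rw [Subgroup.mem_bot, this, h1]; group
  have hinv : ∀ e ∈ E, e ≠ 1 → ∀ k ∈ N, e * k * e⁻¹ = k⁻¹ := fun e he he1 k hk =>
    H5b.conj_eq_inv_of_reg (by rw [Subgroup.normalizer_eq_top_iff.mpr hNn]; trivial)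
      (H23.k4_sq hE he) (hreg e he he1) hk
  have h3 := H23.k4_card_ne_one hE
  obtain ⟨⟨a, ha, ha1⟩, hne⟩ : ∃ a : {x : H // x ∈ E ∧ x ≠ 1}, a ≠ ⟨z, hzE, hz1⟩ := by
    have : Nontrivial {x : H // x ∈ E ∧ x ≠ 1} := Finite.one_lt_card_iff_nontrivial.mp (by omega)
    exact exists_ne _
  have haz : a ≠ z := fun e => hne (Subtype.ext e)
  have h1 : a * z ≠ 1 := fun e => haz (by
    rw [eq_inv_of_mul_eq_one_left e, H23.k4_inv hE hzE])
  rw [eq_bot_iff]
  intro k hk
  rw [← hreg (a * z) (E.mul_mem ha hzE) h1]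
  refine ⟨hk, Subgroup.mem_centralizer_singleton_iff.mpr ?_⟩
  have e1 := hinv z hzE hz1 k hk
  have e2 := hinv a ha ha1 k⁻¹ (N.inv_mem hk)
  calc k * (a * z) = (a * k⁻¹ * a⁻¹) * (a * z) := by rw [e2, inv_inv]
    _ = (a * (z * k * z⁻¹) * a⁻¹) * (a * z) := by rw [e1]
    _ = a * z * k := by group

end Cfsg.Agent.S2009
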