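import Cfsg.Statements.S2008
import Cfsg.Agent.S2009
-- import your own Cfsg.Agent.* helpers here

set_option autoImplicit false
open Cfsg

namespace Cfsg.Agent.S2008

/-- Let H be a finite group and z an involution such that every proper normal subgroup of H meets the centralizer of z trivially, and suppose z lies in a Klein four-subgroup E of H all three of whose involutions are conjugate to z in H. Then H has no non-trivial abelian normal subgroup. -/
theorem result {H : Type*} [Group H] [Finite H] (z : H) (hz : orderOf z = 2) (hN : ∀ N : Subgroup H, N.Normal → N ≠ ⊤ → N ⊓ Subgroup.centralizer ({z} : Set H) = ⊥) (E : Subgroup H) (hE : IsKleinFour ↥E) (hzE : z ∈ E) (hc : ∀ e ∈ E, e ≠ 1 → IsConj z e) (N : Subgroup H) [N.Normal] (hab : IsMulCommutative ↥N) : N = ⊥ := by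
  have := S2009.result z hz hN E hE hzE hc
  rcases ‹N.Normal›.eq_bot_or_eq_top with e | e
  · exact e
  exfalso
  subst e
  have hz1 : z ≠ 1 := H20.ne_one_of_orderOf_two hz
  have h3 := H23.k4_card_ne_one hE
  obtain ⟨⟨a, ha, ha1⟩, hne⟩ : ∃ a : {x : H // x ∈ E ∧ x ≠ 1}, a ≠ ⟨z, hzE, hz1⟩ := by
    have : Nontrivial {x : H // x ∈ E ∧ x ≠ 1} := Finite.one_lt_card_iff_nontrivial.mp (by omega)
    exact exists_ne _
  obtain ⟨g, hg⟩ := isConj_iff.mp (hc a ha ha1)
  apply hne
  apply Subtype.ext
  have := congrArg Subtype.val (hab.is_comm.comm ⟨g, trivial⟩ ⟨z, trivial⟩)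
  simp only [Subgroup.coe_mul] at this
  show a = z
  rw [← hg, this]; group

end Cfsg.Agent.S2008
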