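import Cfsg.Statements.S2086
import Mathlib
import Cfsg.Agent.H17.MulA

set_option autoImplicit false
open Cfsg

namespace Cfsg.Agent.S2086

open Cfsg.Agent.H17
open scoped commutatorElement


/-- Schur multipliers of the linear groups: for n ≥ 2 and a field F with q elements (q ≥ 4 when n = 2), apart from the five exceptional pairs (n, q) = (2, 4), (2, 9), (3, 2), (3, 4), (4, 2), the Schur multiplier of PSL_n(F) is cyclic of order gcd(n, q − 1); here the Schur multiplier is described through stem extensions, as in the definitions. -/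
theorem result {F : Type*} [Field F] [Fintype F] {q : ℕ} (hF : Fintype.card F = q) (n : ℕ) (hn : 2 ≤ n) (h2 : n = 2 → 4 ≤ q) (hexc : (n, q) ∉ ({(2, 4), (2, 9), (3, 2), (3, 4), (4, 2)} : Set (ℕ × ℕ))) : Cfsg.HasCyclicSchurMultiplier (Matrix.ProjectiveSpecialLinearGroup (Fin n) F) (Nat.gcd n (q - 1)) := by
  subst hF
  obtain ⟨m, rfl⟩ : ∃ m, n = m + 1 := ⟨n - 1, by omega⟩
  simp only [Set.mem_insert_iff, Set.mem_singleton_iff, Prod.mk.injEq, not_or, not_and] at hexc
  refine MB.hasCyclic_quot ?_ (H10.commutator_SL_fin_eq_top hn (by simpa using h2)) ?_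
    (H10.card_center_SL_fin _ (by omega))
  · rcases (by omega : m = 1 ∨ 2 ≤ m) with rfl | h
    · exact TA.mb_two (hexc.1 rfl) (hexc.2.1 rfl)
    · exact TA.mb_big h (fun e => by omega) fun e => by omega
  · exact isCyclic_of_surjective _
      (Matrix.SpecialLinearGroup.center_equiv_rootsOfUnity' (R := F) (0 : Fin (m + 1))).symm.surjective

end Cfsg.Agent.S2086
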