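import Cfsg.Statements.S2087
import Mathlib
import Cfsg.Agent.H28.L32

set_option autoImplicit false
open Cfsg

namespace Cfsg.Agent.S2087

/-- Exceptional Schur multiplier: over the field with 2 elements, PSL₃ has Schur multiplier cyclic of order 2 (here the Schur multiplier is described through stem extensions, as in the definitions). -/
theorem result {F : Type*} [Field F] [Fintype F] (hF : Fintype.card F = 2) : Cfsg.HasCyclicSchurMultiplier (Matrix.ProjectiveSpecialLinearGroup (Fin 3) F) 2 := by
  obtain ⟨φ, h⟩ := H28.fm2 hF
  have hc : Nat.card (Matrix.ProjectiveSpecialLinearGroup (Fin 3) F) = 168 := by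
    have h1 := S0243.result hF 3 (by norm_num)
    simp [Fin.prod_univ_three] at h1
    omega
  have : Finite (Matrix.ProjectiveSpecialLinearGroup (Fin 3) F) :=
    Nat.finite_of_card_ne_zero (by omega)
  obtain ⟨_, g, pt, H⟩ := H28.md_sl h H28.L32.hm (by decide) H28.L32.hAm H28.L32.hInj hc
  exact H28.L32.mult H

end Cfsg.Agent.S2087
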