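import Cfsg.Statements.S2090
import Mathlib
import Cfsg.Agent.H28.U43

set_option autoImplicit false
open Cfsg

namespace Cfsg.Agent.S2090

/-- Exceptional Schur multiplier: PSU₄(3), realised over the field with 9 elements, has Schur multiplier isomorphic to the product of cyclic groups of orders 4, 3 and 3 (order 36, not cyclic; here the Schur multiplier is described through stem extensions, as in the definitions). -/
theorem result {F : Type*} [Field F] [Fintype F] (hF : Fintype.card F = 9) : Cfsg.HasSchurMultiplier (Cfsg.PSU 4 F 3) (Multiplicative (ZMod 4 × ZMod 3 × ZMod 3)) := by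
  obtain ⟨φ, h⟩ := H28.fm9 hF
  have hc : Nat.card (Cfsg.PSU 4 F 3) = 3265920 := by
    have h1 := S0280.result (q := 3) hF 4 (by norm_num)
    simp [Finset.prod_range_succ, Nat.even_iff] at h1
    omega
  have : Finite (Cfsg.PSU 4 F 3) := Nat.finite_of_card_ne_zero (by omega)
  obtain ⟨_, g, pt, H⟩ := H28.md_su h (q := 3) hF (by norm_num) H28.U43.hm (by decide) H28.U43.hAm
    H28.U43.hInj hc
  exact H28.U43.mult H

end Cfsg.Agent.S2090
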