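import Cfsg.Statements.S2093
import Mathlib
import Cfsg.Agent.H28.Sp6

set_option autoImplicit false
open Cfsg

namespace Cfsg.Agent.S2093

/-- Exceptional Schur multiplier: over the field with 2 elements, PSp₆ has Schur multiplier cyclic of order 2 (here the Schur multiplier is described through stem extensions, as in the definitions). -/
theorem result {F : Type*} [Field F] [Fintype F] (hF : Fintype.card F = 2) : Cfsg.HasCyclicSchurMultiplier (Cfsg.PSp 3 F) 2 := by
  obtain ⟨φ, h⟩ := H28.fm2 hF
  have hc : Nat.card (Cfsg.PSp 3 F) = 1451520 := by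
    have h1 := Subgroup.card_eq_card_quotient_mul_card_subgroup
      (Subgroup.center (Matrix.symplecticGroup (Fin 3) F))
    rw [S0245.result hF 3, S0246.result hF 3 (by norm_num)] at h1
    simp [Finset.prod_range_succ] at h1
    exact h1.symm
  have : Finite (Cfsg.PSp 3 F) := Nat.finite_of_card_ne_zero (by omega)
  obtain ⟨_, g, pt, H⟩ := H28.md_sp h hF (J := H28.Sp6.J) (by
    have h2 : (-1 : F) = 1 := by
      have := H28.cast_eq_zero_of_card (p := 2) (k := 1) hF
      linear_combination -this
    ext i j
    rcases i with i | i <;> rcases j with j | j <;> fin_cases i <;> fin_cases j <;>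
      simp [Matrix.J, h2] <;> first | exact h.zero | exact h.one)
    H28.Sp6.hm (by decide) H28.Sp6.hAm H28.Sp6.hInj hc
  exact H28.Sp6.mult H

end Cfsg.Agent.S2093
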