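import Cfsg.Statements.S2095
import Mathlib
import Cfsg.Agent.H28.O7

set_option autoImplicit false
open Cfsg

namespace Cfsg.Agent.S2095

/-- Exceptional Schur multiplier: over the field with 3 elements, PΩ₇ (for the form x₀² + Σ xᵢyᵢ) has Schur multiplier cyclic of order 6 (the product of cyclic groups of orders 3 and 2; here the Schur multiplier is described through stem extensions, as in the definitions). -/
theorem result {F : Type*} [Field F] [Fintype F] (hF : Fintype.card F = 3) : Cfsg.HasCyclicSchurMultiplier (Cfsg.POmega F (Cfsg.quadFormOdd 3 F)) 6 := by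
  obtain ⟨φ, h⟩ := H28.fm3 hF
  have hc : Nat.card (Cfsg.POmega F (Cfsg.quadFormOdd 3 F)) = 4585351680 := by
    have h1 := S0292.result hF (by decide) 3 le_rfl
    simp [Finset.prod_range_succ] at h1
    omega
  have : Finite (Cfsg.POmega F (Cfsg.quadFormOdd 3 F)) := Nat.finite_of_card_ne_zero (by omega)
  have q := H11.isQuad_odd 3 F
  have h2 := H11.two_ne_zero_of_odd_card (F := F) (by rw [hF]; decide)
  have hB := H11.bOdd_sep 3 h2
  have hZ := q.center_commutator_eq_bot hB (q.nonExc_of_two_ne_zero hB h2) (by simp)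
    (Or.inr (q.negI_notMem_of_odd hB ⟨3, by simp⟩))
  obtain ⟨_, g, pt, H⟩ := H28.md_om h (n := 7)
    ((Equiv.sumCongr finOneEquiv.symm finSumFinEquiv).trans finSumFinEquiv) (Q := Cfsg.quadFormOdd 3 F)
    (QM := H28.O7.QM) (fun v => by
      have e : H28.matE φ ((Equiv.sumCongr finOneEquiv.symm (finSumFinEquiv (m := 3) (n := 3))).trans
          (finSumFinEquiv (m := 1) (n := 6))) (H28.ent H28.O7.QM) =
          Matrix.fromBlocks 1 0 0 (Matrix.fromBlocks 0 1 0 0) := by
        ext i j
        rcases i with i | i | i <;> rcases j with j | j | j <;> fin_cases i <;> fin_cases j <;>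
          first | exact h.zero | exact h.one
      rw [e, Matrix.fromBlocks_mulVec]
      simp [Cfsg.quadFormOdd, dotProduct, Matrix.fromBlocks_mulVec, sq])
    (eq_bot_iff.2 fun z hz => by
      have := (H11.mem_center_equiv (H11.omegaEquiv q) z).1 hz
      rw [hZ, Subgroup.mem_bot] at this
      exact Subgroup.mem_bot.2 ((H11.omegaEquiv q).map_eq_one_iff.1 this))
    H28.O7.hm (by decide) H28.O7.hAm H28.O7.hInj hc
  exact H28.O7.mult H

end Cfsg.Agent.S2095
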