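import Cfsg.Statements.S2096
import Mathlib
import Cfsg.Agent.H17.Spin

set_option autoImplicit false
open Cfsg

namespace Cfsg.Agent.S2096

open Cfsg.Agent.H17
open scoped commutatorElement


/-- Schur multipliers of the even-dimensional orthogonal groups of plus type and odd rank: for odd l ≥ 5 and a field F with q elements, the Schur multiplier of PΩ⁺_2l(F) (for the form Σ xᵢyᵢ) is cyclic of order gcd(4, q^l − 1); here the Schur multiplier is described through stem extensions, as in the definitions. -/
theorem result {F : Type*} [Field F] [Fintype F] {q : ℕ} (hF : Fintype.card F = q) (l : ℕ) (hl : 5 ≤ l) (hodd : Odd l) : Cfsg.HasCyclicSchurMultiplier (Cfsg.POmega F (Cfsg.quadFormPlus l F)) (Nat.gcd 4 (q ^ l - 1)) := by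
  subst hF
  have H := mb_plus (F := F) (m := l) (by omega) fun _ => hl
  have hq := Fintype.card_pos (α := F)
  have h1 := Nat.one_le_pow l _ hq
  by_cases h2 : (2 : F) = 0
  · have := even_of_two h2
    have : Fintype.card F ^ l % 2 = 0 := by rw [Nat.pow_mod, this, zero_pow (by omega), Nat.zero_mod]
    rw [show Nat.gcd 4 (Fintype.card F ^ l - 1) = 1 by
      rw [Nat.gcd_rec]
      rcases (by omega : (Fintype.card F ^ l - 1) % 4 = 1 ∨ (Fintype.card F ^ l - 1) % 4 = 3) with h | h <;>
        rw [h] <;> rfl]
    exact (mb_pomega_two (clPlus l F) (by simp; omega) h2 (H.2 h2)).hasCyclic_one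
  · have h3 := pow_mod_four (odd_of_two h2) l
    have h4 := H11.negI_mem_plus h2 l
    split_ifs at h3 with e
    · rw [show Nat.gcd 4 (Fintype.card F ^ l - 1) = 2 by
        rw [Nat.gcd_rec, show (Fintype.card F ^ l - 1) % 4 = 2 by omega]; rfl]
      exact pomega_two (clPlus l F) (by simp; omega) h2 H.1 (h4.not.2 (not_not.2 e))
    · rw [show Nat.gcd 4 (Fintype.card F ^ l - 1) = 4 by
        rw [Nat.gcd_rec, show (Fintype.card F ^ l - 1) % 4 = 0 by omega]; rfl]
      exact pomega_four (clPlus l F) (by simp; omega) h2 H.1 (by simp; omega) hodd (h4.2 e)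

end Cfsg.Agent.S2096
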