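import Cfsg.Statements.S2097
import Mathlib
import Cfsg.Agent.H17.Spin

set_option autoImplicit false
open Cfsg

namespace Cfsg.Agent.S2097

open Cfsg.Agent.H17
open scoped commutatorElement


/-- Schur multipliers of the even-dimensional orthogonal groups of plus type and even rank: for even l ≥ 4 and a field F with q elements, (l, q) ≠ (4, 2), the Schur multiplier of PΩ⁺_2l(F) (for the form Σ xᵢyᵢ) is the product of two cyclic groups of order gcd(2, q^l − 1) (so trivial for q even and a four-group for q odd; here the Schur multiplier is described through stem extensions, as in the definitions). -/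
theorem result {F : Type*} [Field F] [Fintype F] {q : ℕ} (hF : Fintype.card F = q) (l : ℕ) (hl : 4 ≤ l) (heven : Even l) (hexc : ¬ (l = 4 ∧ q = 2)) : Cfsg.HasSchurMultiplier (Cfsg.POmega F (Cfsg.quadFormPlus l F)) (Multiplicative (ZMod (Nat.gcd 2 (q ^ l - 1)) × ZMod (Nat.gcd 2 (q ^ l - 1)))) := by
  subst hF
  have H := mb_plus (F := F) (m := l) (by omega) fun _ => by omega
  have hq := Fintype.card_pos (α := F)
  have h1 := Nat.one_le_pow l _ hq
  by_cases h2 : (2 : F) = 0
  · have := even_of_two h2
    have : Fintype.card F ^ l % 2 = 0 := by rw [Nat.pow_mod, this, zero_pow (by omega), Nat.zero_mod]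
    rw [show Nat.gcd 2 (Fintype.card F ^ l - 1) = 1 by
      rw [Nat.gcd_rec, show (Fintype.card F ^ l - 1) % 2 = 1 by omega]; rfl]
    have h3 := mb_pomega_two (clPlus l F) (by simp; omega) h2 (H.2 h2)
    refine MB.hasSchur (τ := MonoidHom.id _) (by simpa using h3) ⟨Function.surjective_id, by simp, by simp⟩ ?_
    rw [MonoidHom.ker_id]
    haveI : Unique (Multiplicative (ZMod 1 × ZMod 1)) := ⟨⟨1⟩, fun _ => Subsingleton.elim _ _⟩
    exact MulEquiv.ofUnique
  · have h3 := odd_of_two h2
    have : Fintype.card F ^ l % 2 = 1 := by rw [Nat.pow_mod, h3, one_pow, Nat.one_mod]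
    rw [show Nat.gcd 2 (Fintype.card F ^ l - 1) = 2 by
      rw [Nat.gcd_rec, show (Fintype.card F ^ l - 1) % 2 = 0 by omega]; rfl]
    exact pomega_klein (clPlus l F) (by simp; omega) h2 H.1 (by simp; omega) heven
      ((H11.negI_mem_plus h2 l).2 fun e => Nat.not_odd_iff_even.2 heven e.1)

end Cfsg.Agent.S2097
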