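import Cfsg.Statements.S2098
import Mathlib
import Cfsg.Agent.H28.O8

set_option autoImplicit false
open Cfsg

namespace Cfsg.Agent.S2098

/-- Exceptional Schur multiplier: over the field with 2 elements, PΩ⁺₈ (for the form Σ xᵢyᵢ) has Schur multiplier a four-group, the product of two cyclic groups of order 2 (here the Schur multiplier is described through stem extensions, as in the definitions). -/
theorem result {F : Type*} [Field F] [Fintype F] (hF : Fintype.card F = 2) : Cfsg.HasSchurMultiplier (Cfsg.POmega F (Cfsg.quadFormPlus 4 F)) (Multiplicative (ZMod 2 × ZMod 2)) := by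
  obtain ⟨φ, h⟩ := H28.fm2 hF
  have hc : Nat.card (Cfsg.POmega F (Cfsg.quadFormPlus 4 F)) = 174182400 := by
    have h1 := S0293.result hF 4 le_rfl
    simp [Finset.prod_range_succ] at h1
    omega
  have : Finite (Cfsg.POmega F (Cfsg.quadFormPlus 4 F)) := Nat.finite_of_card_ne_zero (by omega)
  have q := H11.isQuad_plus 4 F
  have hB := H11.bPlus_sep 4 F
  have hZ := q.center_commutator_eq_bot hB (q.nonExc_of_finrank hB (by simp)) (by simp)
    (Or.inl (by simpa using H28.cast_eq_zero_of_card (p := 2) (k := 1) hF))
  obtain ⟨_, g, pt, H⟩ := H28.md_om h (n := 8) finSumFinEquiv (Q := Cfsg.quadFormPlus 4 F)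
    (QM := H28.O8.QM) (fun v => by
      have e : H28.matE φ (finSumFinEquiv (m := 4) (n := 4)) (H28.ent H28.O8.QM) =
          Matrix.fromBlocks 0 1 0 0 := by
        ext i j
        rcases i with i | i <;> rcases j with j | j <;> fin_cases i <;> fin_cases j <;>
          first | exact h.zero | exact h.one
      rw [e, Matrix.fromBlocks_mulVec]
      simp [Cfsg.quadFormPlus, dotProduct])
    (eq_bot_iff.2 fun z hz => by
      have := (H11.mem_center_equiv (H11.omegaEquiv q) z).1 hz
      rw [hZ, Subgroup.mem_bot] at this
      exact Subgroup.mem_bot.2 ((H11.omegaEquiv q).map_eq_one_iff.1 this))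
    H28.O8.hm (by decide) H28.O8.hAm H28.O8.hInj hc
  exact H28.O8.mult H

end Cfsg.Agent.S2098
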