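import Cfsg.Statements.S2099
import Mathlib
import Cfsg.Agent.H17.Spin

set_option autoImplicit false
open Cfsg

namespace Cfsg.Agent.S2099

open Cfsg.Agent.H17
open scoped commutatorElement


/-- Schur multipliers of the even-dimensional orthogonal groups of minus type: for l ≥ 4 and a field F with q elements, the Schur multiplier of PΩ⁻_2l(F) (for the form Σ_{i<l−1} xᵢyᵢ + z₁² + a z₁z₂ + b z₂² with the binary part anisotropic) is cyclic of order gcd(4, q^l + 1); here the Schur multiplier is described through stem extensions, as in the definitions. -/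
theorem result {F : Type*} [Field F] [Fintype F] {q : ℕ} (hF : Fintype.card F = q) (l : ℕ) (hl : 4 ≤ l) (a b : F) (hab : ∀ z₁ z₂ : F, z₁ ^ 2 + a * z₁ * z₂ + b * z₂ ^ 2 = 0 → z₁ = 0 ∧ z₂ = 0) : Cfsg.HasCyclicSchurMultiplier (Cfsg.POmega F (Cfsg.quadFormMinus (l - 1) F a b)) (Nat.gcd 4 (q ^ l + 1)) := by
  subst hF
  obtain ⟨m, rfl⟩ : ∃ m, l = m + 1 := ⟨l - 1, by omega⟩
  have H := mb_minus (F := F) (m := m) (by omega) hab
  by_cases h2 : (2 : F) = 0
  · have := even_of_two h2
    have : Fintype.card F ^ (m + 1) % 2 = 0 := by rw [Nat.pow_mod, this, zero_pow (by omega), Nat.zero_mod]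
    rw [show Nat.gcd 4 (Fintype.card F ^ (m + 1) + 1) = 1 by
      rw [Nat.gcd_rec]
      rcases (by omega : (Fintype.card F ^ (m + 1) + 1) % 4 = 1 ∨ (Fintype.card F ^ (m + 1) + 1) % 4 = 3) with h | h <;>
        rw [h] <;> rfl]
    exact (mb_pomega_two (clMinus m hab) (by simp; omega) h2 (H.2 h2)).hasCyclic_one
  · have h3 := pow_mod_four (odd_of_two h2) (m + 1)
    have h4 := H11.negI_mem_minus hab h2 m
    split_ifs at h3 with e
    · rw [show Nat.gcd 4 (Fintype.card F ^ (m + 1) + 1) = 4 by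
        rw [Nat.gcd_rec, show (Fintype.card F ^ (m + 1) + 1) % 4 = 0 by omega]; rfl]
      exact pomega_four (clMinus m hab) (by simp; omega) h2 H.1 (by simp; omega) e.1 (h4.2 e)
    · rw [show Nat.gcd 4 (Fintype.card F ^ (m + 1) + 1) = 2 by
        rw [Nat.gcd_rec, show (Fintype.card F ^ (m + 1) + 1) % 4 = 2 by omega]; rfl]
      exact pomega_two (clMinus m hab) (by simp; omega) h2 H.1 (h4.not.2 e)

end Cfsg.Agent.S2099
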