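import Cfsg.Statements.S2101
import Mathlib
import Cfsg.Agent.H28.G23
import Cfsg.Agent.S1059

set_option autoImplicit false
open Cfsg

namespace Cfsg.Agent.S2101

/-- Exceptional Schur multiplier: over the field with 3 elements the Chevalley group of type G₂ has Schur multiplier cyclic of order 3 (here the Schur multiplier is described through stem extensions, as in the definitions). -/
theorem result {F : Type*} [Field F] [Fintype F] (hF : Fintype.card F = 3) : Cfsg.HasCyclicSchurMultiplier ↥(Cfsg.Lie.chevG2.group F) 3 := by
  obtain ⟨φ, h⟩ := H28.fm3 hF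
  have hc : Nat.card (Cfsg.Lie.chevG2.group F) = 4245696 := S1059.result hF
  have : Finite (Cfsg.Lie.chevG2.group F) := Nat.finite_of_card_ne_zero (by omega)
  obtain ⟨_, g, pt, H⟩ := H28.md_chev h Cfsg.Lie.chevG2 H28.G23.hm (by decide) H28.G23.hAm
    H28.G23.hInj hc
  exact H28.G23.mult (H.ext H28.G23.hext (by decide +kernel))

end Cfsg.Agent.S2101
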