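import Cfsg.Statements.S2103
import Mathlib
import Cfsg.Agent.H12.Lift5

set_option autoImplicit false
open Cfsg

namespace Cfsg.Agent.S2103

open Cfsg.Agent.H12

/-- Schur multipliers of the Chevalley groups of type F₄: over a finite field with more than 2 elements the Schur multiplier of F₄(q) is trivial (here the Schur multiplier is described through stem extensions, as in the definitions); q = 2 is exceptional. -/
theorem result {F : Type*} [Field F] [Fintype F] (hF : 3 ≤ Fintype.card F) : Cfsg.HasCyclicSchurMultiplier ↥(Cfsg.Lie.chevF4.group F) 1 := by
  exact (lifts_F4 (exists_ne_of_card (by omega))).hasCyclic_one (der_of_mem5 (by simp)) hT_ker_F4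

end Cfsg.Agent.S2103
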