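import Cfsg.Statements.S2110
import Mathlib
import Cfsg.Agent.H17.MulD2

set_option autoImplicit false
open Cfsg

namespace Cfsg.Agent.S2110

open Cfsg.Agent.H17
open scoped commutatorElement


/-- Schur multipliers of the triality-twisted groups ³D₄: for every prime power q, with the group realised over the field with q³ elements, the Schur multiplier of ³D₄(q) is trivial (here the Schur multiplier is described through stem extensions, as in the definitions). -/
theorem result {K : Type*} [Field K] [Fintype K] {q : ℕ} (hq : IsPrimePow q) (hK : Fintype.card K = q ^ 3) : Cfsg.HasCyclicSchurMultiplier ↥(Cfsg.Lie.twistedD4 K q) 1 := by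
  exact (H17.mb_D4 hq hK).hasCyclic_one

end Cfsg.Agent.S2110
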