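import Cfsg.Statements.S2112
import Mathlib
import Cfsg.Agent.H28.Sz8

set_option autoImplicit false
open Cfsg

namespace Cfsg.Agent.S2112

/-- Exceptional Schur multiplier: the Suzuki group Sz(8), built over the field with 8 elements using the map x ↦ x⁴, has Schur multiplier a four-group, the product of two cyclic groups of order 2 (here the Schur multiplier is described through stem extensions, as in the definitions). -/
theorem result {F : Type*} [Field F] [Fintype F] (hF : Fintype.card F = 8) : Cfsg.HasSchurMultiplier ↥(Cfsg.Lie.Sz F 4) (Multiplicative (ZMod 2 × ZMod 2)) := by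
  obtain ⟨φ, h⟩ := H28.fm8 hF
  have hc : Nat.card (Cfsg.Lie.Sz F 4) = 29120 := (S1163.result (m := 1) le_rfl hF).1
  have : Finite (Cfsg.Lie.Sz F 4) := Nat.finite_of_card_ne_zero (by omega)
  obtain ⟨_, g, pt, H⟩ := H28.md_sz h H28.Sz8.hm (by decide) H28.Sz8.hAm H28.Sz8.hInj hc
  exact H28.Sz8.mult H

end Cfsg.Agent.S2112
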