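import Cfsg.Statements.S2114
import Mathlib
import Cfsg.Agent.H17.MulR2

set_option autoImplicit false
open Cfsg

namespace Cfsg.Agent.S2114

open Cfsg.Agent.H17
open scoped commutatorElement


/-- Schur multipliers of the large Ree groups: for q = 2^(2m+1) with m ≥ 1 the Schur multiplier of ²F₄(q) is trivial (here the Schur multiplier is described through stem extensions, as in the definitions). -/
theorem result {K : Type*} [Field K] [Fintype K] {m : ℕ} (hm : 1 ≤ m) (hK : Fintype.card K = 2 ^ (2 * m + 1)) : Cfsg.HasCyclicSchurMultiplier ↥(Cfsg.Lie.twistedF4 K (2 ^ m)) 1 := by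
  obtain ⟨S, he, e, hK'⟩ := H13.exists_FD hK
  rw [e]
  exact (H17.TR.mb S hm hK' he).hasCyclic_one

end Cfsg.Agent.S2114
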