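import Cfsg.Statements.S2118
import Mathlib
import Cfsg.Agent.H28.Sl29
import Cfsg.Agent.S0242

set_option autoImplicit false
open Cfsg

namespace Cfsg.Agent.S2118

/-- For the field with 9 elements, the special linear group SL₂ has Schur multiplier cyclic of order 3 (here the Schur multiplier is described through stem extensions, as in the definitions). -/
theorem result {F : Type*} [Field F] [Fintype F] (hF : Fintype.card F = 9) : Cfsg.HasCyclicSchurMultiplier (Matrix.SpecialLinearGroup (Fin 2) F) 3 := by
  obtain ⟨φ, h⟩ := H28.fm9 hF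
  have hc : Nat.card (Matrix.SpecialLinearGroup (Fin 2) F) = 720 := by
    have h1 := S0242.result hF 2 (by norm_num)
    simp [Fin.prod_univ_two] at h1
    omega
  have : Finite (Matrix.SpecialLinearGroup (Fin 2) F) :=
    Nat.finite_of_card_ne_zero (by omega)
  let ρ : Matrix.SpecialLinearGroup (Fin 2) F →* Matrix (Fin 2 ⊕ Fin 1) (Fin 2 ⊕ Fin 1) F :=
    { toFun := fun A => Matrix.fromBlocks A.1 0 0 1
      map_one' := Matrix.fromBlocks_one
      map_mul' := fun A B => by simp [Matrix.fromBlocks_multiply] }
  obtain ⟨_, g, pt, H⟩ := H28.exists_md h (n := 3) finSumFinEquiv (MonoidHom.id _)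
    Function.surjective_id ρ (fun z hz => ⟨1, by rw [show z = 1 from hz, map_one, one_smul]⟩)
    (fun M hM => by
      obtain ⟨a, ha, rfl⟩ := H25.exists_gd [] hM
      have H := H25.allLin_sound H28.Sl29.hm a (Nat.zero_le _) (by omega)
      simp only [H25.band_eq, Bool.and_eq_true] at H
      refine ⟨⟨_, h.det_one H.1⟩, ?_⟩
      rw [H28.eqE_sound (φ := φ) (finSumFinEquiv (m := 2) (n := 1)) H.2]
      ext i j
      rcases i with i | i <;> rcases j with j | j <;> fin_cases i <;> fin_cases j <;>
        first | rfl | exact h.zero.symm | exact h.one.symm)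
    (by decide) H28.Sl29.hAm H28.Sl29.hInj hc
  exact H28.Sl29.mult H

end Cfsg.Agent.S2118
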