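import Cfsg.Statements.S2121
import Mathlib
import Cfsg.Agent.H12.Bonds

set_option autoImplicit false
open Cfsg

namespace Cfsg.Agent.S2121

open Cfsg.Agent.H12

/-- Outer automorphisms of the Chevalley groups of type G₂: over a field with q = p^f (p prime) ≥ 3 elements, the outer automorphism group of G₂(q) has order f when p ≠ 3 and 2f when p = 3 (field automorphisms, and in characteristic 3 also the exceptional graph automorphism). -/
theorem result {F : Type*} [Field F] [Fintype F] (p f : ℕ) [Fact p.Prime] [CharP F p] (hF : Fintype.card F = p ^ f) (hq : 3 ≤ p ^ f) : Nat.card (Cfsg.Out ↥(Cfsg.Lie.chevG2.group F)) = (if p = 3 then 2 * f else f) := by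
  rw [bondOK_G2.card_out, card_hT_ker_G2, (ringAut_cyclic_card hF).2, mul_one]
  split_ifs with h
  · subst h
    rw [(card_range_G2.resolve_right fun h => h.1 symG2_mem).2]
  · rw [(card_range_G2.resolve_left fun h' => ?_).2, one_mul]
    rcases char_of_symG2 h'.1 with h1 | h1
    · exact h ((ringChar.eq F p).symm.trans h1)
    · obtain ⟨x, h0, hx⟩ : ∃ x : F, x ≠ 0 ∧ x ≠ 1 := by
        obtain ⟨x, hx⟩ := (Fintype.two_lt_card_iff (α := F)).1 (by omega)
        obtain ⟨y, z, h1, h2, h3⟩ := hx
        by_contra hc
        push Not at hc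
        by_cases a : x = 0 <;> by_cases b : y = 0 <;> by_cases c : z = 0 <;> simp_all
      exact hx (mul_left_cancel₀ h0 (by rw [← sq, h1, mul_one]))

end Cfsg.Agent.S2121
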