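import Cfsg.Statements.S2128
import Mathlib
import Cfsg.Agent.H12.TwOut2

set_option autoImplicit false
open Cfsg

namespace Cfsg.Agent.S2128

open Cfsg.Agent.H12

/-- Outer automorphisms of the large Ree groups: for q = 2^(2m+1) with m ≥ 1 the outer automorphism group of ²F₄(q) has order 2m + 1 (field automorphisms only). -/
theorem result {K : Type*} [Field K] [Fintype K] {m : ℕ} (hm : 1 ≤ m) (hK : Fintype.card K = 2 ^ (2 * m + 1)) : Nat.card (Cfsg.Out ↥(Cfsg.Lie.twistedF4 K (2 ^ m))) = 2 * m + 1 := by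
  obtain ⟨S, h1, h2, h3⟩ := H13.exists_FD hK
  have := H13.charP_of_card_pow hK
  have h4 : 2 ^ m < Nat.card K := h3 ▸ Nat.pow_lt_pow_right one_lt_two (by omega)
  have h5 : 2 ≤ 2 ^ m := Nat.le_self_pow (by omega) 2
  rw [h2, FD_card_out S (by omega) (by simpa only [h1] using exists_pow_ne h5 h4),
    (ringAut_cyclic_card hK).2]

end Cfsg.Agent.S2128
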