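import Cfsg.Statements.S2129
import Mathlib
import Cfsg.Agent.H12.TwOut2

set_option autoImplicit false
open Cfsg

namespace Cfsg.Agent.S2129

open Cfsg.Agent.H12

/-- Outer automorphisms of the triality-twisted groups: for q = p^f (p prime), with the group realised over the field with q³ elements, the outer automorphism group of ³D₄(q) has order 3f (the field automorphisms of the cubic extension). -/
theorem result {K : Type*} [Field K] [Fintype K] (p f : ℕ) [Fact p.Prime] [CharP K p] (hK : Fintype.card K = p ^ (3 * f)) (hf : 1 ≤ f) : Nat.card (Cfsg.Out ↥(Cfsg.Lie.twistedD4 K (p ^ f))) = 3 * f := by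
  have hp : p.Prime := Fact.out
  have h5 : 2 ≤ p ^ f := hp.two_le.trans (Nat.le_self_pow (by omega) p)
  obtain ⟨S, h1, h2, h3⟩ := H13.exists_DD (K := K) (q := p ^ f) (hp.isPrimePow.pow (by omega))
    (by rw [hK, ← pow_mul, mul_comm])
  have h4 : 2 ^ 3 ≤ Nat.card K := h3 ▸ Nat.pow_le_pow_left h5 3
  rw [h2, DD_card_out S (by omega) (by
    simpa only [h1] using exists_pow_ne h5 (h3 ▸ lt_self_pow₀ (by omega) (by omega))),
    (ringAut_cyclic_card hK).2]

end Cfsg.Agent.S2129
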