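import Cfsg.Statements.S2136
import Cfsg.Agent.H25.I2C
import Cfsg.Agent.H25.Sp6

set_option autoImplicit false
set_option maxRecDepth 100000
open Cfsg

namespace Cfsg.Agent.S2136
open Cfsg.Agent.H25 Cfsg.Agent.H25.I2 Cfsg.Agent.H25.CenB Cfsg.Agent.H25.Sp6 Cfsg.Agent.H25.Leech

noncomputable abbrev sp : ℕ → S := s VS.rows
theorem vmS : VM VS bas sp := vm ⟨rfl, rfl, rfl⟩ (by decide +kernel) (by decide +kernel)

theorem am63 : AM T63 sp fun i => vdec VS.n VS.w bas (c63 i) :=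
  vmS.am (by decide +kernel) (rng_all (VT.amOK_rng (show VS.amOK T63 c63 0 0 63 = true by decide +kernel)))
theorem am126 : AM I2.TR sp fun i => vdec VS.n VS.w bas (c126 i) :=
  vmS.am (by decide +kernel) (rng_all (VT.amOK_rng (show VS.amOK I2.TR c126 0 0 126 = true by decide +kernel)))

theorem tb : Lc (2 ^ 11 - 1) sp = ⊤ ∧ IsBase S T63.N (fun i => vdec VS.n VS.w bas (c63 i)) B63 :=
  base_of_chain (ls := chS) am63 (vmS.inj (N := 63) (by decide +kernel)
    (rng_all (VT.canOK_rng (show VS.canOK c63 [] 0 63 = true by decide +kernel)))) (by decide +kernel)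
    (card.trans_le (by decide +kernel))

theorem b126 : IsBase S I2.TR.N (fun i => vdec VS.n VS.w bas (c126 i)) B126 :=
  ⟨by decide +kernel, fun y hy => tb.2.2 y fun b hb => by
    have h : ∀ b ∈ B63, ∃ b' ∈ B126, c126 b' = c63 b := by decide +kernel
    obtain ⟨b', h1, h2⟩ := h b hb
    have := hy b' h1
    simp only [h2] at this
    exact this⟩

abbrev C := Subgroup.centralizer ({k 8} : Set G0)
noncomputable abbrev kc : ℕ → C := subL C k

theorem memC : ∀ a < TK.G, k a ∈ C := mem_cen hK hB I2.cm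
theorem hKc : AM TK kc p2 := CenB.AM.sub hK memC
theorem sm {u : List ℕ} (h : ∀ a ∈ u, a < 9) : Sm TK u := fun a ha => (h a ha).trans (by decide)

theorem hom : ∃ f : C →* S, Function.Surjective f ∧ f.ker = Lc (2 ^ 9 - 1) kc ∧ Nat.card f.ker = 512 ∧
    ∀ a < I2.TR.G, f (kc a) = sp a :=
  hom_of_am (CenB.AM.sub hR memC) vr_spec.2 am126 b126 tb.1 (by decide) (fun a ha => by
    have h : ∀ a < 9, VS.chk2 [a] [] = true := by decide +kernel
    simpa using vmS.chk2 _ _ (h a ha)) (enum_le hKc vc2_spec.2 en) (card ▸ ub)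

/-- The Conway group Co₂ (the stabiliser of a minimal vector of the rank-24 lattice) has an involution whose centraliser C has largest normal 2-subgroup extraspecial of order 2^9 with quotient C / O₂(C) isomorphic to the symplectic group Sp(6, 2) (shape 2^{1+8}Sp(6, 2)). -/
theorem result : ∃ t : ↥Cfsg.Spor.Co2, orderOf t = 2 ∧ Cfsg.IsExtraspecial 2 (Cfsg.pCore 2 ↥(Subgroup.centralizer ({t} : Set ↥Cfsg.Spor.Co2))) ∧ Nat.card (Cfsg.pCore 2 ↥(Subgroup.centralizer ({t} : Set ↥Cfsg.Spor.Co2))) = 2 ^ 9 ∧ Nonempty (↥(Subgroup.centralizer ({t} : Set ↥Cfsg.Spor.Co2)) ⧸ Cfsg.pCore 2 ↥(Subgroup.centralizer ({t} : Set ↥Cfsg.Spor.Co2)) ≃* Matrix.symplecticGroup (Fin 3) (ZMod 2)) := by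
  obtain ⟨f, hf, e, hc, -⟩ := hom
  have hE : H29.ES f.ker (kc 8) := e ▸ es_of (by norm_num)
    (fun u v hu hv => hKc.eqv (CenB.IsBase.sub hB C) (sm hu) (sm hv))
    (fun u v hu hv => hKc.neqv vc2_spec.2 hB.1 (sm hu) (sm hv)) (enum_inj hKc vc2_spec.2 en) (e ▸ hc).le es
  have hp := pcore_eq hf hE.pgrp (by rw [card]; norm_num)
  refine ⟨k 8, ?_, hp ▸ hE.isExtraspecial, hp ▸ hc,
    ⟨(QuotientGroup.quotientMulEquivOfEq hp).trans (QuotientGroup.quotientKerEquivOfSurjective f hf)⟩⟩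
  rw [← subL_coe (memC 8 (by decide)), Subgroup.orderOf_coe]
  exact hE.ord

end Cfsg.Agent.S2136
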