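import Cfsg.Statements.S2140
import Cfsg.Agent.H26.MI4
-- import your own Cfsg.Agent.* helpers here

set_option autoImplicit false
open Cfsg

namespace Cfsg.Agent.S2140

/-- Minimal index of a proper subgroup of the linear groups: for n ≥ 3 and a field F with q elements, (n, q) ≠ (4, 2), every proper subgroup of PSL_n(F) has index at least (q^n − 1)/(q − 1), and some subgroup has exactly that index (the stabiliser of a point of the projective space). -/
theorem result {F : Type*} [Field F] [Fintype F] {q : ℕ} (hF : Fintype.card F = q) (n : ℕ) (hn : 3 ≤ n) (hexc : ¬ (n = 4 ∧ q = 2)) : (∀ H : Subgroup (Matrix.ProjectiveSpecialLinearGroup (Fin n) F), H ≠ ⊤ → (q ^ n - 1) / (q - 1) ≤ H.index) ∧ (∃ H : Subgroup (Matrix.ProjectiveSpecialLinearGroup (Fin n) F), H.index = (q ^ n - 1) / (q - 1)) := by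
  classical
  have hq : Nat.card F = q := by rw [Nat.card_eq_fintype_card, hF]
  have hd : Module.finrank F (Fin n → F) = n := by simp
  have hq1 : 1 < q := hq ▸ Finite.one_lt_card
  have hX : (Matrix.SpecialLinearGroup.toLin' (n := Fin n) (R := F)).range =
      H26.MX.SLv F (Fin n → F) := by
    ext g
    rw [H26.MX.mem_SLv]
    constructor
    · rintro ⟨a, rfl⟩
      rw [Matrix.SpecialLinearGroup.toLin'_to_linearMap, LinearMap.det_toLin', a.2]
    · intro h
      refine ⟨⟨LinearMap.toMatrix' (g : (Fin n → F) →ₗ[F] (Fin n → F)), by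
        rw [LinearMap.det_toMatrix', h]⟩, LinearEquiv.toLinearMap_injective ?_⟩
      exact Matrix.toLin'_toMatrix' _
  refine ⟨H26.MI.lower_of_act _ Matrix.SpecialLinearGroup.toLin'_injective hX fun K Ω hA => ?_, ?_⟩
  · have := H26.MI.sl_card_bound (by omega) (by rwa [hd, hq]) hA
    rw [hd, hq] at this
    exact Nat.div_le_of_le_mul (by rwa [mul_comm])
  · have : Nontrivial (Fin n → F) := Module.nontrivial_of_finrank_pos (R := F) (by omega)
    obtain ⟨v, hv⟩ := exists_ne (0 : Fin n → F)
    obtain ⟨H, hH⟩ := H26.MI.exists_index_line (Matrix.SpecialLinearGroup.toLin' (n := Fin n) (R := F))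
      hv (T := {w | w ≠ 0}) (fun w => ⟨fun hw => by
        obtain ⟨g, hg, e⟩ := H26.MX.exists_map_of_tv (M := H26.MX.SLv F (Fin n → F)) (by omega)
          (fun _ _ h => H26.MX.tv_SLv h) hv hw
        rw [← hX] at hg
        obtain ⟨a, rfl⟩ := hg
        exact ⟨a, 1, one_ne_zero, by rw [e, one_smul]⟩, by
        rintro ⟨g, c, hc, rfl⟩
        exact smul_ne_zero hc (H26.MX.app_ne_zero _ hv)⟩) (fun z hz => by
        obtain ⟨r, -, hr⟩ := Matrix.SpecialLinearGroup.mem_center_iff.1 hz
        refine ⟨r, ?_⟩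
        rw [Matrix.SpecialLinearGroup.toLin'_apply, ← hr]
        ext i
        simp [Matrix.mulVec_diagonal])
    refine ⟨H, ?_⟩
    rw [hH, hq]
    congr 1
    have e : Nat.card (Fin n → F) = q ^ n := by rw [H26.MI.card_eq_pow (F := F), hd, hq]
    rw [← e, Nat.card_eq_fintype_card, Nat.card_eq_fintype_card]
    have := Fintype.card_subtype_compl (fun w : Fin n → F => w = 0)
    rw [Fintype.card_subtype_eq] at this
    convert this

end Cfsg.Agent.S2140
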