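import Cfsg.Statements.S2143
import Cfsg.Agent.H26.MI12
-- import your own Cfsg.Agent.* helpers here

set_option autoImplicit false
open Cfsg

namespace Cfsg.Agent.S2143

/-- Minimal index of a proper subgroup of the odd-dimensional orthogonal groups: for m ≥ 3 and a field F with q elements, q odd and q ≥ 5, every proper subgroup of PΩ_(2m+1)(F) (for the form x₀² + Σ xᵢyᵢ) has index at least (q^(2m) − 1)/(q − 1), and that index is attained. -/
theorem result {F : Type*} [Field F] [Fintype F] {q : ℕ} (hF : Fintype.card F = q) (hodd : Odd q) (h5 : 5 ≤ q) (m : ℕ) (hm : 3 ≤ m) : (∀ H : Subgroup (Cfsg.POmega F (Cfsg.quadFormOdd m F)), H ≠ ⊤ → (q ^ (2 * m) - 1) / (q - 1) ≤ H.index) ∧ (∃ H : Subgroup (Cfsg.POmega F (Cfsg.quadFormOdd m F)), H.index = (q ^ (2 * m) - 1) / (q - 1)) := by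
  classical
  have hq : Nat.card F = q := by rw [Nat.card_eq_fintype_card, hF]
  have h2 := H11.two_ne_zero_of_odd_card (F := F) (hF ▸ hodd)
  have h := H10.clQuad (H11.isQuad_odd m F) (H11.bOdd_sep m h2)
  have hw := H11.wittIdx_odd m h2
  obtain ⟨k, rfl⟩ : ∃ k, m = k + 1 := ⟨m - 1, by omega⟩
  have hd : Module.finrank F (Unit ⊕ Fin (k + 1) ⊕ Fin (k + 1) → F) = 2 * (k + 1) + 1 := by
    simp; omega
  have h1 : 1 < q ^ (2 * (k + 1)) := Nat.one_lt_pow (by omega) (by omega)
  refine ⟨H26.MI.pomega_lower h (by omega) fun K Ω hA =>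
    H26.MI.QC.bound_odd h (by omega) hd hw (Or.inl ⟨by omega, by rw [hq]⟩) hA, ?_⟩
  have := H26.MI.pomega_exists_sing h (by omega) (M := q ^ (2 * (k + 1)) - 1) (by omega) (by
    rw [H11.IsQuad.card_singular_odd _ (H11.isQuad_odd _ F) h.sep hw hd, hq]
    push_cast [h1.le]; ring)
  rwa [hq] at this

end Cfsg.Agent.S2143
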