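import Cfsg.Statements.S2144
import Cfsg.Agent.H26.MI12
-- import your own Cfsg.Agent.* helpers here

set_option autoImplicit false
open Cfsg

namespace Cfsg.Agent.S2144

/-- Minimal index of a proper subgroup of the odd-dimensional orthogonal groups over the field with 3 elements: for m ≥ 3, every proper subgroup of PΩ_(2m+1)(3) (for the form x₀² + Σ xᵢyᵢ) has index at least 3^m(3^m − 1)/2, and that index is attained. -/
theorem result {F : Type*} [Field F] [Fintype F] (hF : Fintype.card F = 3) (m : ℕ) (hm : 3 ≤ m) : (∀ H : Subgroup (Cfsg.POmega F (Cfsg.quadFormOdd m F)), H ≠ ⊤ → 3 ^ m * (3 ^ m - 1) / 2 ≤ H.index) ∧ (∃ H : Subgroup (Cfsg.POmega F (Cfsg.quadFormOdd m F)), H.index = 3 ^ m * (3 ^ m - 1) / 2) := by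
  classical
  have hq : Nat.card F = 3 := by rw [Nat.card_eq_fintype_card, hF]
  have h2 := H11.two_ne_zero_of_odd_card (F := F) (by rw [hF]; decide)
  have h := H10.clQuad (H11.isQuad_odd m F) (H11.bOdd_sep m h2)
  have hw := H11.wittIdx_odd m h2
  obtain ⟨k, rfl⟩ : ∃ k, m = k + 1 := ⟨m - 1, by omega⟩
  have hd : Module.finrank F (Unit ⊕ Fin (k + 1) ⊕ Fin (k + 1) → F) = 2 * (k + 1) + 1 := by
    simp; omega
  have h1 : 1 < 3 ^ (k + 1) := Nat.one_lt_pow (by omega) (by omega)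
  refine ⟨H26.MI.pomega_lower h (by omega) fun K Ω hA =>
    H26.MI.QC.bound_odd h (by omega) hd hw (Or.inr ⟨hq, rfl⟩) hA, ?_⟩
  obtain ⟨c, hc, e⟩ := H26.MI.exists_level_odd h2 _ (H11.isQuad_odd _ F) h.sep hw hd
  have := H26.MI.pomega_exists_level h (by omega) (M := 3 ^ (k + 1) * (3 ^ (k + 1) - 1))
    (mul_ne_zero (by omega) (by omega)) hc (H26.MI.mul_self_of_card_le (Or.inr hF)) (by
    rw [e, hq]
    push_cast [h1.le]; ring)
  rwa [hq] at this

end Cfsg.Agent.S2144
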