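import Cfsg.Statements.S2145
import Cfsg.Agent.H26.MI12
-- import your own Cfsg.Agent.* helpers here

set_option autoImplicit false
open Cfsg

namespace Cfsg.Agent.S2145

/-- Minimal index of a proper subgroup of the even-dimensional orthogonal groups of plus type: for m ≥ 4 and a field F with q ≥ 4 elements, every proper subgroup of PΩ⁺_2m(F) (for the form Σ xᵢyᵢ) has index at least (q^m − 1)(q^(m−1) + 1)/(q − 1), and that index is attained (the singular points). -/
theorem result {F : Type*} [Field F] [Fintype F] {q : ℕ} (hF : Fintype.card F = q) (hq : 4 ≤ q) (m : ℕ) (hm : 4 ≤ m) : (∀ H : Subgroup (Cfsg.POmega F (Cfsg.quadFormPlus m F)), H ≠ ⊤ → (q ^ m - 1) * (q ^ (m - 1) + 1) / (q - 1) ≤ H.index) ∧ (∃ H : Subgroup (Cfsg.POmega F (Cfsg.quadFormPlus m F)), H.index = (q ^ m - 1) * (q ^ (m - 1) + 1) / (q - 1)) := by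
  classical
  have hq' : Nat.card F = q := by rw [Nat.card_eq_fintype_card, hF]
  have h := H10.clQuad (H11.isQuad_plus m F) (H11.bPlus_sep m F)
  have hw := H11.wittIdx_plus m F
  obtain ⟨k, rfl⟩ : ∃ k, m = k + 2 := ⟨m - 2, by omega⟩
  have hd : Module.finrank F (Fin (k + 2) ⊕ Fin (k + 2) → F) = 2 * (k + 2) := by
    simp; omega
  have h1 : 1 < q ^ (k + 2) := Nat.one_lt_pow (by omega) (by omega)
  refine ⟨H26.MI.pomega_lower h (by omega) fun K Ω hA =>
    H26.MI.QC.bound_plus h (by omega) hd hw (Or.inl ⟨by omega, by rw [hq']; rfl⟩) hA, ?_⟩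
  have := H26.MI.pomega_exists_sing h (by omega) (M := (q ^ (k + 2) - 1) * (q ^ (k + 1) + 1))
    (mul_ne_zero (by omega) (by omega)) (by
    refine mul_left_cancel₀ (show (q : ℤ) ≠ 0 by positivity) ?_
    have := H11.IsQuad.card_singular_plus _ (H11.isQuad_plus _ F) h.sep hw hd
    rw [hq'] at this
    rw [this]
    push_cast [h1.le]; ring)
  rwa [hq'] at this

end Cfsg.Agent.S2145
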