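import Cfsg.Statements.S2146
import Cfsg.Agent.H26.MI12
-- import your own Cfsg.Agent.* helpers here

set_option autoImplicit false
open Cfsg

namespace Cfsg.Agent.S2146

/-- Minimal index of a proper subgroup of the even-dimensional orthogonal groups of plus type over the field with 2 elements: for m ≥ 4, every proper subgroup of Ω⁺_2m(2) (for the form Σ xᵢyᵢ) has index at least 2^(m−1)(2^m − 1), and that index is attained. -/
theorem result {F : Type*} [Field F] [Fintype F] (hF : Fintype.card F = 2) (m : ℕ) (hm : 4 ≤ m) : (∀ H : Subgroup (Cfsg.POmega F (Cfsg.quadFormPlus m F)), H ≠ ⊤ → 2 ^ (m - 1) * (2 ^ m - 1) ≤ H.index) ∧ (∃ H : Subgroup (Cfsg.POmega F (Cfsg.quadFormPlus m F)), H.index = 2 ^ (m - 1) * (2 ^ m - 1)) := by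
  classical
  have hq : Nat.card F = 2 := by rw [Nat.card_eq_fintype_card, hF]
  have h := H10.clQuad (H11.isQuad_plus m F) (H11.bPlus_sep m F)
  have hw := H11.wittIdx_plus m F
  obtain ⟨k, rfl⟩ : ∃ k, m = k + 2 := ⟨m - 2, by omega⟩
  have hd : Module.finrank F (Fin (k + 2) ⊕ Fin (k + 2) → F) = 2 * (k + 2) := by
    simp; omega
  have h1 : 1 < 2 ^ (k + 2) := Nat.one_lt_pow (by omega) (by omega)
  refine ⟨H26.MI.pomega_lower h (by omega) fun K Ω hA =>
    H26.MI.QC.bound_plus h (by omega) hd hw (Or.inr ⟨hq, rfl⟩) hA, ?_⟩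
  have := H26.MI.pomega_exists_level h (by omega) (M := 2 ^ (k + 1) * (2 ^ (k + 2) - 1))
    (mul_ne_zero (by positivity) (by omega)) one_ne_zero
    (H26.MI.mul_self_of_card_le (Or.inl hF)) (by
    refine mul_left_cancel₀ (show (2 : ℤ) ≠ 0 by positivity) ?_
    have := H10.card_level_plus one_ne_zero _ (H11.isQuad_plus _ F) h.sep hw hd
    rw [hq] at this
    push_cast [h1.le] at this ⊢
    rw [this]; ring)
  rw [hq] at this
  simpa using this

end Cfsg.Agent.S2146
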