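import Cfsg.Statements.S2147
import Cfsg.Agent.H26.MI12
-- import your own Cfsg.Agent.* helpers here

set_option autoImplicit false
open Cfsg

namespace Cfsg.Agent.S2147

/-- Minimal index of a proper subgroup of the even-dimensional orthogonal groups of minus type: for m ≥ 4 and a field F with q elements, every proper subgroup of PΩ⁻_2m(F) (for the form Σ_{i<m−1} xᵢyᵢ + z₁² + a z₁z₂ + b z₂² with anisotropic binary part) has index at least (q^m + 1)(q^(m−1) − 1)/(q − 1), and that index is attained. -/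
theorem result {F : Type*} [Field F] [Fintype F] {q : ℕ} (hF : Fintype.card F = q) (m : ℕ) (hm : 4 ≤ m) (a b : F) (hab : ∀ z₁ z₂ : F, z₁ ^ 2 + a * z₁ * z₂ + b * z₂ ^ 2 = 0 → z₁ = 0 ∧ z₂ = 0) : (∀ H : Subgroup (Cfsg.POmega F (Cfsg.quadFormMinus (m - 1) F a b)), H ≠ ⊤ → (q ^ m + 1) * (q ^ (m - 1) - 1) / (q - 1) ≤ H.index) ∧ (∃ H : Subgroup (Cfsg.POmega F (Cfsg.quadFormMinus (m - 1) F a b)), H.index = (q ^ m + 1) * (q ^ (m - 1) - 1) / (q - 1)) := by
  classical
  have hq : Nat.card F = q := by rw [Nat.card_eq_fintype_card, hF]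
  have hq1 : 1 < q := hq ▸ Finite.one_lt_card
  obtain ⟨k, rfl⟩ : ∃ k, m = k + 2 := ⟨m - 2, by omega⟩
  have h := H10.clQuad (H11.isQuad_minus (k + 1) F a b) (H11.bMinus_sep _ hab)
  have hw := H11.wittIdx_minus (k + 1) hab
  have hd : Module.finrank F ((Fin (k + 1) ⊕ Fin (k + 1)) ⊕ Fin 2 → F) = 2 * (k + 2) := by
    simp; omega
  have h1 : 1 < q ^ (k + 1) := Nat.one_lt_pow (by omega) (by omega)
  refine ⟨H26.MI.pomega_lower h (by omega) fun K Ω hA => ?_, ?_⟩
  · have := H26.MI.QC.bound_minus h (by omega) hd hw hA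
    rwa [hq] at this
  have := H26.MI.pomega_exists_sing h (by omega) (M := (q ^ (k + 2) + 1) * (q ^ (k + 1) - 1))
    (mul_ne_zero (by omega) (by omega)) (by
    rw [H11.IsQuad.card_singular_minus _ (H11.isQuad_minus _ F a b) h.sep hw hd, hq]
    push_cast [h1.le]; ring)
  rwa [hq] at this

end Cfsg.Agent.S2147
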