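import Cfsg.Statements.S2152
import Cfsg.Agent.H26.MU7
-- import your own Cfsg.Agent.* helpers here

set_option autoImplicit false
open Cfsg

namespace Cfsg.Agent.S2152

/-- Minimal index of a proper subgroup of the unitary groups of even dimension n ≥ 6: for a field F with q² elements, q ≥ 3, every proper subgroup of PSU_n(q) has index at least (q^n − 1)(q^(n−1) + 1)/(q² − 1), and that index is attained (the isotropic points). -/
theorem result {F : Type*} [Field F] [Fintype F] (q : ℕ) (hF : Fintype.card F = q ^ 2) (hq : 3 ≤ q) (n : ℕ) (hn : 6 ≤ n) (heven : Even n) : (∀ H : Subgroup (Cfsg.PSU n F q), H ≠ ⊤ → (q ^ n - 1) * (q ^ (n - 1) + 1) / (q ^ 2 - 1) ≤ H.index) ∧ (∃ H : Subgroup (Cfsg.PSU n F q), H.index = (q ^ n - 1) * (q ^ (n - 1) + 1) / (q ^ 2 - 1)) := by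
  have hc := H11.qConj_conjQ hF
  have h1 := Nat.div_mul_le_self ((q ^ n - 1) * (q ^ (n - 1) + 1)) (q ^ 2 - 1)
  refine ⟨H26.MI.psu_min hc (by omega) (by rwa [if_pos heven]) ?_, ?_⟩
  · rw [if_pos heven]
    have h2 : (q + 1) * 2 ≤ q ^ 2 - 1 := Nat.le_sub_of_add_le (by nlinarith)
    have h3 : 1 ≤ q ^ (n - 1) := Nat.one_le_pow _ _ (by omega)
    have h4 := (Nat.mul_le_mul_left _ h2).trans
      (h1.trans (Nat.mul_le_mul_left _ (Nat.add_le_add_left h3 _)))
    nlinarith
  · have := H26.MI.psu_iso hc (n := n) (by omega)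
    rwa [if_pos heven] at this

end Cfsg.Agent.S2152
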