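import Cfsg.Statements.S2153
import Cfsg.Agent.H26.MU7
-- import your own Cfsg.Agent.* helpers here

set_option autoImplicit false
open Cfsg

namespace Cfsg.Agent.S2153

/-- Minimal index of a proper subgroup of the unitary groups PSU_n(2) with n divisible by 6, realised over the field with 4 elements: every proper subgroup has index at least 2^(n−1)(2^n − 1)/3, and that index is attained. -/
theorem result {F : Type*} [Field F] [Fintype F] (hF : Fintype.card F = 4) (n : ℕ) (hn : 6 ∣ n) (hpos : 6 ≤ n) : (∀ H : Subgroup (Cfsg.PSU n F 2), H ≠ ⊤ → 2 ^ (n - 1) * (2 ^ n - 1) / 3 ≤ H.index) ∧ (∃ H : Subgroup (Cfsg.PSU n F 2), H.index = 2 ^ (n - 1) * (2 ^ n - 1) / 3) := by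
  have hF' : Fintype.card F = 2 ^ 2 := hF
  have hc := H11.qConj_conjQ hF'
  have heven : Even n := even_iff_two_dvd.2 (dvd_trans (by decide) hn)
  have h1 := Nat.div_mul_le_self (2 ^ (n - 1) * (2 ^ n - 1)) 3
  have h := H26.MI.ucStd hc n
  have hd : Module.finrank F (Fin n → F) = n := by simp
  refine ⟨H26.MI.psu_min hc (by omega) ?_ (by rwa [if_pos heven]), ?_⟩
  · rw [if_pos heven]
    refine h1.trans ?_
    rw [mul_comm]
    exact Nat.mul_le_mul_left _ (Nat.le_succ _)
  · obtain ⟨v, hv⟩ := h.herm.exists_self_eq h.sep (by omega) (map_one _)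
    obtain ⟨H, hH⟩ := H26.MI.psu_exists hc (n := n) (by omega) (v := v)
      (by rintro rfl; simp at hv) fun c hc0 => by
        have := FiniteField.pow_card_sub_one_eq_one c hc0
        rw [hF] at this
        rw [hv, mul_one, H11.conjQ_apply, ← pow_succ, this]
    refine ⟨H, hH.trans ?_⟩
    have := h.herm.card_norm_eq hc h.sep hd (map_one _) one_ne_zero
    rw [if_pos heven] at this
    rw [← this, hv]
    congr 1
    refine Nat.card_congr (Equiv.subtypeEquivRight fun w => ⟨fun h => h.1, fun hw => ⟨hw, ?_⟩⟩)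
    rintro rfl
    simp at hw

end Cfsg.Agent.S2153
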