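import Cfsg.Statements.S2154
import Mathlib
import Cfsg.Agent.H12.ChevAll
import Cfsg.Agent.H12.Aut1

set_option autoImplicit false
open Cfsg

namespace Cfsg.Agent.S2154

open Cfsg.Agent.H12

/-- The Borel–Tits property of the finite Chevalley groups of types G₂, B₂, D₄, F₄, E₆, E₇, E₈ over a finite field of characteristic p: for every non-trivial p-subgroup U of the group G there are an element g of G and a proper set J of fundamental roots such that the normaliser of U in G lies in the conjugate by g of the standard parabolic subgroup P_J and U lies in the conjugate by g of its unipotent radical U_J. -/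
theorem result {F : Type*} [Field F] [Fintype F] (p : ℕ) [Fact p.Prime] [CharP F p] (D : Cfsg.Lie.ChevalleyDatum) (hD : D ∈ [Cfsg.Lie.chevG2, Cfsg.Lie.chevB2, Cfsg.Lie.chevD4, Cfsg.Lie.chevF4, Cfsg.Lie.chevE6, Cfsg.Lie.chevE7, Cfsg.Lie.chevE8]) (U : Subgroup (GL D.Idx F)) (hUG : U ≤ D.group F) (hU : IsPGroup p ↥U) (hne : U ≠ ⊥) : ∃ g ∈ D.group F, ∃ J : Set ℕ, (∃ i, i < D.rank ∧ i ∉ J) ∧ Subgroup.normalizer (U : Set (GL D.Idx F)) ⊓ D.group F ≤ (D.parabolicSubgroup F J).map (MulAut.conj g).toMonoidHom ∧ U ≤ (D.unipotentRadical F J).map (MulAut.conj g).toMonoidHom := by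
  obtain ⟨_⟩ := nonempty_good hD
  obtain ⟨g, J, ⟨i, hi⟩, h1, h2⟩ := (grp_charP (D := D) (K := F) p).borelTits grpRGD_top
    (Y := U.subgroupOf (D.group F)) (hU.comap_subtype)
    (by rwa [Ne, Subgroup.subgroupOf_eq_bot, disjoint_iff, inf_eq_left.2 hUG])
  have hJ : J = Fin.val ⁻¹' (Fin.val '' J) := (Set.preimage_image_eq J Fin.val_injective).symm
  rw [hJ, grpRGD_UJ] at h1
  rw [hJ, grpRGD_PJ, ← Subgroup.subgroupOf_normalizer_eq hUG] at h2
  refine ⟨(g⁻¹ : D.group F), g⁻¹.2, Fin.val '' J, ⟨i, i.2, fun h => hi (by rwa [hJ])⟩,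
    fun x hx => ⟨_, h2 ⟨⟨x, hx.2⟩, hx.1, rfl⟩, by simp [mul_assoc]⟩,
    fun x hx => ⟨_, h1 ⟨⟨x, hUG hx⟩, hx, rfl⟩, by simp [mul_assoc]⟩⟩

end Cfsg.Agent.S2154
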