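import Cfsg.Statements.S2155
import Mathlib
import Cfsg.Agent.H12.ChevAll
import Cfsg.Agent.H12.Aut1
import Cfsg.Agent.H2.Components

set_option autoImplicit false
open Cfsg

namespace Cfsg.Agent.S2155

open Cfsg.Agent Cfsg.Agent.H12

/-- In a Chevalley group of type G₂, B₂, D₄, F₄, E₆, E₇ or E₈ over a finite field of characteristic p (for types G₂ and B₂ the field is assumed to have at least 3 elements, so that the group is simple), the generalized Fitting subgroup of every proper standard parabolic subgroup P_J is a p-group (P_J is p-constrained with trivial largest normal subgroup of order prime to p). -/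
theorem result {F : Type*} [Field F] [Fintype F] (p : ℕ) [Fact p.Prime] [CharP F p] (D : Cfsg.Lie.ChevalleyDatum) (hD : D ∈ [Cfsg.Lie.chevG2, Cfsg.Lie.chevB2, Cfsg.Lie.chevD4, Cfsg.Lie.chevF4, Cfsg.Lie.chevE6, Cfsg.Lie.chevE7, Cfsg.Lie.chevE8]) (hq : (D = Cfsg.Lie.chevG2 ∨ D = Cfsg.Lie.chevB2) → 3 ≤ Fintype.card F) (J : Set ℕ) (hJ : ∃ i, i < D.rank ∧ i ∉ J) : IsPGroup p ↥(Cfsg.generalizedFittingSubgroup ↥(D.parabolicSubgroup F J)) := by
  obtain ⟨_⟩ := nonempty_good hD
  obtain ⟨i, hi, hiJ⟩ := hJ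
  have hp := chev_charP (D := D) (K := F) p
  rw [parabolicSubgroup_eq]
  set J' : Set (Fin D.rank) := Fin.val ⁻¹' J
  have hn : (((chevRGD D F).UJ J').subgroupOf ((chevRGD D F).PJ J')).Normal :=
    Subgroup.normal_subgroupOf_of_le_normalizer (RGD.PJ_le_normalizer J')
  have h1 := H2.le_pCore (hN := hn) ((hp.UJ J').comap_subtype)
  rw [(H2.generalizedFitting_eq_pCore_iff p).2]
  · exact H2.pCore_isPGroup
  refine (Subgroup.centralizer_le h1).trans (H2.le_pCore (hN := Subgroup.normal_centralizer (H :=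
    ((chevRGD D F).UJ J').subgroupOf _)) (hp.Up.comap_subtype.to_le fun g hg => ?_))
  refine chev_ab.centralizer_UJ_le rsOf_irred (fun t ht h => eq_one_of_commute ht fun i =>
    h _ _ ((chevSt D F).x_mem_U _ _)) (J := J') ⟨⟨i, hi⟩, hiJ⟩ (RGD.PJ_le_grp J' g.2) fun y hy => ?_
  exact congrArg Subtype.val (hg ⟨y, RGD.B_le_PJ J' (RGD.Up_le_B (RGD.UJ_le_Up J' hy))⟩ hy)

end Cfsg.Agent.S2155
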