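import Cfsg.Statements.S2159
import Mathlib
import Cfsg.Agent.H12.Bonds

set_option autoImplicit false
open Cfsg

namespace Cfsg.Agent.S2159

open Cfsg.Agent.H12

/-- Structure of the outer automorphism group of the Chevalley group `G` of type G₂, B₂, D₄, F₄, E₆, E₇ or E₈ over a finite field. Let `D̄` be the image in `Out(G)` of the subgroup generated by the diagonal automorphisms and `F̄` the image of the subgroup generated by the field automorphisms. Then `D̄` is a normal abelian subgroup of `Out(G)`, `F̄` is cyclic, `D̄F̄` is a normal subgroup, and the quotient of `Out(G)` by `D̄F̄` is trivial, of order 2, or non-abelian of order 6 (so isomorphic to the symmetric group on three letters): its index is 1 or 2, or it is 6 with the commutator subgroup of `Out(G)` not inside `D̄F̄`. -/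
theorem result {F : Type*} [Field F] [Finite F] (D : Cfsg.Lie.ChevalleyDatum) (hD : D ∈ [Cfsg.Lie.chevG2, Cfsg.Lie.chevB2, Cfsg.Lie.chevD4, Cfsg.Lie.chevF4, Cfsg.Lie.chevE6, Cfsg.Lie.chevE7, Cfsg.Lie.chevE8])
    (Dbar Fbar : Subgroup (Cfsg.Out ↥(D.group F)))
    (hDbar : Dbar = (Subgroup.closure {φ : MulAut ↥(D.group F) | D.IsDiagonalAut φ}).map (QuotientGroup.mk' (Cfsg.Inn ↥(D.group F))))
    (hFbar : Fbar = (Subgroup.closure {φ : MulAut ↥(D.group F) | D.IsFieldAut φ}).map (QuotientGroup.mk' (Cfsg.Inn ↥(D.group F)))) :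
    Dbar.Normal ∧ IsMulCommutative ↥Dbar ∧ IsCyclic ↥Fbar ∧ (Dbar ⊔ Fbar).Normal ∧
      ((Dbar ⊔ Fbar).index = 1 ∨ (Dbar ⊔ Fbar).index = 2 ∨
        ((Dbar ⊔ Fbar).index = 6 ∧ ¬ commutator (Cfsg.Out ↥(D.group F)) ≤ Dbar ⊔ Fbar)) := by
  have key : ∀ {D : Cfsg.Lie.ChevalleyDatum} [Good D], BondOK D →
      (Nat.card (grpRGD D F).perm.range = 1 ∨ Nat.card (grpRGD D F).perm.range = 2 ∨
        (Nat.card (grpRGD D F).perm.range = 6 ∧ ¬ IsMulCommutative (grpRGD D F).perm.range)) →
      ∀ A B : Subgroup (Cfsg.Out ↥(D.group F)),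
      A = (Subgroup.closure {φ : MulAut ↥(D.group F) | D.IsDiagonalAut φ}).map
        (QuotientGroup.mk' (Cfsg.Inn ↥(D.group F))) →
      B = (Subgroup.closure {φ : MulAut ↥(D.group F) | D.IsFieldAut φ}).map
        (QuotientGroup.mk' (Cfsg.Inn ↥(D.group F))) →
      A.Normal ∧ IsMulCommutative ↥A ∧ IsCyclic ↥B ∧ (A ⊔ B).Normal ∧
      ((A ⊔ B).index = 1 ∨ (A ⊔ B).index = 2 ∨
        ((A ⊔ B).index = 6 ∧ ¬ commutator (Cfsg.Out ↥(D.group F)) ≤ A ⊔ B)) := by
    intro D _ hD h A B hA hB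
    rw [closure_diag] at hA
    rw [closure_fld] at hB
    obtain ⟨h1, h2, h3, h4, h5, h6⟩ := hD.out_structure hA hB
    exact ⟨h1, h2, h3, h4, h5 ▸ h.imp_right (Or.imp_right (And.imp_right fun h h' => h (h6 h')))⟩
  simp only [List.mem_cons, List.not_mem_nil, or_false] at hD
  rcases hD with rfl | rfl | rfl | rfl | rfl | rfl | rfl
  · exact key bondOK_G2 (by have := card_range_G2 (K := F); tauto) _ _ hDbar hFbar
  · exact key bondOK_B2 (by have := card_range_B2 (K := F); tauto) _ _ hDbar hFbar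
  · exact key bondOK_D4 (Or.inr (Or.inr ⟨card_range_D4, not_comm_range_D4⟩)) _ _ hDbar hFbar
  · exact key bondOK_F4 (by have := card_range_F4 (K := F); tauto) _ _ hDbar hFbar
  · exact key bondOK_E6 (by have := card_range_E6 (K := F); tauto) _ _ hDbar hFbar
  · exact key bondOK_E7 (Or.inl card_range_E7) _ _ hDbar hFbar
  · exact key bondOK_E8 (Or.inl card_range_E8) _ _ hDbar hFbar

end Cfsg.Agent.S2159
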