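import Cfsg.Statements.S2161
import Mathlib
import Cfsg.Agent.H12.Bonds

set_option autoImplicit false
open Cfsg

namespace Cfsg.Agent.S2161

open Cfsg.Agent.H12

open Cfsg.Lie in
theorem coF_inj {D : ChevalleyDatum} [Good D] {r s : ℕ} (hr : r < D.nroots) (hs : s < D.nroots)
    (h : ∀ i < D.rank, coF D r i = coF D s i) : r = s := by
  have h1 : rlen D s • (rsOf D).α ⟨r, hr⟩ = rlen D r • (rsOf D).α ⟨s, hs⟩ := funext fun i => by
    refine mul_left_cancel₀ (rlen_pos (simple_lt i.2)).ne' ?_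
    have h1 := rlen_co hr i.2
    have h2 := rlen_co hs i.2
    simp only [rsOf_α, av, Pi.smul_apply, smul_eq_mul]
    rw [h i i.2] at h1
    linear_combination rlen D r * h2 - rlen D s * h1
  rcases (rsOf D).eq_or_eq_neg_of_smul (rlen_pos hs).ne' h1 with h2 | h2
  · exact congrArg Fin.val h2
  · obtain rfl : r = D.neg s := congrArg Fin.val h2
    have h3 := pairing_self hs
    rw [pairing_eq, Finset.sum_eq_zero fun i hi => by
      have := h i (Finset.mem_range.1 hi)
      rw [co_neg hs (Finset.mem_range.1 hi)] at this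
      rw [show coF D s i = 0 by omega, zero_mul]] at h3
    omega

open Cfsg.Lie in
theorem permRoot_eq {D : ChevalleyDatum} [Good D] {π : Equiv.Perm (Fin D.rank)} {r s : ℕ}
    (hs : s < D.nroots) (h : ∀ i : Fin D.rank, coF D s (π i) = coF D r i) : D.permRoot π r = s := by
  unfold ChevalleyDatum.permRoot
  rcases hf : List.find? _ _ with _ | u
  · exact absurd (List.all_eq_true.2 fun i _ => beq_iff_eq.2 (h i))
      (List.find?_eq_none.1 hf s (List.mem_range.2 hs))
  · refine coF_inj (List.mem_range.1 (List.mem_of_find?_eq_some hf)) hs fun i hi => ?_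
    have h0 := List.find?_some hf
    have := beq_iff_eq.1 (List.all_eq_true.1 h0 (π.symm ⟨i, hi⟩) (List.mem_finRange _))
    simpa [coF] using this.trans (h _).symm

open Cfsg.Lie in
theorem aux {F : Type*} [Field F] {D : ChevalleyDatum} [Good D] {π : Equiv.Perm (Fin D.rank)}
    (hπ : ∀ i j : Fin D.rank, D.cartan (π i) (D.simple (π j)) = D.cartan i (D.simple j))
    {φ : ↥(D.group F) ≃* ↥(D.group F)}
    (h1 : ∀ i t, φ ((grpSt D F).x ((rsOf D).simple i) t) = (grpSt D F).x ((rsOf D).simple (π i)) t)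
    (h2 : ∀ i t, φ ((grpSt D F).x ((rsOf D).neg ((rsOf D).simple i)) t) =
      (grpSt D F).x ((rsOf D).neg ((rsOf D).simple (π i))) t) (r : Fin D.nroots) :
    ∃ (s : Fin D.nroots) (ε : F), (ε = 1 ∨ ε = -1) ∧ (∀ i : Fin D.rank, coF D s (π i) = coF D r i) ∧
      ∀ t, φ ((grpSt D F).x r t) = (grpSt D F).x s (ε * t) := by
  induction r using (rsOf D).root_induction with
  | simple i =>
    exact ⟨(rsOf D).simple (π i), 1, Or.inl rfl, fun j => by
      simp [co_simple (π i).2 (π j).2, co_simple i.2 j.2, Fin.val_inj], fun t => by simp [h1]⟩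
  | step i r ih =>
    obtain ⟨s, ε, hε, h3, h4⟩ := ih
    have h5 : φ ((grpSt D F).n ((rsOf D).simple i) 1) = (grpSt D F).n ((rsOf D).simple (π i)) 1 := by
      simp only [StSys.n, map_mul, h1, h2]
    refine ⟨(rsOf D).sref (π i) s, (cdOf D).eta (π i) s * ε * (cdOf D).eta i r, ?_, fun j => ?_,
      fun t => ?_⟩
    · rcases (cdOf D).eta_sign (π i) s with a | a <;> rcases (cdOf D).eta_sign i r with b | b <;>
        rcases hε with rfl | rfl <;> simp [a, b, -cdOf_eta]
    · rw [rsOf_sref, rsOf_sref, co_refl (π i).2 s.2 (π j).2, co_refl i.2 r.2 j.2, h3, pairing_eq,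
        pairing_eq, Finset.sum_range, Finset.sum_range, ← Equiv.sum_comp π]
      simp [h3, hπ, Fin.val_inj]
    · have := congrArg φ (grpNC.m_conj_x i r ((cdOf D).eta i r * t))
      rw [← mul_assoc, (cdOf D).eta_sq, one_mul, map_mul, map_mul, map_inv, h5, h4,
        grpNC.m_conj_x] at this
      rw [← this, mul_assoc, mul_assoc]

open Cfsg.Lie in
theorem cartan_symm {D : ChevalleyDatum} [Good D] (hD : BondOK D)
    (hl : ∀ i < D.rank, D.isLong (D.simple i) = false) {π : Equiv.Perm (Fin D.rank)}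
    (hπ : D.IsDiagramSymmetry π) (i j : Fin D.rank) :
    D.cartan (π i) (D.simple (π j)) = D.cartan i (D.simple j) := by
  by_cases hij : i = j
  · rw [hij, cartan_self j.2, cartan_self (π j).2]
  have h1 := hπ i j hij
  have h2 := hD.shape _ _ hij
  have h3 := hD.shape _ _ (π.injective.ne hij)
  simp only [BondShape, hl _ (Fin.is_lt _), Bool.false_eq_true, and_false, false_and, or_false,
    and_true] at h2 h3
  rcases h2 with ⟨a, b⟩ | ⟨a, b⟩ <;> rcases h3 with ⟨c, d⟩ | ⟨c, d⟩ <;>
    simp_all [ChevalleyDatum.bonds]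

/-- For the Chevalley groups of types D₄ and E₆ (one root length) over any field: if `π` is a symmetry of the Dynkin diagram and `φ` is an automorphism sending `x_{p_i}(t)` to `x_{p_{π i}}(t)` and `x_{-p_i}(t)` to `x_{-p_{π i}}(t)` for every fundamental root `p_i`, then for every root `r` there is a sign `ε = ±1` with `φ(x_r(t)) = x_{π·r}(ε t)` for all `t`, where `π·r` is the root whose coefficients are those of `r` permuted by `π`. -/
theorem result {F : Type*} [Field F] (D : Cfsg.Lie.ChevalleyDatum) (hD : D ∈ [Cfsg.Lie.chevD4, Cfsg.Lie.chevE6])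
    (π : Equiv.Perm (Fin D.rank)) (hπ : D.IsDiagramSymmetry π) (φ : ↥(D.group F) ≃* ↥(D.group F))
    (hφ : ∀ (g : ↥(D.group F)) (i : Fin D.rank) (t : F),
      (((g : GL D.Idx F) : Matrix D.Idx D.Idx F) = D.x F (D.simple i) t →
        ((φ g : GL D.Idx F) : Matrix D.Idx D.Idx F) = D.x F (D.simple (π i)) t) ∧
      (((g : GL D.Idx F) : Matrix D.Idx D.Idx F) = D.x F (D.neg (D.simple i)) t →
        ((φ g : GL D.Idx F) : Matrix D.Idx D.Idx F) = D.x F (D.neg (D.simple (π i))) t))
    (r : ℕ) (hr : r < D.nroots) :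
    ∃ ε : F, (ε = 1 ∨ ε = -1) ∧ ∀ (g : ↥(D.group F)) (t : F),
      ((g : GL D.Idx F) : Matrix D.Idx D.Idx F) = D.x F r t →
        ((φ g : GL D.Idx F) : Matrix D.Idx D.Idx F) = D.x F (D.permRoot π r) (ε * t) := by
  obtain ⟨_, hB, hl⟩ : ∃ _ : Good D, BondOK D ∧ ∀ i < D.rank, D.isLong (D.simple i) = false := by
    simp only [List.mem_cons, List.not_mem_nil, or_false] at hD
    rcases hD with rfl | rfl
    · exact ⟨_, bondOK_D4, fun i hi => (isLong_of_chk bondChk_D4 hi).trans (by
        revert i; decide +kernel)⟩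
    · exact ⟨_, bondOK_E6, fun i hi => (isLong_of_chk bondChk_E6 hi).trans (by
        revert i; decide +kernel)⟩
  obtain ⟨s, ε, h1, h2, h3⟩ := aux (cartan_symm hB hl hπ) (φ := φ)
    (fun i t => grp_val_eq_x_iff.1 ((hφ _ i t).1 (grpSt_x_val _ t)))
    (fun i t => grp_val_eq_x_iff.1 ((hφ _ i t).2 (grpSt_x_val _ t))) ⟨r, hr⟩
  refine ⟨ε, h1, fun g t hg => ?_⟩
  rw [(grp_val_eq_x_iff (r := ⟨r, hr⟩)).1 hg, h3, grpSt_x_val, permRoot_eq s.2 h2]

end Cfsg.Agent.S2161
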