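import Cfsg.Statements.S2298
import Mathlib
import Cfsg.Agent.L0.GL2Table
-- import your own Cfsg.Agent.* helpers here

set_option autoImplicit false
open Cfsg

namespace Cfsg.Agent.S2298

open Cfsg.Agent.L0 Cfsg.Agent.H6



/-- Over a finite field F with q elements, every irreducible complex character of GL₂ has degree 1, q − 1, q or q + 1; and when q ≥ 3 (so that these four numbers are distinct) there are exactly q − 1 irreducible characters of degree 1, exactly q − 1 of degree q, exactly (q − 1)(q − 2)/2 of degree q + 1 and exactly q(q − 1)/2 of degree q − 1. -/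
theorem result {F : Type*} [Field F] [Fintype F] :
    (∀ χ : Matrix.GeneralLinearGroup (Fin 2) F → ℂ, Cfsg.IsIrrCharacter (Matrix.GeneralLinearGroup (Fin 2) F) χ →
      χ 1 = 1 ∨ χ 1 = (Fintype.card F : ℂ) - 1 ∨ χ 1 = (Fintype.card F : ℂ) ∨ χ 1 = (Fintype.card F : ℂ) + 1) ∧
    (3 ≤ Fintype.card F →
      Nat.card {χ : Cfsg.IrrCharacter (Matrix.GeneralLinearGroup (Fin 2) F) // (χ : Matrix.GeneralLinearGroup (Fin 2) F → ℂ) 1 = 1} = Fintype.card F - 1 ∧
      Nat.card {χ : Cfsg.IrrCharacter (Matrix.GeneralLinearGroup (Fin 2) F) // (χ : Matrix.GeneralLinearGroup (Fin 2) F → ℂ) 1 = (Fintype.card F : ℂ)} = Fintype.card F - 1 ∧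
      Nat.card {χ : Cfsg.IrrCharacter (Matrix.GeneralLinearGroup (Fin 2) F) // (χ : Matrix.GeneralLinearGroup (Fin 2) F → ℂ) 1 = (Fintype.card F : ℂ) + 1} = (Fintype.card F - 1) * (Fintype.card F - 2) / 2 ∧
      Nat.card {χ : Cfsg.IrrCharacter (Matrix.GeneralLinearGroup (Fin 2) F) // (χ : Matrix.GeneralLinearGroup (Fin 2) F → ℂ) 1 = (Fintype.card F : ℂ) - 1} = Fintype.card F * (Fintype.card F - 1) / 2) := by
  classical
  have hq1 : (Fintype.card F : ℂ) + 1 ≠ 1 := by simp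
  have hq2 : (Fintype.card F : ℂ) ≠ 1 := by exact_mod_cast (Fintype.one_lt_card (α := F)).ne'
  have hq3 : (Fintype.card F : ℂ) + 1 ≠ Fintype.card F := by simp
  have hq4 : (Fintype.card F : ℂ) - 1 ≠ Fintype.card F := by simp
  have hq5 : (Fintype.card F : ℂ) - 1 ≠ Fintype.card F + 1 := by
    intro h
    have : (2 : ℂ) = 0 := by linear_combination -h
    norm_num at this
  refine ⟨fun χ hχ => ?_, fun h3 => ?_⟩
  · rcases irr_g2_cases (QExt F) hχ with ⟨α, rfl⟩ | ⟨α, rfl⟩ | ⟨α, β, -, rfl⟩ | ⟨θ, -, rfl⟩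
    · exact Or.inl (lin_one α)
    · exact Or.inr (Or.inr (Or.inl (Stw_one α)))
    · exact Or.inr (Or.inr (Or.inr (Rch_one α β)))
    · exact Or.inr (Or.inl (Pch_one F θ))
  have hq6 : (Fintype.card F : ℂ) - 1 ≠ 1 := by
    intro h
    have : (Fintype.card F : ℂ) = (2 : ℕ) := by push_cast; linear_combination h
    have := Nat.cast_injective this
    omega
  refine ⟨?_, ?_, ?_, ?_⟩
  · rw [← card_mulChar]
    refine (Nat.card_congr (Equiv.ofBijective (fun α : MulChar F ℂ =>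
      (⟨⟨lin α, isIrr_lin α⟩, lin_one α⟩ : {χ : IrrCharacter (G2 F) // (χ : G2 F → ℂ) 1 = 1}))
      ⟨fun α β h => lin_injective (congrArg (fun x => x.1.1) h), ?_⟩)).symm
    rintro ⟨⟨χ, hχ⟩, h1⟩
    rcases irr_g2_cases (QExt F) hχ with ⟨α, rfl⟩ | ⟨α, rfl⟩ | ⟨α, β, -, rfl⟩ | ⟨θ, -, rfl⟩
    · exact ⟨α, rfl⟩
    · exact (hq2 ((Stw_one α).symm.trans h1)).elim
    · exact (hq1 ((Rch_one α β).symm.trans h1)).elim
    · exact (hq6 ((Pch_one F θ).symm.trans h1)).elim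
  · rw [← card_mulChar]
    refine (Nat.card_congr (Equiv.ofBijective (fun α : MulChar F ℂ =>
      (⟨⟨Stw α, isIrr_Stw α⟩, Stw_one α⟩ :
        {χ : IrrCharacter (G2 F) // (χ : G2 F → ℂ) 1 = Fintype.card F}))
      ⟨fun α β h => Stw_injective (congrArg (fun x => x.1.1) h), ?_⟩)).symm
    rintro ⟨⟨χ, hχ⟩, h1⟩
    rcases irr_g2_cases (QExt F) hχ with ⟨α, rfl⟩ | ⟨α, rfl⟩ | ⟨α, β, -, rfl⟩ | ⟨θ, -, rfl⟩
    · exact (hq2 (h1.symm.trans (lin_one α))).elim
    · exact ⟨α, rfl⟩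
    · exact (hq3 ((Rch_one α β).symm.trans h1)).elim
    · exact (hq4 ((Pch_one F θ).symm.trans h1)).elim
  · have h := card_eq_two_mul_of_fiber (fun p : {p : MulChar F ℂ × MulChar F ℂ // p.1 ≠ p.2} =>
      (⟨⟨Rch p.1.1 p.1.2, isIrr_Rch p.2⟩, Rch_one _ _⟩ :
        {χ : IrrCharacter (G2 F) // (χ : G2 F → ℂ) 1 = Fintype.card F + 1})) ?_
      (fun p => ⟨p.1.swap, p.2.symm⟩) (fun p h => p.2 (congrArg (fun x => x.1.2) h)) ?_
    · have := Fintype.ofFinite (MulChar F ℂ)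
      have h2 : Nat.card {p : MulChar F ℂ × MulChar F ℂ // p.1 ≠ p.2} =
          (Fintype.card F - 1) * (Fintype.card F - 2) := by
        rw [Nat.card_eq_fintype_card, Fintype.card_subtype,
          show (Finset.univ.filter fun p : MulChar F ℂ × MulChar F ℂ => p.1 ≠ p.2) =
            Finset.univ.offDiag by ext p; simp, Finset.offDiag_card, Finset.card_univ,
          ← Nat.card_eq_fintype_card, card_mulChar, ← Nat.mul_sub_one]
        rfl
      rw [← h2, h, Nat.mul_div_cancel_left _ two_pos]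
    · rintro ⟨⟨χ, hχ⟩, h1⟩
      rcases irr_g2_cases (QExt F) hχ with ⟨α, rfl⟩ | ⟨α, rfl⟩ | ⟨α, β, hab, rfl⟩ | ⟨θ, -, rfl⟩
      · exact (hq1 (h1.symm.trans (lin_one α))).elim
      · exact (hq3 (h1.symm.trans (Stw_one α))).elim
      · exact ⟨⟨(α, β), hab⟩, rfl⟩
      · exact (hq5 ((Pch_one F θ).symm.trans h1)).elim
    · rintro ⟨⟨α, β⟩, h⟩ ⟨⟨α', β'⟩, h'⟩
      simp only [Subtype.mk.injEq, Rch_eq_iff, Prod.mk.injEq, Prod.swap_prod_mk]
      tauto
  · have h := card_eq_two_mul_of_fiber (fun θ : {θ : MulChar (QExt F) ℂ // ¬ frbC F θ = θ} =>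
      (⟨⟨Pch F θ.1, isIrr_Pch θ.2⟩, Pch_one F _⟩ :
        {χ : IrrCharacter (G2 F) // (χ : G2 F → ℂ) 1 = Fintype.card F - 1})) ?_
      (fun θ => ⟨frbC F θ.1, by rw [frbC_frbC]; exact fun h => θ.2 h.symm⟩)
      (fun θ h => θ.2 (congrArg Subtype.val h)) ?_
    · have := Fintype.ofFinite (MulChar (QExt F) ℂ)
      have h2 : Nat.card {θ : MulChar (QExt F) ℂ // ¬ frbC F θ = θ} =
          Fintype.card F * (Fintype.card F - 1) := by
        rw [Nat.card_eq_fintype_card, Fintype.card_subtype_compl, ← Nat.card_eq_fintype_card,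
          ← Nat.card_eq_fintype_card, card_frbC_fixed, card_mulChar, card_quad F (K := QExt F),
          Nat.mul_sub_one, sq]
        have : Fintype.card F ≤ Fintype.card F * Fintype.card F := Nat.le_mul_self _
        omega
      rw [← h2, h, Nat.mul_div_cancel_left _ two_pos]
    · rintro ⟨⟨χ, hχ⟩, h1⟩
      rcases irr_g2_cases (QExt F) hχ with ⟨α, rfl⟩ | ⟨α, rfl⟩ | ⟨α, β, hab, rfl⟩ | ⟨θ, hθ, rfl⟩
      · exact (hq6 (h1.symm.trans (lin_one α))).elim
      · exact (hq4 (h1.symm.trans (Stw_one α))).elim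
      · exact (hq5 (h1.symm.trans (Rch_one α β))).elim
      · exact ⟨⟨θ, hθ⟩, rfl⟩
    · rintro ⟨θ, h⟩ ⟨θ', h'⟩
      simp only [Subtype.mk.injEq, Pch_eq_iff]

end Cfsg.Agent.S2298
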