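import Cfsg.Statements.S2299
import Mathlib
import Cfsg.Agent.L0.SL2Count
-- import your own Cfsg.Agent.* helpers here

set_option autoImplicit false
open Cfsg

namespace Cfsg.Agent.S2299

open Cfsg.Agent.L0 Cfsg.Agent.H6

/-- Over a finite field F with q elements, q odd, every irreducible complex character of SL₂ has degree 1, q, q + 1, q − 1, (q + 1)/2 or (q − 1)/2; and when q ≥ 5 (so that these six numbers are distinct) there are exactly one irreducible character of degree 1, one of degree q, (q − 3)/2 of degree q + 1, (q − 1)/2 of degree q − 1, two of degree (q + 1)/2 and two of degree (q − 1)/2. -/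
theorem result {F : Type*} [Field F] [Fintype F] (hodd : Odd (Fintype.card F)) :
    (∀ χ : Matrix.SpecialLinearGroup (Fin 2) F → ℂ, Cfsg.IsIrrCharacter (Matrix.SpecialLinearGroup (Fin 2) F) χ →
      χ 1 = 1 ∨ χ 1 = (Fintype.card F : ℂ) ∨ χ 1 = (Fintype.card F : ℂ) + 1 ∨ χ 1 = (Fintype.card F : ℂ) - 1 ∨
        χ 1 = (((Fintype.card F + 1) / 2 : ℕ) : ℂ) ∨ χ 1 = (((Fintype.card F - 1) / 2 : ℕ) : ℂ)) ∧
    (5 ≤ Fintype.card F →
      Nat.card {χ : Cfsg.IrrCharacter (Matrix.SpecialLinearGroup (Fin 2) F) // (χ : Matrix.SpecialLinearGroup (Fin 2) F → ℂ) 1 = 1} = 1 ∧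
      Nat.card {χ : Cfsg.IrrCharacter (Matrix.SpecialLinearGroup (Fin 2) F) // (χ : Matrix.SpecialLinearGroup (Fin 2) F → ℂ) 1 = (Fintype.card F : ℂ)} = 1 ∧
      Nat.card {χ : Cfsg.IrrCharacter (Matrix.SpecialLinearGroup (Fin 2) F) // (χ : Matrix.SpecialLinearGroup (Fin 2) F → ℂ) 1 = (Fintype.card F : ℂ) + 1} = (Fintype.card F - 3) / 2 ∧
      Nat.card {χ : Cfsg.IrrCharacter (Matrix.SpecialLinearGroup (Fin 2) F) // (χ : Matrix.SpecialLinearGroup (Fin 2) F → ℂ) 1 = (Fintype.card F : ℂ) - 1} = (Fintype.card F - 1) / 2 ∧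
      Nat.card {χ : Cfsg.IrrCharacter (Matrix.SpecialLinearGroup (Fin 2) F) // (χ : Matrix.SpecialLinearGroup (Fin 2) F → ℂ) 1 = (((Fintype.card F + 1) / 2 : ℕ) : ℂ)} = 2 ∧
      Nat.card {χ : Cfsg.IrrCharacter (Matrix.SpecialLinearGroup (Fin 2) F) // (χ : Matrix.SpecialLinearGroup (Fin 2) F → ℂ) 1 = (((Fintype.card F - 1) / 2 : ℕ) : ℂ)} = 2) := by
  have he := card_sq_eq_one_odd (two_ne_zero_of_odd hodd)
  refine ⟨fun χ hχ => ?_, fun h5 => ⟨?_, ?_, ?_, ?_, card_irr_s2_half_add hodd (by omega),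
    card_irr_s2_half_sub hodd h5⟩⟩
  · rcases irr_s2_cases (QExt F) hχ with rfl | rfl | ⟨α, h, rfl⟩ | ⟨θ, h, rfl⟩ |
      ⟨α, χ', h2, h1, h⟩ | ⟨θ, χ', h2, h1, h⟩
    · exact Or.inl rfl
    · exact Or.inr (Or.inl Sts_one)
    · exact Or.inr (Or.inr (Or.inl (Rs_one α)))
    · exact Or.inr (Or.inr (Or.inr (Or.inl (Ps_one F θ))))
    · exact Or.inr (Or.inr (Or.inr (Or.inr (Or.inl (halves_Rs_one h)))))
    · exact Or.inr (Or.inr (Or.inr (Or.inr (Or.inr (halves_Ps_one h)))))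
  · exact card_irr_eq_one (P := fun χ => χ 1 = 1) isIrr_one rfl
      fun χ hχ h => irr_s2_deg_one (by omega) hχ h
  · exact card_irr_eq_one (P := fun χ => χ 1 = (Fintype.card F : ℂ)) isIrr_Sts Sts_one
      fun χ hχ h => irr_s2_deg_card hχ h
  · have h := card_irr_s2_add (F := F)
    rw [he] at h
    rw [show Fintype.card F - 3 = Fintype.card F - 1 - 2 by omega, ← h,
      Nat.mul_div_cancel_left _ two_pos]
  · have h := card_irr_s2_sub (F := F) (by omega)
    rw [he] at h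
    rw [show Fintype.card F - 1 = Fintype.card F + 1 - 2 by omega, ← h,
      Nat.mul_div_cancel_left _ two_pos]

end Cfsg.Agent.S2299
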