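import Cfsg.Statements.S2300
import Mathlib
import Cfsg.Agent.L0.SL2Count
-- import your own Cfsg.Agent.* helpers here

set_option autoImplicit false
open Cfsg

namespace Cfsg.Agent.S2300

open Cfsg.Agent.L0 Cfsg.Agent.H6

/-- Over a finite field F with q elements, q even, every irreducible complex character of SL₂ has degree 1, q − 1, q or q + 1; and when q ≥ 4 (so that these four numbers are distinct) there are exactly one irreducible character of degree 1, one of degree q, (q − 2)/2 of degree q + 1 and q/2 of degree q − 1. -/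
theorem result {F : Type*} [Field F] [Fintype F] [CharP F 2] :
    (∀ χ : Matrix.SpecialLinearGroup (Fin 2) F → ℂ, Cfsg.IsIrrCharacter (Matrix.SpecialLinearGroup (Fin 2) F) χ →
      χ 1 = 1 ∨ χ 1 = (Fintype.card F : ℂ) - 1 ∨ χ 1 = (Fintype.card F : ℂ) ∨ χ 1 = (Fintype.card F : ℂ) + 1) ∧
    (4 ≤ Fintype.card F →
      Nat.card {χ : Cfsg.IrrCharacter (Matrix.SpecialLinearGroup (Fin 2) F) // (χ : Matrix.SpecialLinearGroup (Fin 2) F → ℂ) 1 = 1} = 1 ∧
      Nat.card {χ : Cfsg.IrrCharacter (Matrix.SpecialLinearGroup (Fin 2) F) // (χ : Matrix.SpecialLinearGroup (Fin 2) F → ℂ) 1 = (Fintype.card F : ℂ)} = 1 ∧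
      Nat.card {χ : Cfsg.IrrCharacter (Matrix.SpecialLinearGroup (Fin 2) F) // (χ : Matrix.SpecialLinearGroup (Fin 2) F → ℂ) 1 = (Fintype.card F : ℂ) + 1} = (Fintype.card F - 2) / 2 ∧
      Nat.card {χ : Cfsg.IrrCharacter (Matrix.SpecialLinearGroup (Fin 2) F) // (χ : Matrix.SpecialLinearGroup (Fin 2) F → ℂ) 1 = (Fintype.card F : ℂ) - 1} = Fintype.card F / 2) := by
  have h2 : (2 : F) = 0 := CharTwo.two_eq_zero
  have he := card_sq_eq_one_even h2
  refine ⟨fun χ hχ => ?_, fun h4 => ⟨?_, ?_, ?_, ?_⟩⟩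
  · rcases irr_s2_cases (QExt F) hχ with rfl | rfl | ⟨α, h, rfl⟩ | ⟨θ, h, rfl⟩ |
      ⟨α, χ', -, -, h⟩ | ⟨θ, χ', -, -, h⟩
    · exact Or.inl rfl
    · exact Or.inr (Or.inr (Or.inl Sts_one))
    · exact Or.inr (Or.inr (Or.inr (Rs_one α)))
    · exact Or.inr (Or.inl (Ps_one F θ))
    · exact (h.two_ne_zero h2).elim
    · exact (h.two_ne_zero h2).elim
  · exact card_irr_eq_one (P := fun χ => χ 1 = 1) isIrr_one rfl
      fun χ hχ h => irr_s2_deg_one h4 hχ h
  · exact card_irr_eq_one (P := fun χ => χ 1 = (Fintype.card F : ℂ)) isIrr_Sts Sts_one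
      fun χ hχ h => irr_s2_deg_card hχ h
  · have h := card_irr_s2_add (F := F)
    rw [he] at h
    rw [show Fintype.card F - 2 = Fintype.card F - 1 - 1 by omega, ← h,
      Nat.mul_div_cancel_left _ two_pos]
  · have h := card_irr_s2_sub (F := F) h4
    rw [he, Nat.add_sub_cancel] at h
    exact (Nat.div_eq_of_eq_mul_right two_pos h.symm).symm

end Cfsg.Agent.S2300
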