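import Cfsg.Statements.S2301
import Mathlib
import Cfsg.Agent.L0.SL2More
-- import your own Cfsg.Agent.* helpers here

set_option autoImplicit false
open Cfsg

namespace Cfsg.Agent.S2301

open Cfsg.Agent.L0 Cfsg.Agent.H6

/-- Over a finite field with q elements of odd characteristic p, the elements of order p of SL₂ (the non-identity unipotent elements) fall into exactly two conjugacy classes, each of size (q² − 1)/2; two upper unitriangular matrices with non-zero off-diagonal entries b and b′ are conjugate exactly when bb′ is a square. -/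
theorem result {F : Type*} [Field F] [Fintype F] (p : ℕ) [Fact p.Prime] [CharP F p] (hp : p ≠ 2) :
    Nat.card {C : ConjClasses (Matrix.SpecialLinearGroup (Fin 2) F) // ∃ g : Matrix.SpecialLinearGroup (Fin 2) F, orderOf g = p ∧ ConjClasses.mk g = C} = 2 ∧
    (∀ g : Matrix.SpecialLinearGroup (Fin 2) F, orderOf g = p → Nat.card (ConjClasses.mk g).carrier = (Fintype.card F ^ 2 - 1) / 2) ∧
    ∀ g h : Matrix.SpecialLinearGroup (Fin 2) F, (g : Matrix (Fin 2) (Fin 2) F) 0 0 = 1 → (g : Matrix (Fin 2) (Fin 2) F) 1 1 = 1 → (g : Matrix (Fin 2) (Fin 2) F) 1 0 = 0 → (g : Matrix (Fin 2) (Fin 2) F) 0 1 ≠ 0 →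
      (h : Matrix (Fin 2) (Fin 2) F) 0 0 = 1 → (h : Matrix (Fin 2) (Fin 2) F) 1 1 = 1 → (h : Matrix (Fin 2) (Fin 2) F) 1 0 = 0 → (h : Matrix (Fin 2) (Fin 2) F) 0 1 ≠ 0 →
      (IsConj g h ↔ IsSquare ((g : Matrix (Fin 2) (Fin 2) F) 0 1 * (h : Matrix (Fin 2) (Fin 2) F) 0 1)) := by
  have h2 := two_ne_zero_of_charP (F := F) p hp
  have key : ∀ g : S2 F, orderOf g = p → IsConj (jb 1) (tG g) := fun g hg =>
    isConj_jb_one_of_orderOf p (by rw [orderOf_injective tG tG_injective, hg])
  refine ⟨?_, fun g hg => ?_, fun g h g00 g11 g10 g01 h00 h11 h10 h01 => ?_⟩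
  · obtain ⟨n, hn⟩ := FiniteField.exists_nonsquare (F := F) (by rw [ringChar.eq F p]; exact hp)
    have hn0 : n ≠ 0 := by rintro rfl; exact hn IsSquare.zero
    rw [Nat.card_eq_two_iff' (⟨ConjClasses.mk (uu 1), uu 1, orderOf_uu p one_ne_zero, rfl⟩ :
      {C : ConjClasses (S2 F) // ∃ g : S2 F, orderOf g = p ∧ ConjClasses.mk g = C})]
    refine ⟨⟨ConjClasses.mk (uu n), uu n, orderOf_uu p hn0, rfl⟩, fun H => hn ?_, ?_⟩
    · have := (isConj_uu_iff hn0 one_ne_zero).1 (ConjClasses.mk_eq_mk_iff_isConj.1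
        (congrArg Subtype.val H))
      rwa [mul_one] at this
    · rintro ⟨_, g, hg, rfl⟩ hne
      obtain ⟨a, ha, Ha⟩ := exists_isConj_uu (key g hg)
      apply Subtype.ext
      apply ConjClasses.mk_eq_mk_iff_isConj.2
      refine Ha.symm.trans ((isConj_uu_iff ha hn0).2 ?_)
      have ha' : ¬ IsSquare a := fun hs => hne (Subtype.ext (ConjClasses.mk_eq_mk_iff_isConj.2
        (Ha.symm.trans ((isConj_uu_iff ha one_ne_zero).2 (by rwa [mul_one])))))
      obtain ⟨z, hz⟩ := exists_mul_sq_of_not_isSquare (a := Units.mk0 a ha) (b := Units.mk0 n hn0)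
        (fun h => ha' (isSquare_units_iff.2 h)) (fun h => hn (isSquare_units_iff.2 h))
      have hz' : a = n * (z * z) := congrArg Units.val hz
      exact ⟨n * z, by rw [hz']; ring⟩
  · have := card_carrier_uu (key g hg)
    rw [card_sq_eq_one_odd h2] at this
    omega
  · have := isConj_uu_iff g01 h01
    rwa [← eq_uu g00 g11 g10, ← eq_uu h00 h11 h10] at this

end Cfsg.Agent.S2301
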