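import Cfsg.Statements.S2302
import Mathlib
import Cfsg.Agent.L0.SL2More
-- import your own Cfsg.Agent.* helpers here

set_option autoImplicit false
open Cfsg

namespace Cfsg.Agent.S2302

open Cfsg.Agent.L0 Cfsg.Agent.H6

/-- Over a finite field with q elements of characteristic 2, the involutions of SL₂ (the non-identity unipotent elements) form a single conjugacy class, of size q² − 1. -/
theorem result {F : Type*} [Field F] [Fintype F] [CharP F 2] (g h : Matrix.SpecialLinearGroup (Fin 2) F) (hg : orderOf g = 2) (hh : orderOf h = 2) :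
    IsConj g h ∧ Nat.card (ConjClasses.mk g).carrier = Fintype.card F ^ 2 - 1 := by
  have key : ∀ g : S2 F, orderOf g = 2 → IsConj (jb 1) (tG g) := fun g hg =>
    isConj_jb_one_of_orderOf 2 (by rw [orderOf_injective tG tG_injective, hg])
  constructor
  · obtain ⟨a, ha, Ha⟩ := exists_isConj_uu (key g hg)
    obtain ⟨b, hb, Hb⟩ := exists_isConj_uu (key h hh)
    refine Ha.symm.trans (((isConj_uu_iff ha hb).2 ?_).trans Hb)
    exact FiniteField.isSquare_of_char_two (ringChar.eq F 2) _
  · have := card_carrier_uu (key g hg)
    rwa [card_sq_eq_one_even (CharTwo.two_eq_zero), one_mul] at this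

end Cfsg.Agent.S2302
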