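import Cfsg.Statements.S2308
import Mathlib
import Cfsg.Agent.L0.GL2Table
-- import your own Cfsg.Agent.* helpers here

set_option autoImplicit false
open Cfsg

namespace Cfsg.Agent.S2308

open Cfsg.Agent.L0 Cfsg.Agent.H6

/-- Values of the permutation character of GL₂ over a finite field F with q elements on the cosets of its upper triangular subgroup (equivalently, the number of lines of F² that an element maps to themselves): q + 1 at a scalar matrix, 2 at a diagonal matrix with two different diagonal entries, 0 at an element with no eigenvector in F², and 1 at an upper triangular matrix with equal diagonal entries and non-zero upper right entry. -/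
theorem result {F : Type*} [Field F] [Fintype F] (g : Matrix.GeneralLinearGroup (Fin 2) F) :
    ((∃ a : F, (g : Matrix (Fin 2) (Fin 2) F) = a • (1 : Matrix (Fin 2) (Fin 2) F)) → Cfsg.fixedPointCharacter (Cfsg.upperTriangularGL 2 F) g = Fintype.card F + 1) ∧
    ((g : Matrix (Fin 2) (Fin 2) F) 0 1 = 0 → (g : Matrix (Fin 2) (Fin 2) F) 1 0 = 0 → (g : Matrix (Fin 2) (Fin 2) F) 0 0 ≠ (g : Matrix (Fin 2) (Fin 2) F) 1 1 →
      Cfsg.fixedPointCharacter (Cfsg.upperTriangularGL 2 F) g = 2) ∧
    ((∀ (c : F) (v : Fin 2 → F), v ≠ 0 → (g : Matrix (Fin 2) (Fin 2) F).mulVec v ≠ c • v) → Cfsg.fixedPointCharacter (Cfsg.upperTriangularGL 2 F) g = 0) ∧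
    ((g : Matrix (Fin 2) (Fin 2) F) 1 0 = 0 → (g : Matrix (Fin 2) (Fin 2) F) 0 0 = (g : Matrix (Fin 2) (Fin 2) F) 1 1 → (g : Matrix (Fin 2) (Fin 2) F) 0 1 ≠ 0 →
      Cfsg.fixedPointCharacter (Cfsg.upperTriangularGL 2 F) g = 1) := by
  classical
  have key : Cfsg.fixedPointCharacter (Cfsg.upperTriangularGL 2 F) g =
      Rf (fun _ _ => 1) (g : M2 F) := by
    have h := congrFun (perm_eq_indFun (G := G2 F) (G2 F ⧸ Cfsg.upperTriangularGL 2 F)
      ((1 : G2 F) : G2 F ⧸ Cfsg.upperTriangularGL 2 F)) g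
    rw [MulAction.stabilizer_quotient] at h
    rw [Cfsg.fixedPointCharacter, h]
    exact indFun_eq_Rf (MonoidHom.id _) _ mem_upperTriangularGL xs (fun _ => rfl) _ _
      (isClassFunction_const 1) (fun _ => rfl) g
  rw [key]
  refine ⟨fun h => ?_, fun h01 h10 h => ?_, fun h => Rf_ell _ (no_root_of_no_eigenvector h),
    fun h10 h h01 => Rf_jordan _ h01 h10 h⟩
  · obtain ⟨h1, h2, h3⟩ := (isScal_iff _).2 h
    rw [Rf_scal _ h1 h2 h3, mul_one]
  · rw [Rf_diag _ h01 h10 h]
    norm_num

end Cfsg.Agent.S2308
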