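import Cfsg.Statements.S2309
import Mathlib
import Cfsg.Agent.L0.GL2Table
-- import your own Cfsg.Agent.* helpers here

set_option autoImplicit false
open Cfsg

namespace Cfsg.Agent.S2309

open Cfsg.Agent.L0 Cfsg.Agent.H6

/-- Over a finite field F with q elements: every irreducible complex character of GL₂ of degree q − 1 vanishes at every diagonal matrix with two distinct entries, and every irreducible complex character of degree q + 1 vanishes at every element with no eigenvector in F². -/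
theorem result {F : Type*} [Field F] [Fintype F] (χ : Matrix.GeneralLinearGroup (Fin 2) F → ℂ) (hχ : Cfsg.IsIrrCharacter (Matrix.GeneralLinearGroup (Fin 2) F) χ) (g : Matrix.GeneralLinearGroup (Fin 2) F) :
    (χ 1 = (Fintype.card F : ℂ) - 1 → (g : Matrix (Fin 2) (Fin 2) F) 0 1 = 0 → (g : Matrix (Fin 2) (Fin 2) F) 1 0 = 0 → (g : Matrix (Fin 2) (Fin 2) F) 0 0 ≠ (g : Matrix (Fin 2) (Fin 2) F) 1 1 → χ g = 0) ∧
    (χ 1 = (Fintype.card F : ℂ) + 1 → (∀ (c : F) (v : Fin 2 → F), v ≠ 0 → (g : Matrix (Fin 2) (Fin 2) F).mulVec v ≠ c • v) → χ g = 0) := by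
  have hq1 : (Fintype.card F : ℂ) + 1 ≠ 1 := by simp
  have hq3 : (Fintype.card F : ℂ) + 1 ≠ Fintype.card F := by simp
  have hq4 : (Fintype.card F : ℂ) - 1 ≠ Fintype.card F := by simp
  have hq5 : (Fintype.card F : ℂ) - 1 ≠ Fintype.card F + 1 := by
    intro h
    have : (2 : ℂ) = 0 := by linear_combination -h
    norm_num at this
  constructor
  · intro h1 h01 h10 h
    have hd := g2_det_ne_zero' g
    rw [h01, zero_mul, sub_zero] at hd
    have hab : Units.mk0 _ (left_ne_zero_of_mul hd) ≠ Units.mk0 _ (right_ne_zero_of_mul hd) :=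
      fun h' => h (congrArg Units.val h')
    have hg : g = dg (Units.mk0 _ (left_ne_zero_of_mul hd)) (Units.mk0 _ (right_ne_zero_of_mul hd)) :=
      Units.ext (m2_ext (by simp) (by simp [h01]) (by simp [h10]) (by simp))
    rcases irr_g2_cases (QExt F) hχ with ⟨α, rfl⟩ | ⟨α, rfl⟩ | ⟨α, β, -, rfl⟩ | ⟨θ, -, rfl⟩
    · exfalso
      rw [lin_one] at h1
      have h2 : (Fintype.card F : ℂ) = (2 : ℕ) := by push_cast; linear_combination -h1
      have h3 : Nat.card Fˣ = 1 := by
        rw [Nat.card_units, Nat.card_eq_fintype_card, Nat.cast_injective h2]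
      have := (Nat.card_eq_one_iff_unique.1 h3).1
      exact hab (Subsingleton.elim _ _)
    · exact (hq4 (h1.symm.trans (Stw_one α))).elim
    · exact (hq5 (h1.symm.trans (Rch_one α β))).elim
    · rw [hg, Pch_dg F _ hab]
  · intro h1 h
    rcases irr_g2_cases (QExt F) hχ with ⟨α, rfl⟩ | ⟨α, rfl⟩ | ⟨α, β, -, rfl⟩ | ⟨θ, -, rfl⟩
    · exact (hq1 (h1.symm.trans (lin_one α))).elim
    · exact (hq3 (h1.symm.trans (Stw_one α))).elim
    · exact Rch_ell _ _ (no_root_of_no_eigenvector h)
    · exact (hq5 ((Pch_one F θ).symm.trans h1)).elim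

end Cfsg.Agent.S2309
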