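import Cfsg.Statements.S2310
import Mathlib
import Cfsg.Agent.L0.GL2Table
-- import your own Cfsg.Agent.* helpers here

set_option autoImplicit false
open Cfsg

namespace Cfsg.Agent.S2310

open Cfsg.Agent.L0 Cfsg.Agent.H6

/-- Over a finite field F with q ≥ 3 elements, let u be the upper unitriangular matrix of GL₂ with off-diagonal entry 1. An irreducible complex character χ of GL₂ takes at u the value 1 if χ has degree 1 or q + 1, the value −1 if χ has degree q − 1, and the value 0 if χ has degree q. -/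
theorem result {F : Type*} [Field F] [Fintype F] (hq : 3 ≤ Fintype.card F) (χ : Matrix.GeneralLinearGroup (Fin 2) F → ℂ) (hχ : Cfsg.IsIrrCharacter (Matrix.GeneralLinearGroup (Fin 2) F) χ)
    (u : Matrix.GeneralLinearGroup (Fin 2) F) (hu : (u : Matrix (Fin 2) (Fin 2) F) = !![1, 1; 0, 1]) :
    (χ 1 = 1 → χ u = 1) ∧ (χ 1 = (Fintype.card F : ℂ) + 1 → χ u = 1) ∧
    (χ 1 = (Fintype.card F : ℂ) - 1 → χ u = -1) ∧ (χ 1 = (Fintype.card F : ℂ) → χ u = 0) := by
  have hq1 : (Fintype.card F : ℂ) + 1 ≠ 1 := by simp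
  have hq2 : (Fintype.card F : ℂ) ≠ 1 := by exact_mod_cast (Fintype.one_lt_card (α := F)).ne'
  have hq3 : (Fintype.card F : ℂ) + 1 ≠ Fintype.card F := by simp
  have hq4 : (Fintype.card F : ℂ) - 1 ≠ Fintype.card F := by simp
  have hq5 : (Fintype.card F : ℂ) - 1 ≠ Fintype.card F + 1 := by
    intro h
    have : (2 : ℂ) = 0 := by linear_combination -h
    norm_num at this
  have hq6 : (Fintype.card F : ℂ) - 1 ≠ 1 := by
    intro h
    have : (Fintype.card F : ℂ) = (2 : ℕ) := by push_cast; linear_combination h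
    have := Nat.cast_injective this
    omega
  have hu' : u = jb 1 := Units.ext (by rw [hu]; simp)
  subst hu'
  rcases irr_g2_cases (QExt F) hχ with ⟨α, rfl⟩ | ⟨α, rfl⟩ | ⟨α, β, -, rfl⟩ | ⟨θ, -, rfl⟩
  · rw [lin_one, lin_jb]
    simp [hq1.symm, hq2.symm, hq6.symm]
  · rw [Stw_one, Stw_jb]
    simp [hq2]
    exact hq4.symm
  · rw [Rch_one, Rch_jb]
    simp [hq5.symm]
  · rw [Pch_one, Pch_jb]
    simp [hq5, hq6]

end Cfsg.Agent.S2310
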