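import Cfsg.Statements.S2313
import Mathlib
import Cfsg.Agent.H12.Stb3

set_option autoImplicit false
open Cfsg

namespace Cfsg.Agent.S2313

open Cfsg.Agent.H12

/-- In a Chevalley group of type G₂, B₂, D₄, F₄, E₆, E₇ or E₈ over a finite field, the restriction of the Steinberg character to the subgroup B = UH is the permutation character of B on the cosets of the diagonal subgroup H: at b ∈ B its value is the number of cosets xH, x ∈ B, with bxH = xH. -/
theorem result {F : Type*} [Field F] [Fintype F] (D : Cfsg.Lie.ChevalleyDatum) (hD : D ∈ [Cfsg.Lie.chevG2, Cfsg.Lie.chevB2, Cfsg.Lie.chevD4, Cfsg.Lie.chevF4, Cfsg.Lie.chevE6, Cfsg.Lie.chevE7, Cfsg.Lie.chevE8]) (b : ↥((D.borelSubgroup F).subgroupOf (D.group F))) :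
    D.steinbergCharacter F ((((D.borelSubgroup F).subgroupOf (D.group F)).subtype) b) =
      Cfsg.fixedPointCharacter (((D.diagonalSubgroup F).subgroupOf (D.group F)).subgroupOf ((D.borelSubgroup F).subgroupOf (D.group F))) b := by
  obtain ⟨_⟩ := nonempty_good hD
  classical
  let _ := Fintype.ofFinite (D.group F)
  have hb : (b : D.group F) ∈ (grpRGD D F).B := by rw [grpRGD_B]; exact b.2
  rw [steinbergCharacter_eq, ← grpRGD_T', ← fx_subgroupOf (grpRGD_B (D := D) (F := F) ▸ RGD.T_le_B)]
  exact (RGD.stc_of_mem_B grpRGD_top hb).trans (by rw [grpRGD_B])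

end Cfsg.Agent.S2313
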