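import Mathlib
-- Template for statement S2315 (row 2315; see /opt/grader/pristine/manifest.json for weights).
-- Copy to Cfsg/Agent/S2315.lean and replace the sorry. The statement below is byte-identical to the frozen
-- statement Cfsg.CfsgFrozen.S2315 (Cfsg/Statements/S2315.lean; the theorem Cfsg.lie3_gl_card_unipotent_elements);
-- the grader kernel-checks Cfsg.Agent.S2315.result against that frozen type. Keep the theorem IN THIS FILE
-- (a `result` declared elsewhere and merely imported here is not credited); helpers may live anywhere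
-- under Cfsg/Agent/.
import Cfsg.Statements.S2315
-- import your own Cfsg.Agent.* helpers here

set_option autoImplicit false
open Cfsg

namespace Cfsg.Agent.S2315

section
open Module Finset
set_option linter.style.haveILetI false

theorem card_range_le {F V U : Type*} [Field F] [Fintype F] [AddCommGroup V] [Module F V] [Finite V] [AddCommGroup U] [Module F U] [Finite U]
    (W : Submodule F V) : Nat.card {S : U →ₗ[F] V // LinearMap.range S ≤ W} = Fintype.card F ^ (finrank F U * finrank F W) := by
  let e : {S : U →ₗ[F] V // LinearMap.range S ≤ W} ≃ (U →ₗ[F] W) :=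
    { toFun := fun S => S.1.codRestrict W fun x => S.2 ⟨x, rfl⟩
      invFun := fun S => ⟨W.subtype ∘ₗ S, by rintro _ ⟨x, rfl⟩; exact (S x).2⟩
      left_inv := fun _ => rfl
      right_inv := fun _ => rfl }
  rw [Nat.card_congr e, natCard_eq_pow_finrank (K := F), finrank_linearMap, Nat.card_eq_fintype_card]

theorem card_nil_le {F V : Type*} [Field F] [Fintype F] [AddCommGroup V] [Module F V] [Finite V] (W : Submodule F V) :
    Nat.card {T : End F V // IsNilpotent T ∧ LinearMap.range T ≤ W} =
      Nat.card {T : End F W // IsNilpotent T} * Fintype.card F ^ ((finrank F V - finrank F W) * finrank F W) := by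
  obtain ⟨W', h⟩ := W.exists_isCompl
  have key : ∀ (T : End F V) (hT : ∀ x, T x ∈ W), IsNilpotent T ↔ IsNilpotent (T.restrict (p := W) fun x _ => hT x) := fun T hT =>
    ⟨fun h => Module.End.isNilpotent.restrict _ h, fun ⟨k, hk⟩ => ⟨k + 1, LinearMap.ext fun x => by
      rw [Module.End.pow_restrict] at hk
      simpa [pow_succ] using congrArg Subtype.val (LinearMap.congr_fun hk ⟨T x, hT x⟩)⟩⟩
  let e : {T : End F V // IsNilpotent T ∧ LinearMap.range T ≤ W} ≃ {T : End F W // IsNilpotent T} × (W' →ₗ[F] W) :=
    { toFun := fun T => (⟨T.1.restrict fun x _ => T.2.2 ⟨x, rfl⟩, (key _ fun x => T.2.2 ⟨x, rfl⟩).1 T.2.1⟩,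
        (T.1.codRestrict W fun x => T.2.2 ⟨x, rfl⟩) ∘ₗ W'.subtype)
      invFun := fun S => ⟨W.subtype ∘ₗ LinearMap.ofIsCompl h S.1.1 S.2, (key _ fun x => Subtype.property _).2 (by
        convert S.1.2 using 1; exact LinearMap.ext fun x => Subtype.ext (congrArg Subtype.val (LinearMap.ofIsCompl_apply_left h x))), by rintro _ ⟨x, rfl⟩; exact Subtype.property _⟩
      left_inv := fun T => Subtype.ext (LinearMap.ext fun x => by
        obtain ⟨a, b, rfl, -⟩ := Submodule.existsUnique_add_of_isCompl h x
        simp)
      right_inv := fun S => Prod.ext (Subtype.ext (by ext x; simp)) (by ext x; simp) }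
  rw [Nat.card_congr e, Nat.card_prod, natCard_eq_pow_finrank (K := F) (V := W' →ₗ[F] W), finrank_linearMap, Nat.card_eq_fintype_card (α := F),
    ← Submodule.finrank_add_eq_of_isCompl h, Nat.add_sub_cancel_left]

theorem card_fib {A B : Type*} [Finite A] [Fintype B] [PartialOrder B] [DecidableRel (α := B) (· ≤ ·)] (P : A → Prop) (f : A → B) (W : B) :
    Nat.card {T // P T ∧ f T ≤ W} = ∑ W' with W' ≤ W, Nat.card {T // P T ∧ f T = W'} := by
  classical
  haveI := Fintype.ofFinite A
  simp only [Nat.card_eq_fintype_card, Fintype.card_subtype]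
  rw [card_eq_sum_card_fiberwise (f := f) (t := univ.filter (· ≤ W)) fun x hx => by simp at hx ⊢; exact hx.2]
  refine sum_congr rfl fun W' hW => congrArg card ?_
  ext; simp only [mem_filter, mem_univ, true_and] at *
  exact ⟨fun h => ⟨h.1.1, h.2⟩, fun h => ⟨⟨h.1, h.2 ▸ hW⟩, h.2⟩⟩

universe u in
theorem card_nil {F : Type*} [Field F] [Fintype F] (n : ℕ) (V : Type u) [AddCommGroup V] [Module F V] [Finite V] (hn : finrank F V = n) :
    Nat.card {T : End F V // IsNilpotent T} = Fintype.card F ^ (n * (n - 1)) := by
  classical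
  induction n using Nat.strong_induction_on generalizing V with | _ n ih =>
  rcases n with _ | n
  · haveI : Subsingleton V := finrank_zero_iff.1 hn
    haveI : Nonempty {T : End F V // IsNilpotent T} := ⟨0, IsNilpotent.zero⟩
    simp
  haveI : Finite (End F V) := Finite.of_injective _ DFunLike.coe_injective
  haveI : Finite ((Fin n → F) →ₗ[F] V) := Finite.of_injective _ DFunLike.coe_injective
  haveI : Fintype (Submodule F V) := Fintype.ofFinite _
  have h1 : ∀ W : Submodule F V, Nat.card {T : End F V // IsNilpotent T ∧ LinearMap.range T = W} =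
      Nat.card {S : (Fin n → F) →ₗ[F] V // True ∧ LinearMap.range S = W} := fun W => by
    induction W using WellFoundedLT.induction with | _ W ihW =>
    by_cases h : W = ⊤
    · subst h
      rw [Nat.card_eq_zero.2 (.inl ⟨fun T => ?_⟩), Nat.card_eq_zero.2 (.inl ⟨fun T => ?_⟩)]
      · have := T.1.finrank_range_le
        rw [T.2.2] at this; simp [hn] at this
      · haveI : Nontrivial V := nontrivial_of_finrank_eq_succ hn
        exact T.2.1.not_isUnit ((LinearMap.isUnit_iff_range_eq_top _).2 T.2.2)
    have h2 := Submodule.finrank_lt h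
    have e := card_fib (fun T : End F V => IsNilpotent T) LinearMap.range W
    have e' := card_fib (fun T : (Fin n → F) →ₗ[F] V => True) LinearMap.range W
    simp only [true_and] at e' ihW ⊢
    rw [card_nil_le, ih _ (hn ▸ h2) W rfl, ← pow_add] at e
    rw [card_range_le, finrank_fin_fun] at e'
    rw [show finrank F W * (finrank F W - 1) + (finrank F V - finrank F W) * finrank F W = n * finrank F W by
      generalize finrank F W = m at *
      obtain ⟨d, rfl⟩ := Nat.exists_eq_add_of_le (show m ≤ n by omega)
      rcases m with _ | m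
      · simp
      · rw [hn, show m + 1 + d + 1 - (m + 1) = d + 1 by omega]; simp; ring, 
      ← add_sum_erase _ _ (a := W) (by simp), sum_congr rfl fun W' hW => ihW W' (by simp at hW; exact lt_of_le_of_ne hW.2 hW.1)] at e
    rw [← add_sum_erase _ _ (a := W) (by simp)] at e'
    omega
  have e := card_fib (fun T : End F V => IsNilpotent T) LinearMap.range ⊤
  have e' := card_fib (fun T : (Fin n → F) →ₗ[F] V => True) LinearMap.range ⊤
  simp only [h1, ← e'] at e
  simp only [le_top, and_true] at e
  rw [e, Nat.card_congr (Equiv.subtypeUnivEquiv fun _ => trivial), natCard_eq_pow_finrank (K := F), finrank_linearMap]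
  simp [hn, mul_comm]

end

/-- Steinberg's count of unipotent elements for the general linear group: over a finite field with q elements of characteristic p, the number of elements of GL_n of p-power order (the unipotent matrices) is q^(n(n−1)). -/
theorem result {F : Type*} [Field F] [Fintype F] (p : ℕ) [Fact p.Prime] [CharP F p] (n : ℕ) :
    Nat.card {g : Matrix.GeneralLinearGroup (Fin n) F // ∃ k : ℕ, orderOf g = p ^ k} = Fintype.card F ^ (n * (n - 1)) := by
  open Module Finset in
  · have hp : p.Prime := Fact.out
    have h0 : (p : Matrix (Fin n) (Fin n) F) = 0 := by rw [← map_natCast (algebraMap F _), CharP.cast_eq_zero, map_zero]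
    have h1 : ∀ (N : Matrix (Fin n) (Fin n) F) k, (N + 1) ^ p ^ k = N ^ p ^ k + 1 := fun N k => by
      rw [(Commute.one_right N).add_pow_prime_pow_eq hp, h0]; simp
    have h2 : ∀ g : Matrix.GeneralLinearGroup (Fin n) F, (∃ k : ℕ, orderOf g = p ^ k) ↔ IsNilpotent (g.1 - 1) := fun g => by
      constructor
      · rintro ⟨k, hk⟩
        have := h1 (g.1 - 1) k
        rw [sub_add_cancel, ← Units.val_pow_eq_pow_val, ← hk, pow_orderOf_eq_one, hk] at this
        exact ⟨p ^ k, by simpa using this⟩
      · rintro ⟨k, hk⟩
        have := h1 (g.1 - 1) k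
        rw [sub_add_cancel, pow_eq_zero_of_le (Nat.lt_pow_self hp.one_lt).le hk, zero_add, ← Units.val_pow_eq_pow_val, Units.val_eq_one] at this
        exact ((Nat.dvd_prime_pow hp).1 (orderOf_dvd_of_pow_eq_one this)).imp fun _ h => h.2
    rw [← card_nil n (Fin n → F) (finrank_fin_fun F)]
    refine Nat.card_congr (Equiv.trans ⟨fun g => ⟨g.1.1 - 1, (h2 _).1 g.2⟩, fun N => ⟨N.2.isUnit_add_one.unit, (h2 _).2 (by simpa using N.2)⟩,
      fun g => by ext; simp, fun N => by ext; simp⟩ (Matrix.toLinAlgEquiv'.toEquiv.subtypeEquiv (p := IsNilpotent) fun N =>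
        (IsNilpotent.map_iff (f := (Matrix.toLinAlgEquiv' : Matrix (Fin n) (Fin n) F ≃ₐ[F] _)) (AlgEquiv.injective _)).symm))

end Cfsg.Agent.S2315
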