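import Cfsg.Statements.S2316
import Mathlib
import Cfsg.Agent.H17.LdC
import Cfsg.Agent.S0245

set_option autoImplicit false
open Cfsg

namespace Cfsg.Agent.S2316

open Cfsg.Agent.H17
open scoped commutatorElement


/-- Steinberg's count of unipotent elements for the symplectic group: over a finite field with q elements of characteristic p, the number of elements of Sp_{2m} of p-power order is q^(2m²). -/
theorem result {F : Type*} [Field F] [Fintype F] (p : ℕ) [Fact p.Prime] [CharP F p] (m : ℕ) :
    Nat.card {g : ↥(Matrix.symplecticGroup (Fin m) F) // ∃ k : ℕ, orderOf g = p ^ k} = Fintype.card F ^ (2 * m ^ 2) := by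
  have hp : p.Prime := Fact.out
  let _ := Fintype.ofFinite (Matrix.symplecticGroup (Fin m) F)
  rw [(ldSp F p m).char.card_unipotent (ldSp F p m).top, (ldSp F p m).char.card_Up (ldSp F p m).top,
    S0245.result rfl]
  obtain ⟨n, -, hn⟩ := FiniteField.card F p
  have h1 : ¬ p ∣ ∏ i ∈ Finset.range m, (Fintype.card F ^ (2 * (i + 1)) - 1) := fun h => by
    obtain ⟨i, -, h⟩ := (Prime.dvd_finsetProd_iff hp.prime _).1 h
    have h2 : p ∣ Fintype.card F ^ (2 * (i + 1)) :=
      dvd_pow (hn ▸ dvd_pow_self p n.ne_zero) (by omega)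
    have h3 := (Nat.dvd_sub_iff_right (Nat.one_le_pow _ _ Fintype.card_pos) h2).1 h
    exact hp.one_lt.ne' (Nat.dvd_one.1 h3)
  rw [Nat.factorization_mul (by positivity) (fun e => h1 (by rw [e]; exact dvd_zero p)), Finsupp.add_apply,
    Nat.factorization_eq_zero_of_not_dvd h1, add_zero, hn, ← pow_mul p n, hp.factorization_pow,
    Finsupp.single_eq_same, ← pow_mul, ← pow_mul]
  congr 1; ring

end Cfsg.Agent.S2316
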