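import Cfsg.Statements.S2317
import Mathlib
import Cfsg.Agent.L0.GLn3
-- import your own Cfsg.Agent.* helpers here

set_option autoImplicit false
open Cfsg

namespace Cfsg.Agent.S2317

open Cfsg.Agent.L0

/-- Over a finite field of characteristic p, the conjugacy classes of GL_n consisting of elements of p-power order (the unipotent classes) are as many as the partitions of n. -/
theorem result {F : Type*} [Field F] [Fintype F] (p : ℕ) [Fact p.Prime] [CharP F p] (n : ℕ) :
    Nat.card {C : ConjClasses (Matrix.GeneralLinearGroup (Fin n) F) //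
      ∃ g : Matrix.GeneralLinearGroup (Fin n) F, (∃ k : ℕ, orderOf g = p ^ k) ∧ ConjClasses.mk g = C} =
      Fintype.card (Nat.Partition n) := by
  simp only [and_comm (b := ConjClasses.mk _ = _)]
  rw [card_classes_gl _ (fun s => ∀ u ∈ s, ∃ j, 0 < j ∧ u = (Polynomial.X - 1) ^ j)
    fun g => (unip_iff_isNilpotent p g).trans (isNilpotent_sub_one_iff _), ← Nat.card_eq_fintype_card (α := Nat.Partition n),
    Nat.card_congr (unipEquiv F n)]
  refine Nat.card_congr (Equiv.subtypeEquivRight fun s => ⟨fun h => ⟨by simpa using h.2.2.1, h.2.2.2⟩,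
    fun h => ⟨fun u hu => ?_, fun u hu => ?_, by simpa using h.1, h.2⟩⟩)
  · obtain ⟨j, hj, rfl⟩ := h.2 u hu
    exact prim_X_sub_one_pow hj
  · obtain ⟨j, hj, rfl⟩ := h.2 u hu
    exact not_X_dvd_X_sub_one_pow j

end Cfsg.Agent.S2317
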