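import Cfsg.Statements.S2319
import Mathlib
import Cfsg.Agent.H12.Hk4
import Cfsg.Agent.H12.Stb3
import Cfsg.Agent.H12.WeylG2
import Cfsg.Agent.H12.WeylB2
import Cfsg.Agent.H12.WeylD4
import Cfsg.Agent.H12.WeylF4
import Cfsg.Agent.H12.WeylE6
import Cfsg.Agent.H12.WeylE7
import Cfsg.Agent.H12.WeylE8

set_option autoImplicit false
open Cfsg

namespace Cfsg.Agent.S2319

open Cfsg.Agent.H12
open Cfsg.Lie

theorem aux {F : Type*} [Field F] [Fintype F] {D : ChevalleyDatum} [Good D]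
    {M : CoxeterMatrix (Fin D.rank)}
    (h : ∃ cs : CoxeterSystem M (rsOf D).W, ∀ i, cs.simple i = (rsOf D).s i) :
    Nat.card {χ : Cfsg.IrrCharacter ↥(D.group F) //
      ∃ φ : ↥(D.group F) → ℂ, Cfsg.IsCharacter ↥(D.group F) φ ∧
        Cfsg.fixedPointCharacter ((D.borelSubgroup F).subgroupOf (D.group F)) =
          (χ : ↥(D.group F) → ℂ) + φ} = Nat.card (ConjClasses M.Group) := by
  have : Fintype (D.group F) := Fintype.ofFinite _
  obtain ⟨cs, -⟩ := h
  rw [← grpRGD_B, RGD.card_constituents grpRGD_top fun i => grp_card_U _]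
  refine Nat.card_congr (Quotient.congr cs.mulEquiv.toEquiv fun a b => ⟨fun h => ?_, fun h => ?_⟩)
  · exact cs.mulEquiv.toMonoidHom.map_isConj h
  · have h' : IsConj (cs.mulEquiv.symm (cs.mulEquiv a)) (cs.mulEquiv.symm (cs.mulEquiv b)) :=
      cs.mulEquiv.symm.toMonoidHom.map_isConj h
    rwa [MulEquiv.symm_apply_apply, MulEquiv.symm_apply_apply] at h'

/-- In a Chevalley group of type G₂, B₂, D₄, F₄, E₆, E₇ or E₈ over a finite field, the number of distinct irreducible constituents of the permutation character on the cosets of B = UH equals the number of conjugacy classes (equivalently, of irreducible characters) of the Weyl group, the Coxeter group of the type with nodes numbered as the fundamental roots. -/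
theorem result {F : Type*} [Field F] [Fintype F]
    (dw : Cfsg.Lie.ChevalleyDatum × (Σ n : ℕ, CoxeterMatrix (Fin n)))
    (hdw : dw ∈ [(Cfsg.Lie.chevG2, ⟨2, CoxeterMatrix.G₂⟩), (Cfsg.Lie.chevB2, ⟨2, CoxeterMatrix.B 2⟩), (Cfsg.Lie.chevD4, ⟨4, Cfsg.Lie.coxeterD4⟩), (Cfsg.Lie.chevF4, ⟨4, CoxeterMatrix.F₄⟩),
      (Cfsg.Lie.chevE6, ⟨6, CoxeterMatrix.E₆⟩), (Cfsg.Lie.chevE7, ⟨7, CoxeterMatrix.E₇⟩), (Cfsg.Lie.chevE8, ⟨8, CoxeterMatrix.E₈⟩)]) :
    Nat.card {χ : Cfsg.IrrCharacter ↥(dw.1.group F) //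
      ∃ φ : ↥(dw.1.group F) → ℂ, Cfsg.IsCharacter ↥(dw.1.group F) φ ∧
        Cfsg.fixedPointCharacter ((dw.1.borelSubgroup F).subgroupOf (dw.1.group F)) = (χ : ↥(dw.1.group F) → ℂ) + φ} =
      Nat.card (ConjClasses dw.2.2.Group) := by
  simp only [List.mem_cons, List.not_mem_nil, or_false] at hdw
  rcases hdw with rfl | rfl | rfl | rfl | rfl | rfl | rfl
  · exact aux coxeter_G2
  · exact aux coxeter_B2
  · exact aux coxeter_D4
  · exact aux coxeter_F4
  · exact aux coxeter_E6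
  · exact aux coxeter_E7
  · exact aux coxeter_E8

end Cfsg.Agent.S2319
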