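import Cfsg.Statements.S2320
import Mathlib
import Cfsg.Agent.L0.GL2Table
-- import your own Cfsg.Agent.* helpers here

set_option autoImplicit false
open Cfsg

namespace Cfsg.Agent.S2320

open Cfsg.Agent.L0 Cfsg.Agent.H6

/-- Over a finite field F with q elements, every irreducible complex character of GL₂ of degree q takes a value of absolute value 1 at every diagonal matrix with two different diagonal entries and at every element with no eigenvector in F². -/
theorem result {F : Type*} [Field F] [Fintype F] (χ : Matrix.GeneralLinearGroup (Fin 2) F → ℂ) (hχ : Cfsg.IsIrrCharacter (Matrix.GeneralLinearGroup (Fin 2) F) χ) (hdeg : χ 1 = (Fintype.card F : ℂ)) (g : Matrix.GeneralLinearGroup (Fin 2) F) :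
    ((g : Matrix (Fin 2) (Fin 2) F) 0 1 = 0 → (g : Matrix (Fin 2) (Fin 2) F) 1 0 = 0 → (g : Matrix (Fin 2) (Fin 2) F) 0 0 ≠ (g : Matrix (Fin 2) (Fin 2) F) 1 1 → ‖χ g‖ = 1) ∧
    ((∀ (c : F) (v : Fin 2 → F), v ≠ 0 → (g : Matrix (Fin 2) (Fin 2) F).mulVec v ≠ c • v) → ‖χ g‖ = 1) := by
  have hq2 : (Fintype.card F : ℂ) ≠ 1 := by exact_mod_cast (Fintype.one_lt_card (α := F)).ne'
  have hq3 : (Fintype.card F : ℂ) + 1 ≠ Fintype.card F := by simp
  have hq4 : (Fintype.card F : ℂ) - 1 ≠ Fintype.card F := by simp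
  obtain ⟨α, rfl⟩ : ∃ α, χ = Stw α := by
    rcases irr_g2_cases (QExt F) hχ with ⟨α, rfl⟩ | ⟨α, rfl⟩ | ⟨α, β, -, rfl⟩ | ⟨θ, -, rfl⟩
    · exact (hq2 (hdeg.symm.trans (lin_one α))).elim
    · exact ⟨α, rfl⟩
    · exact (hq3 ((Rch_one α β).symm.trans hdeg)).elim
    · exact (hq4 ((Pch_one F θ).symm.trans hdeg)).elim
  constructor
  · intro h01 h10 h
    have hd := g2_det_ne_zero' g
    rw [h01, zero_mul, sub_zero] at hd
    have hab : Units.mk0 _ (left_ne_zero_of_mul hd) ≠ Units.mk0 _ (right_ne_zero_of_mul hd) :=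
      fun h' => h (congrArg Units.val h')
    have hg : g = dg (Units.mk0 _ (left_ne_zero_of_mul hd)) (Units.mk0 _ (right_ne_zero_of_mul hd)) :=
      Units.ext (m2_ext (by simp) (by simp [h01]) (by simp [h10]) (by simp))
    rw [hg, Stw_dg _ hab, norm_mul, norm_mc, norm_mc, mul_one]
  · intro h
    rw [Stw_ell _ (no_root_of_no_eigenvector h), norm_neg]
    exact norm_mc α (Units.mk0 _ (g2_det_ne_zero g))

end Cfsg.Agent.S2320
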