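import Cfsg.Statements.S2322
import Mathlib
import Cfsg.Agent.L0.SL2Count
-- import your own Cfsg.Agent.* helpers here

set_option autoImplicit false
open Cfsg

namespace Cfsg.Agent.S2322

open Cfsg.Agent.L0 Cfsg.Agent.H6

/-- Over a finite field F with q elements, q odd: every irreducible complex character of SL₂ of degree q − 1 or (q − 1)/2 vanishes at every diagonal matrix whose diagonal entry a has a² ≠ 1, and every irreducible complex character of degree q + 1 or (q + 1)/2 vanishes at every element with no eigenvector in F². -/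
theorem result {F : Type*} [Field F] [Fintype F] (hodd : Odd (Fintype.card F)) (χ : Matrix.SpecialLinearGroup (Fin 2) F → ℂ) (hχ : Cfsg.IsIrrCharacter (Matrix.SpecialLinearGroup (Fin 2) F) χ) (g : Matrix.SpecialLinearGroup (Fin 2) F) :
    ((χ 1 = (Fintype.card F : ℂ) - 1 ∨ χ 1 = (((Fintype.card F - 1) / 2 : ℕ) : ℂ)) →
      (g : Matrix (Fin 2) (Fin 2) F) 0 1 = 0 → (g : Matrix (Fin 2) (Fin 2) F) 1 0 = 0 → (g : Matrix (Fin 2) (Fin 2) F) 0 0 ^ 2 ≠ 1 → χ g = 0) ∧
    ((χ 1 = (Fintype.card F : ℂ) + 1 ∨ χ 1 = (((Fintype.card F + 1) / 2 : ℕ) : ℂ)) →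
      (∀ (c : F) (v : Fin 2 → F), v ≠ 0 → (g : Matrix (Fin 2) (Fin 2) F).mulVec v ≠ c • v) → χ g = 0) := by
  have h2 := two_le_card (F := F)
  have hodd' := Nat.odd_iff.1 hodd
  constructor
  · intro hdeg h01 h10 h
    have hq : 5 ≤ Fintype.card F := by
      by_contra hq
      obtain ⟨a, ha, -⟩ := eq_ds h01 h10
      apply h
      rw [← ha, show 2 = Fintype.card F - 1 by omega]
      exact FiniteField.pow_card_sub_one_eq_one _ a.ne_zero
    rcases hdeg with hdeg | hdeg
    · obtain ⟨θ, -, rfl⟩ := irr_s2_deg_sub (QExt F) (by omega) hχ hdeg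
      exact Ps_diag F θ h01 h10 h
    · obtain ⟨θ, χ', -, -, H⟩ := irr_s2_deg_half_sub (QExt F) hq hχ hdeg
      have := H.two_mul (detFull_diag h01 h10)
      rw [Ps_diag F θ h01 h10 h] at this
      simpa using this
  · intro hdeg h
    have hr := no_root_of_no_eigenvector h
    rcases hdeg with hdeg | hdeg
    · obtain ⟨α, -, rfl⟩ := irr_s2_deg_add hχ hdeg
      exact Rs_ell α hr
    rcases irr_s2_cases' (QExt F) hχ hdeg with H | H | H | ⟨H, θ, hθ, rfl⟩ | ⟨-, -, α, χ', -, -, H⟩ |
      ⟨H, -⟩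
    · exfalso; have := H.1; omega
    · exfalso; have := H.1; omega
    · exfalso; have := H.1; omega
    · have hq : Fintype.card F = 3 := by omega
      obtain ⟨c, hc, Hc⟩ := exists_isConj_el (QExt F) (g := tG g) hr
      have hn : nrmU F c = 1 := Units.ext (by rw [← det_el_eq, det_eq_of_isConj Hc]; exact g.2)
      have h4 : ∀ k : K1 F (QExt F), k ^ 4 = 1 := fun k => by
        have := pow_card_eq_one' (x := k)
        rwa [card_ker_nrmU, hq] at this
      have hsq : ∀ k : K1 F (QExt F), (k ^ 2) ^ 2 = 1 := fun k => by rw [← pow_mul, h4]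
      rw [eqK_inv_iff] at hθ
      obtain ⟨k, hk⟩ : ∃ k, resK F θ (k ^ 2) ≠ 1 := by
        by_contra H
        push Not at H
        exact hθ (MonoidHom.ext fun k => by rw [MonoidHom.pow_apply, ← map_pow, H]; rfl)
      have hc2 : (⟨c, hn⟩ : K1 F (QExt F)) ^ 2 ≠ 1 :=
        fun h' => hc ((frbU_ne_iff F hn).2 (congrArg Subtype.val h'))
      have e := eq_of_card_sq_le_two (A := K1 F (QExt F))
        (by rw [card_K1_sq]; exact card_sq_le_two F) (hsq k) (hsq ⟨c, hn⟩)
        (fun h' => hk (by rw [h', map_one])) hc2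
      rw [e, map_pow] at hk
      have h5 : ((resK F θ ⟨c, hn⟩ : ℂ) ^ 2) ^ 2 = 1 := by
        rw [← Units.val_pow_eq_pow_val, ← Units.val_pow_eq_pow_val, ← map_pow, ← map_pow, hsq,
          map_one, Units.val_one]
      have h6 := (sq_eq_one_iff.1 h5).resolve_left fun h' => hk (Units.ext (by simpa using h'))
      rw [resK_apply] at h6
      have h0 := mc_ne_zero θ c
      rw [Ps_el F θ hc Hc]
      field_simp
      simp only at h6
      linear_combination -h6
    · have := H.two_mul (detFull_of_no_root (g := tG g) hr)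
      rw [Rs_ell α hr] at this
      simpa using this
    · exfalso; omega

end Cfsg.Agent.S2322
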