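import Cfsg.Statements.S2324
import Mathlib
import Cfsg.Agent.L0.SL2Count
-- import your own Cfsg.Agent.* helpers here

set_option autoImplicit false
open Cfsg

namespace Cfsg.Agent.S2324

open Cfsg.Agent.L0 Cfsg.Agent.H6

/-- Over a finite field F with q elements, q odd and q ≥ 5, let u be the upper unitriangular matrix of SL₂ with off-diagonal entry 1 and let δ = (−1)^((q−1)/2). Every irreducible complex character χ of SL₂ of degree (q + 1)/2 satisfies (2χ(u) − 1)² = δq, and every irreducible complex character χ of degree (q − 1)/2 satisfies (2χ(u) + 1)² = δq; that is, χ(u) = (1 ± √(δq))/2 in the first case and χ(u) = (−1 ± √(δq))/2 in the second. Moreover two different irreducible characters of degree (q + 1)/2 take the two different values (their values at u add up to 1), and likewise for degree (q − 1)/2 (values adding up to −1). -/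
theorem result {F : Type*} [Field F] [Fintype F] (hodd : Odd (Fintype.card F)) (hq : 5 ≤ Fintype.card F)
    (u : Matrix.SpecialLinearGroup (Fin 2) F) (hu : (u : Matrix (Fin 2) (Fin 2) F) = !![1, 1; 0, 1]) :
    (∀ χ : Matrix.SpecialLinearGroup (Fin 2) F → ℂ, Cfsg.IsIrrCharacter (Matrix.SpecialLinearGroup (Fin 2) F) χ → χ 1 = (((Fintype.card F + 1) / 2 : ℕ) : ℂ) → (2 * χ u - 1) ^ 2 = (-1 : ℂ) ^ ((Fintype.card F - 1) / 2) * (Fintype.card F : ℂ)) ∧
    (∀ χ : Matrix.SpecialLinearGroup (Fin 2) F → ℂ, Cfsg.IsIrrCharacter (Matrix.SpecialLinearGroup (Fin 2) F) χ → χ 1 = (((Fintype.card F - 1) / 2 : ℕ) : ℂ) → (2 * χ u + 1) ^ 2 = (-1 : ℂ) ^ ((Fintype.card F - 1) / 2) * (Fintype.card F : ℂ)) ∧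
    (∀ χ₁ χ₂ : Matrix.SpecialLinearGroup (Fin 2) F → ℂ, Cfsg.IsIrrCharacter (Matrix.SpecialLinearGroup (Fin 2) F) χ₁ → Cfsg.IsIrrCharacter (Matrix.SpecialLinearGroup (Fin 2) F) χ₂ → χ₁ ≠ χ₂ →
      χ₁ 1 = (((Fintype.card F + 1) / 2 : ℕ) : ℂ) → χ₂ 1 = (((Fintype.card F + 1) / 2 : ℕ) : ℂ) → χ₁ u + χ₂ u = 1) ∧
    (∀ χ₁ χ₂ : Matrix.SpecialLinearGroup (Fin 2) F → ℂ, Cfsg.IsIrrCharacter (Matrix.SpecialLinearGroup (Fin 2) F) χ₁ → Cfsg.IsIrrCharacter (Matrix.SpecialLinearGroup (Fin 2) F) χ₂ → χ₁ ≠ χ₂ →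
      χ₁ 1 = (((Fintype.card F - 1) / 2 : ℕ) : ℂ) → χ₂ 1 = (((Fintype.card F - 1) / 2 : ℕ) : ℂ) → χ₁ u + χ₂ u = -1) := by
  obtain rfl : u = uu 1 := Subtype.ext hu
  refine ⟨fun χ hχ h => ?_, fun χ hχ h => ?_, fun χ₁ χ₂ h1 h2 hne d1 d2 => ?_,
    fun χ₁ χ₂ h1 h2 hne d1 d2 => ?_⟩
  · obtain ⟨α, χ', -, -, H⟩ := irr_s2_deg_half_add (by omega) hχ h
    have := H.add_apply (uu 1)
    rw [Rs_uu α one_ne_zero] at this
    rw [← H.diff_sq, ← this]
    ring
  · obtain ⟨θ, χ', -, -, H⟩ := irr_s2_deg_half_sub (QExt F) hq hχ h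
    have := H.add_apply (uu 1)
    rw [Ps_uu F θ one_ne_zero] at this
    rw [← H.diff_sq]
    congr 1
    linear_combination this
  · obtain ⟨α, χ', a2, a1, H⟩ := irr_s2_deg_half_add (by omega) h1 d1
    obtain ⟨β, χ'', b2, b1, H'⟩ := irr_s2_deg_half_add (by omega) h2 d2
    rw [halves_Rs_unique b2 b1 a2 a1] at H'
    rw [(H.eq_or_eq H').resolve_left hne.symm, H.add_apply, Rs_uu α one_ne_zero]
  · obtain ⟨α, χ', a2, a1, H⟩ := irr_s2_deg_half_sub (QExt F) hq h1 d1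
    obtain ⟨β, χ'', b2, b1, H'⟩ := irr_s2_deg_half_sub (QExt F) hq h2 d2
    rw [halves_Ps_unique b2 b1 a2 a1] at H'
    rw [(H.eq_or_eq H').resolve_left hne.symm, H.add_apply, Ps_uu F α one_ne_zero]

end Cfsg.Agent.S2324
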