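import Cfsg.Statements.S2325
import Mathlib
import Cfsg.Agent.L0.SL2More
-- import your own Cfsg.Agent.* helpers here

set_option autoImplicit false
open Cfsg

namespace Cfsg.Agent.S2325

open Cfsg.Agent.L0 Cfsg.Agent.H6

/-- Over a finite field with q elements, q odd, the special linear group SL₂ has exactly q + 4 conjugacy classes. -/
theorem result {F : Type*} [Field F] [Fintype F] (hodd : Odd (Fintype.card F)) :
    Nat.card (ConjClasses (Matrix.SpecialLinearGroup (Fin 2) F)) = Fintype.card F + 4 := by
  rw [card_conjClasses_s2, card_sq_eq_one_odd (two_ne_zero_of_odd hodd)]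
  norm_num

end Cfsg.Agent.S2325
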