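import Cfsg.Statements.S2330
import Mathlib
import Cfsg.Agent.L0.SL2Conj
-- import your own Cfsg.Agent.* helpers here

set_option autoImplicit false
open Cfsg

namespace Cfsg.Agent.S2330

open Cfsg.Agent.L0 Cfsg.Agent.H6

/-- Over a finite field with q elements, the general linear group GL₂ has exactly q² − 1 conjugacy classes. -/
theorem result {F : Type*} [Field F] [Fintype F] :
    Nat.card (ConjClasses (Matrix.GeneralLinearGroup (Fin 2) F)) = Fintype.card F ^ 2 - 1 := by
  classical
  have hf : IsClassFunction (G2 F)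
      (fun g => (Nat.card (Subgroup.centralizer ({g} : Set (G2 F))) : ℂ)) :=
    isClassFunction_iff_isConj.2 fun g h H => by rw [card_centralizer_of_isConj H]
  have h := class_sum' (QExt F) hf (fun _ => Nat.card (G2 F))
    (fun _ => (Fintype.card F : ℂ) * (Fintype.card F - 1)) (fun _ _ => ((Fintype.card F : ℂ) - 1) ^ 2)
    (fun _ => (Fintype.card F : ℂ) ^ 2 - 1)
    (fun z => by
      rw [show Subgroup.centralizer ({sc z} : Set (G2 F)) = ⊤ from eq_top_iff.2 fun x _ =>
        Subgroup.mem_centralizer_singleton_iff.2 (sc_mul_comm z x), Subgroup.card_top])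
    (fun z => by rw [card_cent_jb, Nat.cast_mul, cast_card_sub_one])
    (fun a b hab => by rw [card_cent_dg hab, Nat.cast_pow, cast_card_sub_one])
    (fun c hc => by
      rw [card_cent_el hc, Nat.cast_sub (Nat.one_le_pow _ _ Fintype.card_pos)]; push_cast; rfl)
  rw [← Nat.cast_sum, sum_card_centralizer, Nat.cast_mul] at h
  simp only [Finset.sum_const, Finset.card_univ, ← Nat.card_eq_fintype_card (α := Fˣ),
    ← Nat.card_eq_fintype_card (α := (QExt F)ˣ), card_units_eq, nsmul_eq_mul, cast_card_sub_one,
    card_quad F (K := QExt F), Nat.cast_pow] at h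
  apply Nat.cast_injective (R := ℂ)
  rw [Nat.cast_sub (Nat.one_le_pow _ _ Fintype.card_pos)] at h ⊢
  apply mul_right_cancel₀ (card_ne_zero_complex (G2 F))
  rw [card_g2_complex] at h ⊢
  push_cast at h ⊢
  linear_combination h / 2

end Cfsg.Agent.S2330
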