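import Cfsg.Statements.S2362
import Mathlib
import Cfsg.Agent.H29.Cl7

set_option autoImplicit false
open Cfsg

namespace Cfsg.Agent.S2362

/-- Let F be a finite field of odd order and n ≥ 3. The simple orthogonal group PΩ(2n+1, F) (type B_n) and the projective symplectic group PSp(2n, F) (type C_n), which have the same order, do not have the same set of element orders. -/
theorem result {F : Type*} [Field F] [Fintype F] (hodd : Odd (Fintype.card F)) (n : ℕ) (hn : 3 ≤ n) :
    Set.range (orderOf : Cfsg.POmega F (Cfsg.quadFormOdd n F) → ℕ) ≠ Set.range (orderOf : Cfsg.PSp n F → ℕ) := by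
  obtain ⟨p, _⟩ := CharP.exists F
  haveI := Fact.mk (CharP.char_is_prime F p)
  have h2 : p ≠ 2 := by
    rintro rfl
    have := FiniteField.even_card_of_char_two (ringChar.eq F 2)
    have := Nat.odd_iff.1 hodd
    omega
  exact fun e => H29.spo_ne (H29.pq_card F p) h2 hn
    ((H29.spec_omega_odd h2 (by omega)).symm.trans (e.trans (H29.spec_psp p (by omega))))

end Cfsg.Agent.S2362
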