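import Cfsg.Statements.S2363
import Mathlib
import Cfsg.Agent.S0243
import Cfsg.Agent.S0245
import Cfsg.Agent.S0246
import Cfsg.Agent.S0280
import Cfsg.Agent.S0292
import Cfsg.Agent.S0293
import Cfsg.Agent.S0294
import Cfsg.Agent.S1163
import Cfsg.Agent.S1059
import Cfsg.Agent.S1062
import Cfsg.Agent.S1063
import Cfsg.Agent.S1064
import Cfsg.Agent.S1065
import Cfsg.Agent.S1066
import Cfsg.Agent.S1067
import Cfsg.Agent.S1068
import Cfsg.Agent.S1069

set_option autoImplicit false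
open Cfsg

namespace Cfsg.Agent.S2363

open scoped commutatorElement


def Ok (p q M E : ℕ) : Prop := ¬ p ∣ M ∧ M ≤ q ^ E

section
variable {p q : ℕ}

theorem Ok.mul (hp : p.Prime) {M E M' E' : ℕ} (h : Ok p q M E) (h' : Ok p q M' E') :
    Ok p q (M * M') (E + E') :=
  ⟨fun hd => ((Nat.Prime.dvd_mul hp).1 hd).elim h.1 h'.1, by
    rw [pow_add]; exact Nat.mul_le_mul h.2 h'.2⟩

theorem nd_sub (hp : p.Prime) (hq : p ∣ q) (h0 : q ≠ 0) {k : ℕ} (hk : k ≠ 0) : ¬ p ∣ q ^ k - 1 := fun h => by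
  have h1 : p ∣ q ^ k := dvd_pow hq hk
  have h2 : 1 ≤ q ^ k := Nat.one_le_iff_ne_zero.2 (pow_ne_zero _ h0)
  have := Nat.dvd_sub h1 h
  rw [Nat.sub_sub_self h2] at this
  exact hp.one_lt.ne' (Nat.dvd_one.1 this)

theorem nd_add (hp : p.Prime) (hq : p ∣ q) {k : ℕ} (hk : k ≠ 0) : ¬ p ∣ q ^ k + 1 := fun h =>
  hp.one_lt.ne' (Nat.dvd_one.1 ((Nat.dvd_add_right (dvd_pow hq hk)).1 h))

theorem ok_sub (hp : p.Prime) (hq : p ∣ q) (h0 : q ≠ 0) (k : ℕ) (hk : k ≠ 0) : Ok p q (q ^ k - 1) k :=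
  ⟨nd_sub hp hq h0 hk, Nat.sub_le _ _⟩

theorem two_le (hp : p.Prime) (hq : p ∣ q) (h0 : q ≠ 0) : 2 ≤ q :=
  hp.two_le.trans (Nat.le_of_dvd (Nat.pos_of_ne_zero h0) hq)

theorem ok_add (hp : p.Prime) (hq : p ∣ q) (h0 : q ≠ 0) (k : ℕ) (hk : k ≠ 0) : Ok p q (q ^ k + 1) (k + 1) :=
  ⟨nd_add hp hq hk, by
    have h2 : 1 ≤ q ^ k := Nat.one_le_iff_ne_zero.2 (pow_ne_zero _ h0)
    have := two_le hp hq h0
    rw [pow_succ]; nlinarith⟩

theorem ok_pair (hp : p.Prime) (hq : p ∣ q) (h0 : q ≠ 0) (a b : ℕ) (ha : a ≠ 0) (hab : a ≤ b) :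
    Ok p q ((q ^ a - 1) * (q ^ b + 1)) (a + b) :=
  ⟨fun hd => ((Nat.Prime.dvd_mul hp).1 hd).elim (nd_sub hp hq h0 ha) (nd_add hp hq (by omega)), by
    have h2 : 1 ≤ q ^ a := Nat.one_le_iff_ne_zero.2 (pow_ne_zero _ h0)
    have h3 : q ^ a ≤ q ^ b := Nat.pow_le_pow_right (Nat.pos_of_ne_zero h0) hab
    rw [pow_add]
    obtain ⟨c, hc⟩ := Nat.exists_eq_add_of_le h2
    rw [hc] at h3 ⊢
    simp only [Nat.add_sub_cancel_left]
    nlinarith⟩

theorem nd_gcd {a M : ℕ} (h : ¬ p ∣ M) : ¬ p ∣ Nat.gcd a M := fun hd => h (hd.trans (Nat.gcd_dvd_right _ _))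

theorem core (hp : p.Prime) {f : ℕ} (hf : f ≠ 0) (hq : q = p ^ f) {d n N M E : ℕ} (hd : ¬ p ∣ d)
    (h : d * n = q ^ N * M) (hM : Ok p q M E) (hE : E ≠ 0) :
    p ^ n.factorization p = q ^ N ∧ n < q ^ (N + E) := by
  have hd0 : d ≠ 0 := fun e => hd (e ▸ dvd_zero _)
  have hM0 : M ≠ 0 := fun e => hM.1 (e ▸ dvd_zero _)
  have hq0 : q ≠ 0 := hq ▸ pow_ne_zero _ hp.ne_zero
  have hn0 : n ≠ 0 := fun e => by
    rw [e, mul_zero] at h; exact mul_ne_zero (pow_ne_zero _ hq0) hM0 h.symm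
  constructor
  · have := congrArg (fun x => x.factorization p) h
    simp only [Nat.factorization_mul hd0 hn0, Nat.factorization_mul (pow_ne_zero _ hq0) hM0,
      Finsupp.add_apply, Nat.factorization_eq_zero_of_not_dvd hd,
      Nat.factorization_eq_zero_of_not_dvd hM.1] at this
    rw [hq, ← pow_mul, Nat.Prime.factorization_pow hp] at this
    simp only [Finsupp.single_eq_same, zero_add, add_zero] at this
    rw [this, hq, pow_mul]
  · have h1 : M < q ^ E := lt_of_le_of_ne hM.2 fun e =>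
      hM.1 (e ▸ dvd_pow (hq ▸ dvd_pow_self p hf) hE)
    have h2 : n ≤ d * n := Nat.le_mul_of_pos_left _ (Nat.pos_of_ne_zero hd0)
    rw [pow_add]
    exact lt_of_le_of_lt (h2.trans h.le) (Nat.mul_lt_mul_of_pos_left h1 (Nat.pos_of_ne_zero (pow_ne_zero _ hq0)))

theorem strong (hp : p.Prime) {f : ℕ} (hf : f ≠ 0) (hq : q = p ^ f) {d n N M E : ℕ} (hd : ¬ p ∣ d)
    (h : d * n = q ^ N * M) (hM : Ok p q M E) (hE : E ≠ 0) (hEN : 3 * E ≤ 5 * N) :
    n ^ 3 < p ^ (8 * n.factorization p) := by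
  obtain ⟨h1, h2⟩ := core hp hf hq hd h hM hE
  have hq0 : q ≠ 0 := hq ▸ pow_ne_zero _ hp.ne_zero
  rw [mul_comm 8, pow_mul, h1, ← pow_mul]
  refine lt_of_lt_of_le (Nat.pow_lt_pow_left h2 (by norm_num)) ?_
  rw [← pow_mul]
  exact Nat.pow_le_pow_right (Nat.pos_of_ne_zero hq0) (by omega)

theorem weak (hp : p.Prime) {n k : ℕ} (h : n ^ 3 < p ^ (8 * k)) : n < p ^ (3 * k) := by
  refine lt_of_pow_lt_pow_left₀ 3 (Nat.zero_le _) (lt_of_lt_of_le h ?_)
  rw [← pow_mul]
  exact Nat.pow_le_pow_right hp.pos (by omega)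

theorem ok_even (hp : p.Prime) (hq : p ∣ q) (h0 : q ≠ 0) (m : ℕ) :
    Ok p q (∏ i ∈ Finset.range m, (q ^ (2 * (i + 1)) - 1)) (m * (m + 1)) := by
  induction m with
  | zero => exact ⟨by simpa using hp.one_lt.ne', by simp⟩
  | succ m ih =>
    rw [Finset.prod_range_succ, show (m + 1) * (m + 1 + 1) = m * (m + 1) + 2 * (m + 1) by ring]
    exact ih.mul hp (ok_sub hp hq h0 _ (by omega))

theorem ok_ind (hp : p.Prime) {g : ℕ → ℕ} {c : ℕ} (hg : ∀ i, Ok p q (g i) (i + 2))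
    (h3 : ∃ M, ∏ i ∈ Finset.range 3, g i = c * M ∧ Ok p q M 5) (n : ℕ) (hn : 3 ≤ n) :
    ∃ M E, ∏ i ∈ Finset.range n, g i = c * M ∧ Ok p q M E ∧ E ≠ 0 ∧ 3 * E ≤ 5 * (n * (n - 1) / 2) := by
  induction n, hn using Nat.le_induction with
  | base => obtain ⟨M, h1, h2⟩ := h3; exact ⟨M, 5, h1, h2, by norm_num, by norm_num⟩
  | succ n hn ih =>
    obtain ⟨M, E, h1, h2, h4, h5⟩ := ih
    refine ⟨M * g n, E + (n + 2), by rw [Finset.prod_range_succ, h1, mul_assoc], h2.mul hp (hg n),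
      by omega, ?_⟩
    have e1 := Finset.sum_range_id n
    have e2 := Finset.sum_range_id (n + 1)
    rw [Finset.sum_range_succ, e1] at e2
    omega

theorem prod_gl (h0 : q ≠ 0) (n : ℕ) : ∏ i : Fin n, (q ^ n - q ^ (i : ℕ)) =
    q ^ (n * (n - 1) / 2) * ∏ i ∈ Finset.range n, (q ^ (i + 1) - 1) := by
  rw [Fin.prod_univ_eq_prod_range (fun i => q ^ n - q ^ i) n, ← Finset.sum_range_id,
    ← Finset.prod_pow_eq_pow_sum, ← Finset.prod_range_reflect (fun i => q ^ (i + 1) - 1) n,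
    ← Finset.prod_mul_distrib]
  refine Finset.prod_congr rfl fun i hi => ?_
  have := Finset.mem_range.1 hi
  rw [Nat.mul_sub, mul_one, ← pow_add]
  congr 2; omega

theorem exists_f (hp : p.Prime) (F : Type) [Field F] [Fintype F] [CharP F p] {e : ℕ} (he : e ≠ 0)
    (h : Fintype.card F = q ^ e) : ∃ f, f ≠ 0 ∧ q = p ^ f := by
  haveI := Fact.mk hp
  obtain ⟨n, -, hn⟩ := FiniteField.card F p
  rw [h] at hn
  have : q ∣ p ^ (n : ℕ) := hn ▸ dvd_pow_self q he
  obtain ⟨f, -, hf⟩ := (Nat.dvd_prime_pow hp).1 this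
  refine ⟨f, fun e0 => ?_, hf⟩
  rw [e0, pow_zero] at hf
  rw [hf, one_pow] at hn
  exact (Nat.one_lt_pow n.ne_zero hp.one_lt).ne hn

end

theorem main {G : Type*} [Group G] [Finite G] (p : ℕ) (hp : p.Prime) (hG : Cfsg.IsLieTypeChar p G) :
    (Nat.card G < p ^ (3 * (Nat.card G).factorization p) ∧ ∃ (F : Type) (_ : Field F) (_ : Fintype F),
      Fintype.card F = p ^ (Nat.card G).factorization p ∧
          Nonempty (G ≃* Matrix.ProjectiveSpecialLinearGroup (Fin 2) F)) ∨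
        Nat.card G ^ 3 < p ^ (8 * (Nat.card G).factorization p) := by
  have h1 : ¬ p ∣ 1 := by simpa using hp.one_lt.ne'
  rcases hG with ⟨F, _, _, _, n, hn, -, ⟨e⟩⟩ | ⟨F, _, _, _, m, hm, -, ⟨e⟩⟩ | ⟨F, _, _, _, n, q, hF, hn, -, ⟨e⟩⟩ |
    ⟨F, _, _, _, m, hm, ho, ⟨e⟩⟩ | ⟨F, _, _, _, m, hm, ⟨e⟩⟩ | ⟨F, _, _, _, m, a, b, hm, hab, ⟨e⟩⟩ |
    ⟨F, _, _, _, h⟩ | ⟨F, _, _, _, q, -, h⟩ | ⟨rfl, F, _, _, m, hm, hF, ⟨e⟩⟩ | ⟨rfl, F, _, _, m, hm, hF, ⟨e⟩⟩ |
    ⟨rfl, F, _, _, m, hm, hF, ⟨e⟩⟩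
  · obtain ⟨f, hf, hq⟩ := exists_f (q := Fintype.card F) hp F one_ne_zero (pow_one _).symm
    have hc := Cfsg.Agent.S0243.result (F := F) rfl n hn
    set q := Fintype.card F with hqd
    have hd : p ∣ q := hq ▸ dvd_pow_self p hf
    have h0 : q ≠ 0 := hq ▸ pow_ne_zero _ hp.ne_zero
    have h2 := two_le hp hd h0
    have hg : ¬ p ∣ Nat.gcd n (q - 1) := nd_gcd (by simpa using nd_sub hp hd h0 one_ne_zero)
    rw [← Nat.card_congr e.toEquiv, prod_gl h0] at hc
    rcases hn.eq_or_lt with rfl | hn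
    · left
      have hc' : Nat.gcd 2 (q - 1) * Nat.card G = q ^ 1 * (q ^ 2 - 1) := by
        apply Nat.eq_of_mul_eq_mul_left (show 0 < q - 1 by omega)
        rw [mul_left_comm, hc]; simp [Finset.prod_range_succ]; ring
      obtain ⟨h3, h4⟩ := core hp hf hq hg hc' (ok_sub hp hd h0 2 two_ne_zero) two_ne_zero
      refine ⟨by rw [mul_comm 3, pow_mul, h3, ← pow_mul]; exact h4, F, _, _, by rw [h3, pow_one], ⟨e⟩⟩
    · right
      obtain ⟨M, E, h3, h4, h5, h6⟩ := ok_ind (q := q) (c := q - 1) (g := fun i => q ^ (i + 1) - 1) hp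
        (fun i => ⟨nd_sub hp hd h0 (by omega), (Nat.sub_le _ _).trans
          (Nat.pow_le_pow_right (by omega) (by omega))⟩)
        ⟨_, by simp [Finset.prod_range_succ, mul_assoc],
          (ok_sub hp hd h0 2 two_ne_zero).mul hp (ok_sub hp hd h0 3 three_ne_zero)⟩ n hn
      refine strong hp hf hq hg ?_ h4 h5 h6
      apply Nat.eq_of_mul_eq_mul_left (show 0 < q - 1 by omega)
      rw [mul_left_comm, hc, h3]; ring
  · obtain ⟨f, hf, hq⟩ := exists_f (q := Fintype.card F) hp F one_ne_zero (pow_one _).symm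
    have hc := Cfsg.Agent.S0245.result (F := F) rfl m
    have hz := Cfsg.Agent.S0246.result (F := F) rfl m (by omega)
    set q := Fintype.card F with hqd
    have hd : p ∣ q := hq ▸ dvd_pow_self p hf
    have h0 : q ≠ 0 := hq ▸ pow_ne_zero _ hp.ne_zero
    have hg : ¬ p ∣ Nat.gcd 2 (q - 1) := nd_gcd (by simpa using nd_sub hp hd h0 one_ne_zero)
    rw [Subgroup.card_eq_card_quotient_mul_card_subgroup (Subgroup.center _), hz, mul_comm,
      ← Nat.card_congr e.toEquiv] at hc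
    exact Or.inr (strong hp hf hq hg hc (ok_even hp hd h0 m) (by positivity) (by nlinarith))
  · obtain ⟨f, hf, hq⟩ := exists_f hp F two_ne_zero hF
    have hc := Cfsg.Agent.S0280.result hF n (by omega)
    have hd : p ∣ q := hq ▸ dvd_pow_self p hf
    have h0 : q ≠ 0 := hq ▸ pow_ne_zero _ hp.ne_zero
    have hg : ¬ p ∣ Nat.gcd n (q + 1) := nd_gcd (by simpa using nd_add hp hd one_ne_zero)
    rw [← Nat.card_congr e.toEquiv] at hc
    right
    obtain ⟨M, E, h3, h4, h5, h6⟩ := ok_ind (q := q) (c := q + 1)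
      (g := fun i => if Even i then q ^ (i + 1) + 1 else q ^ (i + 1) - 1) hp
      (fun i => by
        split_ifs
        · exact ok_add hp hd h0 (i + 1) (by omega)
        · exact ⟨nd_sub hp hd h0 (by omega), (Nat.sub_le _ _).trans
          (Nat.pow_le_pow_right (by omega) (by omega))⟩)
      ⟨_, by simp [Finset.prod_range_succ, mul_assoc], ok_pair hp hd h0 2 3 two_ne_zero (by norm_num)⟩ n hn
    refine strong hp hf hq hg ?_ h4 h5 h6
    apply Nat.eq_of_mul_eq_mul_left (show 0 < q + 1 by omega)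
    rw [mul_left_comm, hc, h3]; ring
  · obtain ⟨f, hf, hq⟩ := exists_f (q := Fintype.card F) hp F one_ne_zero (pow_one _).symm
    have hc := Cfsg.Agent.S0292.result (F := F) rfl ho m hm
    set q := Fintype.card F with hqd
    have hd : p ∣ q := hq ▸ dvd_pow_self p hf
    have h0 : q ≠ 0 := hq ▸ pow_ne_zero _ hp.ne_zero
    have hg : ¬ p ∣ 2 := fun h => by
      rw [(Nat.prime_dvd_prime_iff_eq hp Nat.prime_two).1 h] at hd
      exact (Nat.not_even_iff_odd.2 ho) (even_iff_two_dvd.2 hd)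
    rw [← Nat.card_congr e.toEquiv] at hc
    exact Or.inr (strong hp hf hq hg hc (ok_even hp hd h0 m) (by positivity) (by nlinarith))
  · obtain ⟨f, hf, hq⟩ := exists_f (q := Fintype.card F) hp F one_ne_zero (pow_one _).symm
    have hc := Cfsg.Agent.S0293.result (F := F) rfl m hm
    set q := Fintype.card F with hqd
    have hd : p ∣ q := hq ▸ dvd_pow_self p hf
    have h0 : q ≠ 0 := hq ▸ pow_ne_zero _ hp.ne_zero
    rw [← Nat.card_congr e.toEquiv, mul_assoc] at hc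
    obtain ⟨k, rfl⟩ : ∃ k, m = k + 1 := ⟨m - 1, by omega⟩
    exact Or.inr (strong hp hf hq (nd_gcd (nd_sub hp hd h0 (by omega))) hc
      ((ok_sub hp hd h0 _ (by omega)).mul hp (ok_even hp hd h0 _)) (by omega)
      (by simp only [Nat.add_sub_cancel]; nlinarith))
  · obtain ⟨f, hf, hq⟩ := exists_f (q := Fintype.card F) hp F one_ne_zero (pow_one _).symm
    have hc := Cfsg.Agent.S0294.result (F := F) rfl m hm a b hab
    set q := Fintype.card F with hqd
    have hd : p ∣ q := hq ▸ dvd_pow_self p hf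
    have h0 : q ≠ 0 := hq ▸ pow_ne_zero _ hp.ne_zero
    rw [← Nat.card_congr e.toEquiv, mul_assoc] at hc
    obtain ⟨k, rfl⟩ : ∃ k, m = k + 1 := ⟨m - 1, by omega⟩
    exact Or.inr (strong hp hf hq (nd_gcd (nd_add hp hd (by omega))) hc
      ((ok_add hp hd h0 _ (by omega)).mul hp (ok_even hp hd h0 _)) (by omega)
      (by simp only [Nat.add_sub_cancel]; nlinarith))
  · obtain ⟨f, hf, hq⟩ := exists_f (q := Fintype.card F) hp F one_ne_zero (pow_one _).symm
    have c1 := Cfsg.Agent.S1059.result (F := F) rfl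
    have c2 := Cfsg.Agent.S1062.result (F := F) rfl
    have c3 := Cfsg.Agent.S1063.result (F := F) rfl
    have c4 := Cfsg.Agent.S1064.result (F := F) rfl
    have c5 := Cfsg.Agent.S1065.result (F := F) rfl
    set q := Fintype.card F with hqd
    have hd : p ∣ q := hq ▸ dvd_pow_self p hf
    have h0 : q ≠ 0 := hq ▸ pow_ne_zero _ hp.ne_zero
    have hg : ∀ a, ¬ p ∣ Nat.gcd a (q - 1) := fun a => nd_gcd (by simpa using nd_sub hp hd h0 one_ne_zero)
    have s := fun k (hk : k ≠ 0) => ok_sub hp hd h0 k hk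
    right
    rcases h with ⟨-, ⟨e⟩⟩ | ⟨⟨e⟩⟩ | ⟨⟨e⟩⟩ | ⟨⟨e⟩⟩ | ⟨⟨e⟩⟩ <;> rw [Nat.card_congr e.toEquiv]
    · exact strong hp hf hq h1 (by rw [one_mul, c1, mul_assoc])
        ((s 2 (by norm_num)).mul hp (s 6 (by norm_num))) (by norm_num) (by norm_num)
    · exact strong hp hf hq h1 (by rw [one_mul, c2]; simp only [mul_assoc]; rfl)
        ((s 2 (by norm_num)).mul hp ((s 6 (by norm_num)).mul hp ((s 8 (by norm_num)).mul hp
          (s 12 (by norm_num))))) (by norm_num) (by norm_num)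
    · exact strong hp hf hq (hg 3) (by rw [c3]; simp only [mul_assoc]; rfl)
        ((s 2 (by norm_num)).mul hp ((s 5 (by norm_num)).mul hp ((s 6 (by norm_num)).mul hp
          ((s 8 (by norm_num)).mul hp ((s 9 (by norm_num)).mul hp (s 12 (by norm_num)))))))
          (by norm_num) (by norm_num)
    · exact strong hp hf hq (hg 2) (by rw [c4]; simp only [mul_assoc]; rfl)
        ((s 2 (by norm_num)).mul hp ((s 6 (by norm_num)).mul hp ((s 8 (by norm_num)).mul hp
          ((s 10 (by norm_num)).mul hp ((s 12 (by norm_num)).mul hp ((s 14 (by norm_num)).mul hp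
          (s 18 (by norm_num)))))))) (by norm_num) (by norm_num)
    · exact strong hp hf hq h1 (by rw [one_mul, c5]; simp only [mul_assoc]; rfl)
        ((s 2 (by norm_num)).mul hp ((s 8 (by norm_num)).mul hp ((s 12 (by norm_num)).mul hp
          ((s 14 (by norm_num)).mul hp ((s 18 (by norm_num)).mul hp ((s 20 (by norm_num)).mul hp
          ((s 24 (by norm_num)).mul hp (s 30 (by norm_num))))))))) (by norm_num) (by norm_num)
  · right
    rcases h with ⟨hF, ⟨e⟩⟩ | ⟨hF, ⟨e⟩⟩ <;> rw [Nat.card_congr e.toEquiv]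
    · obtain ⟨f, hf, hq⟩ := exists_f hp F two_ne_zero hF
      have hd : p ∣ q := hq ▸ dvd_pow_self p hf
      have h0 : q ≠ 0 := hq ▸ pow_ne_zero _ hp.ne_zero
      have c := Cfsg.Agent.S1066.result ⟨p, f, hp.prime, Nat.pos_of_ne_zero hf, hq.symm⟩ hF
      have s := fun k (hk : k ≠ 0) => ok_sub hp hd h0 k hk
      have a := fun k (hk : k ≠ 0) => ok_add hp hd h0 k hk
      exact strong hp hf hq (nd_gcd (a := 3) (by simpa using nd_add hp hd one_ne_zero))
        (by rw [c]; simp only [mul_assoc]; rfl)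
        ((s 2 (by norm_num)).mul hp ((a 5 (by norm_num)).mul hp ((s 6 (by norm_num)).mul hp
          ((s 8 (by norm_num)).mul hp ((a 9 (by norm_num)).mul hp (s 12 (by norm_num)))))))
          (by norm_num) (by norm_num)
    · obtain ⟨f, hf, hq⟩ := exists_f hp F three_ne_zero hF
      have hd : p ∣ q := hq ▸ dvd_pow_self p hf
      have h0 : q ≠ 0 := hq ▸ pow_ne_zero _ hp.ne_zero
      have c := Cfsg.Agent.S1067.result ⟨p, f, hp.prime, Nat.pos_of_ne_zero hf, hq.symm⟩ hF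
      have s := fun k (hk : k ≠ 0) => ok_sub hp hd h0 k hk
      have a : Ok p q (q ^ 8 + q ^ 4 + 1) 9 := ⟨fun h => h1 ((Nat.dvd_add_right
        (dvd_add (dvd_pow hd (by norm_num)) (dvd_pow hd (by norm_num)))).1 h), by
          have h2 := two_le hp hd h0
          have h3 : q ^ 4 < q ^ 8 := Nat.pow_lt_pow_right (by omega) (by norm_num)
          rw [pow_succ q 8]
          have := Nat.mul_le_mul_left (q ^ 8) h2
          omega⟩
      exact strong hp hf hq h1 (by rw [one_mul, c]; simp only [mul_assoc]; rfl)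
        ((s 2 (by norm_num)).mul hp ((s 6 (by norm_num)).mul hp a)) (by norm_num) (by norm_num)
  · right
    have c := (Cfsg.Agent.S1163.result hm hF).1
    rw [Nat.card_congr e.toEquiv]
    have hd : 2 ∣ 2 ^ (2 * m + 1) := dvd_pow_self 2 (by omega)
    exact strong hp (f := 2 * m + 1) (N := 2) (by omega) rfl h1 (by rw [one_mul, c, pow_one, mul_assoc])
      (ok_pair hp hd (by positivity) 1 2 one_ne_zero (by norm_num)) (by norm_num) (by norm_num)
  · right
    have c := Cfsg.Agent.S1068.result hF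
    rw [Nat.card_congr e.toEquiv]
    have hd : 2 ∣ 2 ^ (2 * m + 1) := dvd_pow_self 2 (by omega)
    have s := fun k (hk : k ≠ 0) => ok_sub hp hd (by positivity) k hk
    have a := fun k (hk : k ≠ 0) => ok_add hp hd (by positivity) k hk
    exact strong hp (f := 2 * m + 1) (N := 12) (by omega) rfl h1 (by rw [one_mul, c, pow_one]; simp only [mul_assoc])
      ((s 1 one_ne_zero).mul hp ((a 3 (by norm_num)).mul hp ((s 4 (by norm_num)).mul hp (a 6 (by norm_num)))))
      (by norm_num) (by norm_num)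
  · right
    have c := Cfsg.Agent.S1069.result hF
    rw [Nat.card_congr e.toEquiv]
    have hd : 3 ∣ 3 ^ (2 * m + 1) := dvd_pow_self 3 (by omega)
    exact strong hp (f := 2 * m + 1) (N := 3) (by omega) rfl h1 (by rw [one_mul, c, pow_one, mul_assoc])
      (ok_pair hp hd (by positivity) 1 3 one_ne_zero (by norm_num)) (by norm_num) (by norm_num)

/-- Let G be a finite simple group of Lie type in characteristic p and let p^k be the exact power of p dividing the order of G. Then the order of G is less than p^(3k); and unless G is isomorphic to PSL(2, F) for the field F with p^k elements, the cube of the order of G is less than p^(8k) (that is, the order is below p^(8k/3)). -/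
theorem result {G : Type*} [Group G] [Finite G] (p : ℕ) (hp : p.Prime) (hG : Cfsg.IsLieTypeChar p G) :
    Nat.card G < p ^ (3 * (Nat.card G).factorization p) ∧
      ((¬ ∃ (F : Type) (_ : Field F) (_ : Fintype F), Fintype.card F = p ^ (Nat.card G).factorization p ∧
          Nonempty (G ≃* Matrix.ProjectiveSpecialLinearGroup (Fin 2) F)) →
        Nat.card G ^ 3 < p ^ (8 * (Nat.card G).factorization p)) := by
  rcases main p hp hG with ⟨h1, h2⟩ | h
  · exact ⟨h1, fun h => (h h2).elim⟩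
  · exact ⟨weak hp h, fun _ => h⟩

end Cfsg.Agent.S2363
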