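import Cfsg.Statements.S2367
import Mathlib

set_option autoImplicit false
open Cfsg

namespace Cfsg.Agent.S2367

open Nat

theorem fin {N p k : ℕ} (hN : N ≠ 0) (h : 2 ^ k ∣ N) (hp : p ^ 3 < 2 ^ k) :
    p ^ 3 < 2 ^ N.factorization 2 :=
  hp.trans_le (Nat.pow_le_pow_right (by norm_num)
    ((Nat.prime_two.pow_dvd_iff_le_factorization hN).1 h))

theorem spor {N p : ℕ} (hN : N ≠ 0) (h1 : N ∣ 71 !)
    (h2 : ∀ p < 72, p ≠ 2 → p.Prime → p ^ 3 ∣ N → ¬ p ^ 4 ∣ N → ∃ k < 50, 2 ^ k ∣ N ∧ p ^ 3 < 2 ^ k)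
    (hp : p.Prime) (hodd : p ≠ 2) (h3 : N.factorization p = 3) :
    p ^ 3 < 2 ^ N.factorization 2 := by
  have a1 : p ^ 3 ∣ N := (hp.pow_dvd_iff_le_factorization hN).2 h3.ge
  have a2 : ¬ p ^ 4 ∣ N := fun h => by
    have := (hp.pow_dvd_iff_le_factorization hN).1 h
    omega
  have a3 : p ≤ 71 := hp.dvd_factorial.1 (((dvd_pow_self p (by norm_num)).trans a1).trans h1)
  obtain ⟨k, -, hk, hk'⟩ := h2 p (by omega) hodd hp a1 a2
  exact fin hN hk hk'

theorem two_pow_dvd (a : ℕ) : 2 ^ (3 * (a + 2) + 2) ∣ (6 * (a + 2))! := by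
  induction a with
  | zero => decide
  | succ a ih =>
    obtain ⟨c, hc⟩ := ih
    have e : 6 * (a + 1 + 2) = 6 * (a + 2) + 1 + 1 + 1 + 1 + 1 + 1 := by ring
    rw [e]
    simp only [Nat.factorial_succ]
    rw [hc]
    refine ⟨(3 * a + 9) * (6 * a + 17) * (3 * a + 8) * (6 * a + 15) * (3 * a + 7) * (6 * a + 13) * c,
      ?_⟩
    ring

theorem cube_lt (a : ℕ) : (2 * (a + 2) + 1) ^ 3 < 2 ^ (3 * (a + 2) + 1) := by
  induction a with
  | zero => decide
  | succ a ih =>
    have e : 2 ^ (3 * (a + 1 + 2) + 1) = 8 * 2 ^ (3 * (a + 2) + 1) := by ring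
    have h : (2 * (a + 1 + 2) + 1) ^ 3 ≤ (2 * (2 * (a + 2) + 1)) ^ 3 :=
      Nat.pow_le_pow_left (by omega) 3
    rw [e]
    rw [mul_pow] at h
    omega

set_option synthInstance.maxSize 100000 in
/-- Let G be an alternating group of degree at least 5 or a simple group with the order of one of the 26 sporadic groups, and let p be an odd prime such that p³ is the exact power of p dividing the order of G. Then p³ is less than the 2-part of the order of G. -/
theorem result {G : Type*} [Group G] [Finite G] (hG : Cfsg.IsAlternating G ∨ Cfsg.IsSporadic G)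
    (p : ℕ) (hp : p.Prime) (hodd : p ≠ 2) (h3 : (Nat.card G).factorization p = 3) :
    p ^ 3 < 2 ^ (Nat.card G).factorization 2 := by
  rcases hG with ⟨n, hn, ⟨e⟩⟩ | hG
  · have : Nontrivial (Fin n) := Fin.nontrivial_iff_two_le.2 (by omega)
    have hc : 2 * Nat.card G = n ! := by
      rw [Nat.card_congr e.toEquiv, two_mul_nat_card_alternatingGroup, Nat.card_perm,
        Nat.card_eq_fintype_card, Fintype.card_fin]
    have hN : Nat.card G ≠ 0 := Nat.card_pos.ne'
    have h4 : (n !).factorization p = 3 := by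
      rw [← hc, Nat.factorization_mul two_ne_zero hN, Finsupp.add_apply, h3,
        Nat.prime_two.factorization, Finsupp.single_eq_of_ne hodd]
    have key : ∀ m k : ℕ, m ≤ n → 2 ^ (k + 1) ∣ m ! → 2 ^ k ∣ Nat.card G := by
      intro m k hm hk
      have := hk.trans (Nat.factorial_dvd_factorial hm)
      rw [← hc, pow_succ'] at this
      exact Nat.dvd_of_mul_dvd_mul_left (by norm_num) this
    have h5 := Nat.factorization_factorial_le_div_pred hp n
    rw [h4, Nat.le_div_iff_mul_le (by have := hp.two_le; omega)] at h5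
    by_cases hp3 : p = 3
    · subst hp3
      by_cases h8 : 8 ≤ n
      · exact fin hN (key 8 6 h8 (by decide)) (by decide)
      · exfalso
        have h6 : 3 ^ 3 ∣ n ! := (hp.pow_dvd_iff_le_factorization (Nat.factorial_ne_zero n)).2 h4.ge
        have h7 : 3 ^ 3 ∣ 7 ! := h6.trans (Nat.factorial_dvd_factorial (by omega))
        revert h7
        decide
    · obtain ⟨b, hb⟩ := hp.odd_of_ne_two hodd
      have h2 := hp.two_le
      obtain ⟨a, rfl⟩ : ∃ a, b = a + 2 := ⟨b - 2, by omega⟩
      refine fin hN (key (6 * (a + 2)) _ (by omega) (two_pow_dvd a)) ?_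
      rw [hb]
      exact cube_lt a
  · rcases hG with h | h | h | h | h | h | h | h | h | h | h | h | h | h | h | h | h | h | h | h | h | h | h | h | h | h <;>
    · rw [h.2] at h3 ⊢
      exact spor (by decide) (by decide +kernel) (by decide +kernel) hp hodd h3

end Cfsg.Agent.S2367
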