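import Cfsg.Statements.S2368
import Mathlib
import Cfsg.Agent.L0.GLn3
-- import your own Cfsg.Agent.* helpers here

set_option autoImplicit false
open Cfsg

namespace Cfsg.Agent.S2368

open Cfsg.Agent.L0

/-- Let F be a finite field of characteristic p and m ≥ 1. Every element of GL(m, F) of p-power order has order less than p·m, and GL(m, F) has an element of p-power order at least m; so the largest order of a p-element of GL(m, F) is the least power of p that is at least m. -/
theorem result {F : Type*} [Field F] [Fintype F] (p : ℕ) [Fact p.Prime] [CharP F p] (m : ℕ) (hm : 1 ≤ m) :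
    (∀ g : Matrix.GeneralLinearGroup (Fin m) F, (∃ j : ℕ, orderOf g = p ^ j) → orderOf g < p * m) ∧
      ∃ g : Matrix.GeneralLinearGroup (Fin m) F, (∃ j : ℕ, orderOf g = p ^ j) ∧ m ≤ orderOf g := by
  have hp := (Fact.out : p.Prime)
  constructor
  · intro g hg
    have h0 := sub_one_pow_card_eq_zero ((unip_iff_isNilpotent p g).1 hg)
    rw [Fintype.card_fin] at h0
    have h1 : g ^ p ^ Nat.clog p m = 1 :=
      (gl_pow_char_pow_eq_one_iff p g _).2 (pow_eq_zero_of_le (Nat.le_pow_clog hp.one_lt m) h0)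
    refine (Nat.le_of_dvd (pow_pos hp.pos _) (orderOf_dvd_of_pow_eq_one h1)).trans_lt ?_
    rcases hm.eq_or_lt with rfl | h2
    · simpa using hp.one_lt
    · have h3 := Nat.pow_pred_clog_lt_self hp.one_lt h2
      have h4 := Nat.clog_pos hp.one_lt h2
      obtain ⟨c, hc⟩ : ∃ c, Nat.clog p m = c + 1 := ⟨_, (Nat.succ_pred_eq_of_pos h4).symm⟩
      rw [hc] at h3 ⊢
      rw [pow_succ']
      exact Nat.mul_lt_mul_of_pos_left h3 hp.pos
  · obtain ⟨g, hg⟩ := exists_gl_ty_eq (F := F) (n := Fin m) (s := {(Polynomial.X - 1) ^ m})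
      (by simpa using prim_X_sub_one_pow hm) (by simpa using not_X_dvd_X_sub_one_pow m)
      (by simp [natDegree_X_sub_one])
    have h0 := reg_unip_of_ty (A := (g : Matrix (Fin m) (Fin m) F)) (by simpa using hg)
    obtain ⟨j, hj⟩ := (unip_iff_isNilpotent p g).2 ⟨_, h0.1⟩
    refine ⟨g, ⟨j, hj⟩, ?_⟩
    have := (gl_pow_eq_one_iff g _).1 (pow_orderOf_eq_one g) _ (hg ▸ Multiset.mem_singleton_self _)
    rwa [hj, X_pow_char_pow_sub_one, X_sub_one_pow_dvd_iff, ← hj] at this

end Cfsg.Agent.S2368
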