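import Cfsg.Statements.S2369
import Mathlib
import Cfsg.Agent.H12.SpRee

set_option autoImplicit false
open Cfsg

namespace Cfsg.Agent.S2369

open Cfsg.Agent.H12

/-- Let q = 2^(2m+1) with m ≥ 1 and let a, b be commuting elements of the large Ree group ²F₄(q) with a an involution. Then every prime divisor of the order of b divides q(q⁴ − 1). -/
theorem result {K : Type*} [Field K] [Fintype K] (m : ℕ) (hm : 1 ≤ m) (hK : Fintype.card K = 2 ^ (2 * m + 1))
    (a b : ↥(Cfsg.Lie.twistedF4 K (2 ^ m))) (ha : orderOf a = 2) (hab : Commute a b) :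
    (orderOf b).primeFactors ⊆ (2 ^ (2 * m + 1) * ((2 ^ (2 * m + 1)) ^ 4 - 1)).primeFactors := by
  intro s hs
  obtain ⟨h1, h2, h3⟩ := Nat.mem_primeFactors.1 hs
  refine Nat.mem_primeFactors.2 ⟨h1, ?_, mul_ne_zero (by positivity) (Nat.sub_pos_of_lt
    (one_lt_pow₀ (one_lt_pow₀ one_lt_two (by omega)) (by omega))).ne'⟩
  by_cases h : s = 2
  · exact (h.dvd.trans (dvd_pow_self 2 (2 * m).succ_ne_zero)).mul_right _
  have h4 := orderOf_pow_orderOf_div h3 h2
  exact (h4 ▸ dvd_of_commute_Ree hK ha (fun e => h ((Nat.prime_dvd_prime_iff_eq Nat.prime_two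
    h1).1 (h4 ▸ e)).symm) (hab.pow_right _)).mul_left _

end Cfsg.Agent.S2369
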