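import Cfsg.Statements.S2370
import Mathlib
import Cfsg.Agent.H12.Uexp
import Cfsg.Agent.H13.F4Str

set_option autoImplicit false
open Cfsg

namespace Cfsg.Agent.S2370

open Cfsg.Agent.H12

/-- Let q = 2^(2m+1) with m ≥ 1. Every element of 2-power order of the large Ree group ²F₄(q) has order at most 32. -/
theorem result {K : Type*} [Field K] [Fintype K] (m : ℕ) (hm : 1 ≤ m) (hK : Fintype.card K = 2 ^ (2 * m + 1))
    (x : ↥(Cfsg.Lie.twistedF4 K (2 ^ m))) (hx : ∃ j : ℕ, orderOf x = 2 ^ j) : orderOf x ≤ 32 := by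
  obtain ⟨j, hj⟩ := hx
  obtain ⟨S, -, hG, -⟩ := Cfsg.Agent.H13.exists_FD hK
  have := Cfsg.Agent.H13.charP_of_card_pow hK
  have hle : Cfsg.Lie.twistedF4 K (2 ^ m) ≤ Cfsg.Lie.chevF4.group K :=
    hG.le.trans (S.tw.Fix_le_grp.trans group_eq.ge)
  have h1 := pow_eq_one_of_pElt (p := 2) ht_le_F4 (k := 5) (by norm_num)
    (g := Subgroup.inclusion hle x) (j := j) (by rw [← map_pow, ← hj, pow_orderOf_eq_one, map_one])
  rw [← map_pow, ← map_one (Subgroup.inclusion hle), (Subgroup.inclusion_injective hle).eq_iff] at h1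
  exact Nat.le_of_dvd (by norm_num) (orderOf_dvd_of_pow_eq_one h1)

end Cfsg.Agent.S2370
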