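import Cfsg.Statements.S2372
import Mathlib
import Cfsg.Agent.H12.TorE

set_option autoImplicit false
open Cfsg

namespace Cfsg.Agent.S2372

open Cfsg.Agent.H12

/-- The group F₄(q) contains a cyclic subgroup of order q⁴ + 1 which is its own centralizer. -/
theorem result {F : Type*} [Field F] [Fintype F] (q : ℕ) (hF : Fintype.card F = q) :
    ∃ H : Subgroup ↥(Cfsg.Lie.chevF4.group F), IsCyclic ↥H ∧ Nat.card ↥H = q ^ 4 + 1 ∧
      Subgroup.centralizer (H : Set ↥(Cfsg.Lie.chevF4.group F)) = H := by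
  have := tor_chev torChk_F4 (stSt_hProd_injective_of_ker hT_ker_F4) (n := q ^ 4 + 1) hF
    (by simp [pev, show Cfsg.Lie.chevF4.rank = 4 from rfl, Finset.sum_range_succ]) rfl
  rwa [card_hT_ker_F4, exists_congr fun H => by rw [one_mul]] at this

end Cfsg.Agent.S2372
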