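import Cfsg.Statements.S2374
import Mathlib
import Cfsg.Agent.H12.TorE

set_option autoImplicit false
open Cfsg

namespace Cfsg.Agent.S2374

open Cfsg.Agent.H12

/-- The group E₇(q) (the simple Chevalley group of type E₇) contains a cyclic subgroup of order (q⁴ − q² + 1)(q³ + 1)/gcd(2, q − 1) which is its own centralizer. -/
theorem result {F : Type*} [Field F] [Fintype F] (q : ℕ) (hF : Fintype.card F = q) :
    ∃ H : Subgroup ↥(Cfsg.Lie.chevE7.group F), IsCyclic ↥H ∧ Nat.card ↥H = (q ^ 4 - q ^ 2 + 1) * (q ^ 3 + 1) / Nat.gcd 2 (q - 1) ∧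
      Subgroup.centralizer (H : Set ↥(Cfsg.Lie.chevE7.group F)) = H := by
  have h2 : 2 ≤ q := hF ▸ Fintype.one_lt_card
  have h4 : q ^ 2 ≤ q ^ 4 := Nat.pow_le_pow_right (by omega) (by norm_num)
  obtain ⟨H, h1, h2, h3⟩ := tor_chev torChk_E7 stSt_hProd_E7
    (n := (q ^ 4 - q ^ 2 + 1) * (q ^ 3 + 1)) hF
    (by simp [pev, show Cfsg.Lie.chevE7.rank = 7 from rfl, Finset.sum_range_succ, h4]; ring) rfl
  rw [card_hT_ker_E7, Nat.card_eq_fintype_card, hF] at h2
  exact ⟨H, h1, by rw [← h2, Nat.mul_div_cancel_left _ (Nat.gcd_pos_of_pos_left _ (by norm_num))],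
    h3⟩

end Cfsg.Agent.S2374
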