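import Cfsg.Statements.S2375
import Mathlib
import Cfsg.Agent.H12.TorE

set_option autoImplicit false
open Cfsg

namespace Cfsg.Agent.S2375

open Cfsg.Agent.H12

/-- The group E₈(q) contains a cyclic subgroup of order q⁸ + q⁷ − q⁵ − q⁴ − q³ + q + 1 which is its own centralizer. -/
theorem result {F : Type*} [Field F] [Fintype F] (q : ℕ) (hF : Fintype.card F = q) :
    ∃ H : Subgroup ↥(Cfsg.Lie.chevE8.group F), IsCyclic ↥H ∧ Nat.card ↥H = q ^ 8 + q ^ 7 - q ^ 5 - q ^ 4 - q ^ 3 + q + 1 ∧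
      Subgroup.centralizer (H : Set ↥(Cfsg.Lie.chevE8.group F)) = H := by
  have h2 : 2 ≤ q := hF ▸ Fintype.one_lt_card
  have h4 : q ^ 5 + q ^ 4 + q ^ 3 ≤ q ^ 8 + q ^ 7 := by
    have h5 : q ^ 5 ≤ q ^ 7 := Nat.pow_le_pow_right (by omega) (by norm_num)
    have h6 : q ^ 3 ≤ q ^ 4 := Nat.pow_le_pow_right (by omega) (by norm_num)
    have h7 : q ^ 5 ≤ q ^ 8 := Nat.pow_le_pow_right (by omega) (by norm_num)
    have h8 : 2 * q ^ 4 ≤ q ^ 5 := by rw [pow_succ' q 4]; exact Nat.mul_le_mul_right _ h2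
    omega
  have := tor_chev torChk_E8 (stSt_hProd_injective_of_ker hT_ker_E8)
    (n := q ^ 8 + q ^ 7 - q ^ 5 - q ^ 4 - q ^ 3 + q + 1) hF
    (by
      rw [Nat.sub_sub, Nat.sub_sub, ← add_assoc]
      simp [pev, show Cfsg.Lie.chevE8.rank = 8 from rfl, Finset.sum_range_succ, h4]; ring) rfl
  rwa [card_hT_ker_E8, exists_congr fun H => by rw [one_mul]] at this

end Cfsg.Agent.S2375
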