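import Cfsg.Statements.S2379
import Mathlib
import Cfsg.Agent.H19.Homo

set_option autoImplicit false
open Cfsg

namespace Cfsg.Agent.S2379

open Cfsg.Agent.H19


/-- Sylow subgroups of `SL_n(q)` for large primes. Let `F` be a field with `q` elements and `r` a prime with `r > n` and `r ∤ q` (so `r` does not divide the order `n!` of the Weyl group). Let `d` be the multiplicative order of `q` modulo `r`, `a` the number of integers `i` with `2 ≤ i ≤ n` divisible by `d` (the degrees of the Weyl group are `2, …, n`), and `m` the `r`-part of the value at `q` of the `d`-th cyclotomic polynomial. Then every Sylow `r`-subgroup of `SL_n(q)` is a direct product of `a` cyclic groups of order `m`. -/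
theorem result {F : Type*} [Field F] [Fintype F] {q : ℕ} (hq : Fintype.card F = q) (n : ℕ)
    (r : ℕ) [Fact r.Prime] (hrn : n < r) (hrq : ¬ r ∣ q) (P : Sylow r (Matrix.SpecialLinearGroup (Fin n) F)) :
    Nonempty (↥(P : Subgroup (Matrix.SpecialLinearGroup (Fin n) F)) ≃*
      (Fin ((Finset.Icc 2 n).filter (fun i => orderOf (q : ZMod r) ∣ i)).card →
        Multiplicative (ZMod (r ^ padicValNat r ((Polynomial.cyclotomic (orderOf (q : ZMod r)) ℤ).eval (q : ℤ)).natAbs)))) := by
  have d0 := Homo.od_pos hrq
  have q1 : 1 < q := hq ▸ Fintype.one_lt_card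
  have lt := hrn.trans_le (Nat.le_mul_of_pos_left _ d0)
  rcases n with - | n
  · have := Matrix.SpecialLinearGroup.subsingleton_of_subsingleton (n := Fin 0) (R := F)
    have : IsEmpty (Fin ((Finset.Icc 2 0).filter (fun i => orderOf (q : ZMod r) ∣ i)).card) := by simp; infer_instance
    exact ⟨@MulEquiv.ofUnique _ _ (uniqueOfSubsingleton 1) _ _ _⟩
  have v := congrArg (·.factorization r) (H10.card_SL_fin (F := F) (n + 1) (by omega))
  rw [← Matrix.card_GL_field, Homo.val_gl hq hrq lt, Nat.factorization_mul (by omega) Nat.card_pos.ne', hq,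
    Finsupp.add_apply, ← pow_one q, Homo.val_pow q1 hrq fun c => (Nat.le_of_dvd one_pos c).not_gt (by omega), pow_one] at v
  have c := Nat.Ioc_filter_dvd_card_eq_div (n + 1) (Homo.od r q)
  rw [show Finset.Ioc 0 (n + 1) = insert 1 (Finset.Icc 2 (n + 1)) by ext; simp; omega,
    Finset.filter_insert] at c
  split_ifs at c v with h
  · rw [Finset.card_insert_of_notMem (by simp)] at c
    have h := Nat.dvd_one.1 h
    obtain ⟨ψ, hψ⟩ := Homo.units_hom F (m := r ^ Homo.kk r q) (by
      rw [← Homo.val_od q1 hrq, h, pow_one, Nat.card_eq_fintype_card, hq]; exact pow_padicValNat_dvd) n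
    rw [show ((Finset.Icc 2 (n + 1)).filter (fun i => orderOf (q : ZMod r) ∣ i)).card = n by simp_all]
    let ρ : (Fin n → Fˣ) →* Matrix.SpecialLinearGroup (Fin (n + 1)) F := MonoidHom.mk' (fun c =>
      ⟨Matrix.diagonal (Fin.cons (∏ i, (c i : F))⁻¹ fun i => c i), by simp [Fin.prod_univ_succ, Finset.prod_eq_zero_iff]⟩)
      fun a b => Subtype.ext (by
        refine Eq.trans ?_ (Matrix.diagonal_mul_diagonal _ _).symm
        exact congrArg Matrix.diagonal <| funext <| Fin.cases (by simp [Finset.prod_mul_distrib, mul_comm]) (by simp))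
    refine Homo.syl (ρ.comp ψ) (Function.Injective.comp (g := ρ) (fun a b e => funext fun i => Units.ext ?_) hψ) ?_ P
    · simpa using Matrix.diagonal_eq_diagonal_iff.1 (congrArg Subtype.val e) i.succ
    · rw [h, Nat.div_one, mul_add] at v; omega
  · erw [c]
    exact Homo.syl' _ Matrix.SpecialLinearGroup.toGL_injective (by rw [Homo.val_gl hq hrq lt, ← v, zero_add])
      (Homo.gl hq hrq lt) P

end Cfsg.Agent.S2379
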