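import Cfsg.Statements.S2381
import Mathlib
import Cfsg.Agent.H19.Homo

set_option autoImplicit false
open Cfsg

namespace Cfsg.Agent.S2381

open Cfsg.Agent.H19


/-- Sylow subgroups of `Sp_{2n}(q)` for large primes. Let `F` be a field with `q` elements and `r` an odd prime with `r > n` and `r ∤ q` (so `r` does not divide the order `2^n n!` of the Weyl group). Let `d` be the multiplicative order of `q` modulo `r`, `a` the number of `i` with `1 ≤ i ≤ n` and `d ∣ 2i` (the degrees being `2, 4, …, 2n`), and `m` the `r`-part of the value at `q` of the `d`-th cyclotomic polynomial. Then every Sylow `r`-subgroup of the symplectic group `Sp_{2n}(q)` is a direct product of `a` cyclic groups of order `m`. -/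
theorem result {F : Type*} [Field F] [Fintype F] {q : ℕ} (hq : Fintype.card F = q) (n : ℕ)
    (r : ℕ) [Fact r.Prime] (hr2 : r ≠ 2) (hrn : n < r) (hrq : ¬ r ∣ q) (P : Sylow r ↥(Matrix.symplecticGroup (Fin n) F)) :
    Nonempty (↥(P : Subgroup ↥(Matrix.symplecticGroup (Fin n) F)) ≃*
      (Fin ((Finset.Icc 1 n).filter (fun i => orderOf (q : ZMod r) ∣ 2 * i)).card →
        Multiplicative (ZMod (r ^ padicValNat r ((Polynomial.cyclotomic (orderOf (q : ZMod r)) ℤ).eval (q : ℤ)).natAbs)))) := by
  have d0 := Homo.od_pos hrq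
  have q1 : 1 < q := hq ▸ Fintype.one_lt_card
  have pr : r.Prime := Fact.out
  have v := Homo.val_prod q1 hrq (n := n) (fun i => 2 * (i + 1)) (fun i hi c => (Nat.le_of_dvd i.succ_pos
    (((Nat.coprime_primes pr Nat.prime_two).2 hr2).dvd_of_dvd_mul_left (dvd_of_mul_left_dvd c))).not_gt (by omega)) (n ^ 2)
  rw [← hq, ← H10.card_sp, hq] at v
  have c : ((Finset.Icc 1 n).filter (fun i => orderOf (q : ZMod r) ∣ 2 * i)).card =
      ((Finset.range n).filter fun i => Homo.od r q ∣ 2 * (i + 1)).card := by
    rw [Finset.card_filter, Finset.card_filter, Finset.range_eq_Ico, Finset.sum_Ico_add' (fun i =>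
      if Homo.od r q ∣ 2 * i then 1 else 0)]
    rfl
  rw [c]
  rcases Nat.even_or_odd (Homo.od r q) with ⟨e, he⟩ | ho
  · have lt : n + n < Homo.od r q * r := by nlinarith [show 1 ≤ e by omega]
    have c : ((Finset.range n).filter fun i => Homo.od r q ∣ 2 * (i + 1)).card = (n + n) / Homo.od r q := by
      simp only [he, ← two_mul, Nat.mul_dvd_mul_iff_left two_pos, Nat.card_multiples, Nat.mul_div_mul_left _ _ two_pos]
    rw [c] at v ⊢
    refine Homo.syl' ((Matrix.reindexRingEquiv F finSumFinEquiv).toMulEquiv.toMonoidHom.comp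
      (Submonoid.subtype _)).toHomUnits (fun a b e => Subtype.ext ?_) (by rw [v, Homo.val_gl hq hrq lt])
      (Homo.gl hq hrq lt) P
    exact (Matrix.reindexRingEquiv F finSumFinEquiv).injective (congrArg Units.val e)
  · have c : ((Finset.range n).filter fun i => Homo.od r q ∣ 2 * (i + 1)).card = n / Homo.od r q := by
      simp only [(Nat.coprime_two_right.2 ho).dvd_mul_left, Nat.card_multiples]
    rw [c] at v ⊢
    obtain ⟨ψ, hψ⟩ := Homo.gl_hom' hq hrq n
    let ρ : GL (Fin n) F →* Matrix.symplecticGroup (Fin n) F := MonoidHom.mk' (fun g =>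
      ⟨Matrix.fromBlocks g.1 0 0 (g⁻¹).1.transpose, by
        simp [SymplecticGroup.mem_iff, Matrix.J, Matrix.fromBlocks_multiply, Matrix.fromBlocks_transpose,
          ← Matrix.transpose_mul]⟩) fun a b => Subtype.ext (by simp [Matrix.fromBlocks_multiply])
    exact Homo.syl (ρ.comp ψ) (Function.Injective.comp (g := ρ) (fun a b e =>
      Units.ext (Matrix.fromBlocks_inj.1 (congrArg Subtype.val e)).1) hψ) v P

end Cfsg.Agent.S2381
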