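import Cfsg.Statements.S2388
import Mathlib
import Cfsg.Agent.L0.GLn3
-- import your own Cfsg.Agent.* helpers here

set_option autoImplicit false
open Cfsg

namespace Cfsg.Agent.S2388

open Cfsg.Agent.L0

/-- In `SL_n(q)`, `q` a power of the prime `p`, two elements of order prime to `p` with the same characteristic polynomial are conjugate in `SL_n(q)` (not merely in `GL_n`). -/
theorem result {F : Type*} [Field F] [Fintype F] (p : ℕ) [Fact p.Prime] [CharP F p] (n : ℕ)
    (g h : Matrix.SpecialLinearGroup (Fin n) F) (hg : (orderOf g).Coprime p) (hh : (orderOf h).Coprime p)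
    (hc : (g : Matrix (Fin n) (Fin n) F).charpoly = (h : Matrix (Fin n) (Fin n) F).charpoly) : IsConj g h := by
  rcases isEmpty_or_nonempty (Fin n) with h0 | h0
  · rw [Subsingleton.elim g h]
  have key : ∀ g : Matrix.SpecialLinearGroup (Fin n) F, (orderOf g).Coprime p →
      ∀ u ∈ ty (g : Matrix (Fin n) (Fin n) F), Irreducible u := fun g hg =>
    (coprime_orderOf_iff p (Matrix.SpecialLinearGroup.toGL g)).1 (by
      rwa [orderOf_injective _ Matrix.SpecialLinearGroup.toGL_injective])
  exact isConj_sl_of_ty (fun c _ => exists_commute_det_semis (key g hg) c) (ty_eq_of_charpoly (key g hg) (key h hh) hc)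

end Cfsg.Agent.S2388
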