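import Cfsg.Statements.S2589
import Mathlib
import Cfsg.Agent.H10.Conj2

set_option autoImplicit false
open Cfsg

namespace Cfsg.Agent.S2589

/-- Two semisimple elements of the finite symplectic group Sp_2m(F) (elements of order prime to the characteristic) are conjugate in Sp_2m(F) if and only if they are conjugate in GL_2m(F). -/
theorem result {F : Type*} [Field F] [Fintype F] {p : ℕ} [Fact p.Prime] [CharP F p] {m : ℕ} (A B : Matrix.symplecticGroup (Fin m) F) (hA : (orderOf A).Coprime p) : IsConj A B ↔ IsConj (A : Matrix (Fin m ⊕ Fin m) (Fin m ⊕ Fin m) F) (B : Matrix (Fin m ⊕ Fin m) (Fin m ⊕ Fin m) F) := by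
  refine ⟨fun h => (Submonoid.subtype _).map_isConj h, fun h => ?_⟩
  obtain ⟨x, hx⟩ := H10.exists_equiv_of_isConj_mat h
  have := H10.isConj_of_alt H10.spBilin_isAlt H10.spBilin_nondegenerate.1 (H10.spIso _ _ A)
    (H10.spIso _ _ B) (x := x) (by simpa [H10.spIso_apply] using hx) (n := orderOf A)
    (by rw [← Subgroup.coe_pow, ← map_pow, pow_orderOf_eq_one, map_one]; rfl)
    (H10.natCast_ne_zero_of_coprime hA)
  simpa using (H10.spIso (Fin m) F).symm.toMonoidHom.map_isConj this

end Cfsg.Agent.S2589
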