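import Cfsg.Statements.S2389
import Mathlib
import Cfsg.Agent.H10.Conj2
import Cfsg.Agent.L0.GLn3
import Cfsg.Agent.S2589

set_option autoImplicit false
open Cfsg

namespace Cfsg.Agent.S2389

/-- In the symplectic group `Sp_{2n}(q)`, `q` a power of the prime `p`, two elements of order prime to `p` with the same characteristic polynomial are conjugate in `Sp_{2n}(q)`. -/
theorem result {F : Type*} [Field F] [Fintype F] (p : ℕ) [Fact p.Prime] [CharP F p] (n : ℕ)
    (g h : ↥(Matrix.symplecticGroup (Fin n) F)) (hg : (orderOf g).Coprime p) (hh : (orderOf h).Coprime p)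
    (hc : (g : Matrix (Fin n ⊕ Fin n) (Fin n ⊕ Fin n) F).charpoly = (h : Matrix (Fin n ⊕ Fin n) (Fin n ⊕ Fin n) F).charpoly) :
    IsConj g h := by
  refine (S2589.result g h hg).mpr ?_
  have key : ∀ a : Matrix.symplecticGroup (Fin n) F, (orderOf a).Coprime p →
      ∀ u ∈ L0.ty (a : Matrix (Fin n ⊕ Fin n) (Fin n ⊕ Fin n) F), Irreducible u := fun a ha u hu =>
    L0.irreducible_of_pow_eq_one (g := (Matrix.symplecticGroup (Fin n) F).subtype.toHomUnits a) ha
      (by rw [← map_pow, pow_orderOf_eq_one, map_one]) hu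
  obtain ⟨P, hP⟩ := (L0.ty_eq_iff _ _).mp (L0.ty_eq_of_charpoly (key g hg) (key h hh) hc)
  exact ⟨P, by rw [SemiconjBy, ← hP, Units.inv_mul_cancel_right]⟩

end Cfsg.Agent.S2389
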