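import Cfsg.Statements.S2390
import Mathlib
import Cfsg.Agent.H10.Real3

set_option autoImplicit false
open Cfsg

namespace Cfsg.Agent.S2390

/-- In the special unitary group `SU_n(q)` (inside `SL_n` over the field with `q²` elements), `q` a power of the prime `p`, two elements of order prime to `p` with the same characteristic polynomial are conjugate in `SU_n(q)`. -/
theorem result {F : Type*} [Field F] [Fintype F] {q : ℕ} (hF : Fintype.card F = q ^ 2) (p : ℕ) [Fact p.Prime] [CharP F p] (n : ℕ)
    (g h : ↥(Cfsg.SU n F q)) (hg : (orderOf g).Coprime p) (hh : (orderOf h).Coprime p)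
    (hc : ((g : Matrix.SpecialLinearGroup (Fin n) F) : Matrix (Fin n) (Fin n) F).charpoly =
      ((h : Matrix.SpecialLinearGroup (Fin n) F) : Matrix (Fin n) (Fin n) F).charpoly) : IsConj g h := by
  have hq := H11.qConj_conjQ hF
  have hH := hq.isHerm (Fin n)
  have hB := H11.hermB_sep (σ := H11.conjQ hF) (Fin n)
  rcases Nat.eq_zero_or_pos n with rfl | hn
  · rw [show g = h from Subtype.ext (Subtype.ext (Subsingleton.elim _ _))]
  have h1 : ∀ a : SU n F q, (H11.suEquiv hq n a).1.1.toLinearMap ^ orderOf a = 1 := fun a =>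
    (map_pow (LinearEquiv.automorphismGroup.toLinearMapMonoidHom.comp ((Subgroup.subtype _).comp
      ((Subgroup.subtype _).comp (H11.suEquiv hq n).toMonoidHom))) a _).symm.trans
      (by rw [pow_orderOf_eq_one, map_one])
  have h2 := H10.inv_tyE hH.form hB (H10.natCast_ne_zero_of_coprime hg) _ (h1 g)
  have h3 := H10.inv_tyE hH.form hB (H10.natCast_ne_zero_of_coprime hh) _ (h1 h)
  have h4 := L0.ty_eq_of_charpoly (fun u hu => (h2.1 u (H10.tyE_suEquiv hq g ▸ hu)).1)
    (fun u hu => (h3.1 u (H10.tyE_suEquiv hq h ▸ hu)).1) hc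
  have := H10.isConj_ker_of _ (a := H11.suEquiv hq n g) (b := H11.suEquiv hq n h)
    (H10.isConj_herm hH hB (by rw [H10.tyE_suEquiv, H10.tyE_suEquiv, h4])) fun x => by
      obtain ⟨k, k1, k2⟩ := H10.RealD.exists_comm hH hB (H11.suEquiv hq n g).1
        (H10.realD_herm_inv hq.ne_id hq.invol (H10.natCast_ne_zero_of_coprime hg) h2 (fun e => by
          have := L0.finrank_eq_sum_tyE (H11.suEquiv hq n g).1.1.toLinearMap
          simp [e] at this; omega) ((hH.range_detI hB (by simpa)).le ⟨x, rfl⟩))
      exact ⟨k, k1, Units.ext k2⟩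
  simpa using (H11.suEquiv hq n).symm.toMonoidHom.map_isConj this

end Cfsg.Agent.S2390
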