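import Cfsg.Statements.S2391
import Mathlib
-- import your own Cfsg.Agent.* helpers here

set_option autoImplicit false
open Cfsg

namespace Cfsg.Agent.S2391


/-- The Borel–Tits property of `SL_n(q)` in flag form: for a field `F` of characteristic `p` with finitely many elements and a non-trivial `p`-subgroup `U` of `SL_n(F)`, there is a flag `0 = V₀ < V₁ < ⋯ < V_{k+1} = F^n` with at least one proper non-zero member such that every element of the normaliser of `U` maps each `V_i` onto itself and every element of `U` acts trivially on each quotient `V_{i+1}/V_i` (so the normaliser lies in the parabolic subgroup of the flag and `U` in its unipotent radical). -/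
theorem result {F : Type*} [Field F] [Fintype F] (p : ℕ) [Fact p.Prime] [CharP F p] (n : ℕ)
    (U : Subgroup (Matrix.SpecialLinearGroup (Fin n) F)) (hU : IsPGroup p ↥U) (hne : U ≠ ⊥) :
    ∃ (k : ℕ) (V : Fin (k + 2) → Submodule F (Fin n → F)), 1 ≤ k ∧ StrictMono V ∧ V 0 = ⊥ ∧ V (Fin.last (k + 1)) = ⊤ ∧
      (∀ g ∈ Subgroup.normalizer (U : Set (Matrix.SpecialLinearGroup (Fin n) F)), ∀ i, (V i).map (Matrix.mulVecLin (g : Matrix (Fin n) (Fin n) F)) = V i) ∧
      (∀ u ∈ U, ∀ i : Fin (k + 1), ∀ v ∈ V i.succ, (u : Matrix (Fin n) (Fin n) F).mulVec v - v ∈ V (Fin.castSucc i)) := by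
  classical
  obtain ⟨W, hW0, hW⟩ : ∃ W : ℕ → Submodule F (Fin n → F), W 0 = ⊥ ∧
      ∀ i v, v ∈ W (i + 1) ↔ ∀ u ∈ U, (u : Matrix (Fin n) (Fin n) F).mulVec v - v ∈ W i :=
    ⟨fun i => Nat.rec ⊥ (fun _ X => ⨅ u : U, X.comap (Matrix.mulVecLin
      ((u : Matrix.SpecialLinearGroup (Fin n) F) : Matrix (Fin n) (Fin n) F) - LinearMap.id)) i, rfl,
      fun i v => by simp [Submodule.mem_iInf]⟩
  have hN : ∀ g ∈ Subgroup.normalizer (U : Set (Matrix.SpecialLinearGroup (Fin n) F)), ∀ i, ∀ v ∈ W i,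
      (g : Matrix (Fin n) (Fin n) F).mulVec v ∈ W i := by
    intro g hg i
    induction i with
    | zero => intro v hv; rw [hW0, Submodule.mem_bot] at hv; rw [hv, Matrix.mulVec_zero]; exact (W 0).zero_mem
    | succ i ih =>
      intro v hv
      rw [hW] at hv ⊢
      intro u hu
      have := ih _ (hv _ ((Subgroup.mem_normalizer_iff''.1 hg u).1 hu))
      rwa [Matrix.mulVec_sub, Matrix.mulVec_mulVec, ← Matrix.SpecialLinearGroup.coe_mul, mul_assoc,
        mul_inv_cancel_left, Matrix.SpecialLinearGroup.coe_mul, ← Matrix.mulVec_mulVec] at this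
  have hlt : ∀ i, W i ≠ ⊤ → W i < W (i + 1) := by
    intro i hi
    have hU' : ∀ u : U, W i ≤ (W i).comap (Matrix.mulVecLin ((u : Matrix.SpecialLinearGroup (Fin n) F) :
      Matrix (Fin n) (Fin n) F)) := fun u v hv => hN _ (Subgroup.le_normalizer u.2) i v hv
    letI : MulAction U ((Fin n → F) ⧸ W i) :=
      { smul := fun u => (W i).mapQ (W i) _ (hU' u)
        one_smul := fun x => by
          obtain ⟨v, rfl⟩ := (W i).mkQ_surjective x
          change (W i).mkQ _ = _
          simp
        mul_smul := fun a b x => by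
          obtain ⟨v, rfl⟩ := (W i).mkQ_surjective x
          change (W i).mkQ _ = (W i).mkQ _
          simp }
    have hs : ∀ (u : U) v, u • (W i).mkQ v = (W i).mkQ (((u : Matrix.SpecialLinearGroup (Fin n) F) :
      Matrix (Fin n) (Fin n) F).mulVec v) := fun u v => Submodule.mapQ_apply _ _ _ _
    haveI : Nontrivial ((Fin n → F) ⧸ W i) := Submodule.Quotient.nontrivial_iff.2 hi
    haveI : Finite ((Fin n → F) ⧸ W i) := Module.finite_of_finite F
    have hp : p ∣ Nat.card ((Fin n → F) ⧸ W i) := by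
      rw [Module.natCard_eq_pow_finrank (K := F)]
      refine dvd_pow ?_ Module.finrank_pos.ne'
      obtain ⟨k, -, hk⟩ := FiniteField.card F p
      rw [Nat.card_eq_fintype_card, hk]; exact dvd_pow_self _ k.2.ne'
    obtain ⟨b, hb, hb0⟩ := hU.exists_fixed_point_of_prime_dvd_card_of_fixed_point _ hp (a := (W i).mkQ 0)
      fun u => by rw [hs, Matrix.mulVec_zero]
    obtain ⟨v, rfl⟩ := (W i).mkQ_surjective b
    refine SetLike.lt_iff_le_and_exists.2 ⟨fun w hw => (hW _ _).2 fun u hu =>
      (W i).sub_mem (hU' ⟨u, hu⟩ hw) hw, v, (hW _ _).2 fun u hu => ?_, fun hv => hb0 ?_⟩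
    · exact (Submodule.Quotient.eq _).1 (hb ⟨u, hu⟩)
    · rw [map_zero, eq_comm]; exact (Submodule.Quotient.mk_eq_zero _).2 hv
  have hex : ∃ m, W m = ⊤ := by
    by_contra! h
    have h1 := strictMono_nat_of_lt_succ fun i => hlt i (h i)
    exact not_injective_infinite_finite W h1.injective
  have h2 : 2 ≤ Nat.find hex := by
    rw [Nat.le_find_iff]
    intro m hm h
    have h1 : W 1 = ⊤ := by
      interval_cases m
      · exact top_unique (h ▸ hW0 ▸ bot_le)
      · exact h
    refine hne ((Subgroup.eq_bot_iff_forall _).2 fun u hu => Subtype.ext (Matrix.toLin'.injective ?_))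
    refine LinearMap.ext fun v => ?_
    simpa using sub_eq_zero.1 ((Submodule.mem_bot F).1 (hW0 ▸ (hW 0 v).1 (h1 ▸ Submodule.mem_top) u hu))
  obtain ⟨k, hk⟩ : ∃ k, Nat.find hex = k + 1 := ⟨Nat.find hex - 1, by omega⟩
  refine ⟨k, fun i => W i, by omega, Fin.strictMono_iff_lt_succ.2 fun i => hlt _ (Nat.find_min hex (by
    rw [hk]; exact i.2)), hW0, (congrArg W hk).symm.trans (Nat.find_spec hex), fun g hg i => le_antisymm ?_ fun v hv => ?_,
    fun u hu i v hv => (hW _ _).1 hv u hu⟩
  · rintro _ ⟨v, hv, rfl⟩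
    exact hN g hg i v hv
  · refine ⟨_, hN g⁻¹ (Subgroup.inv_mem _ hg) i v hv, ?_⟩
    rw [Matrix.mulVecLin_apply, Matrix.mulVec_mulVec, ← Matrix.SpecialLinearGroup.coe_mul, mul_inv_cancel]
    simp

end Cfsg.Agent.S2391
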