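import Cfsg.Statements.S2393
import Mathlib
import Cfsg.Agent.H11.LS4

set_option autoImplicit false
open scoped MatrixGroups
open Cfsg

namespace Cfsg.Agent.S2393

/-- A lower bound for representations in cross characteristic: for `n ≥ 2` and a field `F` with `q` elements, `q` odd, every homomorphism from the symplectic group `Sp_{2n}(F)` to `GL_d(K)`, `K` a field of characteristic different from that of `F`, whose kernel is central has `d ≥ q^(n-1)(q-1)/2`. -/
theorem result {F : Type*} [Field F] [Fintype F] {q : ℕ} (hq : Fintype.card F = q) (hodd : Odd q) (n : ℕ) (hn : 2 ≤ n)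
    {K : Type*} [Field K] (hK : ringChar K ≠ ringChar F) {d : ℕ}
    (ρ : ↥(Matrix.symplecticGroup (Fin n) F) →* GL (Fin d) K) (hker : ρ.ker ≤ Subgroup.center ↥(Matrix.symplecticGroup (Fin n) F)) :
    q ^ (n - 1) * (q - 1) / 2 ≤ d := by
  subst hq
  have h2 : (2 : F) ≠ 0 := fun e => by
    have := H10.two_eq_zero_iff_even_card.mp e
    have := Nat.odd_iff.mp hodd
    omega
  let i : Fin n := ⟨0, by omega⟩
  obtain ⟨B, Q, h, h1, h3⟩ := H11.sp_weight' (k := AlgebraicClosure K)
    (by rwa [← Algebra.ringChar_eq K]) (H11.closRep ρ) (b := (0, Pi.single i 1, 1))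
    (H11.closRep_ne_one hker fun hc => by
      have e1 := congrFun (H11.spU_mulVec (F := F) (0, Pi.single i 1, 1) (Pi.single (.inr i) 1))
        (.inl i)
      rcases (H10.mem_center_sp_iff _).mp hc with e | e <;> rw [e] at e1 <;>
        simp [H10.spBilin_apply_sum, H11.spInl, Pi.single_apply, Matrix.neg_mulVec] at e1)
  have := (H11.orb_odd h h2 (x := Pi.single i 1) (by simpa using h1)).trans
    (Nat.mul_le_mul_left _ h3)
  simp only [Nat.card_eq_fintype_card, Module.finrank_fintype_fun_eq_card, Fintype.card_fin] at this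
  refine Nat.div_le_of_le_mul (le_trans ?_ this)
  obtain ⟨m, rfl⟩ := Nat.exists_eq_add_of_le' hn
  rw [Nat.mul_sub_one, ← pow_succ]
  exact Nat.sub_le_sub_left (Nat.one_le_pow _ _ Fintype.card_pos) _

end Cfsg.Agent.S2393
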