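import Cfsg.Statements.S2394
import Mathlib
import Cfsg.Agent.H11.LS4

set_option autoImplicit false
open scoped MatrixGroups
open Cfsg

namespace Cfsg.Agent.S2394

/-- The smallest degree of a faithful representation of the symplectic group `Sp_{2n}(q)` over its own field `F_q` is `2n`: every injective homomorphism from `Sp_{2n}(F)` to `GL_d(F)`, `F` the field with `q` elements, has `d ≥ 2n`. -/
theorem result {F : Type*} [Field F] [Fintype F] (n : ℕ) {d : ℕ}
    (ρ : ↥(Matrix.symplecticGroup (Fin n) F) →* GL (Fin d) F) (hρ : Function.Injective ρ) : 2 * n ≤ d := by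
  have h := Subgroup.card_dvd_of_injective ρ hρ
  rw [H10.card_sp, Matrix.card_GL_field] at h
  have hq := Fintype.one_lt_card (α := F)
  generalize Fintype.card F = q at h hq
  by_contra! hd
  by_cases h1 : n = 1
  · subst h1
    have := Nat.le_of_dvd (Finset.prod_pos fun i _ =>
      Nat.sub_pos_of_lt (Nat.pow_lt_pow_right hq i.2)) h
    obtain ⟨r, rfl⟩ := Nat.exists_eq_add_of_le' hq
    have e : (r + 2) ^ 2 - 1 = r * r + 4 * r + 3 := Nat.sub_eq_of_eq_add (by ring)
    interval_cases d <;> simp [e] at this <;> nlinarith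
  by_cases h2 : q = 2 ∧ n = 3
  · obtain ⟨rfl, rfl⟩ := h2
    interval_cases d <;> revert h <;> decide
  obtain ⟨r, hr, h3⟩ := L0.zsigmondy hq (n := 2 * n) (by omega) (by omega) (by omega)
  have := Fact.mk hr
  have h4 : r ∣ q ^ (2 * n) - 1 := (ZMod.natCast_eq_zero_iff _ _).mp (by
    rw [Nat.cast_sub (Nat.one_le_pow _ _ (by omega)), Nat.cast_pow, ← h3, pow_orderOf_eq_one]
    simp)
  obtain ⟨i, -, hi⟩ := (hr.prime.dvd_finsetProd_iff _).mp ((h4.trans (Dvd.dvd.mul_left (by
    have := Finset.dvd_prod_of_mem (fun i => q ^ (2 * (i + 1)) - 1)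
      (Finset.mem_range.mpr (show n - 1 < n by omega))
    rwa [show n - 1 + 1 = n by omega] at this) _)).trans h)
  have h5 : (q : ZMod r) ≠ 0 := fun e => by
    rw [e, orderOf_zero] at h3
    omega
  rw [← ZMod.natCast_eq_zero_iff, Nat.cast_sub (Nat.pow_le_pow_right (by omega) i.2.le),
    Nat.cast_pow, Nat.cast_pow, sub_eq_zero, ← pow_sub_mul_pow _ i.2.le,
    mul_eq_right₀ (pow_ne_zero _ h5), ← orderOf_dvd_iff_pow_eq_one, h3] at hi
  have := Nat.le_of_dvd (Nat.sub_pos_of_lt i.2) hi
  omega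

end Cfsg.Agent.S2394
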