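import Cfsg.Statements.S2398
import Mathlib
import Cfsg.Agent.H12.Lift5

set_option autoImplicit false
open Cfsg

namespace Cfsg.Agent.S2398

open Cfsg.Agent.H12

theorem lifts_large.{u, v} {K : Type u} [Field K] (hK5 : ∃ s : Finset K, 4 < s.card) {D : Cfsg.Lie.ChevalleyDatum} (hD : D ∈ [Cfsg.Lie.chevG2, Cfsg.Lie.chevB2, Cfsg.Lie.chevD4, Cfsg.Lie.chevF4, Cfsg.Lie.chevE6, Cfsg.Lie.chevE7, Cfsg.Lie.chevE8]) :
    ∃ _ : Good D, Lifts.{u, v} D K ∧ ∀ r, (cdOf D).Der K r := by
  obtain ⟨c, c0, c2⟩ := exists_pow_ne_one_of_card (K := K) two_pos (hK5.imp fun s hs => by omega)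
  have h : ∃ x : K, x ≠ 0 ∧ x ≠ 1 := ⟨c, c0, by rintro rfl; simp at c2⟩
  simp only [List.mem_cons, List.not_mem_nil, or_false] at hD
  rcases hD with rfl | rfl | rfl | rfl | rfl | rfl | rfl
  exacts [⟨_, lifts_G2 hK5, CD.der_of_large c0 c2⟩, ⟨_, lifts_B2 h, CD.der_of_large c0 c2⟩,
    ⟨_, lifts_D4 h, CD.der_of_large c0 c2⟩, ⟨_, lifts_F4 h, CD.der_of_large c0 c2⟩,
    ⟨_, lifts_E6, CD.der_of_large c0 c2⟩, ⟨_, lifts_E7, CD.der_of_large c0 c2⟩,
    ⟨_, lifts_E8, CD.der_of_large c0 c2⟩]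


/-- Universality of the group Δ presented by Steinberg's generators with relators (R1), (R2), over a field with more than four elements (types G₂, B₂, D₄, F₄, E₆, E₇, E₈): for every central extension `π₁ : E → G₁` (surjective, central kernel) and every homomorphism `σ : Δ → G₁` there is exactly one homomorphism `τ : Δ → E` with `π₁ ∘ τ = σ`. In particular every central extension of Δ splits; together with the fact that Δ maps onto the Chevalley group with central kernel, this makes Δ the universal central extension of the Chevalley group. -/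
theorem result {K : Type*} [Field K] (hK5 : ∃ s : Finset K, 4 < s.card) (D : Cfsg.Lie.ChevalleyDatum) (hD : D ∈ [Cfsg.Lie.chevG2, Cfsg.Lie.chevB2, Cfsg.Lie.chevD4, Cfsg.Lie.chevF4, Cfsg.Lie.chevE6, Cfsg.Lie.chevE7, Cfsg.Lie.chevE8])
    {G₁ E : Type*} [Group G₁] [Group E] (π₁ : E →* G₁) (hπ : Function.Surjective π₁) (hc : π₁.ker ≤ Subgroup.center E)
    (σ : D.SteinbergCover K →* G₁) : ∃! τ : D.SteinbergCover K →* E, π₁.comp τ = σ := by
  obtain ⟨_, h1, h2⟩ := lifts_large hK5 hD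
  exact h1.existsUnique h2 hπ hc σ

end Cfsg.Agent.S2398
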