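import Cfsg.Statements.S2399
import Mathlib
import Cfsg.Agent.H12.Lift5
import Cfsg.Agent.S2398

set_option autoImplicit false
open scoped MatrixGroups
open Cfsg

namespace Cfsg.Agent.S2399

open Cfsg.Agent.H12

/-- Projective representations in the natural characteristic lift: for each of the types G₂, B₂, D₄, F₄, E₆, E₇, E₈ over any field `K` (for types B₂ and G₂ the field must have more than two elements — the cases where the Chevalley group is not simple are set aside), every homomorphism from the Chevalley group to `PGL_n(L) = GL_n(L)/Z`, `L` a field of the same characteristic as `K`, lifts uniquely to a homomorphism from the group Δ presented by (R1), (R2) to `GL_n(L)`, compatibly with the projection Δ → Chevalley group sending x̄_r(t) to x_r(t). -/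
theorem result {K : Type*} [Field K] (D : Cfsg.Lie.ChevalleyDatum) (hD : D ∈ [Cfsg.Lie.chevG2, Cfsg.Lie.chevB2, Cfsg.Lie.chevD4, Cfsg.Lie.chevF4, Cfsg.Lie.chevE6, Cfsg.Lie.chevE7, Cfsg.Lie.chevE8]) (hK : D ∈ [Cfsg.Lie.chevB2, Cfsg.Lie.chevG2] → ∃ x : K, x ≠ 0 ∧ x ≠ 1)
    (θ : D.SteinbergCover K →* ↥(D.group K))
    (hθ : ∀ (r : ℕ) (t : K), r < D.nroots → ((θ (D.scGen K r t) : GL D.Idx K) : Matrix D.Idx D.Idx K) = D.x K r t)
    {L : Type*} [Field L] (hL : ringChar L = ringChar K) {n : ℕ}
    (φ : ↥(D.group K) →* GL (Fin n) L ⧸ Subgroup.center (GL (Fin n) L)) :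
    ∃! ψ : D.SteinbergCover K →* GL (Fin n) L, (QuotientGroup.mk' (Subgroup.center (GL (Fin n) L))).comp ψ = φ.comp θ := by
  cases finite_or_infinite K with
  | inr _ =>
    exact Cfsg.Agent.S2398.result (Infinite.exists_subset_card_eq K 5 |>.imp fun s hs => by omega) D hD _
      (QuotientGroup.mk'_surjective _) (by rw [QuotientGroup.ker_mk']) _
  | inl _ =>
  obtain ⟨_, hp⟩ := exists_good_der (F := K) hD fun h => hK (by rcases h with rfl | rfl <;> simp)
  have hθ' : (scSt D K).Hom (grpSt D K) θ := fun r t => grp_val_eq_x_iff.1 (hθ r t r.2)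
  have hc : (QuotientGroup.mk' (Subgroup.center (GL (Fin n) L))).ker ≤ Subgroup.center _ := by
    rw [QuotientGroup.ker_mk']
  refine existsUnique_of_exists_of_unique ?_ fun τ τ' a b => MonoidHom.ext fun x =>
    H27.lift_eq_on_commutator hc (a.trans b.symm)
      ((chev_nc _).perfect scSt_top hp ▸ Subgroup.mem_top x)
  let P := (φ.comp (MonoidHom.fst _ (GL (Fin n) L))).eqLocus
    ((QuotientGroup.mk' (Subgroup.center (GL (Fin n) L))).comp (MonoidHom.snd _ _))
  let q : P →* D.group K := (MonoidHom.fst _ _).comp P.subtype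
  have p1 : Function.Surjective q := fun d => by
    obtain ⟨e, he⟩ := QuotientGroup.mk'_surjective _ (φ d); exact ⟨⟨(d, e), he.symm⟩, rfl⟩
  have p0 : ∀ x ∈ q.ker, x.1.2 ∈ Subgroup.center (GL (Fin n) L) := by
    rintro ⟨⟨d, e⟩, hx⟩ (rfl : d = 1)
    exact hc (hx.symm.trans (map_one φ))
  have p2 : q.ker ≤ Subgroup.center P := fun x hx =>
    Subgroup.mem_center_iff.2 fun y => Subtype.ext (Prod.ext
      (by have : x.1.1 = 1 := hx
          simp [this]) (Subgroup.mem_center_iff.1 (p0 x hx) _))
  have := H27.finite_commutator_of_ker_le_center p2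
  let π : commutator P →* D.group K := q.comp (commutator P).subtype
  have s1 : Function.Surjective π := fun d => by
    have : d ∈ (commutator P).map q := by
      rw [map_commutator_eq, MonoidHom.range_eq_top.2 p1, ← commutator_def, grp_perfect hp]; trivial
    obtain ⟨x, hx, rfl⟩ := this
    exact ⟨⟨x, hx⟩, rfl⟩
  have s2 : π.ker ≤ Subgroup.center _ := fun x hx =>
    Subgroup.mem_center_iff.2 fun y => Subtype.ext (Subgroup.mem_center_iff.1 (p2 hx) _)
  obtain ⟨p, hp1⟩ := CharP.exists K
  have hp2 : p.Prime := CharP.char_is_prime K p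
  have := Fact.mk hp2
  have : CharP L p := by rw [← ringChar.eq K p, ← hL]; infer_instance
  have s3 : p.Coprime (Nat.card π.ker) := (Nat.Prime.coprime_iff_not_dvd hp2).2 fun hd => by
    obtain ⟨z, hz⟩ := exists_prime_orderOf_dvd_card' p hd
    have h1 := p0 z.1.1 z.2
    rw [Matrix.GeneralLinearGroup.mem_center_iff_val_mem_range_scalar] at h1
    obtain ⟨a, ha⟩ := h1
    have h2 : z.1.1.1.2 ^ p = 1 := congrArg (fun x : π.ker => x.1.1.1.2) (hz ▸ pow_orderOf_eq_one z)
    have h3 : z.1.1.1.2 = 1 := by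
      ext i j
      have h4 := congrArg (fun x : GL (Fin n) L => x.1 i i) h2
      simp only [Units.val_pow_eq_pow_val, ← ha, Matrix.scalar_apply,
        Units.val_one, Matrix.one_apply_eq] at h4
      have h5 : a = 1 := frobenius_inj L p (by simpa [frobenius_def, Matrix.diagonal_pow] using h4)
      rw [← ha, h5, map_one]; rfl
    have : z = 1 := Subtype.ext (Subtype.ext (Subtype.ext (Prod.ext z.2 h3)))
    rw [this, orderOf_one] at hz
    exact hp2.one_lt.ne hz
  obtain ⟨S, hS⟩ := StSys.exists_lift_coprime grpNC grpNM s1 s2 (CharP.cast_eq_zero K p)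
    (fun z hz => congrArg Subtype.val (pow_card_eq_one' (x := (⟨z, hz⟩ : π.ker)))) s3
  obtain ⟨τ, hτ⟩ := scSt_lift S
  refine ⟨((MonoidHom.snd _ _).comp (P.subtype.comp (commutator P).subtype)).comp τ,
    StSys.hom_ext scSt_top fun r t => ?_⟩
  exact (τ _).1.2.symm.trans (congrArg φ ((hτ.comp hS r t).trans (hθ' r t).symm))

end Cfsg.Agent.S2399
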