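import Cfsg.Statements.S2408
import Mathlib
import Cfsg.Agent.H12.TwG

set_option autoImplicit false
open Cfsg

namespace Cfsg.Agent.S2408

open Cfsg.Agent.H12

/-- The large Ree group ²F₄(2^(2m+1)) with `m ≥ 1` is generated by two of its elements. -/
theorem result {K : Type*} [Field K] [Fintype K] {m : ℕ} (hm : 1 ≤ m) (hK : Fintype.card K = 2 ^ (2 * m + 1)) :
    ∃ a b : ↥(Cfsg.Lie.twistedF4 K (2 ^ m)), Subgroup.closure ({a, b} : Set ↥(Cfsg.Lie.twistedF4 K (2 ^ m))) = ⊤ := by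
  obtain ⟨S, he, h, hK'⟩ := Cfsg.Agent.H13.exists_FD hK
  rw [h]
  refine twg_F4 S (hK' ▸ ?_)
  calc 2 = 2 ^ 1 := rfl
    _ < _ := Nat.pow_lt_pow_right (by norm_num) (by omega)

end Cfsg.Agent.S2408
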