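import Cfsg.Statements.S2413
import Mathlib
import Cfsg.Agent.H7.Pr16

set_option autoImplicit false
open Cfsg

namespace Cfsg.Agent.S2413

/-- The simple orthogonal group `PΩ_{2m+1}(q)` (commutator subgroup of the orthogonal group of `x₀² + Σ x_i y_i` modulo its centre) with `m ≥ 2` and `q` odd is generated by two of its elements. -/
theorem result {F : Type*} [Field F] [Fintype F] (hodd : Odd (Fintype.card F)) (m : ℕ) (hm : 2 ≤ m) :
    ∃ a b : Cfsg.POmega F (Cfsg.quadFormOdd m F), Subgroup.closure ({a, b} : Set (Cfsg.POmega F (Cfsg.quadFormOdd m F))) = ⊤ := by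
  have h3 : (2 : F) ≠ 0 := Ring.two_ne_zero fun e => by
    have := FiniteField.even_card_of_char_two e
    rw [Nat.odd_iff] at hodd; omega
  obtain ⟨P, -⟩ := H17.frame_odd m h3
  exact H7.Pr.two_map (QuotientGroup.mk' _) (QuotientGroup.mk'_surjective _) (H7.Pr.two_map
    (H17.omOm (H17.clOdd m h3) ((H11.isQuad_odd m F).nonExc_of_two_ne_zero
      (H11.bOdd_sep m h3) h3) (by simp; omega)).symm.toMonoidHom
    (MulEquiv.surjective _) (H7.Pr.two_dim1 P hm rfl
      (fun e => one_ne_zero (DFunLike.congr_fun e (1 : F))) (x₀ := -1) (by simp)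
      (fun e => h3 (by linear_combination -e)) (by simp [H17.ctB]; omega)))

end Cfsg.Agent.S2413
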