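import Cfsg.Statements.S2414
import Mathlib
import Cfsg.Agent.H7.Pr16

set_option autoImplicit false
open Cfsg

namespace Cfsg.Agent.S2414

/-- The simple orthogonal group `PΩ⁺_{2m}(q)` (commutator subgroup of the orthogonal group of `Σ x_i y_i` modulo its centre) with `m ≥ 4` is generated by two of its elements. -/
theorem result {F : Type*} [Field F] [Fintype F] (m : ℕ) (hm : 4 ≤ m) :
    ∃ a b : Cfsg.POmega F (Cfsg.quadFormPlus m F), Subgroup.closure ({a, b} : Set (Cfsg.POmega F (Cfsg.quadFormPlus m F))) = ⊤ := by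
  obtain ⟨P, -⟩ := H17.frame_plus (m := m) (by omega) F
  exact H7.Pr.two_map (QuotientGroup.mk' _) (QuotientGroup.mk'_surjective _) (H7.Pr.two_map
    (H17.omOm (H17.clPlus m F) (H11.nonExc_plus (.inr (by omega))) (by simp; omega)).symm.toMonoidHom
    (MulEquiv.surjective _) (H7.Pr.two_D P hm (fun e => one_ne_zero (DFunLike.congr_fun e (1 : F)))
      (by simp [H17.ctD, two_mul])))

end Cfsg.Agent.S2414
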