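import Cfsg.Statements.S2415
import Mathlib
import Cfsg.Agent.H7.Pr16

set_option autoImplicit false
open Cfsg

namespace Cfsg.Agent.S2415

/-- The simple orthogonal group `PΩ⁻_{2m}(q)` with `m ≥ 4` (commutator subgroup, modulo its centre, of the orthogonal group of `Σ_{i<m−1} x_i y_i + z₁² + a z₁z₂ + b z₂²` with the binary part anisotropic) is generated by two of its elements. -/
theorem result {F : Type*} [Field F] [Fintype F] (m : ℕ) (hm : 4 ≤ m) (a b : F)
    (hab : ∀ z₁ z₂ : F, z₁ ^ 2 + a * z₁ * z₂ + b * z₂ ^ 2 = 0 → z₁ = 0 ∧ z₂ = 0) :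
    ∃ g h : Cfsg.POmega F (Cfsg.quadFormMinus (m - 1) F a b),
      Subgroup.closure ({g, h} : Set (Cfsg.POmega F (Cfsg.quadFormMinus (m - 1) F a b))) = ⊤ := by
  obtain ⟨P, -⟩ := H17.frame_minus (m - 1) hab
  exact H7.Pr.two_map (QuotientGroup.mk' _) (QuotientGroup.mk'_surjective _) (H7.Pr.two_map
    (H17.omOm (H17.clMinus _ hab) ((H11.isQuad_minus _ F a b).nonExc_of_finrank
      (H11.bMinus_sep _ hab) (by simp; omega)) (by simp; omega)).symm.toMonoidHom
    (MulEquiv.surjective _) (H7.Pr.two_dim2 P (show 3 ≤ m - 1 by omega) rfl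
      (fun e => one_ne_zero (DFunLike.congr_fun e (1 : F))) (by simp [H17.ctB]; omega)))

end Cfsg.Agent.S2415
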