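import Cfsg.Statements.S2416
import Mathlib
import Cfsg.Agent.H12.Gen2

set_option autoImplicit false
open scoped MatrixGroups
open Cfsg

namespace Cfsg.Agent.S2416

open Cfsg.Agent.H12

/-- A Chevalley group of type G₂, B₂, D₄, F₄, E₆, E₇ or E₈ over a finite field lies in (indeed equals) the subgroup generated by its monomial subgroup `N` and a single fundamental root subgroup `X_p`, where `p` is a short fundamental root if there are two root lengths (any fundamental root otherwise), provided the characteristic is not 2 for types B₂, F₄ and not 3 for type G₂ (and the field has more than two elements for B₂, G₂). -/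
theorem result {K : Type*} [Field K] [Finite K] (D : Cfsg.Lie.ChevalleyDatum) (hD : D ∈ [Cfsg.Lie.chevG2, Cfsg.Lie.chevB2, Cfsg.Lie.chevD4, Cfsg.Lie.chevF4, Cfsg.Lie.chevE6, Cfsg.Lie.chevE7, Cfsg.Lie.chevE8])
    (hK : D ∈ [Cfsg.Lie.chevB2, Cfsg.Lie.chevG2] → ∃ x : K, x ≠ 0 ∧ x ≠ 1)
    (h2 : D ∈ [Cfsg.Lie.chevB2, Cfsg.Lie.chevF4] → ringChar K ≠ 2) (h3 : D = Cfsg.Lie.chevG2 → ringChar K ≠ 3)
    (i : ℕ) (hi : i < D.rank) (hshort : D.isLong (D.simple i) = false) :
    D.group K ≤ D.monomialSubgroup K ⊔ D.rootSubgroup K (D.simple i) := by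
  have hc : ∀ n : ℕ, n.Prime → ringChar K ≠ n → (n : K) ≠ 0 := fun n hn h e =>
    h (((ringChar.spec K n).1 e |> (Nat.dvd_prime hn).1).resolve_left CharP.ringChar_ne_one)
  simp only [List.mem_cons, List.not_mem_nil, or_false] at hD
  rcases hD with rfl | rfl | rfl | rfl | rfl | rfl | rfl
  · rw [isLong_of_chk bondChk_G2 hi] at hshort
    obtain rfl : i = 0 := by
      change i < 2 at hi
      interval_cases i <;> simp_all
    exact gen_N_G2 (hc 3 Nat.prime_three (h3 rfl))
  · rw [isLong_of_chk bondChk_B2 hi] at hshort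
    obtain rfl : i = 0 := by
      change i < 2 at hi
      interval_cases i <;> simp_all
    exact gen_N_B2 (hc 2 Nat.prime_two (h2 (by simp)))
  · exact group_le_of_sl cartD4_eq (by decide +kernel) hi
  · rw [isLong_of_chk bondChk_F4 hi] at hshort
    obtain rfl | rfl : i = 0 ∨ i = 1 := by
      change i < 4 at hi
      interval_cases i <;> simp_all
    exacts [gen_N_F4_0 (hc 2 Nat.prime_two (h2 (by simp))),
      gen_N_F4_1 (hc 2 Nat.prime_two (h2 (by simp)))]
  · exact group_le_of_sl cartE6_eq (by decide +kernel) hi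
  · exact group_le_of_sl cartE7_eq (by decide +kernel) hi
  · exact group_le_of_sl cartE8_eq (by decide +kernel) hi

end Cfsg.Agent.S2416
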