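import Cfsg.Statements.S2418
import Mathlib
import Cfsg.Agent.H12.Gen2

set_option autoImplicit false
open Cfsg

namespace Cfsg.Agent.S2418

open Cfsg.Agent.H12

/-- For the Coxeter groups of types B₂, G₂, D₄, F₄, E₇, E₈ the centre has order 2 (the element acting as −1 on the root system) and is generated by a power of the Coxeter element `s₁ s₂ ⋯ s_l`; the Coxeter group of type E₆ has trivial centre. -/
theorem result (c : (Σ n : ℕ, CoxeterMatrix (Fin n)) × ℕ)
    (hc : c ∈ [(⟨2, CoxeterMatrix.B 2⟩, 2), (⟨2, CoxeterMatrix.G₂⟩, 2), (⟨4, Cfsg.Lie.coxeterD4⟩, 2), (⟨4, CoxeterMatrix.F₄⟩, 2),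
      (⟨6, CoxeterMatrix.E₆⟩, 1), (⟨7, CoxeterMatrix.E₇⟩, 2), (⟨8, CoxeterMatrix.E₈⟩, 2)]) :
    Nat.card (Subgroup.center c.1.2.Group) = c.2 ∧
      Subgroup.center c.1.2.Group ≤ Subgroup.zpowers ((List.finRange c.1.1).map c.1.2.simple).prod := by
  simp only [List.mem_cons, List.not_mem_nil, or_false] at hc
  rcases hc with rfl | rfl | rfl | rfl | rfl | rfl | rfl
  · exact cox_center_two (l := 2) cartB2_eq rsOf_irred coxeter_B2 2 (by decide +kernel)
      (by decide +kernel) (by decide +kernel)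
  · exact cox_center_two (l := 2) cartG2_eq rsOf_irred coxeter_G2 3 (by decide +kernel)
      (by decide +kernel) (by decide +kernel)
  · exact cox_center_two (l := 4) cartD4_eq rsOf_irred coxeter_D4 3 (by decide +kernel)
      (by decide +kernel) (by decide +kernel)
  · exact cox_center_two (l := 4) cartF4_eq rsOf_irred coxeter_F4 6 (by decide +kernel)
      (by decide +kernel) (by decide +kernel)
  · exact cox_center_one (l := 6) cartE6_eq rsOf_irred coxeter_E6
      [0, 2, 3, 4, 5, 1, 3, 4, 2, 3, 0, 2, 1, 3, 4, 5, 1, 3, 4, 2, 3, 0, 2, 1, 3, 4, 2, 3, 0, 2, 1, 3, 0, 2, 1, 0] 0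
      (by decide +kernel) (by decide +kernel) _
  · exact cox_center_two (l := 7) cartE7_eq rsOf_irred coxeter_E7 9 (by decide +kernel)
      (by decide +kernel) (by decide +kernel)
  · exact cox_center_two (l := 8) cartE8_eq rsOf_irred coxeter_E8 15 (by decide +kernel)
      (by decide +kernel) (by decide +kernel)

end Cfsg.Agent.S2418
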