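import Mathlib
import Cfsg.Agent.H28.Par3
-- Template for statement S2422 (row 2422; see /opt/grader/pristine/manifest.json for weights).
-- Copy to Cfsg/Agent/S2422.lean and replace the sorry. The statement below is byte-identical to the frozen
-- statement Cfsg.CfsgFrozen.S2422 (Cfsg/Statements/S2422.lean; the theorem Cfsg.lie4_general_linear_unipotent_characters_distinct);
-- the grader kernel-checks Cfsg.Agent.S2422.result against that frozen type. Keep the theorem IN THIS FILE
-- (a `result` declared elsewhere and merely imported here is not credited); helpers may live anywhere
-- under Cfsg/Agent/.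
import Cfsg.Statements.S2422
-- import your own Cfsg.Agent.* helpers here

set_option autoImplicit false
open scoped MatrixGroups
open Cfsg

namespace Cfsg.Agent.S2422

/-- The irreducible characters of `GL_n(q)` attached to different partitions of `n` (each written with `n` non-decreasing parts, zeros allowed) by the alternating sum of flag permutation characters are different. -/
theorem result {F : Type*} [Field F] [Fintype F] {n : ℕ} (ν ν' : Fin n → ℕ) (hmono : Monotone ν) (hsum : ∑ i, ν i = n)
    (hmono' : Monotone ν') (hsum' : ∑ i, ν' i = n) (h : Cfsg.unipotentCharacterGL n F ν = Cfsg.unipotentCharacterGL n F ν') : ν = ν' := by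
  open Cfsg.Agent.H28.Par in
  · classical
    have e := inner_uni (F := F) hmono hsum hmono' hsum'
    rw [h, inner_uni hmono' hsum' hmono' hsum', if_pos rfl] at e
    by_contra hne
    simp [hne] at e

end Cfsg.Agent.S2422
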