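import Cfsg.Statements.S2426
import Mathlib
import Cfsg.Agent.H19.SL2

set_option autoImplicit false
open Cfsg

namespace Cfsg.Agent.S2426

open Cfsg.Agent.H19

open St in
theorem aux {K : Type*} [Field K] [Finite K] (R : Set (FreeGroup (Bool × K)))
    (h1 : ∀ r ∈ R, FreeGroup.lift (fun p : Bool × K => if p.1 then xx p.2 else yy p.2) r = 1)
    (h2 : Rel (fun t : K => (PresentedGroup.of (true, t) : PresentedGroup R))
      (fun t => PresentedGroup.of (false, t))) :
    ∃ e : PresentedGroup R ≃* Matrix.SpecialLinearGroup (Fin 2) K,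
      (∀ t, e (PresentedGroup.of (true, t)) = xx t) ∧ ∀ t, e (PresentedGroup.of (false, t)) = yy t := by
  obtain ⟨φ, a, b⟩ := exists_hom_of_finite h2
  let ψ := PresentedGroup.toGroup h1
  have p1 : ∀ t, ψ (PresentedGroup.of (true, t)) = xx t := fun t => PresentedGroup.toGroup.of h1
  have p2 : ∀ t, ψ (PresentedGroup.of (false, t)) = yy t := fun t => PresentedGroup.toGroup.of h1
  refine ⟨MonoidHom.toMulEquiv ψ φ (PresentedGroup.ext ?_) (MonoidHom.ext fun g => ?_), p1, p2⟩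
  · rintro ⟨_ | _, t⟩ <;> simp [p1, p2, a, b]
  · induction g using sl_induction with
    | hx t => simp [p1, a]
    | hy t => simp [p2, b]
    | hmul a b h k => rw [map_mul, map_mul, h, k]

/-- The rank-one Steinberg presentation of `SL₂` over a finite field `K`: generators `x(t)`, `y(t)` (`t ∈ K`; the two opposite root subgroups) subject to additivity `x(t)x(u) = x(t+u)`, `y(t)y(u) = y(t+u)` and, with `w(t) = x(t) y(−t⁻¹) x(t)` and `w'(t) = y(t) x(−t⁻¹) y(t)` for `t ≠ 0`, the relations `w(t) x(u) w(t)⁻¹ = y(−t⁻² u)` and `w'(t) y(u) w'(t)⁻¹ = x(−t⁻² u)`, present `SL₂(K)`, with `x(t) ↦ (1 t; 0 1)` and `y(t) ↦ (1 0; t 1)`. -/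
theorem result {K : Type*} [Field K] [Finite K] :
    ∃ e : PresentedGroup
        ({g : FreeGroup (Bool × K) | ∃ (b : Bool) (t u : K), g = FreeGroup.of (b, t) * FreeGroup.of (b, u) * (FreeGroup.of (b, t + u))⁻¹} ∪
          {g | ∃ (b : Bool) (t u : K), t ≠ 0 ∧
            g = (FreeGroup.of (b, t) * FreeGroup.of (!b, -t⁻¹) * FreeGroup.of (b, t)) * FreeGroup.of (b, u) *
                  (FreeGroup.of (b, t) * FreeGroup.of (!b, -t⁻¹) * FreeGroup.of (b, t))⁻¹ * (FreeGroup.of (!b, -(t⁻¹ ^ 2 * u)))⁻¹})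
        ≃* Matrix.SpecialLinearGroup (Fin 2) K,
      (∀ t : K, ((e (PresentedGroup.of (true, t)) : Matrix (Fin 2) (Fin 2) K)) = !![1, t; 0, 1]) ∧
      (∀ t : K, ((e (PresentedGroup.of (false, t)) : Matrix (Fin 2) (Fin 2) K)) = !![1, 0; t, 1]) := by
  have rel : ∀ {R : Set (FreeGroup (Bool × K))} {a b : FreeGroup (Bool × K)}, a * b⁻¹ ∈ R →
      PresentedGroup.mk R a = PresentedGroup.mk R b := fun h => by
    have := PresentedGroup.one_of_mem h
    rwa [map_mul, map_inv, mul_inv_eq_one] at this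
  refine (aux (K := K) _ ?_ ?_).imp fun e h => ⟨fun t => by rw [h.1]; rfl, fun t => by rw [h.2]; rfl⟩
  · rintro _ (⟨b, t, u, rfl⟩ | ⟨b, t, u, ht, rfl⟩) <;> rw [map_mul, map_inv, mul_inv_eq_one] <;>
      cases b <;> simp only [map_mul, map_inv, FreeGroup.lift_apply_of, if_true, Bool.false_eq_true,
        if_false, Bool.not_true, Bool.not_false]
    · exact (St.rel_SL.y_add t u).symm
    · exact (St.rel_SL.x_add t u).symm
    · rw [mul_inv_eq_iff_eq_mul]
      have := St.rel_SL.w_y (neg_ne_zero.2 (inv_ne_zero ht)) u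
      rw [St.rel_SL.w_eq (neg_ne_zero.2 (inv_ne_zero ht))] at this
      simpa using this
    · rw [mul_inv_eq_iff_eq_mul, St.rel_SL.conj t ht u]
      congr 2; field_simp
  · refine ⟨fun s t => (rel (Or.inl ⟨true, s, t, rfl⟩)).symm,
      fun s t => (rel (Or.inl ⟨false, s, t, rfl⟩)).symm, fun t ht u => ?_⟩
    rw [show -u / t ^ 2 = -(t⁻¹ ^ 2 * u) by field_simp, ← mul_inv_eq_iff_eq_mul]
    exact rel (Or.inr ⟨true, t, u, ht, rfl⟩)

end Cfsg.Agent.S2426
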