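import Cfsg.Statements.S2427
import Mathlib
import Cfsg.Agent.L0.SL2More
-- import your own Cfsg.Agent.* helpers here

set_option autoImplicit false
open Cfsg

namespace Cfsg.Agent.S2427

open Cfsg.Agent.L0 Cfsg.Agent.H6

/-- The group SL₂ over the field with 3 elements has order 24 and centre of order 2; its commutator subgroup has order 8, is isomorphic to the quaternion group of order 8 and is complemented by every Sylow 3-subgroup (so the group is a semidirect product of a quaternion group of order 8 by a cyclic group of order 3); and its only normal subgroups besides the trivial subgroup and the whole group are the centre and the commutator subgroup. -/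
theorem result :
    Nat.card (Matrix.SpecialLinearGroup (Fin 2) (ZMod 3)) = 24 ∧
    Nat.card (Subgroup.center (Matrix.SpecialLinearGroup (Fin 2) (ZMod 3))) = 2 ∧
    Nat.card (commutator (Matrix.SpecialLinearGroup (Fin 2) (ZMod 3))) = 8 ∧
    Nonempty (commutator (Matrix.SpecialLinearGroup (Fin 2) (ZMod 3)) ≃* QuaternionGroup 2) ∧
    (∀ P : Sylow 3 (Matrix.SpecialLinearGroup (Fin 2) (ZMod 3)),
      Subgroup.IsComplement' (commutator (Matrix.SpecialLinearGroup (Fin 2) (ZMod 3)))
        (P : Subgroup (Matrix.SpecialLinearGroup (Fin 2) (ZMod 3)))) ∧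
    ∀ N : Subgroup (Matrix.SpecialLinearGroup (Fin 2) (ZMod 3)), N.Normal →
      N = ⊥ ∨ N = ⊤ ∨ N = Subgroup.center (Matrix.SpecialLinearGroup (Fin 2) (ZMod 3)) ∨
        N = commutator (Matrix.SpecialLinearGroup (Fin 2) (ZMod 3)) := by
  have hcard : Nat.card (S2 (ZMod 3)) = 24 := by rw [card_s2]; simp
  let i : S2 (ZMod 3) := mkS 0 2 1 0 (by decide)
  let j : S2 (ZMod 3) := mkS 1 1 1 2 (by decide)
  let f : QuaternionGroup 2 →* S2 (ZMod 3) :=
    { toFun := fun x => match x with
        | QuaternionGroup.a n => i ^ n.val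
        | QuaternionGroup.xa n => j * i ^ n.val
      map_one' := rfl
      map_mul' := by decide +kernel }
  have hinj : Function.Injective f := by
    rw [injective_iff_map_eq_one]
    decide +kernel
  have hr : ∀ g : S2 (ZMod 3), g ∈ f.range ↔ g ^ 4 = 1 := by
    intro g
    rw [MonoidHom.mem_range]
    revert g
    decide +kernel
  have hcomm : commutator (S2 (ZMod 3)) = f.range := by
    apply le_antisymm
    · rw [commutator_def, Subgroup.commutator_le]
      intro a _ b _
      rw [hr, commutatorElement_def]
      clear * -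
      revert a b
      decide +kernel
    · intro g hg
      rw [hr] at hg
      have : ∃ a b : S2 (ZMod 3), g = a * b * a⁻¹ * b⁻¹ := by
        revert g
        decide +kernel
      obtain ⟨a, b, rfl⟩ := this
      exact Subgroup.commutator_mem_commutator (Subgroup.mem_top a) (Subgroup.mem_top b)
  have e : commutator (S2 (ZMod 3)) ≃* QuaternionGroup 2 :=
    (MulEquiv.subgroupCongr hcomm).trans (MonoidHom.ofInjective hinj).symm
  have h8 : Nat.card (commutator (S2 (ZMod 3))) = 8 := by
    rw [Nat.card_congr e.toEquiv, Nat.card_eq_fintype_card, QuaternionGroup.card]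
  have hne : (-1 : S2 (ZMod 3)) ≠ 1 := by decide
  refine ⟨hcard, ?_, h8, ⟨e⟩, fun P => ?_, fun N hN => ?_⟩
  · rw [Nat.card_eq_two_iff' (1 : Subgroup.center (S2 (ZMod 3)))]
    refine ⟨⟨-1, mem_center_s2'.2 (Or.inr rfl)⟩, fun h => hne (congrArg Subtype.val h), ?_⟩
    rintro ⟨g, hg⟩ h
    exact Subtype.ext ((mem_center_s2'.1 hg).resolve_left fun h' => h (Subtype.ext h'))
  · have h3 : Nat.card P = 3 := by
      rw [P.card_eq_multiplicity, hcard, show 24 = 3 * 8 from rfl,
        Nat.factorization_mul (by norm_num) (by norm_num)]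
      simp [Nat.Prime.factorization Nat.prime_three, Nat.factorization_eq_zero_of_not_dvd]
    apply Subgroup.isComplement'_of_coprime
    · rw [h8, h3, hcard]
    · rw [h8, h3]; norm_num
  · by_cases h1 : ∃ g ∈ N, g ^ 4 ≠ 1
    · obtain ⟨g, hg, h⟩ := h1
      refine Or.inr (Or.inl ?_)
      rw [Subgroup.eq_top_iff']
      intro x
      have : ∃ a b : S2 (ZMod 3), x = a * g * a⁻¹ * (b * g * b⁻¹) ∨
          x = a * g * a⁻¹ * (b * g⁻¹ * b⁻¹) ∨ x = a * g⁻¹ * a⁻¹ * (b * g⁻¹ * b⁻¹) ∨
          x = g * (a * g * a⁻¹) * (b * g * b⁻¹) := by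
        clear hg
        revert g x
        decide +kernel
      have h1 := fun a => hN.conj_mem g hg a
      have h2 := fun a => hN.conj_mem g⁻¹ (N.inv_mem hg) a
      obtain ⟨a, b, rfl | rfl | rfl | rfl⟩ := this
      · exact N.mul_mem (h1 a) (h1 b)
      · exact N.mul_mem (h1 a) (h2 b)
      · exact N.mul_mem (h2 a) (h2 b)
      · exact N.mul_mem (N.mul_mem hg (h1 a)) (h1 b)
    · push Not at h1
      by_cases h2 : ∃ g ∈ N, g ≠ 1 ∧ g ≠ -1
      · obtain ⟨g, hg, h, h'⟩ := h2
        refine Or.inr (Or.inr (Or.inr (le_antisymm (fun x hx => ?_) (fun x hx => ?_))))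
        · rw [hcomm, hr]; exact h1 x hx
        · rw [hcomm, hr] at hx
          have h4 := h1 g hg
          have : ∃ a b : S2 (ZMod 3), x = a * g * a⁻¹ * (b * g * b⁻¹) := by
            clear hg
            revert g x
            decide +kernel
          obtain ⟨a, b, rfl⟩ := this
          exact N.mul_mem (hN.conj_mem g hg a) (hN.conj_mem g hg b)
      · push Not at h2
        by_cases h3 : (-1 : S2 (ZMod 3)) ∈ N
        · refine Or.inr (Or.inr (Or.inl (le_antisymm (fun x hx => ?_) (fun x hx => ?_))))
          · rw [mem_center_s2']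
            exact or_iff_not_imp_left.2 (h2 x hx)
          · rcases mem_center_s2'.1 hx with rfl | rfl
            · exact N.one_mem
            · exact h3
        · refine Or.inl ((Subgroup.eq_bot_iff_forall N).2 fun x hx => ?_)
          by_contra h
          exact h3 (h2 x hx h ▸ hx)

end Cfsg.Agent.S2427
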