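import Cfsg.Statements.S2428
import Mathlib
import Cfsg.Agent.L0.SL2More
-- import your own Cfsg.Agent.* helpers here

set_option autoImplicit false
open Cfsg

namespace Cfsg.Agent.S2428

open Cfsg.Agent.L0 Cfsg.Agent.H6

/-- Let F be a finite field with q elements, q odd, and let d be a diagonal element of SL₂ over F whose diagonal entry a has a² ≠ 1 (such d exist exactly when q > 3). Then the centraliser of d is precisely the diagonal subgroup T; the normaliser of T has order 2(q − 1) and exactly (q + 5)/2 conjugacy classes; and every element of that normaliser outside T has square equal to −1. -/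
theorem result {F : Type*} [Field F] [Fintype F] (hodd : Odd (Fintype.card F))
    (d : Matrix.SpecialLinearGroup (Fin 2) F) (hd01 : (d : Matrix (Fin 2) (Fin 2) F) 0 1 = 0) (hd10 : (d : Matrix (Fin 2) (Fin 2) F) 1 0 = 0) (hda : (d : Matrix (Fin 2) (Fin 2) F) 0 0 ^ 2 ≠ 1) :
    (∀ g : Matrix.SpecialLinearGroup (Fin 2) F, g ∈ Subgroup.centralizer ({d} : Set (Matrix.SpecialLinearGroup (Fin 2) F)) ↔ ((g : Matrix (Fin 2) (Fin 2) F) 0 1 = 0 ∧ (g : Matrix (Fin 2) (Fin 2) F) 1 0 = 0)) ∧
    Nat.card (Subgroup.normalizer ((Subgroup.centralizer ({d} : Set (Matrix.SpecialLinearGroup (Fin 2) F))) : Set (Matrix.SpecialLinearGroup (Fin 2) F))) = 2 * (Fintype.card F - 1) ∧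
    Nat.card (ConjClasses (Subgroup.normalizer ((Subgroup.centralizer ({d} : Set (Matrix.SpecialLinearGroup (Fin 2) F))) : Set (Matrix.SpecialLinearGroup (Fin 2) F)))) = (Fintype.card F + 5) / 2 ∧
    ∀ g : Matrix.SpecialLinearGroup (Fin 2) F, g ∈ Subgroup.normalizer ((Subgroup.centralizer ({d} : Set (Matrix.SpecialLinearGroup (Fin 2) F))) : Set (Matrix.SpecialLinearGroup (Fin 2) F)) →
      g ∉ Subgroup.centralizer ({d} : Set (Matrix.SpecialLinearGroup (Fin 2) F)) → ((g * g) : Matrix (Fin 2) (Fin 2) F) = -1 := by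
  have h2 := two_ne_zero_of_odd hodd
  obtain ⟨a, ha, rfl⟩ := eq_ds hd01 hd10
  have ha2 : (a : F) ^ 2 ≠ 1 := by rwa [ha]
  have hne := ne_inv_of_sq F ha2
  have hne' : (a : F) ≠ (a⁻¹ : Fˣ) := fun h => hne (Units.ext h)
  have hd : ((ds a : S2 F) : M2 F).trace ^ 2 ≠ 4 := by
    intro h
    rw [Matrix.trace_fin_two] at h
    simp only [ds_val, Matrix.of_apply, Matrix.cons_val', Matrix.cons_val_zero, Matrix.cons_val_one,
      Matrix.cons_val_fin_one] at h
    have h1 : (a : F) * (a⁻¹ : Fˣ) = 1 := Units.mul_inv a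
    apply hne'
    have : ((a : F) - (a⁻¹ : Fˣ)) ^ 2 = 0 := by linear_combination h - 4 * h1
    exact sub_eq_zero.1 (pow_eq_zero_iff two_ne_zero |>.1 this)
  have hc := card_centralizer_s2_split (g := ds a) hne (by rw [tG_ds])
  obtain ⟨h3, h4, h5⟩ := torus_normalizer h2 hd (by rw [tG_ds]; exact detFull_dg _ _) rfl
  have hq := two_le_card (F := F)
  refine ⟨fun g => ?_, by rw [h3, hc], (Nat.div_eq_of_eq_mul_right two_pos (by rw [h4, hc]; omega)).symm, fun g hg hg' => ?_⟩
  · constructor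
    · intro hg
      obtain ⟨x, y, hx⟩ := (mem_cent_s2 (not_isScal_of_disc hd)).1 hg
      rw [hx]
      simp
    · rintro ⟨h01, h10⟩
      obtain ⟨b, -, rfl⟩ := eq_ds h01 h10
      rw [Subgroup.mem_centralizer_singleton_iff, ← dsHom_apply, ← dsHom_apply, ← map_mul,
        ← map_mul, mul_comm]
  · exact congrArg (fun y : S2 F => (y : M2 F)) (h5 g hg hg')

end Cfsg.Agent.S2428
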