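import Cfsg.Statements.S2429
import Mathlib
import Cfsg.Agent.L0.SL2More
-- import your own Cfsg.Agent.* helpers here

set_option autoImplicit false
open Cfsg

namespace Cfsg.Agent.S2429

open Cfsg.Agent.L0 Cfsg.Agent.H6

/-- Let F be a finite field with q elements, q odd. Then SL₂ over F contains a cyclic subgroup T′ of order q + 1 (a non-split torus) with the following properties: T′ is its own centraliser, and indeed the centraliser of each element of T′ other than 1 and −1 is exactly T′; every element of SL₂ having no eigenvector in F² is conjugate to an element of T′; the normaliser of T′ has order 2(q + 1) and exactly (q + 7)/2 conjugacy classes; and every element of that normaliser outside T′ has square −1. -/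
theorem result {F : Type*} [Field F] [Fintype F] (hodd : Odd (Fintype.card F)) :
    ∃ T' : Subgroup (Matrix.SpecialLinearGroup (Fin 2) F), IsCyclic T' ∧ Nat.card T' = Fintype.card F + 1 ∧
      Subgroup.centralizer ((T' : Set (Matrix.SpecialLinearGroup (Fin 2) F))) = T' ∧
      (∀ g : Matrix.SpecialLinearGroup (Fin 2) F, g ∈ T' → (g : Matrix (Fin 2) (Fin 2) F) ≠ 1 → (g : Matrix (Fin 2) (Fin 2) F) ≠ -1 → Subgroup.centralizer ({g} : Set (Matrix.SpecialLinearGroup (Fin 2) F)) = T') ∧
      (∀ g : Matrix.SpecialLinearGroup (Fin 2) F, (∀ (c : F) (v : Fin 2 → F), v ≠ 0 → (g : Matrix (Fin 2) (Fin 2) F).mulVec v ≠ c • v) → ∃ h : Matrix.SpecialLinearGroup (Fin 2) F, h * g * h⁻¹ ∈ T') ∧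
      Nat.card (Subgroup.normalizer (T' : Set (Matrix.SpecialLinearGroup (Fin 2) F))) = 2 * (Fintype.card F + 1) ∧
      Nat.card (ConjClasses (Subgroup.normalizer (T' : Set (Matrix.SpecialLinearGroup (Fin 2) F)))) = (Fintype.card F + 7) / 2 ∧
      ∀ g : Matrix.SpecialLinearGroup (Fin 2) F, g ∈ Subgroup.normalizer (T' : Set (Matrix.SpecialLinearGroup (Fin 2) F)) → g ∉ T' → ((g * g) : Matrix (Fin 2) (Fin 2) F) = -1 := by
  have h2 := two_ne_zero_of_odd hodd
  have hq := two_le_card (F := F)
  obtain ⟨c, hc0⟩ := IsCyclic.exists_generator (α := K1 F (QExt F))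
  have hc : c ^ 2 ≠ 1 := by
    intro h
    have h1 := Nat.le_of_dvd two_pos (orderOf_dvd_of_pow_eq_one h)
    rw [orderOf_eq_card_of_forall_mem_zpowers hc0, card_ker_nrmU] at h1
    omega
  have hd := disc_ne_of_no_root h2 (elS_no_root hc)
  have hs := not_isScal_of_disc hd
  have hT := (cent_elS hc).symm
  obtain ⟨h3, h4, h5⟩ := torus_normalizer h2 hd (by rw [tG_elS]; exact detFull_el _) hT
  rw [card_range_elS] at h3 h4
  refine ⟨(elS F (K := QExt F)).range, ?_, card_range_elS F, ?_, fun g hg h1 h1' => ?_,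
    fun g hg => ?_, h3, (Nat.div_eq_of_eq_mul_right two_pos (by rw [h4])).symm, fun g hg hg' => ?_⟩
  · exact isCyclic_of_surjective _ (elS F (K := QExt F)).rangeRestrict_surjective
  · apply le_antisymm
    · intro x hx
      rw [hT, Subgroup.mem_centralizer_singleton_iff]
      exact (Subgroup.mem_centralizer_iff.1 hx _ ⟨c, rfl⟩).symm
    · intro x hx
      rw [Subgroup.mem_centralizer_iff]
      intro y hy
      exact comm_of_mem_cent hs (hT ▸ hy) (hT ▸ hx)
  · rw [hT]
    refine cent_eq_of_mem hs (fun h => ?_) (hT ▸ hg)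
    rcases isScal_iff_sq.1 h with rfl | rfl
    · exact h1 rfl
    · exact h1' rfl
  · obtain ⟨e, -, He⟩ := exists_isConj_elS (QExt F) (no_root_of_no_eigenvector hg)
    obtain ⟨x, hx⟩ := isConj_iff.1 He.symm
    exact ⟨x, e, hx.symm⟩
  · exact congrArg (fun y : S2 F => (y : M2 F)) (h5 g hg hg')

end Cfsg.Agent.S2429
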