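import Cfsg.Statements.S2434
import Mathlib
import Cfsg.Agent.L0.SL2More
-- import your own Cfsg.Agent.* helpers here

set_option autoImplicit false
open Cfsg

namespace Cfsg.Agent.S2434

open Cfsg.Agent.L0 Cfsg.Agent.H6

/-- Let F be a finite field with q elements, q odd, and C a cyclic subgroup of order q + 1 of SL₂ over F (a non-split torus; it contains the centre). For every homomorphism θ from C to the non-zero complex numbers with θ² ≠ 1 there is an irreducible complex character χ of degree q − 1 such that χ(c) = −θ(c) − θ(c)⁻¹ for every non-central c in C, χ(zg) = θ(z)χ(g) for central z in C, χ vanishes at diagonal elements with entry a, a² ≠ 1, and χ takes the value −1 at every upper unitriangular element other than 1. Conversely every irreducible character of degree q − 1 has, for some such θ, the values −θ(c) − θ(c)⁻¹ at the non-central elements c of C (for q ≥ 5 these are exactly the cuspidal characters of degree q − 1). -/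
theorem result {F : Type*} [Field F] [Fintype F] (hodd : Odd (Fintype.card F))
    (C : Subgroup (Matrix.SpecialLinearGroup (Fin 2) F)) (hC : IsCyclic C) (hcard : Nat.card C = Fintype.card F + 1) :
    (∀ θ : C →* ℂˣ, (∃ c : C, θ c ^ 2 ≠ 1) →
      ∃ χ : Matrix.SpecialLinearGroup (Fin 2) F → ℂ, Cfsg.IsIrrCharacter (Matrix.SpecialLinearGroup (Fin 2) F) χ ∧ χ 1 = (Fintype.card F : ℂ) - 1 ∧
        (∀ c : C, (c : Matrix.SpecialLinearGroup (Fin 2) F) ∉ Subgroup.center (Matrix.SpecialLinearGroup (Fin 2) F) → χ c = -((θ c).val + (θ c)⁻¹.val)) ∧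
        (∀ c : C, (c : Matrix.SpecialLinearGroup (Fin 2) F) ∈ Subgroup.center (Matrix.SpecialLinearGroup (Fin 2) F) → ∀ g : Matrix.SpecialLinearGroup (Fin 2) F, χ ((c : Matrix.SpecialLinearGroup (Fin 2) F) * g) = (θ c).val * χ g) ∧
        (∀ g : Matrix.SpecialLinearGroup (Fin 2) F, (g : Matrix (Fin 2) (Fin 2) F) 0 1 = 0 → (g : Matrix (Fin 2) (Fin 2) F) 1 0 = 0 → (g : Matrix (Fin 2) (Fin 2) F) 0 0 ^ 2 ≠ 1 → χ g = 0) ∧
        (∀ g : Matrix.SpecialLinearGroup (Fin 2) F, (g : Matrix (Fin 2) (Fin 2) F) 1 0 = 0 → (g : Matrix (Fin 2) (Fin 2) F) 0 0 = 1 → (g : Matrix (Fin 2) (Fin 2) F) 1 1 = 1 → (g : Matrix (Fin 2) (Fin 2) F) 0 1 ≠ 0 → χ g = -1)) ∧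
    (∀ χ : Matrix.SpecialLinearGroup (Fin 2) F → ℂ, Cfsg.IsIrrCharacter (Matrix.SpecialLinearGroup (Fin 2) F) χ → χ 1 = (Fintype.card F : ℂ) - 1 →
      ∃ θ : C →* ℂˣ, (∃ c : C, θ c ^ 2 ≠ 1) ∧
        ∀ c : C, (c : Matrix.SpecialLinearGroup (Fin 2) F) ∉ Subgroup.center (Matrix.SpecialLinearGroup (Fin 2) F) → χ c = -((θ c).val + (θ c)⁻¹.val)) := by
  have hq2 := two_le_card (F := F)
  have hq : 3 ≤ Fintype.card F := by obtain ⟨k, hk⟩ := hodd; omega
  obtain ⟨x, e, he⟩ := exists_equiv_of_cyclic (QExt F) hq C hC hcard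
  have hcen : ∀ c, (e c : S2 F) ∈ Subgroup.center (S2 F) ↔ c ^ 2 = 1 := by
    intro c
    rw [← elS_mem_center_iff, he]
    constructor
    · intro h
      have := Subgroup.Normal.conj_mem inferInstance _ h x⁻¹
      simpa [mul_assoc] using this
    · intro h
      exact Subgroup.Normal.conj_mem inferInstance _ h x
  have hval : ∀ (θ : MulChar (QExt F) ℂ) (c : K1 F (QExt F)), c ^ 2 ≠ 1 →
      Ps F θ (e c) = -((resK F θ c : ℂ) + ((resK F θ c)⁻¹).val) := by
    intro θ c hc
    rw [Ps_el F θ (c := c) (fun h => hc (Subtype.ext ((frbU_ne_iff F c.2).1 h)))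
      (by rw [he, ← tG_elS, map_mul, map_mul, map_inv]; exact isConj_iff.2 ⟨_, rfl⟩),
      Units.val_inv_eq_inv_val, resK_apply]
  constructor
  · rintro θ ⟨c0, hc0⟩
    let η : K1 F (QExt F) →* ℂˣ := θ.comp e.toMonoidHom
    have hη : ¬ EqK F (extK F η) (extK F η)⁻¹ := by
      rw [eqK_inv_iff, resK_extK]
      intro h
      apply hc0
      have := DFunLike.congr_fun h (e.symm c0)
      simpa [η] using this
    have hirr := isIrr_Ps F hη
    refine ⟨Ps F (extK F η), hirr, Ps_one F _, fun c hc => ?_, fun c hc g => ?_,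
      fun g h01 h10 h => Ps_diag F _ h01 h10 h, fun g h10 h00 h11 h01 => ?_⟩
    · obtain ⟨c, rfl⟩ := e.surjective c
      rw [hval _ c (fun h => hc ((hcen c).2 h)), resK_extK]
      rfl
    · rw [irr_central_mul hirr hc]
      congr 1
      obtain ⟨c, rfl⟩ := e.surjective c
      have h1 : (θ (e c) : ℂ) = extK F η (c : (QExt F)ˣ) := by
        rw [← resK_apply, resK_extK]; rfl
      rw [h1, Ps_one, div_eq_iff (card_sub_one_ne_zero F)]
      have h3 : (e c : S2 F) = elS F c := by
        rw [he, Subgroup.mem_center_iff.1 ((elS_mem_center_iff c).2 ((hcen c).1 hc)) x,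
          mul_inv_cancel_right]
      rcases sq_eq_one_iff.1 (show ((c : (QExt F)ˣ) : QExt F) ^ 2 = 1 by
        rw [← Units.val_pow_eq_pow_val, ← Subgroup.coe_pow, (hcen c).1 hc]; rfl) with h | h
      · have : c = 1 := Subtype.ext (Units.ext h)
        subst this
        simp [Ps_one]
      · have h4 : (e c : S2 F) = -1 := by
          apply tG_injective
          rw [h3, tG_elS, tG_neg_one, ← el_embU F (K := QExt F)]
          congr 1
          exact Units.ext (by simp [h])
        rw [h4, Ps_neg_one, h, mul_comm]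
    · rw [eq_uu h00 h11 h10]
      exact Ps_uu F _ h01
  · intro χ hχ h1
    have fin : ∀ θ : MulChar (QExt F) ℂ, ¬ EqK F θ θ⁻¹ →
        (∀ c : K1 F (QExt F), c ^ 2 ≠ 1 → χ (e c) = Ps F θ (e c)) →
        ∃ θ : C →* ℂˣ, (∃ c : C, θ c ^ 2 ≠ 1) ∧ ∀ c : C, (c : S2 F) ∉ Subgroup.center (S2 F) →
          χ c = -((θ c).val + (θ c)⁻¹.val) := by
      intro θ hθ h
      refine ⟨(resK F θ).comp e.symm.toMonoidHom, ?_, fun c hc => ?_⟩
      · by_contra! H
        apply hθ
        rw [eqK_inv_iff]
        refine MonoidHom.ext fun c => ?_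
        have := H (e c)
        simpa using this
      · obtain ⟨c, rfl⟩ := e.surjective c
        have hc' : c ^ 2 ≠ 1 := fun h => hc ((hcen c).2 h)
        rw [h c hc', hval θ c hc']
        simp
    rcases irr_s2_cases' (QExt F) hχ (n := Fintype.card F - 1) (by rw [h1, cast_card_sub_one]) with
      h | h | h | ⟨-, θ, hθ, rfl⟩ | ⟨h3, -, α, χ', -, -, hh⟩ | h
    · omega
    · omega
    · omega
    · exact fin θ hθ fun _ _ => rfl
    · have hq3 : Fintype.card F = 3 := by omega
      obtain ⟨η, hη⟩ : ∃ η : K1 F (QExt F) →* ℂˣ, η ^ 2 ≠ 1 := by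
        by_contra! H
        have h5 := card_hom_K1_sq F (K := QExt F)
        rw [Nat.card_congr (Equiv.subtypeUnivEquiv H), card_hom_K1,
          card_sq_eq_one_odd (two_ne_zero_of_odd hodd)] at h5
        omega
      refine fin (extK F η) (by rwa [eqK_inv_iff, resK_extK]) fun c hc => ?_
      have hr : ∀ r : F, r ^ 2 - ((e c : S2 F) : M2 F).trace * r + ((e c : S2 F) : M2 F).det ≠ 0 := by
        intro r
        have := elS_no_root hc r
        rw [(elS F c).2] at this
        rwa [he, trace_conj_s2, (x * elS F c * x⁻¹).2]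
      have h0 : χ (e c) = 0 := by
        have := hh.two_mul (g := e c) (detFull_of_no_root hr)
        rw [Rs_ell α hr] at this
        simpa using this
      rw [h0, hval _ c hc, resK_extK]
      have hcard4 : Nat.card (K1 F (QExt F)) = 4 := by rw [card_ker_nrmU, hq3]
      have hc4 : c ^ 4 = 1 := by rw [← hcard4]; exact pow_card_eq_one'
      have ho : orderOf c = 4 := orderOf_eq_prime_pow (p := 2) (n := 1) hc hc4
      have htop : Subgroup.zpowers c = ⊤ := by
        rw [← Subgroup.card_eq_iff_eq_top, Nat.card_zpowers, ho, hcard4]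
      have h6 : η c ^ 2 ≠ 1 := by
        intro H
        apply hη
        refine MonoidHom.ext fun k => ?_
        obtain ⟨n, rfl⟩ : k ∈ Subgroup.zpowers c := htop ▸ Subgroup.mem_top k
        change η (c ^ n) ^ 2 = 1
        rw [← map_pow, ← zpow_natCast, ← zpow_mul, mul_comm, zpow_mul, zpow_natCast, map_zpow,
          map_pow, H, one_zpow]
      have h7 : ((η c : ℂ) ^ 2) ^ 2 = 1 := by
        rw [← pow_mul, ← Units.val_pow_eq_pow_val, ← map_pow, hc4, map_one, Units.val_one]
      have h8 : (η c : ℂ) ^ 2 = -1 := (sq_eq_one_iff.1 h7).resolve_left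
        (fun h => h6 (Units.ext (by simpa using h)))
      rw [Units.val_inv_eq_inv_val]
      have := (η c).ne_zero
      field_simp
      linear_combination h8
    · omega

end Cfsg.Agent.S2434
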