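import Cfsg.Statements.S2435
import Mathlib
import Cfsg.Agent.L0.SL2Count
-- import your own Cfsg.Agent.* helpers here

set_option autoImplicit false
open Cfsg

namespace Cfsg.Agent.S2435

open Cfsg.Agent.L0 Cfsg.Agent.H6

/-- Let F be a finite field with q elements, q odd and q ≥ 5, and χ an irreducible complex character of SL₂ over F. If χ has degree (q + 1)/2, then at a diagonal element with entry a, a² ≠ 1, χ takes the value 1 when a is a square in F and −1 otherwise. If χ has degree (q − 1)/2, then at an element g with no eigenvector in F² (so g has order dividing q + 1), χ takes the value −1 when g raised to the power (q + 1)/2 is the identity and the value 1 otherwise. -/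
theorem result {F : Type*} [Field F] [Fintype F] (hodd : Odd (Fintype.card F)) (hq : 5 ≤ Fintype.card F)
    (χ : Matrix.SpecialLinearGroup (Fin 2) F → ℂ) (hχ : Cfsg.IsIrrCharacter (Matrix.SpecialLinearGroup (Fin 2) F) χ) (g : Matrix.SpecialLinearGroup (Fin 2) F) :
    (χ 1 = (((Fintype.card F + 1) / 2 : ℕ) : ℂ) → (g : Matrix (Fin 2) (Fin 2) F) 0 1 = 0 → (g : Matrix (Fin 2) (Fin 2) F) 1 0 = 0 → (g : Matrix (Fin 2) (Fin 2) F) 0 0 ^ 2 ≠ 1 →
      (IsSquare ((g : Matrix (Fin 2) (Fin 2) F) 0 0) → χ g = 1) ∧ (¬ IsSquare ((g : Matrix (Fin 2) (Fin 2) F) 0 0) → χ g = -1)) ∧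
    (χ 1 = (((Fintype.card F - 1) / 2 : ℕ) : ℂ) → (∀ (c : F) (v : Fin 2 → F), v ≠ 0 → (g : Matrix (Fin 2) (Fin 2) F).mulVec v ≠ c • v) →
      (((g ^ ((Fintype.card F + 1) / 2)) : Matrix (Fin 2) (Fin 2) F) = 1 → χ g = -1) ∧ (((g ^ ((Fintype.card F + 1) / 2)) : Matrix (Fin 2) (Fin 2) F) ≠ 1 → χ g = 1)) := by
  constructor
  · intro hdeg h01 h10 h
    obtain ⟨α, χ', a2, a1, H⟩ := irr_s2_deg_half_add (by omega) hχ hdeg
    have h2 := H.two_mul (detFull_diag h01 h10)
    rw [Rs_diag α h01 h10 h] at h2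
    obtain ⟨a, ha, rfl⟩ := eq_ds h01 h10
    have h3 : ((ds a : S2 F) : M2 F) 1 1 = (a⁻¹ : Fˣ) := by simp
    rw [h3, ← ha, mc_apply_inv] at h2
    rw [← ha, isSquare_units_iff]
    refine ⟨fun hs => ?_, fun hs => ?_⟩
    · rw [(quad_apply a2 a1 a).1 hs] at h2
      linear_combination h2 / 2
    · rw [(quad_apply a2 a1 a).2 hs] at h2
      linear_combination h2 / 2
  · intro hdeg h
    have hr := no_root_of_no_eigenvector h
    obtain ⟨θ, χ', a2, a1, H⟩ := irr_s2_deg_half_sub (QExt F) hq hχ hdeg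
    obtain ⟨c, hc, Hc⟩ := exists_isConj_el (QExt F) (g := tG g) hr
    have hn : nrmU F c = 1 := Units.ext (by rw [← det_el_eq, det_eq_of_isConj Hc]; exact g.2)
    have h2 := H.two_mul (detFull_of_no_root (g := tG g) hr)
    rw [Ps_el F θ hc Hc] at h2
    rw [eqK_inv_iff] at a2
    rw [eqK_one_iff] at a1
    have h3 := quad_K1_apply F hodd a2 a1 ⟨c, hn⟩
    rw [resK_apply] at h3
    have h4 : (g : M2 F) ^ ((Fintype.card F + 1) / 2) = 1 ↔
        (⟨c, hn⟩ : K1 F (QExt F)) ^ ((Fintype.card F + 1) / 2) = 1 := by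
      have h5 := Hc.pow ((Fintype.card F + 1) / 2)
      rw [Subtype.ext_iff, SubgroupClass.coe_pow, OneMemClass.coe_one,
        ← (el_injective F).eq_iff, map_pow, map_one, ← tG_val, ← Units.val_pow_eq_pow_val,
        Units.val_eq_one]
      constructor
      · intro h6
        rwa [h6, isConj_one_left] at h5
      · intro h6
        rwa [h6, isConj_one_right] at h5
    rw [Ne, h4]
    refine ⟨fun hs => ?_, fun hs => ?_⟩
    · rw [h3.1 hs] at h2
      linear_combination h2 / 2
    · rw [h3.2 hs] at h2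
      linear_combination h2 / 2

end Cfsg.Agent.S2435
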