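import Cfsg.Statements.S2436
import Mathlib
import Cfsg.Agent.H27.Mk3
import Cfsg.Agent.S2299
import Cfsg.Agent.H6.Frobenius

set_option autoImplicit false
open Cfsg

namespace Cfsg.Agent.S2436

open Cfsg.Agent Subgroup H27.Mk L0

/-- Let F be a finite field with q elements, q odd, ℓ any prime and S a Sylow ℓ-subgroup of SL₂ over F with normaliser N. Then SL₂ and N have the same number of irreducible complex characters of degree not divisible by ℓ (the McKay equality holds for SL₂ over F at every prime). -/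
theorem result {F : Type*} [Field F] [Fintype F] (hodd : Odd (Fintype.card F)) (ℓ : ℕ) [Fact ℓ.Prime] (S : Sylow ℓ (Matrix.SpecialLinearGroup (Fin 2) F)) :
    Nat.card {χ : Cfsg.IrrCharacter (Matrix.SpecialLinearGroup (Fin 2) F) // ¬ ℓ ∣ Cfsg.charDegree (χ : Matrix.SpecialLinearGroup (Fin 2) F → ℂ)} =
      Nat.card {ψ : Cfsg.IrrCharacter (Subgroup.normalizer ((S : Subgroup (Matrix.SpecialLinearGroup (Fin 2) F)) : Set (Matrix.SpecialLinearGroup (Fin 2) F))) //
        ¬ ℓ ∣ Cfsg.charDegree (ψ : Subgroup.normalizer ((S : Subgroup (Matrix.SpecialLinearGroup (Fin 2) F)) : Set (Matrix.SpecialLinearGroup (Fin 2) F)) → ℂ)} := by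
  have h2 := two_ne_zero_of_odd hodd
  have hl : ℓ.Prime := Fact.out
  obtain ⟨m, hm⟩ := id hodd
  have q2 := two_le_card (F := F)
  by_cases h3 : m = 1
  · exact H7.m9_mckay (H1.isPSolvable_of_isSolvable hl (H6.isSolvable_of_card_dvd (a := 3) (b := 1) Nat.prime_two
      Nat.prime_three (by rw [card_s2, hm, h3]; norm_num))) S
  by_cases hS : (S : Subgroup (S2 F)) = ⊥
  · exact cnt_congr (topEquiv.symm.trans (MulEquiv.subgroupCongr (by rw [hS, normalizer_eq_top])))
  obtain ⟨h4, h5⟩ := S2299.result hodd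
  obtain ⟨c1, c2, c3, c4, c5, c6⟩ := h5 (by omega)
  have e1 : (Fintype.card F + 1) / 2 = m + 1 := by omega
  have e2 : (Fintype.card F - 1) / 2 = m := by omega
  have e3 : (Fintype.card F - 3) / 2 = m - 1 := by omega
  have e4 : (Fintype.card F : ℂ) + 1 = (2 * m + 2 : ℕ) := by rw [hm]; push_cast; ring
  have e5 : (Fintype.card F : ℂ) - 1 = (2 * m : ℕ) := by rw [hm]; push_cast; ring
  have e6 : (Fintype.card F : ℂ) = (2 * m + 1 : ℕ) := by rw [hm]
  simp only [e1, e2, e3, e4, e5] at h4 c3 c4 c5 c6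
  simp only [e6] at h4 c2
  have h := cnt_sum (G := S2 F) (p := ℓ) {1, 2 * m + 1, 2 * m + 2, 2 * m, m + 1, m} fun χ => by
    simp only [Finset.mem_insert, Finset.mem_singleton]
    rcases h4 χ χ.2 with h | h | h | h | h | h
    · exact .inl (H7.charDegree_eq (by simpa using h))
    all_goals simp [H7.charDegree_eq h]
  rw [Finset.sum_insert (by simp; omega), Finset.sum_insert (by simp; omega), Finset.sum_insert (by simp; omega),
    Finset.sum_insert (by simp; omega), Finset.sum_insert (by simp), Finset.sum_singleton, c2, c3, c4, c5, c6,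
    Nat.cast_one, c1, if_neg hl.not_dvd_one] at h
  refine h.trans ?_
  have k : ∀ a, ℓ ∣ a → ¬ ℓ ∣ a + 1 := fun a h1 h2 => hl.not_dvd_one ((Nat.dvd_add_right h1).1 h2)
  by_cases l2 : ℓ = 2
  · subst l2
    refine Eq.trans ?_ (cnt_two h2 S).symm
    split_ifs <;> omega
  have k2 : ∀ a, ℓ ∣ 2 * a ↔ ℓ ∣ a := fun a =>
    ((Nat.coprime_primes hl Nat.prime_two).2 l2).dvd_mul_left
  have k3 : ℓ ∣ 2 * m + 2 ↔ ℓ ∣ m + 1 := k2 (m + 1)
  have k4 := k m
  have k5 := k (2 * m)
  have k6 := k (2 * m + 1)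
  by_cases l0 : (ℓ : F) = 0
  · haveI := (CharP.charP_iff_prime_eq_zero hl).2 l0
    have : ℓ ∣ 2 * m + 1 := hm ▸ (prime_dvd_char_iff_dvd_card ℓ).1 (by rw [ringChar.eq F ℓ])
    refine Eq.trans ?_ (cnt_char h2 S).symm
    rw [if_pos this, if_neg (k6 this), if_neg (k5 · this), if_neg fun h => k5 ((k2 m).2 h) this, if_neg (k3.not.1 (k6 this))]
    omega
  obtain ⟨c, c7, c8, c9⟩ := cnt_odd h2 l2 l0 S hS
  refine Nat.eq_of_mul_eq_mul_left two_pos (Eq.trans ?_ c9.symm)
  rcases c7 with rfl | rfl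
  · rw [hm, Nat.add_sub_cancel] at c8 ⊢
    rw [if_neg (k5 c8), if_pos c8, if_pos ((k2 m).1 c8), if_neg (k3.not.2 (k4 ((k2 m).1 c8))), if_neg (k4 ((k2 m).1 c8))]
    omega
  · rw [hm] at c8 ⊢
    have := k3.1 c8
    rw [if_neg (k6 · c8), if_pos c8, if_pos this, if_neg (k4 · this), if_neg fun h => k4 ((k2 m).1 h) this]
    omega

end Cfsg.Agent.S2436
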