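import Cfsg.Statements.S2437
import Mathlib
import Cfsg.Agent.L0.SL2More
-- import your own Cfsg.Agent.* helpers here

set_option autoImplicit false
open Cfsg

namespace Cfsg.Agent.S2437

open Cfsg.Agent.L0 Cfsg.Agent.H6

/-- Over a finite field F with q elements, q odd, the upper triangular subgroup of SL₂ (a Borel subgroup, of order q(q − 1)) has exactly q + 3 conjugacy classes. -/
theorem result {F : Type*} [Field F] [Fintype F] (hodd : Odd (Fintype.card F)) :
    Nat.card (ConjClasses ((Cfsg.upperTriangularGL 2 F).comap Matrix.SpecialLinearGroup.toGL)) = Fintype.card F + 3 := by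
  classical
  have h2 := two_ne_zero_of_odd hodd
  have hq := two_le_card (F := F)
  set B := (Cfsg.upperTriangularGL 2 F).comap Matrix.SpecialLinearGroup.toGL with hB
  have hmem : ∀ g : S2 F, g ∈ B ↔ (g : M2 F) 1 0 = 0 := fun g => mem_borel_s2 g
  have := Fintype.ofFinite B
  let e : Fˣ × F ≃ B :=
    { toFun := fun p => ⟨mkS p.1 p.2 0 (p.1⁻¹ : Fˣ) (by simp), (hmem _).2 (by simp)⟩
      invFun := fun g => (Units.mk0 (((g : S2 F) : M2 F) 0 0) (by
        intro h
        have := s2_det (g : S2 F)
        rw [h, (hmem _).1 g.2] at this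
        simp at this), ((g : S2 F) : M2 F) 0 1)
      left_inv := fun p => by simp
      right_inv := fun g => by
        have h := s2_det (g : S2 F)
        have h10 := (hmem _).1 g.2
        rw [h10, mul_zero, sub_zero] at h
        refine Subtype.ext (Subtype.ext (m2_ext (by simp) (by simp) (by simp [h10]) ?_))
        simp [eq_inv_of_mul_eq_one_right h] }
  have hcard : Nat.card B = (Fintype.card F - 1) * Fintype.card F := by
    rw [← Nat.card_congr e, Nat.card_prod, card_units_eq, Nat.card_eq_fintype_card]
  have hle : ∀ g : B, ¬ IsScal ((g : S2 F) : M2 F) →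
      Subgroup.centralizer ({(g : S2 F)} : Set (S2 F)) ≤ B := by
    intro g hg x hx
    obtain ⟨a, b, h⟩ := (mem_cent_s2 hg).1 hx
    rw [hmem, h]
    simp [(hmem _).1 g.2]
  have hf : ∀ p : Fˣ × F, (Nat.card (Subgroup.centralizer ({e p} : Set B)) : ℂ) =
      ((Fintype.card F : ℂ) - 1) + dl (p.1 * p.1 = 1) * ((Fintype.card F + 1) +
        dl (p.2 = 0) * (((Fintype.card F : ℂ) - 1) * Fintype.card F - 2 * Fintype.card F)) := by
    rintro ⟨a, b⟩
    by_cases ha : a * a = 1
    · have ha' : (a : F) = (a⁻¹ : Fˣ) := congrArg Units.val (eq_inv_of_mul_eq_one_left ha)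
      by_cases hb : b = 0
      · have hc : (e (a, b) : S2 F) ∈ Subgroup.center (S2 F) :=
          mem_center_s2.2 ⟨by simp [e, hb], by simp [e], by simpa [e] using ha'⟩
        have : Subgroup.centralizer ({e (a, b)} : Set B) = ⊤ := by
          rw [Subgroup.eq_top_iff']
          intro x
          exact Subgroup.mem_centralizer_singleton_iff.2
            (Subtype.ext (Subgroup.mem_center_iff.1 hc x))
        rw [this, Subgroup.card_top, hcard, Nat.cast_mul, cast_card_sub_one]
        simp only [dl, ha, hb, if_true]
        ring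
      · rw [card_centralizer_subgroup B _ (hle _ (fun h => hb (by simpa [e] using h.1))),
          card_centralizer_jordan (by simp [e]) (by simpa [e] using ha') (by simpa [e] using hb),
          card_sq_eq_one_odd h2]
        simp only [dl, ha, hb, if_true, if_false]
        push_cast
        ring
    · have hne : a ≠ a⁻¹ := fun h => ha (by nth_rewrite 2 [h]; exact mul_inv_cancel a)
      have hne' : (a : F) ≠ (a⁻¹ : Fˣ) := fun h => hne (Units.ext h)
      rw [card_centralizer_subgroup B _ (hle _ (fun h => hne' (by simpa [e] using h.2.2))),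
        card_centralizer_s2_split hne (isConj_dg hne (by simp [e, tG_val, Matrix.trace_fin_two])
          (by rw [tG_val, (e (a, b) : S2 F).2]; simp)), cast_card_sub_one]
      simp only [dl, ha, if_false]
      ring
  have hs := congrArg (Nat.cast : ℕ → ℂ) (sum_card_centralizer B)
  rw [Nat.cast_sum, ← e.sum_comp, Finset.sum_congr rfl (fun p _ => hf p), Fintype.sum_prod_type,
    hcard] at hs
  have hb0 : ∑ b : F, dl (b = 0) = 1 := by simp [dl]
  simp only [Finset.sum_add_distrib, ← Finset.mul_sum, ← Finset.sum_mul, hb0, sum_dl_sq,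
    card_sq_eq_one_odd h2, Finset.sum_const, Finset.card_univ, nsmul_eq_mul, Nat.cast_mul,
    cast_card_sub_one] at hs
  rw [← Nat.card_eq_fintype_card (α := Fˣ), card_units_eq, cast_card_sub_one] at hs
  have : (Nat.card (ConjClasses B) : ℂ) = Fintype.card F + 3 :=
    mul_left_cancel₀ (mul_ne_zero (card_sub_one_ne_zero F) (card_complex_ne_zero F))
      (by push_cast at hs; linear_combination -hs)
  exact_mod_cast this

end Cfsg.Agent.S2437
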