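import Cfsg.Statements.S2439
import Mathlib
import Cfsg.Agent.H7.LieB2

set_option autoImplicit false
open Cfsg

namespace Cfsg.Agent.S2439

/-- Let F be a finite field with q elements of odd characteristic p, and M a maximal ideal of the algebraic integers containing p. Then SL₂ over F has exactly three p-blocks relative to M: the irreducible character of degree q (the Steinberg character) alone; the other irreducible characters taking the same value at −1 as at 1 (the principal block); and the irreducible characters χ with χ(−1) = −χ(1). Every Sylow p-subgroup is a defect group of each of the last two blocks. -/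
theorem result {F : Type*} [Field F] [Fintype F] (p : ℕ) [Fact p.Prime] [CharP F p] (hp : p ≠ 2)
    (M : Ideal Cfsg.AlgInt) (hM : Cfsg.IsPModular p M) :
    (∀ B : Set (Cfsg.IrrCharacter (Matrix.SpecialLinearGroup (Fin 2) F)), Cfsg.IsPBlock M B ↔
      (B = {χ : Cfsg.IrrCharacter (Matrix.SpecialLinearGroup (Fin 2) F) | (χ : Matrix.SpecialLinearGroup (Fin 2) F → ℂ) 1 = (Fintype.card F : ℂ)} ∨
       B = {χ : Cfsg.IrrCharacter (Matrix.SpecialLinearGroup (Fin 2) F) | (χ : Matrix.SpecialLinearGroup (Fin 2) F → ℂ) (-1) = (χ : Matrix.SpecialLinearGroup (Fin 2) F → ℂ) 1 ∧ (χ : Matrix.SpecialLinearGroup (Fin 2) F → ℂ) 1 ≠ (Fintype.card F : ℂ)} ∨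
       B = {χ : Cfsg.IrrCharacter (Matrix.SpecialLinearGroup (Fin 2) F) | (χ : Matrix.SpecialLinearGroup (Fin 2) F → ℂ) (-1) = -(χ : Matrix.SpecialLinearGroup (Fin 2) F → ℂ) 1})) ∧
    Nat.card {B : Set (Cfsg.IrrCharacter (Matrix.SpecialLinearGroup (Fin 2) F)) // Cfsg.IsPBlock M B} = 3 ∧
    ∀ P : Sylow p (Matrix.SpecialLinearGroup (Fin 2) F),
      Cfsg.IsDefectGroup p M {χ : Cfsg.IrrCharacter (Matrix.SpecialLinearGroup (Fin 2) F) | (χ : Matrix.SpecialLinearGroup (Fin 2) F → ℂ) (-1) = (χ : Matrix.SpecialLinearGroup (Fin 2) F → ℂ) 1 ∧ (χ : Matrix.SpecialLinearGroup (Fin 2) F → ℂ) 1 ≠ (Fintype.card F : ℂ)} (P : Subgroup (Matrix.SpecialLinearGroup (Fin 2) F)) ∧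
      Cfsg.IsDefectGroup p M {χ : Cfsg.IrrCharacter (Matrix.SpecialLinearGroup (Fin 2) F) | (χ : Matrix.SpecialLinearGroup (Fin 2) F → ℂ) (-1) = -(χ : Matrix.SpecialLinearGroup (Fin 2) F → ℂ) 1} (P : Subgroup (Matrix.SpecialLinearGroup (Fin 2) F)) := by
  classical
  have := hM.2.1
  have : H9.PMod M p := ⟨hM⟩
  have hpp : p.Prime := Fact.out
  have h2 : (2 : F) ≠ 0 := fun e => hp ((Nat.prime_dvd_prime_iff_eq hpp Nat.prime_two).1
    ((CharP.cast_eq_zero_iff F p 2).1 (by exact_mod_cast e)))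
  obtain ⟨k, -, hk⟩ := FiniteField.card F p
  have hq : Fintype.card F ≠ 1 := Fintype.one_lt_card.ne'
  have hf : (Nat.card (Matrix.SpecialLinearGroup (Fin 2) F)).factorization p = k := by
    have h3 : p ∣ Fintype.card F := hk ▸ dvd_pow_self p k.ne_zero
    have h4 : ¬ p ∣ (Fintype.card F - 1) * (Fintype.card F + 1) := fun h => by
      rcases (Nat.Prime.dvd_mul hpp).1 h with h | h
      · have := (Nat.dvd_sub_iff_right Fintype.card_pos h3).1 h
        exact hpp.one_lt.ne' (Nat.dvd_one.1 this)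
      · exact hpp.one_lt.ne' (Nat.dvd_one.1 ((Nat.dvd_add_right h3).1 h))
    rw [H10.card_SL_two, mul_assoc, Nat.factorization_mul Fintype.card_ne_zero
      (fun e => h4 (by rw [e]; exact dvd_zero p)), Finsupp.add_apply, Nat.factorization_eq_zero_of_not_dvd h4,
      hk, hpp.factorization_pow]
    simp
  let St : IrrCharacter (Matrix.SpecialLinearGroup (Fin 2) F) :=
    ⟨_, H12.RGD.isIrr_stc (H17.TA.rgd_top (n := 1) (K := F))⟩
  have hS1 : (St : Matrix.SpecialLinearGroup (Fin 2) F → ℂ) 1 = (Fintype.card F : ℕ) := by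
    change (H17.TA.rgd 1 F).stc 1 = _
    rw [H12.RGD.stc_one H17.TA.rgd_top, (H17.TA.charP p).card_Up H17.TA.rgd_top, hk]
    exact congrArg (fun n : ℕ => ((p ^ n : ℕ) : ℂ)) hf
  have d0 : ∀ χ : IrrCharacter (Matrix.SpecialLinearGroup (Fin 2) F),
      (χ : Matrix.SpecialLinearGroup (Fin 2) F → ℂ) 1 = (Fintype.card F : ℕ) →
      blockDefect p (blockOf M (χ : Matrix.SpecialLinearGroup (Fin 2) F → ℂ)) = 0 := fun χ h => by
    rw [H12.blockDefect_blockOf, H7.charDegree_eq h, hf, hk, hpp.factorization_pow]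
    simp
  have h0 : ∀ χ : IrrCharacter (Matrix.SpecialLinearGroup (Fin 2) F),
      blockDefect p (blockOf M (χ : Matrix.SpecialLinearGroup (Fin 2) F → ℂ)) = 0 ↔ χ = St := by
    refine fun χ => ⟨fun h => ?_, fun h => h ▸ d0 St hS1⟩
    obtain ⟨B, hB⟩ := Nat.card_eq_one_iff_exists.1 (H7.sl_card_defect_zero (F := F) (n := 1) hM)
    have e := congrArg Subtype.val ((hB ⟨_, H8.isPBlock_blockOf χ, h⟩).trans
      (hB ⟨_, H8.isPBlock_blockOf St, d0 St hS1⟩).symm)
    have e2 := (H8.blockOf_eq_singleton_iff hM St).2 ((H12.blockDefect_blockOf St).1 (d0 St hS1))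
    exact (e.trans e2).le (H8.mem_blockOf_self χ)
  have hz : (-1 : Matrix.SpecialLinearGroup (Fin 2) F) ∈ Subgroup.center _ :=
    Subgroup.mem_center_iff.2 fun g => by simp
  have := H7.three_blocks (H7.radZ_sl (F := F) (n := 1) one_pos) hM hp hz (fun e => h2 (by
      have := congrArg (fun A : Matrix.SpecialLinearGroup (Fin 2) F => A 0 0) e
      simp at this
      linear_combination -this)) (by simp) (fun y hy => by
      obtain ⟨r, h3, h4⟩ := Matrix.SpecialLinearGroup.mem_center_iff.1 hy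
      rcases sq_eq_one_iff.1 (by simpa using h3 : r ^ 2 = 1) with rfl | rfl
      · left; exact Subtype.ext (by rw [← h4]; simp)
      · right; exact Subtype.ext (by rw [← h4, map_neg, map_one]; simp)) (q := (Fintype.card F : ℂ))
    (by exact_mod_cast hq) (St := St) (H7.stc_center (H17.ldSL F p 1) hz) h0
    fun χ => ⟨fun h => (h0 χ).1 (d0 χ h), fun h => h ▸ hS1⟩
  refine ⟨this.1, ?_, this.2⟩
  have h5 := H7.sl_card_blocks (F := F) (n := 1) (p := p) one_pos hM
  have h6 : 2 ∣ Fintype.card F - 1 := by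
    rw [hk]
    exact (Nat.Odd.sub_odd ((hpp.odd_of_ne_two hp).pow) odd_one).two_dvd
  rw [Nat.gcd_eq_left h6] at h5
  exact h5

end Cfsg.Agent.S2439
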