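import Cfsg.Statements.S2442
import Mathlib
import Cfsg.Agent.H29.Cu6

set_option autoImplicit false
open scoped MatrixGroups
open Cfsg

namespace Cfsg.Agent.S2442

open Classical in
/-- Let F be a finite field with q elements and n ≥ 2. Call a complex character χ of GL_n over F cuspidal when, for every 0 < m < n, the sum of χ over the subgroup of matrices that agree with the identity outside the upper right m × (n − m) block vanishes (the restriction of χ to the unipotent radical of each maximal standard parabolic subgroup contains no principal constituent). Then GL_n has at least φ(qⁿ − 1)/n distinct cuspidal irreducible characters of degree (q − 1)(q² − 1)⋯(q^(n−1) − 1), φ being Euler's function (in particular at least one). -/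
theorem result {F : Type*} [Field F] [Fintype F] [DecidableEq F] (n : ℕ) (hn : 2 ≤ n) :
    Nat.totient (Fintype.card F ^ n - 1) / n ≤
      Nat.card {χ : Cfsg.IrrCharacter (GL (Fin n) F) //
        (χ : GL (Fin n) F → ℂ) 1 = ∏ i ∈ Finset.Ico 1 n, ((Fintype.card F : ℂ) ^ i - 1) ∧
        ∀ m : ℕ, 0 < m → m < n →
          (∑ g : GL (Fin n) F,
            if (∀ i j : Fin n, ¬ (i.val < m ∧ m ≤ j.val) → (g : Matrix (Fin n) (Fin n) F) i j = (1 : Matrix (Fin n) (Fin n) F) i j)
            then (χ : GL (Fin n) F → ℂ) g else 0) = 0} := by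
  obtain ⟨χ, h1, h2, h3, h4⟩ := H29.Cu.exists_chars (F := F) n hn
  set q := Fintype.card F with hq
  have q1 : 1 < q := Fintype.one_lt_card
  have hN : ∀ i < n, q ^ i - 1 < q ^ n - 1 := fun i hi =>
    Nat.sub_lt_sub_right (Nat.one_le_pow _ _ (by omega)) (Nat.pow_lt_pow_right q1 hi)
  have h5 : ∀ a, (q ^ n - 1).Coprime a → classInner (χ a) (χ a) = 1 := fun a ha => by
    rw [h2, Nat.cast_eq_one, Finset.card_eq_one]
    refine ⟨0, Finset.eq_singleton_iff_unique_mem.2 ⟨by simp [Nat.ModEq.refl]; omega, fun i hi => ?_⟩⟩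
    obtain ⟨i1, i2⟩ := Finset.mem_filter.1 hi
    have e := (Nat.modEq_iff_dvd' (Nat.one_le_pow i q (by omega))).1
      (Nat.ModEq.cancel_right_of_coprime ha (by rwa [one_mul] : q ^ i * a ≡ 1 * a [MOD q ^ n - 1])).symm
    have e2 := Nat.eq_zero_of_dvd_of_lt e (hN i (Finset.mem_range.1 i1))
    by_contra i0
    have := Nat.one_lt_pow i0 q1
    omega
  have h6 : ∀ a, (q ^ n - 1).Coprime a → IsIrrCharacter _ (χ a) := fun a ha =>
    H6.isIrr_of_norm_one_of_nonneg (h1 a) (h5 a ha) (by
      have : χ a 1 = ((∏ i ∈ Finset.Ico 1 n, (q ^ i - 1) : ℕ) : ℂ) := by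
        rw [h3, Nat.cast_prod]
        exact Finset.prod_congr rfl fun i _ => by rw [Nat.cast_pred (pow_pos (by omega) _), Nat.cast_pow]
      rw [this, Complex.natCast_re]; positivity)
  let S := (Finset.range (q ^ n - 1)).filter fun a => (q ^ n - 1).Coprime a
  have h7 := Finset.card_le_mul_card_image (f := χ) S n fun ψ hψ => by
    obtain ⟨a, ha, rfl⟩ := Finset.mem_image.1 hψ
    refine le_trans (Finset.card_le_card (t := (Finset.range n).image fun i => q ^ i * a % (q ^ n - 1)) fun b hb => ?_)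
      (Finset.card_image_le.trans (Finset.card_range n).le)
    obtain ⟨b1, b2⟩ := Finset.mem_filter.1 hb
    have e := h2 a b
    rw [b2, h5 a (Finset.mem_filter.1 ha).2, eq_comm, Nat.cast_eq_one] at e
    obtain ⟨i, hi⟩ := Finset.card_pos.1 (e ▸ one_pos)
    obtain ⟨i1, i2⟩ := Finset.mem_filter.1 hi
    exact Finset.mem_image.2 ⟨i, i1, Eq.trans i2 (Nat.mod_eq_of_lt (Finset.mem_range.1 (Finset.mem_filter.1 b1).1))⟩
  rw [Nat.totient_eq_card_coprime]
  refine (Nat.div_le_of_le_mul h7).trans ?_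
  rw [← Fintype.card_coe, ← Nat.card_eq_fintype_card]
  have h8 : ∀ ψ : S.image χ, ∃ a, (q ^ n - 1).Coprime a ∧ χ a = ψ := fun ψ =>
    let ⟨a, ha, e⟩ := Finset.mem_image.1 ψ.2; ⟨a, (Finset.mem_filter.1 ha).2, e⟩
  choose f f1 f2 using h8
  refine Nat.card_le_card_of_injective (fun ψ => ⟨⟨χ (f ψ), h6 _ (f1 ψ)⟩, h3 _, fun m m0 mn => ?_⟩) fun ψ ψ' e => ?_
  · convert h4 (f ψ) m m0 mn
  · exact Subtype.ext (by rw [← f2, ← f2]; exact congrArg (fun x => x.1.1) e)

end Cfsg.Agent.S2442
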