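import Cfsg.Statements.S2531
import Mathlib

set_option autoImplicit false
open Cfsg

namespace Cfsg.Agent.S2531

open Projectivization

theorem card_ne {α : Type*} [Finite α] (a : α) : Nat.card {x : α // x ≠ a} + 1 = Nat.card α := by
  classical
  have := Fintype.ofFinite α
  have : 0 < Fintype.card α := Fintype.card_pos_iff.2 ⟨a⟩
  simp only [Nat.card_eq_fintype_card, ne_eq, Fintype.card_subtype_compl, Fintype.card_subtype_eq]
  omega

theorem card_proj {F V : Type*} [Field F] [Finite F] [AddCommGroup V] [Module F V] [Finite V]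
    [Nontrivial V] : (Nat.card (Projectivization F V) : F) = 1 := by
  have h := Projectivization.card' F V
  have hF : (Nat.card F : F) = 0 := by
    have := Fintype.ofFinite F
    rw [Nat.card_eq_fintype_card]
    exact FiniteField.cast_card_eq_zero F
  have hV : (Nat.card V : F) = 0 := by
    rw [Module.natCard_eq_pow_finrank (K := F), Nat.cast_pow, hF,
      zero_pow (Module.finrank_pos (R := F) (M := V)).ne']
  have h1 : 1 ≤ Nat.card F := Nat.card_pos
  have := congrArg (Nat.cast : ℕ → F) h
  push_cast [h1] at this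
  rw [hV, hF] at this
  linear_combination this

theorem rep_mem {F V : Type*} [Field F] [AddCommGroup V] [Module F V] (U : Submodule F V)
    {v : V} (hv : v ≠ 0) : (Projectivization.mk F v hv).rep ∈ U ↔ v ∈ U := by
  obtain ⟨a, ha⟩ := exists_smul_eq_mk_rep F v hv
  rw [← ha, Units.smul_def, Submodule.smul_mem_iff _ a.ne_zero]

theorem card_pts {F V : Type*} [Field F] [Finite F] [AddCommGroup V] [Module F V] [Finite V]
    (U : Submodule F V) (hU : U ≠ ⊥) :
    (Nat.card {x : Projectivization F V // x.rep ∈ U} : F) = 1 := by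
  have : Nontrivial U := Submodule.nontrivial_iff_ne_bot.2 hU
  rw [← card_proj (F := F) (V := U)]
  congr 1
  symm
  refine Nat.card_eq_of_bijective
    (fun y => ⟨Projectivization.map U.subtype U.injective_subtype y, ?_⟩) ⟨?_, ?_⟩
  · induction y using Projectivization.ind with
    | h v hv => rw [map_mk, rep_mem]; exact v.2
  · intro y z h
    exact map_injective U.subtype U.injective_subtype (congrArg Subtype.val h)
  · rintro ⟨x, hx⟩
    refine ⟨Projectivization.mk F ⟨x.rep, hx⟩ fun h => x.rep_nonzero (congrArg Subtype.val h), ?_⟩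
    apply Subtype.ext
    simp only [map_mk]
    exact x.mk_rep

/-- Let `F` be a finite field and `n ≥ 3`. No set of permutations of the points of the projective space of `Fⁿ`, each induced by an invertible semilinear transformation of `Fⁿ` (so a subset of the full projective semilinear group), is sharply 2-transitive on the points: it is impossible that for all pairs of distinct points `(a, b)` and `(c, d)` exactly one member of the set sends `a` to `c` and `b` to `d`. -/
theorem result {F : Type*} [Field F] [Finite F]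
    (n : ℕ) (hn : 3 ≤ n) (S : Set (Equiv.Perm (Projectivization F (Fin n → F))))
    (hS : ∀ s ∈ S, ∃ (σ : F ≃+* F) (f : (Fin n → F) →ₛₗ[(σ : F →+* F)] (Fin n → F)) (hf : Function.Injective f),
      ∀ x, s x = Projectivization.map f hf x) :
    ¬ (∀ a b c d : Projectivization F (Fin n → F), a ≠ b → c ≠ d →
        ∃! s, s ∈ S ∧ s a = c ∧ s b = d) := by
  intro h
  let i0 : Fin n := ⟨0, by omega⟩
  let i1 : Fin n := ⟨1, by omega⟩
  have h01 : i0 ≠ i1 := by simp [i0, i1]
  let W : Submodule F (Fin n → F) := LinearMap.ker (LinearMap.proj i0)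
  have hW : ∀ v, v ∈ W ↔ v i0 = 0 := fun v => Iff.rfl
  have : Nontrivial (Fin n → F) := by
    have : Nonempty (Fin n) := ⟨i0⟩
    infer_instance
  let α : Projectivization F (Fin n → F) := Projectivization.mk F (Pi.single i0 1) (by simp)
  let x0 : Projectivization F (Fin n → F) := Projectivization.mk F (Pi.single i1 1) (by simp)
  have hα : α.rep ∉ W := by rw [rep_mem, hW]; simp
  have hx0 : x0.rep ∈ W := by rw [rep_mem, hW]; simp [h01]
  have hne : ∀ x : Projectivization F (Fin n → F), x.rep ∈ W → α ≠ x := by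
    rintro x hx rfl; exact hα hx
  let T := {s // s ∈ S ∧ s α = α}
  have hB : (Nat.card {x : Projectivization F (Fin n → F) // x.rep ∈ W} : F) = 1 :=
    card_pts W fun e => x0.rep_nonzero (by rw [e] at hx0; exact hx0)
  have hT : (Nat.card T : F) = 0 := by
    have h1 : Nat.card T = Nat.card {y // y ≠ α} := by
      refine Nat.card_eq_of_bijective (fun s => ⟨s.1 x0, fun e => hne x0 hx0
        (s.1.injective (e.trans s.2.2.symm)).symm⟩) ⟨?_, ?_⟩
      · intro s t e
        have e' : s.1 x0 = t.1 x0 := congrArg Subtype.val e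
        have h2 : α ≠ s.1 x0 := fun e => hne x0 hx0 (s.1.injective (s.2.2.trans e))
        exact Subtype.ext ((h α x0 α _ (hne x0 hx0) h2).unique ⟨s.2.1, s.2.2, rfl⟩
          ⟨t.2.1, t.2.2, e'.symm⟩)
      · rintro ⟨y, hy⟩
        obtain ⟨s, hs, -⟩ := h α x0 α y (hne x0 hx0) (Ne.symm hy)
        exact ⟨⟨s, hs.1, hs.2.1⟩, Subtype.ext hs.2.2⟩
    have h2 := congrArg (Nat.cast : ℕ → F) (card_ne α)
    rw [← h1, card_proj] at h2
    push_cast at h2
    linear_combination h2
  have hs : ∀ s : T, (Nat.card {x : Projectivization F (Fin n → F) //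
      x.rep ∈ W ∧ (s.1 x).rep ∈ W} : F) = 1 := by
    intro s
    obtain ⟨σ, f, hf, hs⟩ := hS s.1 s.2.1
    have hU : W ⊓ W.comap f ≠ ⊥ := by
      intro e
      let φ : (Fin n → F) →+ F × F :=
        { toFun := fun v => (v i0, f v i0)
          map_zero' := by simp
          map_add' := fun a b => by simp }
      have hφ : Function.Injective φ := (injective_iff_map_eq_zero φ).2 fun v hv => by
        have : v ∈ W ⊓ W.comap f := ⟨congrArg Prod.fst hv, congrArg Prod.snd hv⟩
        rwa [e] at this
      have h1 := Nat.card_le_card_of_injective φ hφ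
      rw [Nat.card_prod, Nat.card_fun, Nat.card_eq_fintype_card (α := Fin n), Fintype.card_fin,
        ← sq] at h1
      have h2 : 1 < Nat.card F := Finite.one_lt_card
      have := (Nat.pow_le_pow_iff_right h2).1 h1
      omega
    rw [← card_pts _ hU]
    congr 1
    refine Nat.card_congr (Equiv.subtypeEquivRight fun x => ?_)
    have : s.1 x = Projectivization.mk F (f x.rep) (fun e => x.rep_nonzero
        (hf (e.trans (map_zero f).symm))) := by
      rw [hs]
      conv_lhs => rw [← x.mk_rep, map_mk]
    rw [this, rep_mem]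
    rfl
  have hcount : Nat.card (Σ s : T, {x : Projectivization F (Fin n → F) //
      x.rep ∈ W ∧ (s.1 x).rep ∈ W}) = Nat.card ({x : Projectivization F (Fin n → F) // x.rep ∈ W} ×
      {x : Projectivization F (Fin n → F) // x.rep ∈ W}) := by
    refine Nat.card_eq_of_bijective (fun y => (⟨y.2.1, y.2.2.1⟩, ⟨y.1.1 y.2.1, y.2.2.2⟩)) ⟨?_, ?_⟩
    · rintro ⟨s, x, hx⟩ ⟨t, y, hy⟩ e
      have e1 : x = y := congrArg (fun z => z.1.1) e
      subst e1
      have e2 : s.1 x = t.1 x := congrArg (fun z => z.2.1) e
      have : s = t := Subtype.ext ((h α x α _ (hne x hx.1) (hne _ hx.2)).unique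
        ⟨s.2.1, s.2.2, rfl⟩ ⟨t.2.1, t.2.2, e2.symm⟩)
      subst this
      rfl
    · rintro ⟨⟨x, hx⟩, y, hy⟩
      obtain ⟨s, hs, -⟩ := h α x α y (hne x hx) (hne y hy)
      refine ⟨⟨⟨s, hs.1, hs.2.1⟩, x, hx, hs.2.2.symm ▸ hy⟩, ?_⟩
      exact Prod.ext rfl (Subtype.ext hs.2.2)
  have := Fintype.ofFinite T
  have h2 := congrArg (Nat.cast : ℕ → F) hcount
  rw [Nat.card_sigma, Nat.card_prod] at h2
  push_cast at h2
  rw [hB, Finset.sum_congr rfl fun s _ => hs s] at h2
  simp only [Finset.sum_const, Finset.card_univ, nsmul_eq_mul, mul_one] at h2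
  rw [← Nat.card_eq_fintype_card, hT] at h2
  exact zero_ne_one h2

end Cfsg.Agent.S2531
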