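import Cfsg.Statements.S2532
import Mathlib


set_option autoImplicit false
open Cfsg

namespace Cfsg.Agent.S2532


/-- There is a function `f` of two natural-number arguments such that, whenever `m ≥ f(n, r)`, every subgroup of order `n` of the alternating group of degree `m` centralizes some subgroup of that alternating group isomorphic to the alternating group of degree `r`. -/
theorem result :
    ∃ f : ℕ → ℕ → ℕ, ∀ (m r : ℕ) (H : Subgroup ↥(alternatingGroup (Fin m))), f (Nat.card H) r ≤ m →
      ∃ K : Subgroup ↥(alternatingGroup (Fin m)), Nonempty (↥K ≃* ↥(alternatingGroup (Fin r))) ∧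
        K ≤ Subgroup.centralizer (H : Set ↥(alternatingGroup (Fin m))) := by
  classical
  refine ⟨fun n r => n * (2 ^ n * r) + 1, fun m r H hm => ?_⟩
  let Ω := MulAction.orbitRel.Quotient H (Fin m)
  have := Fintype.ofFinite Ω
  have := Fintype.ofFinite (Subgroup H)
  have h1 : m ≤ Nat.card H * Fintype.card Ω := by
    have := Finset.card_le_mul_card_image (f := fun x : Fin m => (Quotient.mk'' x : Ω)) Finset.univ (Nat.card H)
      fun ω _ => by
        rw [Nat.card_eq_fintype_card]
        refine Finset.card_le_card_of_surjOn (fun h : H => h • ω.out) fun x hx => ?_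
        obtain ⟨h, e⟩ : x ∈ MulAction.orbit H ω.out := Quotient.exact' (s₁ := MulAction.orbitRel H _) (by simpa using hx)
        exact ⟨h, by simp, e⟩
    simpa using this.trans (Nat.mul_le_mul_left _ (Finset.card_le_univ _))
  have h2 : Fintype.card (Subgroup H) ≤ 2 ^ Nat.card H := by
    simpa using Fintype.card_le_of_injective (fun K : Subgroup H => (K : Set H)) SetLike.coe_injective
  obtain ⟨S, hS⟩ := Fintype.exists_lt_card_fiber_of_mul_lt_card (fun ω : Ω => MulAction.stabilizer H ω.out) (n := r)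
    ((Nat.mul_le_mul_right _ h2).trans_lt (lt_of_mul_lt_mul_left (hm.trans h1) (Nat.zero_le _)))
  obtain ⟨w, hw⟩ := Function.Embedding.exists_of_card_le_finset (α := Fin r) (by simpa using hS.le)
  have st : ∀ i, MulAction.stabilizer H (w i).out = S := fun i => by simpa using hw ⟨i, rfl⟩
  let ι : (H ⧸ S) × Fin r ↪ Fin m := ⟨fun p => p.1.out • (w p.2).out, fun ⟨a, i⟩ ⟨b, j⟩ e => by
    obtain rfl : i = j := w.injective (Quotient.out_equiv_out.1 (MulAction.orbitRel_apply.2
      ⟨a.out⁻¹ * b.out, by simp only [mul_smul, ← e]; simp⟩))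
    refine Prod.ext (Quotient.out_equiv_out.1 (QuotientGroup.leftRel_apply.2 ?_)) rfl
    refine (st i).le ?_
    rw [MulAction.mem_stabilizer_iff, mul_smul, inv_smul_eq_iff]; exact e.symm⟩
  have eq : ∀ (h : H) a i, h • ι (a, i) = ι (h • a, i) := fun h a i => by
    obtain ⟨s, hs⟩ := QuotientGroup.mk_out_eq_mul S (h * a.out)
    have := (st i).ge s.2
    change _ = (h • a).out • (w i).out
    rw [← MulAction.Quotient.mk_smul_out, smul_eq_mul, hs, mul_smul, mul_smul, show s.1 • _ = _ from this]; rfl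
  let π : Equiv.Perm (Fin r) →* Equiv.Perm ((H ⧸ S) × Fin r) := MonoidHom.mk' (fun σ => Equiv.prodCongrRight fun _ => σ)
    fun _ _ => rfl
  let φ : alternatingGroup (Fin r) →* alternatingGroup (Fin m) :=
    (((Equiv.Perm.viaEmbeddingHom ι).comp π).comp (Subgroup.subtype _)).codRestrict _ fun σ => by
      have : (π σ).sign = 1 := (Equiv.Perm.sign_prodCongrRight _).trans
        (Finset.prod_eq_one fun _ _ => Equiv.Perm.mem_alternatingGroup.1 σ.2)
      simpa [Equiv.Perm.viaEmbeddingHom, Equiv.Perm.viaEmbedding]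
  refine ⟨φ.range, ⟨(MonoidHom.ofInjective fun a b e => Subtype.ext (Equiv.ext fun i => ?_)).symm⟩, ?_⟩
  · exact congrArg Prod.snd (DFunLike.congr_fun (Equiv.Perm.viaEmbeddingHom_injective ι (congrArg Subtype.val e))
      (((1 : H) : H ⧸ S), i))
  · rintro _ ⟨σ, rfl⟩ h hh
    refine Subtype.ext (Equiv.ext fun x => ?_)
    change (⟨h, hh⟩ : H) • (π σ).viaEmbedding ι x = (π σ).viaEmbedding ι ((⟨h, hh⟩ : H) • x)
    by_cases c : x ∈ Set.range ι
    · obtain ⟨⟨a, i⟩, rfl⟩ := c
      rw [eq, Equiv.Perm.viaEmbedding_apply, Equiv.Perm.viaEmbedding_apply]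
      exact eq _ _ _
    · rw [Equiv.Perm.viaEmbedding_apply_of_notMem _ _ _ c, Equiv.Perm.viaEmbedding_apply_of_notMem]
      rintro ⟨⟨a, i⟩, e⟩
      exact c ⟨_, (eq _ a i).symm.trans (inv_smul_eq_iff.2 e)⟩

end Cfsg.Agent.S2532
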