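import Cfsg.Statements.S2533
import Mathlib
import Cfsg.Agent.H10.Transv

set_option autoImplicit false
open Cfsg

namespace Cfsg.Agent.S2533

open Matrix

/-- The generalized dihedral group of order `2p³`. -/
@[ext] structure GD (p : ℕ) where
  v : Fin 3 → ZMod p
  s : ℤˣ

instance (p : ℕ) : Mul (GD p) := ⟨fun a b => ⟨a.v + ((a.s : ℤ) : ZMod p) • b.v, a.s * b.s⟩⟩
instance (p : ℕ) : One (GD p) := ⟨⟨0, 1⟩⟩
instance (p : ℕ) : Inv (GD p) := ⟨fun a => ⟨-(((a.s : ℤ) : ZMod p) • a.v), a.s⟩⟩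

theorem mul_v {p : ℕ} (a b : GD p) : (a * b).v = a.v + ((a.s : ℤ) : ZMod p) • b.v := rfl
theorem mul_s {p : ℕ} (a b : GD p) : (a * b).s = a.s * b.s := rfl

instance (p : ℕ) : Group (GD p) :=
  Group.ofLeftAxioms
    (fun a b c => GD.ext (by simp [mul_v, mul_s, add_assoc, smul_smul]) (mul_assoc _ _ _))
    (fun a => GD.ext (by
      show (0 : Fin 3 → ZMod p) + (((1 : ℤˣ) : ℤ) : ZMod p) • a.v = a.v
      simp) (one_mul _))
    (fun a => GD.ext (neg_add_cancel _) (Int.units_mul_self _))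

/-- The underlying set. -/
def gdEquiv (p : ℕ) : GD p ≃ (Fin 3 → ZMod p) × ℤˣ :=
  ⟨fun a => (a.v, a.s), fun x => ⟨x.1, x.2⟩, fun _ => rfl, fun _ => rfl⟩

variable {F : Type*} [Field F]

/-- First Kronecker map. -/
def kA (m : ℕ) (F : Type*) [Field F] : Matrix (Fin (m + 1)) (Fin m) F :=
  Matrix.of fun i j => if i = j.castSucc then 1 else 0

/-- Second Kronecker map. -/
def kB (m : ℕ) (F : Type*) [Field F] : Matrix (Fin (m + 1)) (Fin m) F :=
  Matrix.of fun i j => if i = j.succ then 1 else 0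

/-- Third Kronecker map. -/
def kC (m : ℕ) (F : Type*) [Field F] : Matrix (Fin (m + 1)) (Fin m) F :=
  Matrix.of fun i j => if i.val = j.val + 2 then 1 else 0

theorem brick {m : ℕ} (a : Matrix (Fin m) (Fin m) F) (b : Matrix (Fin (m + 1)) (Fin (m + 1)) F)
    (hA : b * kA m F = kA m F * a) (hB : b * kB m F = kB m F * a) :
    a = b 0 0 • 1 ∧ b = b 0 0 • 1 := by
  have h1 : ∀ i j : Fin m, b i.castSucc j.castSucc = a i j := fun i j => by
    have := congrFun (congrFun hA i.castSucc) j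
    simpa [Matrix.mul_apply, kA] using this
  have h2 : ∀ j : Fin m, b (Fin.last m) j.castSucc = 0 := fun j => by
    have := congrFun (congrFun hA (Fin.last m)) j
    simpa [Matrix.mul_apply, kA, (Fin.castSucc_ne_last _).symm] using this
  have h3 : ∀ i j : Fin m, b i.succ j.succ = a i j := fun i j => by
    have := congrFun (congrFun hB i.succ) j
    simpa [Matrix.mul_apply, kB] using this
  have h4 : ∀ j : Fin m, b 0 j.succ = 0 := fun j => by
    have := congrFun (congrFun hB 0) j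
    simpa [Matrix.mul_apply, kB, (Fin.succ_ne_zero _).symm] using this
  have h5 : ∀ (k x y : ℕ) (hx : x + k < m + 1) (hy : y + k < m + 1),
      b ⟨x + k, hx⟩ ⟨y + k, hy⟩ = b ⟨x, by omega⟩ ⟨y, by omega⟩ := by
    intro k
    induction k with
    | zero => intro x y _ _; rfl
    | succ k ih =>
      intro x y hx hy
      rw [← ih x y (by omega) (by omega)]
      exact (h3 ⟨x + k, by omega⟩ ⟨y + k, by omega⟩).trans
        (h1 ⟨x + k, by omega⟩ ⟨y + k, by omega⟩).symm
  have hb : b = b 0 0 • 1 := by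
    ext ⟨x, hx⟩ ⟨y, hy⟩
    rcases lt_trichotomy x y with h | h | h
    · obtain ⟨d, rfl⟩ : ∃ d, y = d + 1 + x := ⟨y - x - 1, by omega⟩
      have := h5 x 0 (d + 1) (by omega) hy
      simp only [zero_add] at this
      rw [this, Matrix.smul_apply, one_apply_ne (by simp [Fin.ext_iff]), smul_zero]
      exact h4 ⟨d, by omega⟩
    · subst h
      have := h5 x 0 0 (by omega) (by omega)
      simp only [zero_add] at this
      rw [this, Matrix.smul_apply, one_apply_eq, smul_eq_mul, mul_one]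
      rfl
    · rw [← h5 (m - x) x y (by omega) (by omega), Matrix.smul_apply,
        one_apply_ne (by simp [Fin.ext_iff]; omega), smul_zero]
      have := h2 ⟨y + (m - x), by omega⟩
      have e : (⟨x + (m - x), by omega⟩ : Fin (m + 1)) = Fin.last m := Fin.ext (by simp; omega)
      rw [e]
      exact this
  refine ⟨?_, hb⟩
  ext i j
  rw [← h1, hb]
  simp [one_apply]

/-- The linear family of maps. -/
def kP (m : ℕ) (v : Fin 3 → F) : Matrix (Fin (m + 1)) (Fin m) F :=
  v 0 • kA m F + v 1 • kB m F + v 2 • kC m F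

theorem kP_add (m : ℕ) (v w : Fin 3 → F) (c : F) : kP m (v + c • w) = kP m v + c • kP m w := by
  simp only [kP, Pi.add_apply, Pi.smul_apply, smul_eq_mul, add_smul, smul_add, smul_smul]
  abel

/-- The representing matrices. -/
def kM (m : ℕ) {p : ℕ} [Fact p.Prime] (a : GD p) :
    Matrix (Fin m ⊕ Fin (m + 1)) (Fin m ⊕ Fin (m + 1)) (ZMod p) :=
  fromBlocks 1 0 (kP m a.v) (((a.s : ℤ) : ZMod p) • 1)

theorem kM_mul (m : ℕ) {p : ℕ} [Fact p.Prime] (a b : GD p) : kM m (a * b) = kM m a * kM m b := by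
  simp [kM, fromBlocks_multiply, mul_v, mul_s, kP_add, smul_smul, mul_comm]

theorem kM_det (k : ℕ) {p : ℕ} [Fact p.Prime] (a : GD p) : (kM (2 * k + 3) a).det = 1 := by
  rw [kM, det_fromBlocks_zero₁₂, det_one, one_mul, det_smul, det_one, mul_one, Fintype.card_fin,
    show 2 * k + 3 + 1 = 2 * (k + 2) by ring, pow_mul]
  rcases Int.units_eq_one_or a.s with h | h <;> simp [h]

theorem kM_inj (k : ℕ) {p : ℕ} [Fact p.Prime] (hp : p ≠ 2) (a : GD p) (c : ZMod p)
    (h : kM (2 * k + 3) a = c • 1) : a = 1 := by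
  have h0 := congrFun (congrFun h (Sum.inl 0)) (Sum.inl 0)
  have h1 := congrFun (congrFun h (Sum.inr 0)) (Sum.inr 0)
  have h2 := congrFun (congrFun h (Sum.inr ⟨0, by omega⟩)) (Sum.inl ⟨0, by omega⟩)
  have h3 := congrFun (congrFun h (Sum.inr ⟨1, by omega⟩)) (Sum.inl ⟨0, by omega⟩)
  have h4 := congrFun (congrFun h (Sum.inr ⟨2, by omega⟩)) (Sum.inl ⟨0, by omega⟩)
  simp only [kM, fromBlocks_apply₁₁, fromBlocks_apply₂₁, fromBlocks_apply₂₂, Matrix.smul_apply,
    one_apply_eq, smul_eq_mul, mul_one, ne_eq, reduceCtorEq, not_false_eq_true, one_apply_ne,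
    mul_zero, kP, kA, kB, kC, Matrix.add_apply, of_apply, Fin.ext_iff, Fin.val_castSucc,
    Fin.val_succ] at h0 h1 h2 h3 h4
  norm_num at h2 h3 h4
  refine GD.ext ?_ ?_
  · ext i
    fin_cases i
    · exact h2
    · exact h3
    · exact h4
  · rcases Int.units_eq_one_or a.s with e | e
    · exact e
    · exfalso
      rw [e, ← h0] at h1
      have h5 : ((2 : ℕ) : ZMod p) = 0 := by
        simp at h1
        push_cast
        linear_combination -h1
      rw [ZMod.natCast_eq_zero_iff] at h5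
      exact hp ((Nat.prime_dvd_prime_iff_eq Fact.out Nat.prime_two).1 h5)

theorem kM_cent (k : ℕ) {p : ℕ} [Fact p.Prime] (hp : p ≠ 2)
    (g : Matrix (Fin (2 * k + 3) ⊕ Fin (2 * k + 3 + 1)) (Fin (2 * k + 3) ⊕ Fin (2 * k + 3 + 1))
      (ZMod p)) (hg : g.det = 1)
    (h : ∀ a : GD p, ∃ c : ZMod p, g * kM _ a = c • (kM _ a * g)) : ∃ c : ZMod p, g = c • 1 := by
  have h2 : (2 : ZMod p) ≠ 0 := by
    intro h5
    have h6 : ((2 : ℕ) : ZMod p) = 0 := by exact_mod_cast h5
    rw [ZMod.natCast_eq_zero_iff] at h6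
    exact hp ((Nat.prime_dvd_prime_iff_eq Fact.out Nat.prime_two).1 h6)
  have hu : IsUnit g.det := by rw [hg]; exact isUnit_one
  obtain ⟨c, hc⟩ := h ⟨0, -1⟩
  have hT : (kM (2 * k + 3) (⟨0, -1⟩ : GD p)).trace = -1 := by
    simp [kM, Matrix.trace]; ring
  have hc1 : c = 1 := by
    have := congrArg (fun x => (x * g⁻¹).trace) hc
    simp only [Matrix.smul_mul, trace_smul] at this
    rw [trace_mul_comm, ← Matrix.mul_assoc, nonsing_inv_mul _ hu, Matrix.one_mul,
      Matrix.mul_assoc, mul_nonsing_inv _ hu, Matrix.mul_one, hT] at this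
    simp at this
    exact this.symm
  rw [hc1, one_smul, ← fromBlocks_toBlocks g] at hc
  simp only [kM, fromBlocks_multiply, kP, Pi.zero_apply, zero_smul, add_zero, Matrix.mul_zero,
    Matrix.zero_mul, Matrix.mul_one, Matrix.one_mul, zero_add, Matrix.mul_smul, Matrix.smul_mul,
    fromBlocks_inj] at hc
  obtain ⟨-, c1, c2, -⟩ := hc
  have e1 : g.toBlocks₁₂ = 0 := by
    have : (2 : ZMod p) • g.toBlocks₁₂ = 0 := by
      rw [two_smul]; nth_rw 1 [← c1]; simp
    exact (smul_eq_zero.1 this).resolve_left h2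
  have e2 : g.toBlocks₂₁ = 0 := by
    have : (2 : ZMod p) • g.toBlocks₂₁ = 0 := by
      rw [two_smul]; nth_rw 1 [c2]; simp
    exact (smul_eq_zero.1 this).resolve_left h2
  have hg' : g = fromBlocks g.toBlocks₁₁ 0 0 g.toBlocks₂₂ := by
    rw [← e1, ← e2, fromBlocks_toBlocks]
  generalize g.toBlocks₁₁ = a at hg'
  generalize g.toBlocks₂₂ = b at hg'
  have ha : a ≠ 0 := by
    rintro rfl
    rw [hg', det_fromBlocks_zero₁₂, det_zero, zero_mul] at hg
    exact zero_ne_one hg
  have key : ∀ v : Fin 3 → ZMod p, (b * kP (2 * k + 3) v :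
      Matrix (Fin (2 * k + 3 + 1)) (Fin (2 * k + 3)) (ZMod p)) = kP (2 * k + 3) v * a := by
    intro v
    obtain ⟨c, hc⟩ := h ⟨v, 1⟩
    rw [hg'] at hc
    simp only [kM, fromBlocks_multiply, add_zero, Matrix.mul_zero,
      Matrix.zero_mul, Matrix.mul_one, Matrix.one_mul, zero_add, Matrix.mul_smul, Matrix.smul_mul,
      fromBlocks_smul, fromBlocks_inj, smul_zero] at hc
    obtain ⟨d1, -, d2, -⟩ := hc
    have : c = 1 := by
      by_contra hc
      apply ha
      have : (1 - c) • a = 0 := by rw [sub_smul, one_smul, ← d1, sub_self]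
      exact (smul_eq_zero.1 this).resolve_left (sub_ne_zero.2 (Ne.symm hc))
    rw [d2, this, one_smul]
  obtain ⟨r1, r2⟩ := brick a b (by simpa [kP] using key ![1, 0, 0])
    (by simpa [kP] using key ![0, 1, 0])
  refine ⟨b 0 0, ?_⟩
  rw [hg', ← fromBlocks_one, fromBlocks_smul, smul_zero, smul_zero, ← r1, ← r2]

/-- For every odd prime `p` there is a finite group `H` of order `2p³` which, for infinitely many `n`, embeds in the projective special linear group `PSL(n, p)` as a subgroup with trivial centralizer. -/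
theorem result
    (p : ℕ) [Fact p.Prime] (hp : p ≠ 2) :
    ∃ (H : Type) (_ : Group H) (_ : Finite H), Nat.card H = 2 * p ^ 3 ∧
      ∀ N : ℕ, ∃ n, N ≤ n ∧ ∃ φ : H →* Matrix.ProjectiveSpecialLinearGroup (Fin n) (ZMod p),
        Function.Injective φ ∧ Subgroup.centralizer (φ.range : Set (Matrix.ProjectiveSpecialLinearGroup (Fin n) (ZMod p))) = ⊥ := by
  have : Finite (GD p) := Finite.of_equiv _ (gdEquiv p).symm
  refine ⟨GD p, inferInstance, inferInstance, ?_, fun N => ?_⟩
  · rw [Nat.card_congr (gdEquiv p), Nat.card_prod, Nat.card_fun, Nat.card_zmod,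
      Nat.card_eq_fintype_card (α := ℤˣ), Fintype.card_units_int, mul_comm]
    simp
  refine ⟨2 * N + 3 + (2 * N + 3 + 1), by omega, ?_⟩
  let e : Fin (2 * N + 3) ⊕ Fin (2 * N + 3 + 1) ≃ Fin (2 * N + 3 + (2 * N + 3 + 1)) :=
    finSumFinEquiv
  let R := reindexAlgEquiv (ZMod p) (ZMod p) e
  let ρ : GD p →* Matrix.SpecialLinearGroup (Fin (2 * N + 3 + (2 * N + 3 + 1))) (ZMod p) :=
    MonoidHom.mk' (fun a => ⟨R (kM _ a), by
      simp only [R, coe_reindexAlgEquiv, det_reindex_self, kM_det]⟩)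
      fun a b => Subtype.ext (by
        show R (kM _ (a * b)) = R (kM _ a) * R (kM _ b)
        rw [kM_mul, map_mul])
  refine ⟨(H10.slQ _ _).comp ρ, ?_, ?_⟩
  · rw [injective_iff_map_eq_one]
    intro a ha
    rw [← map_one (H10.slQ _ _)] at ha
    obtain ⟨c, hc⟩ := H10.slQ_eq_iff.1 ha
    refine kM_inj N hp a c (R.injective ?_)
    rw [map_smul, map_one]
    exact hc
  · rw [Subgroup.eq_bot_iff_forall]
    intro x hx
    obtain ⟨g, rfl⟩ := H10.slQ_surjective x
    obtain ⟨c, hc⟩ := kM_cent N hp (R.symm g.1) (by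
      simp only [R, symm_reindexAlgEquiv, coe_reindexAlgEquiv, det_reindex_self]
      exact g.2) fun a => by
        have h1 := hx _ ⟨a, rfl⟩
        rw [MonoidHom.comp_apply, ← map_mul, ← map_mul] at h1
        obtain ⟨c, hc⟩ := H10.slQ_eq_iff.1 h1.symm
        refine ⟨c, R.injective ?_⟩
        rw [map_smul, map_mul, map_mul, AlgEquiv.apply_symm_apply]
        exact hc
    rw [← map_one (H10.slQ _ _)]
    refine H10.slQ_eq_iff.2 ⟨c, ?_⟩
    rw [← R.apply_symm_apply g.1, hc, map_smul, map_one]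
    rfl

end Cfsg.Agent.S2533
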