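import Cfsg.Statements.S2537
import Mathlib
import Cfsg.Agent.H10.PSL2Max3

set_option autoImplicit false
open Cfsg

namespace Cfsg.Agent.S2537

theorem fact_eq {m a b n : ℕ} (h : m = 2 ^ a * 3 ^ b * n) (h2 : ¬ 2 ∣ n) (h3 : ¬ 3 ∣ n) :
    2 ^ m.factorization 2 * 3 ^ m.factorization 3 = 2 ^ a * 3 ^ b := by
  have hn : n ≠ 0 := by rintro rfl; simp at h2
  subst h
  rw [Nat.factorization_mul (by positivity) hn, Nat.factorization_mul (by positivity) (by positivity),
    Nat.prime_two.factorization_pow, Nat.prime_three.factorization_pow]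
  simp [Nat.factorization_eq_zero_of_not_dvd h2, Nat.factorization_eq_zero_of_not_dvd h3]

theorem exists_decomp {m : ℕ} (hm : m ≠ 0) :
    ∃ n, m = 2 ^ m.factorization 2 * 3 ^ m.factorization 3 * n ∧ ¬ 2 ∣ n ∧ ¬ 3 ∣ n := by
  obtain ⟨a, m', h1, rfl⟩ := Nat.exists_eq_pow_mul_and_not_dvd hm 2 (by norm_num)
  obtain ⟨b, n, h2, rfl⟩ := Nat.exists_eq_pow_mul_and_not_dvd (n := m') (by rintro rfl; simp at h1)
    3 (by norm_num)
  have h3 : ¬ 2 ∣ n := fun h => h1 (h.mul_left _)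
  exact ⟨n, by rw [fact_eq (mul_assoc _ _ _).symm h3 h2, mul_assoc], h3, h2⟩

theorem exists_eq {m : ℕ} (hm : m ≠ 0) (h : ∀ r : ℕ, r.Prime → r ∣ m → r ∈ ({2, 3} : Set ℕ)) :
    ∃ a b, m = 2 ^ a * 3 ^ b := by
  obtain ⟨n, h1, h2, h3⟩ := exists_decomp hm
  have : n = 1 := by
    by_contra hn
    obtain ⟨r, hr, hrn⟩ := Nat.exists_prime_and_dvd hn
    rcases h r hr (h1 ▸ hrn.mul_left _) with rfl | rfl
    · exact h2 hrn
    · exact h3 hrn
  exact ⟨_, _, by rw [h1, this, mul_one, fact_eq (mul_one _).symm (by norm_num) (by norm_num)]⟩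

theorem mem_of_dvd {a b r : ℕ} (hr : r.Prime) (h : r ∣ 2 ^ a * 3 ^ b) : r ∈ ({2, 3} : Set ℕ) := by
  rcases hr.dvd_mul.1 h with h | h
  · exact Or.inl ((Nat.prime_dvd_prime_iff_eq hr Nat.prime_two).1 (hr.dvd_of_dvd_pow h))
  · exact Or.inr ((Nat.prime_dvd_prime_iff_eq hr Nat.prime_three).1 (hr.dvd_of_dvd_pow h))

theorem hall_iff {G : Type*} [Group G] [Finite G] (H : Subgroup G) {a b n : ℕ}
    (h : Nat.card G = 2 ^ a * 3 ^ b * n) (h2 : ¬ 2 ∣ n) (h3 : ¬ 3 ∣ n) :
    Cfsg.IsPiHall ({2, 3} : Set ℕ) H ↔ Nat.card H = 2 ^ a * 3 ^ b := by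
  constructor
  · rintro ⟨k1, k2⟩
    obtain ⟨c, d, hcd⟩ := exists_eq Nat.card_pos.ne' k1
    rw [hcd, ← fact_eq h h2 h3, fact_eq (n := H.index) (by rw [← hcd, H.card_mul_index])
      (k2 2 Nat.prime_two (by simp)) (k2 3 Nat.prime_three (by simp))]
  · intro k
    have : H.index = n := Nat.eq_of_mul_eq_mul_left (Nat.card_pos (α := H))
      (by rw [H.card_mul_index, h, k])
    refine ⟨fun r hr hd => mem_of_dvd hr (k ▸ hd), ?_⟩
    rintro r - (rfl | rfl) <;> rwa [this]

/-- Let `F` be a finite field with `q` elements of characteristic `p ≥ 5`, and `ε = 1` if `q ≡ 1 (mod 4)`, `ε = -1` otherwise. Then `PSL(2, F)` has a Hall `{2, 3}`-subgroup if and only if `3` divides `q − ε`, or the `{2,3}`-part of `q² − 1` is 24, or the `{2,3}`-part of `q² − 1` is 48 (the `{2,3}`-part of `m` being the largest divisor of `m` with no prime factor other than 2 and 3). -/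
theorem result {F : Type*} [Field F] [Fintype F] {p : ℕ} [Fact p.Prime] [CharP F p]
    (hp : 5 ≤ p) (q : ℕ) (hq : Fintype.card F = q) :
    (∃ H : Subgroup (Matrix.ProjectiveSpecialLinearGroup (Fin 2) F), Cfsg.IsPiHall ({2, 3} : Set ℕ) H) ↔
      (3 ∣ q - 1 ∧ q % 4 = 1) ∨ (3 ∣ q + 1 ∧ q % 4 = 3) ∨
        2 ^ (q ^ 2 - 1).factorization 2 * 3 ^ (q ^ 2 - 1).factorization 3 = 24 ∨
        2 ^ (q ^ 2 - 1).factorization 2 * 3 ^ (q ^ 2 - 1).factorization 3 = 48 := by
  rw [← Nat.card_eq_fintype_card] at hq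
  subst hq
  have hp' : p.Prime := Fact.out
  have h2 : (2 : F) ≠ 0 := H10.two_ne_zero_of_charP (p := p) (by omega)
  have hodd := H10.odd_card_of_two_ne_zero h2
  have ho := Nat.odd_iff.1 hodd
  have hq2 := H10.two_le_card_field (F := F)
  obtain ⟨n, hn1, hn⟩ := H10.exists_card_eq_pow' F p
  have hq3 : ¬ 3 ∣ Nat.card F := fun h => by
    have := (Nat.prime_dvd_prime_iff_eq Nat.prime_three hp').1
      (Nat.prime_three.dvd_of_dvd_pow (hn ▸ h))
    omega
  have hsq : Nat.card F ^ 2 - 1 = (Nat.card F - 1) * (Nat.card F + 1) := by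
    rw [mul_comm, ← Nat.sq_sub_sq, one_pow]
  have hc := H10.card_PSL2 (F := F)
  rw [H10.gcd_two_eq_two hodd, mul_assoc, ← hsq] at hc
  obtain ⟨m, k1, k2, k3⟩ := exists_decomp (m := Nat.card F ^ 2 - 1) (by
    rw [hsq]; exact Nat.mul_ne_zero (by omega) (by omega))
  have h24 : 24 ∣ Nat.card F ^ 2 - 1 := by
    have h1 : Nat.card F % 24 < 24 := Nat.mod_lt _ (by norm_num)
    have h3 : Nat.card F ^ 2 % 24 = 1 := by
      rw [Nat.pow_mod]
      have h4 : Nat.card F % 24 % 2 = 1 := by omega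
      have h5 : Nat.card F % 24 % 3 ≠ 0 := by omega
      generalize Nat.card F % 24 = a at h1 h4 h5 ⊢
      interval_cases a <;> omega
    omega
  generalize (Nat.card F ^ 2 - 1).factorization 2 = a at *
  generalize (Nat.card F ^ 2 - 1).factorization 3 = b at *
  have h24' : 24 ∣ 2 ^ a * 3 ^ b := by
    refine Nat.Coprime.dvd_of_dvd_mul_right ?_ (k1 ▸ h24)
    rw [show 24 = 2 ^ 3 * 3 by rfl]
    exact ((Nat.prime_two.coprime_iff_not_dvd.2 k2).pow_left 3).mul_left
      (Nat.prime_three.coprime_iff_not_dvd.2 k3)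
  obtain ⟨a, rfl⟩ : ∃ c, a = c + 1 := by
    rcases a with _ | a
    · exfalso
      rw [pow_zero, one_mul] at h24'
      have := Nat.prime_two.dvd_of_dvd_pow ((by norm_num : 2 ∣ 24).trans h24')
      omega
    · exact ⟨a, rfl⟩
  have hG : Nat.card (Matrix.ProjectiveSpecialLinearGroup (Fin 2) F) =
      2 ^ a * 3 ^ b * (Nat.card F * m) := by
    refine Nat.eq_of_mul_eq_mul_left two_pos ?_
    rw [hc, k1]; ring
  have key := fun H => hall_iff H hG (by rw [Nat.prime_two.dvd_mul]; omega)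
    (by rw [Nat.prime_three.dvd_mul]; omega)
  simp only [key]
  have hab : 2 ^ (a + 1) * 3 ^ b = 2 * (2 ^ a * 3 ^ b) := by ring
  rw [hab] at h24' k1 ⊢
  have lift : ∀ K ≤ H10.pslSub F, Nat.card K = 2 ^ a * 3 ^ b →
      ∃ H : Subgroup (Matrix.ProjectiveSpecialLinearGroup (Fin 2) F),
        Nat.card H = 2 ^ a * 3 ^ b := fun K h1 h3 => by
    obtain ⟨H, -, ⟨e⟩⟩ := H10.exists_psl_subgroup h1
    exact ⟨H, (Nat.card_congr e.toEquiv).trans h3⟩
  constructor
  · rintro ⟨H, hH⟩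
    rw [← H10.card_map_pslPi] at hH
    rcases H10.dickson_coprime p (H := H.map (H10.pslPi F)) (fun h => by
      rcases mem_of_dvd hp' (hH ▸ h) with rfl | h
      · omega
      · rw [Set.mem_singleton_iff] at h; omega) with ⟨z, z', e, he, h⟩ | ⟨-, h | h | h⟩
    · have h3 := Subgroup.card_dvd_of_le (le_inf (H10.map_pslPi_le H) h)
      have h4 := he.card_psl_inf_torus
      rw [H10.gcd_two_eq_two hodd] at h4
      rw [he.card_inf_pairStab le_rfl, h4, hH] at h3
      have h5 : 12 ∣ e := (by omega : 12 ∣ 2 ^ a * 3 ^ b).trans h3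
      have := he.e_eq
      omega
    · omega
    · omega
    · have := mem_of_dvd (r := 5) (a := a) (b := b) (by norm_num) (by omega)
      simp at this
  · have dih : ∀ (z z' : H10.PLbar F) (e e' : ℕ), H10.IsTorusPair z z' e → 12 ∣ e →
        Nat.card F ^ 2 - 1 = e * (2 * e') → ¬ 2 ∣ e' → ¬ 3 ∣ e' →
        ∃ H : Subgroup (Matrix.ProjectiveSpecialLinearGroup (Fin 2) F),
          Nat.card H = 2 ^ a * 3 ^ b := by
      intro z z' e e' he h12 h3 h4 h5
      have h6 : 2 ^ a * 3 ^ b ∣ e := by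
        refine Nat.Coprime.dvd_of_dvd_mul_right (n := e') ?_ ⟨m, ?_⟩
        · exact ((Nat.prime_two.coprime_iff_not_dvd.2 h4).pow_left a).mul_left
            ((Nat.prime_three.coprime_iff_not_dvd.2 h5).pow_left b)
        · refine Nat.eq_of_mul_eq_mul_left two_pos ?_
          rw [← mul_assoc 2 (2 ^ a * 3 ^ b), ← k1, h3]; ring
      obtain ⟨c, hc⟩ := he.exists_gen (H10.pslSub F)
      have hc' : c ∈ H10.pslSub F ⊓ H10.torus _ z z' := hc ▸ Subgroup.mem_zpowers c
      have h7 := he.card_psl_inf_torus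
      rw [H10.gcd_two_eq_two hodd, hc, Nat.card_zpowers] at h7
      obtain ⟨u, hu⟩ : 2 ∣ 2 ^ a * 3 ^ b := by omega
      obtain ⟨v, hv⟩ := h6
      have h8 : orderOf c = u * v := by
        rw [hv, hu, mul_assoc] at h7; omega
      have h9 : v ≠ 0 := by
        rintro rfl
        have := orderOf_pos c
        omega
      have h10 : orderOf (c ^ v) = u := by
        rw [orderOf_pow_of_dvd h9 ⟨u, by rw [h8, mul_comm]⟩, h8, Nat.mul_div_cancel _ (by omega)]
      obtain ⟨s, hs, s1, s2⟩ := he.exists_swap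
      have hl := H10.lineAct_pgl F p
      have hT := (H10.torus _ z z').pow_mem hc'.2 v
      obtain ⟨ed⟩ := H10.nonempty_closure_equiv_dihedral (hl.swap_mul_self he.1 s1 s2)
        (hl.swap_inverts he.1 s1 s2 hT.1 hT.2)
        (fun h => he.1 ((Subgroup.zpowers_le_of_mem hT h).1.symm.trans s1))
      refine lift _ ?_ (by rw [H10.card_of_equiv ed, DihedralGroup.nat_card, h10, hu])
      rw [Subgroup.closure_le]
      rintro x (rfl | rfl)
      · exact (H10.pslSub F).pow_mem hc'.1 v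
      · exact hs
    rintro (h | h | h | h)
    · refine dih _ _ _ ((Nat.card F + 1) / 2) (H10.exists_isTorusPair_split F) (by omega) ?_
        (by omega) (by omega)
      rw [hsq, Nat.mul_div_cancel' (by omega)]
    · obtain ⟨z, z', -, he⟩ := H10.exists_isTorusPair_nonsplit F
      refine dih _ _ _ ((Nat.card F - 1) / 2) he (by omega) ?_ (by omega) (by omega)
      rw [hsq, Nat.mul_div_cancel' (by omega), mul_comm]
    · obtain ⟨A, ⟨e⟩⟩ := H10.exists_A4 h2
      exact lift A (H10.alternating_le_pslSub e) (by rw [H10.card_of_equiv e, H10.card_A4]; omega)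
    · obtain ⟨A, ⟨e⟩⟩ := H10.exists_S4 h2
      refine lift A ((H10.S4_le_pslSub_iff h2 e).2 ?_)
        (by rw [H10.card_of_equiv e, H10.card_S4]; omega)
      have h1 : Nat.card F % 16 < 16 := Nat.mod_lt _ (by norm_num)
      have h3 : Nat.card F ^ 2 % 16 = 1 := by
        rw [h] at k1
        have : 1 ≤ Nat.card F ^ 2 := Nat.one_le_pow _ _ (by omega)
        omega
      rw [Nat.pow_mod] at h3
      rw [← Nat.mod_mod_of_dvd _ (show 8 ∣ 16 by norm_num)]
      generalize Nat.card F % 16 = x at h1 h3 ⊢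
      interval_cases x <;> omega

end Cfsg.Agent.S2537
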