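import Cfsg.Statements.S2540
import Mathlib
import Cfsg.Agent.L0.GLn4
import Cfsg.Agent.H10.SL
-- import your own Cfsg.Agent.* helpers here

set_option autoImplicit false
open Cfsg

namespace Cfsg.Agent.S2540

open Cfsg.Agent.L0

/-- Let F be a finite field and n ≥ 1, excluding the case n = 2 with #F ≤ 3. A subgroup of GL_n(F) that is normalized by every element of SL_n(F) either consists of scalar matrices or contains SL_n(F). -/
theorem result {F : Type*} [Field F] [Fintype F] (n : ℕ) (hn : 1 ≤ n) (hex : ¬ (n = 2 ∧ Fintype.card F ≤ 3)) (G : Subgroup (Matrix.GeneralLinearGroup (Fin n) F)) (hG : ∀ s : Matrix.SpecialLinearGroup (Fin n) F, ∀ g ∈ G, (Matrix.SpecialLinearGroup.toGL s) * g * (Matrix.SpecialLinearGroup.toGL s)⁻¹ ∈ G) : (∀ g ∈ G, ∃ c : F, (g : Matrix (Fin n) (Fin n) F) = c • (1 : Matrix (Fin n) (Fin n) F)) ∨ (Matrix.SpecialLinearGroup.toGL : Matrix.SpecialLinearGroup (Fin n) F →* _).range ≤ G := by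
  rcases hn.eq_or_lt with rfl | hn2
  · left
    intro g _
    refine ⟨(g : Matrix (Fin 1) (Fin 1) F) 0 0, ?_⟩
    ext i j
    simp [Subsingleton.elim i 0, Subsingleton.elim j 0]
  have hperf := H10.commutator_SL_fin_eq_top (F := F) hn2 fun h => by
    rw [Nat.card_eq_fintype_card]; by_contra h2; exact hex ⟨h, by omega⟩
  haveI : (G.comap (Matrix.SpecialLinearGroup.toGL : Matrix.SpecialLinearGroup (Fin n) F →* _)).Normal :=
    ⟨fun x hx s => by rw [Subgroup.mem_comap, map_mul, map_mul, map_inv]; exact hG s _ hx⟩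
  rcases H10.normal_SL_le_center_or
    (G.comap (Matrix.SpecialLinearGroup.toGL : Matrix.SpecialLinearGroup (Fin n) F →* _)) with h | h
  · left
    intro g hg
    have key : ∀ s : Matrix.SpecialLinearGroup (Fin n) F, Matrix.SpecialLinearGroup.toGL s * g *
        (Matrix.SpecialLinearGroup.toGL s)⁻¹ * g⁻¹ ∈ Subgroup.center (GL (Fin n) F) := by
      intro s
      have h1 : Matrix.GeneralLinearGroup.det (Matrix.SpecialLinearGroup.toGL s * g *
        (Matrix.SpecialLinearGroup.toGL s)⁻¹ * g⁻¹) = 1 := by simp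
      let t : Matrix.SpecialLinearGroup (Fin n) F := ⟨(Matrix.SpecialLinearGroup.toGL s * g *
        (Matrix.SpecialLinearGroup.toGL s)⁻¹ * g⁻¹ : GL (Fin n) F), congrArg Units.val h1⟩
      have h2 : t ∈ G.comap (Matrix.SpecialLinearGroup.toGL : Matrix.SpecialLinearGroup (Fin n) F →* _) := by
        have : Matrix.SpecialLinearGroup.toGL t = Matrix.SpecialLinearGroup.toGL s * g *
          (Matrix.SpecialLinearGroup.toGL s)⁻¹ * g⁻¹ := Units.ext rfl
        rw [Subgroup.mem_comap, this]
        exact G.mul_mem (hG s g hg) (G.inv_mem hg)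
      exact (mem_center_gl_iff _).2 ((mem_center_sl_iff t).1 (h h2))
    let φ : Matrix.SpecialLinearGroup (Fin n) F →* Subgroup.center (GL (Fin n) F) :=
      MonoidHom.mk' (fun s => ⟨_, key s⟩) fun s t => Subtype.ext (by
        have := Subgroup.mem_center_iff.1 (key t)
        simp only [Subgroup.coe_mul, map_mul]
        generalize Matrix.SpecialLinearGroup.toGL s = a
        generalize Matrix.SpecialLinearGroup.toGL t = b at this
        calc _ = a * (b * g * b⁻¹ * g⁻¹) * (g * a⁻¹ * g⁻¹) := by group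
          _ = (b * g * b⁻¹ * g⁻¹) * (a * g * a⁻¹ * g⁻¹) := by rw [this a]; group
          _ = _ := by rw [this])
    have h3 : commutator (Matrix.SpecialLinearGroup (Fin n) F) ≤ φ.ker := by
      rw [commutator_def, Subgroup.commutator_le]
      intro a _ b _
      rw [MonoidHom.mem_ker, map_commutatorElement, commutatorElement_eq_one_iff_mul_comm]
      exact Subtype.ext (Subgroup.mem_center_iff.1 (φ b).2 _)
    rw [hperf] at h3
    obtain ⟨c, hc⟩ := Matrix.mem_range_scalar_of_commute_transvectionStruct (M := (g : Matrix (Fin n) (Fin n) F))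
      fun t => by
        have h4 := congrArg Subtype.val (MonoidHom.mem_ker.1 (h3 (Subgroup.mem_top ⟨t.toMatrix, t.det⟩)))
        exact congrArg Units.val (commutatorElement_eq_one_iff_mul_comm.1 h4)
    exact ⟨c, by rw [← hc, Matrix.smul_one_eq_diagonal]; rfl⟩
  · right
    rintro _ ⟨s, rfl⟩
    rw [hperf] at h
    exact h (Subgroup.mem_top s)

end Cfsg.Agent.S2540
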