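import Cfsg.Statements.S2541
import Mathlib
import Cfsg.Agent.H10.PGL2

set_option autoImplicit false
open Cfsg

namespace Cfsg.Agent.S2541

/-- Let F be a field with 9 elements. The symmetric group S_6 is not isomorphic to PGL_2(F) (although both have index-2 subgroups isomorphic to A_6). -/
theorem result {F : Type*} [Field F] [Fintype F] (hF : Fintype.card F = 9) : ¬ Nonempty (Equiv.Perm (Fin 6) ≃* Matrix.ProjGenLinGroup (Fin 2) F) := by
  rintro ⟨e⟩
  have key : ∀ g : Equiv.Perm (Fin 6), g ^ 60 = 1 := fun g => by
    ext1 x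
    have h1 : Function.minimalPeriod (g • ·) x ≤ 6 := by
      simpa using Function.minimalPeriod_le_card (f := (g • ·)) (x := x)
    have h2 : 0 < Function.minimalPeriod (g • ·) x :=
      Function.minimalPeriod_pos_of_mem_periodicPts ((MulAction.injective g).mem_periodicPts x)
    have h3 : Function.minimalPeriod (g • ·) x ∣ 60 := by
      generalize Function.minimalPeriod (g • ·) x = k at h1 h2
      interval_cases k <;> norm_num
    exact MulAction.pow_smul_eq_iff_minimalPeriod_dvd.mpr h3
  obtain ⟨a, ha⟩ := IsCyclic.exists_ofOrder_eq_natCard (α := Fˣ)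
  rw [Nat.card_units, Nat.card_eq_fintype_card, hF] at ha
  have h1 := congrArg e (key (e.symm (H10.aff a 0)))
  rw [map_pow, MulEquiv.apply_symm_apply, map_one, H10.aff_zero_pow, H10.aff_eq_one_iff] at h1
  have := orderOf_dvd_of_pow_eq_one h1.1
  rw [ha] at this
  norm_num at this

end Cfsg.Agent.S2541
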