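import Cfsg.Statements.S2542
import Mathlib
import Cfsg.Agent.H10.PSL2Max3

set_option autoImplicit false
open Cfsg

namespace Cfsg.Agent.S2542

theorem conj_of_sylow {G : Type*} [Group G] [Finite G] {H Q Q' : Subgroup G} {r : ℕ} [Fact r.Prime]
    (h1 : Q ≤ H) (h2 : Q' ≤ H) (hc : Nat.card Q = r ^ (Nat.card H).factorization r)
    (hc' : Nat.card Q' = r ^ (Nat.card H).factorization r) :
    ∃ h ∈ H, Q.map (MulAut.conj h).toMonoidHom = Q' := by
  let P₁ : Sylow r H := Sylow.ofCard (Q.subgroupOf H) (by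
    rw [Nat.card_congr (Subgroup.subgroupOfEquivOfLe h1).toEquiv, hc])
  let P₂ : Sylow r H := Sylow.ofCard (Q'.subgroupOf H) (by
    rw [Nat.card_congr (Subgroup.subgroupOfEquivOfLe h2).toEquiv, hc'])
  obtain ⟨h, hh⟩ := MulAction.exists_smul_eq H P₁ P₂
  have h4 : (Q.subgroupOf H).map (MulAut.conj h).toMonoidHom = Q'.subgroupOf H :=
    congrArg Sylow.toSubgroup hh
  have h5 := congrArg (Subgroup.map H.subtype) h4
  rw [H10.map_conj_map, Subgroup.map_subgroupOf_eq_of_le h1, Subgroup.map_subgroupOf_eq_of_le h2] at h5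
  exact ⟨h, h.2, h5⟩

theorem mem_of_sylow {G : Type*} [Group G] [Finite G] {M H Q : Subgroup G} {r : ℕ} [Fact r.Prime]
    {g : G} (h1 : Q ≤ H) (hHM : H ≤ M) (hg : g ∈ M)
    (hc : Nat.card Q = r ^ (Nat.card H).factorization r)
    (hN : M ⊓ Subgroup.normalizer (Q : Set G) ≤ H)
    (h2 : Nat.card Q ∣ Nat.card (H ⊓ H.map (MulAut.conj g).toMonoidHom : Subgroup G)) : g ∈ H := by
  obtain ⟨P, hP⟩ := Sylow.exists_subgroup_card_pow_prime r (hc ▸ h2)
  set P' := P.map (H ⊓ H.map (MulAut.conj g).toMonoidHom).subtype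
  have a1 : P' ≤ H ⊓ H.map (MulAut.conj g).toMonoidHom := Subgroup.map_subtype_le _
  have a2 : Nat.card P' = r ^ (Nat.card H).factorization r := by
    rw [← hP]; exact (Nat.card_congr (P.equivMapOfInjective _ (Subgroup.subtype_injective _)).toEquiv).symm
  obtain ⟨h, hh, k⟩ := conj_of_sylow h1 (a1.trans inf_le_left) hc a2
  obtain ⟨h', hh', k'⟩ := conj_of_sylow (Q' := P'.map (MulAut.conj g⁻¹).toMonoidHom) h1
    (H10.map_conj_le_iff_le.2 (by rw [inv_inv]; exact a1.trans inf_le_right)) hc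
    (by rw [H10.card_map_conj, a2])
  have a3 : Q.map (MulAut.conj (h'⁻¹ * (g⁻¹ * h))).toMonoidHom = Q := by
    rw [← H10.map_conj_map_conj, ← H10.map_conj_map_conj, k, ← k', H10.map_conj_map_conj,
      inv_mul_cancel, H10.map_conj_one]
  have a4 := hN ⟨M.mul_mem (M.inv_mem (hHM hh')) (M.mul_mem (M.inv_mem hg) (hHM hh)),
    H10.map_conj_eq_iff.1 a3⟩
  have a5 := H.mul_mem (H.mul_mem hh' a4) (H.inv_mem hh)
  simpa using a5

theorem key {F : Type*} [Field F] [Finite F] (hF : Nat.card F = 11)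
    {V : Subgroup (Matrix.ProjGenLinGroup (Fin 2) F)} (e : V ≃* alternatingGroup (Fin 5))
    {g : Matrix.ProjGenLinGroup (Fin 2) F} (hg : g ∉ V) (hgL : g ∈ H10.pslSub F) :
    Nat.card (V ⊓ V.map (MulAut.conj g).toMonoidHom : Subgroup _) ≤ 6 := by
  have hodd : Odd (Nat.card F) := by rw [hF]; decide
  have h2 := H10.two_ne_zero_of_odd hodd
  have hc := (H10.card_of_equiv e).trans H10.card_A5
  have hV := H10.alternating_le_pslSub e
  have h1 := Subgroup.card_dvd_of_le (inf_le_left : V ⊓ V.map (MulAut.conj g).toMonoidHom ≤ V)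
  have := Fact.mk Nat.prime_two
  have := Fact.mk (show Nat.Prime 5 by norm_num)
  have f2 : Nat.factorization 60 2 = 2 := by
    rw [← Nat.primeFactorsList_count_eq]; simp [Nat.primeFactorsList_ofNat]
  have f5 : Nat.factorization 60 5 = 1 := by
    rw [← Nat.primeFactorsList_count_eq]; simp [Nat.primeFactorsList_ofNat]
  have k4 : ¬ 4 ∣ Nat.card (V ⊓ V.map (MulAut.conj g).toMonoidHom : Subgroup _) := by
    obtain ⟨A, hA, ⟨eA⟩⟩ := H10.exists_A4_of_A5 e
    obtain ⟨Q, hQ, hQ', hN⟩ := H10.normalizer_A4 h2 eA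
    intro h
    refine hg (mem_of_sylow (r := 2) (hQ.trans hA) hV hgL (by rw [hc, hQ'.card_four, f2]; rfl) ?_
      (hQ'.card_four ▸ h))
    obtain ⟨eS⟩ := H10.normalizer_A4_equiv h2 eA
    have a1 := H10.covBy_of_card_prime (Subgroup.le_normalizer (H := A)) Nat.prime_two (by
      rw [H10.card_of_equiv eS, H10.card_of_equiv eA, H10.card_A4, H10.card_S4])
    rw [← hN, ← H10.CovBy.eq_of_le_of_ne a1 (le_inf (hA.trans hV) Subgroup.le_normalizer)
      inf_le_right fun k => by
        have := (H10.S4_le_pslSub_iff h2 eS).1 (inf_eq_right.1 k)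
        omega]
    exact hA
  have k5 : ¬ 5 ∣ Nat.card (V ⊓ V.map (MulAut.conj g).toMonoidHom : Subgroup _) := by
    obtain ⟨c, hcV, s, hsV, h1, h2, h3, h4⟩ := H10.dihPair_A5_five e
    intro h
    refine hg (mem_of_sylow (r := 5) (Subgroup.zpowers_le_of_mem hcV) hV hgL
      (by rw [hc, Nat.card_zpowers, h1, f5]; rfl) ?_ (by rwa [Nat.card_zpowers, h1]))
    obtain ⟨p, hp, _⟩ := H10.exists_charP F
    have := Fact.mk hp
    obtain rfl := H10.char_eq_of_card_eq p (r := 11) (n := 1) (by norm_num) hF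
    obtain ⟨z, z', d, hd, hz⟩ := H10.exists_isTorusPair_of_pow_ne (p := 11) (g := c)
      (H10.pow_char_ne_one_of_not_dvd (by omega) (by omega))
    have hc1 : c ≠ 1 := fun e => by simp [e] at h1
    have hl := H10.lineAct_pgl F 11
    have a1 : H10.pslSub F ⊓ Subgroup.normalizer (Subgroup.zpowers c : Set _) ≤
        H10.pslSub F ⊓ H10.pairStab _ z z' := inf_le_inf_left _ fun x hx =>
      hl.mem_pairStab_of_conj hd.1 hc1 hz (Subgroup.zpowers_le_of_mem hz
        (H10.map_conj_eq_iff.2 hx ▸ ⟨c, Subgroup.mem_zpowers c, rfl⟩))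
    have a2 : Subgroup.closure {c, s} ≤ H10.pslSub F ⊓ H10.pairStab _ z z' := by
      rw [Subgroup.closure_le]
      rintro x (rfl | rfl)
      · exact ⟨hV hcV, H10.torus_le_pairStab _ _ hz⟩
      · exact ⟨hV hsV, hl.mem_pairStab_of_conj hd.1 hc1 hz (h2 ▸ inv_mem hz)⟩
    have a3 : Subgroup.closure {c, s} ≤ V := by
      rw [Subgroup.closure_le]
      rintro x (rfl | rfl) <;> assumption
    obtain ⟨ed⟩ := H10.nonempty_closure_equiv_dihedral h4 h2 h3
    refine a1.trans ((Subgroup.eq_of_le_of_card_ge a2 ?_).ge.trans a3)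
    have a4 := hd.card_psl_inf_torus
    have a5 := hd.mul_orderOf_dvd (hV hcV) hz
    have a6 := hd.e_eq
    rw [H10.gcd_two_eq_two hodd] at a4 a5
    rw [H10.card_of_equiv ed, DihedralGroup.nat_card, hd.card_inf_pairStab le_rfl]
    rw [‹orderOf c = 5›] at a5 ⊢
    omega
  rw [hc] at h1
  have := Nat.le_of_dvd (by norm_num) h1
  generalize Nat.card (V ⊓ V.map (MulAut.conj g).toMonoidHom : Subgroup _) = m at *
  interval_cases m <;> omega

/-- Let F be a field with 11 elements. PSL_2(F) has a subgroup H of index 11 isomorphic to the alternating group A_5, and the action of PSL_2(F) on the cosets of H is 2-transitive (of degree 11). -/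
theorem result {F : Type*} [Field F] [Fintype F] (hF : Fintype.card F = 11) : ∃ H : Subgroup (Matrix.ProjectiveSpecialLinearGroup (Fin 2) F), H.index = 11 ∧ Nonempty (H ≃* alternatingGroup (Fin 5)) ∧ MulAction.IsMultiplyPretransitive (Matrix.ProjectiveSpecialLinearGroup (Fin 2) F) ((Matrix.ProjectiveSpecialLinearGroup (Fin 2) F) ⧸ H) 2 := by
  rw [← Nat.card_eq_fintype_card] at hF
  obtain ⟨V, ⟨e⟩⟩ := H10.exists_A5 (F := F) (by rw [hF]; norm_num)
  obtain ⟨H, rfl, ⟨e'⟩⟩ := H10.exists_psl_subgroup (H10.alternating_le_pslSub e)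
  have hc := (H10.card_of_equiv (e'.trans e)).trans H10.card_A5
  have hi : H.index = 11 := by
    have h1 := H.index_mul_card
    have h2 := H10.card_PSL2 (F := F)
    rw [hF, show Nat.gcd 2 (11 - 1) = 2 by rfl] at h2
    rw [hc] at h1
    omega
  refine ⟨H, hi, ⟨e'.trans e⟩, ?_⟩
  have h0 : ∀ x y : Matrix.ProjectiveSpecialLinearGroup (Fin 2) F ⧸ H, x ≠ (1 : Matrix.ProjectiveSpecialLinearGroup (Fin 2) F) →
      y ≠ (1 : Matrix.ProjectiveSpecialLinearGroup (Fin 2) F) → ∃ h : H, h • x = y := by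
    intro x y hx hy
    obtain ⟨g, rfl⟩ := QuotientGroup.mk_surjective x
    have hg : g ∉ H := fun h => hx (QuotientGroup.eq.2 (by simpa using h))
    have h1 := key hF e (g := H10.pslPi F g) (fun h => hg (by
      rwa [Subgroup.mem_map_iff_mem H10.pslPi_injective] at h)) (H10.pslPi_mem g)
    rw [← H10.map_conj_map, ← Subgroup.map_inf _ _ _ H10.pslPi_injective, H10.card_map_pslPi] at h1
    have h2 := H10.card_orbit_mul_card_inf H (g : Matrix.ProjectiveSpecialLinearGroup (Fin 2) F ⧸ H)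
    have h3 : MulAction.stabilizer (Matrix.ProjectiveSpecialLinearGroup (Fin 2) F)
        (g : Matrix.ProjectiveSpecialLinearGroup (Fin 2) F ⧸ H) =
        H.map (MulAut.conj g).toMonoidHom := by
      ext x
      rw [MulAction.mem_stabilizer_iff, H10.mem_map_conj, MulAction.Quotient.smul_mk, eq_comm,
        QuotientGroup.eq, smul_eq_mul, mul_assoc]
    rw [h3, hc] at h2
    have h4 : MulAction.orbit H (g : Matrix.ProjectiveSpecialLinearGroup (Fin 2) F ⧸ H) ⊆
        {((1 : Matrix.ProjectiveSpecialLinearGroup (Fin 2) F) : _ ⧸ H)}ᶜ := by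
      rintro _ ⟨h, rfl⟩ k
      refine hg ?_
      have : ((h * g : Matrix.ProjectiveSpecialLinearGroup (Fin 2) F) : _ ⧸ H) = (1 : Matrix.ProjectiveSpecialLinearGroup (Fin 2) F) := k
      rw [eq_comm, QuotientGroup.eq] at this
      simpa using H.mul_mem (H.inv_mem h.2) this
    have h5 := Set.eq_of_subset_of_ncard_le h4 (by
      rw [Set.ncard_compl, Set.ncard_singleton, ← Subgroup.index_eq_card, hi, ← Nat.card_coe_set_eq]
      by_contra h
      have := Nat.mul_le_mul (show Nat.card (MulAction.orbit H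
        (g : Matrix.ProjectiveSpecialLinearGroup (Fin 2) F ⧸ H)) ≤ 9 by omega) h1
      exact absurd (h2.symm.trans_le this) (by norm_num))
    have : y ∈ MulAction.orbit H (g : Matrix.ProjectiveSpecialLinearGroup (Fin 2) F ⧸ H) := h5 ▸ hy
    exact this
  rw [MulAction.is_two_pretransitive_iff]
  intro a b c d hab hcd
  obtain ⟨g, hg⟩ := MulAction.exists_smul_eq (Matrix.ProjectiveSpecialLinearGroup (Fin 2) F) a
    ((1 : Matrix.ProjectiveSpecialLinearGroup (Fin 2) F) : _ ⧸ H)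
  obtain ⟨g', hg'⟩ := MulAction.exists_smul_eq (Matrix.ProjectiveSpecialLinearGroup (Fin 2) F) c
    ((1 : Matrix.ProjectiveSpecialLinearGroup (Fin 2) F) : _ ⧸ H)
  obtain ⟨h, hh⟩ := h0 (g • b) (g' • d) (fun k => hab (smul_left_cancel g (hg.trans k.symm)))
    (fun k => hcd (smul_left_cancel g' (hg'.trans k.symm)))
  refine ⟨g'⁻¹ * h * g, ?_, ?_⟩
  · rw [mul_smul, mul_smul, inv_smul_eq_iff, hg, hg', MulAction.Quotient.smul_mk, eq_comm,
      QuotientGroup.eq]
    simp
  · rw [mul_smul, mul_smul, inv_smul_eq_iff]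
    exact hh

end Cfsg.Agent.S2542
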