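import Cfsg.Statements.S2543
import Mathlib
import Cfsg.Agent.H10.PSL2Max3

set_option autoImplicit false
open scoped Pointwise
open Cfsg

namespace Cfsg.Agent.S2543

/-- Let F be a field with 11 elements. PSL_2(F) has exactly 22 subgroups isomorphic to the alternating group A_5, and they form two conjugacy classes: there are two such subgroups that are not conjugate, and every such subgroup is conjugate to one of these two. -/
theorem result {F : Type*} [Field F] [Fintype F] (hF : Fintype.card F = 11) : Nat.card {H : Subgroup (Matrix.ProjectiveSpecialLinearGroup (Fin 2) F) // Nonempty (H ≃* alternatingGroup (Fin 5))} = 22 ∧ ∃ H K : Subgroup (Matrix.ProjectiveSpecialLinearGroup (Fin 2) F), Nonempty (H ≃* alternatingGroup (Fin 5)) ∧ Nonempty (K ≃* alternatingGroup (Fin 5)) ∧ (∀ g : Matrix.ProjectiveSpecialLinearGroup (Fin 2) F, MulAut.conj g • H ≠ K) ∧ ∀ L : Subgroup (Matrix.ProjectiveSpecialLinearGroup (Fin 2) F), Nonempty (L ≃* alternatingGroup (Fin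 5)) → ∃ g : Matrix.ProjectiveSpecialLinearGroup (Fin 2) F, MulAut.conj g • L = H ∨ MulAut.conj g • L = K := by
  rw [← Nat.card_eq_fintype_card] at hF
  have hodd : Odd (Nat.card F) := by rw [hF]; decide
  have h2 := H10.two_ne_zero_of_odd hodd
  have hi := H10.index_pslSub_odd h2
  obtain ⟨V, ⟨e⟩⟩ := H10.exists_A5 (F := F) (by rw [hF]; norm_num)
  have hV := H10.alternating_le_pslSub e
  have hN := H10.normalizer_A5 h2 (by rw [hF]; norm_num) (by omega) e
  have hs : ∀ (g : Matrix.ProjectiveSpecialLinearGroup (Fin 2) F) (H : Subgroup _),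
      MulAut.conj g • H = H.map (MulAut.conj g).toMonoidHom := fun g H => rfl
  refine ⟨?_, ?_⟩
  · have h1 := H10.card_conj_subgroups ⊤ V
    have h3 := H10.card_setOf_psl (F := F) fun W => Nonempty (W ≃* alternatingGroup (Fin 5))
    have h4 : Nat.card {V : Subgroup (Matrix.ProjectiveSpecialLinearGroup (Fin 2) F) //
        Nonempty (V ≃* alternatingGroup (Fin 5))} =
        Nat.card {V : Subgroup (Matrix.ProjectiveSpecialLinearGroup (Fin 2) F) //
          Nonempty (V.map (H10.pslPi F) ≃* alternatingGroup (Fin 5))} :=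
      Nat.card_congr (Equiv.subtypeEquivRight fun W => ⟨fun ⟨e⟩ => ⟨(H10.mapPslEquiv W).symm.trans e⟩,
        fun ⟨e⟩ => ⟨(H10.mapPslEquiv W).trans e⟩⟩)
    have h5 : {W : Subgroup (Matrix.ProjGenLinGroup (Fin 2) F) | W ≤ H10.pslSub F ∧
        Nonempty (W ≃* alternatingGroup (Fin 5))} =
        {W | ∃ g ∈ (⊤ : Subgroup _), V.map (MulAut.conj g).toMonoidHom = W} := by
      ext W
      constructor
      · rintro ⟨a, ⟨b⟩⟩
        obtain ⟨g, hg⟩ := H10.A5_conj h2 e b
        exact ⟨g, trivial, hg⟩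
      · rintro ⟨g, -, rfl⟩
        exact ⟨H10.map_conj_le_of_normal hV g, ⟨(H10.mapConjEquiv V g).symm.trans e⟩⟩
    rw [top_inf_eq, hN, H10.card_of_equiv e, H10.card_A5, Subgroup.card_top, H10.card_PGL2, hF,
      ← h5, ← h3, ← h4] at h1
    omega
  · obtain ⟨x, h1, h3⟩ := H10.exists_two_classes hi (hN.le.trans hV)
    obtain ⟨V₁, rfl, ⟨e₁⟩⟩ := H10.exists_psl_subgroup hV
    obtain ⟨V₂, hV₂, ⟨e₂⟩⟩ := H10.exists_psl_subgroup (H10.map_conj_le_of_normal hV x)
    refine ⟨V₁, V₂, ⟨e₁.trans e⟩, ⟨(e₂.trans (H10.mapConjEquiv _ x).symm).trans e⟩, ?_,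
      fun W ⟨eW⟩ => ?_⟩
    · rintro g rfl
      exact h1 _ (H10.pslPi_mem g) (by rw [← hV₂, hs, H10.map_conj_map])
    · obtain ⟨g, hg⟩ := H10.A5_conj h2 e ((H10.mapPslEquiv W).symm.trans eW)
      obtain ⟨n, hn, k | k⟩ := h3 g
      · obtain ⟨m, rfl⟩ := H10.exists_conj_psl hn (k.trans hg)
        exact ⟨m⁻¹, Or.inl (by rw [hs, H10.map_conj_map_conj, inv_mul_cancel, H10.map_conj_one])⟩
      · obtain ⟨m, rfl⟩ := H10.exists_conj_psl hn (hV₂ ▸ k.trans hg)
        exact ⟨m⁻¹, Or.inr (by rw [hs, H10.map_conj_map_conj, inv_mul_cancel, H10.map_conj_one])⟩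

end Cfsg.Agent.S2543
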