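import Cfsg.Statements.S2550
import Mathlib
import Cfsg.Agent.H10.SmallIso2
import Cfsg.Agent.S0819

set_option autoImplicit false
open Cfsg

namespace Cfsg.Agent.S2550

/-- Let F be a field with 2 elements and K a field with 4 elements. PSL_4(F) and PSL_3(K) have the same order (20160) but are not isomorphic. -/
theorem result {F K : Type*} [Field F] [Fintype F] [Field K] [Fintype K] (hF : Fintype.card F = 2) (hK : Fintype.card K = 4) : Nat.card (Matrix.ProjectiveSpecialLinearGroup (Fin 4) F) = Nat.card (Matrix.ProjectiveSpecialLinearGroup (Fin 3) K) ∧ ¬ Nonempty (Matrix.ProjectiveSpecialLinearGroup (Fin 4) F ≃* Matrix.ProjectiveSpecialLinearGroup (Fin 3) K) := by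
  obtain ⟨e⟩ := H10.PSL4_two_equiv (F := F) (by rw [Nat.card_eq_fintype_card, hF])
  refine ⟨?_, fun ⟨f⟩ => ?_⟩
  · have h1 := H10.card_PSL_fin (F := F) 4 (by norm_num)
    have h2 := H10.card_SL_fin (F := F) 4 (by norm_num)
    have h3 := H10.card_PSL_fin (F := K) 3 (by norm_num)
    have h4 := H10.card_SL_fin (F := K) 3 (by norm_num)
    rw [hF] at h1 h2
    rw [hK] at h3 h4
    norm_num [Fin.prod_univ_succ] at h1 h2 h3 h4
    omega
  · let c : Equiv.Perm (Fin 8) := Equiv.swap 0 1 * Equiv.swap 1 2 *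
      (Equiv.swap 3 4 * Equiv.swap 4 5 * Equiv.swap 5 6 * Equiv.swap 6 7)
    have hc : orderOf c = 15 := (orderOf_eq_iff (by norm_num)).mpr ⟨by decide +kernel, by decide +kernel⟩
    have hm : c ∈ alternatingGroup (Fin 8) := by
      rw [Equiv.Perm.mem_alternatingGroup]; simp [c]
    refine S0819.result hK (f (e.symm ⟨c, hm⟩)) ?_
    rw [MulEquiv.orderOf_eq, MulEquiv.orderOf_eq, Subgroup.orderOf_mk, hc]

end Cfsg.Agent.S2550
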