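import Cfsg.Statements.S2551
import Mathlib
import Cfsg.Agent.H10.SmallIso2

set_option autoImplicit false
open Cfsg

namespace Cfsg.Agent.S2551


/-- Let F be the field with 2 elements. GL_4(F) (≅ A_8) has a subgroup isomorphic to the alternating group A_7, and every such subgroup acts 2-transitively on the 15 non-zero vectors of F⁴: any ordered pair of distinct non-zero vectors is carried to any other by some element of the subgroup. -/
theorem result {F : Type*} [Field F] [Fintype F] (hF : Fintype.card F = 2) : (∃ H : Subgroup (Matrix.GeneralLinearGroup (Fin 4) F), Nonempty (H ≃* alternatingGroup (Fin 7))) ∧ ∀ H : Subgroup (Matrix.GeneralLinearGroup (Fin 4) F), Nonempty (H ≃* alternatingGroup (Fin 7)) → ∀ v w v' w' : Fin 4 → F, v ≠ 0 → w ≠ 0 → v ≠ w → v' ≠ 0 → w' ≠ 0 → v' ≠ w' → ∃ g ∈ H, (g : Matrix (Fin 4) (Fin 4) F).mulVec v = v' ∧ (g : Matrix (Fin 4) (Fin 4) F).mulVec w = w' := by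
  classical
  have u : ∀ a : F, a ≠ 0 → a = 1 := fun a r => by simpa [hF] using FiniteField.pow_card_sub_one_eq_one a r
  constructor
  · obtain ⟨e⟩ := H10.SL4_two_equiv (F := F) (by simpa)
    let f := (finSuccAboveEquiv (0 : Fin 8))
    let φ : alternatingGroup (Fin 7) →* alternatingGroup (Fin 8) :=
      ((Equiv.Perm.extendDomainHom f).comp (Subgroup.subtype _)).codRestrict _ fun g => by
        simpa [Equiv.Perm.mem_alternatingGroup] using Equiv.Perm.mem_alternatingGroup.1 g.2
    have : Function.Injective (Matrix.SpecialLinearGroup.toGL.comp (e.symm.toMonoidHom.comp φ)) :=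
      Matrix.SpecialLinearGroup.toGL_injective.comp (e.symm.injective.comp fun a b r =>
        Subtype.ext (Equiv.Perm.extendDomainHom_injective f (congrArg Subtype.val r)))
    exact ⟨_, ⟨(MonoidHom.ofInjective this).symm⟩⟩
  rintro H ⟨e⟩
  have cH : Nat.card H = 2520 := by rw [Nat.card_congr e.toEquiv, nat_card_alternatingGroup]; simp [Nat.factorial]
  have cG : Nat.card (GL (Fin 4) F) = 20160 := by rw [Matrix.card_GL_field, hF]; decide
  let X : Finset ((Fin 4 → F) × (Fin 4 → F)) := (Finset.univ.erase 0).offDiag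
  have cX : X.card = 210 := by simp [X, hF]
  have mX : ∀ {p}, p ∈ X ↔ p.1 ≠ 0 ∧ p.2 ≠ 0 ∧ p.1 ≠ p.2 := by simp [X]
  have sX : ∀ (g : GL (Fin 4) F) p, p ∈ X → g • p ∈ X := by
    simp +contextual [mX, smul_eq_zero_iff_eq]
  have tr : ∀ p ∈ X, MulAction.orbit (GL (Fin 4) F) p = X := fun p hp =>
    Set.Subset.antisymm (by rintro _ ⟨g, rfl⟩; exact sX g p hp) fun q hq => by
    obtain ⟨a, b, c⟩ := mX.1 hp
    obtain ⟨a', b', c'⟩ := mX.1 hq
    have k : ∀ {v w : Fin 4 → F} {h h'}, Projectivization.mk F v h = .mk F w h' → v = w := fun r => by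
      obtain ⟨x, hx⟩ := (Projectivization.mk_eq_mk_iff _ _ _ _ _).1 r
      rw [← hx, Units.smul_def, u x x.ne_zero, one_smul]
    have tt := (MulAction.is_two_pretransitive_iff (G := Matrix.SpecialLinearGroup (Fin 4) F)
      (α := Projectivization F (Fin 4 → F))).mp
    obtain ⟨g, h1, h2⟩ := @tt inferInstance (.mk F _ a) (.mk F _ b) (.mk F _ a') (.mk F _ b') (fun r => c (k r)) fun r => c' (k r)
    exact ⟨g.toGL, Prod.ext (k h1) (k h2)⟩
  obtain ⟨t, ht⟩ := exists_prime_orderOf_dvd_card' (G := H) 2 (by rw [cH]; decide)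
  obtain ⟨v, hv⟩ : ∃ v : Fin 4 → F, t • v ≠ v := by
    by_contra! r
    have : t = 1 := Subtype.ext (Units.ext (Matrix.ext_iff_mulVec.2 fun v => (r v).trans (Matrix.one_mulVec v).symm))
    simp [this] at ht
  have v0 : v ≠ 0 := by rintro rfl; simp at hv
  have hp : (v, t • v) ∈ X := mX.2 ⟨v0, (smul_ne_zero_iff_ne t).2 v0, hv.symm⟩
  set p := (v, t • v)
  have sub : MulAction.orbit H p ⊆ X := by rintro _ ⟨g, rfl⟩; exact sX g p hp
  have i1 := (MulAction.stabilizer (GL (Fin 4) F) p).card_mul_index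
  have i2 := (MulAction.stabilizer H p).card_mul_index
  rw [MulAction.index_stabilizer, tr p hp, cG, Set.ncard_coe_finset, cX] at i1
  rw [MulAction.index_stabilizer, cH] at i2
  have dv : Nat.card (MulAction.stabilizer H p) ∣ Nat.card (MulAction.stabilizer (GL (Fin 4) F) p) :=
    Subgroup.card_dvd_of_injective ((H.subtype.comp (Subgroup.subtype _)).codRestrict _ fun g => g.2)
      fun a b r => by have := congrArg Subtype.val r; exact Subtype.ext (Subtype.ext this)
  have le := Set.ncard_le_ncard sub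
  rw [Set.ncard_coe_finset, cX] at le
  have ev : 2 ∣ (MulAction.orbit H p).ncard := by
    rw [Set.ncard_eq_toFinset_card', ← ZMod.natCast_eq_zero_iff, Finset.card_eq_sum_ones, Nat.cast_sum]
    refine Finset.sum_involution (fun a _ => a.swap) (fun _ _ => by decide) (fun a ha _ r =>
      (mX.1 (sub (by simpa using ha))).2.2 (congrArg Prod.snd r)) (fun a ha => ?_) fun _ _ => rfl
    obtain ⟨g, rfl⟩ := Set.mem_toFinset.1 ha
    refine Set.mem_toFinset.2 ⟨g * t, Prod.ext (mul_smul _ _ _) ?_⟩
    change (g * t) • t • v = g • v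
    rw [smul_smul, mul_assoc, ← pow_two, ← ht, pow_orderOf_eq_one, mul_one]
  have : (MulAction.orbit H p).ncard = 210 := by
    generalize (MulAction.orbit H p).ncard = n at *
    generalize Nat.card (MulAction.stabilizer H p) = s at *
    rw [show Nat.card (MulAction.stabilizer (GL (Fin 4) F) p) = 96 by omega] at dv
    have := Nat.le_of_dvd (by decide) dv
    interval_cases s <;> omega
  have eq := Set.eq_of_subset_of_ncard_le sub (by rw [this, Set.ncard_coe_finset, cX])
  intro v w v' w' a b c a' b' c'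
  obtain ⟨g, hg⟩ := eq.ge (mX (p := (v, w)).2 ⟨a, b, c⟩)
  obtain ⟨g', hg'⟩ := eq.ge (mX (p := (v', w')).2 ⟨a', b', c'⟩)
  have : (g' * g⁻¹) • (v, w) = (v', w') := by rw [← hg, ← hg']; simp [smul_smul]
  exact ⟨_, (g' * g⁻¹).2, congrArg Prod.fst this, congrArg Prod.snd this⟩

end Cfsg.Agent.S2551
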