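import Cfsg.Statements.S2552
import Mathlib
-- import your own Cfsg.Agent.* helpers here

set_option autoImplicit false
open Cfsg

namespace Cfsg.Agent.S2552


/-- Let F be a finite field and n ≥ 1. For every k, the special linear group SL_n(F) acts transitively on the set of k-dimensional subspaces of F^n: any two subspaces of the same dimension are carried onto each other by some matrix of determinant 1. -/
theorem result {F : Type*} [Field F] [Fintype F] (n : ℕ) (hn : 1 ≤ n) (U₁ U₂ : Submodule F (Fin n → F)) (h : Module.finrank F U₁ = Module.finrank F U₂) : ∃ g : Matrix.SpecialLinearGroup (Fin n) F, U₁.map ((Matrix.SpecialLinearGroup.toLin' g : (Fin n → F) ≃ₗ[F] (Fin n → F)) : (Fin n → F) →ₗ[F] (Fin n → F)) = U₂ := by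
  by_cases h0 : U₂ = ⊥
  · subst h0
    rw [finrank_bot, Submodule.finrank_eq_zero] at h
    exact ⟨1, by simp [h]⟩
  obtain ⟨u, hu, hu0⟩ := Submodule.exists_mem_ne_zero_of_ne_bot h0
  obtain ⟨e, he⟩ := Submodule.exists_linearEquiv_restrict_eq (LinearEquiv.ofFinrankEq U₁ U₂ h)
  obtain ⟨φ, hφ⟩ := Module.Projective.exists_dual_eq_one F hu0
  have hd : LinearMap.det (e : (Fin n → F) →ₗ[F] (Fin n → F)) ≠ 0 := e.isUnit_det'.ne_zero
  let T := LinearMap.transvection φ (((LinearMap.det (e : (Fin n → F) →ₗ[F] (Fin n → F)))⁻¹ - 1) • u) ∘ₗ e.toLinearMap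
  have hT : LinearMap.det T = 1 := by
    simp [T, LinearMap.det_comp, hφ, hd]
  let g : Matrix.SpecialLinearGroup (Fin n) F := ⟨LinearMap.toMatrix' T, by rw [LinearMap.det_toMatrix', hT]⟩
  refine ⟨g, Submodule.eq_of_le_of_finrank_eq ?_ (by rw [LinearEquiv.finrank_map_eq, h])⟩
  rintro _ ⟨v, hv, rfl⟩
  have : (Matrix.SpecialLinearGroup.toLin' g : (Fin n → F) →ₗ[F] (Fin n → F)) v = T v := by
    rw [Matrix.SpecialLinearGroup.toLin'_to_linearMap]
    simp [g]
  rw [this]
  simp only [T, LinearMap.comp_apply, LinearMap.transvection.apply, LinearEquiv.coe_coe]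
  exact U₂.add_mem (he ⟨v, hv⟩ ▸ Subtype.mem _) (U₂.smul_mem _ (U₂.smul_mem _ hu))

end Cfsg.Agent.S2552
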