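import Cfsg.Statements.S2561
import Mathlib
import Cfsg.Agent.H10.Q2

set_option autoImplicit false
open Cfsg

namespace Cfsg.Agent.S2561

/-- Fix the non-singular alternating form on the 2m-dimensional space over the field of two elements obtained by polarizing the plus-type form Σ xᵢyᵢ (m ≥ 1). The functions q on the space with q(u + v) = q(u) + q(v) + f(u, v) (the quadratic forms polarizing to f) number 2^(2m); each is equivalent under an invertible linear map either to the plus-type form or to the minus-type form Σ xᵢyᵢ + (z₁² + z₁z₂ + z₂²); and those of plus type number 2^(2m−1) + 2^(m−1), those of minus type 2^(2m−1) − 2^(m−1). -/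
theorem result (m : ℕ) (hm : 1 ≤ m) :
    Nat.card {q : (Fin m ⊕ Fin m → ZMod 2) → ZMod 2 // (∀ u v : (Fin m ⊕ Fin m → ZMod 2), q (u + v) = q u + q v + (Cfsg.quadFormPlus m (ZMod 2) (u + v) - Cfsg.quadFormPlus m (ZMod 2) u - Cfsg.quadFormPlus m (ZMod 2) v))} = 2 ^ (2 * m) ∧
    (∀ q : (Fin m ⊕ Fin m → ZMod 2) → ZMod 2, (∀ u v : (Fin m ⊕ Fin m → ZMod 2), q (u + v) = q u + q v + (Cfsg.quadFormPlus m (ZMod 2) (u + v) - Cfsg.quadFormPlus m (ZMod 2) u - Cfsg.quadFormPlus m (ZMod 2) v)) →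
      (∃ g : (Fin m ⊕ Fin m → ZMod 2) ≃ₗ[ZMod 2] (Fin m ⊕ Fin m → ZMod 2), ∀ v, q v = Cfsg.quadFormPlus m (ZMod 2) (g v)) ∨
      (∃ g : (Fin m ⊕ Fin m → ZMod 2) ≃ₗ[ZMod 2] ((Fin (m - 1) ⊕ Fin (m - 1)) ⊕ Fin 2 → ZMod 2), ∀ v, q v = Cfsg.quadFormMinus (m - 1) (ZMod 2) 1 1 (g v))) ∧
    Nat.card {q : (Fin m ⊕ Fin m → ZMod 2) → ZMod 2 // (∀ u v : (Fin m ⊕ Fin m → ZMod 2), q (u + v) = q u + q v + (Cfsg.quadFormPlus m (ZMod 2) (u + v) - Cfsg.quadFormPlus m (ZMod 2) u - Cfsg.quadFormPlus m (ZMod 2) v)) ∧ ∃ g : (Fin m ⊕ Fin m → ZMod 2) ≃ₗ[ZMod 2] (Fin m ⊕ Fin m → ZMod 2), ∀ v, q v = Cfsg.quadFormPlus m (ZMod 2) (g v)} = 2 ^ (2 * m - 1) + 2 ^ (m - 1) ∧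
    Nat.card {q : (Fin m ⊕ Fin m → ZMod 2) → ZMod 2 // (∀ u v : (Fin m ⊕ Fin m → ZMod 2), q (u + v) = q u + q v + (Cfsg.quadFormPlus m (ZMod 2) (u + v) - Cfsg.quadFormPlus m (ZMod 2) u - Cfsg.quadFormPlus m (ZMod 2) v)) ∧ ∃ g : (Fin m ⊕ Fin m → ZMod 2) ≃ₗ[ZMod 2] ((Fin (m - 1) ⊕ Fin (m - 1)) ⊕ Fin 2 → ZMod 2), ∀ v, q v = Cfsg.quadFormMinus (m - 1) (ZMod 2) 1 1 (g v)} = 2 ^ (2 * m - 1) - 2 ^ (m - 1) := by
  simp only [H10.polar_plus]
  obtain ⟨m, rfl⟩ : ∃ k, m = k + 1 := ⟨m - 1, by omega⟩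
  have h0 := H11.isQuad_plus (m + 1) (ZMod 2)
  have hB := H11.bPlus_sep (m + 1) (ZMod 2)
  have hn : Module.finrank (ZMod 2) (Fin (m + 1) ⊕ Fin (m + 1) → ZMod 2) = 2 * (m + 1) := by
    simp; ring
  have key : ∀ (P : ((Fin (m + 1) ⊕ Fin (m + 1) → ZMod 2) → ZMod 2) → Prop)
      (R : (Fin (m + 1) ⊕ Fin (m + 1) → ZMod 2) → Prop),
      (∀ w, R w ↔ P fun v => quadFormPlus (m + 1) (ZMod 2) v + H11.bPlus _ _ v w) →
      Nat.card {q : (Fin (m + 1) ⊕ Fin (m + 1) → ZMod 2) → ZMod 2 //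
        (∀ u v, q (u + v) = q u + q v + H11.bPlus _ _ u v) ∧ P q} = Nat.card {w // R w} := by
    intro P R h
    refine (Nat.card_eq_of_bijective (fun w : {w // R w} => ⟨_, (H10.isQuad_shift h0 w.1).add',
      (h w.1).mp w.2⟩) ⟨fun a b e => Subtype.ext (H10.shift_injective h0 hB
        (congrArg Subtype.val e)), ?_⟩).symm
    rintro ⟨q, hq, hP⟩
    obtain ⟨w, rfl⟩ := H10.exists_shift h0 (H10.isQuad_two hq) hB
    exact ⟨⟨w, (h w).mpr hP⟩, rfl⟩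
  have hV : Nat.card (Fin (m + 1) ⊕ Fin (m + 1) → ZMod 2) = 2 ^ (2 * (m + 1)) := by
    rw [Module.natCard_eq_pow_finrank (K := ZMod 2), hn]; simp
  have hc : ∀ q : (Fin (m + 1) ⊕ Fin (m + 1) → ZMod 2) → ZMod 2,
      (∀ u v, q (u + v) = q u + q v + H11.bPlus _ _ u v) →
      (∃ g : (Fin (m + 1) ⊕ Fin (m + 1) → ZMod 2) ≃ₗ[ZMod 2] (Fin (m + 1) ⊕ Fin (m + 1) → ZMod 2),
        ∀ v, q v = quadFormPlus (m + 1) (ZMod 2) (g v)) ∨
      (∃ g : (Fin (m + 1) ⊕ Fin (m + 1) → ZMod 2) ≃ₗ[ZMod 2] ((Fin m ⊕ Fin m) ⊕ Fin 2 → ZMod 2),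
        ∀ v, q v = quadFormMinus m (ZMod 2) 1 1 (g v)) := fun q hq =>
    ((H10.isQuad_two hq).wittIdx_even_cases hB hn).imp
      (H10.exists_equiv_plus (H10.isQuad_two hq) hB hn)
      (H10.exists_equiv_minus (H10.isQuad_two hq) hB hn)
  have hz := H11.IsQuad.card_singular_plus _ h0 hB (H11.wittIdx_plus _ _) hn
  have hz' : Nat.card {v // quadFormPlus (m + 1) (ZMod 2) v = 0} = 2 ^ (2 * m + 1) + 2 ^ m := by
    zify
    rw [show 2 * (m + 1) = 2 * m + 1 + 1 by ring] at hz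
    simp only [Nat.card_zmod, Nat.cast_ofNat, pow_succ] at hz ⊢
    linarith
  refine ⟨?_, hc, ?_, ?_⟩
  · have := key (fun _ => True) (fun _ => True) (by simp)
    simp only [and_true] at this
    rw [this, ← hV]; simp
  · rw [key _ _ fun w => (H10.shift_equiv_iff h0 hB hn w).symm, hz']; rfl
  · rw [key _ (fun w => ¬ quadFormPlus (m + 1) (ZMod 2) w = 0) fun w => ?_]
    · classical
      have := Nat.card_congr (Equiv.sumCompl fun v => quadFormPlus (m + 1) (ZMod 2) v = 0)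
      rw [Nat.card_sum, hz', hV, show 2 * (m + 1) = 2 * m + 1 + 1 by ring, pow_succ] at this
      show _ = 2 ^ (2 * m + 1) - 2 ^ m
      omega
    · have hs := H10.isQuad_shift h0 w
      rw [← H10.shift_equiv_iff h0 hB hn w]
      refine ⟨fun h => (hc _ hs.add').resolve_left h, fun ⟨g, hg⟩ ⟨g', hg'⟩ => ?_⟩
      have := hs.wittIdx_unique hB
        (H10.wittIdx_of_equiv hs (H11.isQuad_minus _ _ 1 1) g hg (H11.wittIdx_minus _ H10.aniso_two))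
        (H10.wittIdx_of_equiv hs h0 g' hg' (H11.wittIdx_plus _ _))
      omega

end Cfsg.Agent.S2561
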