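import Cfsg.Statements.S2562
import Mathlib
import Cfsg.Agent.H10.Q2

set_option autoImplicit false
open Cfsg

namespace Cfsg.Agent.S2562

/-- Witt indices over the field of two elements, m ≥ 1: for the plus-type form Σ xᵢyᵢ in dimension 2m some m-dimensional subspace is totally singular and no totally singular subspace has larger dimension; for the minus-type form Σ xᵢyᵢ + (z₁² + z₁z₂ + z₂²) in dimension 2m the maximal dimension of a totally singular subspace is m − 1. -/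
theorem result (m : ℕ) (hm : 1 ≤ m) :
    (∃ U : Submodule (ZMod 2) (Fin m ⊕ Fin m → ZMod 2), (∀ u ∈ U, Cfsg.quadFormPlus m (ZMod 2) u = 0) ∧ Module.finrank (ZMod 2) ↥U = m) ∧
    (∀ U : Submodule (ZMod 2) (Fin m ⊕ Fin m → ZMod 2), (∀ u ∈ U, Cfsg.quadFormPlus m (ZMod 2) u = 0) → Module.finrank (ZMod 2) ↥U ≤ m) ∧
    (∃ U : Submodule (ZMod 2) ((Fin (m - 1) ⊕ Fin (m - 1)) ⊕ Fin 2 → ZMod 2), (∀ u ∈ U, Cfsg.quadFormMinus (m - 1) (ZMod 2) 1 1 u = 0) ∧ Module.finrank (ZMod 2) ↥U = m - 1) ∧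
    (∀ U : Submodule (ZMod 2) ((Fin (m - 1) ⊕ Fin (m - 1)) ⊕ Fin 2 → ZMod 2), (∀ u ∈ U, Cfsg.quadFormMinus (m - 1) (ZMod 2) 1 1 u = 0) → Module.finrank (ZMod 2) ↥U ≤ m - 1) := by
  have h1 := H11.isQuad_plus m (ZMod 2)
  have h2 := H11.isQuad_minus (m - 1) (ZMod 2) 1 1
  have w1 := H11.wittIdx_plus m (ZMod 2)
  have w2 := H11.wittIdx_minus (m - 1) H10.aniso_two
  refine ⟨?_, fun U hU => h1.finrank_le_wittIdx (H11.bPlus_sep _ _) w1 (h1.totSing_iff.mpr hU), ?_,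
    fun U hU => h2.finrank_le_wittIdx (H11.bMinus_sep _ H10.aniso_two) w2 (h2.totSing_iff.mpr hU)⟩
  · obtain ⟨U, hU, hd⟩ := w1
    exact ⟨U, hU.1.1, hd⟩
  · obtain ⟨U, hU, hd⟩ := w2
    exact ⟨U, hU.1.1, hd⟩

end Cfsg.Agent.S2562
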