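import Cfsg.Statements.S2563
import Mathlib
import Cfsg.Agent.H10.Q2
import Cfsg.Agent.S0826

set_option autoImplicit false
open Cfsg

namespace Cfsg.Agent.S2563

open S0826 H11 Module

variable {ι : Type} [Fintype ι] [DecidableEq ι] (o : ι)

/-- The weight of a vector. -/
def wt (v : ι → ZMod 2) : ℕ := ∑ i, (v i).val

theorem wt_cast (v : ι → ZMod 2) : (wt v : ZMod 2) = ∑ i, v i := by simp [wt]

theorem wt_add (u v : ι → ZMod 2) : wt (u + v) + 2 * wt (u * v) = wt u + wt v := by
  have : ∀ a b : ZMod 2, (a + b).val + 2 * (a * b).val = a.val + b.val := by decide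
  simp only [wt, Finset.mul_sum, ← Finset.sum_add_distrib, Pi.add_apply, Pi.mul_apply, this]

theorem even_wt {v : ι → ZMod 2} : ∑ i, v i = 0 ↔ 2 ∣ wt v := by
  rw [← wt_cast, ZMod.natCast_eq_zero_iff]

/-- Half the weight. -/
def qq (v : H o) : ZMod 2 := ((wt v.1 / 2 : ℕ) : ZMod 2)

theorem isQuad_qq : IsQuad (B o) (qq o) := H10.isQuad_two fun u v => by
  obtain ⟨a, ha⟩ := even_wt.mp u.2.1
  obtain ⟨b, hb⟩ := even_wt.mp v.2.1
  have h := wt_add u.1 v.1
  have h2 : wt (u + v).1 / 2 + wt (u.1 * v.1) = wt u.1 / 2 + wt v.1 / 2 := by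
    show wt (u.1 + v.1) / 2 + _ = _
    omega
  have h3 := congrArg (Nat.cast : ℕ → ZMod 2) h2
  rw [Nat.cast_add, Nat.cast_add, wt_cast] at h3
  simp only [qq, B_apply]
  linear_combination h3 - add_self (∑ i, u.1 i * v.1 i)

theorem qq_rep (h4 : 4 ∣ Fintype.card ι) (hι) (σ : Equiv.Perm ι) (v : H o) :
    qq o ((rep o hι σ).1 v) = qq o v := by
  have h1 : wt (fun i => v.1 (σ.symm i)) = wt v.1 := Equiv.sum_comp σ.symm fun i => (v.1 i).val
  show ((wt (fun i => v.1 (σ.symm i) + v.1 (σ.symm o)) / 2 : ℕ) : ZMod 2) = (wt v.1 / 2 : ℕ)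
  rcases H10.zmod2_cases (v.1 (σ.symm o)) with h | h
  · simp only [h, add_zero, h1]
  · have h2 := wt_add (fun i => v.1 (σ.symm i)) 1
    have h3 : wt (1 : ι → ZMod 2) = Fintype.card ι := by simp [wt, ZMod.val_one]
    rw [mul_one, h1, h3] at h2
    obtain ⟨a, ha⟩ := even_wt.mp v.2.1
    rw [h, ZMod.natCast_eq_natCast_iff']
    change wt ((fun i => v.1 (σ.symm i)) + 1) / 2 % 2 = _
    omega

theorem gauss (z : ℂ) : ∑ v ∈ Finset.univ.filter (fun v : ι → ZMod 2 => v o = 0), z ^ wt v =
    (1 + z) ^ (Fintype.card ι - 1) := by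
  have h := Finset.prod_univ_sum (fun i : ι => if i = o then ({0} : Finset (ZMod 2)) else Finset.univ)
    (fun _ a => z ^ a.val)
  have h1 : ∑ a : ZMod 2, z ^ a.val = 1 + z := by
    show ∑ a : Fin 2, z ^ a.val = _
    simp
  rw [← Finset.mul_prod_erase _ _ (Finset.mem_univ o), Finset.prod_congr rfl
    (g := fun _ => 1 + z) fun i hi => by rw [if_neg (Finset.ne_of_mem_erase hi), h1]] at h
  simp only [if_true, Finset.sum_singleton, ZMod.val_zero, pow_zero, one_mul, Finset.prod_const,
    Finset.card_erase_of_mem (Finset.mem_univ o), Finset.card_univ] at h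
  rw [h]
  refine Finset.sum_congr ?_ fun v _ => (Finset.prod_pow_eq_pow_sum _ _ _).symm
  ext v
  simp only [Finset.mem_filter, Finset.mem_univ, true_and, Fintype.mem_piFinset]
  exact ⟨fun hv i => by split_ifs with hi <;> simp [hi, hv], fun hv => by simpa using hv o⟩

theorem count {k : ℕ} (hk : Fintype.card ι = 4 * k + 4) :
    (2 * (2 * Nat.card {v // qq o v = 0} - Nat.card (H o)) : ℤ) = (-4) ^ (k + 1) := by
  classical
  have h1 : ∑ v ∈ Finset.univ.filter (fun v : ι → ZMod 2 => v o = 0),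
      (Complex.I ^ wt v + (-Complex.I) ^ wt v) = (-4) ^ (k + 1) := by
    rw [Finset.sum_add_distrib, gauss, gauss, hk, show 4 * k + 4 - 1 = 4 * k + 3 from rfl, pow_add,
      pow_add, pow_mul, pow_mul, show (1 + Complex.I) ^ 4 = -4 by
        linear_combination (Complex.I ^ 2 + 4 * Complex.I + 5) * Complex.I_sq,
      show (1 + -Complex.I) ^ 4 = -4 by
        linear_combination (Complex.I ^ 2 - 4 * Complex.I + 5) * Complex.I_sq]
    linear_combination (6 * (-4) ^ k) * Complex.I_sq
  have h2 : ∑ v : H o, (Complex.I ^ wt v.1 + (-Complex.I) ^ wt v.1) = (-4) ^ (k + 1) := by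
    rw [← h1, ← Finset.sum_subtype (Finset.univ.filter (· ∈ H o)) (by simp)
      (fun v => Complex.I ^ wt v + (-Complex.I) ^ wt v)]
    refine Finset.sum_subset (fun v hv => by
      simp only [Finset.mem_filter, Finset.mem_univ, true_and] at hv ⊢; exact hv.2) fun v h h' => ?_
    simp only [Finset.mem_filter, Finset.mem_univ, true_and] at h h'
    have : Odd (wt v) := Nat.not_even_iff_odd.mp fun e => h' ⟨even_wt.mpr e.two_dvd, h⟩
    rw [this.neg_pow, add_neg_cancel]
  have h3 : ∀ v : H o, Complex.I ^ wt v.1 + (-Complex.I) ^ wt v.1 =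
      4 * (if qq o v = 0 then 1 else 0) - 2 := fun v => by
    obtain ⟨a, ha⟩ := even_wt.mp v.2.1
    rw [qq, ha, pow_mul, pow_mul, neg_sq, Complex.I_sq, Nat.mul_div_cancel_left _ two_pos]
    split_ifs with h <;> rw [ZMod.natCast_eq_zero_iff_even] at h
    · rw [h.neg_one_pow]; norm_num
    · rw [(Nat.not_even_iff_odd.mp h).neg_one_pow]; norm_num
  simp only [h3, Finset.sum_sub_distrib, ← Finset.mul_sum, Finset.sum_boole, Finset.sum_const,
    Finset.card_univ, nsmul_eq_mul] at h2
  rw [Nat.card_eq_fintype_card, Nat.card_eq_fintype_card, Fintype.card_subtype]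
  apply Int.cast_injective (α := ℂ)
  push_cast
  linear_combination h2

/-- For k ≥ 1 the symmetric group of degree 4k + 4 embeds in a full orthogonal group in dimension 4k + 2 over the field of two elements: in the isometry group of the plus-type form Σ xᵢyᵢ when k is odd, and in that of the minus-type form Σ xᵢyᵢ + (z₁² + z₁z₂ + z₂²) when k is even (through its action on even partitions of a (4k+4)-set, with the form 'half the size of a part, modulo 2'). -/
theorem result (k : ℕ) (hk : 1 ≤ k) :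
    (Odd k → ∃ φ : Equiv.Perm (Fin (4 * k + 4)) →* ↥(Cfsg.isometryGroup (ZMod 2) (Cfsg.quadFormPlus (2 * k + 1) (ZMod 2))), Function.Injective φ) ∧
    (Even k → ∃ φ : Equiv.Perm (Fin (4 * k + 4)) →* ↥(Cfsg.isometryGroup (ZMod 2) (Cfsg.quadFormMinus (2 * k) (ZMod 2) 1 1)), Function.Injective φ) := by
  have hι : (Fintype.card (Fin (4 * k + 4)) : ZMod 2) = 0 := by
    rw [ZMod.natCast_eq_zero_iff]; simp; omega
  have hd := finrank_H (ι := Fin (4 * k + 4)) 0 (i := ⟨1, by omega⟩) (by simp)
  have hn : finrank (ZMod 2) (H (0 : Fin (4 * k + 4))) = 2 * (2 * k + 1) := by simp at hd; omega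
  have h := isQuad_qq (0 : Fin (4 * k + 4))
  have hB := (B_nondeg 0 hι).1
  have hc := count (0 : Fin (4 * k + 4)) (k := k) (by simp)
  rw [Module.natCard_eq_pow_finrank (K := ZMod 2) (V := H (0 : Fin (4 * k + 4))), hn] at hc
  have hi := Subtype.val_injective.comp (rep_injective 0 hι (by simp; omega))
  have hq := qq_rep (0 : Fin (4 * k + 4)) (by simp) hι
  have hp : (0 : ℤ) < 2 ^ (2 * k) := by positivity
  have hp' : (0 : ℤ) < 4 ^ (k + 1) := by positivity
  refine ⟨fun ho => ?_, fun he => ?_⟩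
  · obtain ⟨e, he⟩ := H10.exists_equiv_plus h hB hn ((h.wittIdx_even_cases hB hn).resolve_right
      fun hw => by
        have := IsQuad.card_singular_minus _ h hB hw (by omega)
        rw [ho.add_one.neg_pow, show 2 * (2 * k + 1) = 2 * (2 * k) + 1 + 1 by ring] at hc
        simp only [Nat.card_zmod, Nat.cast_ofNat, pow_succ, Nat.cast_mul, Nat.cast_pow] at *
        linarith)
    exact H10.exists_hom_isometryGroup e he ((Subgroup.subtype _).comp (rep 0 hι)) hi hq
  · obtain ⟨e, he⟩ := H10.exists_equiv_minus h hB hn ((h.wittIdx_even_cases hB hn).resolve_left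
      fun hw => by
        have := IsQuad.card_singular_plus _ h hB hw hn
        rw [he.add_one.neg_pow] at hc
        simp only [Nat.card_zmod, Nat.cast_ofNat, pow_succ, Nat.cast_mul, Nat.cast_pow] at *
        linarith)
    exact H10.exists_hom_isometryGroup e he ((Subgroup.subtype _).comp (rep 0 hι)) hi hq

end Cfsg.Agent.S2563
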