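import Cfsg.Statements.S2565
import Mathlib
import Cfsg.Agent.H10.Q2
import Cfsg.Agent.S2563

set_option autoImplicit false
open Cfsg

namespace Cfsg.Agent.S2565

/-- The commutator subgroup of the full orthogonal group of the plus-type form Σ xᵢyᵢ in dimension 6 over the field of two elements (the group Ω⁺₆(2), of index 2) is isomorphic to the alternating group of degree 8. -/
theorem result :
    (Cfsg.Omega (ZMod 2) (Cfsg.quadFormPlus 3 (ZMod 2))).index = 2 ∧
    Nonempty (↥(Cfsg.Omega (ZMod 2) (Cfsg.quadFormPlus 3 (ZMod 2))) ≃* alternatingGroup (Fin 8)) := by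
  obtain ⟨φ, hφ⟩ := (S2563.result 1 le_rfl).1 odd_one
  have h := H11.isQuad_plus 3 (ZMod 2)
  have hc := H11.IsQuad.card_isom_plus 2 h (H11.bPlus_sep _ _) (H11.wittIdx_plus _ _) (by simp)
  rw [← Nat.card_congr (H11.oEquiv h).toEquiv] at hc
  have hc' : Nat.card (isometryGroup (ZMod 2) (quadFormPlus 3 (ZMod 2))) = 40320 := by
    zify; rw [hc]; simp [Finset.prod_range_succ]
  have : Finite (isometryGroup (ZMod 2) (quadFormPlus 3 (ZMod 2))) :=
    Nat.finite_of_card_ne_zero (by rw [hc']; norm_num)
  have hb : Function.Bijective φ := (Nat.bijective_iff_injective_and_card φ).mpr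
    ⟨hφ, by rw [Nat.card_perm]; exact (by simp [Nat.factorial] : _ = 40320).trans hc'.symm⟩
  let e := MulEquiv.ofBijective φ hb
  have h8 := alternatingGroup.commutator_perm_eq (α := Fin 8) (by simp)
  refine ⟨?_, ⟨(H11.commutatorEquiv e.symm).trans (MulEquiv.subgroupCongr h8)⟩⟩
  rw [← H11.index_eq_of_equiv e _ _ (H11.mem_commutator_equiv e), h8, alternatingGroup.index_eq_two]

end Cfsg.Agent.S2565
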