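import Cfsg.Statements.S2567
import Mathlib
import Cfsg.Agent.H10.SL
-- import your own Cfsg.Agent.* helpers here

set_option autoImplicit false
open Cfsg

namespace Cfsg.Agent.S2567


/-- Lifting elements of prime order from PGL to GL: let F be a finite field with q elements, r a prime not dividing q − 1, and x an element of order r in GL_n(F) modulo its centre (the scalar matrices). Then x has exactly one preimage in GL_n(F) of order r. -/
theorem result {F : Type*} [Field F] [Fintype F] {q n r : ℕ} (hF : Fintype.card F = q) (hr : r.Prime) (hdiv : ¬ r ∣ q - 1) (x : GL (Fin n) F ⧸ Subgroup.center (GL (Fin n) F)) (hx : orderOf x = r) : ∃! g : GL (Fin n) F, (QuotientGroup.mk g : GL (Fin n) F ⧸ Subgroup.center (GL (Fin n) F)) = x ∧ orderOf g = r := by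
  classical
  have hz : ∀ z ∈ Subgroup.center (GL (Fin n) F), z ^ (q - 1) = 1 := by
    intro z hz
    rw [Matrix.GeneralLinearGroup.center_eq_range_scalar] at hz
    obtain ⟨c, rfl⟩ := hz
    rw [← map_pow, ← hF, ← Fintype.card_units, pow_card_eq_one, map_one]
  have hcop : Nat.Coprime r (q - 1) := (Nat.Prime.coprime_iff_not_dvd hr).2 hdiv
  haveI := Fact.mk hr
  obtain ⟨g, rfl⟩ := QuotientGroup.mk_surjective x
  have h1 : g ^ r ∈ Subgroup.center (GL (Fin n) F) := by
    rw [← QuotientGroup.eq_one_iff, QuotientGroup.mk_pow, ← hx, pow_orderOf_eq_one]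
  obtain ⟨m, hm⟩ := Nat.exists_mul_mod_eq_one_of_coprime hcop.symm hr.one_lt
  have hm2 : (QuotientGroup.mk (g ^ ((q - 1) * m)) : GL (Fin n) F ⧸ Subgroup.center (GL (Fin n) F)) =
      QuotientGroup.mk g := by
    rw [QuotientGroup.mk_pow, ← pow_mod_orderOf, hx, hm.2, pow_one]
  refine ⟨g ^ ((q - 1) * m), ⟨hm2, orderOf_eq_prime ?_ ?_⟩, ?_⟩
  · rw [← pow_mul, mul_comm, pow_mul, pow_mul, hz _ h1, one_pow]
  · intro h
    rw [h] at hm2
    rw [← hm2] at hx
    exact hr.one_lt.ne (by simpa using hx)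
  · rintro y ⟨hy, hy2⟩
    have h3 : (g ^ ((q - 1) * m)) ^ r = 1 := by rw [← pow_mul, mul_comm, pow_mul, pow_mul, hz _ h1, one_pow]
    generalize g ^ ((q - 1) * m) = w at hm2 h3
    have h4 : y⁻¹ * w ∈ Subgroup.center (GL (Fin n) F) := QuotientGroup.eq.1 (hy.trans hm2.symm)
    have h5 : (y⁻¹ * w) ^ r = 1 := by
      have hc : Commute y (y⁻¹ * w) := Subgroup.mem_center_iff.1 h4 y
      have := hc.mul_pow r
      rw [mul_inv_cancel_left, h3, ← hy2, pow_orderOf_eq_one, one_mul] at this
      rw [← hy2, ← this]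
    have h6 := (pow_eq_one_iff_of_coprime hcop).1 ⟨h5, hz _ h4⟩
    exact inv_mul_eq_one.1 h6

end Cfsg.Agent.S2567
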