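import Cfsg.Statements.S2568
import Mathlib
import Cfsg.Agent.H10.Real4

set_option autoImplicit false
open Cfsg

namespace Cfsg.Agent.S2568

open Polynomial L0 H10

/-- Number of conjugacy classes of elements of a given prime order r, coprime to the characteristic, in GL_n(q): if i is the multiplicative order of q modulo r and t = (r − 1)/i, the classes correspond to the non-zero t-tuples of natural numbers (a_1, …, a_t) with i(a_1 + ⋯ + a_t) ≤ n (a_j is the multiplicity of the j-th Frobenius orbit of nontrivial r-th roots of unity among the eigenvalues), so there are exactly C(⌊n/i⌋ + t, t) − 1 of them. -/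
theorem result {F : Type*} [Field F] [Fintype F] {p q : ℕ} [Fact p.Prime] [CharP F p] (hF : Fintype.card F = q) (n r i t : ℕ) (hr : r.Prime) (hrp : r ≠ p) (hi : i = orderOf (q : ZMod r)) (ht : t * i = r - 1) : Nat.card {C : ConjClasses (GL (Fin n) F) // ∃ g : GL (Fin n) F, ConjClasses.mk g = C ∧ orderOf g = r} = Nat.choose (n / i + t) t - 1 := by
  classical
  subst hF
  have h0 : (r : F) ≠ 0 := natCast_ne_zero_of_coprime ((Nat.coprime_primes hr Fact.out).mpr hrp)
  rw [← Nat.card_eq_fintype_card] at hi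
  obtain ⟨h1, h2⟩ := card_PF hr h0
  have h3 : 0 < i := Nat.pos_of_ne_zero fun e => by have := hr.two_le; rw [e] at ht; omega
  have h4 : t = Nat.card (PF F r) := Nat.eq_of_mul_eq_mul_right h3 (ht.trans (hi ▸ h2.symm))
  have h5 : ∀ m : Multiset (PF F r), ((m.map (fun u : PF F r => u.1)).map natDegree).sum = i * m.card := fun m => by
    rw [Multiset.map_map, Multiset.map_congr rfl fun u _ => (hi ▸ natDegree_eq_orderOf_of_prime
      u.2.1.1 u.2.1.2.1 hr u.2.1.2.2 u.2.2 : (natDegree ∘ fun u : PF F r => u.1) u = i)]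
    simp [mul_comm]
  refine Nat.eq_sub_of_add_eq ?_
  rw [h4, ← card_mul_le h3]
  refine card_classes_core ((Matrix.toLinAlgEquiv' (R := F) (n := Fin n)).toMonoidHom.comp
    (Units.coeHom _)) (Matrix.toLinAlgEquiv'.injective.comp Units.val_injective) hr
    (fun g g' _ h => (isConj_iff_ty g g').mpr h) (fun m => m.1.map (fun u : PF F r => u.1))
    ((Multiset.map_injective Subtype.val_injective).comp Subtype.val_injective)
    (fun m u hu => ?_) (fun g hg => ?_) fun m => ?_
  · obtain ⟨v, -, rfl⟩ := Multiset.mem_map.mp hu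
    exact ⟨v.2.1.2.2, v.2.2⟩
  · obtain ⟨m, hm⟩ : ∃ m : Multiset (PF F r), m.map (fun u : PF F r => u.1) = (ty g.1).filter (· ≠ X - 1) :=
      (Multiset.canLift (Subtype.val (p := fun u : F[X] => IrrD r u ∧ u ≠ X - 1))
        fun u => IrrD r u ∧ u ≠ X - 1).prf _ fun u hu => ⟨irrD_of_mem h0 (T := Matrix.toLin' g.1) (by
        rw [← Matrix.toLin'_pow, ← Units.val_pow_eq_pow_val, hg]; exact Matrix.toLin'_one)
        (Multiset.mem_filter.mp hu).1, (Multiset.mem_filter.mp hu).2⟩
    refine ⟨⟨m, ?_⟩, hm.symm⟩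
    rw [← h5, hm]
    have h7 := sum_natDegree_ty g.1
    rw [eq_filter_add (ty g.1), Multiset.map_add, Multiset.sum_add, Fintype.card_fin] at h7
    exact (Nat.le_add_right _ _).trans_eq (by convert h7)
  · have h6 : ∀ u ∈ m.1.map (fun u : PF F r => u.1) + Multiset.replicate (n - i * m.1.card) (X - 1), IrrD r u :=
      fun u hu => (Multiset.mem_add.mp hu).elim (fun h => by
        obtain ⟨v, -, rfl⟩ := Multiset.mem_map.mp h
        exact v.2.1) fun h => Multiset.eq_of_mem_replicate h ▸ irrD_X_sub_one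
    obtain ⟨g, hg⟩ := exists_gl_ty_eq (n := Fin n) (fun u hu => (h6 u hu).prim)
      (fun u hu h => by simpa [hr.ne_zero.symm] using X_dvd_iff.mp (h.trans (h6 u hu).2.2)) (by
        rw [Multiset.map_add, Multiset.sum_add, h5]
        simp [natDegree_X_sub_one, m.2])
    exact ⟨g, _, hg⟩

end Cfsg.Agent.S2568
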