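import Cfsg.Statements.S2569
import Mathlib
import Cfsg.Agent.L0.GLn3
-- import your own Cfsg.Agent.* helpers here

set_option autoImplicit false
open Cfsg

namespace Cfsg.Agent.S2569

open Cfsg.Agent.L0

/-- In GL_n over a finite field of characteristic p, the conjugacy class of a semisimple element (an element of order prime to p) under the special linear group is its whole GL-conjugacy class: for every such x and every invertible g there is h of determinant one with h x h⁻¹ = g x g⁻¹. -/
theorem result {F : Type*} [Field F] [Fintype F] {p : ℕ} [Fact p.Prime] [CharP F p] {n : ℕ} (x g : GL (Fin n) F) (hx : (orderOf x).Coprime p) : ∃ h : GL (Fin n) F, (h : Matrix (Fin n) (Fin n) F).det = 1 ∧ h * x * h⁻¹ = g * x * g⁻¹ := by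
  rcases isEmpty_or_nonempty (Fin n) with h0 | h0
  · exact ⟨g, Matrix.det_isEmpty, rfl⟩
  obtain ⟨Q, h1, h2⟩ := exists_det_one_conj (A := (x : Matrix (Fin n) (Fin n) F))
    (fun c _ => exists_commute_det_semis ((coprime_orderOf_iff p x).1 hx) c) g
  exact ⟨Q, h1, Units.ext h2⟩

end Cfsg.Agent.S2569
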