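import Cfsg.Statements.S2570
import Mathlib
import Cfsg.Agent.L0.GLn4
-- import your own Cfsg.Agent.* helpers here

set_option autoImplicit false
open Cfsg

namespace Cfsg.Agent.S2570

open Cfsg.Agent.L0

/-- Number of conjugacy classes of elements of order p in GL_n over a finite field of characteristic p: they correspond to the Jordan types, that is, to the partitions of n with all parts at most p other than the partition into ones, so there are (number of partitions of n with parts ≤ p) − 1 of them. -/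
theorem result {F : Type*} [Field F] [Fintype F] {p : ℕ} [Fact p.Prime] [CharP F p] (n : ℕ) : Nat.card {C : ConjClasses (GL (Fin n) F) // ∃ g : GL (Fin n) F, ConjClasses.mk g = C ∧ orderOf g = p} = (Finset.univ.filter (fun μ : Nat.Partition n => ∀ a ∈ μ.parts, a ≤ p)).card - 1 := by
  classical
  have hp := (Fact.out : p.Prime)
  rw [card_classes_gl _ (fun s => (∀ u ∈ s, ∃ j, 0 < j ∧ j ≤ p ∧ u = (Polynomial.X - 1) ^ j) ∧
    ¬ ∀ u ∈ s, ∃ j, 0 < j ∧ j ≤ 1 ∧ u = (Polynomial.X - 1) ^ j) fun g => by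
      rw [← sub_one_pow_eq_zero_iff, ← sub_one_pow_eq_zero_iff, orderOf_eq_prime_iff, pow_one, sub_eq_zero,
        Units.val_eq_one]
      have := gl_pow_char_pow_eq_one_iff p g 1
      rw [pow_one] at this
      rw [this]]
  have hle : ∀ (μ : Nat.Partition n) (k : ℕ), (∀ u ∈ (unipEquiv F n μ).1, ∃ j, 0 < j ∧ j ≤ k ∧
      u = (Polynomial.X - 1) ^ j) ↔ ∀ a ∈ μ.parts, a ≤ k := by
    intro μ k
    rw [unipEquiv_apply]
    constructor
    · intro h a ha
      obtain ⟨j, -, h1, h2⟩ := h _ (Multiset.mem_map_of_mem _ ha)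
      exact (X_sub_one_pow_dvd_iff.1 h2.dvd).trans h1
    · intro h u hu
      obtain ⟨a, ha, rfl⟩ := Multiset.mem_map.1 hu
      exact ⟨a, μ.parts_pos ha, h a ha, rfl⟩
  let μ₀ : Nat.Partition n := ⟨Multiset.replicate n 1, fun h => by rw [Multiset.eq_of_mem_replicate h]; exact one_pos,
    by simp⟩
  have h0 : ∀ μ : Nat.Partition n, (∀ a ∈ μ.parts, a ≤ 1) ↔ μ = μ₀ := by
    intro μ
    constructor
    · intro h
      have h1 := Multiset.eq_replicate_card.2 fun a ha => le_antisymm (h a ha) (μ.parts_pos ha)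
      have h2 := μ.parts_sum
      rw [h1] at h2
      simp only [Multiset.sum_replicate, smul_eq_mul, mul_one] at h2
      ext1
      rw [h1, h2]
    · rintro rfl a ha
      exact (Multiset.eq_of_mem_replicate ha).le
  rw [← Finset.card_erase_of_mem (a := μ₀) (Finset.mem_filter.2 ⟨Finset.mem_univ _, fun a ha =>
    (Multiset.eq_of_mem_replicate ha).le.trans hp.one_le⟩), ← Nat.card_eq_finsetCard]
  symm
  refine Nat.card_congr (Equiv.ofBijective (fun μ => ⟨(unipEquiv F n μ.1).1, fun u hu => ?_, fun u hu => ?_,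
    by simpa using (unipEquiv F n μ.1).2.1, ?_⟩) ⟨?_, ?_⟩)
  · obtain ⟨j, hj, rfl⟩ := (unipEquiv F n μ.1).2.2 u hu
    exact prim_X_sub_one_pow hj
  · obtain ⟨j, hj, rfl⟩ := (unipEquiv F n μ.1).2.2 u hu
    exact not_X_dvd_X_sub_one_pow j
  · rw [hle, hle, h0]
    have := μ.2
    simp only [Finset.mem_erase, Finset.mem_filter, Finset.mem_univ, true_and] at this
    exact this.symm
  · intro μ ν h
    exact Subtype.ext ((unipEquiv F n).injective (Subtype.ext (Subtype.ext_iff.1 h :)))
  · rintro ⟨s, h1, h2, h3, h4⟩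
    obtain ⟨μ, hμ⟩ := (unipEquiv F n).surjective ⟨s, by simpa using h3, fun u hu => by
      obtain ⟨j, h5, -, h6⟩ := h4.1 u hu; exact ⟨j, h5, h6⟩⟩
    obtain rfl : (unipEquiv F n μ).1 = s := congrArg Subtype.val hμ
    rw [hle, hle, h0] at h4
    exact ⟨⟨μ, by simpa using h4.symm⟩, rfl⟩

end Cfsg.Agent.S2570
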