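import Cfsg.Statements.S2573
import Mathlib
import Cfsg.Agent.L0.GLn3
-- import your own Cfsg.Agent.* helpers here

set_option autoImplicit false
open Cfsg

namespace Cfsg.Agent.S2573

open Cfsg.Agent.L0

/-- The invariant subspaces of a regular unipotent matrix form a chain: over a finite field, if u is an n × n matrix with (u − 1)^n = 0 and rank(u − 1) = n − 1, then every subspace W of F^n with u W ⊆ W is the kernel of (u − 1)^(dim W); so u has at most one invariant subspace of each dimension. -/
theorem result {F : Type*} [Field F] [Finite F] {n : ℕ} (u : Matrix (Fin n) (Fin n) F) (hnil : (u - 1) ^ n = 0) (hreg : (u - 1).rank = n - 1) (W : Submodule F (Fin n → F)) (hW : ∀ v ∈ W, u.mulVec v ∈ W) : W = LinearMap.ker (Matrix.mulVecLin ((u - 1) ^ Module.finrank F W)) := by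
  rcases isEmpty_or_nonempty (Fin n) with h0 | h0
  · exact Subsingleton.elim _ _
  have h1 := ty_reg_unip ⟨n, hnil⟩ (by simpa using hreg)
  have h2 := rank_aeval_add u ((Polynomial.X - 1) ^ Module.finrank F W)
  have h3 : Module.finrank F W ≤ n := by simpa using W.finrank_le
  rw [h1, aeval_X_sub_one_pow, Multiset.map_singleton, Multiset.sum_singleton, gd_pow_pow irr_X_sub_one.ne_zero,
    natDegree_X_sub_one, Fintype.card_fin, min_eq_left h3, Matrix.rank] at h2
  have h4 := LinearMap.finrank_range_add_finrank_ker (Matrix.mulVecLin ((u - 1) ^ Module.finrank F W))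
  rw [Module.finrank_fin_fun] at h4
  refine Submodule.eq_of_le_of_finrank_eq (fun v hv => ?_) (by omega)
  let N : Module.End F (Fin n → F) := Matrix.toLin' (u - 1)
  have hN : ∀ v ∈ W, N v ∈ W := fun v hv => by
    simpa [N, Matrix.sub_mulVec] using W.sub_mem (hW v hv) hv
  have h5 : IsNilpotent (N.restrict hN) := by
    refine ⟨n, ?_⟩
    rw [Module.End.pow_restrict]
    ext w : 2
    simp only [N, ← Matrix.toLin'_pow, hnil]
    simp
  have h6 := LinearMap.aeval_self_charpoly (N.restrict hN)
  rw [h5.charpoly_eq_X_pow_finrank, map_pow, Polynomial.aeval_X, Module.End.pow_restrict] at h6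
  have := congrArg Subtype.val (LinearMap.congr_fun h6 ⟨v, hv⟩)
  simp only [N, ← Matrix.toLin'_pow] at this
  exact this

end Cfsg.Agent.S2573
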