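import Cfsg.Statements.S2574
import Mathlib
import Cfsg.Agent.H10.Reg

set_option autoImplicit false
open Cfsg

namespace Cfsg.Agent.S2574

/-- A regular unipotent element of the symplectic group has totally isotropic small invariant subspaces: over a finite field, if u ∈ Sp_2m(F) satisfies (u − 1)^(2m) = 0 and rank(u − 1) = 2m − 1, and W is a u-invariant subspace with 2 dim W ≤ 2m, then the alternating form vanishes identically on W. -/
theorem result {F : Type*} [Field F] [Finite F] {m : ℕ} (u : Matrix.symplecticGroup (Fin m) F) (hnil : ((u : Matrix (Fin m ⊕ Fin m) (Fin m ⊕ Fin m) F) - 1) ^ (2 * m) = 0) (hreg : ((u : Matrix (Fin m ⊕ Fin m) (Fin m ⊕ Fin m) F) - 1).rank = 2 * m - 1) (W : Submodule F (Fin m ⊕ Fin m → F)) (hW : ∀ v ∈ W, (u : Matrix (Fin m ⊕ Fin m) (Fin m ⊕ Fin m) F).mulVec v ∈ W) (hdim : 2 * Module.finrank F W ≤ 2 * m) : ∀ v ∈ W, ∀ w ∈ W, Cfsg.sympForm m F v w = 0 := by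
  rcases Nat.eq_zero_or_pos m with rfl | hm
  · intro v _ w _; simp [sympForm]
  have h := (H10.reg_iff_ty (by simp [two_mul]) (by omega)).mp ⟨hnil, hreg⟩
  have hF := H11.isForm_alt (H10.spBilin_isAlt (l := Fin m) (F := F))
  have h1 := hF.finrank_perp H10.spBilin_nondegenerate.1 W
  have h2 := H10.invariant_reg h (W := H11.perp (H10.spBilin (Fin m) F) W) fun v hv =>
    H11.mem_perp.mpr fun w hw => by
      obtain ⟨⟨w', hw'⟩, e⟩ := (LinearMap.injective_iff_surjective
        (f := (Matrix.toLin' u.1).restrict hW)).mp (fun a b e => Subtype.ext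
          ((H10.spIso _ F u).1.injective (by
            rw [H10.spIso_apply, H10.spIso_apply]; exact congrArg Subtype.val e)))
          ⟨w, hw⟩
      rw [← show u.1.mulVec w' = w from congrArg Subtype.val e]
      exact (H10.mem_symplecticGroup_iff_form.mp u.2 _ _).trans (H11.mem_perp.mp hv _ hw')
  intro v hv w hw
  rw [H10.sympForm_eq_spBilin]
  refine H11.mem_perp.mp (h2.ge ?_) v hv
  obtain ⟨k, hk⟩ := Nat.exists_eq_add_of_le' (show Module.finrank F W ≤ Module.finrank F
    (H11.perp (H10.spBilin (Fin m) F) W) by simp at h1; omega)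
  rw [hk, pow_add, LinearMap.mem_ker, Module.End.mul_apply,
    LinearMap.mem_ker.mp ((H10.invariant_reg h hW).le hw), map_zero]

end Cfsg.Agent.S2574
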