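import Cfsg.Statements.S2575
import Mathlib
import Cfsg.Agent.L0.GLn4
-- import your own Cfsg.Agent.* helpers here

set_option autoImplicit false
open Cfsg

namespace Cfsg.Agent.S2575

open Cfsg.Agent.L0

/-- Which diagonal involutions of PGL_n(q) lie in PSL_n(q), q odd: for the diagonal matrix t with i entries −1 and n − i entries 1, some non-zero scalar multiple of t has determinant one if and only if i is even or the 2-part of q − 1 exceeds the 2-part of n (that is, −1 is an n-th power in the field exactly in the latter case). -/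
theorem result {F : Type*} [Field F] [Fintype F] {q : ℕ} (hF : Fintype.card F = q) (hq : Odd q) {n : ℕ} (hn : 1 ≤ n) (i : ℕ) (hi : i ≤ n) : (∃ c : F, c ≠ 0 ∧ (c • Matrix.diagonal (fun j : Fin n => if (j : ℕ) < i then (-1 : F) else 1)).det = 1) ↔ (Even i ∨ padicValNat 2 n < padicValNat 2 (q - 1)) := by
  classical
  have hchar : ringChar F ≠ 2 := fun h => by
    have := FiniteField.even_card_iff_char_two.1 h
    rw [hF] at this; have := Nat.odd_iff.1 hq; omega
  have hq1 : 1 < q := hF ▸ Fintype.one_lt_card
  have hdet : ∀ c : F, (c • Matrix.diagonal (fun j : Fin n => if (j : ℕ) < i then (-1 : F) else 1)).det =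
      c ^ n * (-1) ^ i := by
    intro c
    rw [Matrix.det_smul, Matrix.det_diagonal, Finset.prod_ite, Finset.prod_const, Finset.prod_const_one, mul_one,
      Fin.card_filter_val_lt, min_eq_right hi, Fintype.card_fin]
  simp only [hdet]
  rcases Nat.even_or_odd i with h | h
  · exact iff_of_true ⟨1, one_ne_zero, by simp [h.neg_one_pow]⟩ (Or.inl h)
  rw [or_iff_right (Nat.not_even_iff_odd.2 h), h.neg_one_pow]
  have h1 : (∃ c : F, c ≠ 0 ∧ c ^ n * -1 = 1) ↔ ∃ c : Fˣ, c ^ n = -1 := by
    constructor
    · rintro ⟨c, hc, h⟩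
      exact ⟨Units.mk0 c hc, Units.ext (by simpa [neg_eq_iff_eq_neg] using h)⟩
    · rintro ⟨c, hc⟩
      exact ⟨c, c.ne_zero, by rw [← Units.val_pow_eq_pow_val, hc]; simp⟩
  have h2 : (-1 : Fˣ) ≠ 1 := fun h => Ring.neg_one_ne_one_of_char_ne_two hchar (congrArg Units.val h)
  rw [h1, exists_pow_eq_iff, neg_one_pow_eq_one_iff_even h2, Nat.card_units, Nat.card_eq_fintype_card, hF,
    even_iff_two_dvd, ← Nat.factorization_def _ Nat.prime_two, ← Nat.factorization_def _ Nat.prime_two,
    Nat.Prime.dvd_iff_one_le_factorization Nat.prime_two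
      (Nat.div_pos (Nat.gcd_le_left _ (by omega)) (Nat.gcd_pos_of_pos_right _ hn)).ne',
    Nat.factorization_div (Nat.gcd_dvd_left _ _), Nat.factorization_gcd (by omega) (by omega)]
  simp only [Finsupp.tsub_apply, Finsupp.inf_apply]
  omega

end Cfsg.Agent.S2575
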