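import Cfsg.Statements.S2576
import Mathlib
import Cfsg.Agent.L0.GLn4
-- import your own Cfsg.Agent.* helpers here

set_option autoImplicit false
open Cfsg

namespace Cfsg.Agent.S2576

open Cfsg.Agent.L0

/-- Which involutions of PGL_2m(q) coming from a scalar of the quadratic extension field lie in PSL_2m(q), q odd: let μ generate the Sylow 2-subgroup of the multiplicative group of the field with q elements (μ has order the 2-part of q − 1) and let t be the block-diagonal matrix with m diagonal blocks [[0, 1], [μ, 0]] (so t² is the scalar μ and t is an involution modulo scalars). Then some non-zero scalar multiple of t has determinant one if and only if q ≡ 3 (mod 4) or the 2-part of q − 1 is less than the 2-part of 2m. -/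
theorem result {F : Type*} [Field F] [Fintype F] {q : ℕ} (hF : Fintype.card F = q) (hq : Odd q) {m : ℕ} (hm : 1 ≤ m) (μ : F) (hμ : orderOf μ = 2 ^ padicValNat 2 (q - 1)) : (∃ c : F, c ≠ 0 ∧ (c • Matrix.blockDiagonal (fun _ : Fin m => !![(0 : F), 1; μ, 0])).det = 1) ↔ (q % 4 = 3 ∨ padicValNat 2 (q - 1) < padicValNat 2 (2 * m)) := by
  classical
  have hchar : ringChar F ≠ 2 := fun h => by
    have := FiniteField.even_card_iff_char_two.1 h
    rw [hF] at this; have := Nat.odd_iff.1 hq; omega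
  have hq1 : 1 < q := hF ▸ Fintype.one_lt_card
  have hq2 := Nat.odd_iff.1 hq
  have hdet : ∀ c : F, (c • Matrix.blockDiagonal (fun _ : Fin m => !![(0 : F), 1; μ, 0])).det =
      (c ^ 2 * -μ) ^ m := by
    intro c
    rw [Matrix.det_smul, Matrix.det_blockDiagonal, mul_pow, ← pow_mul]
    simp [Matrix.det_fin_two]
  simp only [hdet]
  rw [padicValNat.mul two_ne_zero (by omega), padicValNat.self one_lt_two]
  set a := padicValNat 2 (q - 1) with ha
  have ha1 : 1 ≤ a := one_le_padicValNat_of_dvd (by omega) (by omega)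
  have h2a : 2 ^ a ∣ q - 1 := pow_padicValNat_dvd
  have h2a' : ¬ 2 ^ (a + 1) ∣ q - 1 := pow_succ_padicValNat_not_dvd (by omega)
  have hμa : μ ^ 2 ^ a = 1 := hμ ▸ pow_orderOf_eq_one μ
  constructor
  · rintro ⟨c, hc, h⟩
    by_contra h3
    rw [not_or] at h3
    obtain ⟨N, hN⟩ : ∃ N, q - 1 = 2 * (2 * N) := ⟨(q - 1) / 4, by omega⟩
    have hc1 : c ^ (q - 1) = 1 := hF ▸ FiniteField.pow_card_sub_one_eq_one c hc
    have h4 : (c ^ 2 * -μ) ^ (2 * N) = μ ^ (2 * N) := by
      rw [mul_pow, ← pow_mul, ← hN, hc1, one_mul, Even.neg_pow (even_two_mul N)]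
    have h5 : (c ^ 2 * -μ) ^ (q - 1) = 1 := by
      obtain ⟨t, ht⟩ := h2a
      rw [hN, mul_comm 2 (2 * N), pow_mul, h4, ← pow_mul, mul_comm, ← hN, ht, pow_mul, hμa, one_pow]
    obtain ⟨t, ht⟩ := orderOf_dvd_of_pow_eq_one h5
    have h6 : ¬ 2 ∣ t := by
      rintro ⟨s, rfl⟩
      have h7 : 2 * N = orderOf (c ^ 2 * -μ) * s := by nlinarith
      rw [h7, pow_mul, pow_orderOf_eq_one, one_pow, ← h7, eq_comm, ← orderOf_dvd_iff_pow_eq_one, hμ] at h4
      apply h2a'
      rw [hN, pow_succ']
      exact Nat.mul_dvd_mul_left _ h4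
    rw [ht] at h2a
    have h7 := (Nat.Coprime.dvd_of_dvd_mul_right (Nat.Coprime.pow_left a
      ((Nat.Prime.coprime_iff_not_dvd Nat.prime_two).2 h6)) h2a).trans (orderOf_dvd_of_pow_eq_one h)
    rw [padicValNat_dvd_iff_le (by omega)] at h7
    omega
  · rintro (h | h)
    · have ha2 : a = 1 := by
        by_contra h3
        have := (pow_dvd_pow 2 (show 2 ≤ a by omega)).trans h2a
        omega
      rw [ha2, pow_one] at hμ hμa
      have : μ = -1 := (sq_eq_one_iff.1 hμa).resolve_left fun h => by rw [h, orderOf_one] at hμ; omega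
      exact ⟨1, one_ne_zero, by simp [this]⟩
    · refine ⟨1, one_ne_zero, ?_⟩
      obtain ⟨t, ht⟩ : 2 ^ a ∣ m := by rw [padicValNat_dvd_iff_le (by omega)]; omega
      rw [one_pow, one_mul, ht, pow_mul, Even.neg_pow ((Nat.even_pow.2 ⟨even_two, by omega⟩)), hμa, one_pow]

end Cfsg.Agent.S2576
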