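import Cfsg.Statements.S2670
import Mathlib
import Cfsg.Agent.H10.PG

set_option autoImplicit false
open Cfsg

namespace Cfsg.Agent.S2670

open Polynomial H10 L0

/-- Number of conjugacy classes of elements of prime order r in PGL_n(q) = GL_n(q)/scalars when r divides q − 1 (n ≥ 2): the classes of elements with a diagonalisable lift correspond to the orbits of the cyclic rotation on the r-tuples of eigenvalue multiplicities (a_0, …, a_(r−1)) summing to n with every a_j < n, and when r divides n there are r − 1 further classes (lifts acting irreducibly on blocks of size r); in all (C(n+r−1, r−1) − r − [r ∣ n])/r + r·[r ∣ n] classes. -/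
theorem result {F : Type*} [Field F] [Fintype F] {q : ℕ} (hF : Fintype.card F = q) {n r : ℕ} (hn : 2 ≤ n) (hr : r.Prime) (hrq : r ∣ q - 1) : Nat.card {C : ConjClasses (GL (Fin n) F ⧸ Subgroup.center (GL (Fin n) F)) // ∃ g : GL (Fin n) F ⧸ Subgroup.center (GL (Fin n) F), ConjClasses.mk g = C ∧ orderOf g = r} = (Nat.choose (n + r - 1) (r - 1) - r - (if r ∣ n then 1 else 0)) / r + r * (if r ∣ n then 1 else 0) := by
  subst hF
  have : Nonempty (Fin n) := ⟨⟨0, by omega⟩⟩
  have h0 : ∀ a : F, Matrix.toLinAlgEquiv' (Matrix.scalar (Fin n) a) = algebraMap F _ a :=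
    fun a => Matrix.toLinAlgEquiv'.commutes a
  have := card_classes_proj ((Matrix.toLinAlgEquiv' (R := F) (n := Fin n)).toMonoidHom.comp
    (Units.coeHom _)) (Matrix.toLinAlgEquiv'.injective.comp Units.val_injective) (Λ := ⊤)
    (fun g hg => by
      obtain ⟨c, hc⟩ := (mem_center_gl_iff g).mp hg
      exact ⟨Units.mk0 c fun e => g.isUnit.ne_zero (by simp [hc, e]), trivial,
        (congrArg Matrix.toLinAlgEquiv' hc).trans (h0 c)⟩)
    (fun a _ => ⟨Units.map (Matrix.scalar (Fin n) (α := F)).toMonoidHom a,
      (mem_center_gl_iff _).mpr ⟨a, rfl⟩, h0 a⟩)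
    (fun g g' h => (isConj_iff_ty g g').mpr h) hr (by simpa [Nat.card_units] using hrq)
    (fun a _ y hy => ⟨Units.mk0 y fun e => a.ne_zero (by simp [← hy, e, hr.ne_zero]), trivial,
      Units.ext hy⟩) (by simp; omega) fun s hs h => exists_gl_ty_eq (fun u hu => by
        obtain ⟨h1, k, a, -, rfl⟩ := hs u hu
        exact .of_irreducible h1 (monic_X_pow_sub_C _ k.succ_ne_zero)) (fun u hu e => by
        obtain ⟨-, k, a, -, rfl⟩ := hs u hu
        simpa using X_dvd_iff.mp e) (by simpa using h)
  simpa using this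

end Cfsg.Agent.S2670
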