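import Cfsg.Statements.S2578
import Mathlib
import Cfsg.Agent.L0.GLn4
-- import your own Cfsg.Agent.* helpers here

set_option autoImplicit false
open Cfsg

namespace Cfsg.Agent.S2578

open Cfsg.Agent.L0

/-- Regular unipotent classes of SL_n(q): for n ≥ 2 over the field with q elements, the matrices u of determinant one with (u − 1)^n = 0 and rank(u − 1) = n − 1 form a single GL_n(q)-class which splits into exactly gcd(n, q − 1) conjugacy classes of SL_n(q). -/
theorem result {F : Type*} [Field F] [Fintype F] {q : ℕ} (hF : Fintype.card F = q) {n : ℕ} (hn : 2 ≤ n) : Nat.card {C : ConjClasses (Matrix.SpecialLinearGroup (Fin n) F) // ∃ u : Matrix.SpecialLinearGroup (Fin n) F, ConjClasses.mk u = C ∧ ((u : Matrix (Fin n) (Fin n) F) - 1) ^ n = 0 ∧ ((u : Matrix (Fin n) (Fin n) F) - 1).rank = n - 1} = Nat.gcd n (q - 1) := by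
  haveI : Nonempty (Fin n) := ⟨⟨0, by omega⟩⟩
  obtain ⟨x, hx⟩ := exists_sl_ty_eq (F := F) (n := Fin n) (s := {(Polynomial.X - 1) ^ Fintype.card (Fin n)})
    (by simpa using prim_X_sub_one_pow (by omega)) (by simp [natDegree_X_sub_one])
    (by simp [Polynomial.coeff_zero_eq_eval_zero, ← mul_pow])
  have h1 : ∀ u : Matrix.SpecialLinearGroup (Fin n) F, (((u : Matrix (Fin n) (Fin n) F) - 1) ^ n = 0 ∧
      ((u : Matrix (Fin n) (Fin n) F) - 1).rank = n - 1) ↔
        ty (u : Matrix (Fin n) (Fin n) F) = ty (x : Matrix (Fin n) (Fin n) F) := by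
    intro u
    rw [hx]
    exact ⟨fun h => ty_reg_unip ⟨_, h.1⟩ (by simpa using h.2), fun h => by simpa using reg_unip_of_ty h⟩
  simp only [h1]
  rw [card_sl_classes, ← hF, ← Nat.card_eq_fintype_card, ← Nat.card_units, Nat.gcd_comm,
    ← IsCyclic.index_powMonoidHom_range]
  congr 1
  obtain ⟨φ, -, h3, -, h4⟩ := exists_algHom_cent_single hx
  ext c
  constructor
  · rintro ⟨g, hg, rfl⟩
    obtain ⟨y, hy⟩ := h4 g (congrArg Units.val (Subgroup.mem_centralizer_singleton_iff.1 hg)).symm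
    obtain ⟨f, rfl⟩ := AdjoinRoot.mk_surjective y
    obtain ⟨w, hw⟩ := Polynomial.X_sub_C_dvd_sub_C_eval (p := f) (a := (1 : F))
    have h5 : (g : Matrix (Fin n) (Fin n) F).det = f.eval 1 ^ n := by
      have h6 : IsNilpotent (φ (AdjoinRoot.mk _ ((Polynomial.X - Polynomial.C 1) * w))) := by
        refine IsNilpotent.map ⟨Fintype.card (Fin n), ?_⟩ φ
        rw [← map_pow, AdjoinRoot.mk_eq_zero, mul_pow]
        exact dvd_mul_right _ _
      have h7 := det_scalar_add_nilpotent h6 (f.eval 1)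
      have : φ (AdjoinRoot.of _ (f.eval 1)) = Matrix.scalar (Fin n) (f.eval 1) := φ.commutes _
      rw [← hw, map_sub, map_sub, AdjoinRoot.mk_C, hy, this, add_sub_cancel, Fintype.card_fin] at h7
      exact h7
    have h6 : f.eval 1 ≠ 0 := fun h => g.det_ne_zero (by rw [h5, h, zero_pow (by omega)])
    exact ⟨Units.mk0 _ h6, Units.ext h5.symm⟩
  · rintro ⟨c, rfl⟩
    refine ⟨Matrix.GeneralLinearGroup.scalar (Fin n) c, ?_, Units.ext (by simp)⟩
    exact Subgroup.center_le_centralizer _ ((mem_center_gl_iff _).2 ⟨c, rfl⟩)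

end Cfsg.Agent.S2578
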