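import Cfsg.Statements.S2579
import Mathlib
import Cfsg.Agent.L0.GLn3
-- import your own Cfsg.Agent.* helpers here

set_option autoImplicit false
open Cfsg

namespace Cfsg.Agent.S2579

open Cfsg.Agent.L0

/-- In SL_n(F) with n ≥ 3, over a finite field F, any two transvections (matrices t with t − 1 of rank one and square zero) are conjugate by an element of SL_n(F). -/
theorem result {F : Type*} [Field F] [Finite F] {n : ℕ} (hn : 3 ≤ n) (s t : Matrix.SpecialLinearGroup (Fin n) F) (hs : Cfsg.IsTransvection (s : Matrix (Fin n) (Fin n) F)) (ht : Cfsg.IsTransvection (t : Matrix (Fin n) (Fin n) F)) : IsConj s t := by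
  have hs2 : ((s : Matrix (Fin n) (Fin n) F) - 1) ^ 2 = 0 := by rw [pow_two, hs.2]
  refine isConj_sl_of_ty (fun c _ => ?_) (ty_eq_of_sq_zero hs2 (by rw [pow_two, ht.2]) (hs.1.trans ht.1.symm))
  by_cases h : (Polynomial.X - 1) ∈ ty (s : Matrix (Fin n) (Fin n) F)
  · exact exists_commute_det_of_irreducible h irr_X_sub_one c
  exfalso
  have h1 := sum_natDegree_ty (s : Matrix (Fin n) (Fin n) F)
  have h2 := rank_sub_one_add ⟨2, hs2⟩
  rw [Multiset.map_congr rfl (g := fun _ => 2) fun u hu => by
    obtain ⟨j, hj, hj2, rfl⟩ := (sub_one_pow_eq_zero_iff _ _).1 hs2 u hu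
    interval_cases j
    · exact absurd (pow_one (Polynomial.X - 1 : Polynomial F) ▸ hu) h
    · rw [natDegree_X_sub_one_pow]] at h1
  rw [hs.1] at h2
  simp at h1 h2
  omega

end Cfsg.Agent.S2579
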