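import Cfsg.Statements.S2580
import Mathlib
import Cfsg.Agent.L0.GLn3
-- import your own Cfsg.Agent.* helpers here

set_option autoImplicit false
open Cfsg

namespace Cfsg.Agent.S2580

open Cfsg.Agent.L0

/-- Over a finite field, a square matrix is similar to its transpose: for every n × n matrix A there is an invertible matrix P with P A P⁻¹ = Aᵀ (stated as conjugacy in the monoid of matrices, whose units are the invertible matrices). -/
theorem result {F : Type*} [Field F] [Finite F] {n : ℕ} (A : Matrix (Fin n) (Fin n) F) : IsConj A A.transpose := by
  have h : ty A = ty A.transpose := by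
    refine ty_eq_of_rank (fun _ => prim_of_mem_ty) fun p k _ _ => ?_
    rw [← rank_aeval_add A.transpose (p ^ k), ← Matrix.rank_transpose]
    congr 2
    generalize p ^ k = f
    induction f using Polynomial.induction_on with
    | C a => simp [Algebra.algebraMap_eq_smul_one]
    | add p q hp hq => simp [hp, hq]
    | monomial k a _ => simp [Algebra.algebraMap_eq_smul_one]
  obtain ⟨P, hP⟩ := (ty_eq_iff _ _).1 h
  refine ⟨P, ?_⟩
  rw [SemiconjBy, ← hP, Units.inv_mul_cancel_right]

end Cfsg.Agent.S2580
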