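import Cfsg.Statements.S2582
import Mathlib
import Cfsg.Agent.H10.Real2

set_option autoImplicit false
open Cfsg

namespace Cfsg.Agent.S2582

/-- Which unipotent Jordan types occur in the finite symplectic group: over a finite field, a unipotent matrix with Jordan block sizes d_1, …, d_t (sum 2m, all at least 1) is similar to an element of Sp_2m(F) if and only if every odd block size occurs an even number of times. -/
theorem result {F : Type*} [Field F] [Fintype F] {m t : ℕ} (d : Fin t → ℕ) (hd : ∀ k, 1 ≤ d k) (hsum : ∑ k, d k = 2 * m) : (∃ e : ((k : Fin t) × Fin (d k)) ≃ (Fin m ⊕ Fin m), ∃ A : Matrix.symplecticGroup (Fin m) F, IsConj (Matrix.reindex e e (Cfsg.jordanTypeMatrix d F)) (A : Matrix (Fin m ⊕ Fin m) (Fin m ⊕ Fin m) F)) ↔ ∀ j : ℕ, Odd j → Even (Finset.univ.filter (fun k : Fin t => d k = j)).card := by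
  classical
  refine ⟨fun ⟨e, A, h⟩ j hj => ?_, fun h => ?_⟩
  · rw [H10.isConj_iff_ty', H10.ty_reindex, H10.ty_jordanTypeMatrix hd] at h
    rw [← H10.count_jordan (F := F), h]
    exact H10.even_count_alt (B := H10.spBilin (Fin m) F) H10.spBilin_nondegenerate.1
      (fun v => H10.spBilin_isAlt v)
      (g := Matrix.toLin' A.1) (H10.mem_symplecticGroup_iff_form.mp A.2) hj
  · obtain ⟨g, hg⟩ := (H10.real_alt_unip (s := Finset.univ.val.map fun k => (Polynomial.X - 1) ^ d k)
      (by simpa using fun k => ⟨d k, hd k, rfl⟩) fun j hj => H10.count_jordan (F := F) d j ▸ h j hj).alt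
      (H10.spBilin_isAlt (l := Fin m) (F := F)) H10.spBilin_nondegenerate.1
      (by simp [L0.natDegree_X_sub_one, List.sum_ofFn, hsum, two_mul])
    refine ⟨Fintype.equivOfCardEq (by simp [hsum, two_mul]), (H10.spIso _ F).symm g, ?_⟩
    rw [H10.isConj_iff_ty', H10.ty_reindex, H10.ty_jordanTypeMatrix hd, ← hg]
    exact congrArg L0.tyE (LinearMap.ext fun v => by
      rw [Matrix.toLin'_apply, ← H10.spIso_apply, MulEquiv.apply_symm_apply]; rfl)

end Cfsg.Agent.S2582
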