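import Cfsg.Statements.S2584
import Mathlib
import Cfsg.Agent.H10.Real2

set_option autoImplicit false
open Cfsg

namespace Cfsg.Agent.S2584

/-- Which unipotent Jordan types occur in a finite orthogonal group in characteristic two: over a finite field of characteristic 2 and in even dimension 2m, a unipotent matrix with Jordan block sizes d_1, …, d_t (sum 2m, all at least 1) is similar to an isometry of some quadratic form on F^(2m) with non-degenerate polar form if and only if every odd block size occurs an even number of times (the same condition as for the symplectic group, which contains these orthogonal groups). -/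
theorem result {F : Type*} [Field F] [Fintype F] [CharP F 2] {m t : ℕ} (d : Fin t → ℕ) (hd : ∀ k, 1 ≤ d k) (hsum : ∑ k, d k = 2 * m) : (∃ Q : QuadraticForm F (Fin (2 * m) → F), (QuadraticMap.polarBilin Q).Nondegenerate ∧ ∃ e : ((k : Fin t) × Fin (d k)) ≃ Fin (2 * m), ∃ A : ↥(Cfsg.isometryGroup F ⇑Q), IsConj (Matrix.reindex e e (Cfsg.jordanTypeMatrix d F)) ((A : Matrix.GeneralLinearGroup (Fin (2 * m)) F) : Matrix (Fin (2 * m)) (Fin (2 * m)) F)) ↔ ∀ j : ℕ, Odd j → Even (Finset.univ.filter (fun k : Fin t => d k = j)).card := by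
  classical
  refine ⟨fun ⟨Q, hQ, e, A, h⟩ j hj => ?_, fun h => ?_⟩
  · rw [H10.isConj_iff_ty', H10.ty_reindex, H10.ty_jordanTypeMatrix hd] at h
    rw [← H10.count_jordan (F := F), h]
    exact H10.even_count_alt hQ.1 (fun x => ((H11.isForm_quad Q).diag x).trans
      (by simp [CharTwo.two_eq_zero])) (H11.oEquiv (H11.isForm_quad Q) A).2.1 hj
  · obtain ⟨B, Q, h1, hB, g, hg⟩ := (H10.real_alt_unip
      (s := Finset.univ.val.map fun k => (Polynomial.X - 1 : Polynomial F) ^ d k)
      (by simpa using fun k => ⟨d k, hd k, rfl⟩)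
      fun j hj => H10.count_jordan (F := F) d j ▸ h j hj).quad_of_alt.exists_realIn (V := Fin (2 * m) → F)
      (by simp [L0.natDegree_X_sub_one, List.sum_ofFn, hsum])
    have h3 : (H11.IsQuad.toQF h1).polarBilin = B := LinearMap.ext₂ (H11.IsQuad.polar_eq h1)
    refine ⟨H11.IsQuad.toQF h1, by
      rw [h3]; exact h1.isRefl.nondegenerate_iff_separatingLeft.mpr hB,
      Fintype.equivOfCardEq (by simp [hsum]), (H11.oEquiv h1).symm g, ?_⟩
    rw [H10.isConj_iff_ty', H10.ty_reindex, H10.ty_jordanTypeMatrix hd, ← hg]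
    exact congrArg L0.tyE (LinearMap.ext fun v => (H11.oEquiv_symm_mulVec h1 _ v).symm)

end Cfsg.Agent.S2584
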