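import Cfsg.Statements.S2585
import Mathlib
import Cfsg.Agent.H10.Geo1

set_option autoImplicit false
open Cfsg

namespace Cfsg.Agent.S2585

/-- Over a finite field of characteristic two every element of the symplectic group is orthogonal for a suitable quadratic form: for each A in Sp_2m(F) there is a quadratic form Q on F^(2m) whose polar form is the alternating form defining Sp_2m(F) (so Q is non-degenerate) and which A preserves. Equivalently, for m ≥ 1, Sp_2m(F) is the union of the conjugates of its two orthogonal subgroups O⁺_2m(F) and O⁻_2m(F). -/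
theorem result {F : Type*} [Field F] [Fintype F] [CharP F 2] {m : ℕ} (A : Matrix.symplecticGroup (Fin m) F) : ∃ Q : QuadraticForm F (Fin m ⊕ Fin m → F), (∀ u v : Fin m ⊕ Fin m → F, QuadraticMap.polar ⇑Q u v = Cfsg.sympForm m F u v) ∧ ∀ v : Fin m ⊕ Fin m → F, Q ((A : Matrix (Fin m ⊕ Fin m) (Fin m ⊕ Fin m) F).mulVec v) = Q v := by
  let B := H10.spBilin (Fin m) F
  have hA : B.IsAlt := H10.spBilin_isAlt
  have h := H11.isForm_alt hA
  have hB := H10.spBilin_nondegenerate (l := Fin m) (F := F)
  let g := H10.spIso _ _ A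
  have hg : ∀ v, g.1 v = A.1.mulVec v := H10.spIso_apply A
  let Q₀ : QuadraticForm F (Fin m ⊕ Fin m → F) := (H11.isQuad_plus m F).toQF
  have h0 : ∀ u v, Q₀ (u + v) = Q₀ u + Q₀ v + B u v := fun u v => by
    rw [H11.IsQuad.toQF_apply, (H11.isQuad_plus m F).add', H11.bPlus_apply, H10.spBilin_apply_sum]
    congr 1
    exact Finset.sum_congr rfl fun i _ => by rw [CharTwo.sub_eq_add, add_comm]
  let fr := frobeniusEquiv F 2
  have hfr : ∀ a, fr a = a ^ 2 := fun _ => rfl
  let l : (Fin m ⊕ Fin m → F) →ₗ[F] F :=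
    { toFun := fun v => fr.symm (Q₀ (g.1 v) - Q₀ v)
      map_add' := fun u v => by
        rw [← map_add, map_add g.1, h0, h0, g.2.1]; congr 1; ring
      map_smul' := fun c v => fr.injective (by
        simp only [map_smul, QuadraticMap.map_smul, RingEquiv.apply_symm_apply, smul_eq_mul,
          RingHom.id_apply, map_mul, hfr c]
        ring) }
  obtain ⟨w, hw⟩ := H11.exists_form_eq (σ := RingHom.id F) (fun _ => rfl) hB.1 l
  have hw' : w ∈ H11.movS g⁻¹.1 := by
    rw [← h.perp_fixS hB.1 g⁻¹.2, h.mem_perp']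
    intro v hv
    rw [Subgroup.coe_inv, H11.fixS_inv, H11.mem_fixS] at hv
    rw [hw]
    simp [l, hv]
  obtain ⟨u, hu⟩ := H11.mem_movS.mp hw'
  refine ⟨Q₀ + QuadraticMap.linMulLin (B u) (B u), fun x y => ?_, fun v => ?_⟩
  · simp only [QuadraticMap.polar, add_apply, QuadraticMap.linMulLin_apply, h0,
      map_add, H10.sympForm_eq_spBilin]
    linear_combination (B u x * B u y) * CharTwo.two_eq_zero (R := F)
  · have h1 : B u (g.1 v) = B w v + B u v := by
      rw [← hu, map_sub, LinearMap.sub_apply, sub_add_cancel, ← g.2.1 (g⁻¹.1 u)]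
      simp [B]
    have h2 : (B w v) ^ 2 = Q₀ (g.1 v) - Q₀ v := by
      rw [hw, ← hfr]; exact fr.apply_symm_apply _
    simp only [add_apply, QuadraticMap.linMulLin_apply, ← hg, h1]
    linear_combination -h2 + (B w v ^ 2 + B w v * B u v) * CharTwo.two_eq_zero (R := F)

end Cfsg.Agent.S2585
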