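import Cfsg.Statements.S2586
import Mathlib
import Cfsg.Agent.H10.Sp
import Cfsg.Agent.L0.GLn2

set_option autoImplicit false
open Cfsg

namespace Cfsg.Agent.S2586

theorem ty_transpose {F : Type*} [Field F] {n : Type*} [Fintype n] [DecidableEq n]
    (A : Matrix n n F) : L0.ty A.transpose = L0.ty A :=
  L0.ty_eq_of_rank (fun _ => L0.prim_of_mem_ty) fun p k _ _ => by
    have : ∀ f : Polynomial F, Polynomial.aeval A.transpose f = (Polynomial.aeval A f).transpose :=
      fun f => by
        induction f using Polynomial.induction_on' with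
        | add f g hf hg => simp [hf, hg]
        | monomial n a => simp [Matrix.transpose_pow, Algebra.algebraMap_eq_smul_one]
    rw [this, Matrix.rank_transpose, L0.rank_aeval_add]

theorem isConj_transpose {F : Type*} [Field F] {n : Type*} [Fintype n] [DecidableEq n]
    (A : Matrix n n F) : IsConj A A.transpose := by
  obtain ⟨P, hP⟩ := (L0.ty_eq_iff _ _).mp (ty_transpose A).symm
  exact ⟨P, by rw [SemiconjBy, ← hP]; simp⟩

/-- Over a finite field, every element of the symplectic group Sp_2m(F) is conjugate by an invertible matrix to its inverse. -/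
theorem result {F : Type*} [Field F] [Finite F] {m : ℕ} (A : Matrix.symplecticGroup (Fin m) F) : IsConj (A : Matrix (Fin m ⊕ Fin m) (Fin m ⊕ Fin m) F) ((A⁻¹ : Matrix.symplecticGroup (Fin m) F) : Matrix (Fin m ⊕ Fin m) (Fin m ⊕ Fin m) F) := by
  refine (isConj_transpose _).trans ⟨⟨Matrix.J _ _, -Matrix.J _ _, by simp [Matrix.J_squared],
    by simp [Matrix.J_squared]⟩, ?_⟩
  show Matrix.J _ _ * _ = _ * Matrix.J _ _
  rw [SymplecticGroup.coe_inv]
  simp [Matrix.mul_assoc, Matrix.J_squared]

end Cfsg.Agent.S2586
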