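import Cfsg.Statements.S2587
import Mathlib
import Cfsg.Agent.H10.Conj2
import Cfsg.Agent.H11.UBridge

set_option autoImplicit false
open Cfsg

namespace Cfsg.Agent.S2587

/-- Conjugacy in the finite general unitary group is controlled by the general linear group: two elements of GU_n(q) (the invertible matrices over the field with q² elements preserving the Hermitian form Σ u_i v_i^q) are conjugate in GU_n(q) if and only if they are conjugate in GL_n(q²). -/
theorem result {K : Type*} [Field K] [Fintype K] {q n : ℕ} (hK : Fintype.card K = q ^ 2) (A B : ↥(Cfsg.GU n K q)) : IsConj A B ↔ IsConj (A : GL (Fin n) K) (B : GL (Fin n) K) := by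
  refine ⟨fun h => (Subgroup.subtype _).map_isConj h, fun h => ?_⟩
  obtain ⟨x, hx⟩ := H10.exists_equiv_of_isConj_mat ((Units.coeHom _).map_isConj h)
  have hq := H11.qConj_conjQ hK
  have := H10.isConj_of_unitary (hq.isHerm (Fin n)).form (H11.hermB_sep _) hq.ne_id
    (fun _ _ h => h) (H11.guEquiv hq n A) (H11.guEquiv hq n B) (x := x)
    (by simpa [H11.guEquiv_apply] using hx)
  simpa using (H11.guEquiv hq n).symm.toMonoidHom.map_isConj this

end Cfsg.Agent.S2587
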