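import Cfsg.Statements.S2588
import Mathlib
import Cfsg.Agent.H10.Conj2
import Cfsg.Agent.H11.UBridge
import Cfsg.Agent.S2586

set_option autoImplicit false
open Cfsg

namespace Cfsg.Agent.S2588

open Matrix H11

/-- An invertible matrix A over the field with q² elements is conjugate in GL_n(q²) to an element of the general unitary group GU_n(q) (isometries of the Hermitian form Σ u_i v_i^q) if and only if A is similar to the inverse transpose of its entrywise q-th power (A ~ A^(−qT), the image of A under the map sending a matrix to the inverse transpose of its entrywise q-th power — inverse transpose composed with the field automorphism — whose fixed points form GU_n(q)). -/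
theorem result {K : Type*} [Field K] [Fintype K] {q n : ℕ} (hK : Fintype.card K = q ^ 2) (A : GL (Fin n) K) : (∃ B : ↥(Cfsg.GU n K q), IsConj A (B : GL (Fin n) K)) ↔ IsConj (A : Matrix (Fin n) (Fin n) K) (((A : Matrix (Fin n) (Fin n) K).map (fun x : K => x ^ q)).transpose)⁻¹ := by
  have hq := qConj_conjQ hK
  set σ := conjQ hK with hσ
  let ct : Matrix (Fin n) (Fin n) K →+ Matrix (Fin n) (Fin n) K :=
    AddMonoidHom.mk' (fun X => (X.map σ)ᵀ) fun X Y => by ext; simp
  have hct : ∀ X, ct X = (X.map σ)ᵀ := fun _ => rfl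
  have c1 : ct 1 = 1 := by simp [hct]
  have c2 : ∀ X Y, ct (X * Y) = ct Y * ct X := fun X Y => by
    rw [hct, Matrix.map_mul, transpose_mul]; rfl
  have c3 : ∀ X, ct (ct X) = X := fun X => by ext i j; simp [hct, hq.invol]
  have c4 : ∀ X u v, hermB (Fin n) σ (X *ᵥ u) v = hermB (Fin n) σ u (ct X *ᵥ v) := fun X u v => by
    simp only [hermB_apply, hct, mulVec, dotProduct, map_sum, map_mul, Finset.sum_mul,
      Finset.mul_sum, transpose_apply, map_apply]
    rw [Finset.sum_comm]
    exact Finset.sum_congr rfl fun i _ => Finset.sum_congr rfl fun j _ => by ring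
  have hh := hq.isHerm (Fin n)
  have ext : ∀ X Y : Matrix (Fin n) (Fin n) K,
      (∀ u v, hermB (Fin n) σ u (X *ᵥ v) = hermB (Fin n) σ u (Y *ᵥ v)) → X = Y := fun X Y h =>
    matrix_eq_iff_mulVec.mpr fun v => H10.form_ext_right hh.form (hermB_sep _) fun u => h u v
  have mem : ∀ g : GL (Fin n) K, g ∈ GU n K q ↔ ct g * g = 1 := fun g => by
    show (∀ u v, hermForm n K q (g.1 *ᵥ u) (g.1 *ᵥ v) = hermForm n K q u v) ↔ _
    simp only [hq.hermForm_eq, c4, mulVec_mulVec]
    exact ⟨fun h => ext _ _ fun u v => by rw [h, one_mulVec], fun h u v => by rw [h, one_mulVec]⟩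
  change _ ↔ IsConj A.1 (ct A)⁻¹
  let cu : GL (Fin n) K → GL (Fin n) K := fun P =>
    ⟨ct P, ct (P⁻¹ : GL _ _), by rw [← c2]; simp [c1], by rw [← c2]; simp [c1]⟩
  have hcu : ∀ P, (cu P).1 = ct P := fun _ => rfl
  have hinv : (ct A)⁻¹ = ((cu A)⁻¹ : GL _ _) := by rw [← hcu, coe_units_inv]
  rw [hinv]
  constructor
  · rintro ⟨B, hB⟩
    obtain ⟨P, hP⟩ := isConj_iff.mp hB
    have h1 : cu B * B = 1 := Units.ext ((mem _).mp B.2)
    have h2 : cu B = (cu P)⁻¹ * cu A * cu P := Units.ext (by
      rw [← hP]; simp only [Units.val_mul, hcu, c2, mul_assoc]; rfl)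
    refine (Units.coeHom _).map_isConj (a := A) (b := (cu A)⁻¹) (isConj_iff.mpr ⟨cu P * P, ?_⟩)
    rw [h2, ← hP] at h1
    rw [eq_inv_iff_mul_eq_one]
    have := congrArg (fun x => (cu A)⁻¹ * cu P * x * (cu P)⁻¹ * cu A) h1
    simpa [mul_assoc] using this
  · rintro ⟨X, hX⟩
    have hX' : cu A * X * A = X := by
      have : X * A = (cu A)⁻¹ * X := Units.ext hX
      rw [mul_assoc, this]; simp
    let st : Matrix (Fin n) (Fin n) K →+ Matrix (Fin n) (Fin n) K :=
      AddMonoidHom.mk' (fun z => (X⁻¹ : GL _ _) * ct z * X) fun a b => by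
        simp [mul_add, add_mul]
    have hst : ∀ z, st z = (X⁻¹ : GL _ _) * ct z * X := fun _ => rfl
    let c : GL (Fin n) K := X⁻¹ * cu X
    have cc : ∀ P, cu (cu P) = P := fun P => Units.ext (c3 _)
    have cm : ∀ P R, cu (P * R) = cu R * cu P := fun P R => Units.ext (c2 _ _)
    have ci : ∀ P, cu P⁻¹ = (cu P)⁻¹ := fun P => Units.ext rfl
    have su : ∀ P : GL (Fin n) K, st P = (X⁻¹ * cu P * X : GL _ _) := fun _ => rfl
    have s1 : st c = (c⁻¹ : GL _ _) := by rw [su]; simp [c, cm, ci, cc, mul_assoc]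
    have s2 : st (c⁻¹ : GL _ _) = c := by rw [su]; simp [c, cm, ci, cc, mul_assoc]
    have s3 : ∀ a : K, st (algebraMap K _ a) = algebraMap K _ (σ a) := fun a => by
      have : ct (algebraMap K _ a) = algebraMap K _ (σ a) := by
        ext i j; by_cases h : i = j <;> simp [hct, algebraMap_matrix_apply, h, eq_comm]
      rw [hst, this, ← Algebra.commutes, mul_assoc]; simp
    obtain ⟨θ, hθ⟩ := exists_ne_conj hq.ne_id
    have hAc : Commute A c := by
      have h1 := congrArg cu hX'
      rw [cm, cm, cc] at h1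
      show A * (X⁻¹ * cu X) = X⁻¹ * cu X * A
      nth_rewrite 1 [← h1, ← hX']
      simp [mul_assoc]
    obtain ⟨v, hv, h1, h2⟩ := (H10.norm_of_commute st (by simp [hst, c1])
      (fun a b => by simp [hst, c2, mul_assoc]) {c.1, (c⁻¹).1, algebraMap K _ θ, algebraMap K _ (σ θ)}
      (by
        rintro a (rfl | rfl | rfl | rfl) b (rfl | rfl | rfl | rfl) <;>
          first | rfl | exact Algebra.commutes _ _ | exact (Algebra.commutes _ _).symm | simp)
      (by rintro a (rfl | rfl | rfl | rfl) <;> simp only [s1, s2, s3, hq.invol] <;> simp)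
      (θ := algebraMap K _ θ) (by simp)
      (by rw [s3, ← map_sub]; exact (Ne.isUnit (sub_ne_zero.mpr hθ.symm)).map _)).2 c.1
      (by simp) (by rw [s1]; simp)
    have k : ∀ g : GL (Fin n) K, Commute g c → Commute g.1 v := fun g hg => h2 g.1 (by
      rintro a (rfl | rfl | rfl | rfl)
      exacts [hg.map (Units.coeHom _), hg.inv_right.map (Units.coeHom _),
        (Algebra.commutes _ _).symm, (Algebra.commutes _ _).symm])
    obtain ⟨v, rfl⟩ := hv
    have h3 : Commute c v := Units.ext (k c (Commute.refl _))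
    have h4 : Commute A v := Units.ext (k A hAc)
    have h5 : cu (X * v) = X * v := by
      have h6 : c * (X⁻¹ * cu v * X) = v := Units.ext h1
      rw [← eq_inv_mul_iff_mul_eq, h3.inv_left.eq, eq_mul_inv_iff_mul_eq] at h6
      rw [cm]
      nth_rewrite 2 [← h6]
      simp [c, mul_assoc]
    have h6 : cu A * (X * v) * A = X * v := by
      rw [mul_assoc, mul_assoc, ← h4.eq, ← mul_assoc, ← mul_assoc, hX']
    generalize X * v = Y at h5 h6
    let C := (hermB (Fin n) σ).compl₂ (mulVecLin Y.1)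
    have hC : ∀ u w, C u w = hermB (Fin n) σ u (Y.1 *ᵥ w) := fun _ _ => rfl
    obtain ⟨b, hb⟩ := exists_orthonormal_basis hq.ne_id (isForm_herm hq.ne_id hq.invol (B := C)
      ⟨fun u w => by rw [hC, hC, hh.symm, c4, ← hcu, h5]⟩) (fun u hu => hermB_sep _ u fun w => by
        have := hu ((Y⁻¹).1 *ᵥ w)
        rwa [hC, mulVec_mulVec, Units.mul_inv, one_mulVec] at this) (n := n) (by simp)
    let P := (glEquiv (Fin n) K).symm ((Pi.basisFun K (Fin n)).equiv b (Equiv.refl _))
    have hP : ∀ i, P.1 *ᵥ Pi.single i 1 = b i := fun i => by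
      rw [← glEquiv_apply, MulEquiv.apply_symm_apply, ← Pi.basisFun_apply, Module.Basis.equiv_apply]
      rfl
    have h7 : cu P * Y * P = 1 := Units.ext (by
      ext i j
      have := hb i j
      rw [hC, ← hP, ← hP, c4, hermB_single, mulVec_mulVec, mulVec_mulVec] at this
      simpa [one_apply, hcu] using this)
    refine ⟨⟨P⁻¹ * A * P, (mem _).mpr (congrArg Units.val (?_ : cu _ * _ = 1))⟩,
      isConj_iff.mpr ⟨P⁻¹, by simp⟩⟩
    rw [cm, cm, ci, ← h7]
    nth_rewrite 1 [← h6]
    have h8 : (cu P)⁻¹ = Y * P := by rw [inv_eq_iff_mul_eq_one, ← mul_assoc, h7]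
    rw [h8]
    simp [mul_assoc]

end Cfsg.Agent.S2588
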