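import Cfsg.Statements.S2590
import Mathlib
import Cfsg.Agent.H10.Conj2

set_option autoImplicit false
open Cfsg

namespace Cfsg.Agent.S2590

/-- Two semisimple elements of odd order of a finite orthogonal group (isometry group of a quadratic form on F^n with non-degenerate polar form, F finite of characteristic p; the elements have odd order prime to p) are conjugate in the orthogonal group if and only if they are conjugate in GL_n(F). -/
theorem result {F : Type*} [Field F] [Fintype F] {p : ℕ} [Fact p.Prime] [CharP F p] {n : ℕ} (Q : QuadraticForm F (Fin n → F)) (hQ : (QuadraticMap.polarBilin Q).Nondegenerate) (A B : ↥(Cfsg.isometryGroup F ⇑Q)) (hodd : Odd (orderOf A)) (hA : (orderOf A).Coprime p) : IsConj A B ↔ IsConj ((A : Matrix.GeneralLinearGroup (Fin n) F) : Matrix (Fin n) (Fin n) F) ((B : Matrix.GeneralLinearGroup (Fin n) F) : Matrix (Fin n) (Fin n) F) := by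
  refine ⟨fun h => ((Units.coeHom _).comp (Subgroup.subtype _)).map_isConj h, fun h => ?_⟩
  obtain ⟨x, hx⟩ := H10.exists_equiv_of_isConj_mat h
  have hq : H11.IsQuad Q.polarBilin Q := H11.isForm_quad Q
  have := H10.isConj_of_odd hq hQ.1 (H11.oEquiv hq A)
    (H11.oEquiv hq B) (x := x) (by simpa [H11.oEquiv_apply] using hx) (n := orderOf A)
    (by rw [← Subgroup.coe_pow, ← map_pow, pow_orderOf_eq_one, map_one]; rfl)
    (H10.natCast_ne_zero_of_coprime hA) hodd
  simpa using (H11.oEquiv hq).symm.toMonoidHom.map_isConj this

end Cfsg.Agent.S2590
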