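import Cfsg.Statements.S2591
import Mathlib
import Cfsg.Agent.H10.Reg

set_option autoImplicit false
open Cfsg

namespace Cfsg.Agent.S2591

/-- Over a finite field of odd order and for m ≥ 1, the regular unipotent elements of Sp_2m(F) (u − 1 nilpotent of rank 2m − 1, a single Jordan block) form exactly two conjugacy classes of Sp_2m(F) (one class under the similarity group, which splits in two). -/
theorem result {F : Type*} [Field F] [Fintype F] {q : ℕ} (hF : Fintype.card F = q) (hq : Odd q) {m : ℕ} (hm : 1 ≤ m) : Nat.card {C : ConjClasses ↥(Matrix.symplecticGroup (Fin m) F) // ∃ u : Matrix.symplecticGroup (Fin m) F, ConjClasses.mk u = C ∧ ((u : Matrix (Fin m ⊕ Fin m) (Fin m ⊕ Fin m) F) - 1) ^ (2 * m) = 0 ∧ ((u : Matrix (Fin m ⊕ Fin m) (Fin m ⊕ Fin m) F) - 1).rank = 2 * m - 1} = 2 := by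
  obtain ⟨m, rfl⟩ := Nat.exists_eq_add_of_le' hm
  exact (H10.card_classes_congr' (H10.spIso _ F) fun u => by
    rw [H10.tyE_spIso, H10.reg_iff_ty (by simp [two_mul]) (by omega)]).trans
    (H10.card_classes_reg (H11.two_ne_zero_of_odd_card (hF ▸ hq))
    (H10.spBilin_isAlt (l := Fin (m + 1)) (F := F)) H10.spBilin_nondegenerate.1 (m := m)
    (by simp [two_mul]))

end Cfsg.Agent.S2591
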