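import Cfsg.Statements.S2592
import Mathlib
import Cfsg.Agent.H10.Reg

set_option autoImplicit false
open Cfsg

namespace Cfsg.Agent.S2592

/-- Over a finite field with q elements, q odd, the centraliser in Sp_2m(F) (m ≥ 1) of a regular unipotent element (u − 1 nilpotent of rank 2m − 1) has order 2 q^m. -/
theorem result {F : Type*} [Field F] [Fintype F] {q : ℕ} (hF : Fintype.card F = q) (hq : Odd q) {m : ℕ} (hm : 1 ≤ m) (u : Matrix.symplecticGroup (Fin m) F) (hnil : ((u : Matrix (Fin m ⊕ Fin m) (Fin m ⊕ Fin m) F) - 1) ^ (2 * m) = 0) (hreg : ((u : Matrix (Fin m ⊕ Fin m) (Fin m ⊕ Fin m) F) - 1).rank = 2 * m - 1) : Nat.card ↥(Subgroup.centralizer ({u} : Set ↥(Matrix.symplecticGroup (Fin m) F))) = 2 * q ^ m := by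
  obtain ⟨m, rfl⟩ := Nat.exists_eq_add_of_le' hm
  rw [H10.card_centralizer_congr (H10.spIso _ F), H10.card_cent_reg
    (H11.two_ne_zero_of_odd_card (hF ▸ hq)) H10.spBilin_isAlt H10.spBilin_nondegenerate.1 _
    ((H10.tyE_spIso u).trans ((H10.reg_iff_ty (by simp [two_mul]) (by omega)).mp ⟨hnil, hreg⟩)),
    Nat.card_eq_fintype_card, hF]

end Cfsg.Agent.S2592
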