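import Cfsg.Statements.S2680
import Mathlib
import Cfsg.Agent.H10.Wall3

set_option autoImplicit false
open Cfsg

namespace Cfsg.Agent.S2680

/-- Centraliser order of an involution t of Sp_2m(q), q even, with s = rank(t − 1) odd (type b_s): |C(t)| = q^(2ms − (3s² − s)/2) · |Sp_(s−1)(q)| · |Sp_(2m−2s)(q)|, where |Sp_2k(q)| = q^(k²) Π_(i=1)^k (q^(2i) − 1). -/
theorem result {F : Type*} [Field F] [Fintype F] [CharP F 2] {q : ℕ} (hF : Fintype.card F = q) {m s : ℕ} (t : Matrix.symplecticGroup (Fin m) F) (ht : t ^ 2 = 1) (hs : ((t : Matrix (Fin m ⊕ Fin m) (Fin m ⊕ Fin m) F) - 1).rank = s) (hodd : Odd s) : Nat.card ↥(Subgroup.centralizer ({t} : Set ↥(Matrix.symplecticGroup (Fin m) F))) = q ^ (2 * m * s - (3 * s ^ 2 - s) / 2) * ((q : ℕ) ^ (((s - 1) / 2) ^ 2) * ∏ i : Fin ((s - 1) / 2), (q ^ (2 * ((i : ℕ) + 1)) - 1)) * ((q : ℕ) ^ ((m - s) ^ 2) * ∏ i : Fin (m - s), (q ^ (2 * ((i : ℕ) + 1)) - 1)) := by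
  have T := H10.two_alt (H10.spBilin_isAlt (l := Fin m) (F := F)) H10.spBilin_nondegenerate.1
  have hg : H10.spIso _ _ t * H10.spIso _ _ t = 1 := by rw [← map_mul, ← pow_two, ht, map_one]
  rw [← H10.finrank_movS_of_mulVec (H10.spIso_apply _)] at hs
  have h1 := T.two_mul_rank_le hg
  have h2 := H10.card_fixSub_alt T.sep H10.spBilin_isAlt (m := m) (by simp [two_mul])
    (T.movS_isotropic hg) hs
  rw [hs, H10.finrank_sp_space, Fintype.card_fin] at h1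
  obtain ⟨d, rfl⟩ : ∃ d, m = s + d := ⟨m - s, by omega⟩
  subst hF
  rw [H10.card_centralizer_congr (H10.spIso _ _)]
  obtain ⟨k, rfl⟩ := hodd
  rw [T.card_cent_odd hg hs, h2, Nat.card_eq_fintype_card, show (2 * k + 1 - 1) / 2 = k by omega,
    show 2 * (2 * k + 1 + d) * (2 * k + 1) - (3 * (2 * k + 1) ^ 2 - (2 * k + 1)) / 2 = 2 * k + 1 +
      ((2 * k + 1) * (2 * (2 * k + 1 + d) - 2 * (2 * k + 1)) + (2 * k + 1) * (2 * k + 1 - 1) / 2) by
      rw [show 2 * (2 * k + 1 + d) - 2 * (2 * k + 1) = 2 * d by omega, Nat.add_sub_cancel]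
      ring_nf; omega, H10.spO, H10.spO]
  ring

end Cfsg.Agent.S2680
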