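import Cfsg.Statements.S2594
import Mathlib
import Cfsg.Agent.H10.Wall3
import Cfsg.Agent.S2680

set_option autoImplicit false
open Cfsg

namespace Cfsg.Agent.S2594

/-- Over a finite field with q elements, q even, an element t of Sp_2m(F) with rank(t − 1) = 1 (a symplectic transvection) has centraliser in Sp_2m(F) of order q^(2m−1) · |Sp_(2m−2)(q)| = q^(2m−1) · q^((m−1)²) · Π_(i=1)^(m−1) (q^(2i) − 1). -/
theorem result {F : Type*} [Field F] [Fintype F] [CharP F 2] {q : ℕ} (hF : Fintype.card F = q) {m : ℕ} (hm : 1 ≤ m) (t : Matrix.symplecticGroup (Fin m) F) (ht : ((t : Matrix (Fin m ⊕ Fin m) (Fin m ⊕ Fin m) F) - 1).rank = 1) : Nat.card ↥(Subgroup.centralizer ({t} : Set ↥(Matrix.symplecticGroup (Fin m) F))) = q ^ (2 * m - 1) * (q ^ ((m - 1) ^ 2) * ∏ i : Fin (m - 1), (q ^ (2 * ((i : ℕ) + 1)) - 1)) := by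
  have T := H10.two_alt (H10.spBilin_isAlt (l := Fin m) (F := F)) H10.spBilin_nondegenerate.1
  have h2 : t ^ 2 = 1 := by
    obtain ⟨π, χ, H⟩ := H10.exists_wallD T.form T.sep (H10.spIso _ _ t).2
    have h1 := (H10.finrank_movS_of_mulVec (H10.spIso_apply t)).trans ht
    obtain ⟨w, -, hw⟩ := finrank_eq_one_iff'.mp h1
    refine (H10.spIso _ _).injective ?_
    rw [pow_two, map_mul, map_one]
    refine T.mul_self_of_wall H fun a b => ?_
    obtain ⟨a, rfl⟩ := hw a
    obtain ⟨b, rfl⟩ := hw b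
    simp [mul_left_comm]
  rw [S2680.result hF t h2 ht odd_one]
  simp

end Cfsg.Agent.S2594
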