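import Cfsg.Statements.S2599
import Mathlib

set_option autoImplicit false
open Cfsg

namespace Cfsg.Agent.S2599

/-- An irreducible invariant subspace of a semisimple isometry is non-degenerate or totally singular: let Q be a quadratic form on F^n (F finite of characteristic p) with non-degenerate polar form f, x an isometry of Q of order prime to p, and U a non-zero x-invariant subspace containing no x-invariant subspace other than 0 and U. Then U meets its f-orthogonal trivially, or Q vanishes on U, or p = 2, U is a line spanned by a non-singular vector and x fixes U pointwise. -/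
theorem result {F : Type*} [Field F] [Fintype F] {p : ℕ} [Fact p.Prime] [CharP F p] {n : ℕ} (Q : QuadraticForm F (Fin n → F)) (hQ : (QuadraticMap.polarBilin Q).Nondegenerate) (x : ↥(Cfsg.isometryGroup F ⇑Q)) (hx : (orderOf x).Coprime p) (U : Submodule F (Fin n → F)) (hU0 : U ≠ ⊥) (hUx : ∀ u ∈ U, ((x : Matrix.GeneralLinearGroup (Fin n) F) : Matrix (Fin n) (Fin n) F).mulVec u ∈ U) (hirr : ∀ W : Submodule F (Fin n → F), W ≤ U → (∀ w ∈ W, ((x : Matrix.GeneralLinearGroup (Fin n) F) : Matrix (Fin n) (Fin n) F).mulVec w ∈ W) → W = ⊥ ∨ W = U) : U ⊓ LinearMap.BilinForm.orthogonal (QuadraticMap.polarBilin Q) U = ⊥ ∨ (∀ u ∈ U, Q u = 0) ∨ (p = 2 ∧ Module.finrank F U = 1 ∧ (∃ u ∈ U, Q u ≠ 0) ∧ ∀ u ∈ U, ((x : Matrix.GeneralLinearGroup (Fin n) F) : Matrix (Fin n) (Fin n) F).mulVec u = u) := by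
  classical
  have := Fintype.ofFinite (Fin n → F)
  set T := Matrix.toLin' x.1.1 with hT
  have hxQ : ∀ v, Q (T v) = Q v := fun v => x.2 v v
  have hxB : ∀ v w, QuadraticMap.polar Q (T v) (T w) = QuadraticMap.polar Q v w := fun v w => by
    simp only [QuadraticMap.polar, ← map_add, hxQ]
  have hinj : Function.Injective T := Matrix.mulVec_injective_iff_isUnit.mpr x.1.isUnit
  have hsurj : ∀ u ∈ U, ∃ w ∈ U, T w = u := fun u hu => by
    obtain ⟨w, hw⟩ := (Finite.injective_iff_surjective (f := T.restrict (p := U) (q := U) hUx)).mp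
      (fun a b e => Subtype.ext (hinj (congrArg Subtype.val e))) ⟨u, hu⟩
    exact ⟨w.1, w.2, congrArg Subtype.val hw⟩
  refine (hirr _ inf_le_left fun w hw => ⟨hUx w hw.1, fun u hu => ?_⟩).imp_right fun h => ?_
  · obtain ⟨v, hv, rfl⟩ := hsurj u hu
    exact (hxB v w).trans (hw.2 v hv)
  have hB : ∀ u ∈ U, ∀ v ∈ U, QuadraticMap.polar Q u v = 0 := fun u hu v hv => (h.ge hv).2 u hu
  have hadd : ∀ u ∈ U, ∀ v ∈ U, Q (u + v) = Q u + Q v := fun u hu v hv => by
    have := hB u hu v hv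
    rw [QuadraticMap.polar] at this
    linear_combination this
  let W : Submodule F (Fin n → F) :=
    { carrier := {u | u ∈ U ∧ Q u = 0}
      add_mem' := fun ha hb => ⟨U.add_mem ha.1 hb.1, by rw [hadd _ ha.1 _ hb.1, ha.2, hb.2, add_zero]⟩
      zero_mem' := ⟨U.zero_mem, map_zero Q⟩
      smul_mem' := fun c u hu => ⟨U.smul_mem c hu.1, by rw [Q.map_smul, hu.2, smul_zero]⟩ }
  refine ((hirr W (fun u hu => hu.1) fun w hw => ⟨hUx w hw.1, (hxQ w).trans hw.2⟩).symm.imp
    (fun e u hu => (e.ge hu).2) fun e => ?_)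
  have h0 : ∀ u ∈ U, Q u = 0 → u = 0 := fun u hu h => (e.le ⟨hu, h⟩ :)
  obtain ⟨u, hu, hu0⟩ := Submodule.exists_mem_ne_zero_of_ne_bot hU0
  have hQu : Q u ≠ 0 := fun h => hu0 (h0 u hu h)
  have h2 : (2 : F) = 0 := by
    have := hB u hu u hu
    rw [QuadraticMap.polar_self, two_nsmul, ← two_mul] at this
    exact (mul_eq_zero.mp this).resolve_right hQu
  have hp : p = 2 := (Nat.prime_dvd_prime_iff_eq Fact.out Nat.prime_two).mp
    ((CharP.cast_eq_zero_iff F p 2).mp h2)
  subst hp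
  have h3 : ∀ a ∈ U, ∀ b ∈ U, Q a = Q b → a = b := fun a ha b hb e => sub_eq_zero.mp
    (h0 _ (U.sub_mem ha hb) (by
      rw [sub_eq_add_neg, hadd a ha _ (U.neg_mem hb), Q.map_neg, e, ← two_mul, h2, zero_mul]))
  refine ⟨rfl, ?_, ⟨u, hu, hQu⟩, fun v hv => h3 _ (hUx v hv) v hv (hxQ v)⟩
  refine (finrank_eq_one_iff_of_nonzero' (⟨u, hu⟩ : U) (by simpa using hu0)).mpr fun w => ?_
  obtain ⟨c, hc⟩ := surjective_frobenius F 2 (Q w.1 / Q u)
  refine ⟨c, Subtype.ext (h3 _ (U.smul_mem c hu) _ w.2 ?_)⟩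
  rw [Q.map_smul, ← sq, show c ^ 2 = _ from hc, smul_eq_mul, div_mul_cancel₀ _ hQu]

end Cfsg.Agent.S2599
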