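import Cfsg.Statements.S2600
import Mathlib
import Cfsg.Agent.H10.AutSp4

set_option autoImplicit false
open Cfsg

namespace Cfsg.Agent.S2600

/-- Outer automorphism group of PSp_4(q) for q = 2^f even: it is cyclic of order 2f, generated by the class of the exceptional (graph-field) automorphism whose square is the Frobenius field automorphism. -/
theorem result {F : Type*} [Field F] [Fintype F] {f : ℕ} (hf : 1 ≤ f) (hF : Fintype.card F = 2 ^ f) : IsCyclic (Cfsg.Out (Cfsg.PSp 2 F)) ∧ Nat.card (Cfsg.Out (Cfsg.PSp 2 F)) = 2 * f := by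
  have : CharP F 2 := H10.charP_two_of (H10.two_eq_zero_iff_even_card.2 (by
    rw [hF]; exact Nat.mod_eq_zero_of_dvd (dvd_pow_self 2 (by omega))))
  obtain ⟨π, h1, h2⟩ := H10.exists_autType_PSp4 (F := F)
  have e := (QuotientGroup.quotientMulEquivOfEq h1.symm).trans
    (QuotientGroup.quotientKerEquivOfSurjective π h2)
  refine ⟨e.isCyclic.2 inferInstance, ?_⟩
  rw [Nat.card_congr e.toEquiv, Nat.card_zpowers, H10.orderOf_qGam, (H10.ringAut_cyclic_card hF).2]

end Cfsg.Agent.S2600
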