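import Cfsg.Statements.S2601
import Mathlib
import Cfsg.Agent.H10.AutPSL2

set_option autoImplicit false
open Cfsg

namespace Cfsg.Agent.S2601

/-- Structure of the outer automorphism group of PSL_n(q), n ≥ 3, q = p^f: it has a normal cyclic subgroup of order gcd(n, q − 1) (the diagonal automorphisms) whose quotient is the direct product of a cyclic group of order f (field automorphisms) and a group of order 2 (the inverse-transpose graph automorphism). -/
theorem result {F : Type*} [Field F] [Fintype F] {p f n : ℕ} [Fact p.Prime] (hf : 1 ≤ f) (hF : Fintype.card F = p ^ f) (hn : 3 ≤ n) : ∃ φ : Cfsg.Out (Matrix.ProjectiveSpecialLinearGroup (Fin n) F) →* Multiplicative (ZMod f × ZMod 2), Function.Surjective φ ∧ IsCyclic φ.ker ∧ Nat.card φ.ker = Nat.gcd n (p ^ f - 1) := by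
  obtain ⟨π, h1, -, -, h2⟩ := H10.exists_autType (F := F) hn
  obtain ⟨e⟩ := H10.nonempty_ringAut_equiv hF
  let e' : RingAut F × Multiplicative (ZMod 2) ≃* Multiplicative (ZMod f × ZMod 2) :=
    (e.prodCongr (MulEquiv.refl _)).trans (MulEquiv.prodMultiplicative _ _).symm
  have hk : (e'.toMonoidHom.comp π).ker = π.ker := by
    ext x; simp [MonoidHom.mem_ker]
  have : Nonempty (Fin n) := ⟨⟨0, by omega⟩⟩
  obtain ⟨φ, hφ, h3, h4⟩ := H10.exists_out_hom (e'.toMonoidHom.comp π) (e'.surjective.comp h2)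
    (by rw [hk, h1]; exact H10.inn_le_range_pDiag)
  have h2n : 2 ≤ Fintype.card (Fin n) := by simp; omega
  refine ⟨φ, hφ, by rw [h3, hk, h1]; exact H10.isCyclic_map_range_pDiag, ?_⟩
  rw [hk, h1, H10.card_range_pDiag h2n, H10.card_inn_PSL h2n, H10.card_PGL_eq_card_SL,
    ← H10.card_PSL_fin n (by omega), hF] at h4
  exact Nat.eq_of_mul_eq_mul_right Nat.card_pos h4

end Cfsg.Agent.S2601
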