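import Cfsg.Statements.S2611
import Mathlib
import Cfsg.Agent.H11.Bridge2

set_option autoImplicit false
open Cfsg

namespace Cfsg.Agent.S2611

/-- For the hyperbolic quadratic form Σ x_i y_i on F^(2m) (F finite, m ≥ 1, excluding m = 2 over the field of two elements) and an invertible m × m matrix A, the block-diagonal isometry diag(A, (A⁻¹)ᵀ), which stabilises the two maximal totally singular subspaces x = 0 and y = 0, lies in Ω⁺_2m(F) (the commutator subgroup of the orthogonal group) if and only if det A is a square in F. -/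
theorem result {F : Type*} [Field F] [Fintype F] {m : ℕ} (hm : 1 ≤ m) (h : Fintype.card F ≠ 2 ∨ m ≠ 2) (A : GL (Fin m) F) : (∃ g : ↥(Cfsg.isometryGroup F (Cfsg.quadFormPlus m F)), g ∈ Cfsg.Omega F (Cfsg.quadFormPlus m F) ∧ ((g : Matrix.GeneralLinearGroup (Fin m ⊕ Fin m) F) : Matrix (Fin m ⊕ Fin m) (Fin m ⊕ Fin m) F) = Matrix.fromBlocks (A : Matrix (Fin m) (Fin m) F) 0 0 ((A : Matrix (Fin m) (Fin m) F)⁻¹).transpose) ↔ IsSquare (A : Matrix (Fin m) (Fin m) F).det := by
  classical
  have hq := H11.isQuad_plus m F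
  have hB := H11.bPlus_sep m F
  have hex := H11.nonExc_plus h
  have e1 : ((A : Matrix (Fin m) (Fin m) F)⁻¹).transpose.transpose * (A : Matrix (Fin m) (Fin m) F) = 1 := by simp
  obtain ⟨g, hg⟩ := H11.exists_isom_block e1
  obtain ⟨h1, h2⟩ := H11.spin_block hex _ A.det_ne_zero _ e1 g hg
  rw [H11.exists_mem_Omega_iff hq hg, hq.mem_commutator_iff hB hex, h1, h2, quadraticChar_one_iff_isSquare A.det_ne_zero]
  simp

end Cfsg.Agent.S2611
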