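import Cfsg.Statements.S2612
import Mathlib
import Cfsg.Agent.H11.Bridge2

set_option autoImplicit false
open Cfsg

namespace Cfsg.Agent.S2612

/-- For the hyperbolic quadratic form Σ x_i y_i on F^(2m) (F finite, m ≥ 1, excluding m = 2 over the field of two elements), Ω⁺_2m(F) (the commutator subgroup of the orthogonal group) contains an element interchanging the two complementary maximal totally singular subspaces {y = 0} and {x = 0} if and only if m is even (dimension divisible by 4). -/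
theorem result {F : Type*} [Field F] [Fintype F] {m : ℕ} (hm : 1 ≤ m) (h : Fintype.card F ≠ 2 ∨ m ≠ 2) : (∃ g : ↥(Cfsg.isometryGroup F (Cfsg.quadFormPlus m F)), g ∈ Cfsg.Omega F (Cfsg.quadFormPlus m F) ∧ (∀ v : Fin m ⊕ Fin m → F, (∀ i, v (Sum.inr i) = 0) → ∀ i, (((g : Matrix.GeneralLinearGroup (Fin m ⊕ Fin m) F) : Matrix (Fin m ⊕ Fin m) (Fin m ⊕ Fin m) F).mulVec v) (Sum.inl i) = 0) ∧ (∀ v : Fin m ⊕ Fin m → F, (∀ i, v (Sum.inl i) = 0) → ∀ i, (((g : Matrix.GeneralLinearGroup (Fin m ⊕ Fin m) F) : Matrix (Fin m ⊕ Fin m) (Fin m ⊕ Fin m) F).mulVec v) (Sum.inr i) = 0)) ↔ Even m := by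
  have hq := H11.isQuad_plus m F
  have hB := H11.bPlus_sep m F
  have hex := H11.nonExc_plus h
  have key : ∀ g : H11.Isom (H11.bPlus m F) (quadFormPlus m F), (∀ v : Fin m ⊕ Fin m → F, (∀ i, v (.inr i) = 0) → ∀ i, g.1 v (.inl i) = 0) → (H11.dick g.1 = 0 ↔ Even m) := by
    intro g hg
    rw [hq.dick_eq_zero_iff_even hB hex (m := m) (by simp [two_mul]) (H11.totSing_ker_funLeft_inr m) (H11.finrank_ker_funLeft_inr m)]
    have : LinearMap.ker (LinearMap.funLeft F F (Sum.inr : Fin m → Fin m ⊕ Fin m)) ⊓ (LinearMap.ker (LinearMap.funLeft F F (Sum.inr : Fin m → Fin m ⊕ Fin m))).map (g.1 : _ →ₗ[F] _) = ⊥ := by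
      rw [eq_bot_iff]
      rintro _ ⟨h1, v, hv, rfl⟩
      exact funext (by rintro (i | i); exacts [hg v (H11.mem_ker_funLeft_inr.mp hv) i, H11.mem_ker_funLeft_inr.mp h1 i])
    rw [this]; simp
  constructor
  · rintro ⟨g, hg, h1, -⟩
    exact (key _ h1).mp (hq.dick_eq_zero_of_mem_commutator hB ((H11.mem_Omega_iff hq g).mp hg))
  · intro he
    obtain ⟨s, hs⟩ := H11.exists_isom_of_matrix hq hB (Matrix.fromBlocks 0 1 1 0) (fun v => by
      simp [Matrix.fromBlocks_mulVec, quadFormPlus, mul_comm])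
    have h1 : ∀ v i, s.1 v (.inl i) = v (.inr i) := fun v i => by simp [hs, Matrix.fromBlocks_mulVec]
    have h2 : ∀ v i, s.1 v (.inr i) = v (.inl i) := fun v i => by simp [hs, Matrix.fromBlocks_mulVec]
    have hy := H11.hypSys_plus m F
    let j : Fin m := ⟨0, hm⟩
    have hef : H11.bPlus m F (Pi.single (.inl j) 1) (Pi.single (.inr j) 1) = 1 := by simp [hy.ef]
    obtain ⟨t, ht, hst⟩ := hq.exists_mul_dil_mem hB hex (hy.Qe j) (hy.Qf j) hef s
      ((key s fun v hv i => by rw [h1, hv]).mpr he)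
    refine ⟨(H11.oEquiv hq).symm _, (H11.mem_Omega_iff hq _).mpr (by simpa using hst), fun v hv i => ?_, fun v hv i => ?_⟩
    · rw [H11.oEquiv_symm_mulVec, Subgroup.coe_mul, LinearEquiv.mul_apply, h1, hq.dil_apply (hy.Qe j) (hy.Qf j) hef ht]
      simp [hv, H11.bPlus_single_inl]
    · rw [H11.oEquiv_symm_mulVec, Subgroup.coe_mul, LinearEquiv.mul_apply, h2, hq.dil_apply (hy.Qe j) (hy.Qf j) hef ht]
      simp [hv, H11.bPlus_single_inr]

end Cfsg.Agent.S2612
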