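import Cfsg.Statements.S2613
import Mathlib
import Cfsg.Agent.H11.Bridge2

set_option autoImplicit false
open Cfsg

namespace Cfsg.Agent.S2613

/-- For the hyperbolic form Σ x_j y_j on F^(2m), F finite with q elements, q odd, and 1 ≤ i ≤ m: the involution negating the first i hyperbolic pairs (x_j, y_j ↦ −x_j, −y_j for j < i) and fixing the rest lies in Ω⁺_2m(q) (commutator subgroup of the orthogonal group) if and only if q^i ≡ 1 (mod 4); its (−1)-eigenspace is a hyperbolic 2i-space. -/
theorem result {F : Type*} [Field F] [Fintype F] {q : ℕ} (hF : Fintype.card F = q) (hq : Odd q) {m : ℕ} (i : ℕ) (hi : 1 ≤ i) (him : i ≤ m) : (∃ g : ↥(Cfsg.isometryGroup F (Cfsg.quadFormPlus m F)), g ∈ Cfsg.Omega F (Cfsg.quadFormPlus m F) ∧ ((g : Matrix.GeneralLinearGroup (Fin m ⊕ Fin m) F) : Matrix (Fin m ⊕ Fin m) (Fin m ⊕ Fin m) F) = Matrix.diagonal (fun k : Fin m ⊕ Fin m => if (Sum.elim (fun j : Fin m => (j : ℕ)) (fun j : Fin m => (j : ℕ)) k) < i then (-1 : F) else 1)) ↔ q ^ i % 4 = 1 := by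
  subst hF
  have h2 := H11.two_ne_zero_of_odd_card hq
  have h := H11.isQuad_plus m F
  have hB := H11.bPlus_sep m F
  obtain ⟨g, hg⟩ := H11.exists_isom_of_matrix h hB (Matrix.diagonal (fun k : Fin m ⊕ Fin m => if (Sum.elim (fun j : Fin m => (j : ℕ)) (fun j : Fin m => (j : ℕ)) k) < i then (-1 : F) else 1)) (fun v => by
    simp only [quadFormPlus, Matrix.mulVec_diagonal, Sum.elim_inl, Sum.elim_inr]
    refine Finset.sum_congr rfl fun j _ => ?_
    by_cases hj : (j : ℕ) < i <;> simp [hj])
  rw [H11.exists_mem_Omega_iff h hg, h.diag_mem_commutator_iff hB (h.nonExc_of_two_ne_zero hB h2)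
    (H11.hypSys_plus m F) (fun j => if (j : ℕ) < i then -1 else 1) (fun j => by split_ifs <;> simp) g
    (fun j => by rw [hg, Matrix.diagonal_mulVec_single, ← Pi.single_smul']; by_cases hj : (j : ℕ) < i <;> simp [hj])
    (fun j => by rw [hg, Matrix.diagonal_mulVec_single, ← Pi.single_smul']; by_cases hj : (j : ℕ) < i <;> simp [hj]) (fun x h1 h3 => by
      simp only [H11.bPlus_single_inl, H11.bPlus_single_inr] at h1 h3
      rw [show x = 0 from funext (by rintro (i | i); exacts [h3 i, h1 i]), map_zero])]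
  rw [Finset.prod_ite, Finset.prod_const_one, mul_one, Finset.prod_const, Fin.card_filter_val_lt, min_eq_right him, H11.isSquare_neg_one_pow_iff h2]

end Cfsg.Agent.S2613
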