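import Cfsg.Statements.S2614
import Mathlib
import Cfsg.Agent.H11.Bridge2

set_option autoImplicit false
open Cfsg

namespace Cfsg.Agent.S2614

/-- For the form x_0² + Σ x_j y_j on F^(2m+1), F finite with q elements, q odd, and 1 ≤ i ≤ m: the involution of determinant one negating the first i hyperbolic pairs (and fixing x_0 and the other pairs) lies in Ω_(2m+1)(q) (commutator subgroup of the orthogonal group) if and only if q^i ≡ 1 (mod 4); its (−1)-eigenspace is a hyperbolic 2i-space. -/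
theorem result {F : Type*} [Field F] [Fintype F] {q : ℕ} (hF : Fintype.card F = q) (hq : Odd q) {m : ℕ} (i : ℕ) (hi : 1 ≤ i) (him : i ≤ m) : (∃ g : ↥(Cfsg.isometryGroup F (Cfsg.quadFormOdd m F)), g ∈ Cfsg.Omega F (Cfsg.quadFormOdd m F) ∧ ((g : Matrix.GeneralLinearGroup (Unit ⊕ (Fin m ⊕ Fin m)) F) : Matrix (Unit ⊕ (Fin m ⊕ Fin m)) (Unit ⊕ (Fin m ⊕ Fin m)) F) = Matrix.diagonal (fun k : Unit ⊕ (Fin m ⊕ Fin m) => if (Sum.elim (fun _ : Unit => i) (Sum.elim (fun j : Fin m => (j : ℕ)) (fun j : Fin m => (j : ℕ))) k) < i then (-1 : F) else 1)) ↔ q ^ i % 4 = 1 := by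
  subst hF
  have h2 := H11.two_ne_zero_of_odd_card hq
  have h := H11.isQuad_odd m F
  have hB := H11.bOdd_sep m h2
  obtain ⟨g, hg⟩ := H11.exists_isom_of_matrix h hB (Matrix.diagonal (fun k : Unit ⊕ (Fin m ⊕ Fin m) => if (Sum.elim (fun _ : Unit => i) (Sum.elim (fun j : Fin m => (j : ℕ)) (fun j : Fin m => (j : ℕ))) k) < i then (-1 : F) else 1)) (fun v => by
    simp only [quadFormOdd, Matrix.mulVec_diagonal, Sum.elim_inl, Sum.elim_inr, lt_irrefl, if_false, one_mul]
    congr 1
    refine Finset.sum_congr rfl fun j _ => ?_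
    by_cases hj : (j : ℕ) < i <;> simp [hj])
  rw [H11.exists_mem_Omega_iff h hg, h.diag_mem_commutator_iff hB (h.nonExc_of_two_ne_zero hB h2)
    (H11.hypSys_odd m F) (fun j => if (j : ℕ) < i then -1 else 1) (fun j => by split_ifs <;> simp) g
    (fun j => by rw [hg, Matrix.diagonal_mulVec_single, ← Pi.single_smul']; by_cases hj : (j : ℕ) < i <;> simp [hj])
    (fun j => by rw [hg, Matrix.diagonal_mulVec_single, ← Pi.single_smul']; by_cases hj : (j : ℕ) < i <;> simp [hj]) (fun x h1 h3 => by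
      simp only [H11.bOdd_single_inl, H11.bOdd_single_inr] at h1 h3
      rw [hg]
      ext (k | k | k) <;> simp [Matrix.mulVec_diagonal, h1, h3])]
  rw [Finset.prod_ite, Finset.prod_const_one, mul_one, Finset.prod_const, Fin.card_filter_val_lt, min_eq_right him, H11.isSquare_neg_one_pow_iff h2]

end Cfsg.Agent.S2614
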