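import Cfsg.Statements.S2617
import Mathlib
import Cfsg.Agent.H11.ClassifyQ

set_option autoImplicit false
open Cfsg

namespace Cfsg.Agent.S2617

/-- The two standard quadratic forms of even dimension 2m over a finite field are not isometric: there is no linear isomorphism carrying the elliptic form Σ_(i<m−1) x_i y_i + z₁² + z₁z₂ + ζ z₂² (t² + t + ζ without roots) to the hyperbolic form Σ_(i<m) x_i y_i (they have different Witt index). -/
theorem result {F : Type*} [Field F] [Finite F] {m : ℕ} (hm : 1 ≤ m) (ζ : F) (hζ : ∀ t : F, t ^ 2 + t + ζ ≠ 0) (g : (Fin m ⊕ Fin m → F) ≃ₗ[F] ((Fin (m - 1) ⊕ Fin (m - 1)) ⊕ Fin 2 → F)) : ¬ (∀ v : Fin m ⊕ Fin m → F, Cfsg.quadFormMinus (m - 1) F 1 ζ (g v) = Cfsg.quadFormPlus m F v) := by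
  intro hg
  have hab : ∀ z₁ z₂ : F, z₁ ^ 2 + 1 * z₁ * z₂ + ζ * z₂ ^ 2 = 0 → z₁ = 0 ∧ z₂ = 0 := by
    intro x y hxy
    have hy : y = 0 := by
      by_contra hy
      apply hζ (x / y)
      field_simp
      linear_combination hxy
    subst hy
    simpa using hxy
  have h := H11.isQuad_plus m F
  have h' := H11.isQuad_minus (m - 1) F 1 ζ
  have := h'.wittIdx_unique (H11.bMinus_sep _ hab) ((H11.wittIdx_plus m F).congr g (fun x y => by
    rw [← h.polar_eq, ← h'.polar_eq, QuadraticMap.polar, QuadraticMap.polar, ← map_add, hg, hg, hg]) hg)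
    (H11.wittIdx_minus _ hab)
  omega

end Cfsg.Agent.S2617
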