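import Cfsg.Statements.S2619
import Mathlib
import Cfsg.Agent.H11.ClassifyQ

set_option autoImplicit false
open Cfsg

namespace Cfsg.Agent.S2619

/-- Over a finite field of characteristic two, given an alternating bilinear form B on a finite-dimensional space, a basis (v_i) and scalars (λ_i), there is exactly one quadratic form whose polar form is B and whose value at each v_i is λ_i. -/
theorem result {F V ι : Type*} [Field F] [Finite F] [CharP F 2] [AddCommGroup V] [Module F V] [Fintype ι] (b : Module.Basis ι F V) (B : LinearMap.BilinForm F V) (hB : B.IsAlt) (c : ι → F) : ∃! Q : QuadraticForm F V, QuadraticMap.polarBilin Q = B ∧ ∀ i, Q (b i) = c i := by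
  classical
  have h2 : (2 : F) = 0 := CharTwo.two_eq_zero
  obtain ⟨r⟩ : Nonempty (LinearOrder ι) := ⟨linearOrderOfSTO WellOrderingRel⟩
  let M : Matrix ι ι F := fun i j => if i < j then B (b i) (b j) else if i = j then c i else 0
  let B' : LinearMap.BilinForm F V := Matrix.toBilin b M
  have hB' : ∀ i j, B' (b i) (b j) = M i j := fun i j => by
    have := congrFun (congrFun (LinearMap.BilinForm.toMatrix_toBilin b M) i) j
    rwa [LinearMap.BilinForm.toMatrix_apply] at this
  refine ⟨B'.toQuadraticMap, ⟨LinearMap.ext_basis b b fun i j => ?_, fun i => by simp [hB', M]⟩, ?_⟩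
  · rw [QuadraticMap.polarBilin_apply_apply, LinearMap.BilinMap.polar_toQuadraticMap, hB', hB']
    rcases lt_trichotomy i j with hij | rfl | hij
    · simp [M, hij, hij.not_gt, hij.ne']
    · simp only [M, lt_irrefl, if_false, if_true, hB.self_eq_zero]
      linear_combination c i * h2
    · simp only [M, hij, hij.not_gt, hij.ne', if_true, if_false, zero_add, ← hB.neg_eq (b i) (b j)]
      linear_combination -B (b i) (b j) * h2
  · rintro Q ⟨hQ1, hQ2⟩
    have e1 : Q.polarBilin = B'.toQuadraticMap.polarBilin := by
      rw [hQ1]
      refine LinearMap.ext_basis b b fun i j => ?_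
      rw [QuadraticMap.polarBilin_apply_apply, LinearMap.BilinMap.polar_toQuadraticMap, hB', hB']
      rcases lt_trichotomy i j with hij | rfl | hij
      · simp [M, hij, hij.not_gt, hij.ne']
      · simp only [M, lt_irrefl, if_false, if_true, hB.self_eq_zero]
        linear_combination -c i * h2
      · simp only [M, hij, hij.not_gt, hij.ne', if_true, if_false, zero_add, ← hB.neg_eq (b i) (b j)]
        linear_combination B (b i) (b j) * h2
    ext x
    exact (((H11.isForm_quad B'.toQuadraticMap).isom_of_basis (H11.isForm_quad Q) b LinearMap.id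
      (fun i j => by rw [e1]; rfl) (fun i => by simp [hQ2, hB', M])).2 x)

end Cfsg.Agent.S2619
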