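import Cfsg.Statements.S2621
import Mathlib
import Cfsg.Agent.H11.ClassifyQ

set_option autoImplicit false
open Cfsg

namespace Cfsg.Agent.S2621

/-- Discriminant of an elliptic quadratic form Σ_(i<m−1) x_i y_i + z₁² + a z₁z₂ + c z₂² (binary part anisotropic) in dimension 2m over a field with q elements, q odd, m ≥ 1: the determinant of the Gram matrix of its polar form in any basis is a square if and only if m(q − 1)/2 is odd (equivalently q^m ≡ 3 (mod 4)). -/
theorem result {F : Type*} [Field F] [Fintype F] {q : ℕ} (hF : Fintype.card F = q) (hq : Odd q) {m : ℕ} (hm : 1 ≤ m) (a c : F) (hac : ∀ z₁ z₂ : F, z₁ ^ 2 + a * z₁ * z₂ + c * z₂ ^ 2 = 0 → z₁ = 0 ∧ z₂ = 0) {ι : Type*} [Fintype ι] [DecidableEq ι] (b : Module.Basis ι F ((Fin (m - 1) ⊕ Fin (m - 1)) ⊕ Fin 2 → F)) : IsSquare (Matrix.of (fun i j : ι => QuadraticMap.polar (Cfsg.quadFormMinus (m - 1) F a c) (b i) (b j))).det ↔ ¬ Even (m * (q - 1) / 2) := by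
  subst hF
  have h2 := H11.two_ne_zero_of_odd_card hq
  have h := H11.isQuad_minus (m - 1) F a c
  have hs := H11.bMinus_sep (m - 1) hac
  have h1 := (h.wittIdx_iff_disc hs h2 (m := m) (by simp; omega) b).not.mp (fun h0 => by
    have := h.wittIdx_unique hs h0 (H11.wittIdx_minus _ hac)
    omega)
  simp only [h.polar_eq]
  change IsSquare (H11.gram (H11.bMinus (m - 1) F a c) b).det ↔ _
  have hd := H11.gram_det_ne_zero (fun _ => rfl) hs b
  have h3 : IsSquare (H11.gram (H11.bMinus (m - 1) F a c) b).det ↔ ¬ IsSquare ((-1 : F) ^ m) := by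
    refine ⟨fun h4 h5 => h1 (h5.mul h4), fun h4 => ?_⟩
    by_contra h5
    exact h1 (H11.isSquare_mul_of_not_isSquare h4 h5)
  rw [h3, H11.isSquare_neg_one_pow_iff h2]
  apply Iff.not
  generalize Fintype.card F = q at hq
  obtain ⟨k, rfl⟩ := hq
  rw [Nat.add_sub_cancel, mul_left_comm, Nat.mul_div_cancel_left _ two_pos, Nat.even_mul]
  rcases Nat.even_or_odd' k with ⟨k, rfl | rfl⟩
  · simp [Nat.pow_mod, show (2 * (2 * k) + 1) % 4 = 1 by omega]
  · rcases Nat.even_or_odd' m with ⟨l, rfl | rfl⟩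
    · rw [pow_mul, Nat.pow_mod, Nat.pow_mod _ 2, show (2 * (2 * k + 1) + 1) % 4 = 3 by omega]; simp
    · rw [pow_succ, pow_mul, Nat.mul_mod, Nat.pow_mod, Nat.pow_mod _ 2, show (2 * (2 * k + 1) + 1) % 4 = 3 by omega]; simp

end Cfsg.Agent.S2621
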