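import Cfsg.Statements.S2622
import Mathlib
import Cfsg.Agent.H11.Bridge2

set_option autoImplicit false
open Cfsg

namespace Cfsg.Agent.S2622

/-- Over a finite field of characteristic two, a non-degenerate symmetric bilinear form that is not alternating (some vector v has B(v, v) ≠ 0) admits an orthonormal basis. -/
theorem result {F V : Type*} [Field F] [Finite F] [CharP F 2] [AddCommGroup V] [Module F V] [FiniteDimensional F V] {n : ℕ} (hV : Module.finrank F V = n) (B : LinearMap.BilinForm F V) (hS : B.IsSymm) (hB : B.Nondegenerate) (hna : ∃ v : V, B v v ≠ 0) : ∃ b : Module.Basis (Fin n) F V, ∀ i j, B (b i) (b j) = if i = j then 1 else 0 := by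
  have h2 : (2 : F) = 0 := CharTwo.two_eq_zero
  have hs : ∀ x y, B x y = B y x := fun x y => hS.eq x y
  have hadd : ∀ x y, B (x + y) (x + y) = B x x + B y y := fun x y => by
    simp only [map_add, LinearMap.add_apply, hs y x]; linear_combination B x y * h2
  have step : ∀ (W : Submodule F V) (v : V), H11.NondegOn B W → v ∈ W → B v v = 1 →
      H11.NondegOn B (W ⊓ LinearMap.ker (B v)) := by
    intro W v hW hv hvv x hx h0
    refine hW x hx.1 fun y hy => ?_
    have := h0 (y - B v y • v) ⟨W.sub_mem hy (W.smul_mem _ hv), by simp [hvv]⟩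
    have hxv : B x v = 0 := (hs x v).trans hx.2
    simpa [hxv] using this
  have key : ∀ (n : ℕ) (W : Submodule F V), H11.NondegOn B W → Module.finrank F W = n →
      (n = 0 ∨ ∃ x ∈ W, B x x ≠ 0) → ∃ v : Fin n → V, (∀ i, v i ∈ W) ∧
        ∀ i j, B (v i) (v j) = if i = j then 1 else 0 := by
    intro n
    induction n with
    | zero => exact fun W _ _ _ => ⟨Fin.elim0, by simp, by simp⟩
    | succ n ih =>
      intro W hW hn hx
      obtain ⟨x, hxW, hx⟩ := hx.resolve_left (by omega)
      obtain ⟨c, hc⟩ := FiniteField.isSquare_of_char_two (H11.ringChar_eq_two_of h2) (B x x)⁻¹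
      have h1 : ∃ v ∈ W, B v v = 1 ∧ (n = 0 ∨ ∃ y ∈ W ⊓ LinearMap.ker (B v), B y y ≠ 0) := by
        have hv : B (c • x) (c • x) = 1 := by
          simp only [map_smul, LinearMap.smul_apply, smul_eq_mul]
          rw [← mul_assoc, ← hc, inv_mul_cancel₀ hx]
        have hvW := W.smul_mem c hxW
        generalize c • x = v at hv hvW
        by_cases h3 : n = 0 ∨ ∃ y ∈ W ⊓ LinearMap.ker (B v), B y y ≠ 0
        · exact ⟨v, hvW, hv, h3⟩
        push Not at h3
        have h4 := H11.finrank_inf_ker_add_one W (B v) hvW (by simp [hv])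
        obtain ⟨a, ha, ha0⟩ := Submodule.exists_mem_ne_zero_of_ne_bot (p := W ⊓ LinearMap.ker (B v))
          (fun h0 => by rw [h0, finrank_bot] at h4; omega)
        obtain ⟨b, hb, hab⟩ : ∃ b ∈ W ⊓ LinearMap.ker (B v), B a b ≠ 0 := by
          by_contra hne
          push Not at hne
          exact ha0 (step W v hW hvW hv a ha hne)
        have hva : B v a = 0 := ha.2
        have hvb : B v b = 0 := hb.2
        refine ⟨v + a, W.add_mem hvW ha.1, by rw [hadd, hv, h3.2 a ha, add_zero], Or.inr
          ⟨(B a b)⁻¹ • b + v, ⟨W.add_mem (W.smul_mem _ hb.1) hvW, ?_⟩, ?_⟩⟩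
        · simp [hvb, hab, hv, hs a v, hva]
          linear_combination h2
        · rw [hadd, h3.2 _ (Submodule.smul_mem _ _ hb), hv]; simp
      obtain ⟨v, hvW, hv, h3⟩ := h1
      have h4 := H11.finrank_inf_ker_add_one W (B v) hvW (by simp [hv])
      obtain ⟨w, hw1, hw2⟩ := ih _ (step W v hW hvW hv) (by omega) h3
      have hvw : ∀ i, B v (w i) = 0 := fun i => (hw1 i).2
      refine ⟨Fin.cons v w, Fin.cases hvW fun i => (hw1 i).1, fun i j => ?_⟩
      refine Fin.cases ?_ (fun i => ?_) i <;> refine Fin.cases ?_ (fun j => ?_) j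
      · simpa
      · simp [hvw, (Fin.succ_ne_zero j).symm]
      · simp [hs (w i), hvw]
      · simp [hw2]
  obtain ⟨v, -, hv⟩ := key n ⊤ (H11.nondegOn_top hB.1) (by simpa) (Or.inr (by simpa using hna))
  have hli := H11.linearIndependent_of_orth (B := B) (v := v) (fun i j hij => by simp [hv, hij]) (by simp [hv])
  exact ⟨basisOfLinearIndependentOfCardEqFinrank' v hli (by simp [hV]), by simpa using hv⟩

end Cfsg.Agent.S2622
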