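import Cfsg.Statements.S2623
import Mathlib
import Cfsg.Agent.H11.ClassifyQ

set_option autoImplicit false
open Cfsg

namespace Cfsg.Agent.S2623

/-- Over a finite field of odd order, two quadratic forms on F^n with non-degenerate polar forms are isometric (related by an invertible linear change of variables) if and only if their discriminants (determinants of the Gram matrices of their polar forms) lie in the same square class. -/
theorem result {F : Type*} [Field F] [Fintype F] (h2 : (2 : F) ≠ 0) {n : ℕ} (Q₁ Q₂ : QuadraticForm F (Fin n → F)) (h₁ : (QuadraticMap.polarBilin Q₁).Nondegenerate) (h₂ : (QuadraticMap.polarBilin Q₂).Nondegenerate) : (∃ g : (Fin n → F) ≃ₗ[F] (Fin n → F), ∀ v, Q₂ (g v) = Q₁ v) ↔ IsSquare ((Matrix.of (fun i j : Fin n => QuadraticMap.polar ⇑Q₁ (Pi.single i 1) (Pi.single j 1))).det * (Matrix.of (fun i j : Fin n => QuadraticMap.polar ⇑Q₂ (Pi.single i 1) (Pi.single j 1))).det) := by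
  have h : H11.IsQuad Q₁.polarBilin Q₁ := H11.isForm_quad Q₁
  have h' : H11.IsQuad Q₂.polarBilin Q₂ := H11.isForm_quad Q₂
  have e : ∀ Q : QuadraticForm F (Fin n → F), (Matrix.of (fun i j : Fin n => QuadraticMap.polar ⇑Q (Pi.single i 1) (Pi.single j 1))) = H11.gram Q.polarBilin (Pi.basisFun F (Fin n)) := fun Q => by
    ext i j; simp
  rw [e, e]
  constructor
  · rintro ⟨g, hg⟩
    obtain ⟨c, -, hc⟩ := H11.exists_gram_det_eq Q₂.polarBilin (Pi.basisFun F (Fin n)) ((Pi.basisFun F (Fin n)).map g)
    have : H11.gram Q₂.polarBilin ((Pi.basisFun F (Fin n)).map g) = H11.gram Q₁.polarBilin (Pi.basisFun F (Fin n)) := by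
      ext i j
      simp only [H11.gram_apply, QuadraticMap.polarBilin_apply_apply, QuadraticMap.polar,
        Module.Basis.map_apply, ← map_add, hg]
    rw [← this, hc]
    exact ⟨c * (H11.gram Q₂.polarBilin (Pi.basisFun F (Fin n))).det, by simp only [RingHom.id_apply]; ring⟩
  · intro hd
    obtain ⟨e, -, he⟩ := h.exists_equiv_of_disc h₁.1 h' h₂.1 h2 _ _ rfl hd
    exact ⟨e, he⟩

end Cfsg.Agent.S2623
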