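import Cfsg.Statements.S2625
import Mathlib
import Cfsg.Agent.H11.ClassifyQ

set_option autoImplicit false
open Cfsg

namespace Cfsg.Agent.S2625

/-- For a quadratic form Q on F^n with non-degenerate polar form, F finite and n odd (so |F| is odd), the multiplier of any similarity is a square: if g is an invertible linear map with Q(g v) = c·Q(v) for all v then c is a square. -/
theorem result {F : Type*} [Field F] [Fintype F] {n : ℕ} (hn : Odd n) (Q : QuadraticForm F (Fin n → F)) (hQ : (QuadraticMap.polarBilin Q).Nondegenerate) (g : (Fin n → F) ≃ₗ[F] (Fin n → F)) (c : F) (hg : ∀ v, Q (g v) = c * Q v) : IsSquare c := by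
  have := H11.det_isom (σ := RingHom.id F) (fun _ => rfl) hQ.1 g.toLinearMap c (fun x y => by
    simp only [QuadraticMap.polarBilin_apply_apply, QuadraticMap.polar, LinearEquiv.coe_coe, ← map_add, hg]
    ring)
  obtain ⟨k, rfl⟩ := hn
  by_cases hc : c = 0
  · simp [hc]
  simp only [RingHom.id_apply, Module.finrank_fintype_fun_eq_card, Fintype.card_fin] at this
  rw [← H11.isSquare_mul_iff_of_isSquare (pow_ne_zero (2 * k) hc) ⟨c ^ k, by ring⟩, ← pow_succ, ← this]
  exact ⟨_, rfl⟩

end Cfsg.Agent.S2625
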