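import Cfsg.Statements.S2627
import Mathlib
import Cfsg.Agent.H11.Bridge2

set_option autoImplicit false
open Cfsg

namespace Cfsg.Agent.S2627

/-- For an orthogonal direct sum Q = Q₁ ⊕ Q₂ of quadratic forms with non-degenerate polar forms over a finite field, an isometry g₁ of Q₁ extended by the identity on the second summand lies in Ω(Q) (the commutator subgroup of the orthogonal group of Q) if and only if g₁ lies in Ω(Q₁). (Excluded: the field of two elements when the first summand or the whole space has dimension 4, where the commutator subgroup of O⁺₄(2) is smaller than the group usually called Ω.) -/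
theorem result {F : Type*} [Field F] [Fintype F] {k l : ℕ} (h : Fintype.card F ≠ 2 ∨ (k ≠ 4 ∧ k + l ≠ 4)) (Q₁ : QuadraticForm F (Fin k → F)) (Q₂ : QuadraticForm F (Fin l → F)) (h₁ : (QuadraticMap.polarBilin Q₁).Nondegenerate) (h₂ : (QuadraticMap.polarBilin Q₂).Nondegenerate) (g₁ : ↥(Cfsg.isometryGroup F ⇑Q₁)) : (∃ g : ↥(Cfsg.isometryGroup F (fun v : Fin k ⊕ Fin l → F => Q₁ (v ∘ Sum.inl) + Q₂ (v ∘ Sum.inr))), g ∈ Cfsg.Omega F (fun v : Fin k ⊕ Fin l → F => Q₁ (v ∘ Sum.inl) + Q₂ (v ∘ Sum.inr)) ∧ ((g : Matrix.GeneralLinearGroup (Fin k ⊕ Fin l) F) : Matrix (Fin k ⊕ Fin l) (Fin k ⊕ Fin l) F) = Matrix.fromBlocks ((g₁ : Matrix.GeneralLinearGroup (Fin k) F) : Matrix (Fin k) (Fin k) F) 0 0 1) ↔ g₁ ∈ Cfsg.Omega F ⇑Q₁ := by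
  have q₁ : H11.IsQuad Q₁.polarBilin Q₁ := H11.isForm_quad Q₁
  have q₂ : H11.IsQuad Q₂.polarBilin Q₂ := H11.isForm_quad Q₂
  have hs := H11.isOrthSum_sum Q₁.polarBilin Q₁ Q₂.polarBilin Q₂
  have q : H11.IsQuad _ _ := hs.isForm q₁ q₂
  have hB := hs.sep h₁.1 h₂.1
  rw [H11.exists_mem_Omega_iff q (H11.orthSumHom_sum_apply _ 1 (H11.oEquiv_apply q₁ g₁) (by simp)),
    H11.mem_Omega_iff q₁]
  exact H11.mem_commutator_orthSumHom_left hs q₁ q₂ q h₁.1 hB
    (q₁.nonExc_of_card h₁.1 (h.imp id fun h => by simpa using h.1)) (q.nonExc_of_card hB (h.imp id fun h => by simpa using h.2)) _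

end Cfsg.Agent.S2627
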