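import Cfsg.Statements.S2628
import Mathlib
import Cfsg.Agent.H11.Bridge2

set_option autoImplicit false
open Cfsg

namespace Cfsg.Agent.S2628

open scoped commutatorElement

/-- For the orthogonal direct sum Q ⊕ Q of two copies of a quadratic form Q with non-degenerate polar form on F^k (F finite), every isometry g of Q acting diagonally, diag(g, g), lies in Ω(Q ⊕ Q), the commutator subgroup of the orthogonal group of Q ⊕ Q. (Excluded: k = 2 over the field of two elements, where Q ⊕ Q is the hyperbolic 4-space whose orthogonal group's commutator subgroup is smaller than the group usually called Ω.) -/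
theorem result {F : Type*} [Field F] [Fintype F] {k : ℕ} (h : Fintype.card F ≠ 2 ∨ k ≠ 2) (Q : QuadraticForm F (Fin k → F)) (hQ : (QuadraticMap.polarBilin Q).Nondegenerate) (g : ↥(Cfsg.isometryGroup F ⇑Q)) : ∃ x : ↥(Cfsg.isometryGroup F (fun v : Fin k ⊕ Fin k → F => Q (v ∘ Sum.inl) + Q (v ∘ Sum.inr))), x ∈ Cfsg.Omega F (fun v : Fin k ⊕ Fin k → F => Q (v ∘ Sum.inl) + Q (v ∘ Sum.inr)) ∧ ((x : Matrix.GeneralLinearGroup (Fin k ⊕ Fin k) F) : Matrix (Fin k ⊕ Fin k) (Fin k ⊕ Fin k) F) = Matrix.fromBlocks ((g : Matrix.GeneralLinearGroup (Fin k) F) : Matrix (Fin k) (Fin k) F) 0 0 ((g : Matrix.GeneralLinearGroup (Fin k) F) : Matrix (Fin k) (Fin k) F) := by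
  classical
  have q₁ : H11.IsQuad Q.polarBilin Q := H11.isForm_quad Q
  have hs := H11.isOrthSum_sum Q.polarBilin Q Q.polarBilin Q
  have q : H11.IsQuad _ _ := hs.isForm q₁ q₁
  have hB := hs.sep hQ.1 hQ.1
  have hex := q.nonExc_of_card hB (h.imp id fun h => by simp; omega)
  rw [H11.exists_mem_Omega_iff q (H11.orthSumHom_sum_apply _ _ (H11.oEquiv_apply q₁ g) (H11.oEquiv_apply q₁ g))]
  generalize H11.oEquiv q₁ g = g
  obtain ⟨s, hs'⟩ := H11.exists_isom_of_matrix q hB (Matrix.fromBlocks 0 1 1 0) (fun v => by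
    simp [Matrix.fromBlocks_mulVec, add_comm])
  have e : H11.orthSumHom hs (g, g) = H11.orthSumHom hs (g, 1) * H11.orthSumHom hs (g, 1) *
      ⁅(H11.orthSumHom hs (g, 1))⁻¹, s⁆ := by
    have : s * H11.orthSumHom hs (g, 1) = H11.orthSumHom hs (1, g) * s := by
      ext1; ext1 v
      obtain ⟨v, rfl⟩ := (H11.sumEquiv _ _ F).surjective v
      have : ∀ x : (Fin k → F) × (Fin k → F), s.1 (H11.sumEquiv _ _ F x) = H11.sumEquiv _ _ F (x.2, x.1) := fun x => by
        simp [hs', H11.sumEquiv_apply, Matrix.fromBlocks_mulVec]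
      simp only [Subgroup.coe_mul, LinearEquiv.mul_apply, H11.orthSumHom_apply, this]
    rw [commutatorElement_def, inv_inv, mul_assoc _⁻¹, this]
    simp only [mul_assoc, mul_inv_cancel, mul_one, mul_inv_cancel_left]
    simp [← map_mul]
  rw [e]
  exact mul_mem (q.mul_self_mem_commutator hB hex _) (Subgroup.commutator_mem_commutator (Subgroup.mem_top _) (Subgroup.mem_top _))

end Cfsg.Agent.S2628
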