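import Cfsg.Statements.S2631
import Mathlib
import Cfsg.Agent.H11.Bridge2

set_option autoImplicit false
open Cfsg

namespace Cfsg.Agent.S2631

/-- For the hyperbolic form Σ x_i y_i on F^(2m) over a finite field (m ≥ 1, excluding m = 2 over the field of two elements), Ω (the commutator subgroup of the orthogonal group) acts transitively on each of the two classes of maximal totally singular subspaces: if U and W are m-dimensional totally singular subspaces with m − dim(U ∩ W) even, some element of Ω carries U to W. -/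
theorem result {F : Type*} [Field F] [Fintype F] {m : ℕ} (hm : 1 ≤ m) (h : Fintype.card F ≠ 2 ∨ m ≠ 2) (U W : Submodule F (Fin m ⊕ Fin m → F)) (hU : Module.finrank F U = m) (hW : Module.finrank F W = m) (hU0 : ∀ u ∈ U, Cfsg.quadFormPlus m F u = 0) (hW0 : ∀ w ∈ W, Cfsg.quadFormPlus m F w = 0) (he : Even (m - Module.finrank F ↥(U ⊓ W))) : ∃ g : ↥(Cfsg.isometryGroup F (Cfsg.quadFormPlus m F)), g ∈ Cfsg.Omega F (Cfsg.quadFormPlus m F) ∧ U.map (Matrix.mulVecLin ((g : Matrix.GeneralLinearGroup (Fin m ⊕ Fin m) F) : Matrix (Fin m ⊕ Fin m) (Fin m ⊕ Fin m) F)) = W := by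
  have hq := H11.isQuad_plus m F
  have hB := H11.bPlus_sep m F
  have hex := H11.nonExc_plus h
  apply H11.exists_mem_Omega_map hq
  have hU' := hq.totSing_iff.mpr hU0
  obtain ⟨g, hg, hgU⟩ := hq.exists_map_eq_totSing hB hU' (hq.totSing_iff.mpr hW0) (hU.trans hW.symm)
  obtain ⟨e, heU, he0⟩ := Submodule.exists_mem_ne_zero_of_ne_bot (p := U) (by rintro rfl; simp at hU; omega)
  obtain ⟨f, hf, hef⟩ := hq.exists_partner hB (hU0 e heU) he0
  obtain ⟨t, ht, hgt⟩ := hq.exists_mul_dil_mem hB hex (hU0 e heU) hf hef ⟨g, hg⟩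
    ((hq.dick_eq_zero_iff_even hB hex (m := m) (by simp [two_mul]) hU' hU _).mpr (by rwa [hgU]))
  exact ⟨_, hgt, by rw [H11.map_mul_isom,
    H11.mem_stabSub.mp (hq.dil_mem_stabSub (hU0 e heU) hf hef ht heU (hU'.2 e heU)), hgU]⟩

end Cfsg.Agent.S2631
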