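import Cfsg.Statements.S2632
import Mathlib
import Cfsg.Agent.H11.Bridge2

set_option autoImplicit false
open Cfsg

namespace Cfsg.Agent.S2632

/-- Ω is transitive on non-degenerate subspaces of each isometry type: for a quadratic form Q on F^n, n ≥ 3, with non-degenerate polar form (F finite; excluding dimension 4 over the field of two elements), if U and W are subspaces on which the polar form is non-degenerate and there is a Q-preserving linear isomorphism U → W, then some element of Ω (the commutator subgroup of the orthogonal group) carries U to W. (In dimension 2 this fails: Ω can be {±1}, which fixes every line.) -/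
theorem result {F : Type*} [Field F] [Fintype F] {n : ℕ} (hn : 3 ≤ n) (h : Fintype.card F ≠ 2 ∨ n ≠ 4) (Q : QuadraticForm F (Fin n → F)) (hQ : (QuadraticMap.polarBilin Q).Nondegenerate) (U W : Submodule F (Fin n → F)) (hU : U ⊓ LinearMap.BilinForm.orthogonal (QuadraticMap.polarBilin Q) U = ⊥) (hW : W ⊓ LinearMap.BilinForm.orthogonal (QuadraticMap.polarBilin Q) W = ⊥) (e : U ≃ₗ[F] W) (he : ∀ u : U, Q (e u : Fin n → F) = Q (u : Fin n → F)) : ∃ g : ↥(Cfsg.isometryGroup F ⇑Q), g ∈ Cfsg.Omega F ⇑Q ∧ U.map (Matrix.mulVecLin ((g : Matrix.GeneralLinearGroup (Fin n) F) : Matrix (Fin n) (Fin n) F)) = W := by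
  have hq : H11.IsQuad Q.polarBilin Q := H11.isForm_quad Q
  have hex := hq.nonExc_of_card hQ.1 (by simpa using h)
  apply H11.exists_mem_Omega_map hq
  obtain ⟨g, hg, hgU⟩ := hq.witt' hQ.1 U (W.subtype ∘ₗ e.toLinearMap) (W.subtype_injective.comp e.injective)
    (fun x y => by
      simp only [QuadraticMap.polarBilin_apply_apply, QuadraticMap.polar, LinearMap.comp_apply, LinearEquiv.coe_coe, Submodule.subtype_apply]
      rw [← Submodule.coe_add, ← map_add, he, he, he, Submodule.coe_add]) he
  have hgU' : U.map (g : _ →ₗ[F] _) = W := by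
    apply le_antisymm
    · rintro _ ⟨x, hx, rfl⟩
      exact (hgU ⟨x, hx⟩).symm ▸ (e ⟨x, hx⟩).2
    · intro y hy
      exact ⟨e.symm ⟨y, hy⟩, (e.symm _).2, by simpa using hgU (e.symm ⟨y, hy⟩)⟩
  have hU' : H11.NondegOn Q.polarBilin U := fun x hx h0 => by
    have : x ∈ U ⊓ LinearMap.BilinForm.orthogonal (QuadraticMap.polarBilin Q) U := ⟨hx, fun y hy => hq.refl (h0 y hy)⟩
    rwa [hU] at this
  have hd := hq.finrank_perp hQ.1 U
  simp only [Module.finrank_fintype_fun_eq_card, Fintype.card_fin] at hd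
  obtain ⟨s, hs, hgs⟩ : ∃ s ∈ H11.stabSub Q.polarBilin Q U, ⟨g, hg⟩ * s ∈ commutator _ := by
    by_cases h2 : 2 ≤ Module.finrank F U
    · exact hq.exists_mul_mem_of_nondeg hQ.1 hex hU' h2 _ (fun v hv _ => hq.reflO_mem_stabSub (Or.inl hv)) _
    · exact hq.exists_mul_mem_of_nondeg hQ.1 hex (hq.nondegOn_perp hQ.1 hU') (by omega) _ (fun v hv _ => hq.reflO_mem_stabSub (Or.inr hv)) _
  exact ⟨_, hgs, by rw [H11.map_mul_isom, H11.mem_stabSub.mp hs, hgU']⟩

end Cfsg.Agent.S2632
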