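import Cfsg.Statements.S2634
import Mathlib
import Cfsg.Agent.H11.Bridge2

set_option autoImplicit false
open Cfsg

namespace Cfsg.Agent.S2634

/-- Over a finite field of characteristic two, Ω (the commutator subgroup of the orthogonal group of a quadratic form Q on F^n with non-degenerate polar form; excluding dimension 4 over the field of two elements) acts transitively on the non-singular 1-spaces: for u, v with Q(u) ≠ 0 and Q(v) ≠ 0 some element of Ω carries the line through u to the line through v. -/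
theorem result {F : Type*} [Field F] [Fintype F] [CharP F 2] {n : ℕ} (h : Fintype.card F ≠ 2 ∨ n ≠ 4) (Q : QuadraticForm F (Fin n → F)) (hQ : (QuadraticMap.polarBilin Q).Nondegenerate) (u v : Fin n → F) (hu : Q u ≠ 0) (hv : Q v ≠ 0) : ∃ g : ↥(Cfsg.isometryGroup F ⇑Q), g ∈ Cfsg.Omega F ⇑Q ∧ (F ∙ ((g : Matrix.GeneralLinearGroup (Fin n) F) : Matrix (Fin n) (Fin n) F).mulVec u) = F ∙ v := by
  have hq : H11.IsQuad Q.polarBilin Q := H11.isForm_quad Q
  have hex := hq.nonExc_of_card hQ.1 (by simpa using h)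
  have h2 : (2 : F) = 0 := CharTwo.two_eq_zero
  obtain ⟨c, hc⟩ := FiniteField.isSquare_of_char_two (H11.ringChar_eq_two_of h2) (Q u / Q v)
  have hc0 : c ≠ 0 := by rintro rfl; simp [hu, hv] at hc
  obtain ⟨g, hg, hgu⟩ := hq.witt_one hQ.1 (v := u) (w := c • v) (by rintro rfl; simp at hu)
    (smul_ne_zero hc0 (by rintro rfl; simp at hv)) (by rw [hq.smul', ← hc]; field_simp)
  have : ∃ g : H11.Isom Q.polarBilin Q, H11.dick g.1 = 0 ∧ (F ∙ g.1 u) = F ∙ v := by
    have hz : ∀ a : ZMod 2, a = 0 ∨ a = 1 := by decide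
    rcases hz (H11.dick g) with h0 | h0
    · exact ⟨⟨g, hg⟩, h0, by rw [hgu, Submodule.span_singleton_smul_eq hc0.isUnit]⟩
    · refine ⟨⟨g, hg⟩ * hq.reflO u, by rw [hq.dick_mul_reflO hQ.1 _ hu, h0]; rfl, ?_⟩
      rw [Subgroup.coe_mul, LinearEquiv.mul_apply, hq.reflO_self hu, map_neg, hgu, ← neg_smul,
        Submodule.span_singleton_smul_eq (neg_ne_zero.mpr hc0).isUnit]
  obtain ⟨g, h1, h3⟩ := this
  obtain ⟨g, rfl⟩ := (H11.oEquiv hq).surjective g
  exact ⟨g, by rwa [H11.mem_Omega_iff hq, hq.mem_commutator_iff_of_char_two hQ.1 hex h2], h3⟩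

end Cfsg.Agent.S2634
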