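import Cfsg.Statements.S2636
import Mathlib
-- import your own Cfsg.Agent.* helpers here

set_option autoImplicit false
open Cfsg

namespace Cfsg.Agent.S2636


/-- Centraliser of a field automorphism in PGL_n: let F be the field with q = q₀^r elements, σ a field automorphism of F of prime order r (so its fixed field has q₀ elements) and n ≥ 1. The invertible matrices g whose entrywise image under σ is a scalar multiple of g — those whose coset modulo scalars is fixed by σ — number (q − 1)/(q₀ − 1) · |GL_n(q₀)|; equivalently the centraliser in PGL_n(q) of the induced automorphism has the order of PGL_n(q₀). -/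
theorem result {F : Type*} [Field F] [Fintype F] {q₀ r n : ℕ} (hr : r.Prime) (hn : 1 ≤ n) (hF : Fintype.card F = q₀ ^ r) (σ : F ≃+* F) (hσ : orderOf σ = r) : Nat.card {g : GL (Fin n) F // ∃ c : F, c ≠ 0 ∧ (g : Matrix (Fin n) (Fin n) F).map σ = c • (g : Matrix (Fin n) (Fin n) F)} = (q₀ ^ r - 1) / (q₀ - 1) * ∏ i : Fin n, (q₀ ^ n - q₀ ^ (i : ℕ)) := by
  classical
  haveI : Finite (F ≃+* F) := Finite.of_injective (fun e : F ≃+* F => (e : F → F)) DFunLike.coe_injective
  haveI : Fintype (RingAut F) := Fintype.ofFinite (F ≃+* F)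
  let K := FixedPoints.subfield (Subgroup.zpowers (σ : RingAut F)) F
  have hK : ∀ x : F, x ∈ K ↔ σ x = x := by
    intro x
    change (∀ m : Subgroup.zpowers (σ : RingAut F), m • x = x) ↔ _
    constructor
    · intro h; exact h ⟨σ, Subgroup.mem_zpowers _⟩
    · rintro h ⟨_, k, rfl⟩
      exact MulAction.mem_stabilizer_iff.1 ((MulAction.stabilizer (RingAut F) x).zpow_mem h k)
  have hcard : Fintype.card K = q₀ := by
    have h1 := FixedPoints.finrank_eq_card (Subgroup.zpowers (σ : RingAut F)) F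
    rw [Fintype.card_zpowers, hσ] at h1
    have h2 := Module.card_eq_pow_finrank (K := K) (V := F)
    rw [h1, hF] at h2
    exact (Nat.pow_left_injective hr.ne_zero h2).symm
  have hq : 1 < q₀ := hcard ▸ Fintype.one_lt_card
  haveI : Nonempty (Fin n) := ⟨⟨0, hn⟩⟩
  let ι : GL (Fin n) K →* GL (Fin n) F := Matrix.GeneralLinearGroup.map K.subtype
  let φ : Fˣ × GL (Fin n) K →* GL (Fin n) F :=
    MonoidHom.noncommCoprod (Matrix.GeneralLinearGroup.scalar (Fin n)) ι fun a g =>
      Units.ext (Matrix.scalar_commute (a : F) (fun _ => Commute.all _ _) _)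
  have hφ : ∀ a g i j, (φ (a, g) : Matrix (Fin n) (Fin n) F) i j = a * (g i j : F) := by
    intro a g i j
    change (Matrix.scalar (Fin n) (a : F) * (g : Matrix (Fin n) (Fin n) K).map K.subtype) i j = _
    simp [Matrix.diagonal_mul]
  have h1 : Nat.card {g : GL (Fin n) F // ∃ c : F, c ≠ 0 ∧ (g : Matrix (Fin n) (Fin n) F).map σ =
      c • (g : Matrix (Fin n) (Fin n) F)} = Nat.card φ.range := by
    refine Nat.card_congr (Equiv.subtypeEquivRight fun g => ⟨?_, ?_⟩)
    · rintro ⟨c, hc, h⟩
      obtain ⟨i, j, hij⟩ : ∃ i j, g i j ≠ 0 := by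
        by_contra! h0
        exact g.ne_zero (Matrix.ext h0)
      have h2 : ∀ k l, σ (g k l) = c * g k l := fun k l => congrFun (congrFun h k) l
      let M : Matrix (Fin n) (Fin n) K := fun k l => ⟨(g i j)⁻¹ * g k l, (hK _).2 (by
        rw [map_mul, map_inv₀, h2, h2]; field_simp)⟩
      have hM : M.map K.subtype = (g i j)⁻¹ • (g : Matrix (Fin n) (Fin n) F) := rfl
      have hd : M.det ≠ 0 := by
        intro h0
        have := K.subtype.map_det M
        rw [h0, map_zero, RingHom.mapMatrix_apply, hM, Matrix.det_smul] at this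
        exact mul_ne_zero (pow_ne_zero _ (inv_ne_zero hij)) g.det_ne_zero this.symm
      refine ⟨(Units.mk0 _ hij, Matrix.GeneralLinearGroup.mkOfDetNeZero M hd), Units.ext (Matrix.ext fun k l => ?_)⟩
      rw [hφ]
      exact mul_inv_cancel_left₀ hij _
    · rintro ⟨⟨a, h⟩, rfl⟩
      refine ⟨σ a * (a : F)⁻¹, mul_ne_zero (by simp) (by simp), Matrix.ext fun k l => ?_⟩
      rw [Matrix.map_apply, Matrix.smul_apply, hφ, map_mul, (hK _).1 (h k l).2]
      simp [mul_assoc]
  have h2 : Nat.card φ.ker = q₀ - 1 := by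
    rw [← hcard, ← Fintype.card_units, ← Nat.card_eq_fintype_card]
    symm
    refine Nat.card_congr (Equiv.ofBijective (fun a => ⟨(Units.map K.subtype a,
      Matrix.GeneralLinearGroup.scalar (Fin n) a⁻¹), ?_⟩) ⟨?_, ?_⟩)
    · refine Units.ext (Matrix.ext fun k l => ?_)
      rw [hφ]
      change ((a : K) : F) * ((Matrix.scalar (Fin n) ((a⁻¹ : Kˣ) : K) k l : K) : F) = _
      by_cases hkl : k = l <;> simp [hkl]
    · intro a b h
      have := congrArg (fun z : φ.ker => (z.1.1 : F)) h
      exact Units.ext (Subtype.ext this)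
    · rintro ⟨⟨a, g⟩, h⟩
      have h3 : ∀ k l, (a : F) * g k l = (1 : Matrix (Fin n) (Fin n) F) k l := fun k l => by
        rw [← hφ, MonoidHom.mem_ker.1 h]; rfl
      obtain ⟨i⟩ := ‹Nonempty (Fin n)›
      have h4 := h3 i i
      rw [Matrix.one_apply_eq] at h4
      have h5 : (g i i : F) ≠ 0 := right_ne_zero_of_mul_eq_one h4
      have h6 : (a : F) = (g i i : F)⁻¹ := eq_inv_of_mul_eq_one_left h4
      refine ⟨(Units.mk0 (g i i) (by simpa using h5))⁻¹, Subtype.ext (Prod.ext (Units.ext (by simp [h6]))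
        (Units.ext (Matrix.ext fun k l => Subtype.ext ?_)))⟩
      have h7 := h3 k l
      rw [h6, inv_mul_eq_iff_eq_mul₀ h5] at h7
      rw [h7]
      by_cases hkl : k = l <;> simp [hkl, Matrix.one_apply]
  have h3 := Subgroup.card_mul_index φ.ker
  rw [Subgroup.index_ker, h2, ← h1, Nat.card_prod, Nat.card_units, Matrix.card_GL_field, hcard,
    Nat.card_eq_fintype_card (α := F), hF] at h3
  refine Nat.eq_of_mul_eq_mul_left (show 0 < q₀ - 1 by omega) ?_
  rw [h3, ← mul_assoc, Nat.mul_div_cancel' (Nat.sub_one_dvd_pow_sub_one q₀ r)]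

end Cfsg.Agent.S2636
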