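import Cfsg.Statements.S2637
import Mathlib
import Cfsg.Agent.H10.Ext

set_option autoImplicit false
open Cfsg

namespace Cfsg.Agent.S2637

open Polynomial H10 H11

/-- Centraliser of a fixed-point-free element of order three in Sp_2m(q) when q ≡ 2 (mod 3): if x ∈ Sp_2m(F) (|F| = q, m ≥ 1) satisfies x³ = 1 and x − 1 is invertible, then its centraliser in Sp_2m(F) has the order of the unitary group GU_m(q), namely q^(m(m−1)/2) Π_(i=1)^m (q^i − (−1)^i) (x lies in the centre of a subgroup GU_m(q) of Sp_2m(q)). -/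
theorem result {F : Type*} [Field F] [Fintype F] {q : ℕ} (hF : Fintype.card F = q) (hq : q % 3 = 2) {m : ℕ} (hm : 1 ≤ m) (x : Matrix.symplecticGroup (Fin m) F) (hx3 : x ^ 3 = 1) (hfpf : IsUnit ((x : Matrix (Fin m ⊕ Fin m) (Fin m ⊕ Fin m) F) - 1)) : (Nat.card ↥(Subgroup.centralizer ({x} : Set ↥(Matrix.symplecticGroup (Fin m) F))) : ℤ) = (q : ℤ) ^ (m * (m - 1) / 2) * ∏ i : Fin m, ((q : ℤ) ^ ((i : ℕ) + 1) - (-1) ^ ((i : ℕ) + 1)) := by
  subst hF
  have h3 : ∀ {K : Type _} [Field K] {a : K}, a ^ 2 + a + 1 = 0 → a ^ Fintype.card F * a = 1 :=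
    fun {K} _ a ha => by
      rw [← pow_succ, show Fintype.card F + 1 = 3 * (Fintype.card F / 3 + 1) by omega, pow_mul,
        show a ^ 3 = 1 by linear_combination (a - 1) * ha, one_pow]
  have hd : (X ^ 2 + X + 1 : F[X]).natDegree = 2 := by compute_degree!
  have : Fact (Irreducible (X ^ 2 + X + 1 : F[X])) := ⟨by
    refine irreducible_of_degree_le_three_of_not_isRoot (by simp [hd]) fun a ha => ?_
    have h1 : a ^ 2 + a + 1 = 0 := by simpa using ha
    have h2 := h3 h1
    rw [FiniteField.pow_card] at h2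
    have h4 : a = -2 := by linear_combination h1 - h2
    have := (CharP.cast_eq_zero_iff F (ringChar F) 3).mp (by
      rw [h4] at h2; push_cast; linear_combination h2)
    obtain ⟨n, hp, hn⟩ := FiniteField.card F (ringChar F)
    rw [hn, (Nat.prime_dvd_prime_iff_eq hp Nat.prime_three).mp this, ← n.natPred_add_one,
      pow_succ] at hq
    omega⟩
  have h0 := (this.out).ne_zero
  have := L0.finite_adjoinRoot' h0
  have := Fintype.ofFinite (AdjoinRoot (X ^ 2 + X + 1 : F[X]))
  have hK : Fintype.card (AdjoinRoot (X ^ 2 + X + 1 : F[X])) = Fintype.card F ^ 2 := by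
    rw [← Nat.card_eq_fintype_card, L0.card_adjoinRoot h0, hd, Nat.card_eq_fintype_card]
  rw [← uOrd_cast Fintype.card_pos, ← card_cent_irr (spBilin_isAlt (l := Fin m) (F := F))
    spBilin_nondegenerate.1 (spIso _ F x) (u := X ^ 2 + X + 1) ?_ (qConj_conjQ hK)
    (fun a => by rw [conjQ_apply, ← map_pow, FiniteField.pow_card])
    (h3 (by
      have := AdjoinRoot.mk_self (f := (X ^ 2 + X + 1 : F[X]))
      rwa [map_add, map_add, map_pow, map_one] at this)) (by simp [hd, two_mul])]
  · exact congrArg _ (Nat.card_congr ((spIso _ F).toEquiv.subtypeEquiv fun y => by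
      simp [Subgroup.mem_centralizer_singleton_iff, ← map_mul]))
  · have h5 : x.1 ^ 2 + x.1 + 1 = 0 := hfpf.mul_right_eq_zero.mp (by
      rw [show (x.1 - 1) * (x.1 ^ 2 + x.1 + 1) = x.1 ^ 3 - 1 by noncomm_ring,
        ← SubmonoidClass.coe_pow, hx3]; simp)
    rw [show (spIso _ F x).1.toLinearMap = Matrix.toLinAlgEquiv' x.1 from
      LinearMap.ext (spIso_apply x), aeval_algHom_apply]
    simp [h5]

end Cfsg.Agent.S2637
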