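import Cfsg.Statements.S2638
import Mathlib
import Cfsg.Agent.L0.GLn4
-- import your own Cfsg.Agent.* helpers here

set_option autoImplicit false
open Cfsg

namespace Cfsg.Agent.S2638

open Cfsg.Agent.L0

/-- If an element x of GL_n(q), n ≥ 1, has prime order r and the multiplicative order of q modulo r is n (r is a primitive prime divisor of q^n − 1, so x acts irreducibly), then the centraliser of x in GL_n(q) is cyclic of order q^n − 1 (the multiplicative group of the field with q^n elements, a Singer cycle). -/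
theorem result {F : Type*} [Field F] [Fintype F] {p q : ℕ} [Fact p.Prime] [CharP F p] (hF : Fintype.card F = q) {n r : ℕ} (hn : 1 ≤ n) (hr : r.Prime) (hrp : r ≠ p) (hi : orderOf (q : ZMod r) = n) (x : GL (Fin n) F) (hx : orderOf x = r) : IsCyclic ↥(Subgroup.centralizer ({x} : Set (GL (Fin n) F))) ∧ Nat.card ↥(Subgroup.centralizer ({x} : Set (GL (Fin n) F))) = q ^ n - 1 := by
  have h1 := (gl_pow_eq_one_iff x r).1 (hx ▸ pow_orderOf_eq_one x)
  have h2 : ∀ u ∈ ty (x : Matrix (Fin n) (Fin n) F), Irreducible u :=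
    (coprime_orderOf_iff p x).1 (hx ▸ (Nat.coprime_primes hr Fact.out).2 hrp)
  obtain ⟨u, hu, hu1⟩ : ∃ u ∈ ty (x : Matrix (Fin n) (Fin n) F), u ≠ Polynomial.X - 1 := by
    by_contra! h
    have := (gl_pow_eq_one_iff x 1).2 fun u hu => by rw [h u hu, pow_one]
    rw [pow_one] at this
    rw [this, orderOf_one] at hx
    exact hr.one_lt.ne hx
  have h3 := natDegree_eq_orderOf_of_prime (h2 u hu) (prim_of_mem_ty hu).monic hr (h1 u hu) hu1
  rw [Nat.card_eq_fintype_card, hF, hi] at h3
  have h4 : ty (x : Matrix (Fin n) (Fin n) F) = {u} := by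
    obtain ⟨s, hs⟩ := Multiset.exists_cons_of_mem hu
    have h5 := sum_natDegree_ty (x : Matrix (Fin n) (Fin n) F)
    rw [hs, Multiset.map_cons, Multiset.sum_cons, h3, Fintype.card_fin, add_eq_left, Multiset.sum_eq_zero_iff] at h5
    rw [hs, Multiset.eq_zero_of_forall_notMem (s := s) fun v hv =>
      (h2 v (hs ▸ Multiset.mem_cons_of_mem hv)).natDegree_pos.ne' (h5 _ (Multiset.mem_map_of_mem _ hv))]
    rfl
  obtain ⟨φ, h5, h6, -, h7⟩ := exists_algHom_cent_single h4
  obtain ⟨ψ, -⟩ := exists_centEquiv φ h5 h6 h7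
  haveI := Fact.mk (h2 u hu)
  haveI := finite_adjoinRoot' (h2 u hu).ne_zero
  exact ⟨isCyclic_of_surjective ψ ψ.surjective, by
    rw [← Nat.card_congr ψ.toEquiv, card_units_adjoinRoot (h2 u hu), h3, Nat.card_eq_fintype_card, hF]⟩

end Cfsg.Agent.S2638
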