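import Cfsg.Statements.S2642
import Mathlib
import Cfsg.Agent.H10.Real2
import Cfsg.Agent.S2570
import Cfsg.Agent.S2587

set_option autoImplicit false
open Cfsg

namespace Cfsg.Agent.S2642

/-- Number of conjugacy classes of elements of order p in the general unitary group GU_n(q), q a power of p: every unipotent Jordan type occurs and the classes correspond to the partitions of n with all parts at most p other than the all-ones partition, exactly as in GL_n; so there are (number of partitions of n with parts ≤ p) − 1 classes. -/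
theorem result {K : Type*} [Field K] [Fintype K] {p q n : ℕ} [Fact p.Prime] [CharP K p] (hK : Fintype.card K = q ^ 2) : Nat.card {C : ConjClasses ↥(Cfsg.GU n K q) // ∃ g : ↥(Cfsg.GU n K q), ConjClasses.mk g = C ∧ orderOf g = p} = (Finset.univ.filter (fun μ : Nat.Partition n => ∀ a ∈ μ.parts, a ≤ p)).card - 1 := by
  rw [← S2570.result (F := K)]
  have hq := H11.qConj_conjQ hK
  refine Nat.card_eq_of_bijective (fun C => ⟨ConjClasses.map (GU n K q).subtype C.1, by
    obtain ⟨_, g, rfl, hg⟩ := C
    exact ⟨g, rfl, (Subgroup.orderOf_coe g).trans hg⟩⟩) ⟨?_, ?_⟩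
  · rintro ⟨_, a, rfl, ha⟩ ⟨_, b, rfl, hb⟩ h
    exact Subtype.ext (ConjClasses.mk_eq_mk_iff_isConj.mpr ((S2587.result hK a b).mpr
      (ConjClasses.mk_eq_mk_iff_isConj.mp (congrArg Subtype.val h))))
  · rintro ⟨_, a, rfl, ha⟩
    obtain ⟨g, hg⟩ := (H10.real_herm_unip hq.ne_id hq.invol ((L0.isNilpotent_sub_one_iff _).mp
      ((L0.unip_iff_isNilpotent p a).mp ⟨1, by rw [ha, pow_one]⟩))).herm (hq.isHerm (Fin n))
      (H11.hermB_sep _) (by simp [L0.sum_natDegree_ty])
    obtain ⟨b, rfl⟩ := (H11.guEquiv hq n).surjective g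
    have h : IsConj b.1 a := (L0.isConj_iff_ty _ _).mpr
      ((congrArg L0.tyE (LinearMap.ext fun v => (H11.guEquiv_apply hq b v).symm)).trans hg)
    exact ⟨⟨_, b, rfl, by rw [← Subgroup.orderOf_coe, ← ha]; exact h.elim fun c hc => hc.orderOf_eq _⟩,
      Subtype.ext (ConjClasses.mk_eq_mk_iff_isConj.mpr h)⟩

end Cfsg.Agent.S2642
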