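import Cfsg.Statements.S2643
import Mathlib
import Cfsg.Agent.H10.Reg

set_option autoImplicit false
open Cfsg

namespace Cfsg.Agent.S2643

/-- Regular unipotent classes of SU_n(q), n ≥ 2: the elements u of the special unitary group (isometries of Σ u_i v_i^q of determinant one over the field with q² elements) with (u − 1)^n = 0 and rank(u − 1) = n − 1 form exactly gcd(n, q + 1) conjugacy classes of SU_n(q). -/
theorem result {K : Type*} [Field K] [Fintype K] {q n : ℕ} (hK : Fintype.card K = q ^ 2) (hn : 2 ≤ n) : Nat.card {C : ConjClasses ↥(Cfsg.SU n K q) // ∃ u : ↥(Cfsg.SU n K q), ConjClasses.mk u = C ∧ (((u : GL (Fin n) K) : Matrix (Fin n) (Fin n) K) - 1) ^ n = 0 ∧ (((u : GL (Fin n) K) : Matrix (Fin n) (Fin n) K) - 1).rank = n - 1} = Nat.gcd n (q + 1) := by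
  have hq := H11.qConj_conjQ hK
  have hH := hq.isHerm (Fin n)
  have hB := H11.hermB_sep (σ := H11.conjQ hK) (Fin n)
  obtain ⟨g, hg⟩ := (H10.real_herm_unip hq.ne_id hq.invol (s := {(Polynomial.X - 1) ^ n})
    (by simpa using ⟨n, by omega, rfl⟩)).herm hH hB (by simp [L0.natDegree_X_sub_one])
  obtain ⟨v, hv, hv0⟩ : ∃ v, g.1 v = v ∧ v ≠ 0 := by
    have h1 := L0.kdE_eq_sum g.1.toLinearMap ((Polynomial.X - 1) ^ 1)
    rw [hg, Multiset.map_singleton, Multiset.sum_singleton, L0.gd_pow_pow L0.irr_X_sub_one.ne_zero,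
      L0.natDegree_X_sub_one, L0.kdE] at h1
    obtain ⟨v, h2, h3⟩ := Submodule.exists_mem_ne_zero_of_ne_bot
      (Submodule.one_le_finrank_iff.mp (h1.ge.trans' (by omega)))
    exact ⟨v, by simpa [sub_eq_zero] using h2, h3⟩
  have key : ∀ k : H11.UIsom (H11.hermB (Fin n) (H11.conjQ hK)), Commute g k →
      ∃ a : K, (H11.detI _ _ k : K) = a ^ n ∧ k.1 v = a • v ∧ H11.conjQ hK a * a = 1 :=
    fun k hk => by
    obtain ⟨a, h1, h2, h3⟩ := H10.det_comm_reg hg (y := k.1.toLinearMap)
      (LinearMap.ext fun v => congrArg (·.1 v) hk)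
    refine ⟨a, by simpa [H11.detI_coe] using h1, h2 v hv, by_contra fun h => hv0 ?_⟩
    refine hH.form.separatingRight hB fun x => ?_
    obtain ⟨z, hz⟩ := h3 x
    have h4 := k.2.1 x v
    have h5 := g.2.1 z v
    rw [hv] at h5
    rw [show k.1 x = _ from hz, show k.1 v = _ from h2 v hv] at h4
    simp only [map_add, map_sub, map_smulₛₗ, LinearMap.add_apply, LinearMap.sub_apply,
      LinearMap.smul_apply, LinearEquiv.coe_coe, h5, smul_eq_mul, RingHom.id_apply] at h4
    exact (mul_eq_zero.mp (by linear_combination h4)).resolve_left (sub_ne_zero.mpr h)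
  have hg1 : g ∈ (H11.detI _ _).ker := by
    obtain ⟨a, h1, h2, -⟩ := key g rfl
    rw [show a = 1 from smul_left_injective K hv0 (by simp [← h2, hv]), one_pow] at h1
    exact Units.ext h1
  rw [H10.card_classes_congr' (H11.suEquiv hq n) (P' := fun u => IsConj g u.1) fun u => by
    rw [H10.reg_iff_ty (by simp) (by omega), ← hg]
    exact ⟨fun h => H10.isConj_herm hH hB (h.symm.trans (H10.tyE_suEquiv hq u).symm), fun h => by
      obtain ⟨k, hk⟩ := isConj_iff.mp h
      exact (H10.tyE_suEquiv hq u).symm.trans (H10.tyE_congr k.1 fun v =>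
        congrArg (·.1 v) (mul_inv_eq_iff_eq_mul.mp hk)).symm⟩,
    H10.card_classes_ker _ ⟨g, hg1⟩, hH.range_detI hB (by simp; omega), Nat.gcd_comm,
    ← hq.card_normOne, ← IsCyclic.index_powMonoidHom_range, Subgroup.relIndex]
  congr 1
  ext c
  constructor
  · rintro ⟨k, hk, h1⟩
    have hk : Commute g k := (Subgroup.mem_centralizer_singleton_iff.mp hk).symm
    obtain ⟨a, h2, -, h3⟩ := key k hk
    exact ⟨⟨Units.mk0 a (right_ne_zero_of_mul_eq_one h3), h3⟩,
      Subtype.ext (Units.ext (h2.symm.trans (congrArg Units.val h1)))⟩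
  · rintro ⟨c, rfl⟩
    exact ⟨H11.IsHerm.scalU _ c, Subgroup.mem_centralizer_singleton_iff.mpr (H11.IsHerm.scalU_comm c g).symm,
      by simp [H11.IsHerm.det_scalU]⟩

end Cfsg.Agent.S2643
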