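import Cfsg.Statements.S2644
import Mathlib
import Cfsg.Agent.H11.Red

set_option autoImplicit false
open Cfsg

namespace Cfsg.Agent.S2644

/-- In the special unitary group SU_n(q) with n ≥ 3 (isometries of Σ u_i v_i^q of determinant one over the field with q² elements), any two transvections (elements t with t − 1 of rank one and square zero) are conjugate. -/
theorem result {K : Type*} [Field K] [Fintype K] {q n : ℕ} (hK : Fintype.card K = q ^ 2) (hn : 3 ≤ n) (s t : ↥(Cfsg.SU n K q)) (hs : Cfsg.IsTransvection (((s : GL (Fin n) K) : Matrix (Fin n) (Fin n) K))) (ht : Cfsg.IsTransvection (((t : GL (Fin n) K) : Matrix (Fin n) (Fin n) K))) : IsConj s t := by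
  have hq := H11.qConj_conjQ hK
  have h := hq.isHerm (Fin n)
  have hB := H11.hermB_sep (σ := H11.conjQ hK) (Fin n)
  have H : ∀ s : Cfsg.SU n K q, Cfsg.IsTransvection ((s : GL (Fin n) K) : Matrix (Fin n) (Fin n) K) →
      ∃ (u : Fin n → K) (c : K) (hu : H11.hermB _ _ u u = 0) (hc : c + H11.conjQ hK c = 0),
        u ≠ 0 ∧ c ≠ 0 ∧ (H11.suEquiv hq n s).1 = h.trv hu hc := fun s hs =>
    h.exists_eq_trv hB _ (by
      rw [show (H11.suEquiv hq n s).1.1 = H11.glEquiv _ _ (s : GL (Fin n) K) from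
        LinearEquiv.ext fun x => H11.suEquiv_apply hq s x, H11.finrank_movS_glEquiv]
      exact hs.1) fun x => by
      have := congrArg (fun M => Matrix.mulVec M x) hs.2
      simp only [← Matrix.mulVec_mulVec, Matrix.sub_mulVec, Matrix.one_mulVec,
        Matrix.zero_mulVec] at this
      rw [H11.suEquiv_apply, H11.suEquiv_apply]
      exact sub_eq_zero.mp this
  obtain ⟨u, c, hu, hc, hu0, hc0, e⟩ := H s hs
  obtain ⟨v, d, hv, hd, hv0, hd0, e'⟩ := H t ht
  obtain ⟨g, hg, hh⟩ := h.exists_conj_trv hB (by simpa using hn) hu hc hv hd hu0 hc0 hv0 hd0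
  refine isConj_iff.mpr ⟨(H11.suEquiv hq n).symm ⟨g, hg⟩, (H11.suEquiv hq n).injective ?_⟩
  rw [map_mul, map_mul, map_inv, MulEquiv.apply_symm_apply]
  exact Subtype.ext (by rw [← e, ← e'] at hh; exact hh)

end Cfsg.Agent.S2644
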