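import Cfsg.Statements.S2646
import Mathlib
import Cfsg.Agent.H10.Cent

set_option autoImplicit false
open Cfsg

namespace Cfsg.Agent.S2646

/-- Order of the centraliser in the general unitary group GU_n(q) of a unipotent element of given Jordan type: if u ∈ GU_n(q) (isometries of Σ u_i v_i^q over the field with q² elements) is similar to the unipotent matrix with a_i Jordan blocks of size i (all sizes at least 1), then its centraliser in GU_n(q) has order q^γ · Π_i |GU_(a_i)(q)| with γ = 2 Σ_(i<j) i a_i a_j + Σ_i (i − 1) a_i², the same exponent as in GL_n(q), where |GU_a(q)| = q^(a(a−1)/2) Π_(k=1)^a (q^k − (−1)^k). -/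
theorem result {K : Type*} [Field K] [Fintype K] {q n t : ℕ} (hK : Fintype.card K = q ^ 2) (d : Fin t → ℕ) (hd : ∀ k, 1 ≤ d k) (e : ((k : Fin t) × Fin (d k)) ≃ Fin n) (u : ↥(Cfsg.GU n K q)) (hu : IsConj (Matrix.reindex e e (Cfsg.jordanTypeMatrix d K)) ((u : GL (Fin n) K) : Matrix (Fin n) (Fin n) K)) : (Nat.card ↥(Subgroup.centralizer ({u} : Set ↥(Cfsg.GU n K q))) : ℤ) = (q : ℤ) ^ (2 * (∑ i ∈ Finset.range (Finset.univ.sup d + 1), ∑ j ∈ Finset.range (Finset.univ.sup d + 1), if i < j then i * (Finset.univ.filter (fun k : Fin t => d k = i)).card * (Finset.univ.filter (fun k : Fin t => d k = j)).card else 0) + ∑ i ∈ Finset.range (Finset.univ.sup d + 1), (i - 1) * (Finset.univ.filter (fun k : Fin t => d k = i)).card ^ 2) * ∏ i ∈ Finset.range (Finset.univ.sup d + 1), ((q : ℤ) ^ ((Finset.univ.filter (fun k : Fin t => d k = i)).card * ((Finset.univ.filter (fun k : Fin t => d k = i)).card - 1) / 2) * ∏ j : Fin (Finset.univ.filter (fun k : Fin t => d k = i)).card, ((q : ℤ) ^ ((j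 : ℕ) + 1) - (-1) ^ ((j : ℕ) + 1))) := by
  have hq := H11.qConj_conjQ hK
  have h := H10.card_CI_herm hq (hq.isHerm (Fin n)) (H11.hermB_sep _) (H11.guEquiv hq n u).2.1
    (μ := Finset.univ.val.map d) (M := Finset.univ.sup d + 1) (fun j hj => by
      obtain ⟨k, -, rfl⟩ := Multiset.mem_map.mp hj
      exact ⟨hd k, Nat.lt_succ_of_le (Finset.le_sup (Finset.mem_univ k))⟩) (by
      rw [H10.tyE_guEquiv, ← H10.isConj_iff_ty'.mp hu, H10.ty_reindex, H10.ty_jordanTypeMatrix hd,
        Multiset.map_map]; rfl)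
  refine Eq.trans (congrArg _ (Nat.card_congr (((H11.guEquiv hq n).toEquiv.subtypeEquiv
    (q := fun g => g * H11.guEquiv hq n u = H11.guEquiv hq n u * g) fun y => by
      simp [Subgroup.mem_centralizer_singleton_iff, ← map_mul]).trans
    ⟨fun g => ⟨g.1.1, g.1.2.1, LinearEquiv.congr_fun (congrArg Subtype.val g.2)⟩,
      fun g => ⟨⟨g.1, H11.mem_uisom.mpr g.2.1⟩, Subtype.ext (LinearEquiv.ext g.2.2)⟩,
      fun _ => rfl, fun _ => rfl⟩))) (h.trans ?_)
  simp only [H10.cexp]
  congr 1
  · simp only [H10.cexp_jordan]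
  · exact Finset.prod_congr rfl fun i _ => by rw [H10.cexp_jordan]

end Cfsg.Agent.S2646
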