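import Cfsg.Statements.S2653
import Cfsg.Agent.H23.Wg9
-- import your own Cfsg.Agent.* helpers here

set_option autoImplicit false
open scoped MatrixGroups
open Cfsg

namespace Cfsg.Agent.S2653

open Cfsg.Agent.H23.Wg

/-- Alternating sections of finite linear groups. Let `F` be a finite field of characteristic `p` and `n` a natural number, and suppose some subgroup `H` of GL_n(F) has a normal subgroup `K` with `H ⧸ K` isomorphic to the alternating group of degree `r ≥ 9`. Then `n ≥ r - 2` when `p` divides `r`, and `n ≥ r - 1` otherwise (the smallest degree of a nontrivial projective representation of that alternating group in characteristic `p`). The same bound follows for every classical group with natural module of dimension `n` over `F`, since each is a section of a subgroup of GL_n(F). -/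
theorem result {F : Type*} [Field F] [Fintype F] (p : ℕ) [Fact p.Prime] [CharP F p]
    (n : ℕ) (r : ℕ) (H : Subgroup (GL (Fin n) F)) (K : Subgroup ↥H) [K.Normal]
    (h : Nonempty (↥H ⧸ K ≃* ↥(alternatingGroup (Fin r)))) (hr : 9 ≤ r) :
    r - 1 - (if p ∣ r then 1 else 0) ≤ n := by
  classical
  obtain ⟨e⟩ := h
  let k := AlgebraicClosure (ZMod p)
  let _ := ZMod.algebra F p
  let ι : F →+* k := (IsAlgClosed.lift (R := ZMod p) (S := F) (M := k)).toRingHom
  let f : H →* GL (Fin n) k := (Matrix.GeneralLinearGroup.map ι).comp H.subtype
  have hf : Function.Injective f := fun a b e =>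
    Subtype.ext (Units.ext (Matrix.map_injective ι.injective (congrArg Units.val e)))
  let e' := MonoidHom.ofInjective hf
  have : Finite f.range := Finite.of_surjective _ e'.surjective
  let ψ : f.range →* alternatingGroup (Fin r) :=
    e.toMonoidHom.comp ((QuotientGroup.mk' K).comp e'.symm.toMonoidHom)
  have hψ : Function.Surjective ψ := e.surjective.comp ((QuotientGroup.mk'_surjective K).comp e'.symm.surjective)
  obtain ⟨L, l1, l2⟩ := exists_minimal_of_wellFoundedLT (fun L : Subgroup f.range => L.map ψ = ⊤)
    ⟨⊤, Subgroup.map_top_of_surjective _ hψ⟩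
  have hM : MC (ψ.comp L.subtype) := ⟨fun a => by
      obtain ⟨x, h1, h2⟩ : a ∈ L.map ψ := l1 ▸ Subgroup.mem_top a
      exact ⟨⟨x, h1⟩, h2⟩, fun M hM => by
      rw [← Subgroup.map_map] at hM
      refine Subgroup.map_injective L.subtype_injective ?_
      rw [← MonoidHom.range_eq_map, Subgroup.range_subtype]
      exact le_antisymm (Subgroup.map_subtype_le _) (l2 hM (Subgroup.map_subtype_le _))⟩
  have := main_bound hr n L _ k (Fin n → k) ((Matrix.toLinAlgEquiv' (R := k) (n := Fin n)).toMulEquiv.toMonoidHom.comp
    ((Units.coeHom _).comp (f.range.subtype.comp L.subtype))) hM (by simp) (by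
      have := alternatingGroup.isSimpleGroup (α := Fin r) (by simp; omega)
      obtain ⟨a, ha⟩ := exists_ne (1 : alternatingGroup (Fin r))
      obtain ⟨a, rfl⟩ := hM.surj a
      refine ⟨a, fun e => ha ?_⟩
      have e1 := (Matrix.toLinAlgEquiv' (R := k) (n := Fin n)).injective (e.trans (map_one _).symm)
      rw [show a = 1 from Subtype.ext (Subtype.ext (Units.ext e1)), map_one])
  simp only [bd, CharP.cast_eq_zero_iff k p] at this
  split_ifs at this ⊢ <;> omega

end Cfsg.Agent.S2653
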