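import Cfsg.Statements.S2657
import Mathlib
import Cfsg.Agent.H17.AltSecF

set_option autoImplicit false
open scoped MatrixGroups
open Cfsg

namespace Cfsg.Agent.S2657

open Cfsg.Agent.H17
open scoped commutatorElement


/-- Alternating sections of the groups of type F₄. Let `F` be a finite field of characteristic `p` and let `G` be the Chevalley group of type F₄ over `F`. If some subgroup of `G` has a quotient isomorphic to the alternating group of degree `r`, then `r` is at most 10, or 11 in characteristic 11. (Only an upper bound is asserted.) -/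
theorem result {F : Type*} [Field F] [Fintype F] (p : ℕ) [Fact p.Prime] [CharP F p]
    (r : ℕ) (H : Subgroup ↥(Cfsg.Lie.chevF4.group F)) (K : Subgroup ↥H) [K.Normal]
    (h : Nonempty (↥H ⧸ K ≃* ↥(alternatingGroup (Fin r)))) :
    r ≤ 10 + (if p = 11 then 1 else 0) := by
  obtain ⟨e⟩ := h
  have hp : p.Prime := Fact.out
  by_contra h
  split_ifs at h with h5
  · obtain ⟨L, _, _, f, h1, h2, k, h3⟩ := H17.exists_chev_ext Cfsg.Lie.chevF4 F p 12
    obtain ⟨M, φ, hφ⟩ := H17.exists_alt_sec (m := 12) (by omega) e
    exact H17.f4_no12 (f := (f.comp H.subtype).comp M.subtype)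
      ((h1.comp Subtype.val_injective).comp Subtype.val_injective) (fun _ => h2 _) hφ
      (fun r => h3 r ▸ H17.pow_modEq_one hp (by norm_num) (by omega) (by norm_num))
      (fun r => h3 r ▸ H17.pow_modEq_one hp (by norm_num) (by omega) (by norm_num))
  · obtain ⟨L, _, _, f, h1, h2, k, h3⟩ := H17.exists_chev_ext Cfsg.Lie.chevF4 F p 10
    obtain ⟨M, φ, hφ⟩ := H17.exists_alt_sec (m := 11) (by omega) e
    exact H17.f4_no11 (f := (f.comp H.subtype).comp M.subtype)
      ((h1.comp Subtype.val_injective).comp Subtype.val_injective) (fun _ => h2 _) hφ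
      (fun r => h3 r ▸ H17.pow_modEq_one hp (by norm_num) h5 (by norm_num))

end Cfsg.Agent.S2657
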