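import Cfsg.Statements.S2658
import Mathlib
import Cfsg.Agent.H17.AltSecG
import Cfsg.Agent.H13.ReeStr

set_option autoImplicit false
open scoped MatrixGroups
open Cfsg

namespace Cfsg.Agent.S2658

open Cfsg.Agent.H17
open scoped commutatorElement


/-- Alternating sections of the groups of type G₂. Let `F` be a finite field of characteristic `p` and let `G` be the Chevalley group of type G₂ over `F`. If some subgroup of `G` has a quotient isomorphic to the alternating group of degree `r`, then `r` is at most 6, or 7 in characteristic 5. (Only an upper bound is asserted.) -/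
theorem result {F : Type*} [Field F] [Fintype F] (p : ℕ) [Fact p.Prime] [CharP F p]
    (r : ℕ) (H : Subgroup ↥(Cfsg.Lie.chevG2.group F)) (K : Subgroup ↥H) [K.Normal]
    (h : Nonempty (↥H ⧸ K ≃* ↥(alternatingGroup (Fin r)))) :
    r ≤ 6 + (if p = 5 then 1 else 0) := by
  classical
  obtain ⟨e⟩ := h
  obtain ⟨L, _, _, f, h1, h2, k, h3⟩ := H17.exists_chev_ext Cfsg.Lie.chevG2 F p 4
  refine H17.g2_bound H17.chev_T_comm Fact.out (fun r => ⟨k, h3 r⟩)
    ⟨(Fintype.piFinset fun _ => ({1, -1} : Finset Lˣ)).image (H13.HH Cfsg.Lie.chevG2 L), ?_, fun t ht h => ?_⟩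
    (f := f.comp H.subtype) (h1.comp Subtype.val_injective) (fun _ => h2 _) e
  · refine Finset.card_image_le.trans ?_
    rw [Fintype.card_piFinset, Finset.prod_const, Finset.card_univ, Fintype.card_fin]
    exact Nat.pow_le_pow_left Finset.card_le_two 2
  · obtain ⟨c, rfl⟩ := H13.mem_T_iff.1 ht
    rw [← map_pow, ← map_one (H13.HH Cfsg.Lie.chevG2 L)] at h
    refine Finset.mem_image_of_mem _ (Fintype.mem_piFinset.2 fun i => ?_)
    have := congrFun (H13.HH_injective_G2 h) i
    exact H17.unit_mem_pm this

end Cfsg.Agent.S2658
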