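import Cfsg.Statements.S2660
import Mathlib
import Cfsg.Agent.H17.AltSecG
import Cfsg.Agent.H13.D4Str

set_option autoImplicit false
open scoped MatrixGroups
open Cfsg

namespace Cfsg.Agent.S2660

open Cfsg.Agent.H17
open scoped commutatorElement


/-- Alternating sections of the triality-twisted groups ³D₄. Let `q = p^a` be a prime power and `K` a field with `q³` elements, and let `G` be the twisted group ³D₄(q) realised over `K`. If some subgroup of `G` has a quotient isomorphic to the alternating group of degree `r`, then `r` is at most 6, or 7 in characteristic 5. (Only an upper bound is asserted.) -/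
theorem result {K : Type*} [Field K] [Fintype K] (p a : ℕ) [Fact p.Prime] [CharP K p]
    (ha : 1 ≤ a) (hK : Fintype.card K = (p ^ a) ^ 3) (r : ℕ) (H : Subgroup ↥(Cfsg.Lie.twistedD4 K (p ^ a))) (N : Subgroup ↥H) [N.Normal]
    (h : Nonempty (↥H ⧸ N ≃* ↥(alternatingGroup (Fin r)))) :
    r ≤ 6 + (if p = 5 then 1 else 0) := by
  classical
  obtain ⟨e⟩ := h
  have hp : p.Prime := Fact.out
  let L := FiniteField.Extension K p 4
  haveI : Fintype L := Fintype.ofFinite L
  have hL : Fintype.card L = ((p ^ a) ^ 4) ^ 3 := by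
    rw [← Nat.card_eq_fintype_card, FiniteField.natCard_extension, Nat.card_eq_fintype_card, hK]; ring
  obtain ⟨S, h1, h2, h3⟩ := H13.exists_DD ((hp.isPrimePow.pow (by omega)).pow (by norm_num)) hL
  let σ := algebraMap K L
  have h4 : ∀ t : K, σ t ^ (p ^ a) ^ 4 = σ (t ^ p ^ a) := fun t => by
    rw [← map_pow, pow_succ (p ^ a) 3, pow_mul, ← hK, FiniteField.pow_card]
  have h5 : Cfsg.Lie.twistedD4 K (p ^ a) ≤ S.X.grp.comap (Matrix.GeneralLinearGroup.map σ) := by
    refine (Subgroup.closure_le _).2 ?_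
    rintro g ⟨_, ⟨t, ht, r, hr, rfl⟩ | ⟨t, r, hr, rfl⟩, hg⟩ <;>
      simp only [List.mem_cons, List.not_mem_nil, or_false] at hr <;> rcases hr with rfl | rfl
    · rw [Units.ext (hg.trans (H13.DD.val_x 14 t).symm), SetLike.mem_coe, Subgroup.mem_comap, H12.map_x]
      exact H12.RGD.U_le_grp _ (S.mem_U6.2 ⟨σ t, by rw [h1, h4, ht], rfl⟩)
    · rw [Units.ext (hg.trans (H13.DD.val_x 9 t).symm), SetLike.mem_coe, Subgroup.mem_comap, H12.map_x]
      exact H12.RGD.U_le_grp _ (S.x9_mem (by rw [h1, h4, ht]))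
    · rw [(H13.val_eq_word_iff [(18, t), (13, t ^ p ^ a), (12, t ^ (p ^ a) ^ 2)]).1 hg]
      simp only [List.map_cons, List.map_nil, List.prod_cons, List.prod_nil, mul_one, SetLike.mem_coe,
        Subgroup.mem_comap, map_mul, H12.map_x]
      refine H12.RGD.U_le_grp _ (S.mem_U7.2 ⟨σ t, ?_⟩)
      rw [H13.DD.us, h1, h1, h4, h4, ← pow_mul t, ← sq]
    · rw [(H13.val_eq_word_iff [(5, t), (10, t ^ p ^ a), (11, t ^ (p ^ a) ^ 2)]).1 hg]
      simp only [List.map_cons, List.map_nil, List.prod_cons, List.prod_nil, mul_one, SetLike.mem_coe,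
        Subgroup.mem_comap, map_mul, H12.map_x]
      have := S.um_mem (σ t)
      rw [H13.DD.um, h1, h1, h4, h4, ← pow_mul t, ← sq] at this
      exact H12.RGD.U_le_grp _ this
  refine H17.g2_bound (X := S.X) (fun s hs t ht => H17.chev_T_comm s hs.1 t ht.1) hp (fun r => ?_)
    ⟨(({1, -1} : Finset Lˣ) ×ˢ ({1, -1} : Finset Lˣ)).image fun c => H13.HH Cfsg.Lie.chevD4 L (S.hc c.1 c.2),
      ?_, fun t ht h => ?_⟩
    (f := ((Matrix.GeneralLinearGroup.map σ).comp (Subgroup.subtype _)).comp H.subtype)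
    (fun x y h => Subtype.ext (Subtype.ext (Units.ext (Matrix.map_injective σ.injective
      (congrArg Units.val h))))) (fun y => h5 y.1.2) e
  · rw [S.card_U]
    split_ifs
    · exact ⟨a * 3, by rw [h3]; ring⟩
    · exact ⟨a, by simp only [h1]; exact H13.card_fixed (Nat.one_lt_pow (by norm_num)
        (Nat.one_lt_pow (by omega) hp.one_lt)) h3⟩
  · refine Finset.card_image_le.trans ?_
    rw [Finset.card_product]
    exact Nat.mul_le_mul Finset.card_le_two Finset.card_le_two
  · obtain ⟨x, y, -, rfl⟩ := S.mem_T.1 ht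
    rw [← map_pow, H13.HH, MonoidHom.comp_apply, map_eq_one_iff _ H12.dgU_injective] at h
    obtain ⟨k1, k2, -, k4⟩ := H13.D4.mem_ker h
    have u : ∀ z : Lˣ, z ^ 2 = 1 → z ∈ ({1, -1} : Finset Lˣ) := fun z hz => H17.unit_mem_pm hz
    refine Finset.mem_image.2 ⟨(x, y), Finset.mem_product.2 ⟨u _ ?_, u _ k2⟩, rfl⟩
    change (x ^ 2) ^ 2 = 1 at k1
    change Units.map _ (Units.map _ x) ^ 2 = x ^ 2 * Units.map _ x ^ 2 at k4
    simp only [← map_pow] at k4
    rcases Finset.mem_insert.1 (u _ k1) with k | k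
    · exact k
    · rw [Finset.mem_singleton.1 k] at k4 ⊢
      simpa [Units.ext_iff] using k4

end Cfsg.Agent.S2660
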