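import Cfsg.Statements.S2661
import Mathlib
import Cfsg.Agent.H13.F4Str
import Cfsg.Agent.H18.SylIn
-- import your own Cfsg.Agent.* helpers here

set_option autoImplicit false
open scoped MatrixGroups
open Cfsg

namespace Cfsg.Agent.S2661

open Cfsg.Agent.H12 Cfsg.Agent.H13 Cfsg.Agent.H12.RGD

theorem sec {G A : Type*} [Group G] [Finite G] [Group A] {T H : Subgroup G} (h7 : ¬ 7 ∣ T.index)
    (hT : ∀ g, ∃ n, (∀ t ∈ T, g * t * g⁻¹ ∈ T → n * t * n⁻¹ = g * t * g⁻¹) ∧ ∀ t ∈ T, n ^ 8 * t = t * n ^ 8)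
    (φ : H →* A) (hφ : Function.Surjective φ) {a b : A} (h1 : a ^ 7 = 1) (h2 : b * a * b⁻¹ = a ^ 2) :
    a = 1 := by
  haveI : Fact (Nat.Prime 7) := ⟨by norm_num⟩
  obtain ⟨P, hP, -⟩ := H18.exists_sylIn_ge (p := 7) IsPGroup.of_bot
    (bot_le (a := (Subgroup.zpowers a).comap φ))
  have h3 := hP.map φ
  rw [Subgroup.map_comap_eq_self_of_surjective hφ] at h3
  obtain ⟨x, hx, rfl⟩ : a ∈ P.map φ := by
    rw [h3.eq_of_isPGroup fun ⟨_, k, e⟩ => ⟨1, Subtype.ext (by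
      subst e
      show (a ^ k) ^ 7 ^ 1 = 1
      rw [pow_one, ← zpow_natCast, ← zpow_mul, mul_comm, zpow_mul, zpow_natCast, h1, one_zpow])⟩]
    exact Subgroup.mem_zpowers a
  obtain ⟨c, rfl⟩ := hφ b
  obtain ⟨k, ⟨j, hk⟩, hg⟩ := hP.frattini (g := c) (H18.mem_normalizer_of_conj_mem (by
    rintro y ⟨j, hj⟩
    refine ⟨2 * j, ?_⟩
    simp only at hj ⊢
    rw [map_mul, map_mul, map_inv, ← hj, ← conj_zpow, h2, zpow_mul, zpow_ofNat]))
  simp only at hk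
  have h4 : φ (k * c) * φ x * (φ (k * c))⁻¹ = φ x ^ 2 := by
    rw [map_mul, ← hk, mul_inv_rev, show ∀ u v w s t : A, u * v * w * (s * t) = u * (v * w * s) * t by
      intros; simp only [mul_assoc], h2, mul_inv_eq_iff_eq_mul]
    exact ((Commute.refl _).zpow_left j).pow_right 2
  obtain ⟨R, hR, -⟩ := H18.exists_sylIn_ge (p := 7) IsPGroup.of_bot (bot_le (a := T))
  have hR' : H18.SylIn 7 R ⊤ := H18.sylIn_of_not_dvd_relIndex le_top hR.isP (by
    rw [Subgroup.relIndex_top_right, ← Subgroup.relIndex_mul_index hR.le]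
    exact fun h => ((Nat.Prime.dvd_mul Fact.out).1 h).elim hR.not_dvd_relIndex h7)
  obtain ⟨d, -, hd'⟩ := hR'.exists_conj_mem le_top (hP.isP.map H.subtype)
  have hd : ∀ y : H, y ∈ P → d * y * d⁻¹ ∈ T := fun y hy => hR.le (hd' _ ⟨y, hy, rfl⟩)
  obtain ⟨n, n1, n2⟩ := hT (d * (k * c : H) * d⁻¹)
  have key : ∀ i : ℕ, (k * c) ^ i * x * ((k * c) ^ i)⁻¹ ∈ P ∧
      φ ((k * c) ^ i * x * ((k * c) ^ i)⁻¹) = φ x ^ 2 ^ i ∧
      n ^ i * (d * x * d⁻¹) * (n ^ i)⁻¹ = d * ((k * c) ^ i * x * ((k * c) ^ i)⁻¹ : H) * d⁻¹ := fun i => by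
    induction i with
    | zero => simpa using hx
    | succ i ih =>
      generalize k * c = g at *
      have e : g ^ (i + 1) * x * (g ^ (i + 1))⁻¹ = g * (g ^ i * x * (g ^ i)⁻¹) * g⁻¹ := by group
      have e1 := (Subgroup.mem_normalizer_iff.1 hg _).1 ih.1
      have e2 : ∀ y : H, d * g * d⁻¹ * (d * y * d⁻¹) * (d * g * d⁻¹)⁻¹ = d * (g * y * g⁻¹ : H) * d⁻¹ :=
        fun y => by push_cast; group
      rw [e]
      refine ⟨e1, ?_, ?_⟩
      · rw [map_mul, map_mul, map_inv, ih.2.1, ← conj_pow, h4, ← pow_mul, pow_succ']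
      · rw [← e2, ← n1 _ (hd _ ih.1) (by rw [e2]; exact hd _ e1), ← ih.2.2]
        group
  obtain ⟨-, k1, k2⟩ := key 8
  have k3 := n2 _ (hd _ hx)
  rw [k3, mul_inv_cancel_right, mul_left_inj, mul_right_inj, Subtype.coe_inj] at k2
  rw [← k2, show 2 ^ 8 = 7 * 36 + 3 + 1 by norm_num, pow_succ, pow_add, pow_mul, h1, one_pow, one_mul,
    eq_comm, mul_eq_right] at k1
  calc φ x = (φ x ^ 3) ^ 5 * ((φ x ^ 7) ^ 2)⁻¹ := by group
    _ = 1 := by rw [k1, h1]; simp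

theorem conjN {Φ I k G : Type*} [DecidableEq I] [Fintype I] [Finite Φ] [CommRing k] [LinearOrder k]
    [IsStrictOrderedRing k] {R : RS Φ I k} [Group G] {X : RGD R G} {g : G} (hg : g ∈ X.grp) :
    ∃ n ∈ X.N, ∀ t ∈ X.T, g * t * g⁻¹ ∈ X.T → n * t * n⁻¹ = g * t * g⁻¹ := by
  obtain ⟨w, hw⟩ := mem_grp_iff.1 hg
  obtain ⟨n, hn⟩ := exists_rep (X := X) w
  obtain ⟨b, hb, u, hu, rfl⟩ := hn.exists_normal_form hw
  obtain ⟨v, hv, c, hc, rfl⟩ := mem_B.1 hb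
  refine ⟨c * n, mul_mem (T_le_N hc) hn.mem_N, fun t ht ht' => ?_⟩
  generalize h : v * c * n * u * t * (v * c * n * u)⁻¹ = t' at ht'
  have h1 := (hn.normal_form_unique (b := v * c * (n * t * n⁻¹)) (b' := t' * (v * c))
    (u := t⁻¹ * u * t) (u' := u) (mul_mem hb (T_le_B (hn.conj_T ht))) (mul_mem (T_le_B ht') hb)
    (by simpa using T_conj_US (inv_mem ht) hu) hu (by rw [← h]; group)).1
  have h2 := eq_one_of_mem_Up_T (mul_mem (inv_mem hv) (T_conj_US ht' hv))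
    (u := v⁻¹ * (t' * v * t'⁻¹)) (by
      rw [show v⁻¹ * (t' * v * t'⁻¹) = v⁻¹ * (t' * (v * c)) * (t' * c)⁻¹ by group, ← h1]
      simpa [mul_assoc] using mul_mem (mul_mem hc (hn.conj_T ht)) (inv_mem (mul_mem ht' hc)))
  rw [inv_mul_eq_one] at h2
  calc c * n * t * (c * n)⁻¹ = v⁻¹ * (v * c * (n * t * n⁻¹)) * c⁻¹ := by group
    _ = v⁻¹ * (t' * v * t'⁻¹) * t' := by rw [h1]; group
    _ = t' := by rw [← h2]; group

/-- Alternating sections of the large Ree groups ²F₄. Let `m ≥ 1`, let `K` be a field with `2^(2m+1)` elements and let `G` be the large Ree group ²F₄(2^(2m+1)) realised over `K`. If some subgroup of `G` has a quotient isomorphic to the alternating group of degree `r`, then `r ≤ 6`. (Only an upper bound is asserted.) -/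
theorem result {K : Type*} [Field K] [Fintype K] {m : ℕ} (hm : 1 ≤ m)
    (hK : Fintype.card K = 2 ^ (2 * m + 1)) (r : ℕ) (H : Subgroup ↥(Cfsg.Lie.twistedF4 K (2 ^ m))) (N : Subgroup ↥H) [N.Normal]
    (h : Nonempty (↥H ⧸ N ≃* ↥(alternatingGroup (Fin r)))) :
    r ≤ 6 := by
  by_contra hr
  obtain ⟨e⟩ := h
  obtain ⟨S, -, h1, h2⟩ := exists_FD hK
  revert H
  rw [h1]
  intro H N _ e
  haveI : Finite S.G := Nat.finite_of_card_ne_zero (by
    have : 1 < Nat.card K := Finite.one_lt_card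
    have h4 : 1 < Nat.card K ^ 4 := Nat.one_lt_pow (by norm_num) this
    rw [S.card_G]
    refine Nat.ne_of_gt (Nat.mul_pos (Nat.mul_pos (Nat.mul_pos (Nat.mul_pos ?_ ?_) ?_) ?_) ?_) <;>
      first | omega | positivity)
  have hT : S.X.T ≤ S.G := S.X_grp ▸ T_le_B.trans B_le_grp
  let ι := Equiv.Perm.viaEmbeddingHom (Fin.castLEEmb (show 7 ≤ r by omega))
  have hι : ∀ s : Equiv.Perm (Fin 7), Equiv.Perm.sign s = 1 → ι s ∈ alternatingGroup (Fin r) := fun s hs =>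
    (@Equiv.Perm.sign_extendDomain _ _ _ _ _ _ _ _ (_) _).trans hs
  have := sec (T := S.X.T.subgroupOf S.G) ?_ (fun g => ?_) (e.toMonoidHom.comp (QuotientGroup.mk' N))
    (e.surjective.comp (QuotientGroup.mk'_surjective N)) (a := ⟨ι (finRotate 7), hι _ (by decide)⟩)
    (b := ⟨ι (c[1, 2, 4] * c[3, 6, 5]), hι _ (by decide)⟩)
    (Subtype.ext (show ι _ ^ 7 = 1 by rw [← map_pow, show finRotate 7 ^ 7 = 1 by decide, map_one]))
    (Subtype.ext (show ι _ * ι _ * (ι _)⁻¹ = ι _ ^ 2 by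
      rw [← map_inv, ← map_mul, ← map_mul, ← map_pow]; exact congrArg ι (by decide)))
  · exact absurd (Equiv.Perm.viaEmbeddingHom_injective _ ((congrArg Subtype.val this).trans (map_one ι).symm))
      (by decide)
  · have h3 := (S.X.T.subgroupOf S.G).index_mul_card
    rw [Nat.card_congr (Subgroup.subgroupOfEquivOfLe hT).toEquiv, S.card_T, S.card_G] at h3
    obtain ⟨q, hq⟩ : ∃ q, Nat.card K = q + 2 := Nat.exists_eq_add_of_le' Finite.one_lt_card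
    have h4 : (q + 2) ^ 4 - 1 = (q + 1) * ((q + 3) * ((q + 2) ^ 2 + 1)) := Nat.sub_eq_of_eq_add (by ring)
    rw [hq, h4, show q + 2 - 1 = q + 1 from rfl] at h3
    have h5 : (S.X.T.subgroupOf S.G).index =
        (q + 2) ^ 12 * ((q + 2) ^ 3 + 1) * (q + 3) * ((q + 2) ^ 2 + 1) * ((q + 2) ^ 6 + 1) :=
      Nat.eq_of_mul_eq_mul_right (show 0 < (q + 1) ^ 2 by positivity) (by rw [h3]; ring)
    have h6 : ∀ j, 2 ^ j % 7 = 1 ∨ 2 ^ j % 7 = 2 ∨ 2 ^ j % 7 = 4 := fun j => by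
      induction j with
      | zero => simp
      | succ j ih => rw [pow_succ]; omega
    have h7 : q % 7 = 6 ∨ q % 7 = 0 ∨ q % 7 = 2 := by have := h6 (2 * m + 1); omega
    rw [h5, Nat.dvd_iff_mod_eq_zero]
    rcases h7 with h7 | h7 | h7 <;> simp [Nat.mul_mod, Nat.add_mod, Nat.pow_mod, h7]
  · obtain ⟨n, n1, n2⟩ := conjN (X := S.X) (g := g) (S.X_grp.ge g.2)
    obtain ⟨w, hw⟩ := mem_N_iff.1 n1
    obtain ⟨ψ⟩ := nonempty_equiv_I8
    have h3 : ∀ j : ℕ, S.X.Rep (n ^ j) (w ^ j) := fun j => by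
      induction j with
      | zero => simpa using rep_one
      | succ j ih => rw [pow_succ, pow_succ]; exact ih.mul hw
    have h4 : w ^ 8 = 1 := ψ.injective (by
      rw [map_pow, map_one]; exact (by decide : ∀ y : DihedralGroup 8, y ^ 8 = 1) _)
    refine ⟨⟨n, S.X_grp.le (N_le_grp n1)⟩, fun t ht h => Subtype.ext (n2 _ ht h), fun t ht => Subtype.ext ?_⟩
    obtain ⟨l, hl⟩ := S.mem_T.1 (h4 ▸ h3 8).mem_T
    obtain ⟨l', hl'⟩ := S.mem_T.1 (show (t : GL _ K) ∈ _ from ht)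
    show n ^ 8 * t = t * n ^ 8
    rw [← hl, ← hl', ← map_mul, ← map_mul, mul_comm]

end Cfsg.Agent.S2661
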