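import Cfsg.Statements.S2665
import Mathlib
import Cfsg.Agent.H12.Lang
import Cfsg.Agent.H10.SL

set_option autoImplicit false
open scoped MatrixGroups
open Cfsg

namespace Cfsg.Agent.S2665

open Cfsg.Agent.H12

/-- The Lang–Steinberg Theorem for the general linear group. Let `K` be an algebraically closed field of prime characteristic `p`, let `q = p^f` with `f ≥ 1`, and let `σ` be the endomorphism of GL_n(K) raising every matrix entry to the `q`-th power. Then every element `g` of GL_n(K) can be written `g = x · σ(x)⁻¹` for some `x` in GL_n(K): the map `x ↦ x σ(x)⁻¹` is surjective. -/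
theorem result {K : Type*} [Field K] [IsAlgClosed K] (p : ℕ) [Fact p.Prime] [CharP K p]
    (f : ℕ) (hf : 1 ≤ f) (n : ℕ) (g : GL (Fin n) K) :
    ∃ x : GL (Fin n) K, g = x * (Matrix.GeneralLinearGroup.map (iterateFrobenius K p f) x)⁻¹ := by
  have h1 : PConn (Matrix.GeneralLinearGroup.det (n := Fin n) (R := K)).ker := fun a ha => by
    have : ∀ M : Matrix.SpecialLinearGroup (Fin n) K, Matrix.SpecialLinearGroup.toGL M ∈
        (curves (Matrix.GeneralLinearGroup.det (n := Fin n) (R := K)).ker).map (evG 1) := by
      refine H10.SL_transvection_induction _ (by rw [map_one]; exact one_mem _) (fun i j hij t => ?_)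
        fun A B hA hB => by rw [map_mul]; exact mul_mem hA hB
      refine mem_map_curves (x := fun t => Matrix.SpecialLinearGroup.toGL
        (Matrix.SpecialLinearGroup.transvection hij t)) (fun k l => ?_) ?_ (fun t => ?_) t
      · refine ⟨Matrix.transvection i j Polynomial.X k l, fun t => ?_⟩
        change Matrix.transvection i j t k l = _
        simp [Matrix.transvection, Matrix.one_apply, Matrix.single_apply,
          apply_ite (Polynomial.eval t)]
      · exact Units.ext (Matrix.transvection_zero i j)
      · exact Units.ext (Matrix.SpecialLinearGroup.transvection hij t).2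
    have e : Matrix.SpecialLinearGroup.toGL ⟨a.1, congrArg Units.val ha⟩ = a := Units.ext rfl
    exact e ▸ this _
  rcases Nat.eq_zero_or_pos n with rfl | hn
  · exact ⟨1, Subsingleton.elim _ _⟩
  have h2 : 1 < p ^ f := Nat.one_lt_pow (by omega) (Fact.out : p.Prime).one_lt
  obtain ⟨c, hc⟩ := IsAlgClosed.exists_pow_nat_eq (g : Matrix (Fin n) (Fin n) K).det
    (n := (p ^ f - 1) * n) (Nat.mul_pos (by omega) hn)
  have h3 : c ≠ 0 := by
    rintro rfl
    rw [zero_pow (Nat.mul_pos (by omega) hn).ne'] at hc
    exact ((Matrix.isUnit_iff_isUnit_det _).1 g.isUnit).ne_zero hc.symm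
  let s := Matrix.GeneralLinearGroup.scalar (Fin n) (Units.mk0 c h3)
  have h4 : Matrix.GeneralLinearGroup.map (iterateFrobenius K p f) s = s ^ (p ^ f - 1) * s := by
    rw [← pow_succ, Nat.sub_add_cancel h2.le, ← map_pow]
    ext i j
    simp [s, Matrix.diagonal_pow, Matrix.diagonal_apply, iterateFrobenius_def, apply_ite (· ^ p ^ f),
      zero_pow (by omega : p ^ f ≠ 0)]
  have h5 : ∀ a, s * a = a * s := fun a => Units.ext (Matrix.scalar_commute _ (fun _ => Commute.all _ _) _)
  obtain ⟨x, -, hx⟩ := h1.lang (p := p) hf (c := 1) (a := g * (s ^ (p ^ f - 1))⁻¹) (fun a ha => by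
    rw [frobG_apply, one_mul, inv_one, mul_one]
    refine Units.ext ?_
    have := congrArg (iterateFrobenius K p f) (congrArg Units.val ha)
    rw [Units.val_one, map_one, Matrix.GeneralLinearGroup.val_det_apply, RingHom.map_det] at this
    exact this) (by
    rw [MonoidHom.mem_ker, map_mul, map_inv, mul_inv_eq_one, ← map_pow]
    refine Units.ext ?_
    simp [← hc, ← pow_mul, mul_comm])
  refine ⟨(s * x)⁻¹, ?_⟩
  rw [frobG_apply, one_mul, inv_one, mul_one, inv_mul_eq_iff_eq_mul] at hx
  rw [map_inv, inv_inv, map_mul, hx, h4, eq_inv_mul_iff_mul_eq, mul_assoc (s ^ _),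
    (Commute.pow_left (h5 _) _).eq]
  group

end Cfsg.Agent.S2665
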