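import Cfsg.Statements.S2669
import Mathlib
import Cfsg.Agent.L0.Shintani
-- import your own Cfsg.Agent.* helpers here

set_option autoImplicit false
open Cfsg

namespace Cfsg.Agent.S2669

open Cfsg.Agent.L0

/-- Shintani descent preserves numbers of fixed points on coset spaces (abstract form). Let `σ` be an automorphism of a group `X` and `e ≥ 1`; write `G` for the fixed points of `σᵉ` and `H` for the fixed points of `σ`, and assume `G` is finite. Let `Y` be a `σ`-stable subgroup of `X` on which the maps `a ↦ a σ(a)⁻¹` and `a ↦ a σᵉ(a)⁻¹` are surjective (as for a closed connected `σ`-stable subgroup of an algebraic group). Let `g ∈ G`, let `a ∈ X` satisfy `g = a σ(a)⁻¹` and put `x = σᵉ(a)⁻¹ a` (the Shintani image, an element of `H`). The element `g σ` of the semidirect product acts on the cosets of `Y ∩ G` in `G` by `k (Y ∩ G) ↦ g σ(k) (Y ∩ G)`, fixing that coset exactly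 when `k⁻¹ g σ(k) ∈ Y`; and `x` fixes the coset `h (Y ∩ H)` of `H` exactly when `h⁻¹ x h ∈ Y`. Then the two numbers of fixed cosets agree; in cross-multiplied form, `#{k ∈ G : k⁻¹ g σ(k) ∈ Y} · |Y ∩ H| = #{h ∈ H : h⁻¹ x h ∈ Y} · |Y ∩ G|`. -/
theorem result {X : Type*} [Group X] (σ : MulAut X) (e : ℕ) (he : 1 ≤ e)
    [Finite ↥((MulEquiv.toMonoidHom (σ ^ e)).eqLocus (MonoidHom.id X))]
    (Y : Subgroup X) (hY : ∀ y : X, y ∈ Y ↔ σ y ∈ Y)
    (hYL : ∀ y ∈ Y, ∃ a ∈ Y, y = a * (σ a)⁻¹) (hYLe : ∀ y ∈ Y, ∃ a ∈ Y, y = a * ((σ ^ e) a)⁻¹)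
    (g : X) (hg : g ∈ (MulEquiv.toMonoidHom (σ ^ e)).eqLocus (MonoidHom.id X)) (a : X) (ha : g = a * (σ a)⁻¹) :
    Nat.card {k : ↥((MulEquiv.toMonoidHom (σ ^ e)).eqLocus (MonoidHom.id X)) // (k : X)⁻¹ * g * σ k ∈ Y} *
        Nat.card ↥(Y ⊓ (MulEquiv.toMonoidHom σ).eqLocus (MonoidHom.id X)) =
      Nat.card {h : ↥((MulEquiv.toMonoidHom σ).eqLocus (MonoidHom.id X)) // (h : X)⁻¹ * (((σ ^ e) a)⁻¹ * a) * h ∈ Y} *
        Nat.card ↥(Y ⊓ (MulEquiv.toMonoidHom (σ ^ e)).eqLocus (MonoidHom.id X)) := by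
  subst ha
  simp only [sh_mem] at hg
  have hx := sh_x hg
  have hYe : ∀ (j : ℕ) (y : X), y ∈ Y → (σ ^ j) y ∈ Y := by
    intro j y hy
    induction j with
    | zero => exact hy
    | succ j ih => rw [pow_succ', MulAut.mul_apply]; exact (hY _).1 ih
  rw [← card_eq_mul_of_fib (Z := fun k : {k : ↥((MulEquiv.toMonoidHom (σ ^ e)).eqLocus (MonoidHom.id X)) //
      (k : X)⁻¹ * (a * (σ a)⁻¹) * σ k ∈ Y} => {y : X // y ∈ Y ∧ (k.1 : X)⁻¹ * (a * (σ a)⁻¹) * σ k.1 = y * (σ y)⁻¹}),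
    ← card_eq_mul_of_fib (Z := fun h : {h : ↥((MulEquiv.toMonoidHom σ).eqLocus (MonoidHom.id X)) //
      (h : X)⁻¹ * (((σ ^ e) a)⁻¹ * a) * h ∈ Y} => {y : X // y ∈ Y ∧
        (h.1 : X)⁻¹ * (((σ ^ e) a)⁻¹ * a) * h.1 = ((σ ^ e) y)⁻¹ * y})]
  · have A : ∀ k y : X, (σ ^ e) k = k → k⁻¹ * (a * (σ a)⁻¹) * σ k = y * (σ y)⁻¹ →
        σ (a⁻¹ * k * y) = a⁻¹ * k * y ∧
          (a⁻¹ * k * y)⁻¹ * (((σ ^ e) a)⁻¹ * a) * (a⁻¹ * k * y) = ((σ ^ e) y)⁻¹ * y := by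
      intro k y hk h
      have h1 : σ (a⁻¹ * k * y) = a⁻¹ * k * y := by
        simp only [map_mul, map_inv]
        have : σ k = (a * (σ a)⁻¹)⁻¹ * k * (y * (σ y)⁻¹) := by rw [← h]; group
        rw [this]; group
      refine ⟨h1, ?_⟩
      have h2 := sh_fix h1 e
      simp only [map_mul, map_inv, hk] at h2
      calc _ = (((σ ^ e) a)⁻¹ * k * (σ ^ e) y)⁻¹ * (((σ ^ e) a)⁻¹ * a) * (a⁻¹ * k * y) := by rw [h2]
        _ = _ := by group
    have B : ∀ h y : X, σ h = h → h⁻¹ * (((σ ^ e) a)⁻¹ * a) * h = ((σ ^ e) y)⁻¹ * y →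
        (σ ^ e) (a * h * y⁻¹) = a * h * y⁻¹ ∧
          (a * h * y⁻¹)⁻¹ * (a * (σ a)⁻¹) * σ (a * h * y⁻¹) = y * (σ y)⁻¹ := by
      intro h y hh h1
      simp only [map_mul, map_inv, hh, sh_fix hh]
      refine ⟨?_, by group⟩
      have : ((σ ^ e) y)⁻¹ = h⁻¹ * (((σ ^ e) a)⁻¹ * a) * h * y⁻¹ := by rw [h1]; group
      rw [this]; group
    refine Nat.card_congr
      { toFun := fun z => ⟨⟨⟨a⁻¹ * z.1.1.1 * z.2.1, (A _ _ z.1.1.2 z.2.2.2).1⟩, by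
            rw [(A _ _ z.1.1.2 z.2.2.2).2]
            exact Y.mul_mem (Y.inv_mem (hYe _ _ z.2.2.1)) z.2.2.1⟩, z.2.1, z.2.2.1, (A _ _ z.1.1.2 z.2.2.2).2⟩
        invFun := fun z => ⟨⟨⟨a * z.1.1.1 * z.2.1⁻¹, (B _ _ z.1.1.2 z.2.2.2).1⟩, by
            rw [(B _ _ z.1.1.2 z.2.2.2).2]
            exact Y.mul_mem z.2.2.1 (Y.inv_mem ((hY _).1 z.2.2.1))⟩, z.2.1, z.2.2.1, (B _ _ z.1.1.2 z.2.2.2).2⟩
        left_inv := ?_
        right_inv := ?_ }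
    · rintro ⟨⟨⟨k, hk⟩, hk2⟩, y, hy⟩
      have : a * (a⁻¹ * k * y) * y⁻¹ = k := by group
      refine Sigma.subtype_ext ?_ rfl
      simp only [this]
    · rintro ⟨⟨⟨k, hk⟩, hk2⟩, y, hy⟩
      have : a⁻¹ * (a * k * y⁻¹) * y = k := by group
      refine Sigma.subtype_ext ?_ rfl
      simp only [this]
  · rintro ⟨⟨h, hh⟩, hh2⟩
    obtain ⟨c, hc, hc2⟩ := hYLe _ (Y.inv_mem hh2)
    have h1 : h⁻¹ * (((σ ^ e) a)⁻¹ * a) * h = (σ ^ e) c * c⁻¹ := by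
      rw [← inv_inj, hc2]; group
    simp only [h1]
    refine ⟨{ toFun := fun y => ⟨y.1 * c, Y.mul_mem y.2.1 hc, ?_⟩
              invFun := fun y => ⟨y.1 * c⁻¹, Y.mul_mem y.2.1 (Y.inv_mem hc), ?_⟩
              left_inv := fun y => by simp
              right_inv := fun y => Subtype.ext (by simp) }⟩
    · obtain ⟨y, hy, hy2⟩ := y
      change (σ ^ e) (y * c) = y * c
      have : (σ ^ e) c = ((σ ^ e) y)⁻¹ * y * c := by rw [← hy2]; group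
      rw [map_mul, this]; group
    · have : (σ ^ e) y.1 = y.1 := y.2.2
      rw [map_mul, map_inv, this]; group
  · rintro ⟨⟨k, hk⟩, hk2⟩
    obtain ⟨c, hc, hc2⟩ := hYL _ hk2
    simp only at hc2
    simp only [hc2]
    refine ⟨{ toFun := fun y => ⟨c⁻¹ * y.1, Y.mul_mem (Y.inv_mem hc) y.2.1, ?_⟩
              invFun := fun y => ⟨c * y.1, Y.mul_mem hc y.2.1, ?_⟩
              left_inv := fun y => by simp
              right_inv := fun y => Subtype.ext (by simp) }⟩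
    · obtain ⟨y, hy, hy2⟩ := y
      change σ (c⁻¹ * y) = c⁻¹ * y
      have : (σ c)⁻¹ = c⁻¹ * (y * (σ y)⁻¹) := by rw [← hy2]; group
      rw [map_mul, map_inv, this]; group
    · have : σ y.1 = y.1 := y.2.2
      rw [map_mul, this]; group

end Cfsg.Agent.S2669
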