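import Cfsg.Statements.S2672
import Mathlib
import Cfsg.Agent.H10.PG

set_option autoImplicit false
open Cfsg

namespace Cfsg.Agent.S2672

open Polynomial H10 H11 L0

/-- Number of conjugacy classes of elements of odd prime order r in PGU_n(q) = GU_n(q)/scalars (n ≥ 3) when r divides q + 1: as in the linear case with q − 1 replaced by q + 1, the classes correspond to the rotation orbits on r-tuples of eigenvalue multiplicities summing to n with every entry < n, plus r − 1 further classes when r divides n; in all (C(n+r−1, r−1) − r − [r ∣ n])/r + r·[r ∣ n]. -/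
theorem result {K : Type*} [Field K] [Fintype K] {q n r : ℕ} (hK : Fintype.card K = q ^ 2) (hn : 3 ≤ n) (hr : r.Prime) (hr2 : r ≠ 2) (hrq : r ∣ q + 1) : Nat.card {C : ConjClasses (↥(Cfsg.GU n K q) ⧸ Subgroup.center ↥(Cfsg.GU n K q)) // ∃ g : ↥(Cfsg.GU n K q) ⧸ Subgroup.center ↥(Cfsg.GU n K q), ConjClasses.mk g = C ∧ orderOf g = r} = (Nat.choose (n + r - 1) (r - 1) - r - (if r ∣ n then 1 else 0)) / r + r * (if r ∣ n then 1 else 0) := by
  have hq := qConj_conjQ hK
  have hH := hq.isHerm (Fin n)
  rw [card_classes_congr (quotientCenterCongr (guEquiv hq n))]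
  have := Finite.of_equiv _ (guEquiv hq n).toEquiv
  have hZ := hH.center_uisom (hermB_sep _) (by simp; omega)
  have := card_classes_proj (LinearEquiv.automorphismGroup.toLinearMapMonoidHom.comp
    (UIsom (hermB (Fin n) (conjQ hK))).subtype)
    (fun a b e => Subtype.ext (LinearEquiv.toLinearMap_injective e)) (Λ := normOne (conjQ hK))
    (fun g hg => by obtain ⟨a, rfl⟩ := hZ.le hg; exact ⟨a, a.2, rfl⟩)
    (fun a ha => ⟨IsHerm.scalU _ ⟨a, ha⟩, hZ.ge ⟨_, rfl⟩, rfl⟩)
    (fun g g' h => isConj_herm hH (hermB_sep _) h) hr (hq.card_normOne ▸ hrq)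
    (fun a ha y hy => by
      obtain ⟨k, rfl⟩ := hr.odd_of_ne_two hr2
      have h0 : y ≠ 0 := fun e => a.ne_zero (by simp [← hy, e])
      have h1 : conjQ hK y ≠ 0 := by simpa
      have h2 : conjQ hK a = a.1⁻¹ := eq_inv_of_mul_eq_one_left ha
      refine ⟨a * Units.mk0 _ (div_ne_zero h1 h0) ^ k, mul_mem ha (pow_mem (mem_normOne.mpr (by
        simp [hq.invol, h0, h1])) _), Units.ext ?_⟩
      simp only [Units.val_pow_eq_pow_val, Units.val_mul, Units.val_mk0, mul_pow, ← pow_mul,
        mul_comm k]
      rw [pow_mul (_ / _), div_pow, ← map_pow, hy, h2]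
      rw [pow_succ, pow_mul, mul_right_comm, ← mul_pow]
      field_simp
      simp)
    (by simp; omega) fun s hs h => Real.herm (by
        rw [← s.map_id, ← Multiset.bind_singleton]
        exact (par_herm hq.invol).real_sum s (fun u => {u}) fun u hu => by
          obtain ⟨h1, k, a, ha, rfl⟩ := hs u hu
          exact real_herm_binom hq.ne_id hq.invol ha h1) hH (hermB_sep _) h
  simpa using this

end Cfsg.Agent.S2672
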