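import Cfsg.Statements.S2673
import Mathlib
import Cfsg.Agent.H10.Real4

set_option autoImplicit false
open Cfsg

namespace Cfsg.Agent.S2673

/-- Number of conjugacy classes of elements of odd prime order r ≠ p in the orthogonal group O_(2m+1)(q) of x_0² + Σ x_j y_j, q odd: with i the multiplicative order of q mod r and t = (r − 1)/i, there are C(⌊m/i⌋ + t/2, t/2) − 1 classes if i is odd (dual pairs of totally singular i-blocks) and C(⌊(2m+1)/i⌋ + t, t) − 1 if i is even (elliptic i-blocks). -/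
theorem result {F : Type*} [Field F] [Fintype F] {p q : ℕ} [Fact p.Prime] [CharP F p] (hF : Fintype.card F = q) (hq : Odd q) (m r i t : ℕ) (hr : r.Prime) (hr2 : r ≠ 2) (hrp : r ≠ p) (hi : i = orderOf (q : ZMod r)) (ht : t * i = r - 1) : Nat.card {C : ConjClasses ↥(Cfsg.isometryGroup F (Cfsg.quadFormOdd m F)) // ∃ g : ↥(Cfsg.isometryGroup F (Cfsg.quadFormOdd m F)), ConjClasses.mk g = C ∧ orderOf g = r} = if Odd i then Nat.choose (m / i + t / 2) (t / 2) - 1 else Nat.choose ((2 * m + 1) / i + t) t - 1 := by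
  subst hF
  have h2 := H11.two_ne_zero_of_odd_card hq
  rw [← Nat.card_eq_fintype_card] at hi
  rw [H10.card_classes_congr (H11.oEquiv (H11.isQuad_odd m F))]
  have e : Module.finrank F (Unit ⊕ Fin m ⊕ Fin m → F) = 2 * m + 1 := by simp [two_mul, add_comm]
  have h := H10.card_classes_quad_odd (H11.isQuad_odd m F) (H11.bOdd_sep m h2) h2
    (e ▸ odd_two_mul_add_one m) hr hr2 hrp hi ht rfl rfl
  rw [e] at h
  refine (Nat.eq_sub_of_add_eq h).trans ?_
  split_ifs
  · rw [← Nat.div_div_eq_div_mul, (by omega : (2 * m + 1) / 2 = m)]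
  · rfl

end Cfsg.Agent.S2673
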