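import Cfsg.Statements.S2675
import Mathlib
import Cfsg.Agent.H10.Real4

set_option autoImplicit false
open Cfsg

namespace Cfsg.Agent.S2675

/-- Number of conjugacy classes of elements of odd prime order r ≠ p in the orthogonal group O⁻_2m(q) of an elliptic form Σ_(j<m−1) x_j y_j + z₁² + a z₁z₂ + c z₂² (binary part anisotropic, m ≥ 1): with i the multiplicative order of q mod r and t = (r − 1)/i — if i is odd, C(⌊m/i⌋ + t/2, t/2) − 1 minus, when i divides m, the C(m/i + t/2 − 1, t/2 − 1) tuples filling the whole space (dual pairs of totally singular blocks fill a hyperbolic space); if i is even, C(⌊2m/i⌋ + t, t) − 1 minus, when i divides 2m with even quotient, the C(2m/i + t − 1, t − 1) tuples filling the whole space with an even number of elliptic blocks. -/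
theorem result {F : Type*} [Field F] [Fintype F] {p q : ℕ} [Fact p.Prime] [CharP F p] (hF : Fintype.card F = q) (m r i t : ℕ) (hm : 1 ≤ m) (a c : F) (hac : ∀ z₁ z₂ : F, z₁ ^ 2 + a * z₁ * z₂ + c * z₂ ^ 2 = 0 → z₁ = 0 ∧ z₂ = 0) (hr : r.Prime) (hr2 : r ≠ 2) (hrp : r ≠ p) (hi : i = orderOf (q : ZMod r)) (ht : t * i = r - 1) : Nat.card {C : ConjClasses ↥(Cfsg.isometryGroup F (Cfsg.quadFormMinus (m - 1) F a c)) // ∃ g : ↥(Cfsg.isometryGroup F (Cfsg.quadFormMinus (m - 1) F a c)), ConjClasses.mk g = C ∧ orderOf g = r} = if Odd i then Nat.choose (m / i + t / 2) (t / 2) - 1 - (if i ∣ m then Nat.choose (m / i + t / 2 - 1) (t / 2 - 1) else 0) else Nat.choose (2 * m / i + t) t - 1 - (if i ∣ 2 * m ∧ Even (2 * m / i) then Nat.choose (2 * m / i + t - 1) (t - 1) else 0) := by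
  subst hF
  have := Fact.mk hr
  obtain ⟨m, rfl⟩ := Nat.exists_eq_add_of_le' hm
  rw [← Nat.card_eq_fintype_card] at hi
  rw [Nat.add_sub_cancel, H10.card_classes_congr (H11.oEquiv (H11.isQuad_minus m F a c))]
  have h := H10.card_classes_quad_even (H11.isQuad_minus m F a c) (H11.bMinus_sep m hac) hr hr2 hrp
    hi ht (m := m) (by simp [two_mul]; omega) (.inr ⟨H11.wittIdx_minus m hac, rfl⟩) rfl rfl
  have h0 := (H10.dual_data_id hr hr2 hrp hi ht).2.1
  simp only [H10.pow_eq_neg_one_iff hr2, ← hi] at h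
  by_cases ho : Odd i
  · have e : (¬ (i ∣ 2 * (m + 1) ∧ ¬ i ∣ m + 1) ∧ i ∣ m + 1) ↔ i ∣ m + 1 := by tauto
    simp only [ho, if_true, Nat.mul_dvd_mul_iff_left two_pos, e,
      Nat.mul_div_mul_left _ _ two_pos] at h ⊢
    omega
  · have e : (¬ (i ∣ 2 * (m + 1) ∧ ¬ i ∣ m + 1) ∧ i ∣ 2 * (m + 1)) ↔
        (i ∣ 2 * (m + 1) ∧ Even (2 * (m + 1) / i)) := by
      rw [and_comm]
      refine and_congr_right fun h' => ?_
      obtain ⟨k, hk⟩ := id h'
      rw [and_iff_right h', not_not, hk, Nat.mul_div_cancel_left _ h0, even_iff_two_dvd,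
        ← Nat.mul_dvd_mul_iff_left h0 (b := 2), ← hk, mul_comm i, Nat.mul_dvd_mul_iff_left two_pos]
    simp only [ho, if_false, e] at h ⊢
    omega

end Cfsg.Agent.S2675
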