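import Cfsg.Statements.S2676
import Mathlib
import Cfsg.Agent.H18.Uc1
import Cfsg.Agent.H11.Syl2O
import Cfsg.Agent.H10.Geo1

set_option autoImplicit false
open Classical
open Cfsg

namespace Cfsg.Agent.S2676

open Cfsg.Agent.H18.Uc Cfsg.Agent.H10 Cfsg.Agent.H11

/-- Number of conjugacy classes of elements of order p in Sp_2m(q), q a power of the odd prime p: the classes correspond to the signed partitions of 2m — partitions with all parts at most p in which every odd part has even multiplicity, each even part size that occurs carrying a sign — other than the all-ones partition; so the count is the sum over such partitions of 2^(number of distinct even parts), minus one. -/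
theorem result {F : Type*} [Field F] [Fintype F] {p : ℕ} [Fact p.Prime] [CharP F p] (hp : p ≠ 2) (m : ℕ) : Nat.card {C : ConjClasses ↥(Matrix.symplecticGroup (Fin m) F) // ∃ g : Matrix.symplecticGroup (Fin m) F, ConjClasses.mk g = C ∧ orderOf g = p} = (∑ μ ∈ Finset.univ.filter (fun μ : Nat.Partition (2 * m) => (∀ a ∈ μ.parts, a ≤ p) ∧ ∀ j : ℕ, Odd j → Even (μ.parts.count j)), 2 ^ ((μ.parts.toFinset.filter (fun j : ℕ => Even j)).card)) - 1 := by
  have h2 : (2 : F) ≠ 0 := fun h => hp ((Nat.prime_dvd_prime_iff_eq Fact.out Nat.prime_two).1
    ((CharP.cast_eq_zero_iff F p 2).1 (by simpa using h)))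
  have := finite_isom (σ := RingHom.id F) (spBilin (Fin m) F) fun _ => 0
  rw [card_classes_congr (spIso (Fin m) F)]
  refine Nat.eq_sub_of_add_eq ((card_classes_prime Fact.out).trans ?_)
  convert card_unip (p := p) h2 (spBilin_isAlt (l := Fin m)) spBilin_nondegenerate.1 (n := 2 * m)
    (by simp [two_mul])

end Cfsg.Agent.S2676
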