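import Cfsg.Statements.S2678
import Mathlib
import Cfsg.Agent.H10.Ext

set_option autoImplicit false
open Cfsg

namespace Cfsg.Agent.S2678

open H10

/-- Field-extension embedding of symplectic groups: for a field K with q² elements and a field F with q elements there is an injective homomorphism Sp_2a(K) → Sp_4a(F). -/
theorem result {K F : Type*} [Field K] [Fintype K] [Field F] [Fintype F] {q : ℕ} (hK : Fintype.card K = q ^ 2) (hF : Fintype.card F = q) (a : ℕ) : ∃ φ : ↥(Matrix.symplecticGroup (Fin a) K) →* ↥(Matrix.symplecticGroup (Fin (2 * a)) F), Function.Injective φ := by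
  obtain ⟨_, h2⟩ := exists_algebra_of_card (F := F) (K := K) (m := 2) (by simp [hF, hK])
  have hA : LinearMap.IsAlt (trForm F (spBilin (Fin a) K)) := fun x => by
    rw [trForm_apply, spBilin_isAlt x, map_zero]
  obtain ⟨e⟩ := nonempty_sp_equiv_isom (l := Fin (2 * a)) (hA.isRefl.nondegenerate_iff_separatingLeft.mpr
    (trForm_sep spBilin_nondegenerate.1)) hA (by
      rw [← Module.finrank_mul_finrank F K, h2, finrank_sp_space]; simp)
  let ψ : isomGroup (spBilin (Fin a) K) →* isomGroup (trForm F (spBilin (Fin a) K)) :=
    MonoidHom.mk' (fun g => ⟨g.1.restrictScalars F, fun u v => congrArg (Algebra.trace F K) (g.2 u v)⟩)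
      fun _ _ => rfl
  exact ⟨e.symm.toMonoidHom.comp (ψ.comp spEquiv.toMonoidHom), e.symm.injective.comp
    (Function.Injective.comp (g := ψ) (fun g h e => isom_ext fun v =>
      LinearEquiv.congr_fun (congrArg Subtype.val e) v) spEquiv.injective)⟩

end Cfsg.Agent.S2678
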