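import Cfsg.Statements.S2679
import Mathlib
import Cfsg.Agent.H10.Ext

set_option autoImplicit false
open Cfsg

namespace Cfsg.Agent.S2679

open H10 H11

/-- An elliptic orthogonal group embeds in the hyperbolic orthogonal group of the same dimension over the quadratic extension: for a field F with q elements and a field K with q² elements there is an injective homomorphism from O⁻_2m(F) (isometries of Σ_(j<m−1) x_j y_j + z₁² + a z₁z₂ + c z₂², binary part anisotropic) to O⁺_2m(K) (isometries of Σ_(j<m) x_j y_j over K). -/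
theorem result {F K : Type*} [Field F] [Fintype F] [Field K] [Fintype K] {q : ℕ} (hF : Fintype.card F = q) (hK : Fintype.card K = q ^ 2) {m : ℕ} (hm : 1 ≤ m) (a c : F) (hac : ∀ z₁ z₂ : F, z₁ ^ 2 + a * z₁ * z₂ + c * z₂ ^ 2 = 0 → z₁ = 0 ∧ z₂ = 0) : ∃ φ : ↥(Cfsg.isometryGroup F (Cfsg.quadFormMinus (m - 1) F a c)) →* ↥(Cfsg.isometryGroup K (Cfsg.quadFormPlus m K)), Function.Injective φ := by
  obtain ⟨_, h2⟩ := exists_algebra_of_card (F := F) (K := K) (m := 2) (by simp [hF, hK])
  obtain ⟨m, rfl⟩ := Nat.exists_eq_add_of_le' hm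
  have H := rform_minus (algebraMap F K) m a c
  have h := isQuad_minus m K (algebraMap F K a) (algebraMap F K c)
  have hB := H.sep (bMinus_sep m hac)
  obtain ⟨θ, hθ⟩ := exists_root_of_finrank (F := K) (by simp [h2]) a c
  obtain ⟨e, e1, e2⟩ := h.exists_equiv_of_wittIdx hB (isQuad_plus (m + 1) K) (bPlus_sep _ K)
    (by simp [parity_simps]) (by simp; omega) (wittIdx_minus_of_root hB hθ) (wittIdx_plus _ K)
  obtain ⟨φ, hφ, -⟩ := exists_hom_rform H (h.spanExt h)
  exact ⟨((isomCongr e e1 e2).trans (oEquiv (isQuad_plus _ K)).symm).toMonoidHom.comp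
    (φ.comp (oEquiv (isQuad_minus m F a c)).toMonoidHom),
    fun _ _ e' => (oEquiv (isQuad_minus m F a c)).injective (hφ
      (((isomCongr e e1 e2).trans (oEquiv (isQuad_plus _ K)).symm).injective e'))⟩

end Cfsg.Agent.S2679
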