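import Cfsg.Statements.S2682
import Mathlib
import Cfsg.Agent.H10.Wall3

set_option autoImplicit false
open Cfsg

namespace Cfsg.Agent.S2682

/-- Centraliser order of an involution t of Sp_2m(q), q even, with s = rank(t − 1) even and f(v, tv) ≠ 0 for some v, f the symplectic form (type c_s): |C(t)| = q^(2ms − (3s² − 3s)/2 − 1) · |Sp_(s−2)(q)| · |Sp_(2m−2s)(q)|. -/
theorem result {F : Type*} [Field F] [Fintype F] [CharP F 2] {q : ℕ} (hF : Fintype.card F = q) {m s : ℕ} (t : Matrix.symplecticGroup (Fin m) F) (ht : t ^ 2 = 1) (hs : ((t : Matrix (Fin m ⊕ Fin m) (Fin m ⊕ Fin m) F) - 1).rank = s) (heven : Even s) (hna : ∃ v : Fin m ⊕ Fin m → F, Cfsg.sympForm m F v ((t : Matrix (Fin m ⊕ Fin m) (Fin m ⊕ Fin m) F).mulVec v) ≠ 0) : Nat.card ↥(Subgroup.centralizer ({t} : Set ↥(Matrix.symplecticGroup (Fin m) F))) = q ^ (2 * m * s - (3 * s ^ 2 - 3 * s) / 2 - 1) * ((q : ℕ) ^ (((s - 2) / 2) ^ 2) * ∏ i : Fin ((s - 2)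 / 2), (q ^ (2 * ((i : ℕ) + 1)) - 1)) * ((q : ℕ) ^ ((m - s) ^ 2) * ∏ i : Fin (m - s), (q ^ (2 * ((i : ℕ) + 1)) - 1)) := by
  have T := H10.two_alt (H10.spBilin_isAlt (l := Fin m) (F := F)) H10.spBilin_nondegenerate.1
  have hg : H10.spIso _ _ t * H10.spIso _ _ t = 1 := by rw [← map_mul, ← pow_two, ht, map_one]
  rw [← H10.finrank_movS_of_mulVec (H10.spIso_apply _)] at hs
  have h1 := T.two_mul_rank_le hg
  have h2 := H10.card_fixSub_alt T.sep H10.spBilin_isAlt (m := m) (by simp [two_mul])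
    (T.movS_isotropic hg) hs
  rw [hs, H10.finrank_sp_space, Fintype.card_fin] at h1
  obtain ⟨d, rfl⟩ : ∃ d, m = s + d := ⟨m - s, by omega⟩
  subst hF
  rw [H10.card_centralizer_congr (H10.spIso _ _)]
  have ha : ¬ H10.AltT (H10.spBilin _ F) (H10.spIso _ _ t).1 := fun h => by
    obtain ⟨v, hv⟩ := hna
    exact hv (by rw [← H10.spIso_apply, H10.sympForm_eq_spBilin]; exact h v)
  obtain ⟨k, rfl⟩ := heven
  obtain ⟨k, rfl⟩ : ∃ j, k = j + 1 := ⟨k - 1, by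
    have := (H10.finrank_movS_eq_zero (g := (H10.spIso _ _ t).1)).not.mpr fun h => ha fun v => by rw [h]; exact T.alt v
    omega⟩
  rw [T.card_cent_even hg (k := k) (by omega) ha, h2, Nat.card_eq_fintype_card,
    show (k + 1 + (k + 1) - 2) / 2 = k by omega,
    show 2 * (k + 1 + (k + 1) + d) * (k + 1 + (k + 1)) -
      (3 * (k + 1 + (k + 1)) ^ 2 - 3 * (k + 1 + (k + 1))) / 2 - 1 = 2 * k + 1 +
       (k + 1 + (k + 1) + ((k + 1 + (k + 1)) * (2 * (k + 1 + (k + 1) + d) - 2 * (k + 1 + (k + 1))) +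
        (k + 1 + (k + 1)) * (k + 1 + (k + 1) - 1) / 2)) by
      rw [show 2 * (k + 1 + (k + 1) + d) - 2 * (k + 1 + (k + 1)) = 2 * d by omega,
        show k + 1 + (k + 1) - 1 = 2 * k + 1 by omega]
      ring_nf; omega, H10.spO, H10.spO]
  ring

end Cfsg.Agent.S2682
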