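import Cfsg.Statements.S2683
import Mathlib
import Cfsg.Agent.H10.Wall3

set_option autoImplicit false
open Cfsg

namespace Cfsg.Agent.S2683

/-- For the hyperbolic form Σ x_j y_j on F^(2m) over a finite field with q elements, q even (excluding m = 2 over the field of two elements), and an involution x of the orthogonal group with s = rank(x − 1) odd (type b_s; such x lie outside Ω): the elements of Ω (the commutator subgroup of the orthogonal group) commuting with x number q^(2m(s−1) − (3s² − 3s)/2) · |Sp_(s−1)(q)| · |Sp_(2m−2s)(q)|, where |Sp_2k(q)| = q^(k²) Π_(i=1)^k (q^(2i) − 1). -/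
theorem result {F : Type*} [Field F] [Fintype F] [CharP F 2] {q : ℕ} (hF : Fintype.card F = q) {m s : ℕ} (h : Fintype.card F ≠ 2 ∨ m ≠ 2) (x : ↥(Cfsg.isometryGroup F (Cfsg.quadFormPlus m F))) (hx : x ^ 2 = 1) (hs : (((x : Matrix.GeneralLinearGroup (Fin m ⊕ Fin m) F) : Matrix (Fin m ⊕ Fin m) (Fin m ⊕ Fin m) F) - 1).rank = s) (hodd : Odd s) : Nat.card {g : ↥(Cfsg.Omega F (Cfsg.quadFormPlus m F)) // (g : ↥(Cfsg.isometryGroup F (Cfsg.quadFormPlus m F))) * x = x * (g : ↥(Cfsg.isometryGroup F (Cfsg.quadFormPlus m F)))} = q ^ (2 * m * (s - 1) - (3 * s ^ 2 - 3 * s) / 2) * ((q : ℕ) ^ (((s - 1) / 2) ^ 2) * ∏ i : Fin ((s - 1) / 2), (q ^ (2 * ((i : ℕ) + 1)) - 1)) * ((q : ℕ) ^ ((m - s) ^ 2) * ∏ i : Fin (m - s), (q ^ (2 * ((i : ℕ) + 1)) - 1)) := by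
  have hq := H11.isQuad_plus m F
  have hB := H11.bPlus_sep m F
  have T := H10.two_quad hq hB
  have hg : H11.oEquiv hq x * H11.oEquiv hq x = 1 := by rw [← map_mul, ← pow_two, hx, map_one]
  rw [← H10.finrank_movS_of_mulVec (H11.oEquiv_apply hq x)] at hs
  have h1 := T.two_mul_rank_le hg
  have hn : Module.finrank F (Fin m ⊕ Fin m → F) = 2 * m := by simp [two_mul]
  have h2 := H10.card_cent_omega hq hB (H11.nonExc_plus h) hn hg
  have hν := H11.wittIdx_plus m F
  have hA : H10.AltT (H11.bPlus m F) (H11.oEquiv hq x).1 ↔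
      ∀ v, quadFormPlus m F ((x.1.1 - 1).mulVec v) = 0 := forall_congr' fun v => by
    rw [Matrix.sub_mulVec, Matrix.one_mulVec, ← H11.oEquiv_apply hq, T.Q_movS]; rfl
  rw [Nat.card_congr ((H11.omegaEquiv hq).toEquiv.subtypeEquiv
    (q := fun g => g.1 * H11.oEquiv hq x = H11.oEquiv hq x * g.1) fun g => by
      rw [← (H11.oEquiv hq).apply_eq_iff_eq, map_mul, map_mul]; rfl)]
  rw [hs, hn] at h1
  generalize H11.oEquiv hq x = g at *
  subst hF
  obtain ⟨k, rfl⟩ := hodd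
  have ha : ¬ H10.AltT (H11.bPlus m F) g.1 := fun h => by
    have := T.even_of_altT hg h
    simp [hs] at this
  obtain ⟨d, rfl⟩ : ∃ d, m = d + 1 + 2 * k := ⟨m - 1 - 2 * k, by omega⟩
  rw [T.card_cent_odd hg hs, H10.card_fixSub_movS_nonalt hq hB hν hn hg hs ha, if_neg (by simp [ha]),
    Nat.card_eq_fintype_card] at h2
  refine Nat.eq_of_mul_eq_mul_left two_pos (h2.symm.trans ?_)
  rw [show d + 1 + 2 * k - (2 * k + 1) = d by omega, show (2 * k + 1 - 1) / 2 = k by omega,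
    show 2 * (d + 1 + 2 * k) * (2 * k + 1 - 1) - (3 * (2 * k + 1) ^ 2 - 3 * (2 * k + 1)) / 2 =
      2 * k * (2 * d + 1) + 2 * k * (2 * k - 1) / 2 by
      rcases k with _ | k
      · simp
      · rw [show 2 * (k + 1) - 1 = 2 * k + 1 by omega, Nat.add_sub_cancel]; ring_nf; omega,
    H10.spO, H10.spO]
  ring

end Cfsg.Agent.S2683
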