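import Cfsg.Statements.S2684
import Mathlib
import Cfsg.Agent.H10.Wall3

set_option autoImplicit false
open Cfsg

namespace Cfsg.Agent.S2684

/-- For the hyperbolic form Q = Σ x_j y_j on F^(2m) over a finite field with q elements, q even (excluding m = 2 over the field of two elements), and an involution x ≠ 1 of the orthogonal group with s = rank(x − 1) even and Q vanishing on the image of x − 1 (equivalently f(v, xv) = 0 for all v, where f(u, w) = Q(u + w) − Q(u) − Q(w) is the bilinear form of Q; type a_s, which lies in Ω): its centraliser in Ω (the commutator subgroup of the orthogonal group) has order q^(2ms − (3s² + s)/2) · |Sp_s(q)| · |Ω⁺_(2m−2s)(q)|, where |Ω⁺_2k(q)| = q^(k(k−1)) (q^k − 1) Π_(i=1)^(k−1) (q^(2i) − 1) for k ≥ 1 and the last factor is 1 when s = m. -/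
theorem result {F : Type*} [Field F] [Fintype F] [CharP F 2] {q : ℕ} (hF : Fintype.card F = q) {m s : ℕ} (h : Fintype.card F ≠ 2 ∨ m ≠ 2) (x : ↥(Cfsg.isometryGroup F (Cfsg.quadFormPlus m F))) (hx : x ^ 2 = 1) (hx1 : x ≠ 1) (hs : (((x : Matrix.GeneralLinearGroup (Fin m ⊕ Fin m) F) : Matrix (Fin m ⊕ Fin m) (Fin m ⊕ Fin m) F) - 1).rank = s) (heven : Even s) (halt : ∀ v : Fin m ⊕ Fin m → F, Cfsg.quadFormPlus m F ((((x : Matrix.GeneralLinearGroup (Fin m ⊕ Fin m) F) : Matrix (Fin m ⊕ Fin m) (Fin m ⊕ Fin m) F) - 1).mulVec v) = 0) : Nat.card {g : ↥(Cfsg.Omega F (Cfsg.quadFormPlus m F)) // (g : ↥(Cfsg.isometryGroup F (Cfsg.quadFormPlus m F))) * x = x * (g : ↥(Cfsg.isometryGroup F (Cfsg.quadFormPlus m F)))} = q ^ (2 * m * s - (3 * s ^ 2 + s) / 2) * ((q : ℕ) ^ ((s / 2) ^ 2) * ∏ i : Fin (s / 2), (q ^ (2 * ((i : ℕ) + 1)) - 1)) * (if s = m then 1 else q ^ ((m - s) * (m - s - 1)) * (q ^ (m - s) - 1) * ∏ i : Fin (m - s - 1), (q ^ (2 * ((i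 : ℕ) + 1)) - 1)) := by
  have hq := H11.isQuad_plus m F
  have hB := H11.bPlus_sep m F
  have T := H10.two_quad hq hB
  have hg : H11.oEquiv hq x * H11.oEquiv hq x = 1 := by rw [← map_mul, ← pow_two, hx, map_one]
  rw [← H10.finrank_movS_of_mulVec (H11.oEquiv_apply hq x)] at hs
  have h1 := T.two_mul_rank_le hg
  have hn : Module.finrank F (Fin m ⊕ Fin m → F) = 2 * m := by simp [two_mul]
  have h2 := H10.card_cent_omega hq hB (H11.nonExc_plus h) hn hg
  have hν := H11.wittIdx_plus m F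
  have hA : H10.AltT (H11.bPlus m F) (H11.oEquiv hq x).1 ↔
      ∀ v, quadFormPlus m F ((x.1.1 - 1).mulVec v) = 0 := forall_congr' fun v => by
    rw [Matrix.sub_mulVec, Matrix.one_mulVec, ← H11.oEquiv_apply hq, T.Q_movS]; rfl
  rw [Nat.card_congr ((H11.omegaEquiv hq).toEquiv.subtypeEquiv
    (q := fun g => g.1 * H11.oEquiv hq x = H11.oEquiv hq x * g.1) fun g => by
      rw [← (H11.oEquiv hq).apply_eq_iff_eq, map_mul, map_mul]; rfl)]
  rw [hs, hn] at h1
  have hx2 : H11.oEquiv hq x ≠ 1 := by simpa using hx1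
  generalize H11.oEquiv hq x = g at *
  subst hF
  have ha := hA.mpr halt
  obtain ⟨k, rfl⟩ := heven
  obtain ⟨k, rfl⟩ : ∃ j, k = j + 1 := ⟨k - 1, by
    have := H10.finrank_movS_eq_zero.not.mpr fun h => hx2 (Subtype.ext h)
    omega⟩
  have h3 := H10.card_fixSub_plus hq hB hν hn ((H10.totSing_movS_iff hq hB g).mpr ha) hs
  rw [T.card_cent_alt hg (k := k + 1) (by omega) ha, hs, Nat.card_eq_fintype_card] at h2
  obtain ⟨d, rfl⟩ : ∃ d, m = k + 1 + (k + 1) + d := ⟨m - (k + 1 + (k + 1)), by omega⟩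
  rw [show (k + 1 + (k + 1)) / 2 = k + 1 by omega,
    show 2 * (k + 1 + (k + 1) + d) * (k + 1 + (k + 1)) -
      (3 * (k + 1 + (k + 1)) ^ 2 + (k + 1 + (k + 1))) / 2 = (k + 1 + (k + 1)) *
      (2 * (k + 1 + (k + 1) + d) - 2 * (k + 1 + (k + 1))) +
      (k + 1 + (k + 1)) * (k + 1 + (k + 1) - 1) / 2 by
      rw [show k + 1 + (k + 1) - 1 = 2 * k + 1 by omega,
        show 2 * (k + 1 + (k + 1) + d) - 2 * (k + 1 + (k + 1)) = 2 * d by omega]; ring_nf; omega]
  change _ = _ * H10.spO _ _ * _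
  rw [Nat.card_eq_fintype_card (α := F)] at h3
  simp only [ha, and_true] at h2
  split_ifs at h2 h3 ⊢ with h4
  · rw [mul_one, ← Nat.cast_pow, Nat.cast_inj] at h3
    rw [← one_mul (Nat.card _), ← h2, h3]; ring
  · refine Nat.eq_of_mul_eq_mul_left two_pos (h2.symm.trans ?_)
    have : 1 ≤ Fintype.card F := Fintype.card_pos
    zify [Nat.one_le_pow _ _ this]
    rw [h3, Fin.prod_univ_eq_prod_range fun i => (Fintype.card F : ℤ) ^ (2 * (i + 1)) - 1]
    ring

end Cfsg.Agent.S2684
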