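import Cfsg.Statements.S2685
import Mathlib
import Cfsg.Agent.H10.Wall3

set_option autoImplicit false
open Cfsg

namespace Cfsg.Agent.S2685

/-- For the hyperbolic form Q = Σ x_j y_j on F^(2m) over a finite field with q elements, q even (excluding m = 2 over the field of two elements), and an involution x of the orthogonal group with s = rank(x − 1) even and Q not vanishing on the image of x − 1 (f(v, xv) ≠ 0 for some v, where f(u, w) = Q(u + w) − Q(u) − Q(w) is the bilinear form of Q; type c_s, which lies in Ω): its centraliser in Ω (the commutator subgroup of the orthogonal group) has order q^(2m(s−1) − (3s² − 5s)/2 − 1) · |Sp_(s−2)(q)| · |Sp_(2m−2s)(q)|. -/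
theorem result {F : Type*} [Field F] [Fintype F] [CharP F 2] {q : ℕ} (hF : Fintype.card F = q) {m s : ℕ} (h : Fintype.card F ≠ 2 ∨ m ≠ 2) (x : ↥(Cfsg.isometryGroup F (Cfsg.quadFormPlus m F))) (hx : x ^ 2 = 1) (hs : (((x : Matrix.GeneralLinearGroup (Fin m ⊕ Fin m) F) : Matrix (Fin m ⊕ Fin m) (Fin m ⊕ Fin m) F) - 1).rank = s) (heven : Even s) (hna : ∃ v : Fin m ⊕ Fin m → F, Cfsg.quadFormPlus m F ((((x : Matrix.GeneralLinearGroup (Fin m ⊕ Fin m) F) : Matrix (Fin m ⊕ Fin m) (Fin m ⊕ Fin m) F) - 1).mulVec v) ≠ 0) : Nat.card {g : ↥(Cfsg.Omega F (Cfsg.quadFormPlus m F)) // (g : ↥(Cfsg.isometryGroup F (Cfsg.quadFormPlus m F))) * x = x * (g : ↥(Cfsg.isometryGroup F (Cfsg.quadFormPlus m F)))} = q ^ (2 * m * (s - 1) - (3 * s ^ 2 - 5 * s) / 2 - 1) * ((q : ℕ) ^ (((s - 2) / 2) ^ 2) * ∏ i : Fin ((s - 2) / 2), (q ^ (2 * ((i : ℕ) + 1)) - 1)) * ((q : ℕ) ^ ((m - s) ^ 2) * ∏ i : Fin (m - s), (q ^ (2 * ((i : ℕ) + 1)) - 1)) := by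
  have hq := H11.isQuad_plus m F
  have hB := H11.bPlus_sep m F
  have T := H10.two_quad hq hB
  have hg : H11.oEquiv hq x * H11.oEquiv hq x = 1 := by rw [← map_mul, ← pow_two, hx, map_one]
  rw [← H10.finrank_movS_of_mulVec (H11.oEquiv_apply hq x)] at hs
  have h1 := T.two_mul_rank_le hg
  have hn : Module.finrank F (Fin m ⊕ Fin m → F) = 2 * m := by simp [two_mul]
  have h2 := H10.card_cent_omega hq hB (H11.nonExc_plus h) hn hg
  have hν := H11.wittIdx_plus m F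
  have hA : H10.AltT (H11.bPlus m F) (H11.oEquiv hq x).1 ↔
      ∀ v, quadFormPlus m F ((x.1.1 - 1).mulVec v) = 0 := forall_congr' fun v => by
    rw [Matrix.sub_mulVec, Matrix.one_mulVec, ← H11.oEquiv_apply hq, T.Q_movS]; rfl
  rw [Nat.card_congr ((H11.omegaEquiv hq).toEquiv.subtypeEquiv
    (q := fun g => g.1 * H11.oEquiv hq x = H11.oEquiv hq x * g.1) fun g => by
      rw [← (H11.oEquiv hq).apply_eq_iff_eq, map_mul, map_mul]; rfl)]
  rw [hs, hn] at h1
  generalize H11.oEquiv hq x = g at *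
  subst hF
  have ha : ¬ H10.AltT (H11.bPlus m F) g.1 := by rw [hA]; simpa using hna
  obtain ⟨k, rfl⟩ := heven
  obtain ⟨k, rfl⟩ : ∃ j, k = j + 1 := ⟨k - 1, by
    have := (H10.finrank_movS_eq_zero (g := g.1)).not.mpr fun h => ha fun v => by rw [h]; exact T.alt v
    omega⟩
  obtain ⟨d, rfl⟩ : ∃ d, m = d + 1 + (2 * k + 1) := ⟨m - 1 - (2 * k + 1), by omega⟩
  rw [T.card_cent_even hg (k := k) (by omega) ha,
    H10.card_fixSub_movS_nonalt hq hB hν hn hg (by omega) ha, if_neg (by simp [ha]),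
    Nat.card_eq_fintype_card] at h2
  refine Nat.eq_of_mul_eq_mul_left two_pos (h2.symm.trans ?_)
  rw [show d + 1 + (2 * k + 1) - (k + 1 + (k + 1)) = d by omega,
    show (k + 1 + (k + 1) - 2) / 2 = k by omega,
    show 2 * (d + 1 + (2 * k + 1)) * (k + 1 + (k + 1) - 1) -
      (3 * (k + 1 + (k + 1)) ^ 2 - 5 * (k + 1 + (k + 1))) / 2 - 1 = 2 * k + 1 +
      ((2 * k + 1) * (2 * d + 1) + (2 * k + 1) * (2 * k + 1 - 1) / 2) by
      rw [show k + 1 + (k + 1) - 1 = 2 * k + 1 by omega, Nat.add_sub_cancel]; ring_nf; omega,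
    H10.spO, H10.spO]
  ring

end Cfsg.Agent.S2685
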