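import Cfsg.Statements.S2691
import Mathlib
import Cfsg.Agent.H11.SemiB

set_option autoImplicit false
open Cfsg

namespace Cfsg.Agent.S2691

/-- The automorphism group of a simple projective special unitary group PSU_n(q), n ≥ 3, (n, q) ≠ (3, 2), realised over the field F with q² elements through the Hermitian form Σ uᵢ vᵢ^q, is generated by the automorphisms induced by the semilinear maps v ↦ g σ(v) with g a general unitary matrix and σ an automorphism of F (the image of the projective semilinear unitary group). -/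
theorem result {F : Type*} [Field F] [Fintype F] {p f q : ℕ} [Fact p.Prime] (hq : q = p ^ f) (hf : 1 ≤ f) (hF : Fintype.card F = q ^ 2) {n : ℕ} (hn : 3 ≤ n) (hs : ¬ (n = 3 ∧ q = 2)) :
    Cfsg.gammaPSU n F q = ⊤ := by
  have h := H11.qConj_conjQ hF
  refine eq_top_iff.mpr fun β _ => Subgroup.subset_closure ?_
  obtain ⟨g, ρ, rfl⟩ := h.exists_eq_mul hn hs β
  obtain ⟨g, rfl⟩ := (H11.guEquiv h n).surjective g
  refine ⟨g.1, ρ, g.2, ?_⟩
  rw [← map_mul]
  have := (H11.induced_iff (fun s : SU n F q => s.1.1) (H11.suEquiv_apply h)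
    (γ := H11.ofIsom _ _ (H11.guEquiv h n g) * h.fieldU n ρ) (g := g.1) (Equiv.ext fun v => by
      change g.1.1.mulVec ((h.fieldU n ρ).1.1 v) = _
      simp [H11.QConj.fieldU, H11.fieldSim, H11.matPerm_apply])).mpr
      (rfl : h.psuBar hn hs _ = _)
  exact this

end Cfsg.Agent.S2691
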