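import Cfsg.Statements.S2703
import Mathlib
import Cfsg.Agent.H11.LGraph

set_option autoImplicit false
open Cfsg

namespace Cfsg.Agent.S2703

/-- Let T = PSL_n(F) over the field with q elements, q odd, n = 2m ≥ 4 even, and ι the inverse-transpose automorphism. Its centralizer in G = Inndiag(T) (the image of PGL_n(F)) is isomorphic to the projective conformal orthogonal group of the plus-type form Σ xᵢ yᵢ in dimension n when n(q − 1)/4 is even, and to that of a minus-type form (Σ xᵢ yᵢ + z₁² + a z₁ z₂ + b z₂² with anisotropic binary part) when n(q − 1)/4 is odd. -/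
theorem result {F : Type*} [Field F] [Fintype F] (hodd : Odd (Fintype.card F)) {n m : ℕ} (hm : 2 ≤ m) (hnm : n = 2 * m) (ι : MulAut (Matrix.ProjectiveSpecialLinearGroup (Fin n) F)) (hι : Cfsg.IsInverseTransposeAutPSL ι) :
    (Even (n * (Fintype.card F - 1) / 4) → Nonempty (↥(Cfsg.inndiagPSL n F ⊓ Subgroup.centralizer {ι}) ≃* Cfsg.PGO F (Cfsg.quadFormPlus m F))) ∧ (¬ Even (n * (Fintype.card F - 1) / 4) → ∃ a b : F, (∀ z₁ z₂ : F, z₁ ^ 2 + a * z₁ * z₂ + b * z₂ ^ 2 = 0 → z₁ = 0 ∧ z₂ = 0) ∧ Nonempty (↥(Cfsg.inndiagPSL n F ⊓ Subgroup.centralizer {ι}) ≃* Cfsg.PGO F (Cfsg.quadFormMinus (m - 1) F a b))) := by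
  have h3 := H11.two_ne_zero_iff_odd.mpr hodd
  obtain ⟨a, b, hab⟩ := H11.exists_aniso F
  obtain ⟨m, rfl⟩ : ∃ k, m = k + 1 := ⟨m - 1, by omega⟩
  obtain rfl := H10.isInverseTransposeAutPSL_iff.mp hι
  have H := (H11.lSys (F := F) (n := n) (by omega)).cent H11.lRel_invT
  have key : IsSquare ((-1 : F) ^ (m + 1)) ↔ Even (n * (Fintype.card F - 1) / 4) := by
    obtain ⟨k, hk⟩ := hodd
    rw [hk, hnm, show 2 * (m + 1) * (2 * k + 1 - 1) / 4 = (m + 1) * k from by
      rw [Nat.add_sub_cancel, mul_mul_mul_comm]; exact Nat.mul_div_cancel_left _ (by norm_num),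
      H11.isSquare_pow_iff', FiniteField.isSquare_neg_one_iff, Nat.even_mul, Nat.even_iff,
      Nat.even_iff, Nat.odd_iff]
    omega
  exact ⟨fun h => H.equiv ((H11.isQuad_plus _ F).isPSim h3)
    ((H11.similar_dot h3 hnm hab).1 (key.mpr h)), fun h => ⟨a, b, hab, H.equiv
      ((H11.isQuad_minus _ F a b).isPSim h3) ((H11.similar_dot h3 hnm hab).2 (key.not.mpr h))⟩⟩

end Cfsg.Agent.S2703
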