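import Cfsg.Statements.S2704
import Mathlib
import Cfsg.Agent.H10.AutPSL3

set_option autoImplicit false
open Cfsg

namespace Cfsg.Agent.S2704

/-- Let T = PSL_n(F) over the field F with p^f elements, n ≥ 3, and G = Inndiag(T) the image of PGL_n(F). If x is an involutory graph-field automorphism of T then f is even; x is G-conjugate to every other involutory graph-field automorphism; C_G(x) is isomorphic to the projective general unitary group PGU_n(q₀) with q₀² = p^f, realised over F itself through the Hermitian form Σ uᵢ vᵢ^{q₀}; and the G-class of x is the union of exactly gcd(n, q₀ − 1) T-classes. -/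
theorem result {F : Type*} [Field F] [Fintype F] {p f : ℕ} [Fact p.Prime] (hF : Fintype.card F = p ^ f) (hf : 1 ≤ f) {n : ℕ} (hn : 3 ≤ n) (x : MulAut (Matrix.ProjectiveSpecialLinearGroup (Fin n) F)) (hx : Cfsg.IsGraphFieldAutClassPSL x) (hx2 : orderOf x = 2) :
    Even f ∧ (∀ y : MulAut (Matrix.ProjectiveSpecialLinearGroup (Fin n) F), Cfsg.IsGraphFieldAutClassPSL y → orderOf y = 2 → Cfsg.IsConjUnder (Cfsg.inndiagPSL n F) x y) ∧ Nonempty (↥(Cfsg.inndiagPSL n F ⊓ Subgroup.centralizer {x}) ≃* Cfsg.PGU n F (p ^ (f / 2))) ∧ Cfsg.splitClassCount (Cfsg.inndiagPSL n F) (Cfsg.Inn (Matrix.ProjectiveSpecialLinearGroup (Fin n) F)) x = Nat.gcd n (p ^ (f / 2) - 1) := by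
  have hn2 : 2 ≤ n := by omega
  have := H10.normal_range_pDiag (F := F) hn2
  have hn' : 2 ≤ Fintype.card (Fin n) := by simpa using hn2
  rw [H10.inndiagPSL_eq]
  have key : ∀ y : MulAut (Matrix.ProjectiveSpecialLinearGroup (Fin n) F),
      Cfsg.IsGraphFieldAutClassPSL y → orderOf y = 2 → ∃ α σ, orderOf σ = 2 ∧
        α * y * α⁻¹ = H10.pField _ σ * H10.pInvT _ F := by
    rintro y ⟨h3, α, φ, γ, σ, hσ, h1, h2, h⟩ hy
    rw [H10.isStdFieldAutPSL_iff.1 h1, H10.isInverseTransposeAutPSL_iff.1 h2] at h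
    exact ⟨α, σ, (H10.orderOf_of_pGF h3 hσ Nat.prime_two
      (by rw [← h, H10.orderOf_conj', hy])).2, h⟩
  obtain ⟨α, σ, hσ, h⟩ := key x hx hx2
  obtain ⟨h1, h2⟩ := H10.dvd_and_card_fixS hF hσ
  refine ⟨even_iff_two_dvd.2 h1, fun y hy hy2 => ?_, ?_, ?_⟩
  · obtain ⟨β, τ, hτ, h'⟩ := key y hy hy2
    obtain rfl := H10.eq_of_orderOf_two hσ hτ
    exact H10.IsConjUnder.trans' (H10.isConjUnder_pGF hn2 σ hσ α h)
      (H10.IsConjUnder.symm' (H10.isConjUnder_pGF hn2 σ hσ β h'))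
  · obtain ⟨e⟩ := H10.nonempty_centralizer_conj (H := (H10.pDiag : GL (Fin n) F →* _).range) α x
    obtain ⟨e'⟩ := H10.centralizer_pGF_equiv hn2 hσ
    rw [h] at e
    rw [h2] at e'
    exact ⟨e.trans e'⟩
  · rw [← H10.splitClassCount_conj H10.inn_le_range_pDiag α, h, H10.splitClassCount_pGF hn' hσ, h2,
      Fintype.card_fin]

end Cfsg.Agent.S2704
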