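import Cfsg.Statements.S2705
import Mathlib
import Cfsg.Agent.H11.ULang

set_option autoImplicit false
open Cfsg

namespace Cfsg.Agent.S2705

/-- Let T = PSU_n(q) be simple (n ≥ 3, (n, q) ≠ (3, 2), q = p^f), realised over the field F with q² elements, G = Inndiag(T) the image of PGU_n(q) in Aut(T), and x a field automorphism of T (conjugate to a standard field automorphism of odd order) of odd prime order r. Then r divides f; C_G(x) is isomorphic to PGU_n(q₀) with q₀ = p^(f/r), realised over a field F₀ with q₀² elements; and the G-class of x is the union of exactly gcd(n, (q + 1)/(q₀ + 1)) T-classes. -/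
theorem result {F : Type*} [Field F] [Fintype F] {p f q : ℕ} [Fact p.Prime] (hq : q = p ^ f) (hf : 1 ≤ f) (hF : Fintype.card F = q ^ 2) {n : ℕ} (hn : 3 ≤ n) (hs : ¬ (n = 3 ∧ q = 2)) (x : MulAut (Cfsg.PSU n F q)) (hx : Cfsg.IsFieldAutClassPSU x) {r : ℕ} (hr : r.Prime) (hro : Odd r) (hxr : orderOf x = r) (F₀ : Type*) [Field F₀] [Fintype F₀] (hF₀ : Fintype.card F₀ = p ^ (2 * (f / r))) :
    r ∣ f ∧ Nonempty (↥(Cfsg.inndiagPSU n F q ⊓ Subgroup.centralizer {x}) ≃* Cfsg.PGU n F₀ (p ^ (f / r))) ∧ Cfsg.splitClassCount (Cfsg.inndiagPSU n F q) (Cfsg.Inn (Cfsg.PSU n F q)) x = Nat.gcd n ((q + 1) / (p ^ (f / r) + 1)) := by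
  have hc := H11.qConj_conjQ hF
  obtain ⟨α, ρ, h1, h2, -, e⟩ := hc.of_fieldClass hn hs hx hr hxr
  obtain ⟨h3, h4⟩ := H11.exists_subfieldU (hq ▸ hF) h2 hro
  have hF₀' : Fintype.card F₀ = (p ^ (f / r)) ^ 2 := by rw [hF₀, ← pow_mul, mul_comm]
  obtain ⟨j, hj⟩ := H10.exists_ringHom_fixS ρ F₀ (by rw [h4, Nat.card_eq_fintype_card, hF₀'])
  have hc₀ := H11.qConj_conjQ hF₀'
  have hσ := hc.map_conj hc₀ (by rw [← pow_mul, Nat.div_mul_cancel h3, hq]) hro j
  have := hc.normal_range hn hs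
  rw [hc.inndiagPSU_eq hn hs]
  obtain ⟨⟨e1⟩, e2⟩ := H11.transport_conj (H := ((hc.psuBar hn hs).comp (H11.ofIsom _ _)).range)
    (K := Inn _) H11.inn_le_range_matBar e
  obtain ⟨e3⟩ := hc.centralizer_equiv hn hs hc₀ hσ hj
  exact ⟨h3, ⟨e1.trans e3⟩, e2.trans (hc.splitClassCount_eq hn hs hc₀ hσ hj)⟩

end Cfsg.Agent.S2705
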