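import Cfsg.Statements.S2710
import Mathlib
import Cfsg.Agent.H11.UGraph

set_option autoImplicit false
open Cfsg

namespace Cfsg.Agent.S2710

/-- Let T = PSU_n(q) with n ≥ 4 divisible by 4 (n = 2m) and q odd, realised over the field F with q² elements, G = Inndiag(T) the image of PGU_n(q), and φ the standard field automorphism of T attached to the q-th power map of F (it induces inverse-transpose on the unitary matrices and is a graph automorphism). Its centralizer in G is isomorphic to the projective conformal orthogonal group of the plus-type form Σ xᵢ yᵢ in dimension n over a field F₀ with q elements. (Dimensions n ≡ 2 (mod 4) are not covered.) -/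
theorem result {F : Type*} [Field F] [Fintype F] {q : ℕ} (hodd : Odd q) (hF : Fintype.card F = q ^ 2) {n m : ℕ} (hm : 2 ≤ m) (hnm : n = 2 * m) (h4 : 4 ∣ n) (F₀ : Type*) [Field F₀] [Fintype F₀] (hF₀ : Fintype.card F₀ = q) (σ : F ≃+* F) (hσ : ∀ a : F, σ a = a ^ q) (φ : MulAut (Cfsg.PSU n F q)) (hφ : Cfsg.IsFieldAutPSUOf σ φ) :
    Nonempty (↥(Cfsg.inndiagPSU n F q ⊓ Subgroup.centralizer {φ}) ≃* Cfsg.PGO F₀ (Cfsg.quadFormPlus m F₀)) := by
  have hc := H11.qConj_conjQ hF
  obtain ⟨ρ, j, h1, h2, hj⟩ := hc.exists_fix F₀ hF₀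
  obtain rfl : σ = ρ := RingEquiv.ext fun a => by rw [hσ, h2, H11.conjQ_apply]
  have hn : 3 ≤ n := by omega
  have hs : ¬ (n = 3 ∧ q = 2) := by omega
  have h3 := H11.two_ne_zero_iff_odd.mpr (hF₀ ▸ hodd)
  obtain ⟨a, b, hab⟩ := H11.exists_aniso F₀
  obtain ⟨m, rfl⟩ : ∃ k, m = k + 1 := ⟨m - 1, by omega⟩
  rw [(hc.isFieldAut_iff hn hs).mp hφ]
  exact ((hc.gSys hn hs h1 h2 hj).cent (hc.gRel_field hn hs h1 h2 hj)).equiv
    ((H11.isQuad_plus _ F₀).isPSim h3) ((H11.similar_dot h3 hnm hab).1 (by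
      rw [Even.neg_one_pow (even_iff_two_dvd.mpr (by omega))]; exact IsSquare.one))

end Cfsg.Agent.S2710
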