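import Cfsg.Statements.S2712
import Mathlib
import Cfsg.Agent.H10.AutPSp2

set_option autoImplicit false
open Cfsg

namespace Cfsg.Agent.S2712

/-- Let T = PSp_{2m}(F) be simple over the field F with p^f elements (m ≥ 2, (2m, |F|) ≠ (4, 2)), G = Inndiag(T) the image of the projective conformal symplectic group PGSp_{2m}(F), and x a field automorphism of T of prime order r. Then r divides f; C_G(x) is isomorphic to PGSp_{2m}(F₀) for a field F₀ with p^(f/r) elements; and the G-class of x is the union of exactly gcd(gcd(2, p^f − 1), r) T-classes. -/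
theorem result {F : Type*} [Field F] [Fintype F] {p f : ℕ} [Fact p.Prime] (hF : Fintype.card F = p ^ f) (hf : 1 ≤ f) {m : ℕ} (hm : 2 ≤ m) (hs : m = 2 → 3 ≤ Fintype.card F) (x : MulAut (Cfsg.PSp m F)) (hx : Cfsg.IsFieldAutClassPSp x) {r : ℕ} (hr : r.Prime) (hxr : orderOf x = r) (F₀ : Type*) [Field F₀] [Fintype F₀] (hF₀ : Fintype.card F₀ = p ^ (f / r)) :
    r ∣ f ∧ Nonempty (↥(Cfsg.inndiagPSp m F ⊓ Subgroup.centralizer {x}) ≃* Cfsg.PGSp m F₀) ∧ Cfsg.splitClassCount (Cfsg.inndiagPSp m F) (Cfsg.Inn (Cfsg.PSp m F)) x = Nat.gcd (Nat.gcd 2 (p ^ f - 1)) r := by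
  have := H10.normal_range_qDiag (F := F) hm
  have : NeZero m := ⟨by omega⟩
  rw [H10.inndiagPSp_eq]
  obtain ⟨α, σ, -, h⟩ := hx
  rw [H10.isStdFieldAutPSp_iff] at h
  have h0 : orderOf σ = r := by
    rw [← H10.orderOf_qField (m := m) (by omega), ← h, H10.orderOf_conj', hxr]
  obtain ⟨h1, h2⟩ := H10.dvd_and_card_fixS hF h0
  refine ⟨h1, ?_, ?_⟩
  · obtain ⟨e⟩ := H10.nonempty_centralizer_conj (H := (H10.qDiag : Cfsg.GSp m F →* _).range) α x
    obtain ⟨e'⟩ := H10.centralizer_qField_equiv (m := m) σ F₀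
      (by rw [h2, Nat.card_eq_fintype_card, hF₀])
    rw [h] at e
    exact ⟨e.trans e'⟩
  · rw [← H10.splitClassCount_conj H10.inn_le_range_qDiag α, h, H10.splitClassCount_qField, ← hF,
      ← Nat.card_eq_fintype_card, ← H10.card_fixS_pow σ, h0,
      H10.gcd_two_geom Finite.one_lt_card hr.pos]

end Cfsg.Agent.S2712
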