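import Cfsg.Statements.S2714
import Mathlib
import Cfsg.Agent.H11.OLang2

set_option autoImplicit false
open Cfsg

namespace Cfsg.Agent.S2714

/-- Let T = Ω_{2m+1}(F) (m ≥ 3, |F| = p^f odd; realised as PΩ of the form x₀² + Σ xᵢ yᵢ), G = Inndiag(T) the image of the conformal orthogonal group in Aut(T), and x a field automorphism of T of prime order r. Then r divides f; C_G(x) is isomorphic to Inndiag(Ω_{2m+1}(F₀)) for a field F₀ with p^(f/r) elements; and the G-class of x is a single T-class when r is odd and the union of exactly two T-classes when r = 2. -/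
theorem result {F : Type*} [Field F] [Fintype F] {p f : ℕ} [Fact p.Prime] (hF : Fintype.card F = p ^ f) (hf : 1 ≤ f) (hodd : Odd (Fintype.card F)) {m : ℕ} (hm : 3 ≤ m) (x : MulAut (Cfsg.POmega F (Cfsg.quadFormOdd m F))) (hx : Cfsg.IsFieldAutClassPOmega (Cfsg.quadFormOdd m F) x) {r : ℕ} (hr : r.Prime) (hxr : orderOf x = r) (F₀ : Type*) [Field F₀] [Fintype F₀] (hF₀ : Fintype.card F₀ = p ^ (f / r)) :
    r ∣ f ∧ Nonempty (↥(Cfsg.inndiagPOmegaOdd m F ⊓ Subgroup.centralizer {x}) ≃* ↥(Cfsg.inndiagPOmegaOdd m F₀)) ∧ (Odd r → Cfsg.splitClassCount (Cfsg.inndiagPOmegaOdd m F) (Cfsg.Inn (Cfsg.POmega F (Cfsg.quadFormOdd m F))) x = 1) ∧ (r = 2 → Cfsg.splitClassCount (Cfsg.inndiagPOmegaOdd m F) (Cfsg.Inn (Cfsg.POmega F (Cfsg.quadFormOdd m F))) x = 2) := by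
  have h2 := H11.two_ne_zero_of_odd_card hodd
  have h := H11.isQuad_odd m F
  have hB := H11.bOdd_sep m h2
  have hn : 5 ≤ Fintype.card (Unit ⊕ (Fin m ⊕ Fin m)) := by simp; omega
  obtain ⟨α, ρ, h1, e⟩ := h.of_fieldClass (H11.field_odd _) hx
  have h3 : orderOf ρ = r := h.orderOf_field (fun _ => h.oBar_eq_one hB hn)
    (γ := h.fieldHom (H11.field_odd _) ρ) h1 hr (by rw [← e, conj_pow, ← hxr]; simp)
  obtain ⟨h4, j, hj⟩ := H11.exists_subfield hF h3 F₀ hF₀
  have h₀ := H11.isQuad_odd m F₀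
  have H := h₀.rform_coord h (j := j) (by simp [quadFormOdd])
  obtain ⟨⟨e1⟩, e2⟩ := H.cent_split h h₀ hB hn (γ := h.fieldHom (H11.field_odd _) ρ) hj (fun x => by
    rw [h.fieldHom_apply]; exact funext fun i => (hj _).mpr ⟨_, rfl⟩) (S := ⊤) (fun _ => trivial)
    fun _ _ => trivial
  have : (inndiagPOmegaOdd m F).Normal :=
    (show inndiagPOmegaOdd m F = _ from h.pgoAut_eq) ▸
      Subgroup.Normal.map inferInstance _ (H11.oBar_surjective_odd h2 hm)
  obtain ⟨⟨e3⟩, e4⟩ := H11.transport_conj (H := inndiagPOmegaOdd m F) (K := Inn _)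
    (by rw [H11.inndiagOdd_eq]; exact h.inn_le hB hn (fun _ => trivial) fun _ _ => trivial) e
  rw [e4, H11.inndiagOdd_eq (F := F₀)]
  rw [H11.inndiagOdd_eq (F := F)] at e3 ⊢
  rw [e2]
  have hω := h.isOut hB hn
  have ho : Odd (Module.finrank F (Unit ⊕ (Fin m ⊕ Fin m) → F)) := ⟨m, by simp; ring⟩
  exact ⟨h4, ⟨e3.trans e1⟩, fun hr => H.relIndex_odd_odd hB hω hj (h3 ▸ hr) ho (by simp; omega),
    fun hr => H.relIndex_odd_even hB hω hj (by simp [h3, hr]) h2 ho (by simp; omega)⟩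

end Cfsg.Agent.S2714
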