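import Cfsg.Statements.S2716
import Mathlib
import Cfsg.Agent.H11.OLang2

set_option autoImplicit false
open Cfsg

namespace Cfsg.Agent.S2716

/-- Let T = PΩ⁻_{2m+2}(F) (m ≥ 3, |F| = p^f; the form Σ xᵢ yᵢ + z₁² + a z₁ z₂ + b z₂² with anisotropic binary part), G = Inndiag(T), and x a field automorphism of T of prime order r. Then r is odd and divides f; C_G(x) is isomorphic to Inndiag(PΩ⁻_{2m+2}(F₀)) for a field F₀ with p^(f/r) elements and some anisotropic binary part over F₀; and the G-class of x is a single T-class. -/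
theorem result {F : Type*} [Field F] [Fintype F] {p f : ℕ} [Fact p.Prime] (hF : Fintype.card F = p ^ f) (hf : 1 ≤ f) {m : ℕ} (hm : 3 ≤ m) (a b : F) (hab : (∀ z₁ z₂ : F, z₁ ^ 2 + a * z₁ * z₂ + b * z₂ ^ 2 = 0 → z₁ = 0 ∧ z₂ = 0)) (x : MulAut (Cfsg.POmega F (Cfsg.quadFormMinus m F a b))) (hx : Cfsg.IsFieldAutClassPOmegaMinus m x) {r : ℕ} (hr : r.Prime) (hxr : orderOf x = r) (F₀ : Type*) [Field F₀] [Fintype F₀] (hF₀ : Fintype.card F₀ = p ^ (f / r)) :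
    Odd r ∧ r ∣ f ∧ (∃ a₀ b₀ : F₀, (∀ z₁ z₂ : F₀, z₁ ^ 2 + a₀ * z₁ * z₂ + b₀ * z₂ ^ 2 = 0 → z₁ = 0 ∧ z₂ = 0) ∧ Nonempty (↥(Cfsg.inndiagPOmegaMinus m F a b ⊓ Subgroup.centralizer {x}) ≃* ↥(Cfsg.inndiagPOmegaMinus m F₀ a₀ b₀))) ∧ Cfsg.splitClassCount (Cfsg.inndiagPOmegaMinus m F a b) (Cfsg.Inn (Cfsg.POmega F (Cfsg.quadFormMinus m F a b))) x = 1 := by
  have h := H11.isQuad_minus m F a b
  have hB := H11.bMinus_sep m hab
  have hn : 5 ≤ Fintype.card ((Fin m ⊕ Fin m) ⊕ Fin 2) := by simp; omega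
  have hΦ := fun γ => h.oBar_eq_one hB hn (γ := γ)
  obtain ⟨ho, γ, h1, rfl⟩ := H11.of_fieldClassMinus hm hab hx hr hxr
  have hk : h.oBar γ ^ r = 1 := hxr ▸ pow_orderOf_eq_one _
  have h3 := h.orderOf_field hΦ h1 hr hk
  obtain ⟨h4, j, hj⟩ := H11.exists_subfield hF h3 F₀ hF₀
  obtain ⟨c, t, μ, B₀, Q₀, H, ht⟩ := h.exists_rform hB hΦ h1 hr (by simp) hk hj
  obtain ⟨a₀, b₀, hab₀⟩ := H11.exists_aniso F₀
  have h₀ := H11.isQuad_minus m F₀ a₀ b₀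
  have hB₀ := H11.bMinus_sep m hab₀
  obtain ⟨e, H'⟩ := H.exists_std h hB h₀ hB₀ (by rw [H11.finrank_minus]; simp) (by simp)
    (((H.isQuad h).wittIdx_even_cases (H.sep₀ hB) (H11.finrank_minus m)).resolve_left fun hν => by
      have := h.wittIdx_unique hB (H.wittIdx h (H.isQuad h) hB (H11.finrank_minus m) hν)
        (H11.wittIdx_minus m hab)
      omega) (H11.wittIdx_minus m hab₀)
  obtain ⟨⟨e1⟩, e2⟩ := H'.cent_split h h₀ hB hn (γ := h.semiScal c * γ) hj (fun x => ht _)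
    (S := (h.dP hB (H11.finrank_minus m)).ker) (fun _ => h.dP_scal rfl)
    fun g hg => (h.dP_isom rfl).mpr hg
  rw [map_mul, (hΦ _).mpr ⟨c, rfl⟩, one_mul] at e1 e2
  rw [H'.comap_dP h₀ hB₀ (h₀.nonExc_of_finrank hB₀ (by simp; omega)) (H11.finrank_minus m)] at e1
  rw [H11.inndiagMinus_eq (by omega) hab]
  exact ⟨ho, h4, ⟨a₀, b₀, hab₀, by rw [H11.inndiagMinus_eq (by omega) hab₀]; exact ⟨e1⟩⟩,
    e2.trans (H'.relIndex_even_odd hB (h.isOut hB hn) hj (Or.inl (h3 ▸ ho)) _ (by simp; omega))⟩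

end Cfsg.Agent.S2716
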