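import Cfsg.Statements.S2717
import Mathlib
import Cfsg.Agent.H11.OLang2

set_option autoImplicit false
open Cfsg

namespace Cfsg.Agent.S2717

/-- Let T = PΩ⁺_{2m}(F) with m ≥ 5 (dimension 2m ≠ 8) and |F| = p^f, G = Inndiag(T), and x an involutory graph-field automorphism of T. Then f is even; any two involutory graph-field automorphisms of T are G-conjugate; C_G(x) is isomorphic to Inndiag(PΩ⁻_{2m}(F₀)) for a field F₀ with p^(f/2) elements (some anisotropic binary part over F₀); and the G-class of x is the union of exactly c T-classes with c = 1 if p = 2, c = 4 if p is odd, m is odd and p^(f/2) ≡ 1 (mod 4), and c = 2 otherwise. -/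
theorem result {F : Type*} [Field F] [Fintype F] {p f : ℕ} [Fact p.Prime] (hF : Fintype.card F = p ^ f) (hf : 1 ≤ f) {m : ℕ} (hm : 5 ≤ m) (x : MulAut (Cfsg.POmega F (Cfsg.quadFormPlus m F))) (hx : Cfsg.IsGraphFieldAutClassPOmegaPlus m x) (hx2 : orderOf x = 2) (F₀ : Type*) [Field F₀] [Fintype F₀] (hF₀ : Fintype.card F₀ = p ^ (f / 2)) :
    Even f ∧ (∀ y : MulAut (Cfsg.POmega F (Cfsg.quadFormPlus m F)), Cfsg.IsGraphFieldAutClassPOmegaPlus m y → orderOf y = 2 → Cfsg.IsConjUnder (Cfsg.inndiagPOmegaPlus m F) x y) ∧ (∃ a₀ b₀ : F₀, (∀ z₁ z₂ : F₀, z₁ ^ 2 + a₀ * z₁ * z₂ + b₀ * z₂ ^ 2 = 0 → z₁ = 0 ∧ z₂ = 0) ∧ Nonempty (↥(Cfsg.inndiagPOmegaPlus m F ⊓ Subgroup.centralizer {x}) ≃* ↥(Cfsg.inndiagPOmegaMinus (m - 1) F₀ a₀ b₀))) ∧ (p = 2 → Cfsg.splitClassCount (Cfsg.inndiagPOmegaPlus m F) (Cfsg.Inn (Cfsg.POmega F (Cfsg.quadFormPlus m F))) x = 1) ∧ ((p ≠ 2 ∧ Odd m ∧ p ^ (f / 2) % 4 = 1) → Cfsg.splitClassCount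 (Cfsg.inndiagPOmegaPlus m F) (Cfsg.Inn (Cfsg.POmega F (Cfsg.quadFormPlus m F))) x = 4) ∧ ((p ≠ 2 ∧ ¬ (Odd m ∧ p ^ (f / 2) % 4 = 1)) → Cfsg.splitClassCount (Cfsg.inndiagPOmegaPlus m F) (Cfsg.Inn (Cfsg.POmega F (Cfsg.quadFormPlus m F))) x = 2) := by
  obtain ⟨m, rfl⟩ : ∃ k, m = k + 1 := ⟨m - 1, by omega⟩
  have h := H11.isQuad_plus (m + 1) F
  have hB := H11.bPlus_sep (m + 1) F
  have hn : 5 ≤ Fintype.card (Fin (m + 1) ⊕ Fin (m + 1)) := by simp; omega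
  have hΦ := fun γ => h.oBar_eq_one hB hn (γ := γ)
  have hex := h.nonExc_of_finrank hB (by simp; omega)
  have hz : ∀ {a b : Multiplicative (ZMod 2)}, a ≠ 1 → b ≠ 1 → a = b := by decide
  obtain ⟨γ, rfl, h3, h1⟩ := H11.graphField_data (by omega) hex hx hx2
  have h0 : γ.1.2 ≠ 1 := fun h0 => by simp [h0] at h3
  obtain ⟨h4, j, hj⟩ := H11.exists_subfield hF h3 F₀ hF₀
  let v : Fin (m + 1) ⊕ Fin (m + 1) → F := Sum.elim (Pi.single 0 1) (Pi.single 0 (-1))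
  have hv : quadFormPlus (m + 1) F v = -1 := by simp [v, quadFormPlus, Pi.single_apply]
  let φ := h.fieldHom (H11.field_plus _) γ.1.2
  let r := H11.ofIsom _ _ (h.reflO v)
  have hc : Commute r φ := by
    have := H11.ofIsom_semiConj φ (h.reflO v)
    rwa [h.semiConj_reflO, show φ.1.1 v = v by
      rw [h.fieldHom_apply]; ext (i | i) <;> simp [v, Pi.single_apply, apply_ite γ.1.2],
      eq_mul_inv_iff_mul_eq] at this
  have hk : h.oBar (r * φ) ^ 2 = 1 := by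
    rw [← map_pow, hc.mul_pow, ← map_pow, ← map_pow, sq, h.reflO_mul_self, ← h3]; simp
  have h5 := h.cls_refl hB (H11.finrank_plus _) hex (H11.field_plus _) (v := v) (by simp [hv]) γ.1.2
  obtain ⟨α, -, e⟩ := h.conj_of_cls hB _ hex _ hΦ h0 (γ' := r * φ) (one_mul _) (hz h5 h1)
    Nat.prime_two hx2 (orderOf_eq_prime hk fun h6 => h0 (by
      obtain ⟨a, ha⟩ := (hΦ _).mp h6
      exact congrArg (fun γ : H11.SemiSim _ _ => γ.1.2) ha))
  obtain ⟨c, t, μ, B₀, Q₀, H, ht⟩ := h.exists_rform hB hΦ (γ := r * φ) h0 Nat.prime_two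
    (by simp; omega) hk hj
  obtain ⟨a₀, b₀, hab₀⟩ := H11.exists_aniso F₀
  have h₀ := H11.isQuad_minus m F₀ a₀ b₀
  have hB₀ := H11.bMinus_sep m hab₀
  obtain ⟨e₀, H'⟩ := H.exists_std h hB h₀ hB₀ (by rw [H11.finrank_plus]; simp) (by simp; ring)
    (((H.isQuad h).wittIdx_even_cases (H.sep₀ hB) (H11.finrank_plus _)).resolve_left fun hν => by
      have := (((H11.isQuad_plus (m + 1) F₀).rform_coord h (j := j)
        (by simp [quadFormPlus])).exists_conj_of_wittIdx h hB (H11.finrank_plus _) hex (γ := φ)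
        (fun x => by rw [h.fieldHom_apply]; exact funext fun i => (hj _).mpr ⟨_, rfl⟩) H
        (δ := ⟨h.semiScal c * r, rfl⟩) (by rw [mul_assoc]; exact ht) (iff_of_true (H11.wittIdx_plus _ _) hν)).1
      rw [h.dP_scal_mul rfl, h.dick_reflO hB (by simp [hv])] at this
      exact absurd this (by decide)) (H11.wittIdx_minus m hab₀)
  have hS : ∀ g : H11.Isom _ _, H11.dick g.1 = 0 → ⟨H11.ofIsom _ _ g, rfl⟩ ∈
      (h.dP hB (H11.finrank_plus _)).ker := fun g hg => (h.dP_isom rfl).mpr hg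
  obtain ⟨⟨e1⟩, e2⟩ := H'.cent_split h h₀ hB hn (γ := h.semiScal c * (r * φ)) hj (fun x => ht _)
    (fun _ => h.dP_scal rfl) hS
  rw [map_mul, (hΦ _).mpr ⟨c, rfl⟩, one_mul] at e1 e2
  rw [H'.comap_dP h₀ hB₀ (h₀.nonExc_of_finrank hB₀ (by simp; omega)) (H11.finrank_minus m)] at e1
  have := h.normal_map (hB := hB) (hn := H11.finrank_plus _) (H11.oBar_surjective_plus hm) hex
  obtain ⟨⟨e3⟩, e4⟩ := H11.transport_conj (h.inn_le hB hn (fun _ => h.dP_scal rfl) hS) e.symm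
  have hω := h.isOut hB hn
  rw [H11.inndiagPlus_eq (by omega), e4, e2]
  refine ⟨even_iff_two_dvd.mpr h4, fun y hy hy2 => ?_, ⟨a₀, b₀, hab₀, ⟨e3.trans (e1.trans
    (MulEquiv.subgroupCongr (H11.inndiagMinus_eq (by omega) hab₀).symm))⟩⟩, fun hp =>
      H'.relIndex_even_odd hB hω hj (Or.inr ((H11.two_eq_zero_iff hF).mpr hp)) _ (by simp; omega), ?_⟩
  · obtain ⟨γ', rfl, h6, h7⟩ := H11.graphField_data (by omega) hex hy hy2
    exact h.conj_of_cls hB _ hex _ hΦ h0 (H10.eq_of_orderOf_two h6 h3) (hz h7 h1) Nat.prime_two hx2 hy2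
  by_cases hp : p = 2
  · exact ⟨fun H => absurd hp H.1, fun H => absurd hp H.1⟩
  have h2 := (H11.two_eq_zero_iff hF).not.mpr hp
  obtain ⟨⟨a, ha0, ha, ha'⟩, b, hb, hb'⟩ := H11.exists_anti hj h3 h2
  have hb0 : b ≠ 0 := by rintro rfl; simp at hb
  obtain ⟨g, h6, h7, h8⟩ := H11.exists_diag_plus h2 (Fin.cons b fun _ : Fin m => a)
    (Fin.forall_fin_succ.mpr ⟨hb0, fun _ => ha0⟩)
  obtain ⟨δ, hδ⟩ := H11.exists_goodSim_plus h2 m
  have he : Even (orderOf γ.1.2) := by simp [h3]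
  have hb2 : γ.1.2 b = -b⁻¹ := by field_simp; linear_combination hb
  rw [H'.map_eq_zpowers hB hω (γ := h.semiScal c * (r * φ)) hj (fun x => ht _) he h2 _ h7 fun x => by
    change (c : F) • (h.reflO v).1 (φ.1.1 _) = -g.1 ((c : F) • (h.reflO v).1 (φ.1.1 _))
    rw [map_smul, ← smul_neg, h.reflO_apply, h.reflO_apply, h.fieldHom_apply, h.fieldHom_apply, hv]
    congr 1
    ext (i | i) <;> refine Fin.cases ?_ (fun i => ?_) i <;>
      simp [h6, v, H11.bPlus_apply, Pi.single_apply, ha, hb2, Finset.sum_add_distrib]]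
  have := hω.relIndex_zpowers hB h2 _ hδ (H11.negI_mem_plus_of_even he h2 _) h7
  have h9 : IsSquare (b * a ^ m) ↔ Odd (m + 1) ∧ p ^ (f / 2) % 4 = 1 := by
    rw [hF₀] at ha' hb'
    rw [Nat.odd_add_one]
    by_cases h9 : IsSquare b
    · rw [H11.isSquare_mul_iff_of_isSquare hb0 h9, H11.isSquare_pow_iff', ha', hb'.mp h9]
      simp
    · rw [mul_comm, H11.isSquare_mul_iff_of_isSquare (pow_ne_zero _ ha0) (IsSquare.pow _ (ha'.mpr (hb'.not.mp h9)))]
      simp [h9, hb'.not.mp h9]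
  rw [Fin.prod_cons, Finset.prod_const, Finset.card_univ, Fintype.card_fin, h9] at h8
  exact ⟨fun H => this.1 (h8.mpr H.2), fun H => this.2 (h8.not.mpr H.2)⟩

end Cfsg.Agent.S2717
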