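import Cfsg.Statements.S2718
import Mathlib
import Cfsg.Agent.H11.Graf2

set_option autoImplicit false
open Cfsg

namespace Cfsg.Agent.S2718

/-- Let T = PΩ⁺_{2m}(F) with m ≥ 4 and |F| = q odd, G = Inndiag(T), and γ an involutory graph automorphism of T induced by a similarity (one interchanging the two classes of maximal totally singular subspaces). Then the G-class of γ is either a single T-class or the union of exactly two T-classes, and it is the union of two unless m is odd and q ≡ 3 (mod 4). -/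
theorem result {F : Type*} [Field F] [Fintype F] (hodd : Odd (Fintype.card F)) {m : ℕ} (hm : 4 ≤ m) (γ : MulAut (Cfsg.POmega F (Cfsg.quadFormPlus m F))) (hγ : Cfsg.IsSimilarityGraphAutPOmegaPlus m γ) (hγ2 : orderOf γ = 2) :
    (Cfsg.splitClassCount (Cfsg.inndiagPOmegaPlus m F) (Cfsg.Inn (Cfsg.POmega F (Cfsg.quadFormPlus m F))) γ = 1 ∨ Cfsg.splitClassCount (Cfsg.inndiagPOmegaPlus m F) (Cfsg.Inn (Cfsg.POmega F (Cfsg.quadFormPlus m F))) γ = 2) ∧ (¬ (Odd m ∧ Fintype.card F % 4 = 3) → Cfsg.splitClassCount (Cfsg.inndiagPOmegaPlus m F) (Cfsg.Inn (Cfsg.POmega F (Cfsg.quadFormPlus m F))) γ = 2) := by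
  obtain ⟨m, rfl⟩ : ∃ k, m = k + 1 := ⟨m - 1, by omega⟩
  have h2 := H11.two_ne_zero_of_odd_card hodd
  have h := H11.isQuad_plus (m + 1) F
  obtain ⟨δ, hδ⟩ := H11.exists_goodSim_plus h2 m
  obtain ⟨g, h4, h5, h6⟩ := hγ
  obtain ⟨c, hc⟩ := h4
  obtain ⟨γ', h7, h8⟩ := h.exists_semiSim_of_pair (g := g) (ρ := 1) c.ne_zero hc
  rw [H11.IsQuad.refl_eq_one, h.induced_iff h7 h8] at h6
  rw [H11.preserves_plus (γ := ⟨γ', h7⟩) (by omega) fun v => by
    rw [H11.simLin_apply, h8]; rfl, h.dP_eq_dS h2] at h5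
  rw [h6] at hγ2 ⊢
  rw [H11.inndiagPlus_eq (by omega), h.dP_eq_dS h2]
  have := h.split_graph _ h2 (by simp; omega) hδ h5 hγ2 rfl
  exact ⟨this.1, fun H => this.2 (.inl ((H11.negI_mem_plus h2 _).mpr H))⟩

end Cfsg.Agent.S2718
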