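import Cfsg.Statements.S2725
import Mathlib
import Cfsg.Agent.H11.OInn

set_option autoImplicit false
open Cfsg

namespace Cfsg.Agent.S2725

/-- Let T = PΩ⁺_{2m}(F) with m ≥ 4 and |F| = q odd. The inner-diagonal group G = Inndiag(T) (image of the class-preserving similarities) taken modulo the inner automorphism group T is cyclic of order 2 when m is odd and q ≡ 3 (mod 4), cyclic of order 4 when m is odd and q ≡ 1 (mod 4), and elementary abelian of order 4 when m is even. -/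
theorem result {F : Type*} [Field F] [Fintype F] (hodd : Odd (Fintype.card F)) {m : ℕ} (hm : 4 ≤ m) :
    ((Odd m ∧ Fintype.card F % 4 = 3) → (∃ φ : ↥(Cfsg.inndiagPOmegaPlus m F) →* Multiplicative (ZMod 2), Function.Surjective φ ∧ φ.ker = (Cfsg.Inn (Cfsg.POmega F (Cfsg.quadFormPlus m F))).subgroupOf (Cfsg.inndiagPOmegaPlus m F))) ∧ ((Odd m ∧ Fintype.card F % 4 = 1) → (∃ φ : ↥(Cfsg.inndiagPOmegaPlus m F) →* Multiplicative (ZMod 4), Function.Surjective φ ∧ φ.ker = (Cfsg.Inn (Cfsg.POmega F (Cfsg.quadFormPlus m F))).subgroupOf (Cfsg.inndiagPOmegaPlus m F))) ∧ (Even m → (∃ φ : ↥(Cfsg.inndiagPOmegaPlus m F) →* Multiplicative (ZMod 2 × ZMod 2), Function.Surjective φ ∧ φ.ker = (Cfsg.Inn (Cfsg.POmega F (Cfsg.quadFormPlus m F))).subgroupOf (Cfsg.inndiagPOmegaPlus m F))) := by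
  obtain ⟨m, rfl⟩ : ∃ k, m = k + 1 := ⟨m - 1, by omega⟩
  have h2 := H11.two_ne_zero_of_odd_card hodd
  obtain ⟨δ, hδ⟩ := H11.exists_goodSim_plus h2 m
  have hω := (H11.isQuad_plus (m + 1) F).isOut (H11.bPlus_sep _ F) (by simp; omega)
  have h3 := H11.negI_mem_plus h2 (m + 1)
  rw [H11.inndiagPlus_eq (by omega), (H11.isQuad_plus _ F).dP_eq_dS h2]
  exact ⟨fun H => H11.exists_hom_of_out _ _ (hω.map_dS_two _ h2 _ hδ (by simp [h3, H])),
    fun H => H11.exists_hom_of_out _ _ (hω.map_dS_four _ h2 _ hδ (h3.mpr (by omega))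
      (by simpa [Nat.odd_add_one] using H.1)),
    fun H => H11.exists_hom_of_out _ _ (hω.map_dS_klein _ h2 _ hδ (by simp [h3, H])
      (by simpa [Nat.even_add_one] using H))⟩

end Cfsg.Agent.S2725
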