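import Cfsg.Statements.S2734
import Mathlib
import Cfsg.Agent.H12.Fix2

set_option autoImplicit false
open Cfsg

namespace Cfsg.Agent.S2734

open Cfsg.Agent.H12

/-- In the Chevalley group of type D₄ over a finite field F (the matrix group generated by the root elements), a graph automorphism attached to a symmetry π of the Dynkin diagram (sending each fundamental root element x_p(t) to x_{π(p)}(t) and each x_{−p}(t) to x_{−π(p)}(t)) that has order 3 — a standard triality graph automorphism, π being a 3-cycle of the three outer nodes — has fixed-point subgroup isomorphic to the Chevalley group of type G₂ over F. -/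
theorem result {F : Type*} [Field F] [Fintype F] (τ : MulAut ↥(Cfsg.Lie.chevD4.group F)) (hτ : Cfsg.Lie.chevD4.IsGraphAut τ) (hτ3 : orderOf τ = 3) :
    Nonempty (↥(MonoidHom.eqLocus τ.toMonoidHom (MonoidHom.id ↥(Cfsg.Lie.chevD4.group F))) ≃* ↥(Cfsg.Lie.chevG2.group F)) := by
  obtain ⟨π, h2, h3⟩ := isGraphAut_iff.1 hτ
  have h4 : ∀ i t, τ ((grpSt _ F).x ((rsOf _).simple i) t) = (grpSt _ F).x ((rsOf _).simple (π i)) t ∧
      τ ((grpSt _ F).x ((rsOf _).neg ((rsOf _).simple i)) t) =
        (grpSt _ F).x ((rsOf _).neg ((rsOf _).simple (π i))) t := fun i t => by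
    simpa only [graphExp_D4 _ (Fin.is_lt _) (Fin.is_lt _), pow_one] using h3 i t
  have h5 : (∀ i, π (π i) = i) → False := fun h => by
    have : τ ^ 2 = 1 := grp_aut_ext (fun i t => by simp [sq, h4, h]) fun i t => by simp [sq, h4, h]
    exact absurd (orderOf_dvd_of_pow_eq_one this) (by rw [hτ3]; decide)
  have h6 : ∀ α : MulAut (Lie.chevD4.group F), IsGr _ F α symD4a →
      Nonempty (α.toMonoidHom.eqLocus (MonoidHom.id _) ≃* Lie.chevG2.group F) := fun α h => by
    obtain ⟨e, h4, -, h5⟩ := exists_fix_D4 h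
    exact ⟨(MulEquiv.subgroupCongr h5).symm.trans (MonoidHom.ofInjective h4).symm⟩
  rcases symm_D4 h2 with rfl | rfl | rfl | rfl | rfl | rfl
  · exact (h5 fun _ => rfl).elim
  · exact (h5 (by decide +kernel)).elim
  · exact (h5 (by decide +kernel)).elim
  · exact h6 τ h3
  · have e : ∀ i, symD4b (symD4a i) = i := by decide +kernel
    obtain ⟨f⟩ := h6 τ.symm fun i t => by
      simp only [graphExp_D4 _ (Fin.is_lt _) (Fin.is_lt _), pow_one, MulEquiv.symm_apply_eq, h4, e,
        and_self]
    exact ⟨(MulEquiv.subgroupCongr (Subgroup.ext fun g =>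
      eq_comm.trans (MulEquiv.symm_apply_eq τ).symm)).trans f⟩
  · exact (h5 (by decide +kernel)).elim

end Cfsg.Agent.S2734
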