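import Cfsg.Statements.S2736
import Mathlib
import Cfsg.Agent.H11.OLang

set_option autoImplicit false
open Cfsg

namespace Cfsg.Agent.S2736

/-- Let T = PΩ⁺_{2m}(F) with m ≥ 5 (dimension ≠ 8) and x a field automorphism or a graph-field automorphism of T of prime order r. Then an element y of the coset Inndiag(T)·x (y = δ x with δ induced by a class-preserving similarity) has order r if and only if y is conjugate to x by an element of Inndiag(T). -/
theorem result {F : Type*} [Field F] [Fintype F] {m : ℕ} (hm : 5 ≤ m) (x δ : MulAut (Cfsg.POmega F (Cfsg.quadFormPlus m F))) (hx : Cfsg.IsFieldAutClassPOmega (Cfsg.quadFormPlus m F) x ∨ Cfsg.IsGraphFieldAutClassPOmegaPlus m x) {r : ℕ} (hr : r.Prime) (hxr : orderOf x = r) (hδ : δ ∈ Cfsg.inndiagPOmegaPlus m F) :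
    orderOf (δ * x) = r ↔ Cfsg.IsConjUnder (Cfsg.inndiagPOmegaPlus m F) x (δ * x) := by
  obtain ⟨m, rfl⟩ : ∃ k, m = k + 1 := ⟨m - 1, by omega⟩
  have h := H11.isQuad_plus (m + 1) F
  have hB := H11.bPlus_sep (m + 1) F
  obtain ⟨γ, h3, rfl⟩ : ∃ γ, γ.1.2 ≠ 1 ∧ x = h.oBar γ := by
    rcases hx with hx | hx
    · obtain ⟨α, ρ, h1, e⟩ := h.of_fieldClass (H11.field_plus _) hx
      exact H11.exists_eq_of_conj (H11.oBar_surjective_plus hm) e h1
    · obtain ⟨α, ρ, v, h1, -, e⟩ := H11.of_graphFieldClass hx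
      exact H11.exists_eq_of_conj (H11.oBar_surjective_plus hm) e h1
  rw [H11.inndiagPlus_eq (by omega)] at hδ ⊢
  exact h.lang_even hB (fun _ => h.oBar_eq_one hB (by simp; omega)) h3 hr _
    (h.nonExc_of_finrank hB (by simp; omega)) hxr hδ

end Cfsg.Agent.S2736
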