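import Cfsg.Statements.S2738
import Mathlib
import Cfsg.Agent.H10.SL
-- import your own Cfsg.Agent.* helpers here

set_option autoImplicit false
open Cfsg

namespace Cfsg.Agent.S2738

theorem aux {G : Type*} [Group G] {K : Subgroup G} (hK : Subgroup.IsComplement' (Subgroup.center G) K) :
    commutator G ≤ K := by
  rw [commutator_def, Subgroup.commutator_le]
  intro a _ b _
  obtain ⟨⟨⟨z, hz⟩, ⟨k, hk⟩⟩, rfl⟩ := hK.surjective a
  obtain ⟨⟨⟨w, hw⟩, ⟨l, hl⟩⟩, rfl⟩ := hK.surjective b
  have hz' := Subgroup.mem_center_iff.1 hz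
  have hw' := Subgroup.mem_center_iff.1 hw
  have : z * k * (w * l) * (z * k)⁻¹ * (w * l)⁻¹ = k * l * k⁻¹ * l⁻¹ := by
    simp only [mul_inv_rev]
    calc _ = z * (k * w) * l * k⁻¹ * (l * z)⁻¹ * w⁻¹ := by group
      _ = (z * w) * (k * l * k⁻¹ * l⁻¹) * (w * z)⁻¹ := by rw [hw' k, hz' l]; group
      _ = _ := by rw [hz' w, ← Subgroup.mem_center_iff.1 (Subgroup.mul_mem _ hz hw)]; group
  simp only
  rw [commutatorElement_def, this]
  exact K.mul_mem (K.mul_mem (K.mul_mem hk hl) (K.inv_mem hk)) (K.inv_mem hl)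


/-- The special linear group SL(3, 4) has centre of order 3 and does not split over it: no subgroup is a complement to the centre (so SL(3, 4) is a non-split central extension of PSL(3, 4) by a group of order 3). -/
theorem result (F : Type*) [Field F] [Fintype F] (hF : Fintype.card F = 4) : Nat.card ↥(Subgroup.center (Matrix.SpecialLinearGroup (Fin 3) F)) = 3 ∧ ¬ ∃ K : Subgroup (Matrix.SpecialLinearGroup (Fin 3) F), Subgroup.IsComplement' (Subgroup.center (Matrix.SpecialLinearGroup (Fin 3) F)) K := by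
  have h1 : Nat.card ↥(Subgroup.center (Matrix.SpecialLinearGroup (Fin 3) F)) = 3 := by
    rw [H10.card_center_SL_fin 3 (by norm_num), hF]; rfl
  refine ⟨h1, ?_⟩
  rintro ⟨K, hK⟩
  have h2 := aux hK
  rw [H10.commutator_SL_eq_top (by simp), top_le_iff] at h2
  have := hK.disjoint
  rw [h2, disjoint_top] at this
  rw [this, Subgroup.card_bot] at h1
  omega

end Cfsg.Agent.S2738
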