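import Cfsg.Statements.S2739
import Mathlib
import Cfsg.Agent.H10.PSU32
import Cfsg.Agent.H10.Transv

set_option autoImplicit false
open scoped Pointwise
open Cfsg

namespace Cfsg.Agent.S2739

open Subgroup H10 Matrix

theorem conj_of_gens {G : Type*} [Group G] (hG : Nat.card G = 20160) {x y c s : G} (hx : x ^ 3 = 1)
    (hy : y ^ 3 = 1) (hxy : Commute x y) (h1 : x ≠ 1) (h2 : y ≠ 1) (h3 : x * y ≠ 1)
    (h4 : x * x * y ≠ 1) (k1 : c * x = y * c) (k2 : c * y = x * x * c) (k3 : s * x = x * x * y * s)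
    (k4 : s * y = x * y * s) {u : G} (hu : orderOf u = 3) : IsConj x u := by
  classical
  have : Finite G := Nat.finite_of_card_ne_zero (by omega)
  have : Fact (Nat.Prime 3) := ⟨Nat.prime_three⟩
  let N : Subgroup G :=
    { carrier := {g | ∃ i j : ℤ, g = x ^ i * y ^ j}
      one_mem' := ⟨0, 0, by simp⟩
      mul_mem' := by
        rintro _ _ ⟨i, j, rfl⟩ ⟨k, l, rfl⟩
        exact ⟨i + k, j + l, by
          rw [_root_.zpow_add, _root_.zpow_add, (hxy.zpow_zpow k j).symm.mul_mul_mul_comm]⟩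
      inv_mem' := by
        rintro _ ⟨i, j, rfl⟩
        exact ⟨-i, -j, by rw [(hxy.zpow_zpow i j).eq, _root_.mul_inv_rev, _root_.zpow_neg,
          _root_.zpow_neg]⟩ }
  have xN : x ∈ N := ⟨1, 0, by simp⟩
  have yN : y ∈ N := ⟨0, 1, by simp⟩
  have red : ∀ {z : G}, z ^ 3 = 1 → ∀ i : ℤ, z ^ i = 1 ∨ z ^ i = z ∨ z ^ i = z⁻¹ := fun {z} hz i => by
    have e : z ^ i = z ^ (i % 3) := by
      conv_lhs => rw [← Int.mul_ediv_add_emod i 3, _root_.zpow_add, _root_.zpow_mul, zpow_ofNat, hz,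
        _root_.one_zpow, one_mul]
    rw [e]
    rcases (by omega : i % 3 = 0 ∨ i % 3 = 1 ∨ i % 3 = 2) with h | h | h <;> rw [h]
    · simp
    · simp
    · exact .inr (.inr (by rw [zpow_ofNat, eq_inv_iff_mul_eq_one, ← pow_succ, hz]))
  have hp : IsPGroup 3 N := fun ⟨_, i, j, rfl⟩ => ⟨1, Subtype.ext (by
    change (x ^ i * y ^ j) ^ 3 = 1
    rw [(hxy.zpow_zpow i j).mul_pow, ← zpow_natCast, ← zpow_natCast, ← _root_.zpow_mul,
      ← _root_.zpow_mul, mul_comm i, mul_comm j, _root_.zpow_mul, _root_.zpow_mul, zpow_natCast,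
      zpow_natCast, hx, hy]
    simp)⟩
  have cS : ∀ P : Sylow 3 G, Nat.card P = 9 := fun P => by
    rw [P.card_eq_multiplicity, hG]; decide +kernel
  obtain ⟨P, hP⟩ := hp.exists_le_sylow
  have hNP : N = P := by
    obtain ⟨k, hk⟩ := IsPGroup.iff_card.mp hp
    have d1 := card_dvd_of_le hP
    have d2 : 4 ≤ Nat.card N := by
      have hne : x ≠ y := fun e => h4 (by rw [← e, ← hx, pow_three'])
      have : ({1, x, y, x * y} : Finset G).card = 4 := by
        rw [Finset.card_insert_of_notMem (by simp [h1.symm, h2.symm, h3.symm]),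
          Finset.card_insert_of_notMem (by simp [hne, h2]), Finset.card_pair (by simpa using h1)]
      rw [← this, ← Set.ncard_coe_finset, ← SetLike.coe_sort_coe, Nat.card_coe_set_eq]
      refine Set.ncard_le_ncard (fun g hg => ?_) (Set.toFinite _)
      simp only [Finset.coe_insert, Finset.coe_singleton, Set.mem_insert_iff,
        Set.mem_singleton_iff] at hg
      rcases hg with rfl | rfl | rfl | rfl
      exacts [one_mem N, xN, yN, mul_mem xN yN]
    refine eq_of_le_of_card_ge hP ?_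
    rw [cS, hk] at *
    have : 2 ≤ k := by
      by_contra hk2
      interval_cases k <;> simp_all
    exact Nat.pow_le_pow_right (n := 3) (by norm_num) this
  obtain ⟨Q, hQ⟩ := (IsPGroup.of_card (p := 3) (G := zpowers u) (n := 1)
    (by rw [Nat.card_zpowers, hu]; rfl)).exists_le_sylow
  obtain ⟨g, rfl⟩ := MulAction.exists_smul_eq G Q P
  have hg : g * u * g⁻¹ ∈ N := hNP ▸ ⟨u, hQ (mem_zpowers u), rfl⟩
  have x2 : x * x = x⁻¹ := by rw [eq_inv_iff_mul_eq_one, ← pow_three', hx]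
  have c1 : IsConj x y := isConj_iff.mpr ⟨c, by rw [k1]; simp⟩
  have c2 : IsConj x x⁻¹ := c1.trans (isConj_iff.mpr ⟨c, by rw [k2, x2]; simp⟩)
  have c3 : IsConj x (x⁻¹ * y) := isConj_iff.mpr ⟨s, by rw [k3, x2]; simp⟩
  have c4 : IsConj x (x * y) := c1.trans (isConj_iff.mpr ⟨s, by rw [k4]; simp⟩)
  have iv : ∀ {z}, IsConj x z → IsConj x z⁻¹ := fun h => by
    obtain ⟨a, rfl⟩ := isConj_iff.mp h
    exact c2.trans (isConj_iff.mpr ⟨a, by group⟩)
  refine IsConj.trans ?_ (isConj_iff.mpr ⟨g, rfl⟩).symm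
  obtain ⟨i, j, e⟩ := hg
  have hne : g * u * g⁻¹ ≠ 1 := fun h => by
    rw [mul_inv_eq_one, mul_eq_left] at h
    rw [h, orderOf_one] at hu
    omega
  rw [e] at hne ⊢
  rcases red hx i with a | a | a <;> rcases red hy j with b | b | b <;> rw [a, b] at hne ⊢
  · simp at hne
  · rwa [one_mul]
  · rw [one_mul]; exact iv c1
  · rw [mul_one]
  · exact c4
  · simpa [hxy.inv_right.eq] using iv c3
  · rwa [mul_one]
  · exact c3
  · simpa [hxy.inv_inv.eq] using iv c4

/-- An element of `SL₃(4)`. -/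
def sl3 (A : Matrix (Fin 3) (Fin 3) K4)
    (h1 : A 0 0 * A 1 1 * A 2 2 - A 0 0 * A 1 2 * A 2 1 - A 0 1 * A 1 0 * A 2 2 +
      A 0 1 * A 1 2 * A 2 0 + A 0 2 * A 1 0 * A 2 1 - A 0 2 * A 1 1 * A 2 0 = 1) :
    SpecialLinearGroup (Fin 3) K4 := ⟨A, (det_fin_three A).trans h1⟩

theorem key {F : Type*} [Field F] [Fintype F] (hF : Fintype.card F = 4) :
    ∃ x : ProjectiveSpecialLinearGroup (Fin 3) F, ∀ u, orderOf u = 3 → IsConj x u := by
  have : Finite K4 := Nat.finite_of_card_ne_zero (by rw [card_K4]; norm_num)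
  obtain ⟨e⟩ := nonempty_ringEquiv_of_card_eq (K := K4) (L := F)
    (by rw [card_K4, Nat.card_eq_fintype_card, hF])
  have hG : Nat.card (ProjectiveSpecialLinearGroup (Fin 3) F) = 20160 := by
    have h3 := card_PSL_fin (F := F) 3 (by norm_num)
    have h4 := card_SL_fin (F := F) 3 (by norm_num)
    rw [hF] at h3 h4
    norm_num [Fin.prod_univ_succ] at h3 h4
    omega
  let a := sl3 !![1, 0, 0; 0, w4, 0; 0, 0, w5] (by decide)
  let b := sl3 !![0, 1, 0; 0, 0, 1; 1, 0, 0] (by decide)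
  let i := sl3 !![1, 1, 1; 1, w4, w5; 1, w5, w4] (by decide)
  let j := sl3 !![1, w4, w4; w5, w4, w5; w5, w5, w4] (by decide)
  let π := (pslCongr (n := Fin 3) e).toMonoidHom.comp (slQ (Fin 3) K4)
  have E : ∀ {A B} (c : K4), A.1 = c • B.1 → π A = π B := fun c h =>
    congrArg (pslCongr e) (slQ_eq_iff.mpr ⟨c, h⟩)
  have D : ∀ {A} (g : SpecialLinearGroup (Fin 3) K4), g.1 * A.1 ≠ A.1 * g.1 → π A ≠ 1 :=
    fun g h k => h (congrArg Subtype.val (mem_center_iff.mp ((QuotientGroup.eq_one_iff _).mp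
      ((pslCongr e).map_eq_one_iff.mp k)) g))
  refine ⟨π a, fun u => conj_of_gens hG (y := π b) (c := π i) (s := π j)
    ?_ ?_ ?_ ?_ ?_ ?_ ?_ ?_ ?_ ?_ ?_⟩
  · rw [pow_three, ← map_mul, ← map_mul, ← map_one π]; exact E 1 (by decide +kernel)
  · rw [pow_three, ← map_mul, ← map_mul, ← map_one π]; exact E 1 (by decide +kernel)
  · rw [commute_iff_eq, ← map_mul, ← map_mul]; exact E w5 (by decide +kernel)
  · exact D b (by decide +kernel)
  · exact D a (by decide +kernel)
  · rw [← map_mul]; exact D a (by decide +kernel)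
  · rw [← map_mul, ← map_mul]; exact D a (by decide +kernel)
  · rw [← map_mul, ← map_mul]; exact E 1 (by decide +kernel)
  · rw [← map_mul, ← map_mul, ← map_mul]; exact E 1 (by decide +kernel)
  · rw [← map_mul, ← map_mul, ← map_mul, ← map_mul]; exact E w4 (by decide +kernel)
  · rw [← map_mul, ← map_mul, ← map_mul]; exact E w5 (by decide +kernel)

/-- In the projective special linear group PSL(3, 4) all subgroups of order 3 are conjugate. -/
theorem result (F : Type*) [Field F] [Fintype F] (hF : Fintype.card F = 4) (X Y : Subgroup (Matrix.ProjectiveSpecialLinearGroup (Fin 3) F)) (hX : Nat.card ↥X = 3) (hY : Nat.card ↥Y = 3) : ∃ g : Matrix.ProjectiveSpecialLinearGroup (Fin 3) F, MulAut.conj g • X = Y := by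
  have : Fact (Nat.Prime 3) := ⟨Nat.prime_three⟩
  obtain ⟨x, hx⟩ := key hF
  have k : ∀ X : Subgroup (ProjectiveSpecialLinearGroup (Fin 3) F), Nat.card X = 3 →
      ∃ u, orderOf u = 3 ∧ zpowers u = X := fun X hX => by
    obtain ⟨u, hu⟩ := exists_prime_orderOf_dvd_card' (G := X) 3 (by rw [hX])
    rw [← orderOf_coe] at hu
    exact ⟨u, hu, eq_of_le_of_card_ge (zpowers_le.mpr u.2) (by rw [Nat.card_zpowers, hu, hX])⟩
  obtain ⟨u, hu, rfl⟩ := k X hX
  obtain ⟨v, hv, rfl⟩ := k Y hY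
  obtain ⟨g, rfl⟩ := isConj_iff.mp ((hx u hu).symm.trans (hx v hv))
  exact ⟨g, MonoidHom.map_zpowers _ _⟩

end Cfsg.Agent.S2739
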