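import Cfsg.Statements.S2751
import Mathlib
import Cfsg.Agent.H5.Am5

set_option autoImplicit false
open Cfsg

namespace Cfsg.Agent.S2751

/-- Goldschmidt's bound for amalgams of index (3, 3): let M₁ and M₂ be finite subgroups of a group G such that M₁ ⊓ M₂ is a Sylow 2-subgroup of both M₁ and M₂, each quotient Mᵢ / O₂(Mᵢ) is isomorphic to the symmetric group of degree 3, and no nontrivial subgroup of M₁ ⊓ M₂ is normal in both M₁ and M₂. Then M₁ ⊓ M₂ has order at most 2^7. -/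
theorem result {G : Type*} [Group G] (M₁ M₂ : Subgroup G) [Finite M₁] [Finite M₂] (ha₁ : ∃ P : Sylow 2 M₁, (P : Subgroup M₁) = (M₁ ⊓ M₂).subgroupOf M₁) (ha₂ : ∃ P : Sylow 2 M₂, (P : Subgroup M₂) = (M₁ ⊓ M₂).subgroupOf M₂) (hb₁ : Nonempty (M₁ ⧸ Cfsg.pCore 2 M₁ ≃* Equiv.Perm (Fin 3))) (hb₂ : Nonempty (M₂ ⧸ Cfsg.pCore 2 M₂ ≃* Equiv.Perm (Fin 3))) (hc : ∀ N : Subgroup G, N ≤ M₁ ⊓ M₂ → (N.subgroupOf M₁).Normal → (N.subgroupOf M₂).Normal → N = ⊥) : Nat.card ↥(M₁ ⊓ M₂) ≤ 2 ^ 7 := by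
  open Subgroup Cfsg.Agent.FT Cfsg.Agent.P22 in
  have i : ∀ {P : Subgroup G} [Finite P], Nonempty (P ⧸ Cfsg.pCore 2 P ≃* Equiv.Perm (Fin 3)) → (pCore 2 P).index = 6 :=
    fun h => (Nat.card_congr h.some.toEquiv).trans (by rw [Nat.card_perm]; simp; rfl)
  obtain ⟨X, _, _, f, g, hf, -, -, h⟩ := exists_S3Am (i hb₁) (i hb₂) ha₁ ha₂ fun N h0 h1 h2 =>
    hc N h0 (normal_subgroupOf_of_le_normalizer h1) (normal_subgroupOf_of_le_normalizer h2)
  have := H5d.amalgam_bound h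
  rwa [Subgroup.card_map_of_injective hf, Nat.card_congr (subgroupOfEquivOfLe inf_le_left).toEquiv] at this

end Cfsg.Agent.S2751
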