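import Cfsg.Statements.S2762
import Mathlib
import Cfsg.Agent.H5.Plane

set_option autoImplicit false
open Cfsg

namespace Cfsg.Agent.S2762

open Subgroup Matrix
open scoped MatrixGroups

section
variable {F : Type*} [Field F]

/-- The affine subgroup of `SL₃`, as a set-level subgroup. -/
def qSub (F : Type*) [Field F] : Subgroup (SpecialLinearGroup (Fin 3) F) where
  carrier := {M | M.1 2 0 = 0 ∧ M.1 2 1 = 0 ∧ M.1 2 2 = 1}
  one_mem' := by simp
  mul_mem' := by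
    rintro a b ⟨h1, h2, h3⟩ ⟨h4, h5, h6⟩
    simp [Matrix.mul_apply, Fin.sum_univ_three, h1, h2, h3, h4, h5, h6]
  inv_mem' := by
    rintro a ⟨h1, h2, h3⟩
    have hd := a.2
    rw [Matrix.det_fin_three] at hd
    simp only [h1, h2, h3] at hd
    change a.1.adjugate 2 0 = 0 ∧ a.1.adjugate 2 1 = 0 ∧ a.1.adjugate 2 2 = 1
    rw [Matrix.adjugate_fin_three]
    simp [h1, h2, h3]
    linear_combination hd

theorem q_eq (F : Type*) [Field F] : qdOver F = qSub F := closure_eq (qSub F)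

theorem q_row (M : qdOver F) : M.1.1 2 0 = 0 ∧ M.1.1 2 1 = 0 ∧ M.1.1 2 2 = 1 := (q_eq F).le M.2

theorem q_det (M : qdOver F) : M.1.1 0 0 * M.1.1 1 1 - M.1.1 0 1 * M.1.1 1 0 = 1 := by
  have hd := M.1.2
  obtain ⟨h1, h2, h3⟩ := q_row M
  rw [Matrix.det_fin_three] at hd
  simp only [h1, h2, h3] at hd
  linear_combination hd

/-- element with given linear and translation part -/
def qMk (a b c d x y : F) (h : a * d - b * c = 1) : qdOver F :=
  ⟨⟨!![a, b, x; c, d, y; 0, 0, 1], by simp [Matrix.det_fin_three]; linear_combination h⟩, by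
    rw [q_eq]; exact ⟨rfl, rfl, rfl⟩⟩

theorem q_cases (M : qdOver F) : ∃ a b c d x y h, M = qMk a b c d x y h := by
  obtain ⟨h1, h2, h3⟩ := q_row M
  refine ⟨_, _, _, _, M.1.1 0 2, M.1.1 1 2, q_det M, Subtype.ext (Subtype.ext ?_)⟩
  ext i j
  fin_cases i <;> fin_cases j <;> simp [qMk, h1, h2, h3]

theorem qMk_inj {a b c d x y a' b' c' d' x' y' : F} {h h'} :
    qMk a b c d x y h = qMk a' b' c' d' x' y' h' ↔
      a = a' ∧ b = b' ∧ c = c' ∧ d = d' ∧ x = x' ∧ y = y' := by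
  constructor
  · intro e
    have := fun i j => congrArg (fun M : qdOver F => M.1.1 i j) e
    exact ⟨this 0 0, this 0 1, this 1 0, this 1 1, this 0 2, this 1 2⟩
  · rintro ⟨rfl, rfl, rfl, rfl, rfl, rfl⟩
    rfl

theorem qMk_mul {a b c d x y a' b' c' d' x' y' : F} {h h'} :
    qMk a b c d x y h * qMk a' b' c' d' x' y' h' =
      qMk (a * a' + b * c') (a * b' + b * d') (c * a' + d * c') (c * b' + d * d')
        (a * x' + b * y' + x) (c * x' + d * y' + y) (by linear_combination (a' * d' - b' * c') * h + h') := by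
  refine Subtype.ext (Subtype.ext ?_)
  change !![a, b, x; c, d, y; 0, 0, 1] * !![a', b', x'; c', d', y'; 0, 0, 1] = _
  ext i j
  fin_cases i <;> fin_cases j <;> simp [qMk, Matrix.mul_apply, Fin.sum_univ_three]

theorem q_one : (1 : qdOver F) = qMk 1 0 0 1 0 0 (by simp) := by
  refine Subtype.ext (Subtype.ext ?_)
  ext i j
  fin_cases i <;> fin_cases j <;> simp [qMk]

theorem qMk_inv {a b c d x y : F} {h} : (qMk a b c d x y h)⁻¹ =
    qMk d (-b) (-c) a (b * y - d * x) (c * x - a * y) (by linear_combination h) := by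
  rw [inv_eq_iff_mul_eq_one, qMk_mul, q_one, qMk_inj]
  refine ⟨?_, ?_, ?_, ?_, ?_, ?_⟩
  · linear_combination h
  · ring
  · ring
  · linear_combination h
  · linear_combination (-x) * h
  · linear_combination (-y) * h

theorem qMk_conj {a b c d x y u v : F} {h} :
    qMk a b c d x y h * qMk 1 0 0 1 u v (by simp) * (qMk a b c d x y h)⁻¹ =
      qMk 1 0 0 1 (a * u + b * v) (c * u + d * v) (by simp) := by
  rw [qMk_inv, qMk_mul, qMk_mul, qMk_inj]
  refine ⟨?_, ?_, ?_, ?_, ?_, ?_⟩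
  · linear_combination h
  · ring
  · ring
  · linear_combination h
  · linear_combination (-x) * h
  · linear_combination (-y) * h

/-- translations -/
def qT (F : Type*) [Field F] : Multiplicative (Fin 2 → F) →* qdOver F :=
  MonoidHom.mk' (fun u => qMk 1 0 0 1 (u.toAdd 0) (u.toAdd 1) (by simp)) fun u v => by
    rw [qMk_mul, qMk_inj]; simp [add_comm]

theorem qT_inj : Function.Injective (qT F) := fun u v h => by
  have h' : qMk 1 0 0 1 (u.toAdd 0) (u.toAdd 1) (by simp) = qMk 1 0 0 1 (v.toAdd 0) (v.toAdd 1) (by simp) := h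
  have := qMk_inj.1 h'
  apply Multiplicative.toAdd.injective
  ext i; fin_cases i
  exacts [this.2.2.2.2.1, this.2.2.2.2.2]

/-- linear part -/
def qPi (F : Type*) [Field F] : qdOver F →* SL(2, F) :=
  MonoidHom.mk' (fun M => ⟨!![M.1.1 0 0, M.1.1 0 1; M.1.1 1 0, M.1.1 1 1], by
    rw [Matrix.det_fin_two_of]; exact q_det M⟩) fun M N => by
    obtain ⟨a, b, c, d, x, y, h, rfl⟩ := q_cases M
    obtain ⟨a', b', c', d', x', y', h', rfl⟩ := q_cases N
    rw [qMk_mul]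
    apply Subtype.ext
    change !![a * a' + b * c', a * b' + b * d'; c * a' + d * c', c * b' + d * d'] =
      !![a, b; c, d] * !![a', b'; c', d']
    simp

theorem coe_qPi {a b c d x y : F} {h} : (qPi F (qMk a b c d x y h)).1 = !![a, b; c, d] := rfl

theorem conj_qT (M : qdOver F) (u : Fin 2 → F) :
    M * qT F (Multiplicative.ofAdd u) * M⁻¹ = qT F (Multiplicative.ofAdd ((qPi F M).1 *ᵥ u)) := by
  obtain ⟨a, b, c, d, x, y, h, rfl⟩ := q_cases M
  change _ * qMk 1 0 0 1 (u 0) (u 1) (by simp) * _ = qMk 1 0 0 1 (((qPi F _).1 *ᵥ u) 0) (((qPi F _).1 *ᵥ u) 1) (by simp)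
  rw [qMk_conj, coe_qPi]
  simp [Matrix.mulVec, dotProduct, Fin.sum_univ_two]

/-- block diagonal part -/
def qK (F : Type*) [Field F] : Subgroup (qdOver F) where
  carrier := {M | M.1.1 0 2 = 0 ∧ M.1.1 1 2 = 0}
  one_mem' := by rw [q_one]; exact ⟨rfl, rfl⟩
  mul_mem' := by
    intro M N hM hN
    obtain ⟨a, b, c, d, x, y, h, rfl⟩ := q_cases M
    obtain ⟨a', b', c', d', x', y', h', rfl⟩ := q_cases N
    obtain ⟨rfl, rfl⟩ : x = 0 ∧ y = 0 := hM
    obtain ⟨rfl, rfl⟩ : x' = 0 ∧ y' = 0 := hN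
    rw [qMk_mul]
    change a * 0 + b * 0 + 0 = 0 ∧ c * 0 + d * 0 + 0 = 0
    simp
  inv_mem' := by
    intro M hM
    obtain ⟨a, b, c, d, x, y, h, rfl⟩ := q_cases M
    obtain ⟨rfl, rfl⟩ : x = 0 ∧ y = 0 := hM
    rw [qMk_inv]
    change b * 0 - d * 0 = 0 ∧ c * 0 - a * 0 = 0
    simp

theorem pCore_eq {p : ℕ} [Fact p.Prime] [CharP F p] : pCore p (qdOver F) = (qT F).range := by
  refine le_antisymm (sSup_le fun N ⟨hN, hP⟩ M hM => ?_) (le_sSup ⟨⟨?_⟩, ?_⟩)
  · have h1 : ∀ X ∈ N, (qPi F X).1.trace = 2 := fun X hX => by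
      obtain ⟨k, hk⟩ := hP ⟨X, hX⟩
      have hk' : X ^ p ^ k = 1 := congrArg Subtype.val hk
      exact H5b.trace_eq_two_of_pow (p := p) (k := k) (by rw [← map_pow, hk', map_one])
    obtain ⟨a, b, c, d, x, y, h, rfl⟩ := q_cases M
    have h2 := h1 _ hM
    have h3 := h1 _ (N.mul_mem hM (hN.conj_mem _ hM (qMk 1 1 0 1 0 0 (by simp))))
    have h4 := h1 _ (N.mul_mem hM (hN.conj_mem _ hM (qMk 1 0 1 1 0 0 (by simp))))
    rw [qMk_inv, qMk_mul, qMk_mul, qMk_mul, coe_qPi, Matrix.trace_fin_two_of] at h3 h4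
    rw [coe_qPi, Matrix.trace_fin_two_of] at h2
    obtain rfl : c = 0 := by
      have : c ^ 2 = 0 := by linear_combination (a + d + 2) * h2 - 2 * h - h3
      exact pow_eq_zero_iff two_ne_zero |>.mp this
    obtain rfl : b = 0 := by
      have : b ^ 2 = 0 := by linear_combination (a + d + 2) * h2 - 2 * h - h4
      exact pow_eq_zero_iff two_ne_zero |>.mp this
    obtain rfl : a = 1 := by
      have : (a - 1) ^ 2 = 0 := by linear_combination a * h2 - h
      exact sub_eq_zero.mp (pow_eq_zero_iff two_ne_zero |>.mp this)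
    obtain rfl : d = 1 := by linear_combination h
    exact ⟨Multiplicative.ofAdd ![x, y], rfl⟩
  · rintro _ ⟨u, rfl⟩ g
    exact ⟨_, (conj_qT g u.toAdd).symm⟩
  · rintro ⟨_, u, rfl⟩
    refine ⟨1, Subtype.ext ?_⟩
    change qT F u ^ p ^ 1 = 1
    rw [← map_pow, pow_one, ← map_one (qT F)]
    congr 1
    apply Multiplicative.toAdd.injective
    ext i
    simp [CharP.cast_eq_zero]

end

/-- Structure of Qd over a finite field F of characteristic p (the affine subgroup of SL₃(F)): its largest normal p-subgroup is the group of translations (matrices with upper-left block the identity), the block-diagonal matrices form a complement isomorphic to SL₂(F), and the translation subgroup is a natural SL₂(F)-module for that complement. -/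
theorem result {F : Type*} [Field F] [Fintype F] {p : ℕ} [Fact p.Prime] [CharP F p] : (∀ M : ↥(Cfsg.qdOver F), M ∈ Cfsg.pCore p ↥(Cfsg.qdOver F) ↔ ((M : Matrix.SpecialLinearGroup (Fin 3) F) : Matrix (Fin 3) (Fin 3) F) 0 0 = 1 ∧ ((M : Matrix.SpecialLinearGroup (Fin 3) F) : Matrix (Fin 3) (Fin 3) F) 0 1 = 0 ∧ ((M : Matrix.SpecialLinearGroup (Fin 3) F) : Matrix (Fin 3) (Fin 3) F) 1 0 = 0 ∧ ((M : Matrix.SpecialLinearGroup (Fin 3) F) : Matrix (Fin 3) (Fin 3) F) 1 1 = 1) ∧ ∃ K : Subgroup ↥(Cfsg.qdOver F), (∀ M : ↥(Cfsg.qdOver F), M ∈ K ↔ ((M : Matrix.SpecialLinearGroup (Fin 3) F) : Matrix (Fin 3) (Fin 3) F) 0 2 = 0 ∧ ((M : Matrix.SpecialLinearGroup (Fin 3) F) : Matrix (Fin 3) (Fin 3) F) 1 2 = 0) ∧ K ⊓ Cfsg.pCore p ↥(Cfsg.qdOver F) = ⊥ ∧ K ⊔ Cfsg.pCore p ↥(Cfsg.qdOver F) = ⊤ ∧ Nonempty (↥K ≃* Matrix.SpecialLinearGroup (Fin 2) F) ∧ Cfsg.IsNaturalSL2Module F (Cfsg.pCore p ↥(Cfsg.qdOver F)) K := by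
  rw [pCore_eq]
  have hinj : Function.Injective ((qPi F).comp (qK F).subtype) := by
    rw [injective_iff_map_eq_one]
    rintro ⟨M, hM⟩ h1
    obtain ⟨a, b, c, d, x, y, h, rfl⟩ := q_cases M
    obtain ⟨rfl, rfl⟩ : x = 0 ∧ y = 0 := hM
    have h2 : !![a, b; c, d] = 1 := congrArg Subtype.val h1
    have h3 := fun i j => congrFun (congrFun h2 i) j
    refine Subtype.ext (show qMk a b c d 0 0 h = 1 from ?_)
    rw [q_one, qMk_inj]
    refine ⟨?_, ?_, ?_, ?_, rfl, rfl⟩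
    · simpa using h3 0 0
    · simpa using h3 0 1
    · simpa using h3 1 0
    · simpa using h3 1 1
  have hsurj : Function.Surjective ((qPi F).comp (qK F).subtype) := fun A => by
    refine ⟨⟨qMk (A.1 0 0) (A.1 0 1) (A.1 1 0) (A.1 1 1) 0 0 (by rw [← Matrix.det_fin_two, A.2]), rfl, rfl⟩,
      Subtype.ext ?_⟩
    exact (Matrix.eta_fin_two A.1).symm
  refine ⟨fun M => ?_, qK F, fun M => Iff.rfl, ?_, ?_, ⟨MulEquiv.ofBijective _ ⟨hinj, hsurj⟩⟩, fun g _ => ?_,
    (qPi F).comp (qK F).subtype, MulEquiv.toAdditiveLeft (MonoidHom.ofInjective qT_inj).symm, hsurj, ?_, ?_⟩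
  · obtain ⟨a, b, c, d, x, y, h, rfl⟩ := q_cases M
    constructor
    · rintro ⟨u, hu⟩
      have h' : qMk 1 0 0 1 (u.toAdd 0) (u.toAdd 1) (by simp) = qMk a b c d x y h := hu
      obtain ⟨rfl, rfl, rfl, rfl, -⟩ := qMk_inj.1 h'
      exact ⟨rfl, rfl, rfl, rfl⟩
    · rintro ⟨h1, h2, h3, h4⟩
      obtain ⟨rfl, rfl, rfl, rfl⟩ : a = 1 ∧ b = 0 ∧ c = 0 ∧ d = 1 := ⟨h1, h2, h3, h4⟩
      exact ⟨Multiplicative.ofAdd ![x, y], rfl⟩
  · rw [eq_bot_iff]
    rintro _ ⟨hK, u, rfl⟩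
    obtain ⟨h1, h2⟩ : u.toAdd 0 = 0 ∧ u.toAdd 1 = 0 := hK
    rw [mem_bot, q_one]
    change qMk 1 0 0 1 (u.toAdd 0) (u.toAdd 1) (by simp) = _
    rw [qMk_inj]
    exact ⟨rfl, rfl, rfl, rfl, h1, h2⟩
  · rw [eq_top_iff]
    rintro M -
    obtain ⟨a, b, c, d, x, y, h, rfl⟩ := q_cases M
    have : qMk a b c d x y h = qT F (Multiplicative.ofAdd ![x, y]) * qMk a b c d 0 0 h := by
      change _ = qMk 1 0 0 1 x y (by simp) * _
      rw [qMk_mul, qMk_inj]; simp
    rw [this]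
    exact mul_mem (mem_sup_right ⟨_, rfl⟩) (mem_sup_left ⟨rfl, rfl⟩)
  · rw [mem_normalizer_iff]
    have k : ∀ g : qdOver F, ∀ w ∈ (qT F).range, g * w * g⁻¹ ∈ (qT F).range := by
      rintro g _ ⟨u, rfl⟩
      exact ⟨_, (conj_qT g u.toAdd).symm⟩
    refine fun w => ⟨k g w, fun h => ?_⟩
    have := k g⁻¹ _ h
    simpa [mul_assoc] using this
  · rw [(MonoidHom.ker_eq_bot_iff _).2 hinj, eq_comm, eq_bot_iff]
    intro l hl
    rw [mem_bot]
    apply hinj
    rw [map_one]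
    have h1 : ∀ u : Fin 2 → F, (qPi F l).1 *ᵥ u = u := fun u => by
      have h2 := conj_qT (l : qdOver F) u
      rw [← (mem_subgroupOf.1 hl) _ ⟨_, rfl⟩, mul_inv_cancel_right] at h2
      exact (Multiplicative.ofAdd.injective (qT_inj h2)).symm
    apply Subtype.ext
    ext i j
    have := congrFun (h1 (Pi.single j 1)) i
    simpa [Matrix.mulVec_single_one, Matrix.one_apply, Pi.single_apply] using this
  · rintro l ⟨_, u, rfl⟩
    have he : ∀ u (hu : qT F u ∈ (qT F).range), (MonoidHom.ofInjective (qT_inj (F := F))).symm ⟨qT F u, hu⟩ = u :=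
      fun u hu => (MonoidHom.ofInjective (qT_inj (F := F))).symm_apply_eq.mpr rfl
    refine ⟨⟨qT F (Multiplicative.ofAdd ((qPi F l).1 *ᵥ u.toAdd)), _, rfl⟩, (conj_qT (l : qdOver F) u.toAdd).symm, ?_⟩
    change Multiplicative.toAdd ((MonoidHom.ofInjective (qT_inj (F := F))).symm ⟨qT F _, _⟩) =
      (qPi F l).1 *ᵥ Multiplicative.toAdd ((MonoidHom.ofInjective (qT_inj (F := F))).symm ⟨qT F u, _⟩)
    exact (congrArg Multiplicative.toAdd (he _ _)).trans
      (congrArg (fun z => (qPi F l).1 *ᵥ Multiplicative.toAdd z) (he u _).symm)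

end Cfsg.Agent.S2762
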