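import Cfsg.Statements.S2763
import Mathlib
import Cfsg.Agent.H5.QdFree

set_option autoImplicit false
open Cfsg

namespace Cfsg.Agent.S2763

open Subgroup Cfsg.Agent.H18 Cfsg.Agent.H5b Cfsg.Agent.H22

theorem norm_le_B {p : ℕ} [hp : Fact p.Prime] (W : Subgroup (qd p)) (hW : W ≤ qdS p) (h0 : W ≠ ⊥)
    (hc : CharIn W (qdS p)) : normalizer (W : Set (qd p)) ≤ qdB p := by
  intro n hn
  obtain ⟨a, b, c, d, x, y, h, rfl⟩ := qd_cases n
  rw [qdMk_mem_qdB]
  by_cases hV : W ≤ qdV p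
  · have h1 : ∀ u v, qdMk 1 0 0 1 u v (by simp) ∈ W → v = 0 := fun u v hw => by
      obtain ⟨_, _, h2⟩ := hV (hc (MonoidHom.toMulEquiv (qdSwap p) (qdSwap p)
        (MonoidHom.ext qdSwap_swap) (MonoidHom.ext qdSwap_swap)) ⟨_, hW hw⟩ hw)
      exact (qdMk_inj.mp (qdSwap_apply.symm.trans h2)).2.1
    obtain ⟨⟨w, hw⟩, hw1⟩ := (ne_bot_iff_exists_ne_one).mp h0
    obtain ⟨u, v, rfl⟩ := hV hw
    obtain rfl := h1 _ _ hw
    have h2 := (mem_normalizer_iff.1 hn _).1 hw
    rw [qdMk_conj] at h2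
    have h3 := h1 _ _ h2
    have hu : u ≠ 0 := by
      rintro rfl
      exact hw1 (Subtype.ext qd_one.symm)
    simpa [hu] using h3
  · obtain ⟨w, hw, hwV⟩ := SetLike.not_le_iff_exists.mp hV
    obtain ⟨b', u, v, rfl⟩ := hW hw
    have hb : b' ≠ 0 := by
      rintro rfl
      exact hwV ⟨u, v, rfl⟩
    have h2 := qdS_le_qdB (hW ((mem_normalizer_iff.1 hn _).1 hw))
    rw [qdMk_inv, qdMk_mul, qdMk_mul, qdMk_mem_qdB] at h2
    have : c ^ 2 * b' = 0 := by linear_combination -h2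
    simpa [hb] using this

theorem B_le_norm {p : ℕ} [hp : Fact p.Prime] : qdB p ≤ normalizer ((qdS p : Subgroup (qd p)) : Set (qd p)) := by
  have key : ∀ n ∈ qdB p, ∀ w ∈ qdS p, n * w * n⁻¹ ∈ qdS p := by
    rintro n hn _ ⟨b', u, v, rfl⟩
    obtain ⟨a, b, c, d, x, y, h, rfl⟩ := qd_cases n
    obtain rfl : c = 0 := hn
    rw [qdMk_inv, qdMk_mul, qdMk_mul]
    refine ⟨_, _, _, qdMk_inj.2 ⟨?_, rfl, ?_, ?_, rfl, rfl⟩⟩
    · linear_combination h
    · ring
    · linear_combination h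
  intro n hn
  rw [mem_normalizer_iff]
  refine fun w => ⟨key n hn w, fun h => ?_⟩
  have := key _ ((qdB p).inv_mem hn) _ h
  simpa [mul_assoc] using this

/-- In the group Qd(p) (p prime; the natural semidirect product of an elementary abelian group of order p² by SL₂(p)), the normalizer of every nontrivial characteristic subgroup of a Sylow p-subgroup S equals the normalizer of S, which is a proper subgroup; in particular no such characteristic subgroup is normal. -/
theorem result {p : ℕ} [Fact p.Prime] (S : Sylow p ↥(Cfsg.qd p)) (T : Subgroup ↥(S : Subgroup ↥(Cfsg.qd p))) (hT : T ≠ ⊥) (hTc : T.Characteristic) : Subgroup.normalizer ((T.map (S : Subgroup ↥(Cfsg.qd p)).subtype : Subgroup ↥(Cfsg.qd p)) : Set ↥(Cfsg.qd p)) = Subgroup.normalizer ((S : Subgroup ↥(Cfsg.qd p)) : Set ↥(Cfsg.qd p)) ∧ Subgroup.normalizer ((S : Subgroup ↥(Cfsg.qd p)) : Set ↥(Cfsg.qd p)) ≠ ⊤ := by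
  obtain ⟨Q, hQ⟩ := (sylIn_qdS (p := p)).exists_sylow_top
  obtain ⟨g, hg⟩ := MulAction.exists_smul_eq (qd p) S Q
  let e : qd p ≃* qd p := MulAut.conj g
  have hS : (S : Subgroup (qd p)).map e.toMonoidHom = qdS p := by rw [← hQ, ← hg]; rfl
  have key : ∀ W : Subgroup (qd p), W ≤ S → W ≠ ⊥ → CharIn W S →
      (normalizer (W : Set (qd p))).map e.toMonoidHom ≤ qdB p := fun W hW h0 hc => by
    rw [H21.map_N_equiv]
    refine norm_le_B _ (hS ▸ map_mono hW) (fun h => h0 ((map_eq_bot_iff_of_injective _ e.injective).mp h)) ?_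
    rw [← hS]; exact hc.map e
  have hT0 : T.map (S : Subgroup (qd p)).subtype ≠ ⊥ := fun h =>
    hT ((map_eq_bot_iff_of_injective _ (subtype_injective _)).mp h)
  have hTS : T.map (S : Subgroup (qd p)).subtype ≤ S := map_subtype_le _
  have hch : CharIn (T.map (S : Subgroup (qd p)).subtype) S := charIn_of_characteristic (by
    rwa [subgroupOf, comap_map_eq_self_of_injective (subtype_injective _)])
  refine ⟨le_antisymm ?_ fun n hn => ?_, fun h => ?_⟩
  · rw [← map_le_map_iff_of_injective (f := e.toMonoidHom) e.injective]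
    refine (key _ hTS hT0 hch).trans ?_
    rw [H21.map_N_equiv, hS]; exact B_le_norm
  · have k : ∀ n ∈ normalizer ((S : Subgroup (qd p)) : Set (qd p)), ∀ w ∈ T.map (S : Subgroup (qd p)).subtype,
        n * w * n⁻¹ ∈ T.map (S : Subgroup (qd p)).subtype := fun n hn w hw =>
      hch ((S : Subgroup (qd p)).normalizerMonoidHom ⟨n, hn⟩) ⟨w, hTS hw⟩ hw
    rw [mem_normalizer_iff]
    refine fun w => ⟨k n hn w, fun h => ?_⟩
    have := k _ (inv_mem hn) _ h
    simpa [mul_assoc] using this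
  · have h1 := key S le_rfl (fun h0 => hT0 (le_bot_iff.1 (h0 ▸ hTS))) (fun φ x _ => (φ x).2)
    rw [h, map_top_of_surjective _ e.surjective] at h1
    have h2 := qdMk_mem_qdB.1 (h1 (mem_top (qdMk (p := p) 1 0 1 1 0 0 (by simp))))
    exact one_ne_zero h2

end Cfsg.Agent.S2763
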