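import Cfsg.Statements.S2765
import Mathlib
import Cfsg.Agent.H22.PU4

set_option autoImplicit false
open Cfsg

namespace Cfsg.Agent.S2765

/-- In the same pushing-up situation (G finite, C_G(O_p(G)) ≤ O_p(G), G/K ≅ PSL₂(p^n) with n ≥ 1, a Sylow p-subgroup S in exactly one maximal subgroup, no nontrivial characteristic subgroup of S normal in G), one of the following holds: (I) S has nilpotency class 2, exponent 4 if p = 2 and exponent p otherwise, and G has exactly one noncentral chief factor inside O_p(G); or (II) p = 3, S has class 3 and exponent 9, and G has exactly two noncentral chief factors inside O_p(G). 'Exactly one' is phrased as: some noncentral chief factor U/W inside O_p(G) with G acting hypercentrally on W and on O_p(G)/U; 'exactly two' analogously with a chain. -/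
theorem result {G : Type*} [Group G] [Finite G] {p : ℕ} [Fact p.Prime] (S : Sylow p G) (hE₁ : Subgroup.centralizer (Cfsg.pCore p G : Set G) ≤ Cfsg.pCore p G) (hE₂ : ∃! M : Subgroup G, IsCoatom M ∧ (S : Subgroup G) ≤ M) (K : Subgroup G) [K.Normal] (F : Type) [Field F] [Fintype F] (n : ℕ) (hn : 1 ≤ n) (hF : Fintype.card F = p ^ n) (hE₃ : Nonempty (G ⧸ K ≃* Matrix.ProjectiveSpecialLinearGroup (Fin 2) F)) (hd : ∀ T : Subgroup ↥(S : Subgroup G), T ≠ ⊥ → T.Characteristic → ¬ (T.map (S : Subgroup G).subtype).Normal) : ((S : Subgroup G).lowerCentralSeries 2 = ⊥ ∧ (S : Subgroup G).lowerCentralSeries 1 ≠ ⊥ ∧ (p = 2 → Monoid.exponent ↥(S : Subgroup G) = 4) ∧ (p ≠ 2 → Monoid.exponent ↥(S : Subgroup G) = p) ∧ (∃ U W : Subgroup G, W ≤ U ∧ U ≤ (Cfsg.pCore p G) ∧ Cfsg.IsChiefFactor U W ∧ ¬ ⁅U, (⊤ : Subgroup G)⁆ ≤ W ∧ (∃ k : ℕ, Cfsg.iterCommutator W ⊤ k = ⊥) ∧ (∃ k : ℕ, Cfsg.iterCommutator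 (Cfsg.pCore p G) ⊤ k ≤ U))) ∨ (p = 3 ∧ (S : Subgroup G).lowerCentralSeries 3 = ⊥ ∧ (S : Subgroup G).lowerCentralSeries 2 ≠ ⊥ ∧ Monoid.exponent ↥(S : Subgroup G) = 9 ∧ (∃ U₁ W₁ U₂ W₂ : Subgroup G, W₁ ≤ U₁ ∧ U₁ ≤ W₂ ∧ W₂ ≤ U₂ ∧ U₂ ≤ (Cfsg.pCore p G) ∧ Cfsg.IsChiefFactor U₁ W₁ ∧ Cfsg.IsChiefFactor U₂ W₂ ∧ ¬ ⁅U₁, (⊤ : Subgroup G)⁆ ≤ W₁ ∧ ¬ ⁅U₂, (⊤ : Subgroup G)⁆ ≤ W₂ ∧ (∃ k : ℕ, Cfsg.iterCommutator W₁ ⊤ k = ⊥) ∧ (∃ k : ℕ, Cfsg.iterCommutator W₂ ⊤ k ≤ U₁) ∧ (∃ k : ℕ, Cfsg.iterCommutator (Cfsg.pCore p G) ⊤ k ≤ U₂))) := by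
  open Subgroup Cfsg.Agent.FT Cfsg.Agent.P22 in
  open scoped commutatorElement Pointwise in
  obtain ⟨Z, C, r⟩ := pu_main S hE₁ hE₂ hF hE₃ hd
  obtain ⟨ρ, π, h⟩ := r.nat
  have h0 : iterCommutator (Z ⊓ C((⊤ : Subgroup G))) ⊤ 1 = ⊥ := comm_eq_bot.2 inf_le_right
  have cq := r.cq
  rw [← pcore_top']
  rcases r.alt with ⟨rfl, h1, h2⟩ | ⟨rfl, ⟨ρ', π', h1⟩, h2, h3, a, ha, z, hz, h4⟩
  · refine .inl ⟨h1, fun e => r.nab' (ab_iff_der.2 e), ?_, fun e => ?_, Z, _, inf_le_left, r.zc, h.isChief, h.not_comm,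
      ⟨1, h0⟩, 2, r.iter h1⟩
    · rintro rfl
      exact exponent_eq (p := 2) (n := 1) h2 fun e => r.nab' (abelem_two e).ab
    · rw [if_neg e] at h2
      simpa using exponent_eq (p := p) (n := 0) (by simpa using h2) fun k => r.nab' (ab_iff_forall.2 fun x hx y hy => by
        rw [show x = 1 by simpa using k x hx, one_mul, mul_one])
  · refine .inr ⟨rfl, h2, fun e => h4 ?_, exponent_eq (p := 3) (n := 1) h3 fun e => h4 (engel_three e ha hz), Z, _, _, C,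
      inf_le_left, r.zc, cq, le_rfl, h.isChief, h1.isChief, h.not_comm, h1.not_comm, ⟨1, h0⟩, ⟨3, r.iter h2⟩, 0, le_rfl⟩
    exact mem_bot.1 (comm_inv_mem.1 (e.le (comm_mem (comm_mem ha hz) ha)))

end Cfsg.Agent.S2765
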