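import Cfsg.Statements.S2772
import Mathlib
import Cfsg.Agent.H22.PU5

set_option autoImplicit false
open Cfsg

namespace Cfsg.Agent.S2772

/-- Sims' Theorem in local form: let H be a finite non-abelian simple group and G a maximal subgroup of H with C_G(O₂(G)) ≤ O₂(G), such that N_H(S) is not contained in G for a Sylow 2-subgroup S of G and G/O₂(G) is dihedral of order 2q for a prime q. Then G is isomorphic to the symmetric group of degree 4 or to its direct product with a group of order 2. -/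
theorem result {H : Type*} [Group H] [Finite H] [IsSimpleGroup H] (hna : ¬ IsMulCommutative H) (G : Subgroup H) (hG : IsCoatom G) (hchar : Subgroup.centralizer (Cfsg.pCore 2 ↥G : Set ↥G) ≤ Cfsg.pCore 2 ↥G) (S : Sylow 2 ↥G) (hN : ¬ Subgroup.normalizer (((S : Subgroup ↥G).map G.subtype : Subgroup H) : Set H) ≤ G) (q : ℕ) (hq : q.Prime) (hD : Nonempty (↥G ⧸ Cfsg.pCore 2 ↥G ≃* DihedralGroup q)) : Nonempty (↥G ≃* Equiv.Perm (Fin 4)) ∨ Nonempty (↥G ≃* Equiv.Perm (Fin 4) × Multiplicative (ZMod 2)) := by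
  open Subgroup Cfsg.Agent.FT Cfsg.Agent.P22 in
  open scoped commutatorElement Pointwise in
  obtain ⟨e⟩ := hD
  have hf := QuotientGroup.mk'_surjective (pCore 2 G)
  have t := tig_two (G := G ⧸ pCore 2 G) (by rw [Nat.card_congr e.toEquiv, DihedralGroup.nat_card]) hq
    H22.pCore_quotient_pCore
  have s := syl_top Nat.prime_two S
  have s' := syl_map_subtype Nat.prime_two S
  have h := (t.minP hf s (by rw [QuotientGroup.ker_mk', ← P22.pcore_top']; exact pcore_le_syl s)).pu0 t hf
  have k0 : ∀ R, R ≤ S.1.map G.subtype → N(R) = ⊤ → R = ⊥ := fun R a b =>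
    (nml_top_iff.1 ⟨le_top, b.ge⟩).eq_bot_or_eq_top.resolve_right fun z => hG.1 (top_le_iff.1 (z.ge.trans
      (a.trans s'.le)))
  have k : ∀ R, R ≤ S.1.map G.subtype → R ≠ ⊥ → G ≤ N(R) → N(R) = G := fun R a b c =>
    (hG.le_iff.1 c).resolve_left (mt (k0 R a) b)
  have k1 : ∀ R, R ≤ S.1.map G.subtype → G ≤ N(R) → N(S.1.map G.subtype) ≤ N(R) → R = ⊥ := fun R a b c =>
    by_contra fun z => hN (c.trans (k R a z b).le)
  obtain ⟨c, -, Z, C, r⟩ := pu_loc S h.1 hchar k1 k (by decide) (ZMod 2) (by rw [h.2.2]; simp)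
  obtain ⟨ρ, π, n⟩ := r.nat
  have s3 : S3L G := by
    have := card_pmap n.rep (le_refl G)
    rw [pmap_dom, MonoidHom.range_eq_top.2 n.rep_surj, n.pker_rep, r.ker, card_top', H10.card_SL2] at this
    exact this.symm.trans (by simp)
  obtain ⟨g, hg, g1⟩ := SetLike.not_le_iff_exists.1 hN
  have a : S3Act G (S.1.map G.subtype) := ⟨c, fun z => s'.pi.Ohm_center_ne_bot
    (fun e => s3.not_le s' (e.trans_le bot_le)) (k1 _ ((Ohm_le _ _).trans inf_le_left) (cents_norm z)
      (norms_Ohm 2 (norms_center le_rfl)))⟩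
  have a' := a.cj g
  have s'' := s'.cj g
  rw [cj_of_mem_nrm hg] at a' s''
  refine ((S3Am.mk s3 (s3.cj g) s' s'' fun X x y z => by_contra fun w => g1 ?_).main a a').2.imp And.left And.left
  have := k X x w y
  rw [← k _ r.qt (fun e => s3.not_le s' (s'.le.trans ((le_inf le_rfl (by rw [e, cen_bot]; exact le_top)).trans c)))
    (pcore_nrm _ _)]
  exact nrm_le_nrm_pcore _ _ (mem_nrm_of_cj_le (z.trans this.le))

end Cfsg.Agent.S2772
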