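import Cfsg.Statements.S2779
import Mathlib
import Cfsg.Agent.H10.Md3

set_option autoImplicit false
open Cfsg

namespace Cfsg.Agent.S2779

open Subgroup Matrix Cfsg.Agent.H19.St Cfsg.Agent.H10.Md
open scoped MatrixGroups commutatorElement

/-- Let L act on the elementary abelian p-group V (inside a finite group, by conjugation, faithfully) as SL₂(F) on its natural module, F a field with p^n elements, and let S be a Sylow p-subgroup of L. Then [V, S, S] = 1; |V| = p^(2n) and |C_V(S)| = p^n; and for every nonidentity s ∈ S and every v ∈ V outside C_V(S): C_V(s) = C_V(S) = [V, S] = [V, s] = the subgroup generated by the commutators [v, t], t ∈ S. -/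
theorem result {G : Type*} [Group G] [Finite G] {p : ℕ} [Fact p.Prime] {F : Type*} [Field F] [Fintype F] (n : ℕ) (hF : Fintype.card F = p ^ n) (V L : Subgroup G) (hnat : Cfsg.IsNaturalSL2Module F V L) (hf : L ⊓ Subgroup.centralizer (V : Set G) = ⊥) (S : Sylow p ↥L) (T : Subgroup G) (hT : T = ((S : Subgroup ↥L).map L.subtype)) : ⁅⁅V, T⁆, T⁆ = ⊥ ∧ Nat.card V = p ^ (2 * n) ∧ Nat.card ↥(V ⊓ Subgroup.centralizer ((T : Subgroup G) : Set G)) = p ^ n ∧ ∀ s ∈ T, s ≠ 1 → (V ⊓ Subgroup.centralizer ({s} : Set G)) = (V ⊓ Subgroup.centralizer ((T : Subgroup G) : Set G)) ∧ ⁅V, T⁆ = (V ⊓ Subgroup.centralizer ((T : Subgroup G) : Set G)) ∧ ⁅V, Subgroup.zpowers s⁆ = (V ⊓ Subgroup.centralizer ((T : Subgroup G) : Set G)) ∧ ∀ v ∈ V, v ∉ Subgroup.centralizer (T : Set G) → Subgroup.closure {x : G | ∃ t ∈ T, x = v * t * v⁻¹ * t⁻¹} = (V ⊓ Subgroup.centralizer ((T : Subgroup G) : Set G)) := by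
  have : CharP F p := charP_of_card_eq_prime_pow hF
  obtain ⟨r, ψ, h⟩ := exists_NM hnat hf S
  rw [← hT] at h
  rw [h.card_V, h.card_C, Nat.card_eq_fintype_card, hF, ← pow_mul, mul_comm]
  refine ⟨commutator_eq_bot_iff_le_centralizer.2 (h.comm_le.trans inf_le_right), rfl, rfl, fun s hs h1 => ?_⟩
  obtain ⟨t, rfl⟩ := (h.mT _).1 hs
  have ht : t ≠ 0 := by
    rintro rfl
    exact h1 (by rw [rel_SL.x_zero, map_one])
  have h2 : V ⊓ centralizer (T : Set G) ≤ ⁅V, zpowers (r (xx t))⁆ := fun v hv => by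
    obtain ⟨a, rfl⟩ := h.mem_C.1 hv
    have := h.comm_eq t ![0, -a / t]
    rw [show -(t * ![0, -a / t] 1) = a by simp; field_simp] at this
    exact this ▸ commutator_mem_commutator (h.mV.2 ⟨_, rfl⟩) (mem_zpowers _)
  have h3 := commutator_mono (le_refl V) (zpowers_le.2 hs)
  refine ⟨le_antisymm (fun v hv => ⟨hv.1, ?_⟩) (inf_le_inf_left _ (centralizer_le (by simpa using hs))),
    h.comm_le.antisymm (h2.trans h3), (h3.trans h.comm_le).antisymm h2, fun v hv h4 => le_antisymm ?_ fun w hw => ?_⟩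
  · refine (closure_le _).2 ?_
    rintro _ ⟨x, hx, rfl⟩
    exact h.comm_le (commutator_mem_commutator hv hx)
  · obtain ⟨z, rfl⟩ := h.mV.1 hv
    obtain ⟨a, rfl⟩ := h.mem_C.1 hw
    rw [h.mem_cen] at h4
    have := h.comm_eq (-a / z 1) z
    rw [show -(-a / z 1 * z 1) = a by field_simp] at this
    exact subset_closure ⟨_, (h.mT _).2 ⟨_, rfl⟩, this.symm⟩
  · obtain ⟨z, rfl⟩ := h.mV.1 hv.1
    exact (h.mem_cen z).2 ((NM.xx_fix ht z).1 ((h.comm_iff _ z).1 (hv.2 _ rfl)))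

end Cfsg.Agent.S2779
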