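import Cfsg.Statements.S2780
import Mathlib
import Cfsg.Agent.H10.Md3

set_option autoImplicit false
open Cfsg

namespace Cfsg.Agent.S2780

open Subgroup Matrix Cfsg.Agent.H19.St Cfsg.Agent.H10.Md
open scoped MatrixGroups commutatorElement

/-- Let L act on the elementary abelian p-group V (inside a finite group, faithfully) as SL₂(F) on its natural module, F a field with p^n elements, S a Sylow p-subgroup of L. Then: for every g ∈ L not normalizing S, V is the internal direct product of C_V(S) and C_V(gSg⁻¹); every nonidentity element of L of order prime to p acts on V without nonidentity fixed points; and C_V(S) and V/C_V(S) are irreducible for N_L(S): the only N_L(S)-invariant subgroups of C_V(S) are 1 and C_V(S), and the only N_L(S)-invariant subgroups between C_V(S) and V are those two. -/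
theorem result {G : Type*} [Group G] [Finite G] {p : ℕ} [Fact p.Prime] {F : Type*} [Field F] [Fintype F] (n : ℕ) (hF : Fintype.card F = p ^ n) (V L : Subgroup G) (hnat : Cfsg.IsNaturalSL2Module F V L) (hf : L ⊓ Subgroup.centralizer (V : Set G) = ⊥) (S : Sylow p ↥L) (T : Subgroup G) (hT : T = ((S : Subgroup ↥L).map L.subtype)) : (∀ g ∈ L, g ∉ Subgroup.normalizer (T : Set G) → Cfsg.IsInternalDirectProduct (V ⊓ Subgroup.centralizer ((T : Subgroup G) : Set G)) (V ⊓ Subgroup.centralizer ((T.map (MulAut.conj g).toMonoidHom : Subgroup G) : Set G)) V) ∧ (∀ x ∈ L, x ≠ 1 → (orderOf x).Coprime p → (V ⊓ Subgroup.centralizer ({x} : Set G)) = ⊥) ∧ (∀ U : Subgroup G, U ≤ (V ⊓ Subgroup.centralizer ((T : Subgroup G) : Set G)) → L ⊓ Subgroup.normalizer (T : Set G) ≤ Subgroup.normalizer (U : Set G) → U = ⊥ ∨ U = (V ⊓ Subgroup.centralizer ((T : Subgroup G) : Set G))) ∧ (∀ U : Subgroup G, (V ⊓ Subgroup.centralizer ((T : Subgroup G) : Set G)) ≤ U → U ≤ V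 → L ⊓ Subgroup.normalizer (T : Set G) ≤ Subgroup.normalizer (U : Set G) → U = (V ⊓ Subgroup.centralizer ((T : Subgroup G) : Set G)) ∨ U = V) := by
  have : CharP F p := charP_of_card_eq_prime_pow hF
  obtain ⟨r, ψ, h⟩ := exists_NM hnat hf S
  rw [← hT] at h
  have hc : ∀ a ∈ V, ∀ b ∈ V, a * b = b * a := fun a ha b hb => by
    obtain ⟨z, rfl⟩ := h.mV.1 ha
    obtain ⟨w, rfl⟩ := h.mV.1 hb
    rw [← map_mul, mul_comm, map_mul]
  have hh : ∀ {U : Subgroup G}, L ⊓ normalizer (T : Set G) ≤ normalizer (U : Set G) → ∀ c : F, c ≠ 0 → ∀ a b,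
      ψ (.ofAdd ![a, b]) ∈ U → ψ (.ofAdd ![c * a, c⁻¹ * b]) ∈ U := fun hU c hc a b hz => by
    have := (mem_normalizer_iff.1 (hU ⟨h.mL.2 ⟨hh xx yy c, rfl⟩, h.mem_nrm (by simp [coe_hh hc])⟩) _).1 hz
    rw [h.act, coe_hh hc] at this
    convert this using 3
    simp [funext_iff, Fin.forall_fin_two, mulVec, dotProduct, mul_comm]
  refine ⟨fun g hg h1 => ?_, fun x hx h1 h2 => eq_bot_iff.2 fun v hv => ?_, fun U h1 h2 => ?_, fun U h1 h2 h3 => ?_⟩
  · obtain ⟨g, rfl⟩ := h.mL.1 hg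
    have h2 : g.1 1 0 ≠ 0 := fun e => h1 (h.mem_nrm e)
    have h3 : ∀ z, ψ (.ofAdd z) ∈ centralizer ((T.map (MulAut.conj (r g)).toMonoidHom : Subgroup G) : Set G) ↔
        g.1 0 0 * z 1 = g.1 1 0 * z 0 := fun z => by
      refine ((SetLike.ext_iff.1 (FT.cj_cen (r g) T) _).symm.trans FT.mem_cj).trans ?_
      have := h.act g⁻¹ z
      rw [map_inv, inv_inv] at this
      rw [this, h.mem_cen]
      simp [SpecialLinearGroup.SL2_inv_expl, mulVec, dotProduct, neg_add_eq_zero, eq_comm (a := g.1 0 0 * _)]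
    refine ⟨inf_le_left, inf_le_left, fun a ha b hb => hc a ha.1 b hb.1, eq_bot_iff.2 fun v hv => ?_,
      (sup_le inf_le_left inf_le_left).antisymm fun v hv => ?_⟩
    · obtain ⟨a, rfl⟩ := h.mem_C.1 hv.1
      have := (h3 _).1 hv.2.2
      simp only [cons_val_one, cons_val_zero, mul_zero, eq_comm (a := (0 : F)), mul_eq_zero, h2, false_or] at this
      rw [this, show ![(0 : F), 0] = 0 by simp, ofAdd_zero, map_one]
      exact one_mem _
    · obtain ⟨z, rfl⟩ := h.mV.1 hv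
      rw [show z = ![z 0 - g.1 0 0 * z 1 / g.1 1 0, 0] + ![g.1 0 0 * z 1 / g.1 1 0, z 1] by
        simp [funext_iff, Fin.forall_fin_two], ofAdd_add, map_mul]
      exact mul_mem_sup (h.mem_C.2 ⟨_, rfl⟩) ⟨h.mV.2 ⟨_, rfl⟩, (h3 _).2 (by simp; field_simp)⟩
  · obtain ⟨g, rfl⟩ := h.mL.1 hx
    obtain ⟨z, rfl⟩ := h.mV.1 hv.1
    by_contra c
    obtain ⟨s, hs⟩ := P22.sl2_trans (m := z) (m' := ![1, 0]) (by rintro rfl; exact c (by simp)) (by simp)
    have h3 : (s * g * s⁻¹).1 *ᵥ ![1, 0] = ![1, 0] := by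
      rw [← hs, mulVec_mulVec, ← Matrix.SpecialLinearGroup.coe_mul, inv_mul_cancel_right,
        Matrix.SpecialLinearGroup.coe_mul, ← mulVec_mulVec, (h.comm_iff g z).1 (hv.2 _ rfl)]
    have h4 : s * g * s⁻¹ = xx ((s * g * s⁻¹).1 0 1) := by
      have h5 := sl_det (s * g * s⁻¹)
      generalize s * g * s⁻¹ = k at h3 h5
      simp [funext_iff, Fin.forall_fin_two, mulVec, dotProduct] at h3
      refine sl_ext ?_ ?_ ?_ ?_ <;> simp_all
    have h5 : orderOf (r g) ∣ p := by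
      rw [orderOf_injective r h.ri, ← (MulAut.conj s).orderOf_eq, MulAut.conj_apply, h4, orderOf_dvd_iff_pow_eq_one]
      have : ∀ (c : F) (k : ℕ), xx c ^ k = xx (k * c) := fun c k => by
        induction k with
        | zero => simp [rel_SL.x_zero]
        | succ k ih => rw [pow_succ, ih, ← rel_SL.x_add, Nat.cast_succ, add_mul, one_mul]
      rw [this, CharP.cast_eq_zero, zero_mul, rel_SL.x_zero]
    exact h1 (orderOf_eq_one_iff.1 (Nat.eq_one_of_dvd_coprimes h2 dvd_rfl h5))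
  · refine or_iff_not_imp_left.2 fun c => h1.antisymm fun v hv => ?_
    obtain ⟨u, hu, h3⟩ := FT.exists_ne_one c
    obtain ⟨a, rfl⟩ := h.mem_C.1 (h1 hu)
    obtain ⟨b, rfl⟩ := h.mem_C.1 hv
    have ha : a ≠ 0 := by
      rintro rfl
      exact h3 (by rw [show ![(0 : F), 0] = 0 by simp, ofAdd_zero, map_one])
    by_cases hb : b = 0
    · rw [hb, show ![(0 : F), 0] = 0 by simp, ofAdd_zero, map_one]
      exact one_mem _
    simpa [ha] using hh h2 (b / a) (div_ne_zero hb ha) _ _ hu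
  · refine or_iff_not_imp_left.2 fun c => h2.antisymm fun v hv => ?_
    obtain ⟨u, hu, h4⟩ := SetLike.exists_of_lt (lt_of_le_of_ne h1 (Ne.symm c))
    obtain ⟨z, rfl⟩ := h.mV.1 (h2 hu)
    obtain ⟨w, rfl⟩ := h.mV.1 hv
    have ha : z 1 ≠ 0 := fun e => h4 ⟨h2 hu, (h.mem_cen z).2 e⟩
    by_cases hb : w 1 = 0
    · exact h1 ⟨hv, (h.mem_cen w).2 hb⟩
    have h5 := mul_mem (hh h3 (z 1 / w 1) (div_ne_zero ha hb) (z 0) (z 1) (by
      convert hu; simp [funext_iff, Fin.forall_fin_two])) (h1 (h.mem_C.2 ⟨w 0 - z 1 / w 1 * z 0, rfl⟩))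
    rw [← map_mul, ← ofAdd_add] at h5
    convert h5
    simp [funext_iff, Fin.forall_fin_two, ha]

end Cfsg.Agent.S2780
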