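import Cfsg.Statements.S2787
import Mathlib
import Cfsg.Agent.H22.Hol
import Cfsg.Agent.H5.QdFree2
import Cfsg.Agent.H13.Re2

set_option autoImplicit false
open Cfsg

namespace Cfsg.Agent.S2787

open Subgroup Cfsg.Agent.FT Cfsg.Agent.P22 Cfsg.Agent.H5b
open scoped commutatorElement MatrixGroups

theorem not_inv_pgl {F : Type*} [Field F] [Finite F] {p : ℕ} [Fact p.Prime] [CharP F p] (hp : p ≠ 2) :
    ¬ Involves SL(2, ZMod p) PGL(2, F) := fun i => by
  obtain ⟨K, π, hπ⟩ := H18.involves_iff.1 i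
  obtain ⟨P⟩ : Nonempty (Sylow 2 K) := inferInstance
  have h2 : (2 : ZMod p) ≠ 0 := H10.two_ne_zero_of_charP hp
  refine H10.not_isCyclic_sylow_two h2 (P.mapSurjective hπ) ?_
  let e0 := P.1.equivMapOfInjective K.subtype K.subtype_injective
  let f : P.1 →* (P.1.map π) := π.subgroupMap P.1
  have hf : Function.Surjective f := π.subgroupMap_surjective P.1
  rcases H10.pgl_two_group (p := p) hp (P.isPGroup'.map K.subtype) with h | ⟨k, ⟨e⟩⟩
  · exact isCyclic_of_surjective (f.comp e0.symm.toMonoidHom) (hf.comp e0.symm.surjective)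
  · let g := f.comp (e0.trans e).symm.toMonoidHom
    have hg : Function.Surjective g := hf.comp (e0.trans e).symm.surjective
    have h1 : ∀ i, (g (.sr i)).1 = 1 ∨ (g (.sr i)).1 = -1 := fun i => H10.sl2_involution h2 (by
      rw [← coe_mul, ← map_mul, DihedralGroup.sr_mul_self, map_one, coe_one])
    have h3 : ∀ x : P.1.map π, x.1 ∈ zpowers (-1 : SL(2, ZMod p)) := fun x => by
      obtain ⟨y, rfl⟩ := hg x
      have h4 : ∀ i, (g (.sr i)).1 ∈ zpowers (-1 : SL(2, ZMod p)) := fun i => by
        rcases h1 i with h | h <;> rw [h]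
        exacts [one_mem _, mem_zpowers _]
      rcases y with i | i
      · rw [show DihedralGroup.r i = .sr 0 * .sr i by simp, map_mul, coe_mul]
        exact mul_mem (h4 _) (h4 _)
      · exact h4 i
    exact isCyclic_of_injective (inclusion fun x hx => h3 ⟨x, hx⟩) (inclusion_injective _)

/-- Let p be a prime and let H act by conjugation on the elementary abelian p-subgroup V of a finite group, irreducibly (no H-invariant subgroups of V other than 1 and V) and nontrivially, and suppose H/C_H(V) is isomorphic to PSL₂(F) for a field F with p^n elements, p^n odd, or p = 3 and H/C_H(V) is isomorphic to a Ree group ²G₂(3^(2m+1)), m ≥ 1. Then no subgroup A of H acting nontrivially on V acts quadratically: [V, A, A] = 1 forces [V, A] = 1. -/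
theorem result {G : Type*} [Group G] [Finite G] {p : ℕ} [Fact p.Prime] (V H : Subgroup G) (hV : Cfsg.IsElementaryAbelian p V) (hHV : H ≤ Subgroup.normalizer (V : Set G)) (hirr : ∀ U : Subgroup G, U ≤ V → H ≤ Subgroup.normalizer (U : Set G) → U = ⊥ ∨ U = V) (hnt : ¬ H ≤ Subgroup.centralizer (V : Set G)) [hn : ((Subgroup.centralizer (V : Set G)).subgroupOf H).Normal] (hq : (∃ (F : Type) (_ : Field F) (_ : Fintype F) (n : ℕ), Fintype.card F = p ^ n ∧ Odd (Fintype.card F) ∧ Nonempty (↥H ⧸ (Subgroup.centralizer (V : Set G)).subgroupOf H ≃* Matrix.ProjectiveSpecialLinearGroup (Fin 2) F)) ∨ (p = 3 ∧ Cfsg.Lie.IsoRee (↥H ⧸ (Subgroup.centralizer (V : Set G)).subgroupOf H))) (A : Subgroup G) (hA : A ≤ H) (hquad : ⁅⁅V, A⁆, A⁆ = ⊥) : ⁅V, A⁆ = ⊥ := by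
  have hp : p.Prime := Fact.out
  by_contra hA1
  have hn2 : p ≠ 2 := by
    rcases hq with ⟨F, _, _, n, h1, h2, -⟩ | ⟨h, -⟩
    · rintro rfl
      rcases n with _ | n
      · exact absurd h1 Fintype.one_lt_card.ne'
      · rw [h1, pow_succ] at h2
        exact absurd h2 (by simp)
    · omega
  obtain ⟨a, ha, h1⟩ : ∃ a ∈ A, a ∉ C(V) := by
    by_contra! c
    exact hA1 (by rw [commutator_comm]; exact commutator_eq_bot_iff_le_centralizer.2 c)
  have nA : ⟪a⟫ ≤ N(V) := zpowers_le.2 (hHV (hA ha))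
  have eV : Abelem p V := hV
  have pV : IsPGroup p (til V V) := fun v => ⟨1, Subtype.ext (by simpa using (abelem_til eV).2 v v.2)⟩
  have hO : pCoreOf p (bar V H) = ⊥ := by
    have V0 : til V V ≠ ⊥ := fun e => hnt (by rw [(til_eq_bot le_rfl).1 e]; exact fun x _ y hy => by simp [mem_bot.1 hy])
    have h2 := H5.inf_centralizer_ne_bot (H22.pgrp_pCoreOf (p := p) (bar V H)) pV
      ((H22.pCoreOf_le _).trans (bar_norms V H)) V0
    obtain ⟨W, h3, h4⟩ := exists_til (V := V) (U' := til V V ⊓ C(pCoreOf p (bar V H))) inf_le_left le_rfl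
    rcases hirr W h3 ((bar_norms_iff hHV h3).1 (h4 ▸ normsI (bar_norms V H)
      (norms_cent (H22.le_N_pCoreOf _)))) with rfl | rfl
    · exact absurd (h4.symm.trans ((til_eq_bot bot_le).2 rfl)) h2
    · exact eq_bot_iff.2 ((le_inf (H22.pCoreOf_le _) (centsC (h4.le.trans inf_le_right))).trans (bar_faithful hHV).le)
  have i := involves_SL2_of_quad hn2 (abelem_til eV) (bar_norms V H) (bar_faithful hHV)
    (mem_pmap_of_mem (act V) (hHV (hA ha)) (hA ha)) (by
      rw [← pmap_zpowers _ (hHV (hA ha)), til_comm le_rfl nA, til_comm (comm_le_left nA) nA, til_eq_bot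
        ((comm_le_left (normsR nA le_normalizer)).trans (comm_le_left nA))]
      exact eq_bot_iff.2 ((commutator_mono (commutator_mono le_rfl (zpowers_le.2 ha)) (zpowers_le.2 ha)).trans hquad.le))
    (by
      rw [hO, mem_bot]
      exact fun e => h1 (zpowers_le.1 ((bar_eq_bot nA).1 (by rw [bar, pmap_zpowers _ (hHV (hA ha)), e, zpowers_one_eq_bot]))))
  obtain ⟨_, ⟨e0⟩⟩ := quot_equiv_pmap (K := C(V)) (act V) hHV (by rw [pker_act])
  rw [← H18.involves_congr_right e0] at i
  rcases hq with ⟨F, _, _, n, h2, -, ⟨e⟩⟩ | ⟨rfl, K, _, _, m, -, h2, ⟨e⟩⟩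
  · have : CharP F p := charP_of_card_eq_prime_pow h2
    exact not_inv_pgl (F := F) hn2 (H18.Involves.trans i (H18.involves_of_injective
      ((H10.pslSub F).subtype.comp (e.trans (H10.pslEquiv F)).toMonoidHom)
      ((H10.pslSub F).subtype_injective.comp (e.trans (H10.pslEquiv F)).injective)))
  · obtain ⟨S, -⟩ := H13.exists_ReD h2
    refine not_ab2_SL2 hn2 (Ab2.of_involves (Ab2.of_injective (fun T hT => H5.isMulCommutative_of_comm fun x hx y hy => ?_)
      e.toMonoidHom e.injective) i)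
    have := fun {g} => S.sq_eq_one_of_isPGroup hT (g := g)
    rw [← inv_inj, mul_inv_rev, mul_inv_rev, inv_eq_of_mul_eq_one_left (this hx), inv_eq_of_mul_eq_one_left (this hy),
      ← inv_eq_of_mul_eq_one_left (this (mul_mem hy hx)), mul_inv_rev, inv_eq_of_mul_eq_one_left (this hx),
      inv_eq_of_mul_eq_one_left (this hy)]

end Cfsg.Agent.S2787
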