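import Cfsg.Statements.S2788
import Mathlib
import Cfsg.Agent.H10.Md1

set_option autoImplicit false
open Cfsg

namespace Cfsg.Agent.S2788

/-- Let H act faithfully by conjugation on the elementary abelian p-subgroup V of a finite group with H ≅ SL₂(F), F a field with p^n elements, S a Sylow p-subgroup of H, and A ≤ S a subgroup of order at least 3 acting quadratically on V ([V, A, A] = 1). Then |V/C_V(a)| ≥ p^n for every nonidentity a ∈ A. -/
theorem result {G : Type*} [Group G] [Finite G] {p : ℕ} [Fact p.Prime] (V H : Subgroup G) (hV : Cfsg.IsElementaryAbelian p V) (hHV : H ≤ Subgroup.normalizer (V : Set G)) (hf : H ⊓ Subgroup.centralizer (V : Set G) = ⊥) {F : Type*} [Field F] [Fintype F] (n : ℕ) (hF : Fintype.card F = p ^ n) (hiso : Nonempty (↥H ≃* Matrix.SpecialLinearGroup (Fin 2) F)) (S : Sylow p ↥H) (T : Subgroup G) (hT : T = ((S : Subgroup ↥H).map H.subtype)) (A : Subgroup G) (hA : A ≤ T) (hA3 : 3 ≤ Nat.card A) (hquad : ⁅⁅V, A⁆, A⁆ = ⊥) : ∀ a ∈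 A, a ≠ 1 → p ^ n ≤ ((V ⊓ Subgroup.centralizer ({a} : Set G))).relIndex V := by
  obtain ⟨e⟩ := hiso
  subst hT
  have : CharP F p := charP_of_card_eq_prime_pow hF
  obtain ⟨hW, φ, hφ, h1⟩ := H10.Md.exists_act hV hHV hf
  intro a ha h3
  obtain ⟨s, hs, rfl⟩ := hA ha
  obtain ⟨k, hk⟩ := S.2 ⟨s, hs⟩
  have hk' : s ^ p ^ k = 1 := congrArg Subtype.val hk
  have := (H10.Md.psl2_bound hφ hW (π := (QuotientGroup.mk' _).comp e.toMonoidHom)
    ((QuotientGroup.mk'_surjective _).comp e.surjective) hk' fun c => h3 (congrArg Subtype.val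
      ((map_eq_one_iff _ e.injective).1 (((FT.pElt_iff Fact.out).2 ⟨k, by rw [← map_pow, hk', map_one]⟩).eq_one_of_mem
        (P22.p'_center_SL (p := p)) ((QuotientGroup.eq_one_iff _).1 c))))).1
  rwa [hF, h1] at this

end Cfsg.Agent.S2788
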