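import Cfsg.Statements.S2791
import Mathlib
import Cfsg.Agent.H4.AG

set_option autoImplicit false
open Cfsg

namespace Cfsg.Agent.S2791

/-- Let S be a Sylow p-subgroup of the finite group G and A an abelian subgroup of S that is strongly closed in S with respect to G. Then A controls strong fusion in G: for some Sylow p-subgroup T containing A, whenever a subset of T is conjugated into T by an element of G, the same elementwise conjugation is induced by an element of N_G(A). -/
theorem result {G : Type*} [Group G] [Finite G] {p : ℕ} [Fact p.Prime] (S : Sylow p G) (A : Subgroup G) (hA : IsMulCommutative ↥A) (hsc : Cfsg.IsStronglyClosed A (S : Subgroup G)) : Cfsg.ControlsStrongFusion p A := by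
  open Subgroup Cfsg.Agent.H18 Cfsg.Agent.H22 Cfsg.Agent.H4 in
  have hN : ∀ B : Subgroup G, B ≤ (S : Subgroup G) → N[B] ≤ N[A ⊓ B] := fun B hB g hg =>
    mem_N_of_cj_le (cj_le_iff'.2 fun x hx =>
      ⟨hsc.2 x hx.1 g (hB (conj_mem_of_N hg hx.2)), conj_mem_of_N hg hx.2⟩)
  have hSA : N[(S : Subgroup G)] ≤ N[A] := by
    have := hN S le_rfl
    rwa [inf_eq_left.2 hsc.1] at this
  have key : ∀ T x, AGF p (S : Subgroup G) T x → x ∈ N[A] := by
    intro T x h
    have hx := h.inv.2
    obtain ⟨h1, h2, h3, -⟩ := h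
    have hT : IsPGroup p T := h3.isP
    set K := N[T] ⊓ (cmod T (A ⊓ T) ⊓ C[A ⊓ T]) with hK
    have h4 : K ≤ opm p N[T] C[T] := by
      refine le_opm inf_le_left (le_N_inf le_normalizer (le_N_inf (le_N_cmod le_rfl (hN T h1))
        (le_N_C (hN T h1)))) fun y hy => ?_
      obtain ⟨k, hk⟩ := pow_mem_pResidualOf (p := p) hy
      refine ⟨k, pResidualOf_le_iff.2 (fun z (hz : z ∈ K) hc => mem_C_of_chain hT hz.1 hc (U := A ⊓ T)
        (le_cmod.1 (zpowers_le.2 hz.2.1)).2 hz.2.2) hk⟩
    have hTA : T ≤ N[A] := h1.trans (le_normalizer.trans hSA)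
    have h5 : A ⊓ N[T] ≤ K := le_inf inf_le_right (le_inf (le_cmod.2
      ⟨inf_le_right.trans (hN T h1), le_inf ((commutator_mono le_rfl inf_le_left).trans
        (comm_le_of_le_N' hTA)) (comm_le_of_le_N inf_le_right)⟩)
      (inf_le_left.trans ((le_centralizer_self_of_comm hA).trans (C_anti inf_le_left))))
    have h6 : A ⊓ N[T] ≤ T := syl_le_of_le_N h3 (h5.trans h4)
      (S.isPGroup'.to_le (inf_le_left.trans hsc.1)) inf_le_right
    have h7 : T = T ⊔ A := pgrp_eq_of_inf_N_le (S.isPGroup'.to_le (sup_le h1 hsc.1)) le_sup_left (by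
      rw [dedekind_N hTA le_normalizer]; exact sup_le le_rfl h6)
    have := hN T h1 hx
    rwa [inf_eq_left.2 (le_sup_right.trans h7.ge)] at this
  refine ⟨S, hsc.1, fun B hB => ⟨hB, fun g hg => ?_⟩⟩
  obtain ⟨c, hc, h, y, hy, h1, e⟩ := ag_main S B g⁻¹ hB (by rwa [inv_inv])
  obtain ⟨n, T, x, e1, h2, -⟩ := h1.exists_fin
  have h3 : h ∈ N[A] := by
    rw [← e1]
    refine list_prod_mem fun z hz => ?_
    obtain ⟨i, rfl⟩ := List.mem_ofFn.1 hz
    exact key _ _ (h2 i)
  refine ⟨(h * y)⁻¹, inv_mem (mul_mem h3 (hSA hy)), fun a ha => ?_⟩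
  have e2 : c⁻¹ * a * c = a := by rw [mul_assoc, mem_centralizer_iff.1 hc a ha]; group
  rw [show g = (c * h * y)⁻¹ by rw [← e, inv_inv]]
  conv_rhs => rw [← e2]
  group

end Cfsg.Agent.S2791
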