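import Cfsg.Statements.S2793
import Mathlib
import Cfsg.Agent.H4.Fp4

set_option autoImplicit false
open Cfsg

namespace Cfsg.Agent.S2793

open Cfsg.Agent.H4F Cfsg.Agent.H5b Cfsg.Agent.H18


/-- Let p be an odd prime, S a Sylow p-subgroup of the finite group G, J(S) the subgroup generated by the abelian subgroups of S of largest order, and suppose Z(J(S)) does not control strong fusion in G. Put H = N_G(Z(J(S))). Then the group F(p) of upper triangular 3 × 3 matrices (a b c; 0 a⁻¹ d; 0 0 1) over the field with p elements is involved in H, and Z(J(S)) contains a subgroup C of order p with |N_H(C) : C_H(C)| = p − 1. -/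
theorem result {G : Type*} [Group G] [Finite G] {p : ℕ} [Fact p.Prime] (hp : p ≠ 2) (S : Sylow p G) (h : ¬ Cfsg.ControlsStrongFusion p (Cfsg.centerThompsonAOf (S : Subgroup G))) (H : Subgroup G) (hH : H = Subgroup.normalizer ((Cfsg.centerThompsonAOf (S : Subgroup G)) : Set G)) : Cfsg.Involves ↥(Cfsg.fOver (ZMod p)) ↥H ∧ ∃ C : Subgroup G, C ≤ (Cfsg.centerThompsonAOf (S : Subgroup G)) ∧ Nat.card C = p ∧ (H ⊓ Subgroup.centralizer (C : Set G)).relIndex (H ⊓ Subgroup.normalizer (C : Set G)) = p - 1 := by
  subst hH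
  have hF := groupFusionSystem_saturated S
  have hn : ¬ (groupFusionSystem (S : Subgroup G)).IsNormal (centerThompsonAOf (S : Subgroup G)) :=
    fun h1 => h (Ctl.controls S h1.1 (isNormal_group_iff.1 h1).2)
  obtain ⟨c, hc⟩ := IsCyclic.exists_ofOrder_eq_natCard (α := (ZMod p)ˣ)
  rw [Nat.card_eq_fintype_card, ZMod.card_units] at hc
  refine ⟨?_, exists_line hc ((normal_or_goodF hp c S.isPGroup' hF).resolve_left hn)⟩
  rw [centerThompsonAOf_eq] at hn ⊢
  exact involves_of_hasB hp ((isFn_ZJn 0).le_N _) ((normal_or_hasB hp S.isPGroup' hF).resolve_left hn)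

end Cfsg.Agent.S2793
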