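import Cfsg.Statements.S2794
import Mathlib
import Cfsg.Agent.H5.QdFree

set_option autoImplicit false
open Cfsg

namespace Cfsg.Agent.S2794

open Subgroup Cfsg.Agent.H18 Cfsg.Agent.H22 Cfsg.Agent.H5b
open scoped commutatorElement

/-- For an odd prime p and a finite group G, the group Qd(p) is not involved in G if and only if in every section K/R of G, for every Sylow p-subgroup S* of K/R, the centre of J(S*) (J generated by the abelian subgroups of largest order) controls strong fusion in K/R. -/
theorem result {G : Type*} [Group G] [Finite G] {p : ℕ} [Fact p.Prime] (hp : p ≠ 2) : ¬ Cfsg.Involves ↥(Cfsg.qd p) G ↔ ∀ (K R : Subgroup G) [hR : (R.subgroupOf K).Normal], ∀ T : Sylow p (K ⧸ R.subgroupOf K), Cfsg.ControlsStrongFusion p (Cfsg.centerThompsonAOf (T : Subgroup (K ⧸ R.subgroupOf K))) := by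
  constructor
  · intro h K R _ T
    rw [centerThompsonAOf_eq]
    exact controls_ZJn_of_qdFree hp (Or.inl rfl) (not_involves_of_sec h (H21.Sec.section' K R)) T
  · intro h hq
    obtain ⟨K, R, _, hb⟩ := exists_badFus_section hq
    obtain ⟨S, hS⟩ := hb.exists_not_controls
    have h1 := h K R S
    rw [centerThompsonAOf_eq] at h1
    exact hS _ ((isFn_ZJn 0).le _) (ZJn_ne_bot S.isPGroup' (hb.sylow_ne_bot S) (Or.inl rfl))
      (charIn_of_characteristic ((isFn_ZJn 0).characteristic_subgroupOf _)) h1

end Cfsg.Agent.S2794
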