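import Cfsg.Statements.S2807
import Mathlib
import Cfsg.Agent.H18.Yoshida

set_option autoImplicit false
open Cfsg

namespace Cfsg.Agent.S2807

open Cfsg.FusionSystem Cfsg.Agent.H17 Cfsg.Agent.H18

/-- Let S be a Sylow p-subgroup of the finite group G. If S ∩ G' ≠ S ∩ (N_G(S))' (derived subgroups), then the wreath product Z_p ≀ Z_p — realised as a Sylow p-subgroup of the symmetric group of degree p² — is a homomorphic image of S. -/
theorem result {G : Type*} [Group G] [Finite G] {p : ℕ} [Fact p.Prime] (S : Sylow p G) (h : (S : Subgroup G) ⊓ commutator G ≠ (S : Subgroup G) ⊓ ⁅Subgroup.normalizer ((S : Subgroup G) : Set G), Subgroup.normalizer ((S : Subgroup G) : Set G)⁆) : ∃ (P : Sylow p (Equiv.Perm (Fin (p ^ 2)))) (f : ↥(S : Subgroup G) →* ↥(P : Subgroup (Equiv.Perm (Fin (p ^ 2))))), Function.Surjective f := by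
  refine yoshida S.isPGroup' (groupFusionSystem_saturated S) (N := fusionSystemOfSubgroup
    (Subgroup.normalizer ((S : Subgroup G) : Set G)) S Subgroup.le_normalizer) (fun P f => ?_) ?_
  · rw [mor_ofSubgroup]
    constructor
    · rintro ⟨h1, h2, g, hg, e⟩
      refine ⟨h1.trans (le_normalizerIn le_rfl), H17.cj g, mor_group.2 ⟨sup_le h1 le_rfl,
        fun x hx => conj_mem_of_mem_normalizer hg (sup_le h1 le_rfl hx), g, fun _ _ => rfl⟩,
        fun x hx => (e x hx).symm, mem_normalizer_iff_img.1 hg⟩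
    · rintro ⟨h1, k, h2, h3, h4⟩
      obtain ⟨-, h5, g, e⟩ := mor_group.1 h2
      refine ⟨h1.trans normalizerIn_le, fun x hx => h3 x hx ▸ h5 x (Subgroup.mem_sup_left hx), g,
        mem_normalizer_iff_img.2 ?_, fun x hx => (h3 x hx).symm.trans (e x (Subgroup.mem_sup_left hx))⟩
      exact (img_congr fun x hx => (e x (Subgroup.mem_sup_right hx)).symm).trans h4
  · rw [group_focal (sylIn_top S), grp_focal ((sylIn_top S).mono Subgroup.le_normalizer le_top)]
    exact h.symm

end Cfsg.Agent.S2807
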