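import Cfsg.Statements.S2856
import Mathlib
import Cfsg.Agent.H22.Amal2

set_option autoImplicit false
open Cfsg

namespace Cfsg.Agent.S2856

/-- Let (M₁, M₂) be an amalgam pair in X satisfying the rank-two standing hypothesis (characteristic p, the normalizers in M₁ and in M₂ of a Sylow p-subgroup of M₁ ∩ M₂ equal and contained in M₁ ∩ M₂, and strongly p-embedded residues), λ a vertex of the coset graph, L_λ the subgroup of its stabilizer generated by the p-elements, Q_λ = O_p of the stabilizer, O^p(L_λ) the subgroup of L_λ generated by its elements of order prime to p, and V_λ^{(k)} the subgroup generated by the Z_μ over the vertices μ at distance at most k from λ (Z_μ being generated by the Ω₁(Z(S)), S a Sylow p-subgroup of the stabilizer of μ). If n ≥ 1 and V_λ^{(n)} ≤ Q_λ, then O^p(L_λ) does not centralize V_λ^{(n)}/[V_λ^{(n)}, Q_λ], that is, [V_λ^{(n)}, O^p(L_λ)] is not contained in [V_λ^{(n)}, Q_λ]. -/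
theorem result {X : Type*} [Group X] {p : ℕ} [Fact p.Prime] (M₁ M₂ : Subgroup X) (h : Cfsg.IsSpeAmalgamPair p M₁ M₂) (lam : Cfsg.CosetVertex M₁ M₂) (n : ℕ) (hn : 1 ≤ n) (V : Subgroup X) (hV : V = Cfsg.vertexVIter p M₁ M₂ n lam) (hVQ : V ≤ Cfsg.vertexQ p lam) : ¬ ⁅V, ((Cfsg.pResidual p ↥(Cfsg.pElementClosure p (MulAction.stabilizer X lam))).map (Cfsg.pElementClosure p (MulAction.stabilizer X lam)).subtype)⁆ ≤ ⁅V, Cfsg.vertexQ p lam⁆ := by
  open Subgroup Cfsg.Agent.H18 Cfsg.Agent.H22 in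
  open scoped commutatorElement Pointwise in
  intro hle
  obtain ⟨n, rfl⟩ : ∃ m, n = m + 1 := ⟨n - 1, by omega⟩
  subst hV
  haveI := cpa_finite h.1 lam
  obtain ⟨μ, hμ⟩ := cg_exists_adj lam
  have hW := vIter_le_succ (p := p) (n := n) h.1.1.1 hμ
  have hQ := le_neighbourKernel_iff.1 (cpa_Q_le h.1 lam)
  have hN : MulAction.stabilizer X lam ≤ N[⁅vertexVIter p M₁ M₂ (n + 1) lam, vertexQ p lam⁆] :=
    le_N_commutator (stab_le_N_vIter _ _) (le_N_pCoreOf _)
  refine cpa_vIter_ne h.1 hμ hVQ (le_of_le_sup_comm (pgrp_nilp (pgrp_pCoreOf _)) hVQ (hW.trans hVQ)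
    (hQ.1.trans (stab_le_N_vIter _ _)) ((hQ.2 μ hμ).trans (stab_le_N_vIter _ _)) ?_)
  refine spe_vIter_le h hμ ?_ (le_N_sup (inf_le_right.trans (stab_le_N_vIter _ _))
    (inf_le_left.trans hN)) le_sup_left
  exact le_N_of_comm_le_le (hle.trans le_sup_right)
    (sup_le hW (comm_le_of_le_N (hQ.1.trans (stab_le_N_vIter _ _))))

end Cfsg.Agent.S2856
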