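import Cfsg.Statements.S3085
import Mathlib

set_option autoImplicit false
open Cfsg
open scoped commutatorElement

namespace Cfsg.Agent.S3085

open Classical in
/-- twisting map attached to an element of order four -/
noncomputable def tf {Q : Type*} [Group Q] (v x : Q) : Q := if x * v = v * x then x else x * v

section
variable {Q : Type*} [Group Q] {z : Q} (hzc : ∀ x, x * z = z * x) (hz2 : z * z = 1) (hz1 : z ≠ 1)
  (hc : ∀ x y : Q, x * y = y * x ∨ x * y = y * x * z)
include hzc hz2 hz1 hc

theorem cm_mul {x y v : Q} (hx : x * v ≠ v * x) (hy : y * v ≠ v * y) : x * y * v = v * (x * y) := by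
  have h1 := (hc x v).resolve_left hx
  have h2 := (hc y v).resolve_left hy
  calc x * y * v = x * (y * v) := by group
    _ = x * (v * y * z) := by rw [h2]
    _ = (x * v) * y * z := by group
    _ = v * x * z * y * z := by rw [h1]
    _ = v * x * (z * y) * z := by group
    _ = v * x * (y * z) * z := by rw [hzc y]
    _ = v * (x * y) * (z * z) := by group
    _ = v * (x * y) := by rw [hz2, mul_one]

theorem tf_mul {v : Q} (hv : v * v = z) (x y : Q) : tf v (x * y) = tf v x * tf v y := by
  unfold tf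
  by_cases hx : x * v = v * x <;> by_cases hy : y * v = v * y
  · have : x * y * v = v * (x * y) := by rw [mul_assoc, hy, ← mul_assoc, hx, mul_assoc]
    rw [if_pos hx, if_pos hy, if_pos this]
  · have : ¬ x * y * v = v * (x * y) := by
      intro h
      apply hy
      rw [← mul_assoc, ← hx, mul_assoc, mul_assoc] at h
      exact mul_left_cancel h
    rw [if_pos hx, if_neg hy, if_neg this, mul_assoc]
  · have : ¬ x * y * v = v * (x * y) := by
      intro h
      apply hx
      rw [mul_assoc, hy, ← mul_assoc, ← mul_assoc] at h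
      exact mul_right_cancel h
    rw [if_neg hx, if_pos hy, if_neg this, mul_assoc, hy, mul_assoc]
  · rw [if_neg hx, if_neg hy, if_pos (cm_mul hzc hz2 hz1 hc hx hy)]
    have h2 := (hc y v).resolve_left hy
    calc x * y = x * y * (z * z) := by rw [hz2, mul_one]
      _ = x * y * (v * v * z) := by rw [hv]
      _ = x * ((y * v) * v) * z := by group
      _ = x * ((v * y * z) * v) * z := by rw [h2]
      _ = x * v * y * (z * v) * z := by group
      _ = x * v * y * (v * z) * z := by rw [hzc v]
      _ = x * v * (y * v) * (z * z) := by group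
      _ = x * v * (y * v) := by rw [hz2, mul_one]

theorem exists_tau [Finite Q] {v : Q} (hv : v * v = z) : ∃ τ : MulAut Q, ∀ x, τ x = tf v x := by
  let f : Q →* Q := MonoidHom.mk' (tf v) (tf_mul hzc hz2 hz1 hc hv)
  have hi : Function.Injective f := by
    rw [injective_iff_map_eq_one]
    intro x hx
    change tf v x = 1 at hx
    unfold tf at hx
    split_ifs at hx with h
    · exact hx
    · exfalso
      apply h
      have : x = v⁻¹ := eq_inv_of_mul_eq_one_left hx
      rw [this]; group
  exact ⟨MulEquiv.ofBijective f (Finite.injective_iff_bijective.1 hi), fun _ => rfl⟩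

omit hzc hz2 hz1 hc in
theorem tf_cases (v x : Q) : (x * v = v * x ∧ tf v x = x) ∨ (x * v ≠ v * x ∧ tf v x = x * v) := by
  unfold tf
  by_cases h : x * v = v * x
  · exact Or.inl ⟨h, if_pos h⟩
  · exact Or.inr ⟨h, if_neg h⟩

theorem tf_tf {v : Q} (hv : v * v = z) (x : Q) : tf v (tf v x) = v * x * v⁻¹ := by
  rcases tf_cases v x with ⟨h, e⟩ | ⟨h, e⟩
  · rw [e, e, ← h]; group
  · rw [e, tf_mul hzc hz2 hz1 hc hv, e]
    have : tf v v = v := by unfold tf; rw [if_pos rfl]
    rw [this, mul_assoc, hv]
    have h1 := (hc x v).resolve_left h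
    have : v * x = x * v * z := by rw [h1, mul_assoc, hz2, mul_one]
    rw [this, mul_assoc x v z, hzc v]; group

theorem tf_comm {v w : Q} (hv : v * v = z) (hw : w * w = z) (hvw : v * w = w * v) (x : Q) :
    tf v (tf w x) = tf w (tf v x) := by
  have e1 : tf v w = w := by unfold tf; rw [if_pos hvw.symm]
  have e2 : tf w v = v := by unfold tf; rw [if_pos hvw]
  rcases tf_cases v x with ⟨-, e⟩ | ⟨-, e⟩ <;> rcases tf_cases w x with ⟨-, e'⟩ | ⟨-, e'⟩
  · rw [e, e', e]
  · rw [e, e', tf_mul hzc hz2 hz1 hc hv, e, e1]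
  · rw [e, e', tf_mul hzc hz2 hz1 hc hw, e, e', e2]
  · rw [e, e', tf_mul hzc hz2 hz1 hc hw, tf_mul hzc hz2 hz1 hc hv, e, e', e1, e2, mul_assoc, mul_assoc,
      hvw]

end

theorem conj_eq_one {Q : Type*} [Group Q] {L : Subgroup (MulAut Q)} (h : (Cfsg.Inn Q).IsComplement' L) {a : Q}
    (ha : MulAut.conj a ∈ L) : a ∈ Subgroup.center Q := by
  have h1 : MulAut.conj a ∈ Cfsg.Inn Q ⊓ L := ⟨⟨a, rfl⟩, ha⟩
  rw [h.disjoint.eq_bot, Subgroup.mem_bot] at h1
  rw [Subgroup.mem_center_iff]
  intro g
  have := congrArg (fun φ : MulAut Q => φ g) h1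
  simp only [MulAut.conj_apply, MulAut.one_apply] at this
  calc g * a = a * g * a⁻¹ * a := by rw [this]
    _ = a * g := by group

theorem exists_lift {Q : Type*} [Group Q] {L : Subgroup (MulAut Q)} (h : (Cfsg.Inn Q).IsComplement' L)
    (τ : MulAut Q) : ∃ q : Q, MulAut.conj q * τ ∈ L := by
  obtain ⟨⟨⟨a, ⟨b, hb⟩⟩, ⟨l, hl⟩⟩, e⟩ := h.2 τ
  refine ⟨b⁻¹, ?_⟩
  have e' : a * l = τ := e
  rw [← e', ← hb, map_inv, inv_mul_cancel_left]
  exact hl

/-- Let Q be an extraspecial 2-group of order 2^(2n+1) with n ≥ 3 that is of plus type (it contains an elementary abelian subgroup of order 2^(n+1)). Then the group of inner automorphisms of Q has no complement in the full automorphism group of Q: the extension of the inner automorphism group (elementary abelian of order 2^(2n)) by the outer automorphism group (the orthogonal group of plus type) does not split. -/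
theorem result {Q : Type*} [Group Q] [Finite Q] (n : ℕ) (hn : 3 ≤ n) (hQ : Cfsg.IsExtraspecial 2 Q) (hcard : Nat.card Q = 2 ^ (2 * n + 1)) (hplus : ∃ E : Subgroup Q, Cfsg.IsElementaryAbelian 2 E ∧ Nat.card ↥E = 2 ^ (n + 1)) (L : Subgroup (MulAut Q)) : ¬ (Cfsg.Inn Q).IsComplement' L := by
  intro h
  obtain ⟨⟨hp, hfr, hcm⟩, hZ⟩ := hQ
  obtain ⟨z, hz1', huniq⟩ := (Nat.card_eq_two_iff' (1 : Subgroup.center Q)).1 hZ
  have hz1 : (z : Q) ≠ 1 := fun e => hz1' (Subtype.ext e)
  have hcen : ∀ x ∈ Subgroup.center Q, x = 1 ∨ x = z := by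
    intro x hx
    by_cases e : x = 1
    · exact Or.inl e
    · exact Or.inr (congrArg Subtype.val (huniq ⟨x, hx⟩ (fun e' => e (congrArg Subtype.val e'))))
  have hzc : ∀ x : Q, x * z = z * x := fun x => Subgroup.mem_center_iff.1 z.2 x
  have hz2 : (z : Q) * z = 1 := by
    rcases hcen (z * z) (mul_mem z.2 z.2) with e | e
    · exact e
    · exact absurd (mul_left_cancel (e.trans (mul_one _).symm)) hz1
  have hc : ∀ x y : Q, x * y = y * x ∨ x * y = y * x * z := by
    intro x y
    have : ⁅x⁻¹, y⁻¹⁆ ∈ Subgroup.center Q := hcm ▸ Subgroup.commutator_mem_commutator (Subgroup.mem_top _) (Subgroup.mem_top _)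
    have e0 : x * y = y * x * ⁅x⁻¹, y⁻¹⁆ := by rw [commutatorElement_def]; group
    rcases hcen _ this with e | e
    · left; rw [e0, e, mul_one]
    · right; rw [e0, e]
  have hsq : ∀ x : Q, x * x = 1 ∨ x * x = z := by
    intro x
    apply hcen
    rw [Subgroup.mem_center_iff]
    intro g
    by_cases hg : x * g = g * x
    · rw [← mul_assoc, ← hg, mul_assoc, ← hg, mul_assoc]
    · exact (cm_mul hzc hz2 hz1 hc hg hg).symm
  have hncen : ∀ v : Q, v * v = z → v ∉ Subgroup.center Q := by
    intro v hv hm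
    rcases hcen v hm with e | e
    · rw [e, mul_one] at hv; exact hz1 hv.symm
    · rw [e, hz2] at hv; exact hz1 hv.symm
  -- the lifts
  have key : ∀ v : Q, v * v = z → ∃ (τ : MulAut Q) (q : Q), (∀ x, τ x = tf v x) ∧ MulAut.conj q * τ ∈ L ∧
      q * v ≠ v * q := by
    intro v hv
    obtain ⟨τ, hτ⟩ := exists_tau hzc hz2 hz1 hc hv
    obtain ⟨q, hq⟩ := exists_lift h τ
    refine ⟨τ, q, hτ, hq, fun hqv => ?_⟩
    have e : (MulAut.conj q * τ) * (MulAut.conj q * τ) = MulAut.conj (q * q * v) := by
      ext x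
      have e1 : τ q = q := by rw [hτ]; unfold tf; rw [if_pos hqv]
      rw [MulAut.mul_apply, MulAut.mul_apply, MulAut.mul_apply, MulAut.conj_apply, MulAut.conj_apply,
        MulAut.conj_apply, map_mul, map_mul, map_inv, e1, hτ, hτ, tf_tf hzc hz2 hz1 hc hv]
      group
    have hm := conj_eq_one h (e ▸ mul_mem hq hq)
    apply hncen v hv
    have hqq : q * q ∈ Subgroup.center Q := by
      rcases hsq q with e | e <;> rw [e]
      · exact one_mem _
      · exact z.2
    exact (mul_mem_cancel_left hqq).1 hm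
  have key2 : ∀ v w : Q, v * v = z → w * w = z → v * w = w * v → v * w ∉ Subgroup.center Q →
      ∀ (τ : MulAut Q) (q : Q), (∀ x, τ x = tf v x) → MulAut.conj q * τ ∈ L → q * w = w * q := by
    intro v w hv hw hvw hn τ q hτ hq
    obtain ⟨σ, r, hσ, hr, -⟩ := key w hw
    have hcomm : τ * σ = σ * τ := by
      ext x
      simp only [MulAut.mul_apply]
      rw [hτ, hσ, hσ, hτ, tf_comm hzc hz2 hz1 hc hv hw hvw]
    have e1 : (MulAut.conj q * τ) * (MulAut.conj r * σ) = MulAut.conj (q * τ r) * (τ * σ) := by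
      ext x
      rw [MulAut.mul_apply, MulAut.mul_apply, MulAut.mul_apply, MulAut.mul_apply, MulAut.mul_apply,
        MulAut.conj_apply, MulAut.conj_apply, MulAut.conj_apply, map_mul, map_mul, map_inv]
      group
    have e2 : (MulAut.conj r * σ) * (MulAut.conj q * τ) = MulAut.conj (r * σ q) * (σ * τ) := by
      ext x
      rw [MulAut.mul_apply, MulAut.mul_apply, MulAut.mul_apply, MulAut.mul_apply, MulAut.mul_apply,
        MulAut.conj_apply, MulAut.conj_apply, MulAut.conj_apply, map_mul, map_mul, map_inv]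
      group
    have e3 : (MulAut.conj q * τ) * (MulAut.conj r * σ) * ((MulAut.conj r * σ) * (MulAut.conj q * τ))⁻¹ =
        MulAut.conj (q * τ r * (r * σ q)⁻¹) := by
      rw [e1, e2, hcomm, map_mul MulAut.conj (q * τ r), map_inv]; group
    have hm := conj_eq_one h (e3 ▸ mul_mem (mul_mem hq hr) (inv_mem (mul_mem hr hq)))
    rw [hτ, hσ] at hm
    haveI : IsMulCommutative (Q ⧸ Subgroup.center Q) := by
      refine ⟨⟨fun a b => ?_⟩⟩
      obtain ⟨a, rfl⟩ := QuotientGroup.mk_surjective a
      obtain ⟨b, rfl⟩ := QuotientGroup.mk_surjective b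
      have hz0 : ((z : Q) : Q ⧸ Subgroup.center Q) = 1 := (QuotientGroup.eq_one_iff _).2 z.2
      rw [← QuotientGroup.mk_mul, ← QuotientGroup.mk_mul]
      rcases hc a b with e | e
      · rw [e]
      · rw [e, QuotientGroup.mk_mul, hz0, mul_one]
    rw [← QuotientGroup.eq_one_iff] at hm
    have hw' : ∀ y : Q, y * y = z → ((y : Q ⧸ Subgroup.center Q)) ≠ 1 := fun y hy e =>
      hncen y hy ((QuotientGroup.eq_one_iff _).1 e)
    have hn' : ((v : Q ⧸ Subgroup.center Q)) * w ≠ 1 := fun e =>
      hn ((QuotientGroup.eq_one_iff _).1 e)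
    have hww : ((w : Q ⧸ Subgroup.center Q)) * w = 1 := by
      rw [← QuotientGroup.mk_mul, hw, QuotientGroup.eq_one_iff]; exact z.2
    by_contra hne
    have e4 : tf w q = q * w := by unfold tf; rw [if_neg hne]
    rw [e4] at hm
    simp only [QuotientGroup.mk_mul, QuotientGroup.mk_inv] at hm
    rw [mul_inv_eq_one] at hm
    rcases tf_cases v r with ⟨-, e⟩ | ⟨-, e⟩
    · rw [e, ← mul_assoc, mul_comm' (r : Q ⧸ Subgroup.center Q) q] at hm
      exact hw' w hw (mul_left_cancel (hm.symm.trans (mul_one _).symm))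
    · rw [e, QuotientGroup.mk_mul, ← mul_assoc, ← mul_assoc, mul_comm' (r : Q ⧸ Subgroup.center Q) q] at hm
      have := mul_left_cancel hm
      rw [this] at hn'
      exact hn' hww
  -- an element of order four
  obtain ⟨u, hu⟩ : ∃ u : Q, u * u = z := by
    by_contra hno
    push Not at hno
    have h1 : ∀ x : Q, x * x = 1 := fun x => (hsq x).resolve_right (hno x)
    have hab : ∀ x y : Q, x * y = y * x := by
      intro x y
      have hx : x⁻¹ = x := inv_eq_of_mul_eq_one_right (h1 x)
      have hy : y⁻¹ = y := inv_eq_of_mul_eq_one_right (h1 y)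
      have hxy : (x * y)⁻¹ = x * y := inv_eq_of_mul_eq_one_right (h1 _)
      rw [← hxy, mul_inv_rev, hx, hy]
    have : Subgroup.center Q = ⊤ := by
      rw [eq_top_iff]; intro x _; rw [Subgroup.mem_center_iff]; intro g; exact hab g x
    rw [this, Subgroup.card_top, hcard] at hZ
    have : 2 ^ (2 * n + 1) > 2 ^ 1 := Nat.pow_lt_pow_right (by norm_num) (by omega)
    omega
  obtain ⟨E, ⟨hEc, hE2⟩, hEcard⟩ := hplus
  have hEcomm : ∀ a ∈ E, ∀ b ∈ E, a * b = b * a := fun a ha b hb =>
    congrArg Subtype.val (mul_comm' (⟨a, ha⟩ : E) ⟨b, hb⟩)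
  have hEsq : ∀ a ∈ E, a * a = 1 := fun a ha => by rw [← pow_two]; exact hE2 a ha
  -- the centraliser of u in E has at least eight elements
  let F : Subgroup Q := E ⊓ Subgroup.centralizer {u}
  have hF : 8 ≤ Nat.card F := by
    let f : E →* Subgroup.center Q := MonoidHom.mk' (fun e => ⟨⁅(e : Q), u⁆, hcm ▸
      Subgroup.commutator_mem_commutator (Subgroup.mem_top _) (Subgroup.mem_top _)⟩) (by
        intro a b
        apply Subtype.ext
        have hb : ⁅(b : Q), u⁆ ∈ Subgroup.center Q := hcm ▸
          Subgroup.commutator_mem_commutator (Subgroup.mem_top _) (Subgroup.mem_top _)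
        have := Subgroup.mem_center_iff.1 hb
        change ⁅(a : Q) * b, u⁆ = ⁅(a : Q), u⁆ * ⁅(b : Q), u⁆
        calc ⁅(a : Q) * b, u⁆ = (a : Q) * ⁅(b : Q), u⁆ * (a : Q)⁻¹ * ⁅(a : Q), u⁆ := by
              simp only [commutatorElement_def]; group
          _ = ⁅(b : Q), u⁆ * ⁅(a : Q), u⁆ := by rw [this a]; group
          _ = _ := (this _).symm)
    have h1 : Nat.card E = Nat.card f.ker * Nat.card f.range := by
      rw [← Subgroup.card_mul_index f.ker, Subgroup.index_ker]
    have h2 : Nat.card f.range ≤ 2 := hZ ▸ Subgroup.card_le_card_group _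
    have h3 : Nat.card f.ker ≤ Nat.card F := by
      refine Nat.card_le_card_of_injective (fun a => ⟨((a : E) : Q), (a : E).2, ?_⟩) ?_
      · have : ⁅((a : E) : Q), u⁆ = 1 := congrArg Subtype.val (MonoidHom.mem_ker.1 a.2)
        rw [commutatorElement_eq_one_iff_mul_comm] at this
        exact Subgroup.mem_centralizer_singleton_iff.2 this
      · intro a b e
        exact Subtype.ext (Subtype.ext (congrArg (fun t : F => (t : Q)) e))
    have h4 : 2 ^ (n + 1) ≥ 2 ^ 4 := Nat.pow_le_pow_right (by norm_num) (by omega)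
    nlinarith
  classical
  have pick : ∀ s : Finset Q, s.card < 8 → ∃ a ∈ F, a ∉ s := by
    intro s hs
    by_contra hno
    push Not at hno
    have : Nat.card F ≤ Nat.card s :=
      Nat.card_le_card_of_injective (fun a => ⟨a.1, hno a.1 a.2⟩)
        (fun a b e => Subtype.ext (congrArg (fun t : s => (t : Q)) e))
    rw [Nat.card_eq_fintype_card (α := s), Fintype.card_coe] at this
    omega
  obtain ⟨a, ha, ha'⟩ := pick {1, (z : Q)} (lt_of_le_of_lt Finset.card_le_two (by norm_num))
  obtain ⟨b, hb, hb'⟩ := pick {1, (z : Q), a, a * z} (lt_of_le_of_lt Finset.card_le_four (by norm_num))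
  simp only [Finset.mem_insert, Finset.mem_singleton, not_or] at ha' hb'
  have hua : u * a = a * u := (Subgroup.mem_centralizer_singleton_iff.1 ha.2).symm
  have hub : u * b = b * u := (Subgroup.mem_centralizer_singleton_iff.1 hb.2).symm
  have hab : a * b = b * a := hEcomm a ha.1 b hb.1
  have sq : ∀ e ∈ F, (u * e) * (u * e) = z := by
    intro e he
    have h1 : u * e = e * u := (Subgroup.mem_centralizer_singleton_iff.1 he.2).symm
    calc u * e * (u * e) = u * (e * u) * e := by group
      _ = u * u * (e * e) := by rw [← h1]; group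
      _ = z := by rw [hu, hEsq e he.1, mul_one]
  have cm : ∀ e ∈ F, ∀ e' ∈ F, (u * e) * (u * e') = z * (e * e') := by
    intro e he e' he'
    have h1 : u * e = e * u := (Subgroup.mem_centralizer_singleton_iff.1 he.2).symm
    calc u * e * (u * e') = u * (e * u) * e' := by group
      _ = u * u * (e * e') := by rw [← h1]; group
      _ = _ := by rw [hu]
  obtain ⟨τ, q, hτ, hq, hne⟩ := key (u * (a * b)) (sq _ (mul_mem ha hb))
  have k3 : ∀ e ∈ F, a * b * e ∉ Subgroup.center Q → q * (u * e) = (u * e) * q := by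
    intro e he hn
    refine key2 _ _ (sq _ (mul_mem ha hb)) (sq e he) ?_ ?_ τ q hτ hq
    · rw [cm _ (mul_mem ha hb) _ he, cm _ he _ (mul_mem ha hb), hEcomm _ (mul_mem ha hb).1 _ he.1]
    · rw [cm _ (mul_mem ha hb) _ he]
      exact fun hm => hn ((mul_mem_cancel_left z.2).1 hm)
  have haa := hEsq a ha.1
  have hbb := hEsq b hb.1
  have c1 := k3 1 (one_mem _) (by
    intro hm
    rw [mul_one] at hm
    rcases hcen _ hm with e | e
    · apply hb'.2.2.1
      calc b = a * (a * b) := by rw [← mul_assoc, haa, one_mul]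
        _ = a := by rw [e, mul_one]
    · apply hb'.2.2.2
      calc b = a * (a * b) := by rw [← mul_assoc, haa, one_mul]
        _ = a * z := by rw [e])
  have c2 := k3 a ha (by
    intro hm
    rw [hab, mul_assoc, haa, mul_one] at hm
    rcases hcen _ hm with e | e
    · exact hb'.1 e
    · exact hb'.2.1 e)
  have c3 := k3 b hb (by
    intro hm
    rw [mul_assoc, hbb, mul_one] at hm
    rcases hcen _ hm with e | e
    · exact ha'.1 e
    · exact ha'.2 e)
  rw [mul_one] at c1
  have c4 : q * a = a * q := by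
    rw [← mul_assoc, c1, mul_assoc, mul_assoc] at c2
    exact mul_left_cancel c2
  have c5 : q * b = b * q := by
    rw [← mul_assoc, c1, mul_assoc, mul_assoc] at c3
    exact mul_left_cancel c3
  apply hne
  calc q * (u * (a * b)) = q * u * a * b := by group
    _ = u * (q * a) * b := by rw [c1]; group
    _ = u * a * (q * b) := by rw [c4]; group
    _ = u * (a * b) * q := by rw [c5]; group

end Cfsg.Agent.S3085
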