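import Cfsg.Statements.S3110
import Mathlib
import Cfsg.Agent.H2.Misc

set_option autoImplicit false
open Cfsg

namespace Cfsg.Agent.S3110

open Cfsg.Agent.FT Subgroup
open scoped commutatorElement

/-- Let G be a finite group in which every 2-local subgroup is 2-constrained and some Sylow 2-subgroup has a self-centralizing abelian normal subgroup of 2-rank at least 3, and let S be any Sylow 2-subgroup of G. Then there is a subgroup W of G of odd order such that, for every subgroup B of S of 2-rank at least 2, W is generated by the largest normal odd-order subgroups O(C_G(b)) of the centralizers of the non-identity elements b of B, and W is normalized by the normalizer of every such B. -/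
theorem result {G : Type*} [Group G] [Finite G]
    (h2c : ∀ T : Subgroup G, IsPGroup 2 T → T ≠ ⊥ → Cfsg.IsPConstrained 2 ↥(Subgroup.normalizer (T : Set G)))
    (S : Sylow 2 G) (A : Subgroup ↥(S : Subgroup G)) (hAn : A.Normal) (hAab : IsMulCommutative ↥A)
    (hAC : Subgroup.centralizer (A : Set ↥(S : Subgroup G)) = A) (hA3 : ¬ Cfsg.PRankLE 2 2 ↥A) (S' : Sylow 2 G) :
    ∃ W : Subgroup G, Odd (Nat.card ↥W) ∧
      ∀ B : Subgroup G, B ≤ (S' : Subgroup G) → ¬ Cfsg.PRankLE 2 1 ↥B →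
        W = (⨆ b : {b : G // b ∈ B ∧ b ≠ 1}, Cfsg.centralizerPPrimeCore 2 (b : G)) ∧
        Subgroup.normalizer (B : Set G) ≤ Subgroup.normalizer (W : Set G) := by
  have hp := Nat.prime_two
  have h1 : ∀ b : G, orderOf b = 2 → L[2](C[b]) = ⊥ := fun b hb => by
    rw [← cen_zpowers, ← play_nrm_eq (pGrp_zpowers hp hb), ← isPConstrained_iff hp]
    exact h2c _ (pGrp_zpowers hp hb).isPGroup (zpowers_ne_bot' (ne_one_of_orderOf hb))
  have hb := bal2_of_constrained h1
  obtain ⟨g, -, hg⟩ := (syl_top hp S).syl_trans (syl_top hp S')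
  have hA : Ab (A.map (S : Subgroup G).subtype) := Ab.map _ hAab
  obtain ⟨E, hE, h8, hn⟩ : ∃ E : Subgroup G, Abelem 2 E ∧ 8 ≤ #E ∧ (S' : Subgroup G) ≤ N(E) := by
    refine ⟨cj g Ω[2](A.map (S : Subgroup G).subtype), (hA.abelem_Ohm 2).cj g, ?_, ?_⟩
    · rw [card_cj, hA.card_Ohm hp, ← prank_of_equiv (subtypeEquiv A)]
      exact Nat.pow_le_pow_right (n := 2) two_pos ((lt_prank_iff hp).2 hA3)
    · rw [hg]; exact cj_norms.2 (norms_Ohm 2 (nml_map_subtype A).nrm)
  have key : ∀ B : Subgroup G, B ≤ S' → ¬ PRankLE 2 1 B → cclo 2 E = cclo 2 B := fun B hB hr => by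
    obtain ⟨U, hU⟩ := exists_pnElem_of_lt_prank ((lt_prank_iff hp).2 hr)
    refine le_antisymm ((hb.cclo_eq hE h8 hU.abelem hU.not_cyc (hU.le.trans (hB.trans hn))).ge.trans
      (cclo_mono 2 hU.le)) (cclo_le_iff.2 fun b hbB hb1 => ?_)
    have hP : PGrp 2 ⟪b⟫ := (syl_top hp S').pi.mono (zpowers_le.2 (hB hbB))
    obtain ⟨u, hu, ho⟩ := hP.exists_elt (zpowers_ne_bot' hb1)
    have h2 := cen1_le_cen1_of_mem_zpowers hu
    refine le_trans (le_trans (le_inf le_rfl ((pcore_le _ _).trans h2))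
      (bal_of_constrained (h1 u ho) (piElt_iff.2 hP) (h2 (self_mem_cen1 b)))) (hb.core_le hE ho ?_)
    exact hE.not_cyc_cent h8 (by rw [mul_self_of_orderOf ho]; exact one_mem _) (hn (hB (zpowers_le.2 hbB hu)))
  refine ⟨cclo 2 E, odd_iff_piGrp.2 (hb.cclo hE h8).1, fun B hB hr => ⟨?_, ?_⟩⟩
  · rw [cclo_eq hp, key B hB hr]
  · rw [key B hB hr]; exact nrm_le_nrm_cclo 2 B

end Cfsg.Agent.S3110
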