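import Cfsg.Statements.S3116
import Mathlib
import Cfsg.Agent.H3.ABG

set_option autoImplicit false
open Cfsg

namespace Cfsg.Agent.S3116

/-- The automorphism group of a dihedral 2-group of order at least 8, or of a quasi-dihedral (semidihedral) 2-group of order at least 16, is a 2-group. -/
theorem result {X : Type*} [Group X] [Finite X] (h2 : IsPGroup 2 X)
    (h : (∃ n : ℕ, 4 ≤ n ∧ Nonempty (X ≃* DihedralGroup n)) ∨ Cfsg.IsQuasiDihedral X) : IsPGroup 2 (MulAut X) := by
  open Subgroup Cfsg.Agent.FT Cfsg.Agent.H3 in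
  open scoped commutatorElement in
  · haveI : Fact (Nat.Prime 2) := ⟨Nat.prime_two⟩
    by_contra hn
    obtain ⟨G, _, _, ι, hι, ho⟩ := exists_amb 2 X
    have o := ho ⊤ fun e => hn (e.of_equiv (MulAut.congr topEquiv))
    rcases h with ⟨n, h4, ⟨e⟩⟩ | h
    · obtain ⟨a, b, m, -, h⟩ := exists_mcd_of_iso' (pGrp_top h2) (by omega) (topEquiv.trans e)
      exact (h.map hι).not_oa (h.map hι).nrm_le o
    · obtain ⟨a, b, m, h⟩ := exists_mcs_top h
      exact (h.map hι).not_oa ((h.map hι).toMC.nrm_le h.three_le) o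

end Cfsg.Agent.S3116
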