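import Cfsg.Statements.S3117
import Mathlib
import Cfsg.Agent.H3.Extra
import Cfsg.Agent.H1.FitH
import Cfsg.Agent.H20.TB0
import Cfsg.Agent.H28.Util2

set_option autoImplicit false
open Cfsg

namespace Cfsg.Agent.S3117

open Subgroup Cfsg.Agent.FT Cfsg.Agent.H3
open scoped commutatorElement

universe u

set_option linter.unusedSectionVars false

section
variable {G : Type u} [Group G] [Finite G] {U V H K T P B D E : Subgroup G} {x y z v m g h : G} {r s : ℕ}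

theorem two_primes (hn : B ≤ N(K)) (hB : B ≤ ⁅B, B⁆) (hc : ¬ B ≤ C(K)) : ∃ r s g h, r.Prime ∧ s.Prime ∧
    r ≠ 2 ∧ s ≠ 2 ∧ r ≠ s ∧ g ∈ B ∧ h ∈ B ∧ PiElt {r} g ∧ PiElt {s} h ∧ g ∉ C(K) ∧ h ∉ C(K) := by
  have hN : B ⊓ C(K) ⊴ B := subcent_nml hn
  have ns : ¬ Sol (B /ₛ (B ⊓ C(K))) := fun a => hc (((quo_eq_bot hN.nrm).1
    (a.eq_bot_of_le_der (by rw [← quo_der hN.nrm]; exact quo_mono _ hB))).trans inf_le_right)
  have key : ∀ q, q.Prime → ∃ r g, r.Prime ∧ r ≠ 2 ∧ r ≠ q ∧ g ∈ B ∧ PiElt {r} g ∧ g ∉ C(K) := by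
    intro q hq
    by_contra a
    push Not at a
    refine ns (H28.sol_of_two_primes Nat.prime_two hq ((piGrp_quo_iff hN.nrm).2 fun r hr hd => ?_))
    by_contra b
    simp only [Set.mem_insert_iff, Set.mem_singleton_iff, not_or] at b
    obtain ⟨R, hR⟩ := exists_syl r B
    exact (hR.relIndex_of_le (le_inf hR.le fun g hg =>
      a r g hr b.1 b.2 (hR.le hg) (hR.pi.piElt hg))).not_dvd hr rfl hd
  obtain ⟨r, g, a1, a2, -, a3, a4, a5⟩ := key 2 Nat.prime_two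
  obtain ⟨s, h, b1, b2, b0, b3, b4, b5⟩ := key r a1
  exact ⟨r, s, g, h, a1, b1, a2, b2, b0.symm, a3, b3, a4, b4, a5, b5⟩

theorem ncard_eq (H : Subgroup G) : (H : Set G).ncard = #H := (Nat.card_coe_set_eq _).symm

theorem dvd_ncard (hr : r.Prime) (hg : PiElt {r} g) (X : Set G) (h : ∀ y ∈ X, g * y * g⁻¹ ∈ X)
    (h' : ∀ y ∈ X, y ∉ C[g]) : r ∣ X.ncard := by
  haveI := Fact.mk hr
  have k : ∀ n : ℕ, ∀ y ∈ X, g ^ n * y * (g ^ n)⁻¹ ∈ X := fun n => by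
    induction n with
    | zero => simp
    | succ n ih =>
      intro y hy
      have := h _ (ih y hy)
      rwa [show g * (g ^ n * y * (g ^ n)⁻¹) * g⁻¹ = g ^ (n + 1) * y * (g ^ (n + 1))⁻¹ by group] at this
  have := H20.ncard_modEq_cent (A := ⟪g⟫) hg.zpowers.isPGroup X fun a ha y hy => by
    obtain ⟨n, rfl⟩ := (mem_powers_iff_mem_zpowers.2 ha : a ∈ Submonoid.powers g)
    exact k n y hy
  have e : X ∩ (centralizer (⟪g⟫ : Set G) : Set G) = ∅ :=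
    Set.eq_empty_of_forall_notMem fun y hy => h' y hy.1 (cen_zpowers g ▸ hy.2)
  rw [e, Set.ncard_empty] at this
  exact (Nat.modEq_zero_iff_dvd).1 this

theorem dvd_ncard' (V : Subgroup G) (X : Set G) (h : ∀ v ∈ V, ∀ y ∈ X, v * y ∈ X) : #V ∣ X.ncard := by
  letI : MulAction V X :=
    { smul := fun a y => ⟨a * y, h _ a.2 _ y.2⟩
      one_smul := fun y => Subtype.ext (one_mul _)
      mul_smul := fun a b y => Subtype.ext (mul_assoc _ _ _) }
  have e := Nat.card_congr (MulAction.selfEquivOrbitsQuotientProd (G := V) (X := X) fun y => by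
    rw [eq_bot_iff]
    intro a ha
    exact Subtype.ext (mul_eq_right.1 (congrArg Subtype.val ha)))
  rw [Nat.card_prod, Nat.card_coe_set_eq] at e
  exact e ▸ Dvd.intro_left _ rfl

theorem pow_dvd (hr : r.Prime) (hg : PiElt {r} g) (hP : PGrp 2 U) (hn : g ∈ N(U)) (hc : g ∉ C(U)) :
    ∃ b k, 0 < k ∧ #(U ⊓ C[g]) = 2 ^ b ∧ #U = 2 ^ (b + k) ∧ (r ≠ 2 → r ∣ 2 ^ k - 1) := by
  obtain ⟨a, ha⟩ := hP.card
  obtain ⟨b, hb⟩ := (hP.mono (inf_le_left (b := C[g]))).card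
  have lt := card_lt (inf_lt_left.2 fun e => hc (le_cen1.1 e))
  rw [ha, hb, Nat.pow_lt_pow_iff_right one_lt_two] at lt
  obtain ⟨k, rfl⟩ := Nat.exists_eq_add_of_le lt.le
  refine ⟨b, k, by omega, hb, ha, fun h2 => ?_⟩
  have := dvd_ncard hr hg ((U : Set G) \ (U ⊓ C[g] : Subgroup G)) (fun y hy => ⟨conj_mem hn hy.1, fun e =>
    hy.2 ⟨hy.1, by simpa [mul_assoc] using conj_mem' (le_nrm _ (self_mem_cen1 g)) e.2⟩⟩)
    fun y hy e => hy.2 ⟨hy.1, e⟩
  rw [Set.ncard_diff (show ((U ⊓ C[g] : Subgroup G) : Set G) ⊆ U from inf_le_left (a := U)), ncard_eq,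
    ncard_eq, ha, hb, pow_add, ← Nat.mul_sub_one] at this
  exact ((Nat.coprime_primes hr Nat.prime_two).2 h2).pow_right b |>.dvd_of_dvd_mul_left this

structure Q4 (U V : Subgroup G) : Prop where
  card : #V = 4
  le : V ≤ U
  cen : U ≤ C(V)
  sq : ∀ x ∈ U, x * x ∈ V
  inv : ∀ x ∈ U, x * x = 1 → x ∈ V
  ex : ∀ v ∈ V, v * v = 1

theorem Q4.c (h : Q4 U V) (hx : x ∈ U) (hv : v ∈ V) : v * x = x * v := h.cen hx v hv

theorem Q4.comm_eq (h : Q4 U V) (hx : x ∈ U) (hy : y ∈ U) :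
    ⁅x, y⁆ = x * y * (x * y) * (x * x)⁻¹ * (y * y)⁻¹ := by
  have := h.c hy (inv_mem (h.sq x hx))
  calc ⁅x, y⁆ = x * y * (x * y) * (y⁻¹ * ((x * x)⁻¹ * y)) * (y * y)⁻¹ := by
        simp only [commutatorElement_def]; group
    _ = _ := by rw [this]; group

theorem Q4.comm (h : Q4 U V) (hx : x ∈ U) (hy : y ∈ U) : ⁅x, y⁆ ∈ V :=
  h.comm_eq hx hy ▸ mul_mem (mul_mem (h.sq _ (mul_mem hx hy)) (inv_mem (h.sq x hx))) (inv_mem (h.sq y hy))

theorem Q4.comm_mul (h : Q4 U V) (hx : x ∈ U) (hy : y ∈ U) (hz : z ∈ U) :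
    ⁅x, y * z⁆ = ⁅x, y⁆ * ⁅x, z⁆ := by
  calc ⁅x, y * z⁆ = ⁅x, y⁆ * (y * ⁅x, z⁆) * y⁻¹ := by simp only [commutatorElement_def]; group
    _ = _ := by rw [← h.c hy (h.comm hx hz)]; group

theorem Q4.nrm (h : Q4 U V) (hK : V ≤ K) (hU : K ≤ U) : U ≤ N(K) := le_nrm_iff.2 fun g hg x hx => by
  have := mul_mem (hK (h.comm hg (hU hx))) hx
  simpa [commutatorElement_def] using this

theorem Q4.pGrp (h : Q4 U V) : PGrp 2 U := piGrp_iff_forall.2 fun x hx =>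
  piElt_of_pow_eq_one (piNat_self_pow Nat.prime_two 2) (by
    rw [← h.ex _ (h.sq x hx)]; simp [pow_succ, mul_assoc])

theorem Q4.card_zp (h : Q4 U V) (hv : v ∈ V) (h1 : v ≠ 1) : #⟪v⟫ = 2 := by
  haveI := Fact.mk Nat.prime_two
  rw [card_zpowers', orderOf_eq_prime (by rw [pow_two, h.ex v hv]) h1]

theorem Q4.idx (h : Q4 U V) (hv : v ∈ V) (h1 : v ≠ 1) : ⟪v⟫.relIndex V = 2 := by
  have := FT.card_mul_relIndex (zpowers_le.2 hv)
  rw [h.card_zp hv h1, h.card] at this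
  omega

theorem Q4.aniso (h : Q4 U V) (hv : v ∈ V) (h1 : v ≠ 1) (hK : V ≤ K) (hH : H ≤ U) (hKH : K ≤ H)
    (ha : ∀ x ∈ H, x * x ∈ ⟪v⟫ → x ∈ K) : #H ≤ 4 * #K := by
  by_contra hn
  have step : ∀ L : Subgroup G, K ≤ L → L ≤ H → #L ≤ 4 * #K → ∃ x ∈ H, x ∉ L ∧ #(L ⊔ ⟪x⟫) ≤ 2 * #L :=
    fun L a b c => by
      obtain ⟨x, hx, hx'⟩ := SetLike.not_le_iff_exists.1 fun e : H ≤ L => hn ((card_le e).trans c)
      exact ⟨x, hx, hx', card_sup_zpowers_le Nat.prime_two (h.nrm (hK.trans a) (b.trans hH) (hH hx))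
        (by rw [pow_two]; exact a (hK (h.sq x (hH hx))))⟩
  obtain ⟨x, hx, hx', c1⟩ := step K le_rfl hKH (by omega)
  have l1 : K ⊔ ⟪x⟫ ≤ H := sup_le hKH (zpowers_le.2 hx)
  obtain ⟨y, hy, hy', c2⟩ := step _ le_sup_left l1 (by omega)
  have l2 : K ⊔ ⟪x⟫ ⊔ ⟪y⟫ ≤ H := sup_le l1 (zpowers_le.2 hy)
  obtain ⟨z, hz, hz', -⟩ := step _ (le_sup_left.trans le_sup_left) l2 (by omega)
  have mx : x ∈ K ⊔ ⟪x⟫ := mem_sup_right (mem_zpowers x)
  have mx2 : x ∈ K ⊔ ⟪x⟫ ⊔ ⟪y⟫ := mem_sup_left mx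
  have my2 : y ∈ K ⊔ ⟪x⟫ ⊔ ⟪y⟫ := mem_sup_right (mem_zpowers y)
  have i2 := h.idx hv h1
  have F : ∀ a ∈ H, ∀ b ∈ H, a ∉ K → b ∉ K → a * b ∉ K → ⁅a, b⁆ ∉ ⟪v⟫ := fun a ha' b hb k1 k2 k3 e => by
    rw [h.comm_eq (hH ha') (hH hb), mul_assoc] at e
    have := mul_mem_of_relIndex_two i2 (inv_mem (h.sq a (hH ha'))) (inv_mem (h.sq b (hH hb)))
      (fun e => k1 (ha a ha' (inv_mem_iff.1 e))) fun e => k2 (ha b hb (inv_mem_iff.1 e))
    exact k3 (ha _ (mul_mem ha' hb) ((mul_mem_cancel_right this).1 e))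
  have n1 : ∀ a, a ∉ K ⊔ ⟪x⟫ → a ∉ K := fun a k e => k (mem_sup_left e)
  have n2 : ∀ a, a ∉ K ⊔ ⟪x⟫ ⊔ ⟪y⟫ → a ∉ K := fun a k e => k (mem_sup_left (mem_sup_left e))
  refine F x hx (y * z) (mul_mem hy hz) hx' (n2 _ fun e => hz' ((mul_mem_cancel_left my2).1 e))
    (n2 _ fun e => hz' ((mul_mem_cancel_left my2).1 ((mul_mem_cancel_left mx2).1 e))) ?_
  rw [h.comm_mul (hH hx) (hH hy) (hH hz)]
  exact mul_mem_of_relIndex_two i2 (h.comm (hH hx) (hH hy)) (h.comm (hH hx) (hH hz))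
    (F x hx y hy hx' (n1 _ hy') (n1 _ fun e => hy' ((mul_mem_cancel_left mx).1 e)))
    (F x hx z hz hx' (n2 _ hz') (n2 _ fun e => hz' ((mul_mem_cancel_left mx2).1 e)))

theorem mem_zp_two (h : v * v = 1) (hx : x ∈ ⟪v⟫) : x = 1 ∨ x = v := by
  obtain ⟨n, rfl⟩ := hx
  have e : v ^ (2 : ℤ) = 1 := by rw [zpow_two, h]
  rcases Int.even_or_odd' n with ⟨k, rfl | rfl⟩
  · left; simp only [zpow_mul, e, one_zpow]
  · right; simp only [zpow_add, zpow_mul, e, one_zpow, zpow_one, one_mul]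

theorem Q4.card_le_of (h : Q4 U V) (hm : m ∈ U) (hm' : m ∉ V) (hT : ∀ y ∈ U, ⁅m, y⁆ ∈ T) :
    #U ≤ 32 * #T := by
  let f : U →* G := MonoidHom.mk' (fun y => ⁅m, y.1⁆) fun a b => h.comm_mul hm a.2 b.2
  have e1 : f.ker = C[m].subgroupOf U := by
    ext y
    rw [MonoidHom.mem_ker, mem_subgroupOf, mem_cen1]
    exact commutatorElement_eq_one_iff_mul_comm.trans eq_comm
  have e2 : C[m].relIndex U ≤ #T := by
    rw [relIndex, ← e1, index_ker]
    exact card_le (by rintro _ ⟨y, rfl⟩; exact hT y y.2)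
  have c := FT.card_inf_mul_relIndex C[m] U
  have hv := h.sq m hm
  have h1 : m * m ≠ 1 := fun e => hm' (h.inv m hm e)
  have c1 : #(V ⊔ ⟪m⟫) ≤ 2 * #V := card_sup_zpowers_le Nat.prime_two (h.nrm le_rfl h.le hm)
    (by rwa [pow_two])
  have c2 := h.aniso (H := C[m] ⊓ U) (K := V ⊔ ⟪m⟫) hv h1 le_sup_left inf_le_right
    (le_inf (sup_le (le_cen1.2 (h.cen hm)) (zpowers_le_cen1 m)) (sup_le h.le (zpowers_le.2 hm)))
    fun x hx e => by
      rcases mem_zp_two (h.ex _ hv) e with e | e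
      · exact mem_sup_left (h.inv x hx.2 e)
      · have : x * m * (x * m) = 1 := by
          calc x * m * (x * m) = x * (m * x) * m := by group
            _ = x * x * (m * m) := by rw [← mem_cen1.1 hx.1]; group
            _ = 1 := by rw [e, h.ex _ hv]
        exact (mul_mem_cancel_right (mem_sup_right (mem_zpowers m))).1
          (mem_sup_left (h.inv _ (mul_mem hx.2 hm) this))
  rw [h.card] at c1
  rw [← c]
  exact Nat.mul_le_mul (by omega) e2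

theorem Q4.three (h : Q4 U V) : ∃ a b c, a ≠ b ∧ a ≠ c ∧ b ≠ c ∧ (V : Set G) \ {1} = {a, b, c} := by
  refine Set.ncard_eq_three.1 ?_
  rw [Set.ncard_diff_singleton_of_mem (one_mem V), ncard_eq, h.card]

theorem Q4.card_le (h : Q4 U V) : #U ≤ 64 := by
  by_contra hn
  obtain ⟨a, b, c, ab, -, -, e⟩ := h.three
  have ha : a ∈ (V : Set G) \ {1} := e ▸ Or.inl rfl
  have hb : b ∈ (V : Set G) \ {1} := e ▸ Or.inr (Or.inl rfl)
  have hN : U ≤ N(⟪a⟫) := cents_norm (centsS (zpowers_le.2 ha.1) h.cen)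
  have hT : ⟪a⟫ ⊴ U := ⟨zpowers_le.2 (h.le ha.1), hN⟩
  have hb' : b ∉ ⟪a⟫ := fun k => (mem_zp_two (h.ex a ha.1) k).elim hb.2 ab.symm
  have hbN := hN (h.le hb.1)
  have hV : V ≤ ⟪a⟫ ⊔ ⟪b⟫ := fun v hv => by
    by_cases k : v ∈ ⟪a⟫
    · exact mem_sup_left k
    · exact (mul_mem_cancel_right (mem_sup_right (mem_zpowers b))).1 (mem_sup_left
        (mul_mem_of_relIndex_two (h.idx ha.1 ha.2) hv hb.1 k hb'))
  haveI := Fact.mk Nat.prime_two
  have X : XC 2 (U /ₛ ⟪a⟫) coset(⟪a⟫, b) := by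
    refine ⟨Nat.prime_two, orderOf_eq_prime (by rw [pow_two, ← coset_mul hbN hbN, h.ex b hb.1, coset_one])
      fun k => hb' ((coset_eq_one_iff hbN).1 k), mem_quo_of_mem hbN (h.le hb.1),
      quo_cents _ (centsC h.cen) (mem_quo_of_mem hbN hb.1), fun x hx y hy => ?_⟩
    obtain ⟨x, hx1, hx', rfl⟩ := mem_quo.1 hx
    obtain ⟨y, hy1, hy', rfl⟩ := mem_quo.1 hy
    rw [← coset_comm hx' hy', ← quo_zpowers hbN, ← quo_sup_left (zpowers_le.2 hbN)]
    exact mem_quo_of_mem (hN (h.le (h.comm hx1 hy1))) (hV (h.comm hx1 hy1))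
  have all : ∀ m ∈ U, m ∉ V → ¬ ∀ y ∈ U, ⁅m, y⁆ ∈ ⟪a⟫ := fun m hm hm' k => by
    have := h.card_le_of hm hm' k
    rw [h.card_zp ha.1 ha.2] at this
    omega
  have hZ : Z(U /ₛ ⟪a⟫) ≤ ⟪coset(⟪a⟫, b)⟫ := fun u hu => by
    obtain ⟨m, hm, hm', rfl⟩ := mem_quo.1 hu.1
    have : m ∈ V := by
      by_contra k
      exact all m hm k fun y hy => (coset_commute_iff hm' (hN hy)).1
        (hu.2 _ (mem_quo_of_mem (hN hy) hy)).symm
    rw [← quo_zpowers hbN, ← quo_sup_left (zpowers_le.2 hbN)]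
    exact mem_quo_of_mem hm' (hV this)
  obtain ⟨r, hr⟩ := X.card
  rw [hZ.antisymm X.zle_center, X.card_z] at hr
  have c1 := card_quo_mul hT
  rw [hr, h.card_zp ha.1 ha.2, pow_mul] at c1
  obtain ⟨m, hm, hm'⟩ := SetLike.not_le_iff_exists.1 fun k : U ≤ V => hn ((FT.card_le k).trans (by
    rw [h.card]; omega))
  have c2 := h.card_le_of hm hm' fun y hy => h.comm hm hy
  rw [h.card] at c2
  rcases Nat.lt_or_ge r 3 with k | k
  · interval_cases r <;> omega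
  · have := Nat.pow_le_pow_right (show 0 < 2 ^ 2 by norm_num) k
    omega

/-- elements with given square not centralised by `g`. -/
def TS (U : Subgroup G) (g v : G) : Set G := {x | x ∈ U ∧ x * x = v ∧ x ∉ C[g]}

theorem Q4.dvd (h : Q4 U V) (hr : r.Prime) (h2 : r ≠ 2) (hg : PiElt {r} g) (hn : g ∈ N(U))
    (hc : g ∈ C(V)) (hv : v ∈ V) : 4 * r ∣ (TS U g v).ncard := by
  refine Nat.Coprime.mul_dvd_of_dvd_of_dvd
    (((Nat.coprime_primes Nat.prime_two hr).2 h2.symm).pow_left 2) ?_ ?_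
  · rw [← h.card]
    refine dvd_ncard' V _ fun w hw y hy => ⟨mul_mem (h.le hw) hy.1, ?_, fun e =>
      hy.2.2 ((mul_mem_cancel_left (le_cen1.2 hc hw)).1 e)⟩
    calc w * y * (w * y) = w * (y * w) * y := by group
      _ = w * w * (y * y) := by rw [← h.c hy.1 hw]; group
      _ = v := by rw [h.ex w hw, one_mul, hy.2.1]
  · refine dvd_ncard hr hg _ (fun y hy => ⟨conj_mem hn hy.1, ?_, fun e => hy.2.2 (by
      simpa [mul_assoc] using conj_mem' (le_nrm _ (self_mem_cen1 g)) e)⟩) fun y hy => hy.2.2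
    calc g * y * g⁻¹ * (g * y * g⁻¹) = g * (y * y) * g⁻¹ := by group
      _ = v := by rw [hy.2.1, ← hc v hv, mul_inv_cancel_right]

theorem Q4.sum (h : Q4 U V) (hc : g ∈ C(V)) {a b c : G} (ab : a ≠ b) (ac : a ≠ c) (bc : b ≠ c)
    (e : (V : Set G) \ {1} = {a, b, c}) :
    (TS U g a).ncard + (TS U g b).ncard + (TS U g c).ncard + #(U ⊓ C[g]) = #U := by
  have d : ∀ a b : G, a ≠ b → Disjoint (TS U g a) (TS U g b) := fun a b k =>
    Set.disjoint_left.2 fun x h1 h2 => k (h1.2.1.symm.trans h2.2.1)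
  rw [← Set.ncard_union_eq (d a b ab), ← Set.ncard_union_eq (Set.disjoint_union_left.2 ⟨d a c ac, d b c bc⟩),
    ← ncard_eq, ← ncard_eq, ← Set.ncard_union_eq (Set.disjoint_left.2 (by
      rintro x ((k | k) | k) k' <;> exact k.2.2 k'.2))]
  congr 1
  ext x
  refine ⟨by rintro (((k | k) | k) | k) <;> exact k.1, fun hx => ?_⟩
  by_cases k : x ∈ C[g]
  · exact Or.inr ⟨hx, k⟩
  have : x * x ∈ (V : Set G) \ {1} := ⟨h.sq x hx, fun e => k (le_cen1.2 hc (h.inv x hx e))⟩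
  rw [e] at this
  rcases this with k' | k' | k'
  exacts [Or.inl (Or.inl (Or.inl ⟨hx, k', k⟩)), Or.inl (Or.inl (Or.inr ⟨hx, k', k⟩)),
    Or.inl (Or.inr ⟨hx, k', k⟩)]

theorem Q4.pos (h : Q4 U V) (hc : g ∈ C(V)) (hv : v ∈ (V : Set G) \ {1}) (hl : 4 * #(U ⊓ C[g]) < #U) :
    0 < (TS U g v).ncard := by
  rw [Set.ncard_pos]
  by_contra k
  refine hl.not_ge (h.aniso hv.1 hv.2 (le_inf h.le (le_cen1.2 hc)) le_rfl inf_le_left fun x hx e => ⟨hx, ?_⟩)
  rcases mem_zp_two (h.ex _ hv.1) e with e | e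
  · exact le_cen1.2 hc (h.inv x hx e)
  · by_contra k'
    exact k ⟨x, hx, e, k'⟩

theorem Q4.prime (h : Q4 U V) (hr : r.Prime) (h2 : r ≠ 2) (hg : PiElt {r} g) (hn : g ∈ N(U))
    (hc : g ∈ C(V)) (hc' : g ∉ C(U)) : (r = 3 ∧ 4 * #(U ⊓ C[g]) ≤ #U) ∨
      (r = 5 ∧ #U = 64 ∧ #(U ⊓ C[g]) = 4) := by
  obtain ⟨b, k, hk, e1, e2, hd⟩ := pow_dvd hr hg h.pGrp hn hc'
  have hd := hd h2
  have b2 : 2 ≤ b := by
    have := FT.card_le (le_inf h.le (le_cen1.2 hc))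
    rw [h.card, e1] at this
    exact (Nat.pow_le_pow_iff_right one_lt_two).1 (show 2 ^ 2 ≤ _ from this)
  have b6 : b + k ≤ 6 := by
    have := h.card_le
    rw [e2] at this
    exact (Nat.pow_le_pow_iff_right one_lt_two).1 (show _ ≤ 2 ^ 6 from this)
  have p3 := Nat.prime_three
  have k4 : k ≤ 4 := by omega
  interval_cases k
  · exact absurd (Nat.dvd_one.1 hd) hr.one_lt.ne'
  · exact Or.inl ⟨(Nat.prime_dvd_prime_iff_eq hr p3).1 hd, by rw [e1, e2, pow_add]; omega⟩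
  · exfalso
    obtain rfl : r = 7 := (Nat.prime_dvd_prime_iff_eq hr (by norm_num)).1 hd
    obtain ⟨a, b', c, ab, ac, bc, e⟩ := h.three
    have hl : 4 * #(U ⊓ C[g]) < #U := by rw [e1, e2, pow_add]; have := Nat.two_pow_pos b; omega
    have k : ∀ v ∈ (V : Set G) \ {1}, 28 ≤ (TS U g v).ncard := fun v hv =>
      Nat.le_of_dvd (h.pos hc hv hl) (h.dvd hr h2 hg hn hc hv.1)
    have := h.sum hc ab ac bc e
    have := k a (e ▸ Or.inl rfl)
    have := k b' (e ▸ Or.inr (Or.inl rfl))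
    have := k c (e ▸ Or.inr (Or.inr rfl))
    have := h.card_le
    omega
  · obtain rfl : b = 2 := by omega
    rcases (Nat.Prime.dvd_mul hr).1 (show r ∣ 3 * 5 from hd) with k | k
    · exact Or.inl ⟨(Nat.prime_dvd_prime_iff_eq hr p3).1 k, by rw [e1, e2]; norm_num⟩
    · exact Or.inr ⟨(Nat.prime_dvd_prime_iff_eq hr Nat.prime_five).1 k, e2, e1⟩

theorem Q4.not35 (H : Q4 U V) (hg : PiElt {5} g) (hn : g ∈ N(U)) (hc : g ∈ C(V)) (hh : PiElt {3} h)
    (hn' : h ∈ N(U)) (hc' : h ∈ C(V)) (e1 : #U = 64) (e2 : #(U ⊓ C[g]) = 4)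
    (e3 : 4 * #(U ⊓ C[h]) ≤ #U) : False := by
  obtain ⟨a, b, c, ab, ac, bc, e⟩ := H.three
  have ha : a ∈ (V : Set G) \ {1} := e ▸ Or.inl rfl
  have hb : b ∈ (V : Set G) \ {1} := e ▸ Or.inr (Or.inl rfl)
  have hc2 : c ∈ (V : Set G) \ {1} := e ▸ Or.inr (Or.inr rfl)
  have hF : V = U ⊓ C[g] := eq_of_card_eq (le_inf H.le (le_cen1.2 hc)) (H.card.trans e2.symm)
  have k : ∀ v ∈ (V : Set G) \ {1}, 20 ≤ (TS U g v).ncard ∧ (TS U h v).ncard ≤ (TS U g v).ncard ∧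
      12 ∣ (TS U h v).ncard := fun v hv =>
    ⟨Nat.le_of_dvd (H.pos hc hv (by omega)) (H.dvd Nat.prime_five (by norm_num) hg hn hc hv.1),
      Set.ncard_le_ncard fun x hx => ⟨hx.1, hx.2.1, fun k => hx.2.2 (le_cen1.2 hc' (hF.ge ⟨hx.1, k⟩))⟩,
      H.dvd Nat.prime_three (by norm_num) hh hn' hc' hv.1⟩
  have := H.sum hc ab ac bc e
  have := H.sum hc' ab ac bc e
  have := k a ha
  have := k b hb
  have := k c hc2
  omega

theorem Q4.cents (H : Q4 U V) (hn : B ≤ N(U)) (hB : B ≤ ⁅B, B⁆) (hV : B ≤ C(V)) : B ≤ C(U) := by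
  by_contra hc
  obtain ⟨r, s, g, h, hr, hs, r2, s2, rs, hg, hh, pg, ph, ng, nh⟩ := two_primes hn hB hc
  rcases H.prime hr r2 pg (hn hg) (hV hg) ng with ⟨rfl, a⟩ | ⟨rfl, a, a'⟩ <;>
  rcases H.prime hs s2 ph (hn hh) (hV hh) nh with ⟨rfl, b⟩ | ⟨rfl, b, b'⟩
  · exact rs rfl
  · exact H.not35 ph (hn hh) (hV hh) pg (hn hg) (hV hg) b b' a
  · exact H.not35 pg (hn hg) (hV hg) ph (hn hh) (hV hh) a a' b
  · exact rs rfl

theorem exists_V (hP : PGrp 2 P) (h3 : {x | x ∈ P ∧ orderOf x = 2}.ncard = 3) :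
    ∃ V : Subgroup G, #V = 4 ∧ ∀ x, x ∈ V ↔ x ∈ P ∧ x * x = 1 := by
  haveI := Fact.mk Nat.prime_two
  have sq : ∀ x : G, orderOf x = 2 → x * x = 1 := fun x h => by rw [← pow_two, ← h, pow_orderOf_eq_one]
  have n1 : ∀ x : G, orderOf x = 2 → x ≠ 1 := fun x h e => by simp [e] at h
  have hne : P ≠ ⊥ := by
    obtain ⟨x, hx⟩ := (Set.ncard_pos (Set.toFinite _)).1 (h3 ▸ three_pos : 0 < _)
    exact ne_bot_of_mem hx.1 (n1 x hx.2)
  obtain ⟨z, hz, oz⟩ := (hP.mono inf_le_left).exists_elt (hP.center_ne_bot hne)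
  obtain ⟨a, ha, az⟩ := Set.exists_ne_of_one_lt_ncard (h3 ▸ (by norm_num : 1 < 3) :
    1 < {x | x ∈ P ∧ orderOf x = 2}.ncard) z
  have c : a * z = z * a := hz.2 a ha.1
  have ha' : a ∉ ⟪z⟫ := fun k => (mem_zp_two (sq z oz) k).elim (n1 a ha.2) az
  have za : z * a * (z * a) = 1 := by
    calc z * a * (z * a) = z * (a * z) * a := by group
      _ = z * z * (a * a) := by rw [c]; group
      _ = 1 := by rw [sq z oz, sq a ha.2, one_mul]
  have oza : orderOf (z * a) = 2 := orderOf_eq_prime (by rw [pow_two, za]) fun e => ha' (by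
    rw [eq_inv_of_mul_eq_one_right e]; exact inv_mem (mem_zpowers z))
  have hc : a ∈ C(⟪z⟫) := by rw [cen_zpowers, mem_cen1, c]
  have ab := (abelem_zpowers (p := 2) (by rw [pow_two, sq z oz])).sup_zpowers hc (by rw [pow_two, sq a ha.2])
  have e : ({z, a, z * a} : Set G) = {x | x ∈ P ∧ orderOf x = 2} := by
    refine Set.eq_of_subset_of_ncard_le ?_ ?_
    · rintro x (rfl | rfl | rfl)
      exacts [⟨hz.1, oz⟩, ha, ⟨mul_mem hz.1 ha.1, oza⟩]
    · rw [h3, Set.ncard_eq_three.2 ⟨z, a, z * a, az.symm, fun e => n1 a ha.2 (by simpa using e),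
        fun e => n1 z oz (by simpa using e), rfl⟩]
  refine ⟨⟪z⟫ ⊔ ⟪a⟫, ?_, fun x => ⟨fun hx => ⟨sup_le (zpowers_le.2 hz.1) (zpowers_le.2 ha.1) hx,
    by rw [← pow_two, ab.pow hx]⟩, fun hx => ?_⟩⟩
  · rw [card_sup_of_inf (cents_norm (zpowers_le.2 hc)) (by
      rw [inf_comm]; exact prime_inf_of_not_le (by rw [card_zpowers', ha.2]; exact Nat.prime_two)
        fun k => ha' (k (mem_zpowers a))), card_zpowers', card_zpowers', oz, ha.2]
  · by_cases k : x = 1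
    · exact k ▸ one_mem _
    have : x ∈ ({z, a, z * a} : Set G) := e ▸ ⟨hx.1, orderOf_eq_prime (by rw [pow_two, hx.2]) k⟩
    have m1 : z ∈ ⟪z⟫ ⊔ ⟪a⟫ := mem_sup_left (mem_zpowers z)
    have m2 : a ∈ ⟪z⟫ ⊔ ⟪a⟫ := mem_sup_right (mem_zpowers a)
    rcases this with rfl | rfl | rfl
    exacts [m1, m2, mul_mem m1 m2]

theorem main (hP : PGrp 2 P) (h3 : {x | x ∈ P ∧ orderOf x = 2}.ncard = 3) (hn : B ≤ N(P))
    (hB : B ≤ ⁅B, B⁆) : B ≤ C(P) := by
  obtain ⟨V, hV4, hV⟩ := exists_V hP h3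
  have hVP : V ≤ P := fun x hx => ((hV x).1 hx).1
  have nV : N(P) ≤ N(V) := le_nrm_iff.2 fun g hg x hx => (hV _).2 ⟨conj_mem hg (hVP hx), by
    calc g * x * g⁻¹ * (g * x * g⁻¹) = g * (x * x) * g⁻¹ := by group
      _ = 1 := by rw [((hV x).1 hx).2]; group⟩
  have hBV : B ≤ C(V) := by
    by_contra hc
    obtain ⟨r, s, g, h, hr, hs, r2, s2, rs, hg, hh, pg, ph, ng, nh⟩ := two_primes (hn.trans nV) hB hc
    have k : ∀ r g, r.Prime → r ≠ 2 → g ∈ B → PiElt {r} g → g ∉ C(V) → r = 3 := fun r g a b c d e => by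
      obtain ⟨n, k, hk, -, e2, hd⟩ := pow_dvd a d (hP.mono hVP) (nV (hn c)) e
      have : n + k = 2 := Nat.pow_right_injective le_rfl (e2.symm.trans hV4)
      have hd := hd b
      have k2 : k ≤ 2 := by omega
      interval_cases k
      · exact absurd (Nat.dvd_one.1 hd) a.one_lt.ne'
      · exact (Nat.prime_dvd_prime_iff_eq a Nat.prime_three).1 hd
    exact rs ((k r g hr r2 hg pg ng).trans (k s h hs s2 hh ph nh).symm)
  by_contra hc
  obtain ⟨D, -, ⟨hDP, hnD, hcD⟩, hmin⟩ := exists_min (fun D => D ≤ P ∧ B ≤ N(D) ∧ ¬ B ≤ C(D)) ⟨le_rfl, hn, hc⟩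
  have prop : ∀ E, E < D → B ≤ N(E) → B ≤ C(E) := fun E a b => by
    by_contra c
    exact a.ne (hmin E ⟨a.le.trans hDP, b, c⟩ a.le)
  have hDB : ⁅D, B⁆ = D := by
    by_contra a
    have b := comm_eq_bot'.2 (prop _ (lt_of_le_of_ne (comm_le_left hnD) a) (norm_comm_right D B))
    exact hcD (hB.trans (comm_eq_bot.1 (three_subgroup (by rwa [commC B D]) b)))
  have cen : ∀ E : Subgroup G, D ≤ N(E) → B ≤ C(E) → D ≤ C(E) := fun E a b => by
    have := three_subgroup (A := B) (B := E) (C := D) (by rw [comm_eq_bot.2 b, commutator_bot_left])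
      (comm_eq_bot'.2 (centsS (comm_le_left a) b))
    rwa [hDB, comm_eq_bot] at this
  have hD1 : D ≠ ⊥ := fun e => hcD (e ▸ cen_bot.ge.trans' le_top)
  have hBΦ := prop _ (Phi_lt hD1) (norms_Phi hnD)
  have hDΦ := cen _ (Phi_nrm D) hBΦ
  have hDV := cen V (hDP.trans ((le_nrm P).trans nV)) hBV
  obtain ⟨d1, d2⟩ := (abelem_quo_iff (Phi_nrm D)).1 (hP.mono hDP).abelem_quo_Phi
  have s1 : ∀ x ∈ D, x * x ∈ Phi D := fun x hx => pow_two x ▸ d2 x hx
  have s2 : ∀ x ∈ D, ∀ y ∈ D, ⁅x, y⁆ ∈ Phi D := fun x hx y hy => d1 (commutator_mem_commutator hx hy)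
  have s3 : ∀ x ∈ D, ∀ y ∈ D, ⁅y, x⁆ * ⁅y, x⁆ = 1 := fun x hx y hy => by
    calc ⁅y, x⁆ * ⁅y, x⁆ = ⁅y, x⁆ * (⁅y, x⁆ * x) * x⁻¹ := by group
      _ = ⁅y, x * x⁆ := by rw [hDΦ hx _ (s2 y hy x hx)]; simp only [commutatorElement_def]; group
      _ = 1 := commutatorElement_eq_one_iff_mul_comm.2 (hDΦ hy _ (s1 x hx)).symm
  have s4 : ∀ x ∈ D, ∀ y ∈ D, x * y * (x * y) = ⁅y, x⁆ * (x * x * (y * y)) := fun x hx y hy => by
    calc x * y * (x * y) = x * ⁅y, x⁆ * (x * (y * y)) := by simp only [commutatorElement_def]; group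
      _ = _ := by rw [← hDΦ hx _ (s2 y hy x hx)]; group
  let K : Subgroup G :=
    { carrier := {x | x ∈ D ∧ x * x * (x * x) = 1}
      one_mem' := ⟨one_mem _, by simp⟩
      mul_mem' := fun {x y} hx hy => ⟨mul_mem hx.1 hy.1, by
        have a1 := s1 x hx.1
        have a2 := s1 y hy.1
        have a3 := s2 y hy.1 x hx.1
        have c1 := hDΦ (Phi_le D (mul_mem a1 a2)) _ a3
        have c2 := hDΦ (Phi_le D a1) _ a2
        have e3 := s3 x hx.1 y hy.1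
        have e1 := hx.2
        have e2 := hy.2
        rw [s4 x hx.1 y hy.1]
        generalize ⁅y, x⁆ = c at *
        generalize x * x = a at *
        generalize y * y = b at *
        calc c * (a * b) * (c * (a * b)) = c * (a * b * c) * (a * b) := by group
          _ = c * c * (a * (b * a) * b) := by rw [← c1]; group
          _ = c * c * (a * a * (b * b)) := by rw [c2]; group
          _ = 1 := by rw [e1, e2, e3]; group⟩
      inv_mem' := fun {x} hx => ⟨inv_mem hx.1, by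
        rw [← mul_inv_rev, ← mul_inv_rev, hx.2, inv_one]⟩ }
  have hDK : D ≤ K := hDB.ge.trans (commutator_le.2 fun x hx b hb => by
    have hy : b * x⁻¹ * b⁻¹ ∈ D := conj_mem (hnD hb) (inv_mem hx)
    have e : ⁅x, b⁆ = x * (b * x⁻¹ * b⁻¹) := by simp only [commutatorElement_def]; group
    have e' : b * x⁻¹ * b⁻¹ * (b * x⁻¹ * b⁻¹) = (x * x)⁻¹ := by
      calc _ = b * (x * x)⁻¹ * b⁻¹ := by group
        _ = _ := by rw [← hBΦ hb _ (inv_mem (s1 x hx)), mul_inv_cancel_right]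
    refine ⟨e ▸ mul_mem hx hy, ?_⟩
    rw [e, s4 x hx _ hy, e', mul_inv_cancel, mul_one, s3 x hx _ hy])
  have hab : V ≤ C(V) := fun x hx y hy => by
    have a := ((hV x).1 hx).2
    have b := ((hV y).1 hy).2
    have c := ((hV _).1 (mul_mem hx hy)).2
    calc y * x = x * x * (y * x) * (y * y) := by rw [a, b]; group
      _ = x * (x * y * (x * y)) * y := by group
      _ = x * y := by rw [c]; group
  have H : Q4 (D ⊔ V) V := by
    refine ⟨hV4, le_sup_right, sup_le hDV hab, fun x hx => ?_, fun x hx e =>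
      (hV x).2 ⟨sup_le hDP hVP hx, e⟩, fun v hv => ((hV v).1 hv).2⟩
    obtain ⟨d, hd, v, hv, rfl⟩ := (mem_sup_norm' (cents_norm hDV)).1 hx
    have : d * v * (d * v) = d * d := by
      calc d * v * (d * v) = d * (v * d) * v := by group
        _ = d * d * (v * v) := by rw [hDV hd v hv]; group
        _ = _ := by rw [((hV v).1 hv).2, mul_one]
    exact this ▸ (hV _).2 ⟨hDP (mul_mem hd hd), (hDK hd).2⟩
  exact hcD (centsS le_sup_left (H.cents (normsY hnD (hn.trans nV)) hB hBV))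

end

/-- If X is a finite 2-group containing exactly three involutions, then the automorphism group of X is solvable. -/
theorem result {X : Type*} [Group X] [Finite X] (h2 : IsPGroup 2 X) (h3 : Nat.card {x : X // orderOf x = 2} = 3) : Group.IsSolvable (MulAut X) := by
  open SemidirectProduct in
  haveI := H1.sd_finite (X := X) (A := MulAut X) (MonoidHom.id _)
  by_contra ns
  let A : Subgroup (X ⋊[MonoidHom.id _] MulAut X) := (⊤ : Subgroup (MulAut X)).map inr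
  have nsA : ¬ Sol A := fun a => ns (sol_top.1 (a.of_equiv ((⊤ : Subgroup _).equivMapOfInjective _
    inr_injective).symm))
  obtain ⟨B, -, ⟨hBA, nsB⟩, hmin⟩ := exists_min (fun B => B ≤ A ∧ ¬ Sol B) ⟨le_rfl, nsA⟩
  have hB : B ≤ ⁅B, B⁆ := (hmin _ ⟨(der_le B).trans hBA, fun a => nsB (sol_of_der a)⟩ (der_le B)).ge
  have hP : PGrp 2 ((⊤ : Subgroup X).map (inl : X →* X ⋊[MonoidHom.id _] MulAut X)) :=
    PiGrp.map _ (pGrp_of_isPGroup Nat.prime_two (h2.to_subgroup ⊤))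
  have e : {x | x ∈ (⊤ : Subgroup X).map (inl : X →* X ⋊[MonoidHom.id _] MulAut X) ∧ orderOf x = 2} =
      inl '' {x : X | orderOf x = 2} := by
    ext y
    constructor
    · rintro ⟨⟨x, -, rfl⟩, h⟩
      exact ⟨x, (orderOf_injective _ inl_injective x).symm.trans h, rfl⟩
    · rintro ⟨x, h, rfl⟩
      exact ⟨⟨x, mem_top x, rfl⟩, (orderOf_injective _ inl_injective x).trans h⟩
  have := main hP (by rw [e, Set.ncard_image_of_injective _ inl_injective]; exact h3) (H1.sd_norms _ B) hB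
  refine nsB ((eq_bot_iff.2 fun b hb => ?_ : B = ⊥) ▸ sol_bot)
  obtain ⟨a, -, rfl⟩ := hBA hb
  have : a = 1 := MulEquiv.ext fun x => (H1.sd_comm (MonoidHom.id _)).1 (this hb _ ⟨x, mem_top x, rfl⟩).symm
  rw [this, map_one]
  exact one_mem _

end Cfsg.Agent.S3117
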