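import Cfsg.Statements.S3121
import Mathlib
import Cfsg.Agent.AC.App2
import Cfsg.Agent.AC.Main

set_option autoImplicit false
open Cfsg

namespace Cfsg.Agent.S3121

/-- Let G be a finite group whose generalized Fitting subgroup F*(G) is a non-abelian simple group, let H be a tightly embedded subgroup of G and N its normalizer. If H^g ∩ N has odd order for every element g of G outside N, then either H is normal in G or F*(G) has a strongly embedded subgroup. -/
theorem result {G : Type*} [Group G] [Finite G]
    (hF : IsSimpleGroup ↥(Cfsg.generalizedFittingSubgroup G)) (hF' : ¬ IsMulCommutative ↥(Cfsg.generalizedFittingSubgroup G))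
    (H : Subgroup G) (hH : Cfsg.IsTightlyEmbedded H)
    (hodd : ∀ g : G, g ∉ Subgroup.normalizer (H : Set G) →
      Odd (Nat.card ↥(H.map (MulAut.conj g).toMonoidHom ⊓ Subgroup.normalizer (H : Set G)))) :
    H.Normal ∨ ∃ M : Subgroup ↥(Cfsg.generalizedFittingSubgroup G), Cfsg.IsStronglyEmbedded M := by
  exact or_iff_not_imp_left.2 fun hn => Cfsg.Agent.AC.Ap.se_gfit Cfsg.Agent.AC.core hF hF' (Cfsg.Agent.AC.Ap.ti_ht hH.1 hn hodd)

end Cfsg.Agent.S3121
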