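import Cfsg.Statements.S3356
import Mathlib
import Cfsg.Agent.FT.Nil

set_option autoImplicit false
open Cfsg

namespace Cfsg.Agent.S3356

open Cfsg.Agent.FT Subgroup

theorem dvd_card_of_orbits {K X : Type*} [Group K] [MulAction K X] [Finite X] {r : ℕ}
    (h : ∀ x : X, (MulAction.stabilizer K x).index = r) : r ∣ Nat.card X := by
  classical
  have : Fintype (MulAction.orbitRel.Quotient K X) := Fintype.ofFinite _
  rw [Nat.card_congr (MulAction.selfEquivSigmaOrbits' K X), Nat.card_sigma]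
  refine Finset.dvd_sum fun q _ => ?_
  rw [MulAction.orbitRel.Quotient.orbit_eq_orbit_out q Quotient.out_eq', Nat.card_coe_set_eq,
    ← MulAction.index_stabilizer, h]

theorem dvd_card_conj {G : Type*} [Group G] [Finite G] (K : Subgroup G) (S : Set G) {r : ℕ}
    (hS : ∀ k ∈ K, ∀ x ∈ S, k * x * k⁻¹ ∈ S) (h : ∀ x ∈ S, C[x].relIndex K = r) : r ∣ Nat.card S := by
  letI : MulAction K S :=
    { smul := fun k x => ⟨k * x * k⁻¹, hS k k.2 x x.2⟩
      one_smul := fun x => Subtype.ext (by change ((1 : K) : G) * x * ((1 : K) : G)⁻¹ = x; simp)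
      mul_smul := fun k l x => Subtype.ext (by
        change ((k * l : K) : G) * x * ((k * l : K) : G)⁻¹ = k * (l * x * (l : G)⁻¹) * (k : G)⁻¹
        simp [mul_assoc]) }
  refine dvd_card_of_orbits (K := K) fun x => ?_
  rw [← h x x.2, relIndex]
  congr 1
  ext k
  rw [MulAction.mem_stabilizer_iff, mem_subgroupOf, mem_cen1, Subtype.ext_iff]
  exact mul_inv_eq_iff_eq_mul

variable {G : Type*} [Group G] [Finite G]

/-- `H` acts half-transitively, faithfully and not semiregularly on `N` -/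
structure HT (H N : Subgroup G) (m : ℕ) : Prop where
  nrm : H ≤ N(N)
  idx : ∀ x ∈ N, x ≠ 1 → C[x].relIndex H = m
  ne : ∀ x ∈ N, x ≠ 1 → ¬ H ⊓ C[x] ≤ C(N)

variable {H N : Subgroup G} {m : ℕ}

theorem HT.cop (h : HT H N m) : m.Coprime #N := by
  have := dvd_card_conj H ((N : Set G) \ {1}) (fun k hk x hx => ⟨conj_mem (h.nrm hk) hx.1, conj_ne_one.2 hx.2⟩)
    fun x hx => h.idx x hx.1 hx.2
  rw [Nat.card_coe_set_eq, Set.ncard_diff_singleton_of_mem N.one_mem, ← Nat.card_coe_set_eq] at this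
  have h2 : (#N - 1).Coprime #N := by
    have := card_pos N
    obtain ⟨k, hk⟩ : ∃ k, #N = k + 1 := ⟨#N - 1, by omega⟩
    rw [hk]; simp
  exact Nat.Coprime.coprime_dvd_left this h2

theorem HT.card (h : HT H N m) {x : G} (hx : x ∈ N) (h1 : x ≠ 1) : #(H ⊓ C[x]) * m = #H := by
  rw [← h.idx x hx h1, inf_comm, card_inf_mul_relIndex]

theorem HT.eq (h : HT H N m) {x y : G} (hx : x ∈ N) (x1 : x ≠ 1) (hy : y ∈ N) (y1 : y ≠ 1)
    (hc : H ⊓ C[x] ≤ C[y]) : H ⊓ C[x] = H ⊓ C[y] := by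
  refine eq_of_card_eq (le_inf inf_le_left hc) (Nat.eq_of_mul_eq_mul_right ?_ ((h.card hx x1).trans (h.card hy y1).symm))
  rw [← h.idx x hx x1]; exact relIndex_pos _ _

/-- blocks of size dividing `|N|` are fixed pointwise -/
theorem HT.block (h : HT H N m) {S : Set G} (hN : ∀ x ∈ S, x ∈ N ∧ x ≠ 1) (hd : Nat.card S ∣ #N)
    (hb : ∀ x ∈ S, ∀ k ∈ H ⊓ C[x], ∀ y ∈ S, k * y * k⁻¹ ∈ S) {x y : G} (hx : x ∈ S) (hy : y ∈ S) :
    H ⊓ C[x] ≤ C[y] := by
  let K : Subgroup G := H ⊓ normalizer S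
  have hK : ∀ z ∈ S, H ⊓ C[z] ≤ K := fun z hz k hk => ⟨hk.1, mem_normalizer_fintype (hb z hz k hk)⟩
  have e : ∀ z ∈ S, C[z].relIndex K * K.relIndex H = m := fun z hz => by
    rw [← h.idx z (hN z hz).1 (hN z hz).2, ← inf_relIndex_left H C[z], ← relIndex_mul (hK z hz) inf_le_left,
      ← inf_relIndex_right (H ⊓ _) K, inf_comm H, inf_assoc, inf_eq_right.2 (inf_le_left : K ≤ H), inf_relIndex_right]
  have h1 := dvd_card_conj K S (r := C[y].relIndex K) (fun k hk z hz => (hk.2 z).1 hz) fun z hz =>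
    Nat.eq_of_mul_eq_mul_right (relIndex_pos _ _) ((e z hz).trans (e y hy).symm)
  have h2 := Nat.eq_one_of_dvd_coprimes h.cop (Dvd.intro _ (e y hy)) (h1.trans hd)
  exact (hK x hx).trans (relIndex_eq_one.1 h2)

theorem HT.cls (h : HT H N m) {x n : G} (hx : x ∈ N) (x1 : x ≠ 1) (hn : n ∈ N) : H ⊓ C[x] ≤ C[n * x * n⁻¹] := by
  refine h.block (S := {y | ∃ n ∈ N, y = n * x * n⁻¹}) ?_ ?_ ?_ ⟨1, N.one_mem, by simp⟩ ⟨n, hn, rfl⟩
  · rintro _ ⟨k, hk, rfl⟩
    exact ⟨conj_mem (le_nrm N hk) hx, conj_ne_one.2 x1⟩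
  · have : {y | ∃ n ∈ N, y = n * x * n⁻¹} = MulAction.orbit (N.map (ConjAct.toConjAct (G := G)).toMonoidHom) x := by
      ext y
      constructor
      · rintro ⟨k, hk, rfl⟩; exact ⟨⟨_, k, hk, rfl⟩, rfl⟩
      · rintro ⟨⟨_, k, hk, rfl⟩, rfl⟩; exact ⟨k, hk, rfl⟩
    rw [this, Nat.card_coe_set_eq, ← MulAction.index_stabilizer,
      ← card_map_inj (f := (ConjAct.toConjAct (G := G)).toMonoidHom) (ConjAct.toConjAct (G := G)).injective]
    exact index_dvd_card _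
  · rintro _ ⟨a, ha, rfl⟩ k hk _ ⟨b, hb, rfl⟩
    have h1 := mem_cen1.1 hk.2
    refine ⟨k * (b * a⁻¹) * k⁻¹ * a, N.mul_mem (conj_mem (h.nrm hk.1) (N.mul_mem hb (N.inv_mem ha))) ha, ?_⟩
    have h2 : k⁻¹ * (a * x * a⁻¹) * k = a * x * a⁻¹ := by rw [mul_assoc, ← h1]; group
    calc k * (b * x * b⁻¹) * k⁻¹ = k * (b * a⁻¹) * (a * x * a⁻¹) * (b * a⁻¹)⁻¹ * k⁻¹ := by group
      _ = k * (b * a⁻¹) * (k⁻¹ * (a * x * a⁻¹) * k) * (b * a⁻¹)⁻¹ * k⁻¹ := by rw [h2]
      _ = _ := by group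

theorem HT.nml (h : HT H N m) {x : G} (hx : x ∈ N) (x1 : x ≠ 1) : N ⊓ C(H ⊓ C[x]) ⊴ N := by
  refine ⟨inf_le_left, le_nrm_iff.2 fun n hn y hy => ⟨conj_mem (le_nrm N hn) hy.1, ?_⟩⟩
  by_cases y1 : y = 1
  · simp [y1]
  rw [h.eq hx x1 hy.1 y1 (le_cen1.2 hy.2)]
  exact le_cen1.1 (h.cls hy.1 y1 hn)

theorem HT.self {x : G} (hx : x ∈ N) : x ∈ N ⊓ C(H ⊓ C[x]) := ⟨hx, le_cen1.1 inf_le_right⟩

theorem HT.inf (h : HT H N m) {x y : G} (hx : x ∈ N) (x1 : x ≠ 1) (hy : y ∈ N) (y1 : y ≠ 1)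
    (hn : y ∉ N ⊓ C(H ⊓ C[x])) : (N ⊓ C(H ⊓ C[x])) ⊓ (N ⊓ C(H ⊓ C[y])) = ⊥ := by
  by_contra e
  obtain ⟨z, hz, z1⟩ := exists_ne_one e
  rw [h.eq hx x1 hz.1.1 z1 (le_cen1.2 hz.1.2), ← h.eq hy y1 hz.1.1 z1 (le_cen1.2 hz.2.2)] at hn
  exact hn (HT.self hy)

theorem HT.comm (h : HT H N m) {x y z : G} (hx : x ∈ N) (x1 : x ≠ 1) (hy : y ∈ N)
    (hn : y ∉ N ⊓ C(H ⊓ C[x])) (hz : z ∈ N ⊓ C(H ⊓ C[x])) : Commute y z := by
  have y1 : y ≠ 1 := fun e => hn (e ▸ one_mem _)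
  exact mem_cen.1 (cents_of_norms_of_inf (inf_le_left.trans (h.nml hx x1).nrm) (inf_le_left.trans (h.nml hy y1).nrm)
    (h.inf hx x1 hy y1 hn) hz) y (HT.self hy)

theorem HT.ex (h : HT H N m) {x : G} (hx : x ∈ N) (x1 : x ≠ 1) : ∃ y ∈ N, y ∉ N ⊓ C(H ⊓ C[x]) := by
  by_contra e
  push Not at e
  exact h.ne x hx x1 (centsC fun y hy => (e y hy).2)

theorem HT.ab (h : HT H N m) : Ab N := ab_iff_forall.2 fun x hx z hz => by
  by_cases x1 : x = 1
  · simp [x1]
  by_cases hn : z ∈ N ⊓ C(H ⊓ C[x])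
  · obtain ⟨y, hy, hy'⟩ := h.ex hx x1
    have h1 := h.comm hx x1 hy hy' hn
    have h2 := h.comm hx x1 (N.mul_mem hx hy) (fun e => hy' ((mul_mem_cancel_left (HT.self hx)).1 e)) hn
    have := h2.mul_left h1.inv_left
    rwa [mul_inv_cancel_right] at this
  · exact (h.comm hx x1 hz hn (HT.self hx)).symm

theorem HT.exp (h : HT H N m) (h1 : N ≠ ⊥) : ∃ p : ℕ, p.Prime ∧ ∀ x ∈ N, x ^ p = 1 := by
  obtain ⟨p, hp, hd⟩ := exists_prime_dvd_card h1
  obtain ⟨y, hy, ey⟩ := exists_elt_of_prime_dvd hp hd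
  have y1 : y ≠ 1 := fun e => hp.one_lt.ne (by rw [← ey, e, orderOf_one])
  have yp : y ^ p = 1 := ey ▸ pow_orderOf_eq_one y
  have key : ∀ x ∈ N, x ∉ N ⊓ C(H ⊓ C[y]) → x ^ p = 1 := fun x hx hn => by
    have x1 : x ≠ 1 := fun e => hn (e ▸ one_mem _)
    have hn' : y ∉ N ⊓ C(H ⊓ C[x]) := fun e => hn (h.eq hx x1 hy y1 (le_cen1.2 e.2) ▸ HT.self hx)
    have h2 : x * y ∉ N ⊓ C(H ⊓ C[x]) := fun e => hn' ((mul_mem_cancel_left (HT.self hx)).1 e)
    refine eq_one_of_mem_inf (h.inf hx x1 (N.mul_mem hx hy) (fun e => h2 (e ▸ one_mem _)) h2)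
      (pow_mem (HT.self hx) p) ?_
    have := pow_mem (HT.self (H := H) (N.mul_mem hx hy)) p
    rwa [Commute.mul_pow (h.ab.comm hx hy), yp, mul_one] at this
  refine ⟨p, hp, fun x hx => ?_⟩
  by_cases hn : x ∈ N ⊓ C(H ⊓ C[y])
  · obtain ⟨z, hz, hz'⟩ := h.ex hy y1
    have := key _ (N.mul_mem hx hz) fun e => hz' ((mul_mem_cancel_left hn).1 e)
    rwa [Commute.mul_pow (h.ab.comm hx hz), key z hz hz', mul_one] at this
  · exact key x hx hn

theorem HT.irr (h : HT H N m) {U : Subgroup G} (hU : U ≤ N) (hn : H ≤ N(U)) (h1 : U ≠ ⊥) : N ≤ U := by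
  obtain ⟨u, hu, u1⟩ := exists_ne_one h1
  obtain ⟨z, hz, hz'⟩ := h.ex (hU hu) u1
  have key : ∀ x ∈ N, x ∉ U → U ≤ N ⊓ C(H ⊓ C[x]) := fun x hx hx' v hv => by
    have := h.block (S := {y | x⁻¹ * y ∈ U}) (fun y hy => ⟨(mul_mem_cancel_left (N.inv_mem hx)).1 (hU hy),
      fun e => hx' (by rw [e, Set.mem_setOf_eq, mul_one] at hy; exact U.inv_mem_iff.1 hy)⟩)
      (by
        refine dvd_trans (dvd_of_eq (Nat.card_congr ((Equiv.mulLeft x⁻¹).subtypeEquiv fun y => Iff.rfl))) (card_dvd hU))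
      (fun a ha k hk b hb => by
        have h1 := mem_cen1.1 hk.2
        have h2 := U.mul_mem ha (conj_mem (hn hk.1) (U.mul_mem (U.inv_mem ha) hb))
        have h3 : k * a⁻¹ = a⁻¹ * k := (Commute.inv_right h1)
        change x⁻¹ * (k * b * k⁻¹) ∈ U
        have : x⁻¹ * a * (k * ((x⁻¹ * a)⁻¹ * (x⁻¹ * b)) * k⁻¹) = x⁻¹ * a * (k * a⁻¹) * b * k⁻¹ := by group
        rw [this, h3] at h2
        simpa [mul_assoc] using h2)
      (x := x) (y := x * v) (by simp) (by simpa using hv)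
    exact (mul_mem_cancel_left (HT.self hx)).1 ⟨N.mul_mem hx (hU hv), le_cen1.1 this⟩
  intro x hx
  by_contra hx'
  have key2 : ∀ x ∈ N, x ∉ U → x ∈ N ⊓ C(H ⊓ C[u]) := fun x hx hx' => by
    have x1 : x ≠ 1 := fun e => hx' (e ▸ one_mem _)
    rw [← h.eq hx x1 (hU hu) u1 (le_cen1.2 (key x hx hx' hu).2)]
    exact HT.self hx
  by_cases hzU : z ∈ U
  · refine hz' ((mul_mem_cancel_left (key2 x hx hx')).1 (key2 _ (N.mul_mem hx hz) fun e => hx' ?_))
    exact (mul_mem_cancel_right hzU).1 e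
  · exact hz' (key2 z hz hzU)

/-- Let G be a finite 3/2-transitive permutation group: G acts faithfully and transitively on a finite set, the point stabilizers are non-trivial, and for each point a all orbits of G_a on the remaining points have the same size. Suppose G has a regular normal subgroup N and G is not a Frobenius group (some two-point stabilizer is non-trivial). Then N is an elementary abelian p-group for some prime p, and every non-trivial normal subgroup of G contains N (so N is the unique minimal normal subgroup). -/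
theorem result {G Ω : Type*} [Group G] [Finite G]
    [MulAction G Ω] [FaithfulSMul G Ω] [Finite Ω] (htrans : MulAction.IsPretransitive G Ω)
    (hne : ∀ a : Ω, MulAction.stabilizer G a ≠ ⊥)
    (hhalf : ∀ a b c : Ω, b ≠ a → c ≠ a →
      Nat.card (MulAction.orbit (MulAction.stabilizer G a) b) = Nat.card (MulAction.orbit (MulAction.stabilizer G a) c))
    (N : Subgroup G) [hN : N.Normal] (hNt : MulAction.IsPretransitive N Ω) (hNr : ∀ a : Ω, MulAction.stabilizer N a = ⊥)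
    (hnotF : ∃ a b : Ω, a ≠ b ∧ MulAction.stabilizer G a ⊓ MulAction.stabilizer G b ≠ ⊥) :
    (∃ p : ℕ, p.Prime ∧ IsMulCommutative N ∧ ∀ x ∈ N, x ^ p = 1) ∧
    (∀ M : Subgroup G, M.Normal → M ≠ ⊥ → N ≤ M) := by
  obtain ⟨a, b, hab, hne2⟩ := hnotF
  have reg : ∀ x ∈ N, x • a = a → x = 1 := fun x hx e => by
    have h1 : (⟨x, hx⟩ : N) ∈ MulAction.stabilizer N a := e
    rw [hNr a, mem_bot] at h1
    exact congrArg Subtype.val h1
  have st : ∀ x ∈ N, MulAction.stabilizer G a ⊓ C[x] = MulAction.stabilizer G a ⊓ MulAction.stabilizer G (x • a) := by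
    intro x hx
    ext k
    rw [mem_inf, mem_inf]
    refine and_congr_right fun hk => ?_
    have hk' : k • a = a := hk
    rw [mem_cen1, MulAction.mem_stabilizer_iff]
    constructor
    · intro e; rw [← mul_smul, e, mul_smul, hk']
    · intro e
      have := reg _ (N.mul_mem (N.inv_mem hx) (hN.conj_mem x hx k)) (by
        rw [mul_smul, mul_smul, mul_smul, inv_smul_eq_iff.2 hk'.symm, e, inv_smul_smul])
      rw [inv_mul_eq_one, eq_comm, mul_inv_eq_iff_eq_mul] at this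
      exact this
  have faith : ∀ k ∈ MulAction.stabilizer G a, k ∈ C(N) → k = 1 := fun k hk hc =>
    FaithfulSMul.eq_of_smul_eq_smul (α := Ω) fun c => by
      obtain ⟨n, rfl⟩ := hNt.exists_smul_eq a c
      change k • (n : G) • a = (1 : G) • (n : G) • a
      rw [one_smul, ← mul_smul, ← mem_cen.1 hc n n.2, mul_smul, show k • a = a from hk]
  have idx : ∀ c : Ω, Nat.card (MulAction.orbit (MulAction.stabilizer G a) c) =
      (MulAction.stabilizer G a ⊓ MulAction.stabilizer G c).relIndex (MulAction.stabilizer G a) := fun c => by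
    rw [inf_relIndex_left, Nat.card_coe_set_eq, ← MulAction.index_stabilizer, relIndex]
    congr 1
  have idx2 : ∀ x ∈ N, x ≠ 1 → C[x].relIndex (MulAction.stabilizer G a) =
      (MulAction.stabilizer G a ⊓ MulAction.stabilizer G b).relIndex (MulAction.stabilizer G a) := fun x hx x1 => by
    rw [← inf_relIndex_left, st x hx, ← idx, ← idx]
    exact hhalf a _ _ (fun e => x1 (reg x hx e)) hab.symm
  have h : HT (MulAction.stabilizer G a) N
      ((MulAction.stabilizer G a ⊓ MulAction.stabilizer G b).relIndex (MulAction.stabilizer G a)) :=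
    ⟨le_top.trans (nml_top_iff.2 hN).nrm, fun x hx x1 => idx2 x hx x1, fun x hx x1 hc => by
    have e : MulAction.stabilizer G a ⊓ C[x] = ⊥ := eq_bot_iff.2 fun k hk => mem_bot.2 (faith k (mem_inf.1 hk).1 (hc hk))
    have h1 := idx2 x hx x1
    have h2 := card_mul_relIndex (inf_le_left : MulAction.stabilizer G a ⊓ MulAction.stabilizer G b ≤ _)
    rw [← h1, ← inf_relIndex_left _ C[x], e, relIndex_bot_left] at h2
    exact hne2 (eq_bot_iff_card'.2 ((Nat.mul_eq_right (card_ne_zero _)).1 h2))⟩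
  have h1 : N ≠ ⊥ := by
    obtain ⟨n, hn⟩ := hNt.exists_smul_eq a b
    exact ne_bot_of_mem n.2 fun e => hab (by rw [← hn]; change a = (n : G) • a; rw [e, one_smul])
  obtain ⟨p, hp, hp'⟩ := h.exp h1
  refine ⟨⟨p, hp, h.ab, hp'⟩, fun M hM hM1 => ?_⟩
  have n1 := (nml_top_iff.2 hM).nrm
  have n2 := (nml_top_iff.2 hN).nrm
  refine (h.irr inf_le_left (le_top.trans (normsI n2 n1)) fun e => hM1 ?_).trans inf_le_right
  have hc := cents_of_norms_of_inf (le_top.trans n1) (le_top.trans n2) (inf_comm M N ▸ e)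
  refine eq_bot_of_le (le_inf (fun g hg => ?_) le_rfl) e
  obtain ⟨n, hn⟩ := hNt.exists_smul_eq a (g • a)
  have := faith ((n : G)⁻¹ * g) (by
    rw [MulAction.mem_stabilizer_iff, mul_smul, inv_smul_eq_iff]; exact hn.symm)
    (mul_mem (inv_mem (h.ab.le_cen n.2)) (hc hg))
  rw [← inv_mul_eq_one.1 this]; exact n.2

end Cfsg.Agent.S3356
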