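import Cfsg.Statements.S3375
import Cfsg.Agent.H4.Transfer2
-- import your own Cfsg.Agent.* helpers here

set_option autoImplicit false
open Cfsg

namespace Cfsg.Agent.S3375

theorem fpf {H : Type*} [Group H] [Finite H] (γ : MulAut H) (hγ : orderOf γ = 2) (A : Subgroup H)
    (hA : ∀ a ∈ A, γ a ∈ A) (hf : ∀ a ∈ A, γ a = a → a = 1) : ∀ a ∈ A, γ a = a⁻¹ := by
  have h2 : ∀ x, γ (γ x) = x := fun x => by
    have := pow_orderOf_eq_one γ
    rw [hγ, sq] at this
    exact DFunLike.congr_fun this x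
  let f : A → A := fun x => ⟨(x : H)⁻¹ * γ x, A.mul_mem (A.inv_mem x.2) (hA _ x.2)⟩
  have hinj : Function.Injective f := fun x y e => by
    have e' : (x : H)⁻¹ * γ x = (y : H)⁻¹ * γ y := congrArg Subtype.val e
    have : γ (y * (x : H)⁻¹) = y * (x : H)⁻¹ := by
      rw [map_mul, map_inv]
      calc γ y * (γ x)⁻¹ = y * ((y : H)⁻¹ * γ y) * (γ x)⁻¹ := by group
        _ = y * (x : H)⁻¹ := by rw [← e']; group
    have := hf _ (A.mul_mem y.2 (A.inv_mem x.2)) this
    exact Subtype.ext (mul_inv_eq_one.mp this).symm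
  intro a ha
  obtain ⟨x, hx⟩ := Finite.surjective_of_injective hinj ⟨a, ha⟩
  have : a = (x : H)⁻¹ * γ x := (congrArg Subtype.val hx).symm
  rw [this, map_mul, map_inv, h2]; group

theorem comm_of_inv {H : Type*} [Group H] (γ : MulAut H) (A : Subgroup H)
    (h : ∀ a ∈ A, γ a = a⁻¹) {a b : H} (ha : a ∈ A) (hb : b ∈ A) : a * b = b * a := by
  have := h _ (A.mul_mem ha hb)
  rw [map_mul, h a ha, h b hb, ← mul_inv_rev] at this
  exact (inv_injective this).symm

/-- Let γ be an automorphism of order 2 of a finite group H. (i) If γ fixes only the identity, then H is abelian and γ inverts every element. (ii) If γ has exactly two fixed points and H has a subgroup of index 2, then H has a γ-invariant abelian subgroup of index 2 on which γ acts by inversion. -/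
theorem result {H : Type*} [Group H] [Finite H] (γ : MulAut H) (hγ : orderOf γ = 2) :
    ((∀ h : H, γ h = h → h = 1) → (∀ a b : H, a * b = b * a) ∧ ∀ h : H, γ h = h⁻¹) ∧
    ((Nat.card {h : H // γ h = h} = 2 ∧ ∃ M : Subgroup H, M.index = 2) →
      ∃ A : Subgroup H, A.index = 2 ∧ IsMulCommutative A ∧ (∀ a ∈ A, γ a ∈ A) ∧ ∀ a ∈ A, γ a = a⁻¹) := by
  have h2 : ∀ x, γ (γ x) = x := fun x => by
    have := pow_orderOf_eq_one γ
    rw [hγ, sq] at this
    exact DFunLike.congr_fun this x
  constructor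
  · intro hf
    have := fpf γ hγ ⊤ (fun _ _ => trivial) (fun a _ => hf a)
    exact ⟨fun a b => comm_of_inv γ ⊤ this trivial trivial, fun h => this h trivial⟩
  · rintro ⟨hc, M, hM⟩
    obtain ⟨φ, hφ⟩ := H4.exists_sign_hom hM
    obtain ⟨m, hm⟩ : ∃ m, m ∉ M := by
      by_contra! h
      rw [(Subgroup.eq_top_iff' M).mpr h, Subgroup.index_top] at hM
      omega
    obtain ⟨ψ, hψ1, hψ⟩ : ∃ ψ : H →* ℤˣ, (∃ x, ψ x ≠ 1) ∧ ∀ x, ψ (γ x) = ψ x := by
      by_cases h : ∀ x, φ (γ x) = φ x
      · exact ⟨φ, ⟨m, fun e => hm ((hφ m).mp e)⟩, h⟩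
      · push Not at h
        obtain ⟨x, hx⟩ := h
        refine ⟨φ * φ.comp γ.toMonoidHom, ⟨x, fun e => hx ?_⟩, fun y => ?_⟩
        · have e' : φ x * φ (γ x) = 1 := e
          rw [eq_inv_of_mul_eq_one_right e', Int.units_inv_eq_self]
        · show φ (γ y) * φ (γ (γ y)) = φ y * φ (γ y)
          rw [h2, mul_comm]
    have hidx : ψ.ker.index = 2 := by
      rw [Subgroup.index_ker]
      obtain ⟨x, hx⟩ := hψ1
      have : ψ.range = ⊤ := by
        rw [Subgroup.eq_top_iff']
        intro u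
        rcases Int.units_eq_one_or u with rfl | rfl
        · exact one_mem _
        · exact ⟨x, (Int.units_eq_one_or _).resolve_left hx⟩
      rw [this, Subgroup.card_top]
      simp
    let C : Subgroup H := MonoidHom.eqLocus γ.toMonoidHom (MonoidHom.id H)
    have hC : Nat.card C = 2 := hc
    let F : H ⧸ C → ψ.ker := fun q => ⟨q.out * (γ q.out)⁻¹, by
      rw [MonoidHom.mem_ker, map_mul, map_inv, hψ, mul_inv_cancel]⟩
    have hF : Function.Injective F := fun q q' e => by
      have e' : q.out * (γ q.out)⁻¹ = q'.out * (γ q'.out)⁻¹ := congrArg Subtype.val e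
      rw [← q.out_eq, ← q'.out_eq]
      apply QuotientGroup.eq.mpr
      show γ (q.out⁻¹ * q'.out) = q.out⁻¹ * q'.out
      rw [map_mul, map_inv]
      calc (γ q.out)⁻¹ * γ q'.out = q.out⁻¹ * (q.out * (γ q.out)⁻¹) * γ q'.out := by group
        _ = q.out⁻¹ * q'.out := by rw [e']; group
    have hcard : Nat.card ψ.ker ≤ Nat.card (H ⧸ C) := by
      have h1 := C.card_mul_index
      have h3 := ψ.ker.card_mul_index
      rw [hC] at h1
      rw [hidx] at h3
      have : C.index = Nat.card (H ⧸ C) := rfl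
      omega
    have hsurj := (hF.bijective_of_nat_card_le hcard).2
    have hinv : ∀ a ∈ ψ.ker, γ a = a⁻¹ := fun a ha => by
      obtain ⟨q, hq⟩ := hsurj ⟨a, ha⟩
      have : a = q.out * (γ q.out)⁻¹ := (congrArg Subtype.val hq).symm
      rw [this, map_mul, map_inv, h2]; group
    refine ⟨ψ.ker, hidx, ⟨⟨fun a b => Subtype.ext (comm_of_inv γ _ hinv a.2 b.2)⟩⟩,
      fun a ha => ?_, hinv⟩
    rw [hinv a ha]; exact inv_mem ha

end Cfsg.Agent.S3375
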