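import Cfsg.Statements.S3377
import Mathlib
import Cfsg.Agent.H10.Polyhedral

set_option autoImplicit false
open Cfsg

namespace Cfsg.Agent.S3377

open Subgroup Equiv

theorem ico {Ω : Type*} (X Y : Ω → Ω) (h3 : ∀ p, X (X (X p)) = p)
    (h5 : ∀ p, Y (Y (Y (Y (Y p)))) = p) (h2 : ∀ p, X (Y (X (Y p))) = p) (o : Ω) (h0 : Y o = o) :
    ∃ l : List Ω, l.length = 12 ∧ o ∈ l ∧ ∀ p ∈ l, X p ∈ l ∧ Y p ∈ l := by
  have Xi : ∀ p q, X p = X q → p = q := fun p q h => by rw [← h3 p, h, h3]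
  obtain ⟨a, ha⟩ : ∃ a, X o = a := ⟨_, rfl⟩
  obtain ⟨b, hb⟩ : ∃ b, X a = b := ⟨_, rfl⟩
  obtain ⟨c, hc⟩ : ∃ c, Y b = c := ⟨_, rfl⟩
  obtain ⟨d, hd⟩ : ∃ d, Y c = d := ⟨_, rfl⟩
  obtain ⟨e, he⟩ : ∃ e, Y d = e := ⟨_, rfl⟩
  obtain ⟨f, hf⟩ : ∃ f, X e = f := ⟨_, rfl⟩
  obtain ⟨g, hg⟩ : ∃ g, X d = g := ⟨_, rfl⟩
  obtain ⟨h, hh⟩ : ∃ h, X g = h := ⟨_, rfl⟩
  obtain ⟨i, hi⟩ : ∃ i, Y h = i := ⟨_, rfl⟩
  obtain ⟨j, hj⟩ : ∃ j, Y i = j := ⟨_, rfl⟩
  obtain ⟨k, hk⟩ : ∃ k, X j = k := ⟨_, rfl⟩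
  have Xb : X b = o := by have := h3 o; rwa [ha, hb] at this
  have Ya : Y a = b := Xi _ _ (by have := h2 o; rw [h0, ha] at this; rw [this, Xb])
  have Ye : Y e = a := by have := h5 a; rwa [Ya, hc, hd, he] at this
  have Xc : X c = e := by have := h2 e; rwa [Ye, hb, hc] at this
  have Xf : X f = c := by have := h3 c; rwa [Xc, hf] at this
  have Yg : Y g = f := Xi _ _ (by have := h2 c; rw [hd, hg] at this; rw [this, Xf])
  have Xh : X h = d := by have := h3 d; rwa [hg, hh] at this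
  have Yf : Y f = h := Xi _ _ (by have := h2 d; rw [he, hf] at this; rw [this, Xh])
  have Yj : Y j = g := by have := h5 g; rwa [Yg, Yf, hi, hj] at this
  have Xi' : X i = j := by have := h2 j; rwa [Yj, hh, hi] at this
  have Xk : X k = i := by have := h3 i; rwa [Xi', hk] at this
  have Yk : Y k = k := Xi _ _ (by have := h2 i; rw [hj, hk] at this; rw [this, Xk])
  refine ⟨[o, a, b, c, d, e, f, g, h, i, j, k], rfl, by simp, ?_⟩
  simp only [List.forall_mem_cons, ha, hb, hc, hd, he, hf, hg, hh, hi, hj, hk, Xb, Ya, Ye, Xc, Xf,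
    Yg, Xh, Yf, Yj, Xi', Xk, Yk, h0]
  simp


theorem card_le {G : Type*} [Group G] {x y : G} (hx : x ^ 3 = 1) (hy : y ^ 5 = 1)
    (hxy : (x * y) ^ 2 = 1) (gen : closure {x, y} = ⊤) : Finite G ∧ Nat.card G ≤ 60 := by
  set H := zpowers y
  have hyH : y ∈ H := mem_zpowers _
  have fo : IsOfFinOrder y := isOfFinOrder_iff_pow_eq_one.2 ⟨5, by norm_num, hy⟩
  have fH : Finite H := fo.finite_zpowers
  have cH : Nat.card H ≤ 5 := by
    rw [Nat.card_zpowers]; exact orderOf_le_of_pow_eq_one (by norm_num) hy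
  obtain ⟨l, hl, ho, hc⟩ := ico (Ω := G ⧸ H) (x • ·) (y • ·)
    (fun p => by simp only [smul_smul]; rw [show x * (x * x) = x ^ 3 by simp [pow_succ, mul_assoc], hx, one_smul])
    (fun p => by
      simp only [smul_smul]; rw [show y * (y * (y * (y * y))) = y ^ 5 by simp [pow_succ, mul_assoc], hy, one_smul])
    (fun p => by
      simp only [smul_smul]; rw [show x * (y * (x * y)) = (x * y) ^ 2 by rw [sq, mul_assoc], hxy, one_smul])
    ((1 : G) : G ⧸ H) (by
      change ((y * 1 : G) : G ⧸ H) = (1 : G)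
      rw [mul_one, ← one_mul y, QuotientGroup.mk_mul_of_mem _ hyH])
  let T : Submonoid G :=
    { carrier := {g | ∀ p ∈ l, g • p ∈ l}
      mul_mem' := fun {a b} ha hb p hp => by rw [mul_smul]; exact ha _ (hb p hp)
      one_mem' := fun p hp => by rwa [one_smul] }
  have xT : x ∈ T := fun p hp => (hc p hp).1
  have yT : y ∈ T := fun p hp => (hc p hp).2
  have hT : ∀ g, g ∈ T := fun g => by
    have : g ∈ (closure {x, y}).toSubmonoid := gen ▸ mem_top g
    rw [closure_toSubmonoid] at this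
    refine (Submonoid.closure_le.2 ?_ : _ ≤ T) this
    rintro w ((rfl | rfl) | hw)
    · exact xT
    · exact yT
    · rw [Set.mem_inv, Set.mem_insert_iff, Set.mem_singleton_iff] at hw
      rcases hw with hw | hw <;> rw [inv_eq_iff_eq_inv] at hw <;> rw [hw]
      · rw [show x⁻¹ = x ^ 2 from inv_eq_of_mul_eq_one_right (by rw [← pow_succ', hx])]
        exact pow_mem xT 2
      · rw [show y⁻¹ = y ^ 4 from inv_eq_of_mul_eq_one_right (by rw [← pow_succ', hy])]
        exact pow_mem yT 4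
  have hall : ∀ p : G ⧸ H, p ∈ l := fun p => by
    induction p using QuotientGroup.induction_on with
    | H g =>
      have := hT g _ ho
      rwa [show g • ((1 : G) : G ⧸ H) = ((g * 1 : G) : G ⧸ H) from rfl, mul_one] at this
  classical
  have fQ : Finite (G ⧸ H) := by
    have := List.finite_toSet l
    rw [show {p | p ∈ l} = Set.univ from Set.eq_univ_of_forall hall] at this
    exact Set.finite_univ_iff.1 this
  have cQ : Nat.card (G ⧸ H) ≤ 12 := by
    have := Fintype.ofFinite (G ⧸ H)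
    rw [Nat.card_eq_fintype_card, ← Finset.card_univ, ← hl]
    exact (Finset.card_le_card fun p _ => List.mem_toFinset.2 (hall p)).trans (List.toFinset_card_le l)
  refine ⟨Finite.of_equiv _ (groupEquivQuotientProdSubgroup (s := H)).symm, ?_⟩
  rw [card_eq_card_quotient_mul_card_subgroup H]
  exact (Nat.mul_le_mul cQ cH).trans (by norm_num)

/-- The alternating group of degree 5 has the presentation ⟨x, y | x³ = 1, y⁵ = 1, (xy)² = 1⟩: the group so presented is isomorphic to Alt(5). -/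
theorem result :
    Nonempty (PresentedGroup ({FreeGroup.of (0 : Fin 2) ^ 3, FreeGroup.of (1 : Fin 2) ^ 5,
        (FreeGroup.of (0 : Fin 2) * FreeGroup.of 1) ^ 2} : Set (FreeGroup (Fin 2))) ≃* alternatingGroup (Fin 5)) := by
  have := Fact.mk (show Nat.Prime 5 by norm_num)
  let a : alternatingGroup (Fin 5) := ⟨swap 0 1 * swap 2 3, Perm.mem_alternatingGroup.2 (by decide)⟩
  let b : alternatingGroup (Fin 5) := ⟨swap 1 4 * swap 1 2, Perm.mem_alternatingGroup.2 (by decide)⟩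
  have h1 : orderOf a = 2 := orderOf_eq_prime (by decide) (by decide)
  have h2 : orderOf b = 3 := orderOf_eq_prime (by decide) (by decide)
  have h3 : orderOf (a * b) = 5 := orderOf_eq_prime (by decide) (by decide)
  have top := H10.A5_eq_top (H10.thirty_dvd_card_closure h1 h2 h3)
  set R : Set (FreeGroup (Fin 2)) := {FreeGroup.of (0 : Fin 2) ^ 3, FreeGroup.of (1 : Fin 2) ^ 5,
        (FreeGroup.of (0 : Fin 2) * FreeGroup.of 1) ^ 2} with hR
  have hf : ∀ r ∈ R, FreeGroup.lift ![b, (a * b)⁻¹] r = 1 := by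
    rintro r (rfl | rfl | rfl) <;> simp only [map_pow, map_mul, FreeGroup.lift_apply_of]
    · exact h2 ▸ pow_orderOf_eq_one b
    · change (a * b)⁻¹ ^ 5 = 1
      rw [inv_pow, show (a * b) ^ 5 = 1 by have := pow_orderOf_eq_one (a * b); rwa [h3] at this, inv_one]
    · change (b * (a * b)⁻¹) ^ 2 = 1
      rw [mul_inv_rev, mul_inv_cancel_left, inv_pow, show a ^ 2 = 1 from h1 ▸ pow_orderOf_eq_one a, inv_one]
  let f := PresentedGroup.toGroup hf
  have f0 : f (PresentedGroup.of 0) = b := by simp [f]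
  have f1 : f (PresentedGroup.of 1) = (a * b)⁻¹ := by simp [f]
  have hs : Function.Surjective f := by
    rw [← MonoidHom.range_eq_top, eq_top_iff, ← top, closure_le]
    rintro _ (rfl | rfl)
    · exact ⟨(PresentedGroup.of 1)⁻¹ * (PresentedGroup.of 0)⁻¹, by simp [f0, f1]⟩
    · exact ⟨_, f0⟩
  obtain ⟨hfin, hc⟩ := card_le (G := PresentedGroup R) (x := PresentedGroup.of 0) (y := PresentedGroup.of 1)
    (PresentedGroup.one_of_mem (rels := R) (Or.inl rfl))
    (PresentedGroup.one_of_mem (rels := R) (Or.inr (Or.inl rfl)))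
    (PresentedGroup.one_of_mem (rels := R) (Or.inr (Or.inr rfl)))
    (by
      rw [← PresentedGroup.closure_range_of R]
      congr 1
      ext x
      simp [Fin.exists_fin_two, eq_comm])
  exact ⟨MulEquiv.ofBijective f (hs.bijective_of_nat_card_le (H10.card_A5 ▸ hc))⟩

end Cfsg.Agent.S3377
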