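import Cfsg.Statements.S3378
import Mathlib
import Cfsg.Agent.S0144
import Cfsg.Agent.H10.Polyhedral
import Cfsg.Agent.H16.SmallAut

set_option autoImplicit false
open Cfsg

namespace Cfsg.Agent.S3378

open Subgroup MatrixGroups

theorem ico {Ω : Type*} (X Y : Ω → Ω) (h3 : ∀ p, X (X (X p)) = p)
    (h5 : ∀ p, Y (Y (Y (Y (Y p)))) = p) (h2 : ∀ p, X (Y (X (Y p))) = p) (o : Ω) (h0 : Y o = o) :
    ∃ l : List Ω, l.length = 12 ∧ o ∈ l ∧ ∀ p ∈ l, X p ∈ l ∧ Y p ∈ l := by
  have Xi : ∀ p q, X p = X q → p = q := fun p q h => by rw [← h3 p, h, h3]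
  obtain ⟨a, ha⟩ : ∃ a, X o = a := ⟨_, rfl⟩
  obtain ⟨b, hb⟩ : ∃ b, X a = b := ⟨_, rfl⟩
  obtain ⟨c, hc⟩ : ∃ c, Y b = c := ⟨_, rfl⟩
  obtain ⟨d, hd⟩ : ∃ d, Y c = d := ⟨_, rfl⟩
  obtain ⟨e, he⟩ : ∃ e, Y d = e := ⟨_, rfl⟩
  obtain ⟨f, hf⟩ : ∃ f, X e = f := ⟨_, rfl⟩
  obtain ⟨g, hg⟩ : ∃ g, X d = g := ⟨_, rfl⟩
  obtain ⟨h, hh⟩ : ∃ h, X g = h := ⟨_, rfl⟩
  obtain ⟨i, hi⟩ : ∃ i, Y h = i := ⟨_, rfl⟩
  obtain ⟨j, hj⟩ : ∃ j, Y i = j := ⟨_, rfl⟩
  obtain ⟨k, hk⟩ : ∃ k, X j = k := ⟨_, rfl⟩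
  have Xb : X b = o := by have := h3 o; rwa [ha, hb] at this
  have Ya : Y a = b := Xi _ _ (by have := h2 o; rw [h0, ha] at this; rw [this, Xb])
  have Ye : Y e = a := by have := h5 a; rwa [Ya, hc, hd, he] at this
  have Xc : X c = e := by have := h2 e; rwa [Ye, hb, hc] at this
  have Xf : X f = c := by have := h3 c; rwa [Xc, hf] at this
  have Yg : Y g = f := Xi _ _ (by have := h2 c; rw [hd, hg] at this; rw [this, Xf])
  have Xh : X h = d := by have := h3 d; rwa [hg, hh] at this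
  have Yf : Y f = h := Xi _ _ (by have := h2 d; rw [he, hf] at this; rw [this, Xh])
  have Yj : Y j = g := by have := h5 g; rwa [Yg, Yf, hi, hj] at this
  have Xi' : X i = j := by have := h2 j; rwa [Yj, hh, hi] at this
  have Xk : X k = i := by have := h3 i; rwa [Xi', hk] at this
  have Yk : Y k = k := Xi _ _ (by have := h2 i; rw [hj, hk] at this; rw [this, Xk])
  refine ⟨[o, a, b, c, d, e, f, g, h, i, j, k], rfl, by simp, ?_⟩
  simp only [List.forall_mem_cons, ha, hb, hc, hd, he, hf, hg, hh, hi, hj, hk, Xb, Ya, Ye, Xc, Xf,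
    Yg, Xh, Yf, Yj, Xi', Xk, Yk, h0]
  simp

/-- The relations. -/
structure Rel {G : Type*} [Group G] (x y z : G) : Prop where
  hx : x ^ 3 = 1
  hy : y ^ 5 = 1
  hz : z ^ 2 = 1
  cx : z⁻¹ * x * z = x
  cy : z⁻¹ * y * z = y
  hxy : (x * y) ^ 2 = z
  gen : closure {x, y, z} = ⊤

theorem Rel.card_le {G : Type*} [Group G] {x y z : G} (h : Rel x y z) :
    Finite G ∧ Nat.card G ≤ 120 := by
  have cx : Commute z x := by
    have := congrArg (z * ·) h.cx
    simp only [← mul_assoc, mul_inv_cancel, one_mul] at this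
    exact this.symm
  have cy : Commute z y := by
    have := congrArg (z * ·) h.cy
    simp only [← mul_assoc, mul_inv_cancel, one_mul] at this
    exact this.symm
  have cz : ∀ g, Commute z g := fun g => by
    have : g ∈ centralizer {z} := by
      refine (show closure {x, y, z} ≤ centralizer {z} from ?_) (h.gen ▸ mem_top g)
      rw [closure_le]
      rintro w (rfl | rfl | rfl) <;> rw [SetLike.mem_coe, mem_centralizer_singleton_iff]
      · exact cx.symm.eq
      · exact cy.symm.eq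
    exact (mem_centralizer_singleton_iff.1 this).symm
  have p5 : (y * z) ^ 5 = z := by
    rw [cy.symm.mul_pow, h.hy, one_mul, show 5 = 2 * 2 + 1 from rfl, pow_succ, pow_mul, h.hz]; simp
  have p10 : (y * z) ^ 10 = 1 := by rw [show 10 = 5 * 2 from rfl, pow_mul, p5, h.hz]
  have p6 : (y * z) ^ 6 = y := by rw [pow_succ', p5, mul_assoc, ← sq, h.hz, mul_one]
  set H := zpowers (y * z)
  have hzH : z ∈ H := p5 ▸ pow_mem (mem_zpowers _) 5
  have hyH : y ∈ H := p6 ▸ pow_mem (mem_zpowers _) 6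
  have fo : IsOfFinOrder (y * z) := isOfFinOrder_iff_pow_eq_one.2 ⟨10, by norm_num, p10⟩
  have fH : Finite H := fo.finite_zpowers
  have cH : Nat.card H ≤ 10 := by
    rw [Nat.card_zpowers]; exact orderOf_le_of_pow_eq_one (by norm_num) p10
  have zt : ∀ p : G ⧸ H, z • p = p := fun p => by
    induction p using QuotientGroup.induction_on with
    | H g =>
      change ((z * g : G) : G ⧸ H) = g
      rw [(cz g).eq, QuotientGroup.mk_mul_of_mem _ hzH]
  obtain ⟨l, hl, ho, hc⟩ := ico (Ω := G ⧸ H) (x • ·) (y • ·)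
    (fun p => by simp only [smul_smul]; rw [show x * (x * x) = x ^ 3 by simp [pow_succ, mul_assoc], h.hx, one_smul])
    (fun p => by
      simp only [smul_smul]; rw [show y * (y * (y * (y * y))) = y ^ 5 by simp [pow_succ, mul_assoc], h.hy, one_smul])
    (fun p => by
      simp only [smul_smul]; rw [show x * (y * (x * y)) = (x * y) ^ 2 by rw [sq, mul_assoc], h.hxy, zt])
    ((1 : G) : G ⧸ H) (by
      change ((y * 1 : G) : G ⧸ H) = (1 : G)
      rw [mul_one, ← one_mul y, QuotientGroup.mk_mul_of_mem _ hyH])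
  let T : Submonoid G :=
    { carrier := {g | ∀ p ∈ l, g • p ∈ l}
      mul_mem' := fun {a b} ha hb p hp => by rw [mul_smul]; exact ha _ (hb p hp)
      one_mem' := fun p hp => by rwa [one_smul] }
  have xT : x ∈ T := fun p hp => (hc p hp).1
  have yT : y ∈ T := fun p hp => (hc p hp).2
  have zT : z ∈ T := fun p hp => by rwa [zt]
  have hT : ∀ g, g ∈ T := fun g => by
    have : g ∈ (closure {x, y, z}).toSubmonoid := h.gen ▸ mem_top g
    rw [closure_toSubmonoid] at this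
    refine (Submonoid.closure_le.2 ?_ : _ ≤ T) this
    rintro w ((rfl | rfl | rfl) | hw)
    · exact xT
    · exact yT
    · exact zT
    · rw [Set.mem_inv, Set.mem_insert_iff, Set.mem_insert_iff, Set.mem_singleton_iff] at hw
      rcases hw with hw | hw | hw <;> rw [inv_eq_iff_eq_inv] at hw <;> rw [hw]
      · rw [show x⁻¹ = x ^ 2 from inv_eq_of_mul_eq_one_right (by rw [← pow_succ', h.hx])]
        exact pow_mem xT 2
      · rw [show y⁻¹ = y ^ 4 from inv_eq_of_mul_eq_one_right (by rw [← pow_succ', h.hy])]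
        exact pow_mem yT 4
      · rw [show z⁻¹ = z from inv_eq_of_mul_eq_one_right (by rw [← sq, h.hz])]
        exact zT
  have hall : ∀ p : G ⧸ H, p ∈ l := fun p => by
    induction p using QuotientGroup.induction_on with
    | H g =>
      have := hT g _ ho
      rwa [show g • ((1 : G) : G ⧸ H) = ((g * 1 : G) : G ⧸ H) from rfl, mul_one] at this
  classical
  have fQ : Finite (G ⧸ H) := by
    have := List.finite_toSet l
    rw [show {p | p ∈ l} = Set.univ from Set.eq_univ_of_forall hall] at this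
    exact Set.finite_univ_iff.1 this
  have cQ : Nat.card (G ⧸ H) ≤ 12 := by
    have := Fintype.ofFinite (G ⧸ H)
    rw [Nat.card_eq_fintype_card, ← Finset.card_univ, ← hl]
    exact (Finset.card_le_card fun p _ => List.mem_toFinset.2 (hall p)).trans l.toFinset_card_le
  refine ⟨Finite.of_equiv _ (groupEquivQuotientProdSubgroup (s := H)).symm, ?_⟩
  rw [card_eq_card_quotient_mul_card_subgroup H]
  exact Nat.mul_le_mul cQ cH

/-- The relators. -/
abbrev rels : Set (FreeGroup (Fin 3)) :=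
  {FreeGroup.of (0 : Fin 3) ^ 3, FreeGroup.of (1 : Fin 3) ^ 5, FreeGroup.of (2 : Fin 3) ^ 2,
    (FreeGroup.of (2 : Fin 3))⁻¹ * FreeGroup.of 0 * FreeGroup.of 2 * (FreeGroup.of (0 : Fin 3))⁻¹,
    (FreeGroup.of (2 : Fin 3))⁻¹ * FreeGroup.of 1 * FreeGroup.of 2 * (FreeGroup.of (1 : Fin 3))⁻¹,
    (FreeGroup.of (0 : Fin 3) * FreeGroup.of 1) ^ 2 * (FreeGroup.of (2 : Fin 3))⁻¹}

theorem range3 {G : Type*} (f : Fin 3 → G) : Set.range f = {f 0, f 1, f 2} := by
  ext w
  simp only [Set.mem_range, Fin.exists_fin_succ, Set.mem_insert_iff, Set.mem_singleton_iff]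
  simp [eq_comm]

theorem relP : Rel (G := PresentedGroup rels) (.of 0) (.of 1) (.of 2) := by
  have k : ∀ r ∈ rels, PresentedGroup.mk rels r = 1 := fun r hr => PresentedGroup.one_of_mem hr
  refine ⟨?_, ?_, ?_, ?_, ?_, ?_, ?_⟩
  · exact k (.of 0 ^ 3) (by simp)
  · exact k (.of 1 ^ 5) (by simp)
  · exact k (.of 2 ^ 2) (by simp)
  · exact mul_inv_eq_one.1 (k ((FreeGroup.of 2)⁻¹ * .of 0 * .of 2 * (FreeGroup.of 0)⁻¹) (by simp))
  · exact mul_inv_eq_one.1 (k ((FreeGroup.of 2)⁻¹ * .of 1 * .of 2 * (FreeGroup.of 1)⁻¹) (by simp))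
  · exact mul_inv_eq_one.1 (k ((.of 0 * .of 1) ^ 2 * (FreeGroup.of 2)⁻¹) (by simp))
  · rw [← range3 (PresentedGroup.of (rels := rels))]; exact PresentedGroup.closure_range_of _

theorem Rel.iso {G : Type*} [Group G] {x y z : G} (h : Rel x y z) (hG : Nat.card G = 120) :
    Nonempty (PresentedGroup rels ≃* G) := by
  have hr : ∀ r ∈ rels, FreeGroup.lift ![x, y, z] r = 1 := by
    rintro r (rfl | rfl | rfl | rfl | rfl | rfl)
    · simpa using h.hx
    · simpa using h.hy
    · simpa using h.hz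
    · simpa [mul_inv_eq_one] using h.cx
    · simpa [mul_inv_eq_one] using h.cy
    · simpa [mul_inv_eq_one] using h.hxy
  let φ := PresentedGroup.toGroup hr
  have hs : Function.Surjective φ := by
    rw [← MonoidHom.range_eq_top, eq_top_iff, ← h.gen, closure_le]
    rintro w (rfl | rfl | rfl)
    · exact ⟨.of 0, PresentedGroup.toGroup.of hr⟩
    · exact ⟨.of 1, PresentedGroup.toGroup.of hr⟩
    · exact ⟨.of 2, PresentedGroup.toGroup.of hr⟩
  obtain ⟨f, hc⟩ := relP.card_le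
  exact ⟨MulEquiv.ofBijective φ (hs.bijective_of_nat_card_le (hG ▸ hc))⟩

theorem sol {G : Type*} [Group G] [Finite G] (h : Nat.card G ∣ 120) (h' : Nat.card G < 60) :
    Group.IsSolvable G := by
  have k : ∀ n < 60, n ∣ 120 → n = 30 ∨ (∃ a < 4, ∃ b < 2, n = 2 ^ a * 3 ^ b) ∨
      (∃ a < 4, ∃ b < 2, n = 2 ^ a * 5 ^ b) ∨ n = 3 ^ 1 * 5 ^ 1 := by decide +kernel
  rcases k _ h' h with k | ⟨a, -, b, -, k⟩ | ⟨a, -, b, -, k⟩ | k
  · have := IsZGroup.of_squarefree (G := G) (by rw [k]; decide +kernel)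
    infer_instance
  · exact S0144.result 2 3 a b Nat.prime_two Nat.prime_three k
  · exact S0144.result 2 5 a b Nat.prime_two Nat.prime_five k
  · exact S0144.result 3 5 1 1 Nat.prime_three Nat.prime_five k

theorem sol_ext {G : Type*} [Group G] (N : Subgroup G) [N.Normal] (h1 : Group.IsSolvable N)
    (h2 : Group.IsSolvable (G ⧸ N)) : Group.IsSolvable G :=
  Group.isSolvable_of_ker_le_range N.subtype (QuotientGroup.mk' N) (by simp)

theorem gens {G : Type*} [Group G] [Finite G] (hG : Nat.card G = 120) (hs : ¬ Group.IsSolvable G)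
    {z : G} (hz1 : z ≠ 1) (hz : z * z = 1) (hu : ∀ g : G, g * g = 1 → g = 1 ∨ g = z) :
    Nonempty (PresentedGroup rels ≃* G) := by
  have cz : ∀ g : G, g * z * g⁻¹ = z := fun g =>
    (hu _ (by rw [show g * z * g⁻¹ * (g * z * g⁻¹) = g * (z * z) * g⁻¹ by group, hz]; group)).resolve_left
      fun h => hz1 (by rw [show z = g⁻¹ * (g * z * g⁻¹) * g by group, h]; group)
  have oz : orderOf z = 2 := orderOf_eq_prime (by rw [sq, hz]) hz1
  set Z := zpowers z with hZ
  have mZ : ∀ g ∈ Z, g * g = 1 := by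
    rintro _ ⟨n, rfl⟩
    show z ^ n * z ^ n = 1
    rw [← (Commute.refl z).mul_zpow, hz, one_zpow]
  have nZ : Z.Normal := ⟨by
    rintro _ ⟨n, rfl⟩ g
    exact ⟨n, by show z ^ n = g * z ^ n * g⁻¹; rw [← conj_zpow, cz]⟩⟩
  have cZ : Nat.card Z = 2 := by rw [Nat.card_zpowers, oz]
  have cQ : Nat.card (G ⧸ Z) = 60 := by
    have := card_eq_card_quotient_mul_card_subgroup Z
    rw [cZ] at this
    omega
  have sQ : ¬ Group.IsSolvable (G ⧸ Z) := fun h => hs (sol_ext Z inferInstance h)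
  obtain ⟨e⟩ := H10.NoCycNormal.equiv_A5 (G := G ⧸ Z) (fun N hN hc => by_contra fun h1 => by
    have hi := card_eq_card_quotient_mul_card_subgroup N
    have h2 : 1 < Nat.card N := (one_lt_card_iff_ne_bot N).2 h1
    rw [cQ] at hi
    refine sQ (sol_ext N inferInstance (sol ((Dvd.intro _ hi.symm).trans (by norm_num)) ?_))
    nlinarith) cQ
  obtain ⟨a, b, -, -, oa, ob, oab, -, -, -, -, hgen, -⟩ := H10.exists_gens_of_A5 (topEquiv.trans e)
  let π := QuotientGroup.mk' Z
  obtain ⟨x, hx⟩ := QuotientGroup.mk'_surjective Z b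
  obtain ⟨y, hy⟩ := QuotientGroup.mk'_surjective Z (a * b)⁻¹
  have b3 : b ^ 3 = 1 := ob ▸ pow_orderOf_eq_one b
  have a2 : a ^ 2 = 1 := oa ▸ pow_orderOf_eq_one a
  have c5 : (a * b)⁻¹ ^ 5 = 1 := by rw [inv_pow, ← oab, pow_orderOf_eq_one, inv_one]
  have kZ : ∀ g, π g = 1 → g ∈ Z := fun g hg => (QuotientGroup.eq_one_iff g).1 hg
  have px : π (x ^ 4) = b := by rw [map_pow, hx, pow_succ, b3, one_mul]
  have py : π (y ^ 6) = (a * b)⁻¹ := by rw [map_pow, hy, pow_succ, c5, one_mul]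
  have pxy : π (x ^ 4 * y ^ 6) = a⁻¹ := by rw [map_mul, px, py]; group
  have cz' : ∀ g : G, z⁻¹ * g * z = g := fun g => by
    rw [mul_assoc, show g * z = z * g from mul_inv_eq_iff_eq_mul.1 (cz g)]; group
  refine Rel.iso (x := x ^ 4) (y := y ^ 6) (z := z) ⟨?_, ?_, by rw [sq, hz], cz' _, cz' _, ?_, ?_⟩ hG
  · have := mZ _ (kZ (x ^ 3) (by rw [map_pow, hx, b3]))
    rw [show (x ^ 4) ^ 3 = (x ^ 3 * x ^ 3) ^ 2 by group, this, one_pow]
  · have := mZ _ (kZ (y ^ 5) (by rw [map_pow, hy, c5]))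
    rw [show (y ^ 6) ^ 5 = (y ^ 5 * y ^ 5) ^ 3 by group, this, one_pow]
  · refine (hu _ (mZ _ (kZ _ (by rw [map_pow, pxy, inv_pow, a2, inv_one])))).resolve_left fun h => ?_
    have : π (x ^ 4 * y ^ 6) = 1 := by
      rcases hu _ (by rw [← sq, h]) with h | h <;> rw [h]
      · exact map_one π
      · exact (QuotientGroup.eq_one_iff z).2 (mem_zpowers z)
    rw [pxy, inv_eq_one] at this
    rw [this, orderOf_one] at oa
    omega
  · set K := closure {x ^ 4, y ^ 6, z}
    have hZK : π.ker ≤ K := by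
      rw [QuotientGroup.ker_mk', hZ, zpowers_le]; exact subset_closure (by simp)
    have : K.map π = ⊤ := by
      rw [eq_top_iff, hgen, closure_le]
      have m1 : x ^ 4 ∈ K := subset_closure (by simp)
      have m2 : y ^ 6 ∈ K := subset_closure (by simp)
      rintro w (rfl | rfl)
      · exact ⟨_, inv_mem (mul_mem m1 m2), by rw [map_inv, pxy, inv_inv]⟩
      · exact ⟨_, m1, px⟩
    rw [← comap_map_eq_self hZK, this, comap_top]

theorem q8 : ∀ g s : QuaternionGroup 2, g ≠ 1 → s * s = 1 → s = 1 ∨ s = g ∨ s = g * g := by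
  decide +kernel

theorem q8' : (QuaternionGroup.a 2 : QuaternionGroup 2) ≠ 1 ∧
    (QuaternionGroup.a 2 : QuaternionGroup 2) * .a 2 = 1 := by decide +kernel

theorem uniq {G : Type*} [Group G] [Finite G] (hG : Nat.card G = 120) (hs : ¬ Group.IsSolvable G)
    (hQ : ∀ P : Sylow 2 G, Nonempty ((P : Subgroup G) ≃* QuaternionGroup 2)) :
    ∃ z : G, z ≠ 1 ∧ z * z = 1 ∧ ∀ g : G, g * g = 1 → g = 1 ∨ g = z := by
  have := Fact.mk Nat.prime_five
  obtain ⟨P⟩ : Nonempty (Sylow 5 G) := inferInstance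
  have cP : Nat.card P = 5 := by
    rw [P.card_eq_multiplicity, hG]; decide +kernel
  have iP : (P : Subgroup G).index = 24 := by
    have := (P : Subgroup G).card_mul_index; rw [cP] at this; omega
  have n5 : Nat.card (Sylow 5 G) = 6 := by
    have h1 := P.card_dvd_index
    have h2 := card_sylow_modEq_one 5 G
    rw [iP] at h1
    have k : ∀ n < 25, n ∣ 24 → n % 5 = 1 % 5 → n = 1 ∨ n = 6 := by decide +kernel
    refine (k _ (Nat.lt_succ_of_le (Nat.le_of_dvd (by norm_num) h1)) h1 h2).resolve_left fun h => ?_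
    have := (Nat.card_eq_one_iff_unique.1 h).1
    have := P.normal_of_subsingleton
    exact hs (sol_ext (P : Subgroup G) (sol (by rw [cP]; norm_num) (by omega))
      (sol (by change (P : Subgroup G).index ∣ _; rw [iP]; norm_num)
        (by change (P : Subgroup G).index < _; omega)))
  let φ := MulAction.toPermHom G (Sylow 5 G)
  have hK : ∀ s : G, s * s = 1 → s ∈ φ.ker := fun s h => by
    have hp : IsPGroup 2 (zpowers s) := by
      rintro ⟨_, n, rfl⟩
      exact ⟨1, Subtype.ext (by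
        show (s ^ n) ^ (2 ^ 1) = 1
        rw [pow_one, sq, ← (Commute.refl s).mul_zpow, h, one_zpow])⟩
    obtain ⟨Q, hQs⟩ := hp.exists_le_sylow
    obtain ⟨e⟩ := hQ Q
    have cQ : Nat.card Q = 8 := by rw [Nat.card_congr e.toEquiv, Nat.card_eq_fintype_card, QuaternionGroup.card]
    ext1 ω
    change s • ω = ω
    have : MulAction.stabilizer (Q : Subgroup G) ω ≠ ⊥ := fun hb => by
      have h1 := MulAction.index_stabilizer (Q : Subgroup G) ω
      rw [hb, index_bot, cQ] at h1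
      have := Set.ncard_le_card (MulAction.orbit (Q : Subgroup G) ω)
      omega
    obtain ⟨g, hg1⟩ := ne_bot_iff_exists_ne_one.1 this
    have hg : g.1 • ω = ω := g.2
    let s' : (Q : Subgroup G) := ⟨s, hQs (mem_zpowers s)⟩
    change s' • ω = ω
    rcases q8 (e g.1) (e s') (by simpa using hg1) (by rw [← map_mul, show s' * s' = 1 from Subtype.ext h, map_one])
      with k | k | k
    · rw [(map_eq_one_iff e e.injective).1 k, one_smul]
    · rw [e.injective k, hg]
    · rw [← map_mul] at k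
      rw [e.injective k, mul_smul, hg, hg]
  have hle : φ.ker ≤ MulAction.stabilizer G P := fun g hg => by
    have : φ g = 1 := hg
    exact congrArg (· P) this
  have cS : Nat.card (MulAction.stabilizer G P) = 20 := by
    have h1 := MulAction.index_stabilizer_of_transitive G P
    have := (MulAction.stabilizer G P).card_mul_index
    rw [h1, n5] at this
    omega
  have c1 : Nat.card φ.ker ≤ 20 := cS ▸ card_le_of_le hle
  have c2 := card_eq_card_quotient_mul_card_subgroup φ.ker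
  rw [hG] at c2
  have c3 : 60 ≤ Nat.card (G ⧸ φ.ker) := by
    by_contra! hlt
    exact hs (sol_ext φ.ker (sol (Dvd.intro_left _ c2.symm) (by omega)) (sol (Dvd.intro _ c2.symm) hlt))
  have c4 : Nat.card φ.ker ≤ 2 := by nlinarith
  obtain ⟨Q⟩ : Nonempty (Sylow 2 G) := inferInstance
  obtain ⟨e⟩ := hQ Q
  have z1 : ((e.symm (.a 2) : (Q : Subgroup G)) : G) ≠ 1 := by simpa using q8'.1
  have z2 : ((e.symm (.a 2) : (Q : Subgroup G)) : G) * (e.symm (.a 2) : (Q : Subgroup G)) = 1 := by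
    rw [← coe_mul, ← map_mul, q8'.2, map_one, coe_one]
  refine ⟨_, z1, z2, fun g hg => ?_⟩
  by_contra! hne
  classical
  have := Fintype.ofFinite φ.ker
  have : 2 < Nat.card φ.ker := by
    rw [Nat.card_eq_fintype_card]
    exact Fintype.two_lt_card_iff.2 ⟨1, ⟨_, hK _ z2⟩, ⟨g, hK g hg⟩, fun h => z1 (congrArg Subtype.val h).symm,
      fun h => hne.1 (congrArg Subtype.val h).symm, fun h => hne.2 (congrArg Subtype.val h).symm⟩
  omega

theorem z5 : (2 : ZMod 5) ≠ 0 ∧ (-1 : ZMod 5) ≠ 1 := by decide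

theorem sl25 : Nonempty (PresentedGroup rels ≃* SL(2, ZMod 5)) := by
  have := Fact.mk Nat.prime_five
  refine gens H16.card_sl25 H16.not_isSolvable_sl25 (z := -1) ?_ (by simp)
    fun g hg => H10.sl2_involution z5.1 hg
  intro h
  exact z5.2 (by simpa using congrArg (fun g : SL(2, ZMod 5) => g.1 0 0) h)

/-- Every non-solvable group of order 120 whose Sylow 2-subgroups are quaternion of order 8 is isomorphic to SL(2,5), and SL(2,5) has the presentation ⟨x, y, z | x³ = y⁵ = z² = 1, z⁻¹xz = x, z⁻¹yz = y, (xy)² = z⟩. -/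
theorem result :
    (∀ (G : Type*) [Group G] [Finite G], Nat.card G = 120 → ¬ Group.IsSolvable G →
      (∀ P : Sylow 2 G, Nonempty ((P : Subgroup G) ≃* QuaternionGroup 2)) →
      Nonempty (G ≃* Matrix.SpecialLinearGroup (Fin 2) (ZMod 5))) ∧
    Nonempty (PresentedGroup ({FreeGroup.of (0 : Fin 3) ^ 3, FreeGroup.of (1 : Fin 3) ^ 5, FreeGroup.of (2 : Fin 3) ^ 2,
        (FreeGroup.of (2 : Fin 3))⁻¹ * FreeGroup.of 0 * FreeGroup.of 2 * (FreeGroup.of (0 : Fin 3))⁻¹,
        (FreeGroup.of (2 : Fin 3))⁻¹ * FreeGroup.of 1 * FreeGroup.of 2 * (FreeGroup.of (1 : Fin 3))⁻¹,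
        (FreeGroup.of (0 : Fin 3) * FreeGroup.of 1) ^ 2 * (FreeGroup.of (2 : Fin 3))⁻¹} : Set (FreeGroup (Fin 3)))
      ≃* Matrix.SpecialLinearGroup (Fin 2) (ZMod 5)) := by
  refine ⟨fun G _ _ hG hs hQ => ?_, sl25⟩
  obtain ⟨z, h1, h2, h3⟩ := uniq hG hs hQ
  obtain ⟨e⟩ := gens hG hs h1 h2 h3
  obtain ⟨e'⟩ := sl25
  exact ⟨e.symm.trans e'⟩

end Cfsg.Agent.S3378
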