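import Cfsg.Statements.S3381
import Mathlib

set_option autoImplicit false
open Cfsg

namespace Cfsg.Agent.S3381

open Module

/-- The fixed space. -/
def fx {K V : Type*} [Field K] [AddCommGroup V] [Module K V] (t : V ≃ₗ[K] V) : Submodule K V :=
  LinearMap.ker ((t : V →ₗ[K] V) - LinearMap.id)

theorem mem_fx {K V : Type*} [Field K] [AddCommGroup V] [Module K V] {t : V ≃ₗ[K] V} {v : V} :
    v ∈ fx t ↔ t v = v := by
  simp [fx, sub_eq_zero]

theorem card_ne {α : Type*} [Finite α] (a : α) : Nat.card {x : α // x ≠ a} = Nat.card α - 1 := by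
  classical
  have := Fintype.ofFinite α
  simp [Nat.card_eq_fintype_card, Fintype.card_subtype_compl]

theorem two_of_card {G : Type*} [Group G] {P : G → Prop} (h : Nat.card {g : G // P g} = 2)
    (h1 : P 1) : ∃ t, t ≠ 1 ∧ P t ∧ ∀ s, P s → s = 1 ∨ s = t := by
  obtain ⟨y, hy, hy'⟩ := (Nat.card_eq_two_iff' (⟨1, h1⟩ : {g : G // P g})).1 h
  refine ⟨y.1, fun e => hy (Subtype.ext e), y.2, fun s hs => ?_⟩
  by_cases e : s = 1
  · exact Or.inl e
  · exact Or.inr (congrArg Subtype.val (hy' ⟨s, hs⟩ fun e' => e (congrArg Subtype.val e')))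

/-- Let G be a finite group acting faithfully and linearly on a non-trivial finite vector space V over the field with q elements (q prime) so that every non-zero vector has a stabilizer of order 2, and suppose G has a central involution. Then V has q^(2r) elements for some r and G contains exactly q^r + 1 non-central involutions. -/
theorem result
    (q : ℕ) [Fact q.Prime] {V : Type*} [AddCommGroup V] [Module (ZMod q) V] [Finite V] [Nontrivial V]
    {G : Type*} [Group G] [Finite G] (ρ : G →* (V ≃ₗ[ZMod q] V)) (hρ : Function.Injective ρ)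
    (hstab : ∀ v : V, v ≠ 0 → Nat.card {g : G // ρ g v = v} = 2)
    (z : G) (hz : orderOf z = 2) (hzc : z ∈ Subgroup.center G) :
    ∃ r : ℕ, Nat.card V = q ^ (2 * r) ∧
      Nat.card {g : G // orderOf g = 2 ∧ g ∉ Subgroup.center G} = q ^ r + 1 := by
  have hq : q.Prime := Fact.out
  have hst : ∀ v : V, v ≠ 0 → ∃ t, t ≠ 1 ∧ ρ t v = v ∧ ∀ s, ρ s v = v → s = 1 ∨ s = t :=
    fun v hv => two_of_card (P := fun g => ρ g v = v) (hstab v hv) (by simp)
  have huniq : ∀ v : V, v ≠ 0 → ∀ s t : G, s ≠ 1 → t ≠ 1 → ρ s v = v → ρ t v = v → s = t := by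
    intro v hv s t hs ht h1 h2
    obtain ⟨u, -, -, hu⟩ := hst v hv
    rw [(hu s h1).resolve_left hs, (hu t h2).resolve_left ht]
  have hmul : ∀ a b : G, ∀ v, ρ (a * b) v = ρ a (ρ b v) := fun a b v => by rw [map_mul]; rfl
  have hinv : ∀ v : V, v ≠ 0 → ∀ t : G, ρ t v = v → t * t = 1 := by
    intro v hv t ht
    by_contra h
    have ht1 : t ≠ 1 := by rintro rfl; simp at h
    have := huniq v hv (t * t) t h ht1 (by rw [hmul, ht, ht]) ht
    exact ht1 (by simpa using this)
  have hne : ∀ g : G, g ≠ 1 → ∃ v, ρ g v ≠ v := by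
    intro g hg
    by_contra h
    push Not at h
    exact hg (hρ (by rw [map_one]; ext v; exact h v))
  -- a central involution is `-1`, and `2 ≠ 0`
  have hcen : ∀ c : G, c ≠ 1 → c * c = 1 → c ∈ Subgroup.center G → ∀ v, ρ c v = v → v = 0 := by
    intro c hc1 hcc hc u hu
    by_contra hu0
    have hcomm : ∀ g : G, g * c = c * g := Subgroup.mem_center_iff.1 hc
    obtain ⟨w, hw⟩ := hne c hc1
    -- the vector `x` with `x + c x ≠ 0`, `c x ≠ x`
    obtain ⟨x, hx1, hx2⟩ : ∃ x : V, ρ c x ≠ x ∧ (x + ρ c x ≠ 0) := by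
      by_cases h : w + ρ c w = 0
      · refine ⟨u + w, ?_, ?_⟩
        · rw [map_add, hu]; simpa using hw
        · rw [map_add, hu]
          intro h2
          have h3 : u + u = 0 := by
            have : u + w + (u + ρ c w) = u + u + (w + ρ c w) := by abel
            rw [this, h, add_zero] at h2
            exact h2
          have h4 : (2 : ZMod q) = 0 := by
            by_contra h5
            rw [← two_smul (ZMod q)] at h3
            exact hu0 ((smul_eq_zero.1 h3).resolve_left h5)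
          apply hw
          have h6 : w + w = 0 := by rw [← two_smul (ZMod q), h4, zero_smul]
          have : ρ c w = w + (w + ρ c w) - (w + w) := by abel
          rw [this, h, h6]; simp
      · exact ⟨w, hw, h⟩
    have hx0 : x ≠ 0 := by rintro rfl; simp at hx1
    obtain ⟨s, hs1, hs, -⟩ := hst x hx0
    have h1 : ρ s (x + ρ c x) = x + ρ c x := by
      rw [map_add, hs, ← hmul, hcomm, hmul, hs]
    have h2 : ρ c (x + ρ c x) = x + ρ c x := by
      rw [map_add, ← hmul, hcc, map_one, add_comm]; rfl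
    have := huniq _ hx2 s c hs1 hc1 h1 h2
    rw [this] at hs
    exact hx1 hs
  have hz1 : z ≠ 1 := by rintro rfl; simp at hz
  have hzz : z * z = 1 := by rw [← sq, ← hz, pow_orderOf_eq_one]
  have hzv : ∀ v, ρ z v = -v := by
    intro v
    have := hcen z hz1 hzz hzc (v + ρ z v) (by rw [map_add, ← hmul, hzz, map_one, add_comm]; rfl)
    exact eq_neg_of_add_eq_zero_right this
  have hcomm : ∀ g : G, g * z = z * g := Subgroup.mem_center_iff.1 hzc
  have h2 : (2 : ZMod q) ≠ 0 := by
    intro h2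
    obtain ⟨v, hv⟩ := hne z hz1
    apply hv
    rw [hzv, neg_eq_iff_add_eq_zero, ← two_smul (ZMod q), h2, zero_smul]
  -- the non-central involutions
  let I := {g : G // orderOf g = 2 ∧ g ∉ Subgroup.center G}
  have hI1 : ∀ t : I, t.1 ≠ 1 := fun t h => by have := t.2.1; rw [h] at this; simp at this
  have hII : ∀ t : I, t.1 * t.1 = 1 := fun t => by
    have := pow_orderOf_eq_one t.1
    rwa [t.2.1, sq] at this
  have hmk : ∀ t : G, t ≠ 1 → ∀ v, v ≠ 0 → ρ t v = v → orderOf t = 2 ∧ t ∉ Subgroup.center G :=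
    fun t ht v hv h => ⟨orderOf_eq_prime (by rw [sq]; exact hinv v hv t h) ht,
      fun hc => hv (hcen t ht (hinv v hv t h) hc v h)⟩
  have hneg : ∀ t : I, orderOf (z * t.1) = 2 ∧ z * t.1 ∉ Subgroup.center G := by
    intro t
    have hc : z * t.1 ∉ Subgroup.center G := fun h =>
      t.2.2 ((Subgroup.mul_mem_cancel_left _ hzc).1 h)
    refine ⟨orderOf_eq_prime ?_ (fun h => hc (h ▸ Subgroup.one_mem _)), hc⟩
    rw [sq, mul_assoc, ← mul_assoc t.1, hcomm, mul_assoc, hII, mul_one, hzz]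
  let ng : I → I := fun t => ⟨z * t.1, hneg t⟩
  have hng : ∀ t : I, ∀ v, ρ (ng t).1 v = -ρ t.1 v := fun t v => by
    show ρ (z * t.1) v = _
    rw [hmul, hzv]
  have hdisj : ∀ s t : I, s ≠ t → fx (ρ s.1) ⊓ fx (ρ t.1) = ⊥ := by
    intro s t hst'
    rw [Submodule.eq_bot_iff]
    intro v hv
    by_contra hv0
    exact hst' (Subtype.ext (huniq v hv0 _ _ (hI1 s) (hI1 t) (mem_fx.1 hv.1) (mem_fx.1 hv.2)))
  have hngne : ∀ t : I, t ≠ ng t := fun t h => hz1 (by
    have := congrArg Subtype.val h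
    exact (mul_eq_right.1 this.symm))
  have hsup : ∀ t : I, fx (ρ t.1) ⊔ fx (ρ (ng t).1) = ⊤ := by
    intro t
    rw [eq_top_iff]
    intro v _
    have e : v = (2 : ZMod q)⁻¹ • (v + ρ t.1 v) + (2 : ZMod q)⁻¹ • (v - ρ t.1 v) := by
      rw [← smul_add, add_add_sub_cancel, ← two_smul (ZMod q), smul_smul, inv_mul_cancel₀ h2,
        one_smul]
    have htt : ρ t.1 (ρ t.1 v) = v := by rw [← hmul, hII, map_one]; rfl
    rw [e]
    refine Submodule.add_mem_sup (Submodule.smul_mem _ _ (mem_fx.2 ?_))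
      (Submodule.smul_mem _ _ (mem_fx.2 ?_))
    · rw [map_add, htt, add_comm]
    · rw [hng, map_sub, htt]; abel
  have hsum : ∀ t : I, finrank (ZMod q) (fx (ρ t.1)) + finrank (ZMod q) (fx (ρ (ng t).1)) =
      finrank (ZMod q) V := by
    intro t
    rw [← Submodule.finrank_sup_add_finrank_inf_eq, hsup, hdisj _ _ (hngne t), finrank_top,
      finrank_bot, add_zero]
  have hle : ∀ s t : I, s ≠ t → finrank (ZMod q) (fx (ρ s.1)) + finrank (ZMod q) (fx (ρ t.1)) ≤
      finrank (ZMod q) V := by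
    intro s t h
    rw [← Submodule.finrank_sup_add_finrank_inf_eq, hdisj _ _ h, finrank_bot, add_zero]
    exact Submodule.finrank_le _
  have hngng : ∀ t : I, ng (ng t) = t := fun t => Subtype.ext (by
    show z * (z * t.1) = t.1
    rw [← mul_assoc, hzz, one_mul])
  have hhalf : ∀ s t : I, s ≠ t → s ≠ ng t →
      finrank (ZMod q) V = 2 * finrank (ZMod q) (fx (ρ t.1)) := by
    intro s t h1 h2
    have a1 := hle s t h1
    have a2 := hle s (ng t) h2
    have a3 := hle (ng s) t (fun h => h2 (by rw [← h, hngng]))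
    have a4 := hle (ng s) (ng t) (fun h => h1 (by rw [← hngng s, h, hngng]))
    have a5 := hsum s
    have a6 := hsum t
    omega
  have hpos : ∀ t : I, ∃ v, v ≠ 0 ∧ ρ t.1 v = v := by
    intro t
    obtain ⟨w, hw⟩ := hne _ (hI1 (ng t))
    refine ⟨w + ρ t.1 w, fun h => hw ?_, ?_⟩
    · rw [hng]; exact (eq_neg_of_add_eq_zero_left h).symm
    · rw [map_add, ← hmul, hII, map_one, add_comm]; rfl
  have hall : ∀ t : I, finrank (ZMod q) V = 2 * finrank (ZMod q) (fx (ρ t.1)) := by
    intro t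
    obtain ⟨u, hu0, hu⟩ := hpos t
    obtain ⟨w, hw0, hw⟩ := hpos (ng t)
    have hw' : ρ t.1 w = -w := by rw [hng] at hw; exact neg_eq_iff_eq_neg.1 hw
    have htwo : ∀ x : V, x + x = 0 → x = 0 := fun x hx => by
      rw [← two_smul (ZMod q)] at hx
      exact (smul_eq_zero.1 hx).resolve_left h2
    have n1 : ρ t.1 (u + w) ≠ u + w := by
      rw [map_add, hu, hw']
      intro h
      exact hw0 (htwo w (by rw [add_right_inj] at h; exact neg_eq_iff_add_eq_zero.1 h))
    have n2 : ρ (ng t).1 (u + w) ≠ u + w := by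
      rw [map_add, hw, hng, hu]
      intro h
      exact hu0 (htwo u (by rw [add_left_inj] at h; exact neg_eq_iff_add_eq_zero.1 h))
    have huw : u + w ≠ 0 := fun h => n1 (by rw [h, map_zero])
    obtain ⟨s, hs1, hs, -⟩ := hst _ huw
    refine hhalf ⟨s, hmk s hs1 _ huw hs⟩ t ?_ ?_
    · rintro rfl; exact n1 hs
    · intro h; apply n2; rw [← h]; exact hs
  obtain ⟨v0, hv0⟩ := exists_ne (0 : V)
  obtain ⟨t0, ht01, ht0, -⟩ := hst v0 hv0
  obtain ⟨r, hr⟩ : ∃ r, finrank (ZMod q) V = 2 * r := ⟨_, hall ⟨t0, hmk t0 ht01 v0 hv0 ht0⟩⟩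
  have hrt : ∀ t : I, finrank (ZMod q) (fx (ρ t.1)) = r := fun t => by
    have := hall t
    omega
  have hV : Nat.card V = q ^ (2 * r) := by
    rw [Module.natCard_eq_pow_finrank (K := ZMod q), hr, Nat.card_zmod]
  refine ⟨r, hV, ?_⟩
  have hr0 : 0 < r := by
    have : 0 < finrank (ZMod q) V := finrank_pos
    omega
  -- count non-zero vectors
  have hcount : Nat.card {v : V // v ≠ 0} = Nat.card I * (q ^ r - 1) := by
    let f : (Σ t : I, {v : fx (ρ t.1) // v ≠ 0}) → {v : V // v ≠ 0} :=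
      fun x => ⟨x.2.1.1, fun h => x.2.2 (Subtype.ext h)⟩
    have hf : Function.Bijective f := by
      constructor
      · rintro ⟨s, v, hv⟩ ⟨t, w, hw⟩ h
        have h1 : v.1 = w.1 := congrArg Subtype.val h
        have hv' : v.1 ≠ 0 := fun h => hv (Subtype.ext h)
        have : s = t := Subtype.ext (huniq v.1 hv' _ _ (hI1 s) (hI1 t) (mem_fx.1 v.2)
          (by rw [h1]; exact mem_fx.1 w.2))
        subst this
        have : v = w := Subtype.ext h1
        subst this
        rfl
      · rintro ⟨v, hv⟩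
        obtain ⟨s, hs1, hs, -⟩ := hst v hv
        exact ⟨⟨⟨s, hmk s hs1 v hv hs⟩, ⟨v, mem_fx.2 hs⟩, fun h => hv (congrArg Subtype.val h)⟩, rfl⟩
    rw [← Nat.card_eq_of_bijective f hf]
    have := Fintype.ofFinite I
    rw [Nat.card_sigma]
    have : ∀ t : I, Nat.card {v : fx (ρ t.1) // v ≠ 0} = q ^ r - 1 := fun t => by
      rw [card_ne, Module.natCard_eq_pow_finrank (K := ZMod q), hrt, Nat.card_zmod]
    simp [this]
  rw [card_ne, hV] at hcount
  have h1 : 1 < q ^ r := Nat.one_lt_pow hr0.ne' hq.one_lt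
  have h3 : q ^ (2 * r) - 1 = (q ^ r + 1) * (q ^ r - 1) := by
    rw [mul_comm 2 r, pow_mul, ← Nat.sq_sub_sq, one_pow]
  rw [h3] at hcount
  exact (Nat.eq_of_mul_eq_mul_right (by omega) hcount).symm

end Cfsg.Agent.S3381
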