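import Cfsg.Statements.S3382
import Mathlib
-- import your own Cfsg.Agent.* helpers here

set_option autoImplicit false
open Cfsg

namespace Cfsg.Agent.S3382


theorem zmod2 : ∀ a b : ZMod 2, (a * b = 1 ∨ a * b = -1) → a = 1 ∧ b = 1 := by decide
theorem zmod3 : (2 : ZMod 3) ≠ 0 ∧ ∀ a : ZMod 3, a ≠ 0 → a * a = 1 := by decide

theorem lemA {T : Type*} [Group T] {α : MulAut T} {n k : ℕ} (hn : Odd n) (hα : α ^ n = 1) {x t : T}
    (h : α x = x * t) (ht : α t = t) (hk : t ^ 2 ^ k = 1) : α x = x := by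
  have : ∀ j : ℕ, (α ^ j) x = x * t ^ j := by
    intro j
    induction j with
    | zero => simp
    | succ j ih => rw [pow_succ', MulAut.mul_apply, ih, map_mul, h, map_pow, ht, pow_succ', mul_assoc]
  have h1 := this n
  rw [hα, MulAut.one_apply, left_eq_mul] at h1
  have h2 : t = 1 := by
    rw [← orderOf_eq_one_iff]
    exact (Nat.coprime_self _).mp (Nat.Coprime.coprime_dvd_left (orderOf_dvd_of_pow_eq_one h1)
      (Nat.Coprime.coprime_dvd_right (orderOf_dvd_of_pow_eq_one hk)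
        (Nat.Coprime.pow_right _ (Nat.coprime_two_right.mpr hn))))
  rw [h, h2, mul_one]

theorem lemB {T : Type*} [Group T] {α : MulAut T} {n k : ℕ} (hn : Odd n) (hα : α ^ n = 1) (hk : ∀ t : T, t ^ 2 ^ k = 1)
    (A : Set T) (h1 : ∀ a ∈ A, α a = a) (h2 : ∀ x u, x ∉ A → u ∉ A → x * u ∈ A) : α = 1 := by
  ext x
  by_cases hx : x ∈ A
  · exact h1 x hx
  refine lemA hn hα (t := x⁻¹ * α x) (by group) (h1 _ ?_) (hk _)
  by_contra hu
  have h3 := h2 _ _ hx hu
  rw [mul_inv_cancel_left] at h3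
  exact hx (α.injective (h1 _ h3) ▸ h3)

section
variable {K : Type*} [Field K]

/-- diagonal -/
def Dg (f : (Fin 2 → K) ≃ₗ[K] (Fin 2 → K)) (a b : K) : Prop := ∀ v, f v = ![a * v 0, b * v 1]
/-- antidiagonal -/
def An (f : (Fin 2 → K) ≃ₗ[K] (Fin 2 → K)) (a b : K) : Prop := ∀ v, f v = ![b * v 1, a * v 0]

variable {f g : (Fin 2 → K) ≃ₗ[K] (Fin 2 → K)} {a b c d : K}

theorem Dg.mul (h : Dg f a b) (h' : Dg g c d) : Dg (f * g) (a * c) (b * d) := fun v => by
  rw [LinearEquiv.mul_apply, h, h']; simp [mul_assoc]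
theorem An.mul (h : An f a b) (h' : An g c d) : Dg (f * g) (b * c) (a * d) := fun v => by
  rw [LinearEquiv.mul_apply, h, h']; simp [mul_assoc]
theorem Dg.mul' (h : Dg f a b) (h' : An g c d) : An (f * g) (b * c) (a * d) := fun v => by
  rw [LinearEquiv.mul_apply, h, h']; simp [mul_assoc]
theorem An.mul' (h : An f a b) (h' : Dg g c d) : An (f * g) (a * c) (b * d) := fun v => by
  rw [LinearEquiv.mul_apply, h, h']; simp [mul_assoc]
theorem dg_one : Dg (1 : (Fin 2 → K) ≃ₗ[K] (Fin 2 → K)) 1 1 := fun v => by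
  ext i; fin_cases i <;> simp
theorem Dg.pow (h : Dg f a b) (n : ℕ) : Dg (f ^ n) (a ^ n) (b ^ n) := by
  induction n with
  | zero => simpa using dg_one
  | succ n ih => simpa only [pow_succ] using ih.mul h
theorem Dg.eq (h : Dg f a b) (h' : Dg g c d) (h1 : a = c) (h2 : b = d) : f = g := by
  ext1 v; rw [h, h', h1, h2]
theorem An.eq (h : An f a b) (h' : An g c d) (h1 : a = c) (h2 : b = d) : f = g := by
  ext1 v; rw [h, h', h1, h2]
theorem Dg.uniq (h : Dg f a b) (h' : Dg f c d) : a = c ∧ b = d := by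
  have := (h ![1, 1]).symm.trans (h' ![1, 1])
  simpa using this
theorem An.uniq (h : An f a b) (h' : An f c d) : a = c ∧ b = d := by
  have := (h ![1, 1]).symm.trans (h' ![1, 1])
  simpa [and_comm] using this
theorem Dg.not_an (h : Dg f a b) (h' : An f c d) : a = 0 := by
  have := (h ![1, 0]).symm.trans (h' ![1, 0])
  simpa using (congrFun this 0)

theorem exists_dg (ha : a ≠ 0) (hb : b ≠ 0) : ∃ f : (Fin 2 → K) ≃ₗ[K] (Fin 2 → K), Dg f a b :=
  ⟨{ toFun := fun v => ![a * v 0, b * v 1]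
     invFun := fun v => ![a⁻¹ * v 0, b⁻¹ * v 1]
     map_add' := fun v w => by ext i; fin_cases i <;> simp [mul_add]
     map_smul' := fun c v => by ext i; fin_cases i <;> simp [mul_left_comm]
     left_inv := fun v => by ext i; fin_cases i <;> simp [ha, hb]
     right_inv := fun v => by ext i; fin_cases i <;> simp [ha, hb] }, fun _ => rfl⟩

theorem exists_an : ∃ f : (Fin 2 → K) ≃ₗ[K] (Fin 2 → K), An f 1 1 :=
  ⟨{ toFun := fun v => ![1 * v 1, 1 * v 0]
     invFun := fun v => ![1 * v 1, 1 * v 0]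
     map_add' := fun v w => by ext i; fin_cases i <;> simp
     map_smul' := fun c v => by ext i; fin_cases i <;> simp
     left_inv := fun v => by ext i; fin_cases i <;> simp
     right_inv := fun v => by ext i; fin_cases i <;> simp }, fun _ => rfl⟩

theorem fix_neg {T : Subgroup ((Fin 2 → K) ≃ₗ[K] (Fin 2 → K))} (h2 : (2 : K) ≠ 0)
    (hT : ∀ f, f ∈ T ↔ ∃ a b : K, (a * b = 1 ∨ a * b = -1) ∧ (Dg f a b ∨ An f a b)) (α : MulAut T) {z : T}
    (hz : Dg z.1 (-1) (-1)) : α z = z := by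
  obtain ⟨h, hh⟩ := exists_dg (a := (1 : K)) (b := -1) one_ne_zero (neg_ne_zero.mpr one_ne_zero)
  obtain ⟨w, hw⟩ := exists_an (K := K)
  have hc : ∀ y : T, z * y = y * z := by
    intro y
    obtain ⟨a, b, -, h | h⟩ := (hT y).mp y.2
    · exact Subtype.ext ((hz.mul h).eq (h.mul hz) (mul_comm _ _) (mul_comm _ _))
    · exact Subtype.ext ((hz.mul' h).eq (h.mul' hz) (mul_comm _ _) (mul_comm _ _))
  have hc' : ∀ y : T, α z * y = y * α z := by
    intro y
    obtain ⟨y, rfl⟩ := α.surjective y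
    rw [← map_mul, ← map_mul, hc]
  have hz2 : z * z = 1 := Subtype.ext ((hz.mul hz).eq dg_one (by ring) (by ring))
  have hz1 : z ≠ 1 := by
    intro h
    have := (hz.uniq ((show (1 : (Fin 2 → K) ≃ₗ[K] (Fin 2 → K)) = z.1 from congrArg Subtype.val h.symm) ▸ dg_one)).1
    exact h2 (by linear_combination -this)
  obtain ⟨a, b, hab, h' | h'⟩ := (hT _).mp (α z).2
  · have e := congrArg Subtype.val (hc' ⟨w, (hT w).mpr ⟨1, 1, Or.inl (one_mul 1), Or.inr hw⟩⟩)
    have e1 := (h'.mul' hw).uniq ((show (α z).1 * w = w * (α z).1 from e) ▸ hw.mul' h')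
    have e2 : α z * α z = 1 := by rw [← map_mul, hz2, map_one]
    have e3 := ((h'.mul h').uniq ((show (α z).1 * (α z).1 = 1 from congrArg Subtype.val e2) ▸ dg_one)).1
    have e4 : b = a := by linear_combination e1.1
    rcases mul_self_eq_one_iff.mp e3 with e5 | e5
    · exact absurd (α.injective ((Subtype.ext (h'.eq dg_one e5 (e4.trans e5))).trans (map_one α).symm)) hz1
    · exact Subtype.ext (h'.eq hz e5 (e4.trans e5))
  · have e := congrArg Subtype.val (hc' ⟨h, (hT h).mpr ⟨1, -1, Or.inr (one_mul _), Or.inl hh⟩⟩)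
    have e1 := (h'.mul' hh).uniq ((show (α z).1 * h = h * (α z).1 from e) ▸ hh.mul' h')
    have : a = 0 := (mul_eq_zero.mp (show 2 * a = 0 by linear_combination e1.1)).resolve_left h2
    rw [this] at hab
    simp at hab

theorem big {T : Subgroup ((Fin 2 → K) ≃ₗ[K] (Fin 2 → K))} (h2 : (2 : K) ≠ 0)
    (hT : ∀ f, f ∈ T ↔ ∃ a b : K, (a * b = 1 ∨ a * b = -1) ∧ (Dg f a b ∨ An f a b)) {α : MulAut T} {n k : ℕ}
    (hn : Odd n) (hα : α ^ n = 1) (hk : ∀ t : T, t ^ 2 ^ k = 1) {γ : K} (hγ : γ ≠ 0) (hγ4 : γ ^ 4 ≠ 1) : α = 1 := by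
  have hne : ∀ {a b : K}, (a * b = 1 ∨ a * b = -1) → a ≠ 0 := by rintro a b h rfl; simp at h
  have typ : ∀ x : T, (∃ a b, Dg x.1 a b) ∨ ∃ a b, (a * b = 1 ∨ a * b = -1) ∧ An x.1 a b := by
    intro x
    obtain ⟨a, b, hab, h | h⟩ := (hT x).mp x.2
    · exact Or.inl ⟨a, b, h⟩
    · exact Or.inr ⟨a, b, hab, h⟩
  have four : ∀ x : T, x ^ 4 ≠ 1 → ∃ a b, Dg x.1 a b := by
    intro x hx
    refine (typ x).resolve_right ?_
    rintro ⟨a, b, hab, h⟩
    apply hx
    apply Subtype.ext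
    have := (h.mul h).pow 2
    rw [← pow_two, ← pow_mul] at this
    refine this.eq dg_one ?_ ?_ <;> rcases hab with hab | hab <;> simp [mul_comm b a, hab]
  obtain ⟨g, hg⟩ := exists_dg hγ (inv_ne_zero hγ)
  let g' : T := ⟨g, (hT g).mpr ⟨_, _, Or.inl (mul_inv_cancel₀ hγ), Or.inl hg⟩⟩
  have hg4 : g' ^ 4 ≠ 1 := fun h =>
    hγ4 ((hg.pow 4).uniq ((show g ^ 4 = 1 from congrArg Subtype.val h) ▸ dg_one)).1
  have hinv : ∀ (β : MulAut T) (x : T), (∃ a b, Dg x.1 a b) → ∃ a b, Dg (β x).1 a b := by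
    have h4 : ∀ (β : MulAut T) (x : T), x ^ 4 ≠ 1 → ∃ a b, Dg (β x).1 a b := fun β x hx =>
      four _ fun h => hx (β.injective (by rw [map_pow, h, map_one]))
    rintro β x ⟨a, b, hx⟩
    by_cases hx4 : x ^ 4 = 1
    · have hcomm : Commute x g' := Subtype.ext ((hx.mul hg).eq (hg.mul hx) (mul_comm _ _) (mul_comm _ _))
      obtain ⟨c, d, h1⟩ := h4 β (x * g') (by rwa [hcomm.mul_pow, hx4, one_mul])
      obtain ⟨c', d', h3⟩ := h4 β g'⁻¹ (by rwa [inv_pow, Ne, inv_eq_one])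
      refine ⟨_, _, (show (β (x * g')).1 * (β g'⁻¹).1 = (β x).1 from ?_) ▸ h1.mul h3⟩
      rw [← Subgroup.coe_mul, ← map_mul, mul_inv_cancel_right]
    · exact h4 β x hx4
  obtain ⟨z, hz⟩ := exists_dg (a := (-1 : K)) (b := -1) (neg_ne_zero.mpr one_ne_zero) (neg_ne_zero.mpr one_ne_zero)
  let z' : T := ⟨z, (hT z).mpr ⟨_, _, Or.inl (by ring), Or.inl hz⟩⟩
  have hz' : α z' = z' := fix_neg h2 hT α hz
  have inv2 : ∀ x : T, (∃ a b, Dg x.1 a b) → x * x = 1 → α x = x := by
    have cases : ∀ (x : T) (a b : K), Dg x.1 a b → x * x = 1 → x = 1 ∨ x = z' ∨ (a * a = 1 ∧ b = -a) := by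
      intro x a b hx h
      have := (hx.mul hx).uniq ((show x.1 * x.1 = 1 from congrArg Subtype.val h) ▸ dg_one)
      rcases mul_self_eq_one_iff.mp this.1 with h1 | h1 <;> rcases mul_self_eq_one_iff.mp this.2 with h3 | h3
      · exact Or.inl (Subtype.ext (hx.eq dg_one h1 h3))
      · exact Or.inr (Or.inr ⟨this.1, by rw [h1, h3]⟩)
      · exact Or.inr (Or.inr ⟨this.1, by rw [h1, h3, neg_neg]⟩)
      · exact Or.inr (Or.inl (Subtype.ext (hx.eq hz h1 h3)))
    rintro x ⟨a, b, hx⟩ h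
    rcases cases x a b hx h with rfl | rfl | ⟨h1, rfl⟩
    · exact map_one α
    · exact hz'
    obtain ⟨c, d, hy⟩ := hinv α x ⟨_, _, hx⟩
    rcases cases _ c d hy (by rw [← map_mul, h, map_one]) with h3 | h3 | ⟨h3, rfl⟩
    · rw [α.injective (h3.trans (map_one α).symm), map_one]
    · rw [α.injective (h3.trans hz'.symm), hz']
    · rcases mul_self_eq_mul_self_iff.mp (h3.trans h1.symm) with rfl | rfl
      · exact Subtype.ext (hy.eq hx rfl rfl)
      · exact lemA hn hα (t := z') (Subtype.ext (hy.eq (hx.mul hz) (by ring) (by ring))) hz' (hk _)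
  have all : ∀ (i : ℕ) (x : T), (∃ a b, Dg x.1 a b) → x ^ 2 ^ i = 1 → α x = x := by
    intro i
    induction i with
    | zero => intro x _ h; rw [pow_zero, pow_one] at h; rw [h, map_one]
    | succ i ih =>
      rintro x ⟨a, b, hx⟩ h
      have h1 := ih (x * x) ⟨_, _, hx.mul hx⟩ (by rw [← pow_two, ← pow_mul, ← pow_succ', h])
      obtain ⟨c, d, hy⟩ := hinv α x ⟨_, _, hx⟩
      have hcomm : Commute x (α x) := Subtype.ext ((hx.mul hy).eq (hy.mul hx) (mul_comm _ _) (mul_comm _ _))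
      refine lemA hn hα (t := x⁻¹ * α x) (by group) (inv2 _ ?_ ?_) (hk _)
      · refine (typ _).resolve_right ?_
        rintro ⟨e, f, hef, h3⟩
        have h4 : An (α x).1 _ _ := (show x.1 * (x⁻¹ * α x).1 = (α x).1 by simp) ▸ hx.mul' h3
        obtain ⟨c', d', hcd, h5 | h5⟩ := (hT _).mp (α x).2
        · exact hne hcd (h5.not_an h4)
        · obtain ⟨c'', d'', h6⟩ := hinv α⁻¹ _ ⟨_, _, hy⟩
          have : c = 0 := hy.not_an h5
          have h7 := hy ![1, 0]
          rw [this] at h7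
          have h8 : (α x).1 ![1, 0] = (α x).1 0 := by rw [h7, map_zero]; simp
          simpa using congrFun ((α x).1.injective h8) 0
      · calc x⁻¹ * α x * (x⁻¹ * α x) = x⁻¹ * x⁻¹ * (α x * α x) := by
              rw [mul_assoc, ← mul_assoc (α x), ← hcomm.inv_left.eq]; group
          _ = 1 := by rw [← map_mul, h1]; group
  refine lemB hn hα hk {x | ∃ a b, Dg x.1 a b} (fun x hx => all k x hx (hk x)) fun x u hx hu => ?_
  obtain ⟨a, b, -, h1⟩ := (typ x).resolve_left hx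
  obtain ⟨c, d, -, h3⟩ := (typ u).resolve_left hu
  exact ⟨_, _, h1.mul h3⟩

theorem small {T : Subgroup ((Fin 2 → K) ≃ₗ[K] (Fin 2 → K))} (h2 : (2 : K) ≠ 0)
    (hT : ∀ f, f ∈ T ↔ ∃ a b : K, (a * b = 1 ∨ a * b = -1) ∧ (Dg f a b ∨ An f a b)) {α : MulAut T} {n k : ℕ}
    (hn : Odd n) (hα : α ^ n = 1) (hk : ∀ t : T, t ^ 2 ^ k = 1) (h3 : ∀ a : K, a ≠ 0 → a * a = 1) : α = 1 := by
  have typ : ∀ x : T, ∃ a, a * a = 1 ∧ ((Dg x.1 a a ∨ An x.1 a (-a)) ∨ (Dg x.1 a (-a) ∨ An x.1 a a)) := by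
    intro x
    obtain ⟨a, b, hab, h⟩ := (hT x).mp x.2
    have ha : a * a = 1 := h3 a (by rintro rfl; simp at hab)
    refine ⟨a, ha, ?_⟩
    rcases hab with hab | hab
    · have : b = a := by linear_combination a * hab - b * ha
      subst this; tauto
    · have : b = -a := by linear_combination a * hab - b * ha
      subst this; tauto
  obtain ⟨z, hz⟩ := exists_dg (a := (-1 : K)) (b := -1) (neg_ne_zero.mpr one_ne_zero) (neg_ne_zero.mpr one_ne_zero)
  let z' : T := ⟨z, (hT z).mpr ⟨_, _, Or.inl (by ring), Or.inl hz⟩⟩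
  have hz' : α z' = z' := fix_neg h2 hT α hz
  refine lemB hn hα hk {x | ∃ a, a * a = 1 ∧ (Dg x.1 a a ∨ An x.1 a (-a))} ?_ fun x u hx hu => ?_
  · rintro x ⟨a, ha, h | h⟩
    · rcases mul_self_eq_one_iff.mp ha with rfl | rfl
      · rw [show x = 1 from Subtype.ext (h.eq dg_one rfl rfl), map_one]
      · rw [show x = z' from Subtype.ext (h.eq hz rfl rfl), hz']
    · have e1 : x * x = z' := Subtype.ext ((h.mul h).eq hz (by linear_combination -ha) (by linear_combination -ha))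
      have e2 : (α x).1 * (α x).1 = z := congrArg Subtype.val (show α x * α x = z' by rw [← map_mul, e1, hz'])
      obtain ⟨c, hc, (h4 | h4) | (h4 | h4)⟩ := typ (α x)
      · exact absurd (by linear_combination ((h4.mul h4).uniq (e2 ▸ hz)).1 - hc) h2
      · rcases mul_self_eq_mul_self_iff.mp (hc.trans ha.symm) with rfl | rfl
        · exact Subtype.ext (h4.eq h rfl rfl)
        · exact lemA hn hα (t := z') (Subtype.ext (h4.eq (h.mul' hz) (by ring) (by ring))) hz' (hk _)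
      · exact absurd (by linear_combination ((h4.mul h4).uniq (e2 ▸ hz)).1 - hc) h2
      · exact absurd (by linear_combination ((h4.mul h4).uniq (e2 ▸ hz)).1 - hc) h2
  · obtain ⟨a, ha, h1⟩ := typ x
    obtain ⟨c, hc, h4⟩ := typ u
    have h1 := h1.resolve_left fun h => hx ⟨a, ha, h⟩
    have h4 := h4.resolve_left fun h => hu ⟨c, hc, h⟩
    have hac : (a * c) * (a * c) = 1 := by linear_combination c * c * ha + hc
    rcases h1 with h1 | h1 <;> rcases h4 with h4 | h4
    · exact ⟨a * c, hac, Or.inl (by simpa using h1.mul h4)⟩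
    · exact ⟨-(a * c), by simpa using hac, Or.inr (by simpa using h1.mul' h4)⟩
    · exact ⟨a * c, hac, Or.inr (by simpa using h1.mul' h4)⟩
    · exact ⟨a * c, hac, Or.inl (h1.mul h4)⟩

end


/-- Let q = 2^m + 1 be a prime other than 5. Then the automorphism group of the group of linear maps of F_q² of the forms (x, y) ↦ (a x, ± a⁻¹ y) and (x, y) ↦ (± a⁻¹ y, a x) with a ≠ 0 is itself a 2-group. -/
theorem result (q m : ℕ) [Fact q.Prime] (hq : q = 2 ^ m + 1) (hq5 : q ≠ 5)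
    (T : Subgroup ((Fin 2 → ZMod q) ≃ₗ[ZMod q] (Fin 2 → ZMod q)))
    (hT : ∀ f, f ∈ T ↔ ∃ a s : ZMod q, a ≠ 0 ∧ (s = 1 ∨ s = -1) ∧
      ((∀ v, f v = ![a * v 0, s * a⁻¹ * v 1]) ∨ (∀ v, f v = ![s * a⁻¹ * v 1, a * v 0]))) :
    IsPGroup 2 (MulAut T) := by
  have hT' : ∀ f, f ∈ T ↔ ∃ a b : ZMod q, (a * b = 1 ∨ a * b = -1) ∧ (Dg f a b ∨ An f a b) := by
    intro f
    rw [hT]
    constructor
    · rintro ⟨a, s, ha, hs, h⟩
      refine ⟨a, s * a⁻¹, ?_, h⟩
      rwa [mul_left_comm, mul_inv_cancel₀ ha, mul_one]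
    · rintro ⟨a, b, hab, h⟩
      have ha : a ≠ 0 := by rintro rfl; simp at hab
      refine ⟨a, a * b, ha, hab, ?_⟩
      rwa [mul_right_comm, mul_inv_cancel₀ ha, one_mul]
  have hk : ∀ t : T, t ^ 2 ^ (m + 2) = 1 := by
    intro t
    have hpow : ∀ a : ZMod q, a ≠ 0 → a ^ 2 ^ (m + 2) = 1 := by
      intro a ha
      have := ZMod.pow_card_sub_one_eq_one ha
      rw [show q - 1 = 2 ^ m from Nat.sub_eq_of_eq_add hq] at this
      rw [pow_add, pow_mul, this, one_pow]
    obtain ⟨a, b, hab, h | h⟩ := (hT' t).mp t.2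
    · exact Subtype.ext ((h.pow _).eq dg_one (hpow a (by rintro rfl; simp at hab)) (hpow b (by rintro rfl; simp at hab)))
    · have := (h.mul h).pow 2
      rw [← pow_two, ← pow_mul] at this
      have h4 : t ^ (2 * 2) = 1 := by
        apply Subtype.ext
        refine this.eq dg_one ?_ ?_ <;> rcases hab with hab | hab <;> simp [mul_comm b a, hab]
      rw [pow_add, mul_comm, pow_mul, show 2 ^ 2 = 2 * 2 from rfl, h4, one_pow]
  haveI : Finite ((Fin 2 → ZMod q) ≃ₗ[ZMod q] (Fin 2 → ZMod q)) := Finite.of_injective _ DFunLike.coe_injective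
  haveI : Finite (MulAut T) := Finite.of_injective _ DFunLike.coe_injective
  have key : ∀ (α : MulAut T) (n : ℕ), Odd n → α ^ n = 1 → α = 1 := by
    intro α n hn hα
    rcases Nat.lt_or_ge m 3 with hm | hm
    · interval_cases m
      · obtain rfl : q = 2 := hq
        have h2 := zmod2
        refine lemB hn hα hk {1} (by rintro a rfl; exact map_one α) fun x u hx hu => ?_
        obtain ⟨a, b, hab, h⟩ := (hT' x).mp x.2
        obtain ⟨c, d, hcd, h'⟩ := (hT' u).mp u.2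
        obtain ⟨rfl, rfl⟩ := h2 a b hab
        obtain ⟨rfl, rfl⟩ := h2 c d hcd
        have h := h.resolve_left fun h => hx (Subtype.ext (h.eq dg_one rfl rfl))
        have h' := h'.resolve_left fun h => hu (Subtype.ext (h.eq dg_one rfl rfl))
        exact Subtype.ext ((h.mul h').eq dg_one (one_mul _) (one_mul _))
      · obtain rfl : q = 3 := hq
        exact small zmod3.1 hT' hn hα hk zmod3.2
      · exact absurd hq hq5
    · have h8 : 2 ^ 3 ≤ 2 ^ m := Nat.pow_le_pow_right (by norm_num) hm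
      obtain ⟨γ, hγ⟩ := IsCyclic.exists_ofOrder_eq_natCard (α := (ZMod q)ˣ)
      rw [Nat.card_eq_fintype_card, ZMod.card_units] at hγ
      refine big ?_ hT' hn hα hk γ.ne_zero fun h => ?_
      · intro h
        have := (ZMod.natCast_eq_zero_iff 2 q).mp (by exact_mod_cast h)
        have := Nat.le_of_dvd (by norm_num) this
        omega
      · have h1 : γ ^ 4 = 1 := Units.ext (by simpa using h)
        have := Nat.le_of_dvd (by norm_num) (orderOf_dvd_of_pow_eq_one h1)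
        omega
  intro α
  obtain ⟨k, n, hn, h⟩ := Nat.exists_eq_two_pow_mul_odd (orderOf_pos α).ne'
  exact ⟨k, key _ n hn (by rw [← pow_mul, ← h, pow_orderOf_eq_one])⟩

end Cfsg.Agent.S3382
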