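import Cfsg.Statements.S3383
import Cfsg.Agent.H5.Frob
-- import your own Cfsg.Agent.* helpers here

set_option autoImplicit false
open Cfsg

namespace Cfsg.Agent.S3383

/-- Let H be a Frobenius complement in a finite group L and K the Frobenius kernel (as a subgroup). Then K is characteristic in L, and every normal subgroup of L either contains K or is contained in K. -/
theorem result {L : Type*} [Group L] [Finite L]
    (H : Subgroup L) (hH : Cfsg.IsFrobeniusComplement H)
    (K : Subgroup L) (hK : (K : Set L) = Cfsg.frobeniusKernel H) :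
    K.Characteristic ∧ ∀ N : Subgroup L, N.Normal → K ≤ N ∨ N ≤ K := by
  obtain ⟨K', h1, h2, h3⟩ := H5b.exists_frob_of_compl hH
  obtain rfl : K = K' := SetLike.coe_injective (hK.trans h1.symm)
  have key : ∀ N : Subgroup L, N.Normal → K ≤ N ∨ N ≤ K := fun N hN => by
    by_cases h : K ≤ N
    · exact Or.inl h
    · exact Or.inr (FT.Frobenius_normal_proper_ker h3
        ⟨le_top, by rw [Subgroup.normalizer_eq_top_iff.mpr hN]⟩ h).le
  refine ⟨?_, key⟩
  rw [Subgroup.characteristic_iff_map_eq]
  intro φ
  have hc : Nat.card (K.map φ.toMonoidHom) = Nat.card K :=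
    Subgroup.card_map_of_injective φ.injective
  rcases key _ (h2.map φ.toMonoidHom φ.surjective) with h | h
  · exact (Subgroup.eq_of_le_of_card_ge h hc.le).symm
  · exact Subgroup.eq_of_le_of_card_ge h hc.ge

end Cfsg.Agent.S3383
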