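import Cfsg.Statements.S3430
import Mathlib
import Cfsg.Agent.H27.Zsig2

set_option autoImplicit false
open Cfsg

namespace Cfsg.Agent.S3430

/-- Let q, n ≥ 2 be integers. Unless (n = 2 and q + 1 = 2^s·3^t for some s ≥ 0 and t ≤ 1), or (q = 2 and n ∈ {4, 6, 10, 12, 18}), or (q = 3 and n ∈ {4, 6}), or (q, n) = (5, 6), there is a prime p dividing q^n − 1 but no q^i − 1 with 1 ≤ i < n (a primitive prime divisor), such that p > n + 1 or p² divides q^n − 1. -/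
theorem result (q n : ℕ) (hq : 2 ≤ q) (hn : 2 ≤ n)
    (h1 : ¬ (n = 2 ∧ ∃ s t : ℕ, t ≤ 1 ∧ q + 1 = 2 ^ s * 3 ^ t))
    (h2 : ¬ (q = 2 ∧ (n = 4 ∨ n = 6 ∨ n = 10 ∨ n = 12 ∨ n = 18)))
    (h3 : ¬ (q = 3 ∧ (n = 4 ∨ n = 6))) (h4 : ¬ (q = 5 ∧ n = 6)) :
    ∃ p : ℕ, p.Prime ∧ p ∣ q ^ n - 1 ∧ (∀ i : ℕ, 1 ≤ i → i < n → ¬ p ∣ q ^ i - 1) ∧ (n + 1 < p ∨ p ^ 2 ∣ q ^ n - 1) := by
  rcases hn.eq_or_lt with rfl | hn3
  · have e : q ^ 2 - 1 = (q + 1) * (q - 1) := by rw [← Nat.sq_sub_sq, one_pow]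
    have key : ∀ p : ℕ, p.Prime → p ≠ 2 → p ∣ q + 1 → ∀ i : ℕ, 1 ≤ i → i < 2 → ¬ p ∣ q ^ i - 1 := by
      intro p hp hp2 h i h5 h6 h7
      rw [show i = 1 by omega, pow_one] at h7
      have := Nat.dvd_sub h h7
      rw [show q + 1 - (q - 1) = 2 by omega] at this
      exact hp2 ((Nat.prime_dvd_prime_iff_eq hp Nat.prime_two).1 this)
    obtain ⟨s, u, hu, e1⟩ := Nat.exists_eq_pow_mul_and_not_dvd (by omega : q + 1 ≠ 0) 2 (by norm_num)
    obtain ⟨t, w, hw, e2⟩ := Nat.exists_eq_pow_mul_and_not_dvd (n := u) (by rintro rfl; simp at hu) 3 (by norm_num)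
    by_cases hw1 : w = 1
    · have ht : 2 ≤ t := by
        by_contra ht
        exact h1 ⟨rfl, s, t, by omega, by rw [e1, e2, hw1, mul_one]⟩
      have h9 : 3 ^ 2 ∣ q + 1 := by
        rw [e1, e2]; exact ((pow_dvd_pow 3 ht).mul_right _).mul_left _
      have h3' : 3 ∣ q + 1 := (by norm_num : 3 ∣ 3 ^ 2).trans h9
      exact ⟨3, Nat.prime_three, e ▸ h3'.mul_right _, key 3 Nat.prime_three (by norm_num) h3',
        Or.inr (e ▸ h9.mul_right _)⟩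
    · obtain ⟨p, hp, hd⟩ := Nat.exists_prime_and_dvd hw1
      have h5 : p ∣ u := e2 ▸ hd.mul_left _
      have h6 : p ∣ q + 1 := e1 ▸ h5.mul_left _
      have h7 : p ≠ 2 := by rintro rfl; exact hu h5
      have h8 : p ≠ 3 := by rintro rfl; exact hw hd
      exact ⟨p, hp, e ▸ h6.mul_right _, key p hp h7 h6, Or.inl (by have := hp.two_le; omega)⟩
  by_cases hx : (q, n) ∈ H27.exc
  · simp only [H27.exc, List.mem_cons, Prod.mk.injEq, List.not_mem_nil, or_false] at hx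
    have k : ∀ p q n : ℕ, p.Prime → p ∣ q ^ n - 1 → (∀ i < n, 1 ≤ i → ¬ p ∣ q ^ i - 1) → n + 1 < p →
        ∃ p : ℕ, p.Prime ∧ p ∣ q ^ n - 1 ∧ (∀ i : ℕ, 1 ≤ i → i < n → ¬ p ∣ q ^ i - 1) ∧
          (n + 1 < p ∨ p ^ 2 ∣ q ^ n - 1) := fun p q n a b c d => ⟨p, a, b, fun i e f => c i f e, Or.inl d⟩
    rcases hx with h | h | h | h | h | h | h | h | ⟨rfl, rfl⟩ | ⟨rfl, rfl⟩ | ⟨rfl, rfl⟩ | ⟨rfl, rfl⟩ | ⟨rfl, rfl⟩
    iterate 8 omega
    · exact k 7 _ _ (by norm_num) (by decide) (by decide) (by norm_num)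
    · exact k 17 _ _ (by norm_num) (by decide) (by decide) (by norm_num)
    · exact k 41 _ _ (by norm_num) (by decide) (by decide) (by norm_num)
    · exact k 7 _ _ (by norm_num) (by decide) (by decide) (by norm_num)
    · exact k 13 _ _ (by norm_num) (by decide) (by decide) (by norm_num)
  obtain ⟨m, a1, a2, a3⟩ := H27.prim_big hq hn3 hx
  by_contra hc
  push Not at hc
  have key : ∀ p : ℕ, p.Prime → p ∣ m → p = n + 1 ∧ ¬ p ^ 2 ∣ m := fun p hp hd => by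
    have b1 : ∀ i : ℕ, 1 ≤ i → i < n → ¬ p ∣ q ^ i - 1 := fun i h5 h6 h7 =>
      hp.one_lt.ne' (Nat.eq_one_of_dvd_coprimes (a2 i h5 h6) hd h7)
    obtain ⟨b2, b3⟩ := hc p hp (hd.trans a1) b1
    refine ⟨le_antisymm b2 ?_, fun h => b3 (h.trans a1)⟩
    by_contra b4
    haveI := Fact.mk hp
    refine b1 (p - 1) (by have := hp.two_le; omega) (by omega) ?_
    rw [L0.dvd_pow_sub_one_iff (by omega)]
    refine ZMod.orderOf_dvd_card_sub_one fun h => ?_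
    have := (L0.dvd_pow_sub_one_iff (by omega : 0 < q) p n).1 (hd.trans a1)
    rw [h, orderOf_dvd_iff_pow_eq_one, zero_pow (by omega)] at this
    exact zero_ne_one this
  obtain ⟨p, hp, c, rfl⟩ := Nat.exists_prime_and_dvd (n := m) (by omega)
  obtain ⟨b1, b2⟩ := key p hp (dvd_mul_right _ _)
  obtain ⟨r, hr, hd⟩ := Nat.exists_prime_and_dvd (n := c) (by rintro rfl; omega)
  have := (key r hr (hd.mul_left _)).1
  exact b2 (by rw [pow_two]; exact Nat.mul_dvd_mul_left _ ((b1.trans this.symm) ▸ hd))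

end Cfsg.Agent.S3430
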