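import Cfsg.Statements.S3433
import Mathlib
import Cfsg.Agent.H21.Hig3

set_option autoImplicit false
open Cfsg

namespace Cfsg.Agent.S3433

/-- A finite group whose set of element orders is exactly {1, 2, 3, 4, 5} is isomorphic to the alternating group of degree 6, or has a normal elementary abelian 2-subgroup with quotient isomorphic to the alternating group of degree 5. -/
theorem result {G : Type*} [Group G] [Finite G] (h : Set.range (orderOf : G → ℕ) = {k : ℕ | 1 ≤ k ∧ k ≤ 5}) :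
    Nonempty (G ≃* ↥(alternatingGroup (Fin 6))) ∨
      ∃ (N : Subgroup G) (_ : N.Normal), Cfsg.IsElementaryAbelian 2 N ∧ Nonempty (G ⧸ N ≃* ↥(alternatingGroup (Fin 5))) := by
  have h' : ∀ n, H21.HasO G n ↔ 1 ≤ n ∧ n ≤ 5 := Set.ext_iff.1 h
  rcases H21.spec_five h' with ⟨F, _, _, hF, ⟨e⟩⟩ | e
  · obtain ⟨f⟩ := H10.PSL2_nine_equiv (F := F) (Nat.card_eq_fintype_card.trans hF)
    exact Or.inl ⟨e.trans f⟩
  · have := ((H21.ep_of_le_five fun n hn => ((h' n).1 hn).2).cit.higman H21.pGrp_pCore le_rfl e).1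
    obtain ⟨F, _, _, hF, ⟨e⟩⟩ := e
    obtain ⟨f⟩ := H10.PSL2_four_equiv (F := F) (Nat.card_eq_fintype_card.trans hF)
    exact Or.inr ⟨_, inferInstance, this, ⟨e.trans f⟩⟩

end Cfsg.Agent.S3433
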