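import Cfsg.Statements.S3704
import Mathlib
import Cfsg.Agent.H6.Square
import Cfsg.Agent.H6.Induce
import Cfsg.Agent.H16.Derang

set_option autoImplicit false
open Cfsg

namespace Cfsg.Agent.S3704

open MulAction Cfsg.Agent.H6

/-- Let G be a finite group acting faithfully and 2-transitively on a finite set Ω of size n, and let H be a subgroup of index n in G which is not transitive on Ω and fixes no point of Ω. Then H has exactly two orbits on Ω. -/
theorem result {G Ω : Type*} [Group G] [Finite G] [MulAction G Ω] [FaithfulSMul G Ω] [Finite Ω] (h2 : MulAction.IsMultiplyPretransitive G Ω 2) (H : Subgroup G) (hidx : H.index = Nat.card Ω) (hnt : ¬ MulAction.IsPretransitive H Ω) (hfix : ∀ a : Ω, ∃ h : H, h • a ≠ a) : Nat.card (MulAction.orbitRel.Quotient H Ω) = 2 := by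
  classical
  have := Fintype.ofFinite G
  have := Fintype.ofFinite H
  have : Nontrivial Ω := by
    by_contra h
    rw [not_nontrivial_iff_subsingleton] at h
    exact hnt ⟨fun a b => ⟨1, Subsingleton.elim _ _⟩⟩
  have htr : IsPretransitive G Ω := by
    rw [← is_one_pretransitive_iff]
    exact Cfsg.Agent.H16.mtrans_mono h2 (by omega) Finite.one_lt_card
  set π : G → ℂ := fun g => (Nat.card (fixedBy Ω g) : ℂ) with hπ
  have hπc : IsCharacter G π := isCharacter_perm Ω
  have a1 : classInner π (fun _ => 1) = 1 := by
    rw [hπ, classInner_perm_one, (card_orbits_eq_one_iff Ω).2 htr]; simp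
  have a1' : classInner (fun _ => 1) π = 1 := by rw [← conj_classInner, a1]; simp
  have a2 : classInner π π = 2 := by
    rw [hπ, classInner_perm_perm, Cfsg.Agent.H16.rank_eq_two h2]; simp
  have hχ : IsIrrCharacter G (π - fun _ => 1) := by
    apply isIrr_of_norm_one (isCharacter_sub_irr hπc isIrr_one (by rw [a1]; simp))
    rw [classInner_sub_left, classInner_sub_right, classInner_sub_right, a1, a1', a2,
      classInner_one_one]
    norm_num
  have a3 : classInner (fun _ => 1) (π - fun _ => 1) = 0 := by
    rw [classInner_sub_right, a1', classInner_one_one, sub_self]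
  set r := Nat.card (orbitRel.Quotient H Ω) with hr
  set θ := indFun H (fun _ => 1) with hθ
  have hθc : IsCharacter G θ := isCharacter_indFun H isCharacter_one
  have b1 : classInner θ (fun _ => 1) = 1 := by
    rw [hθ, classInner_indFun_left H _ (isClassFunction_of_isCharacter isCharacter_one),
      classInner_one_one]
  have b2 : classInner θ π = r := by
    rw [hθ, classInner_indFun_left H _ (isClassFunction_of_isCharacter hπc), ← conj_classInner]
    have := classInner_perm_one (G := H) Ω
    rw [show (fun h : H => π h) = fun h : H => (Nat.card (fixedBy Ω h) : ℂ) from rfl, this]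
    simp [hr]
  have b3 : classInner (θ - fun _ => 1) (π - fun _ => 1) = r - 1 := by
    rw [classInner_sub_left, a3, classInner_sub_right, b1, b2, sub_zero]
  have hr1 : r ≠ 1 := fun h => hnt ((card_orbits_eq_one_iff Ω).1 h)
  have c1 := isCharacter_sub_irr hθc isIrr_one (by rw [b1]; simp)
  have c2 := isCharacter_sub_irr c1 hχ (by
    rw [b3, sub_ne_zero]; exact_mod_cast hr1)
  have c3 := isCharacter_eq_zero_of_degree c2 (by
    simp only [Pi.sub_apply, hθ, indFun_one, hπ, hidx]
    simp)
  rw [sub_eq_zero] at c3
  rw [c3, classInner_irr_self hχ] at b3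
  have : (r : ℂ) = 2 := by rw [eq_sub_iff_add_eq] at b3; rw [← b3]; norm_num
  exact_mod_cast this

end Cfsg.Agent.S3704
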