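import Cfsg.Statements.S3733
import Mathlib
import Cfsg.Agent.FT.Card

set_option autoImplicit false
open Cfsg

namespace Cfsg.Agent.S3733

open Subgroup Cfsg.Agent.FT
open scoped IsMulCommutative

/-- Let A and V be subgroups of a finite group with V abelian and nontrivial and A normalizing V. Suppose a nonempty finite family of proper subgroups of A partitions A: every non-identity element of A lies in exactly one member. If the number of members minus one is coprime to the order of V, then some member B of the family has a non-identity fixed point on V, that is V ∩ C(B) ≠ 1. -/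
theorem result {G : Type*} [Group G] [Finite G] (A V : Subgroup G) (hVab : IsMulCommutative V) (hV : V ≠ ⊥) (hAV : A ≤ Subgroup.normalizer (V : Set G)) (𝒜 : Finset (Subgroup G)) (hne : 𝒜.Nonempty) (hprop : ∀ B ∈ 𝒜, B < A) (hpart : ∀ a ∈ A, a ≠ 1 → ∃! B, B ∈ 𝒜 ∧ a ∈ B) (hk : (𝒜.card - 1).Coprime (Nat.card V)) : ∃ B ∈ 𝒜, V ⊓ Subgroup.centralizer (B : Set G) ≠ ⊥ := by
  classical
  by_contra hcon
  push Not at hcon
  obtain ⟨v, hv, hv1⟩ := FT.exists_ne_one hV
  haveI := Fintype.ofFinite A
  let f : A → V := fun a => ⟨a * v * a⁻¹, conj_mem (hAV a.2) hv⟩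
  have key : ∀ B : Subgroup G, B ≤ A → V ⊓ C(B) = ⊥ →
      ∏ a : A, (if (a : G) ∈ B then f a else 1) = 1 := by
    intro B hB h
    refine Subtype.ext (mem_bot.1 (h ▸ ⟨Subtype.prop _, fun b hb => ?_⟩))
    let φ : V ≃* V := normalizerMonoidHom V ⟨b, hAV (hB hb)⟩
    have e : φ (∏ a : A, (if (a : G) ∈ B then f a else 1)) = ∏ a : A, (if (a : G) ∈ B then f a else 1) := by
      rw [map_prod, ← Equiv.prod_comp (Equiv.mulLeft (⟨b, hB hb⟩ : A)) fun a : A => if (a : G) ∈ B then f a else 1]
      refine Finset.prod_congr rfl fun a _ => ?_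
      simp only [Equiv.coe_mulLeft, Subgroup.coe_mul, mul_mem_cancel_left hb]
      split_ifs
      · refine Subtype.ext ?_
        change b * (a * v * (a : G)⁻¹) * b⁻¹ = (b * a) * v * (b * a : G)⁻¹
        group
      · exact map_one φ
    exact mul_inv_eq_iff_eq_mul.1 (congrArg Subtype.val e)
  obtain ⟨B₀, hB₀⟩ := hne
  have h1 := key A le_rfl (le_bot_iff.1 (hcon B₀ hB₀ ▸ inf_le_inf_left _ (cen_anti (hprop B₀ hB₀).le)))
  have h2 : ∏ B ∈ 𝒜, ∏ a : A, (if (a : G) ∈ B then f a else 1) = 1 :=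
    Finset.prod_eq_one fun B hB => key B (hprop B hB).le (hcon B hB)
  have h3 : ∀ a : A, ∏ B ∈ 𝒜, (if (a : G) ∈ B then f a else 1) =
      (if (a : G) ∈ A then f a else 1) * if a = 1 then f 1 ^ (𝒜.card - 1) else 1 := by
    intro a
    rw [if_pos a.2]
    split_ifs with h
    · subst h
      simp only [OneMemClass.coe_one, one_mem, if_true, Finset.prod_const]
      rw [← pow_succ', Nat.sub_add_cancel (Finset.card_pos.2 ⟨B₀, hB₀⟩)]
    · obtain ⟨B, ⟨hB, haB⟩, hu⟩ := hpart a a.2 fun e => h (Subtype.ext e)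
      rw [Finset.prod_eq_single_of_mem B hB fun B' hB' hne => if_neg fun h' => hne (hu B' ⟨hB', h'⟩),
        if_pos haB, mul_one]
  rw [Finset.prod_comm] at h2
  simp only [h3] at h2
  rw [Finset.prod_mul_distrib, h1, one_mul, Finset.prod_ite_eq', if_pos (Finset.mem_univ _)] at h2
  have h4 : f 1 = 1 := by
    rw [← orderOf_eq_one_iff]
    exact Nat.eq_one_of_dvd_coprimes hk (orderOf_dvd_of_pow_eq_one h2) (orderOf_dvd_natCard _)
  exact hv1 (by simpa [f] using congrArg Subtype.val h4)

end Cfsg.Agent.S3733
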