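import Cfsg.Statements.S3734
import Mathlib
import Cfsg.Agent.H1.Product
import Cfsg.Agent.H1.Coprime2
import Cfsg.Agent.H2.Quasisimple

set_option autoImplicit false
open Cfsg

namespace Cfsg.Agent.S3734

open Subgroup
open scoped Pointwise

theorem le_normalizer_biSup {X : Type*} [Group X] [Finite X] {ι : Type*} (s : Set ι)
    (f : ι → Subgroup X) (C : Subgroup X) (h : ∀ i ∈ s, C ≤ normalizer (f i : Set X)) :
    C ≤ normalizer ((⨆ i ∈ s, f i : Subgroup X) : Set X) := by
  refine H2.le_normalizer_of_forall_conj_smul_le fun g hg => ?_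
  rw [H1.conj_smul_eq_map, map_le_iff_le_comap]
  refine iSup₂_le fun i hi => ?_
  rw [← map_le_iff_le_comap, ← H1.conj_smul_eq_map,
    H1.mem_normalizer_iff_conj_smul_eq.1 (h i hi hg)]
  exact le_iSup₂_of_le (f := fun i (_ : i ∈ s) => f i) i hi le_rfl

/-- Let A and G be subgroups of a finite group with A abelian, A normalizing G and the orders of A and G coprime. Then G is generated by the fixed-point subgroups C_G(B) of those subgroups B of A for which A/B is cyclic (that is, A = ⟨B, a⟩ for some a), and [G, A] is generated by the commutator subgroups [C_G(B), A] over the same subgroups B. -/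
theorem result {X : Type*} [Group X] [Finite X] (A G : Subgroup X) (hAab : IsMulCommutative A) (hAG : A ≤ Subgroup.normalizer (G : Set X)) (hcop : (Nat.card A).Coprime (Nat.card G)) : (⨆ B ∈ {B : Subgroup X | B ≤ A ∧ ∃ a ∈ A, B ⊔ Subgroup.zpowers a = A}, G ⊓ Subgroup.centralizer (B : Set X)) = G ∧ (⨆ B ∈ {B : Subgroup X | B ≤ A ∧ ∃ a ∈ A, B ⊔ Subgroup.zpowers a = A}, ⁅G ⊓ Subgroup.centralizer (B : Set X), A⁆) = ⁅G, A⁆ := by
  have h1 := H1.iSup_centralizer_cocyclic A G hAG hcop
  refine ⟨h1, le_antisymm (iSup₂_le fun B _ => commutator_mono inf_le_left le_rfl) ?_⟩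
  set s := {B : Subgroup X | B ≤ A ∧ ∃ a ∈ A, B ⊔ Subgroup.zpowers a = A} with hs
  set L := ⨆ B ∈ s, ⁅G ⊓ centralizer (B : Set X), A⁆ with hL
  have hAA : A ≤ centralizer (A : Set X) := le_centralizer A
  have hAB : ∀ B ∈ s, A ≤ normalizer ((G ⊓ centralizer (B : Set X) : Subgroup X) : Set X) :=
    fun B hB => H1.le_normalizer_inf hAG (H1.le_normalizer_centralizer
      ((hAA.trans (H2.centralizer_anti hB.1)).trans (centralizer_le_normalizer _)))
  have hC : G ⊓ centralizer (A : Set X) ≤ normalizer (L : Set X) :=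
    le_normalizer_biSup _ _ _ fun B hB => H1.le_normalizer_commutator
      (H1.le_normalizer_inf (inf_le_left.trans le_normalizer)
        ((inf_le_right.trans (H2.centralizer_anti hB.1)).trans le_normalizer))
      (inf_le_right.trans (centralizer_le_normalizer _))
  have hA : A ≤ normalizer (L : Set X) :=
    le_normalizer_biSup _ _ _ fun B hB => H1.le_normalizer_commutator (hAB B hB) le_normalizer
  have hLG : L ≤ G := iSup₂_le fun B hB =>
    (H1.commutator_le_left_of_le_normalizer (hAB B hB)).trans inf_le_left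
  have h2 : G ≤ L ⊔ (G ⊓ centralizer (A : Set X)) := by
    refine h1.symm.le.trans (iSup₂_le fun B hB => ?_)
    rw [← H1.commutator_sup_centralizer A _ (hAB B hB)
      (hcop.coprime_dvd_right (card_dvd_of_le inf_le_left))
      (Or.inl (H1.isSolvable_of_isMulCommutative A))]
    exact sup_le_sup (le_iSup₂_of_le (f := fun B (_ : B ∈ s) => ⁅G ⊓ centralizer (B : Set X), A⁆)
      B hB le_rfl) (inf_le_inf inf_le_left le_rfl)
  rw [H1.commutator_eq_of_eq_mul_centralizer hLG (A := A) fun k hk => ?_]
  · exact H1.commutator_le_left_of_le_normalizer hA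
  · obtain ⟨n, hn, y, hy, rfl⟩ := (H1.mem_sup_iff_of_le_normalizer hC).1 (h2 hk)
    exact ⟨n, hn, y, hy.2, rfl⟩

end Cfsg.Agent.S3734
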