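import Cfsg.Statements.S3735
import Mathlib
import Cfsg.Agent.FT.Card

set_option autoImplicit false
open Cfsg

namespace Cfsg.Agent.S3735

open Subgroup Cfsg.Agent.FT

/-- Clifford's Theorem for actions on finite abelian groups, first part. Let H and V be subgroups of a finite group with V abelian and H normalizing V, and let A be a normal subgroup of H. If every H-invariant subgroup of V has an H-invariant complement in V, then every A-invariant subgroup of V has an A-invariant complement in V. -/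
theorem result {G : Type*} [Group G] [Finite G] (H A V : Subgroup G) (hVab : IsMulCommutative V) (hHV : H ≤ Subgroup.normalizer (V : Set G)) (hAH : A ≤ H) (hAn : H ≤ Subgroup.normalizer (A : Set G)) (hss : ∀ U : Subgroup G, U ≤ V → H ≤ Subgroup.normalizer (U : Set G) → ∃ W : Subgroup G, W ≤ V ∧ H ≤ Subgroup.normalizer (W : Set G) ∧ U ⊓ W = ⊥ ∧ U ⊔ W = V) (U : Subgroup G) (hUV : U ≤ V) (hAU : A ≤ Subgroup.normalizer (U : Set G)) : ∃ W : Subgroup G, W ≤ V ∧ A ≤ Subgroup.normalizer (W : Set G) ∧ U ⊓ W = ⊥ ∧ U ⊔ W = V := by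
  let P : Subgroup G → Prop := fun M => M ≠ ⊥ ∧ M ≤ V ∧ A ≤ N(M)
  let S : Subgroup G := ⨆ M : {M // Minimal P M}, M.1
  have hSV : S ≤ V := iSup_le fun M => M.2.1.2.1
  have hcj : ∀ h ∈ H, ∀ M, P M → P (cj h M) := fun h hh M hM =>
    ⟨by rw [Ne, cj_eq_bot]; exact hM.1, cj_le_of_nrm (hHV hh) hM.2.1, by
      rw [← cj_of_mem_nrm (hAn hh), cj_norms]; exact hM.2.2⟩
  have hSn : H ≤ N(S) := fun h hh => mem_nrm_of_cj_le (by
    rw [cj_le_iff]
    refine iSup_le fun M => cj_le_iff.1 (le_iSup_of_le ⟨cj h M.1, hcj h hh _ M.2.1, fun K hK hle => ?_⟩ le_rfl)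
    exact cj_le_iff.2 (M.2.2 (hcj _ (inv_mem hh) _ hK) (le_cj_iff.1 hle)))
  obtain ⟨W₀, h1, h2, h3, h4⟩ := hss S hSV hSn
  have hW₀ : W₀ = ⊥ := by
    by_contra h
    obtain ⟨M, hM, hmin⟩ := exists_minimal_le_of_wellFoundedLT P W₀ ⟨h, h1, hAH.trans h2⟩
    exact hmin.1.1 (le_bot_iff.1 (h3 ▸ le_inf (le_iSup_of_le ⟨M, hmin⟩ le_rfl) hM))
  rw [hW₀, sup_bot_eq] at h4
  obtain ⟨W, -, hW⟩ := Finite.exists_le_maximal (p := fun W : Subgroup G => W ≤ V ∧ A ≤ N(W) ∧ U ⊓ W = ⊥)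
    (a := ⊥) ⟨bot_le, norms_bot _, inf_bot_eq _⟩
  refine ⟨W, hW.1.1, hW.1.2.1, hW.1.2.2, le_antisymm (sup_le hUV hW.1.1) (h4.ge.trans (iSup_le fun M => ?_))⟩
  obtain ⟨M, ⟨m1, m2, m3⟩, hM⟩ := M
  by_cases h : M ⊓ (U ⊔ W) = ⊥
  · refine le_sup_of_le_right (le_sup_right.trans (hW.2 ⟨sup_le hW.1.1 m2, normsY hW.1.2.1 m3, ?_⟩ le_sup_left))
    refine eq_bot_iff.2 fun u hu => ?_
    obtain ⟨w, hw, m, hm, rfl⟩ := (mulEq_sup (m2.trans (Ab.norms hVab hW.1.1))).mul u hu.2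
    have : m ∈ M ⊓ (U ⊔ W) := ⟨hm, (mul_mem_cancel_left (mem_sup_right hw)).1 (mem_sup_left hu.1)⟩
    rw [h, mem_bot] at this
    subst this
    exact hW.1.2.2 ▸ ⟨hu.1, by simpa using hw⟩
  · exact (hM ⟨h, inf_le_left.trans m2, normsI m3 (normsY hAU hW.1.2.1)⟩ inf_le_left).trans inf_le_right

end Cfsg.Agent.S3735
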