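import Cfsg.Statements.S3736
import Mathlib
import Cfsg.Agent.H3.Aut

set_option autoImplicit false
open Cfsg

namespace Cfsg.Agent.S3736

/-- The Hall–Higman reduction for a minimal non-trivial action. Let B, A and P be subgroups of a finite group with P a p-group, B normalizing P, and A a normal subgroup of B of order prime to p. Suppose A does not centralize P but centralizes every proper B-invariant subgroup of P. Then [P, A] = P; P is elementary abelian or special; B acts irreducibly on P/Φ(P), that is, the only B-invariant subgroups of P containing Φ(P) are Φ(P) and P; and if p is odd then every element of P has order dividing p. -/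
theorem result {X : Type*} [Group X] [Finite X] {p : ℕ} [Fact p.Prime] (B A P : Subgroup X) (hP : IsPGroup p P) (hBP : B ≤ Subgroup.normalizer (P : Set X)) (hAB : A ≤ B) (hAn : B ≤ Subgroup.normalizer (A : Set X)) (hAp : (Nat.card A).Coprime p) (hnt : ⁅P, A⁆ ≠ ⊥) (hmin : ∀ U : Subgroup X, U < P → B ≤ Subgroup.normalizer (U : Set X) → ⁅U, A⁆ = ⊥) : ⁅P, A⁆ = P ∧ (Cfsg.IsElementaryAbelian p P ∨ Cfsg.IsSpecial p ↥P) ∧ (∀ U : Subgroup X, (frattini ↥P).map P.subtype ≤ U → U ≤ P → B ≤ Subgroup.normalizer (U : Set X) → U = (frattini ↥P).map P.subtype ∨ U = P) ∧ (p ≠ 2 → ∀ x ∈ P, x ^ p = 1) := by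
  obtain ⟨h1, h2, h3, h4, h5, h6⟩ := H3.hall_higman_reduction hP hBP (hAB.trans hBP) hAn hAp hnt
    (fun U hU hB _ => hmin U hU hB)
  refine ⟨h1, ?_, fun U hU1 hU2 hU3 => ?_, h6⟩
  · by_cases hd : ⁅P, P⁆ = ⊥
    · refine Or.inl ⟨Subgroup.le_centralizer_iff_isMulCommutative.mp
        (Subgroup.commutator_eq_bot_iff_le_centralizer.mp hd), fun a ha => ?_⟩
      have := H3.pow_mem_map_frattini hP ha
      rwa [h2, hd, Subgroup.mem_bot] at this
    · refine Or.inr ⟨hP, Subgroup.map_injective P.subtype_injective ?_, Subgroup.map_injective P.subtype_injective ?_⟩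
      · rw [h2, H3.map_center_subtype, h5 hd]
      · rw [Subgroup.map_subtype_commutator, H3.map_center_subtype, h5 hd]
  · rcases hU2.lt_or_eq with h | h
    · refine Or.inl (le_antisymm ?_ hU1)
      rw [h2, ← h3]
      exact le_inf hU2 (Subgroup.commutator_eq_bot_iff_le_centralizer.mp (hmin U h hU3))
    · exact Or.inr h

end Cfsg.Agent.S3736
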