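import Cfsg.Statements.S3738
import Mathlib
import Cfsg.Agent.H27.Quad
import Cfsg.Agent.H3.Aut

set_option autoImplicit false
open Cfsg

namespace Cfsg.Agent.S3738

open Subgroup Cfsg.Agent.FT
open scoped commutatorElement

/-- Let d be a non-identity 3-element of a finite group and P a 2-subgroup normalized by d on which ⟨d⟩ acts faithfully (no non-identity power of d centralizes P) and without non-identity fixed points (C_P(d) = 1). If every abelian subgroup of P has 2-rank at most 2, then d has order 3. -/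
theorem result {X : Type*} [Group X] [Finite X] (d : X) (n : ℕ) (hn : 1 ≤ n) (hd : orderOf d = 3 ^ n) (P : Subgroup X) (hP : IsPGroup 2 P) (hdP : d ∈ Subgroup.normalizer (P : Set X)) (hfaith : Subgroup.zpowers d ⊓ Subgroup.centralizer (P : Set X) = ⊥) (hfpf : P ⊓ Subgroup.centralizer {d} = ⊥) (hrank : ∀ V : Subgroup X, V ≤ P → IsMulCommutative V → Cfsg.PRankLE 2 2 V) : orderOf d = 3 := by
  haveI := Fact.mk Nat.prime_two
  obtain ⟨D, hDP, hnD, hexp, hc, hf⟩ := H3.exists_critical_exponent (p := 2) (n := 2) two_ne_zero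
    (by norm_num) hP le_rfl (le_nrm P) le_rfl le_rfl
  obtain ⟨n, rfl⟩ : ∃ k, n = k + 1 := ⟨n - 1, by omega⟩
  obtain _ | n := n
  · simpa using hd
  exfalso
  have hP' := pGrp_of_isPGroup Nat.prime_two hP
  have he : orderOf (d ^ 3 ^ (n + 1)) = 3 := by
    rw [orderOf_pow_of_dvd (by positivity) (hd ▸ pow_dvd_pow 3 (Nat.le_succ _)), hd, pow_succ,
      Nat.mul_div_cancel_left _ (by positivity)]
  have hed : d ^ 3 ^ (n + 1) ∈ ⟪d⟫ := pow_mem (mem_zpowers d) _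
  set e := d ^ 3 ^ (n + 1)
  have hd3 : PGrp 3 ⟪d⟫ := pGrp_of_card Nat.prime_three (by rw [card_zpowers', hd])
  have key : ∀ T : Subgroup X, ⟪d⟫ ≤ N(T) → 9 ∣ #T - #(T ⊓ C[e]) := fun T hT => by
    refine (show 9 ∣ #⟪d⟫ from ⟨3 ^ n, by rw [card_zpowers', hd]; ring⟩).trans
      (H27.card_dvd_sub hT (norms_cen1 ((ab_zpowers d).le_cen1 hed)) fun r hr h1 => ?_)
    refine inf_le_right.trans (cen1_le_cen1_of_mem_zpowers ?_)
    refine (cyc_zpowers d).Ohm_le_of_ne hd3 (zpowers_le.2 hr) (zpowers_ne_bot' h1) ?_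
    exact mem_Ohm hed (he ▸ pow_orderOf_eq_one e)
  have hdD : ⟪d⟫ ≤ N(D) := zpowers_le.2 (hnD hdP)
  have heD : ¬ D ≤ C[e] := fun h => by
    have := hf ⟪e⟫ (zpowers_le.2 (pow_mem hdP _)) (by rw [card_zpowers', he]; norm_num)
      (centsC (by rwa [cen_zpowers])) (mem_zpowers e)
    rw [eq_one_of_mem_inf hfaith hed this, orderOf_one] at he
    omega
  have hD1 : D ≠ ⊥ := fun h => heD (h ▸ bot_le)
  have hrk : ∀ V, V ≤ D → Abelem 2 V → #V ≤ 4 := fun V hV hA => by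
    have := hrank V (hV.trans hDP) hA.ab ⊤ ⟨⟨fun a b => Subtype.ext (Subtype.ext
      (hA.ab.comm a.1.2 b.1.2))⟩⟩ fun a _ => Subtype.ext (hA.pow a.2)
    rwa [card_top] at this
  have hZ := abelem_Ohm_center 2 D
  have hZn : ⟪d⟫ ≤ N(Ω[2](Z(D))) := norms_Ohm 2 (norms_center hdD)
  have hZ1 := (hP'.mono hDP).Ohm_center_ne_bot hD1
  have hZD : Ω[2](Z(D)) ≤ Z(D) := Ohm_le _ _
  have hmem : ∀ x ∈ Z(D), x ^ 2 = 1 → x ∈ Ω[2](Z(D)) := fun x => mem_Ohm
  generalize Ω[2](Z(D)) = A at hZ hZn hZ1 hZD hmem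
  have hA4 : #A = 4 := by
    have h1 := hrk A (hZD.trans inf_le_left) hZ
    have h2 := one_lt_card hZ1
    obtain ⟨k, hk⟩ := hZ.card Nat.prime_two
    have h3 : #A ≠ 2 := fun h => hZ1 (eq_bot_iff.2 (hfpf ▸ le_inf (hZD.trans (inf_le_left.trans hDP))
      (cen_zpowers d ▸ centsC (cents_of_coprime_pred Nat.prime_two h hZn (by simp)))))
    have h4 : #A ≠ 3 := fun h => by
      have := (Nat.prime_three.dvd_of_dvd_pow (h ▸ hk ▸ dvd_rfl : 3 ∣ 2 ^ k))
      omega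
    omega
  have hN : ∀ x ∈ D, x ^ 2 = 1 ↔ x ∈ A := fun x hx => by
    refine ⟨fun h => ?_, fun h => hZ.pow h⟩
    have h1 := hrk _ (sup_le (hZD.trans inf_le_left) (zpowers_le.2 hx))
      (hZ.sup_zpowers (centsC (hZD.trans inf_le_right) hx) h)
    rw [eq_of_card_le (le_sup_left : A ≤ A ⊔ ⟪x⟫) (hA4 ▸ h1)]
    exact mem_sup_right (mem_zpowers x)
  have h1 := H27.card_dvd_cube (H := D) hZD
    (fun x hx => (hN _ (pow_mem hx 2)).1 (by rw [← pow_mul]; exact hexp x hx)) hN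
  have h2 := key A hZn
  have h3 := key D hdD
  have h4 := card_le (inf_le_inf_right C[e] (hZD.trans inf_le_left))
  have h5 := card_pos (A ⊓ C[e])
  have h6 := card_lt (inf_lt_left.2 heD)
  rw [hA4, show 4 ^ 3 = 2 ^ 6 from rfl] at h1
  obtain ⟨b, hb, h7⟩ := (Nat.dvd_prime_pow Nat.prime_two).1
    ((card_dvd (inf_le_left : D ⊓ C[e] ≤ D)).trans h1)
  obtain ⟨a, ha, h8⟩ := (Nat.dvd_prime_pow Nat.prime_two).1 h1
  rw [hA4] at h2
  rw [h7] at h4
  rw [h7, h8] at h3 h6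
  interval_cases a <;> interval_cases b <;> omega

end Cfsg.Agent.S3738
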