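import Cfsg.Statements.S3739
import Mathlib
import Cfsg.Agent.H27.Quad
import Cfsg.Agent.H3.Aut
import Cfsg.Agent.H27.Frob2
import Cfsg.Agent.H27.Real
import Cfsg.Agent.H27.KCount

set_option autoImplicit false
open Cfsg

namespace Cfsg.Agent.S3739

open Subgroup Cfsg.Agent.FT
open scoped commutatorElement

/-- Let G be a finite group with C_G(O₂(G)) ≤ O₂(G) containing an element of order 6, and let d be a non-identity 3-element of G normalizing a nontrivial elementary abelian 2-subgroup W with C_W(d) = 1. Then G has an elementary abelian subgroup of order 8. -/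
theorem result {G : Type*} [Group G] [Finite G] (hchar : Subgroup.centralizer (Cfsg.pCore 2 G : Set G) ≤ Cfsg.pCore 2 G) (hsix : ∃ g : G, orderOf g = 6) (d : G) (hd1 : d ≠ 1) (hd : IsPGroup 3 ↥(Subgroup.zpowers d)) (W : Subgroup G) (hW : Cfsg.IsElementaryAbelian 2 W) (hW1 : W ≠ ⊥) (hdW : d ∈ Subgroup.normalizer (W : Set G)) (hfpf : W ⊓ Subgroup.centralizer {d} = ⊥) : ∃ E : Subgroup G, Cfsg.IsElementaryAbelian 2 E ∧ Nat.card E = 8 := by
  haveI := Fact.mk Nat.prime_two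
  haveI := Fact.mk Nat.prime_three
  have p2 := Nat.prime_two
  have p3 := Nat.prime_three
  by_contra hcon
  have hrk : ∀ V : Subgroup G, Abelem 2 V → #V ≤ 4 := fun V hV => by
    by_contra h
    obtain ⟨n, hn⟩ := hV.card p2
    obtain ⟨E, hE, e⟩ := exists_card_pow_le p2 (n := 3) (H := V) (hn ▸ pow_dvd_pow 2 (by
      by_contra h'
      rw [hn] at h
      have : n ≤ 2 := by omega
      interval_cases n <;> omega))
    exact hcon ⟨E, hV.mono hE, e⟩
  have hd3 : PGrp 3 ⟪d⟫ := pGrp_of_isPGroup p3 hd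
  have hcop : ∀ {A B : Subgroup G}, PGrp 2 A → PGrp 3 B → Cop A B := fun hA hB =>
    hA.cop_of_ne hB (by norm_num)
  -- an element of odd order fixing a nonidentity element of a group of order at most four
  have hfix : ∀ V A : Subgroup G, Abelem 2 V → PGrp 3 A → A ≤ N(V) → V ⊓ C(A) ≠ ⊥ → A ≤ C(V) :=
    fun V A hV hA hn h => by
      by_contra h1
      have h2 := H27.card_modEq_card_inf_centralizer hA.isPGroup hn
      have h3 := hrk V hV
      have h4 := one_lt_card h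
      have h5 := (hV.pGrp p2).mul_card_le (inf_lt_left.2 fun h => h1 (centsC h))
      have h6 : #V = 4 := by omega
      have h7 : #(V ⊓ C(A)) = 2 := by omega
      rw [h6, h7] at h2
      exact absurd h2 (by decide)
  have hdW' : ⟪d⟫ ≤ N(W) := zpowers_le.2 hdW
  have hirr : ∀ U, U ≤ W → U ≠ ⊥ → ⟪d⟫ ≤ N(U) → U = W ∧ #U = 4 := fun U hU h1 hn => by
    have h2 := H27.card_modEq_card_inf_centralizer hd hn
    rw [cen_zpowers, inf_eq_bot_mono hfpf hU le_rfl, card_bot'] at h2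
    have h3 := one_lt_card h1
    have h4 := card_le hU
    have h5 := hrk W hW
    have h6 : #U = 4 := by unfold Nat.ModEq at h2; omega
    exact ⟨eq_of_card_le hU (by omega), h6⟩
  have hW4 := (hirr W le_rfl hW1 hdW').2
  have hmem : ∀ x ∈ C(W), x ^ 2 = 1 → x ∈ W := fun x hx h => by
    rw [eq_of_card_le (le_sup_left : W ≤ W ⊔ ⟪x⟫) (hW4 ▸ hrk _ (Abelem.sup_zpowers hW hx h))]
    exact mem_sup_right (mem_zpowers x)
  rw [← piCore_singleton p2, ← pcore_top] at hchar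
  have hQ := pcore_pi {2} (⊤ : Subgroup G)
  have hQn : ∀ X : Subgroup G, X ≤ N(O[{2}]((⊤ : Subgroup G))) := fun X =>
    le_top.trans (pcore_nrm _ _)
  generalize O[{2}]((⊤ : Subgroup G)) = Q at hchar hQ hQn
  have hWQ : W ≤ Z(Q) := by
    have hP : PGrp 2 (Q ⊔ W) := hQ.sup (Abelem.pGrp hW p2) (hQn W)
    have h1 := (hirr Ω[2](Z(Q ⊔ W)) (Ohm_le_iff.2 fun x hx => hmem x (cen_anti le_sup_right hx.2))
      (hP.Ohm_center_ne_bot (ne_bot_of_le le_sup_right hW1))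
      (norms_Ohm 2 (norms_center (normsY (hQn _) hdW')))).1
    have h2 : W ≤ C(Q) := h1 ▸ Ohm_center_le_cen 2 le_sup_left
    exact le_inf (h2.trans hchar) h2
  have hQW : Q ≤ C(W) := centsC (hWQ.trans inf_le_right)
  have hWn : ∀ X : Subgroup G, X ≤ N(W) := fun X => by
    rw [show W = Ω[2](Q) from le_antisymm (Abelem.le_Ohm hW (hWQ.trans inf_le_left))
      (Ohm_le_iff.2 fun x hx => hmem x (hQW hx))]
    exact norms_Ohm 2 (hQn X)
  obtain ⟨g, hg⟩ := hsix
  obtain ⟨t, ht, hto⟩ := H27.exists_orderOf_of_dvd (x := g) (n := 2) (hg ▸ by norm_num)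
  obtain ⟨x, hx, hxo⟩ := H27.exists_orderOf_of_dvd (x := g) (n := 3) (hg ▸ by norm_num)
  have hx3 : PGrp 3 ⟪x⟫ := pGrp_of_card_prime p3 (by rw [card_zpowers', hxo])
  have ht2 : PGrp 2 ⟪t⟫ := pGrp_of_card_prime p2 (by rw [card_zpowers', hto])
  have htx : ⟪t⟫ ≤ C(⟪x⟫) := (ab_zpowers g).cents (zpowers_le.2 hx) (zpowers_le.2 ht)
  have hxW : ⟪x⟫ ≤ C(W) := by
    refine hfix W _ hW hx3 (hWn _) ?_
    by_cases h : ⟪t⟫ ≤ C(W)
    · exact ne_bot_of_mem ⟨hmem t (h (mem_zpowers t)) (hto ▸ pow_orderOf_eq_one t),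
        htx (mem_zpowers t)⟩ fun e => by simp [e] at hto
    · have h1 := ht2.meet_cen (Abelem.pGrp hW p2) (hWn _) hW1
      have h2 := (Abelem.pGrp hW p2).mul_card_le (inf_lt_left.2 fun h' => h (centsC h'))
      have h3 := one_lt_card h1
      exact ne_bot_of_le (le_inf inf_le_left (centsC (cents_of_coprime_pred p2 (by omega)
        (norms_subcent (hWn _) (cents_norm (centsC htx))) (by simp)))) h1
  obtain ⟨D, hD, hxD⟩ := hx3.exists_syl le_top
  have hDW : ¬ D ≤ C(W) := fun h => by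
    have h1 := hD.le_of_syl_le (norms_cent (hWn ⊤)) h hd3 le_top
    exact hW1 (eq_bot_iff.2 (hfpf ▸ le_inf le_rfl (cen_zpowers d ▸ centsC h1)))
  obtain ⟨y, hy, hy1⟩ := exists_ne_one (hD.pi.meet_cen (hD.pi.inf_left C(W))
    (subcent_nml (hWn D)).nrm (ne_bot_of_le (le_inf hxD hxW)
      (zpowers_ne_bot' fun e => by simp [e] at hxo)))
  have hy3 : PGrp 3 ⟪y⟫ := hD.pi.mono (zpowers_le.2 hy.1.1)
  obtain ⟨R, hRQ, hn, hexp, hc, hf⟩ := H3.exists_critical_exponent (p := 2) (n := 2) two_ne_zero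
    (by norm_num) hQ.isPGroup le_rfl le_top (hQn ⊤) (hQn ⊤)
  have hyR : ¬ R ≤ C[y] := fun h => by
    have := hf ⟪y⟫ le_top ((hy3.p' (p := 2) (by norm_num)).piNat.coprime'
      ((piNat_prime p2).2 rfl)) (centsC (by rwa [cen_zpowers]))
    exact hy1 (eq_one_of_mem_inf (hcop hQ hy3).inf (hchar (this (mem_zpowers y))) (mem_zpowers y))
  have hR1 : R ≠ ⊥ := fun h => hyR (h ▸ bot_le)
  have hWR : W ≤ R := (hirr Ω[2](R) (Ohm_le_iff.2 fun x hx => hmem x (hQW (hRQ hx)))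
    ((hQ.mono hRQ).Ohm_ne_bot hR1) (norms_Ohm 2 (le_top.trans hn))).1 ▸ Ohm_le _ _
  have hN : ∀ x ∈ R, x ^ 2 = 1 ↔ x ∈ W := fun x hx =>
    ⟨hmem x (hQW (hRQ hx)), fun h => Abelem.pow hW h⟩
  have hsq : ∀ x ∈ R, x ^ 2 ∈ W := fun x hx =>
    (hN _ (pow_mem hx 2)).1 (by rw [← pow_mul]; exact hexp x hx)
  have h1 := H27.card_dvd_cube (le_inf hWR (centsC (hRQ.trans hQW))) hsq hN
  have hWy : W ≤ C[y] := le_cen1.2 hy.1.2
  have h3 := H27.dvd_card_sub (m := 9) (le_top.trans hn : D ≤ N(R))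
    (norms_cen1 (le_cen1.2 hy.2)) fun s hs hsy => by
      have h2 : C[s] ⊓ D ≤ C(W) := hfix W _ hW (hD.pi.inf_right _) (hWn _) (ne_bot_of_mem
        ⟨hsq s hs, centsC (inf_le_left.trans (cen_zpowers s).ge) (pow_mem (mem_zpowers s) 2)⟩
        fun e => hsy (hWy ((hN s hs).1 e)))
      have h4 : C[s] ⊓ D < D ⊓ C(W) := lt_of_le_of_ne (le_inf inf_le_right h2) fun e =>
        hsy (cen1_comm.1 (e ▸ hy.1 : y ∈ C[s] ⊓ D).1)
      rw [← inf_relIndex_right, ← relIndex_mul h4.le inf_le_left]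
      exact mul_dvd_mul ((hD.pi.inf_left _).dvd_relIndex h4.not_ge)
        (hD.pi.dvd_relIndex fun h => hDW (h.trans inf_le_right))
  have h4 := card_le (le_inf hWR hWy)
  have h6 := card_lt (inf_lt_left.2 hyR)
  rw [hW4, show 4 ^ 3 = 2 ^ 6 from rfl] at h1
  obtain ⟨b, hb, h7⟩ := (Nat.dvd_prime_pow p2).1
    ((card_dvd (inf_le_left : R ⊓ C[y] ≤ R)).trans h1)
  obtain ⟨a, ha, h8⟩ := (Nat.dvd_prime_pow p2).1 h1
  rw [h7, hW4] at h4
  rw [h7, h8] at h3 h6
  interval_cases a <;> interval_cases b <;> omega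

end Cfsg.Agent.S3739
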