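import Cfsg.Statements.S3740
import Mathlib
import Cfsg.Agent.FT.Hall
import Cfsg.Agent.FT.Map
import Cfsg.Agent.FT.Cyc
import Cfsg.Agent.FT.Nil
import Cfsg.Agent.H10.SL2b
import Cfsg.Agent.H22.FF

set_option autoImplicit false
open Cfsg

namespace Cfsg.Agent.S3740

open Subgroup Cfsg.Agent.FT Cfsg.Agent.H10 Matrix
open scoped MatrixGroups commutatorElement

theorem no_torus {F : Type} [Field F] [Finite F] {p : ℕ} [Fact p.Prime] [CharP F p] (hp : p ≠ 2)
    {t c : PGL(2, F)} (ht1 : t ≠ 1) (ht : t ^ p = 1) {z z' : PLbar F} (hz : z ≠ z') (hc1 : c ≠ 1)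
    (hc : c ∈ torus _ z z') : t * c * t⁻¹ ∉ torus _ z z' := fun h =>
  not_le_pairStab_of_unip hp ht1 ht hz ((lineAct_pgl F p).mem_pairStab_of_conj hz hc1 hc h)

theorem card_le_four {F : Type} [Field F] [Finite F] {p : ℕ} [Fact p.Prime] [CharP F p] (hp : p ≠ 2)
    {t : PGL(2, F)} (ht1 : t ≠ 1) (ht : t ^ p = 1) {z z' : PLbar F} (hz : z ≠ z') {R : Subgroup PGL(2, F)}
    (hR : R ≤ pairStab _ z z') (hn : ∀ r ∈ R, t * r * t⁻¹ ∈ R) : Nat.card R ≤ 4 := by
  have hT : Nat.card (R ⊓ torus _ z z' : Subgroup _) ≤ 2 := by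
    haveI : IsCyclic (R ⊓ torus _ z z' : Subgroup _) := (lineAct_pgl F p).isCyclic_of_le_torus hz inf_le_right
    obtain ⟨c, hc⟩ := IsCyclic.exists_ofOrder_eq_natCard (α := (R ⊓ torus _ z z' : Subgroup _))
    rw [← hc]
    refine orderOf_le_of_pow_eq_one (by norm_num) (Subtype.ext ?_)
    by_contra h2
    have h2' : (c : PGL(2, F)) * c ≠ 1 := by simpa [pow_two] using h2
    have hc1 : (c : PGL(2, F)) ≠ 1 := fun h => h2' (by simp [h])
    rcases mem_pairStab.1 (hR (hn _ c.2.1)) with h | h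
    · exact no_torus hp ht1 ht hz hc1 c.2.2 (mem_torus.2 h)
    · have := (lineAct_pgl F p).swap_mul_self hz h.1 h.2
      apply h2'
      have e : (c : PGL(2, F)) * c = t⁻¹ * (t * c * t⁻¹ * (t * c * t⁻¹)) * t := by group
      rw [e, this]; group
  rcases le_torus_or_swap hR with h | ⟨s, hs, h1, -⟩
  · rw [inf_eq_left.2 h] at hT; omega
  · rw [card_eq_two_mul_of_swap hz hR hs h1]; omega

theorem card_le_two_mul {F : Type} [Field F] [Finite F] (R : Subgroup SL(2, F)) :
    Nat.card R ≤ 2 * Nat.card (R.map (slPi F)) := by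
  have h1 := card_inf_mul_relIndex (slPi F).ker R
  rw [← card_map_eq] at h1
  have h2 : Nat.card ((slPi F).ker ⊓ R : Subgroup _) ≤ 2 := by
    have hle : (slPi F).ker ⊓ R ≤ zpowers (-1 : SL(2, F)) := by
      intro g hg
      rcases slPi_eq_one_iff.1 hg.1 with rfl | rfl
      · exact one_mem _
      · exact mem_zpowers _
    refine (card_le hle).trans ?_
    rw [card_zpowers']
    exact orderOf_le_of_pow_eq_one (by norm_num) (by simp)
  rw [← h1]
  exact Nat.mul_le_mul_right _ h2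

/-- Let F be a finite field of odd characteristic p and let a be a p-element of SL₂(F) normalizing a subgroup R of order prime to p with [R, a] ≠ 1. Then p = 3, R is a quaternion group of order 8, and R⟨a⟩ is isomorphic to SL₂(3). -/
theorem result (F : Type) [Field F] [Fintype F] {p : ℕ} [Fact p.Prime] [CharP F p] (hp : p ≠ 2) (a : Matrix.SpecialLinearGroup (Fin 2) F) (ha : IsPGroup p ↥(Subgroup.zpowers a)) (R : Subgroup (Matrix.SpecialLinearGroup (Fin 2) F)) (hR : (Nat.card R).Coprime p) (haR : a ∈ Subgroup.normalizer (R : Set (Matrix.SpecialLinearGroup (Fin 2) F))) (hnt : ⁅R, Subgroup.zpowers a⁆ ≠ ⊥) : p = 3 ∧ Nonempty (↥R ≃* QuaternionGroup 2) ∧ Nonempty (↥(R ⊔ Subgroup.zpowers a) ≃* Matrix.SpecialLinearGroup (Fin 2) (ZMod 3)) := by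
  classical
  have hpp : p.Prime := Fact.out
  have ha1 : a ≠ 1 := by
    rintro rfl
    exact hnt (by simp)
  have hap : a ^ p = 1 := by
    obtain ⟨k, hk⟩ := ha ⟨a, mem_zpowers a⟩
    exact sl2_pow_eq_one_of_pow_pow (k := k) (by simpa using congrArg Subtype.val hk)
  have hao : orderOf a = p := orderOf_eq_prime hap ha1
  have hAN : zpowers a ≤ normalizer (R : Set _) := zpowers_le.2 haR
  have hcop : Cop R (zpowers a) := by
    show (Nat.card R).Coprime (Nat.card (zpowers a))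
    rw [card_zpowers', hao]; exact hR
  have hH : Nat.card (R ⊔ zpowers a : Subgroup _) = Nat.card R * p := by
    rw [card_sup_of_inf hAN hcop.inf, card_zpowers', hao]
  have hHN : R ⊔ zpowers a ≤ normalizer (R : Set _) := sup_le le_normalizer hAN
  have hS : 1 < Nat.card (Sylow p (R ⊔ zpowers a : Subgroup _)) := by
    by_contra hle
    haveI : Subsingleton (Sylow p (R ⊔ zpowers a : Subgroup _)) :=
      Finite.card_le_one_iff_subsingleton.1 (not_lt.1 hle)
    have ha' : a ∈ R ⊔ zpowers a := le_sup_right (b := zpowers a) (mem_zpowers a)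
    have hq : IsPGroup p (zpowers (⟨a, ha'⟩ : (R ⊔ zpowers a : Subgroup _))) := by
      rw [IsPGroup.iff_card]
      exact ⟨1, by rw [Nat.card_zpowers, ← orderOf_submonoid, pow_one]; exact hao⟩
    obtain ⟨P, hP⟩ := hq.exists_le_sylow
    have hPn : (P : Subgroup (R ⊔ zpowers a : Subgroup _)).Normal := P.normal_of_subsingleton
    apply hnt
    rw [commutator_eq_bot_iff_le_centralizer]
    intro r hr
    have hr' : r ∈ R ⊔ zpowers a := le_sup_left (a := R) hr
    have h1 : (⟨r, hr'⟩ * ⟨a, ha'⟩ * ⟨r, hr'⟩⁻¹ * ⟨a, ha'⟩⁻¹ : (R ⊔ zpowers a : Subgroup _)) ∈ (P : Subgroup _) :=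
      mul_mem (hPn.conj_mem _ (hP (mem_zpowers _)) _) (inv_mem (hP (mem_zpowers _)))
    obtain ⟨k, hk⟩ := P.isPGroup' ⟨_, h1⟩
    have hk' : (r * a * r⁻¹ * a⁻¹) ^ p ^ k = 1 := by
      simpa using congrArg (fun x : (P : Subgroup (R ⊔ zpowers a : Subgroup _)) => x.1.1) hk
    have h2 : r * a * r⁻¹ * a⁻¹ ∈ R := by
      have : a * r⁻¹ * a⁻¹ ∈ R := (mem_normalizer_iff.1 haR _).1 (inv_mem hr)
      simpa [mul_assoc] using mul_mem hr this
    have h3 : r * a * r⁻¹ * a⁻¹ = 1 := by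
      rw [← orderOf_eq_one_iff]
      exact Nat.eq_one_of_dvd_coprimes (hR.pow_right k) (orderOf_dvd_card' h2) (orderOf_dvd_of_pow_eq_one hk')
    have h4 : Commute r a := by
      have : r * a = a * r := by
        have e : r * a = (r * a * r⁻¹ * a⁻¹) * (a * r) := by group
        rw [e, h3, one_mul]
      exact this
    rw [mem_centralizer_iff]
    rintro _ ⟨n, rfl⟩
    exact ((h4.zpow_right n).symm).eq
  obtain ⟨K, hK, ⟨e⟩⟩ := exists_SL2_zmod_le hp hS
  have hKc : Nat.card K = p * (p - 1) * (p + 1) := by rw [Nat.card_congr e.toEquiv, P22.card_sl2]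
  have hp3 : p = 3 := by
    refine (P22.two_or_three_of_sl2 e fun h => ?_).resolve_left hp
    have h1 : K ≤ R := by
      rw [← h]
      refine (commutator_mono hK hK).trans ?_
      refine der_le_of_relIndex_dvd_sq hpp hHN ?_
      have := card_mul_relIndex (le_sup_left : R ≤ R ⊔ zpowers a)
      rw [hH] at this
      rw [Nat.eq_of_mul_eq_mul_left (card_pos R) this]
      exact dvd_pow_self p two_ne_zero
    have h2 : p ∣ Nat.card R := Dvd.dvd.trans (by rw [hKc, mul_assoc]; exact dvd_mul_right _ _) (card_dvd h1)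
    exact hpp.one_lt.ne' (Nat.eq_one_of_dvd_coprimes hR h2 dvd_rfl)
  subst hp3
  have ht1 : slPi F a ≠ 1 := fun h => ha1 (sl2_eq_of_pow hap (one_pow 3) (by rw [h, map_one]))
  have ht : slPi F a ^ 3 = 1 := by rw [← map_pow, hap, map_one]
  have hn : ∀ r ∈ R.map (slPi F), slPi F a * r * (slPi F a)⁻¹ ∈ R.map (slPi F) := by
    rintro _ ⟨r, hr, rfl⟩
    exact ⟨a * r * a⁻¹, (mem_normalizer_iff.1 haR _).1 hr, by simp⟩
  have h3 : ¬ 3 ∣ Nat.card (R.map (slPi F)) := fun h =>
    absurd (Nat.eq_one_of_dvd_coprimes hR (h.trans (card_map_dvd' _ R)) dvd_rfl) (by norm_num)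
  have h4 : Nat.card (R.map (slPi F)) ≤ 4 := by
    rcases dickson_coprime (p := 3) h3 with ⟨z, z', e, he, h⟩ | ⟨-, h | h | h⟩
    · exact card_le_four hp ht1 ht he.1 h hn
    all_goals exact absurd (h ▸ by norm_num) h3
  have h8 : Nat.card R = 8 := by
    have h1 := card_le_two_mul R
    have h2 := card_le hK
    omega
  have hKH : K = R ⊔ zpowers a := eq_of_card_eq hK (by omega)
  refine ⟨rfl, ?_, ⟨hKH ▸ e⟩⟩
  have h2 : IsPGroup 2 R := IsPGroup.of_card (n := 3) h8
  rcases sl2_two_group (two_ne_zero_of_charP hp) h2 with hc | ⟨k, hk, ⟨f⟩⟩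
  · exfalso
    obtain ⟨c, hc'⟩ := IsCyclic.exists_generator (α := R)
    have hco : orderOf (c : SL(2, F)) = 8 := by
      rw [orderOf_submonoid, orderOf_eq_card_of_forall_mem_zpowers hc', h8]
    have hc2 : slPi F c ^ 2 ≠ 1 := by
      rw [← map_pow, Ne, slPi_eq_one_iff]
      intro h
      have : (c : SL(2, F)) ^ 4 = 1 := by
        rw [show (4 : ℕ) = 2 * 2 by rfl, pow_mul]
        rcases h with h | h <;> simp [h]
      have := orderOf_le_of_pow_eq_one (by norm_num) this
      omega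
    have hc8 : slPi F c ^ 8 = 1 := by rw [← map_pow, ← hco, pow_orderOf_eq_one, map_one]
    have hc3 : slPi F c ^ 3 ≠ 1 := fun h => hc2 (by
      have e : slPi F c ^ 8 = (slPi F c ^ 3) ^ 2 * slPi F c ^ 2 := by rw [← pow_mul, ← pow_add]
      rw [e, h] at hc8
      simpa using hc8)
    obtain ⟨z, z', e, he, h⟩ := exists_isTorusPair_of_pow_ne hc3
    refine no_torus hp ht1 ht he.1 (fun h1 => hc2 (by rw [h1, one_pow])) h ?_
    obtain ⟨r, hr, e1⟩ := hn _ ⟨c, c.2, rfl⟩
    obtain ⟨n, hn'⟩ := hc' ⟨r, hr⟩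
    have e2 : r = (c : SL(2, F)) ^ n := by simpa using (congrArg Subtype.val hn').symm
    rw [← e1, e2, map_zpow]
    exact zpow_mem h n
  · have h1 : Nat.card R = 4 * 2 ^ k := by
      rw [Nat.card_congr f.toEquiv, Nat.card_eq_fintype_card, QuaternionGroup.card]
    have hk1 : k = 1 := by
      have : 2 ^ k = 2 ^ 1 := by omega
      exact Nat.pow_right_injective (le_refl 2) this
    subst hk1
    exact ⟨f⟩

end Cfsg.Agent.S3740
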