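import Cfsg.Statements.S3741
import Mathlib
import Cfsg.Agent.H3.Extra

set_option autoImplicit false
open Cfsg

namespace Cfsg.Agent.S3741

/-- Let A and B be subgroups of a finite p-group with [A, B] ≤ A ∩ B and [A, B] of order at most p. Then |A : C_A(B)| = |B : C_B(A)|. -/
theorem result {G : Type*} [Group G] [Finite G] {p : ℕ} [Fact p.Prime] (hG : IsPGroup p G) (A B : Subgroup G) (hAB : ⁅A, B⁆ ≤ A ⊓ B) (hcard : Nat.card ↥⁅A, B⁆ ≤ p) : (A ⊓ Subgroup.centralizer (B : Set G)).relIndex A = (B ⊓ Subgroup.centralizer (A : Set G)).relIndex B := by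
  open Subgroup Cfsg.Agent.FT Cfsg.Agent.H3 in
  open scoped commutatorElement in
  · have h := comm_count_eq ((pGrp_top hG).mono (le_top : A ≤ ⊤)) ((pGrp_top hG).mono (le_top : B ≤ ⊤)) hcard
      fun a ha b hb => commutator_mem_commutator ha hb
    have h1 := FT.card_mul_relIndex (inf_le_left : A ⊓ C(B) ≤ A)
    have h2 := FT.card_mul_relIndex (inf_le_left : B ⊓ C(A) ≤ B)
    refine Nat.eq_of_mul_eq_mul_left (Nat.mul_pos (FT.card_pos (A ⊓ C(B))) (FT.card_pos (B ⊓ C(A)))) ?_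
    zify at h h1 h2 ⊢
    linear_combination (#(B ⊓ C(A)) : ℤ) * h1 + h - (#(A ⊓ C(B)) : ℤ) * h2

end Cfsg.Agent.S3741
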