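import Cfsg.Statements.S3744
import Mathlib
import Cfsg.Agent.H1.Hall

set_option autoImplicit false
open Cfsg

namespace Cfsg.Agent.S3744

open Subgroup
open scoped Pointwise

theorem hall_iff {G : Type*} [Group G] [Finite G] {p : ℕ} (hp : p.Prime) (H : Subgroup G) :
    IsPiHall {p}ᶜ H ↔ (Nat.card H).Coprime p ∧ ∃ n : ℕ, H.index = p ^ n := by
  rw [H1.isPiHall_iff, H1.isPiNum_compl_singleton_iff hp, compl_compl,
    H1.isPiNum_singleton_iff hp H.index_ne_zero_of_finite]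

/-- A finite p-soluble group has a p-complement, all its p-complements are conjugate, and every subgroup of order prime to p lies in one of them. Here a p-complement is a subgroup of order prime to p whose index is a power of p. -/
theorem result {G : Type*} [Group G] [Finite G] {p : ℕ} [Fact p.Prime] (hG : Cfsg.IsPSolvable p G) : (∃ H : Subgroup G, (Nat.card H).Coprime p ∧ ∃ n : ℕ, H.index = p ^ n) ∧ (∀ H₁ H₂ : Subgroup G, (Nat.card H₁).Coprime p → (∃ n : ℕ, H₁.index = p ^ n) → (Nat.card H₂).Coprime p → (∃ n : ℕ, H₂.index = p ^ n) → ∃ g : G, H₂ = H₁.map (MulAut.conj g).toMonoidHom) ∧ (∀ U : Subgroup G, (Nat.card U).Coprime p → ∃ H : Subgroup G, (Nat.card H).Coprime p ∧ (∃ n : ℕ, H.index = p ^ n) ∧ ∃ g : G, U.map (MulAut.conj g).toMonoidHom ≤ H) := by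
  have hp : p.Prime := Fact.out
  obtain ⟨H, hH⟩ := H1.exists_hall_compl_of_isPSolvable hp hG
  refine ⟨⟨H, (hall_iff hp H).1 hH⟩, fun H₁ H₂ a b c d => ?_, fun U hU => ?_⟩
  · have h1 := (hall_iff hp H₁).2 ⟨a, b⟩
    have h2 := (hall_iff hp H₂).2 ⟨c, d⟩
    obtain ⟨g, hg⟩ := H1.exists_conj_le_hall_compl_of_isPSolvable hp hG h2 a
    refine ⟨g, ?_⟩
    rw [← H1.conj_smul_eq_map]
    refine (eq_of_le_of_card_ge hg ?_).symm
    rw [H1.card_conj_smul, H1.hallOf_card_eq (H1.isPiHallOf_top.2 h1) (H1.isPiHallOf_top.2 h2)]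
  · obtain ⟨g, hg⟩ := H1.exists_conj_le_hall_compl_of_isPSolvable hp hG hH hU
    exact ⟨H, ((hall_iff hp H).1 hH).1, ((hall_iff hp H).1 hH).2, g, hg⟩

end Cfsg.Agent.S3744
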