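import Cfsg.Statements.S3746
import Mathlib
import Cfsg.Agent.H2.Components

set_option autoImplicit false
open Cfsg

namespace Cfsg.Agent.S3746

open Subgroup

/-- Let Z ≤ Z(G) be a central subgroup of a finite group G and E a subgroup of G containing Z whose image E/Z is a component of G/Z (subnormal and quasisimple). Then the derived subgroup [E, E] is a component of G. -/
theorem result {G : Type*} [Group G] [Finite G] (Z : Subgroup G) (hZ : Z ≤ Subgroup.center G) [Z.Normal] (E : Subgroup G) (hZE : Z ≤ E) (hE : Cfsg.IsComponent (E.map (QuotientGroup.mk' Z))) : Cfsg.IsComponent ⁅E, E⁆ := by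
  have hcm : E = (E.map (QuotientGroup.mk' Z)).comap (QuotientGroup.mk' Z) := by
    rw [comap_map_eq, QuotientGroup.ker_mk', sup_eq_left.2 hZE]
  have hsub : E.IsSubnormal := by
    rw [hcm]; exact hE.1.comap _
  have hp := H2.commutator_eq_of_isQuasisimple hE.2
  have hmap : (⁅E, E⁆ : Subgroup G).map (QuotientGroup.mk' Z) = E.map (QuotientGroup.mk' Z) := by
    rw [map_commutator, hp]
  have hsup : ⁅E, E⁆ ⊔ Z = E := by
    have := congrArg (comap (QuotientGroup.mk' Z)) hmap
    rwa [← hcm, comap_map_eq, QuotientGroup.ker_mk'] at this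
  have hZc : ∀ K : Subgroup G, Z ≤ centralizer (K : Set G) :=
    fun K => hZ.trans (center_le_centralizer _)
  have hperf : ⁅(⁅E, E⁆ : Subgroup G), ⁅E, E⁆⁆ = ⁅E, E⁆ := by
    rw [← H2.commutator_sup_of_le_centralizer (hZc _), hsup]
  refine ⟨(H2.SubnormalIn.of_le_normalizer (commutator_le_self E) ?_).isSubnormal hsub,
    H2.isQuasisimple_of_map (QuotientGroup.mk' Z) hperf ?_ (by rw [hmap]; exact hE.2)⟩
  · exact (le_inf le_normalizer le_normalizer).trans (H2.inf_normalizer_le_normalizer_commutator E E)
  · rw [QuotientGroup.ker_mk']; exact inf_le_left.trans (hZc _)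

end Cfsg.Agent.S3746
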