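import Cfsg.Statements.S3747
import Mathlib
import Cfsg.Agent.H2.Components
import Cfsg.Agent.H2.Zipper
import Cfsg.Agent.H2.MinNormal

set_option autoImplicit false
open Cfsg

namespace Cfsg.Agent.S3747

open Subgroup
open scoped Pointwise

theorem partA {G : Type*} [Group G] [Finite G] (K : Subgroup G) (hK : IsComponent K)
    (hZ : center K = ⊥) : normalClosure (K : Set G) ≠ ⊥ ∧ ∀ N : Subgroup G, N.Normal →
      N ≤ normalClosure (K : Set G) → N = ⊥ ∨ N = normalClosure (K : Set G) := by
  refine ⟨fun h => H2.ne_bot_of_isQuasisimple hK.2 (eq_bot_iff.2 (le_normalClosure.trans h.le)),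
    fun N hN hle => ?_⟩
  rcases H2.component_le_or_commutator_eq_bot hK hN.isSubnormal with h | h
  · exact Or.inr (le_antisymm hle (normalClosure_le_normal h))
  · left
    have hZ' : K ⊓ centralizer (K : Set G) = ⊥ := by
      rw [← H2.center_map_subtype, hZ, Subgroup.map_bot]
    have h1 : normalClosure (K : Set G) ≤ centralizer (N : Set G) :=
      normalClosure_le_normal (commutator_eq_bot_iff_le_centralizer.1 h)
    have h2 : normalClosure (K : Set G) = sSup (Set.range fun g : G => MulAut.conj g • K) :=
      H2.normalClosure_eq_iSup_conj_smul K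
    have h3 := H2.sSup_inf_centralizer_le_of_components
      (S := Set.range fun g : G => MulAut.conj g • K)
      (by rintro _ ⟨g, rfl⟩; exact H2.isComponent_smul hK g)
    rw [← h2] at h3
    refine eq_bot_iff.2 ((le_inf hle (le_centralizer_iff.1 h1)).trans (h3.trans ?_))
    refine iSup₂_le ?_
    rintro _ ⟨g, rfl⟩
    rw [H2.centralizer_conj_smul, ← smul_inf, hZ', smul_bot]

/-- Let G be a finite group. (a) If K is a component of G with trivial centre, then the normal closure of K in G is a minimal normal subgroup of G. (b) If the Fitting subgroup of G is trivial, then the layer E(G) is generated by the minimal normal subgroups of G. -/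
theorem result {G : Type*} [Group G] [Finite G] : (∀ K : Subgroup G, Cfsg.IsComponent K → Subgroup.center ↥K = ⊥ → (Subgroup.normalClosure (K : Set G) ≠ ⊥ ∧ ∀ N : Subgroup G, N.Normal → N ≤ Subgroup.normalClosure (K : Set G) → N = ⊥ ∨ N = Subgroup.normalClosure (K : Set G))) ∧ (Cfsg.fittingSubgroup G = ⊥ → sSup {N : Subgroup G | N ≠ ⊥ ∧ N.Normal ∧ ∀ N' : Subgroup G, N'.Normal → N' ≤ N → N' = ⊥ ∨ N' = N} = Cfsg.layer G) := by
  refine ⟨partA, fun hF => le_antisymm (sSup_le ?_) (sSup_le fun K hK => ?_)⟩
  · rintro N ⟨h1, h2, h3⟩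
    obtain ⟨K, hK, hKN⟩ := H2.exists_component_le_of_not_le_fittingSubgroup h2.isSubnormal
      (by rw [hF, bot_inf_eq]; intro x _ y hy; rw [mem_bot.1 hy]; simp)
      (by rw [hF]; exact fun h => h1 (eq_bot_iff.2 h))
    haveI : (layer G).Normal := H2.layer_normal G
    rcases h3 (normalClosure K) inferInstance (normalClosure_le_normal hKN) with h | h
    · exact absurd (eq_bot_iff.2 (le_normalClosure.trans h.le)) (H2.ne_bot_of_isQuasisimple hK.2)
    · rw [← h]; exact normalClosure_le_normal (H2.le_layer hK)
  · have hZ : center K = ⊥ := by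
      have := H2.component_center_le_fittingSubgroup hK
      rw [hF, ← H2.center_map_subtype, le_bot_iff, map_eq_bot_iff_of_injective _
        K.subtype_injective] at this
      exact this
    obtain ⟨h1, h2⟩ := partA K hK hZ
    exact le_normalClosure.trans (le_sSup ⟨h1, inferInstance, h2⟩)

end Cfsg.Agent.S3747
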