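import Cfsg.Statements.S3748
import Mathlib
import Cfsg.Agent.H2.Balance3

set_option autoImplicit false
open Cfsg

namespace Cfsg.Agent.S3748

open Cfsg.Agent.FT Subgroup
open scoped commutatorElement

/-- Call a proper subgroup M of G primitive when M = N_G(N) for every non-trivial normal subgroup N of M. If M is a primitive subgroup of the finite group G, then no non-trivial subnormal subgroup of G is contained in M; in particular M ∩ F(G) = 1. -/
theorem result {G : Type*} [Group G] [Finite G] (M : Subgroup G) (hM : M ≠ ⊤) (hprim : ∀ N : Subgroup G, N ≤ M → M ≤ Subgroup.normalizer (N : Set G) → N ≠ ⊥ → Subgroup.normalizer (N : Set G) = M) : (∀ L : Subgroup G, L.IsSubnormal → L ≤ M → L = ⊥) ∧ M ⊓ Cfsg.fittingSubgroup G = ⊥ := by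
  have h1 : ∀ L : Subgroup G, L.IsSubnormal → L ≤ M → L = ⊥ := by
    intro L hL hLM
    have hW : Subn (sSup {X : Subgroup G | Subn X ⊤ ∧ X ≤ M}) ⊤ := Subn.sSup fun _ h => h.1
    have hWM : sSup {X : Subgroup G | Subn X ⊤ ∧ X ≤ M} ≤ M := sSup_le fun _ h => h.2
    have hm : ∀ X, Subn X ⊤ → X ≤ M → X ≤ sSup {X : Subgroup G | Subn X ⊤ ∧ X ≤ M} := fun X h h' => le_sSup ⟨h, h'⟩
    generalize sSup {X : Subgroup G | Subn X ⊤ ∧ X ≤ M} = W at hW hWM hm
    refine eq_bot_of_le (hm L (subn_top.2 hL) hLM) (by_contra fun h0 => hM ?_)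
    have hn : N(W) = M := hprim W hWM (fun g hg => mem_nrm_of_cj_le (hm _ (hW.cj_of_nrm (le_nrm_top ⊤ trivial))
      (cj_le_of_mem hg hWM))) h0
    have h2 : (⊤ : Subgroup G) = W := hW.ind_up (P := fun X => X = W) rfl fun X Y _ hX hY e =>
      le_antisymm (hm Y hY (hn ▸ e ▸ hX.nrm)) (e ▸ hX.le)
    exact top_le_iff.1 (h2.le.trans hWM)
  refine ⟨h1, h1 _ (subn_top.1 ?_) inf_le_left⟩
  rw [← fitting_top]
  exact ((fitting_nil ⊤).subn inf_le_right).trans (fitting_nml ⊤).subn

end Cfsg.Agent.S3748
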