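import Cfsg.Statements.S3749
import Mathlib
import Cfsg.Agent.FT.BG01

set_option autoImplicit false
open Cfsg

namespace Cfsg.Agent.S3749

open Subgroup Cfsg.Agent.FT

/-- Call a proper subgroup M of G primitive when M = N_G(N) for every non-trivial normal subgroup N of M. Let M be a primitive subgroup of the finite group G, p a prime with O_p(M) ≠ 1, and N a normal subgroup of G with M ∩ N = 1. Then p does not divide the order of N; for every prime q there is exactly one Sylow q-subgroup of N normalized by M; and if the order of N has at least two prime divisors then M is not a maximal subgroup of G. -/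
theorem result {G : Type*} [Group G] [Finite G] (M : Subgroup G) (hM : M ≠ ⊤) (hprim : ∀ N : Subgroup G, N ≤ M → M ≤ Subgroup.normalizer (N : Set G) → N ≠ ⊥ → Subgroup.normalizer (N : Set G) = M) {p : ℕ} [Fact p.Prime] (hOp : Cfsg.pCore p ↥M ≠ ⊥) (N : Subgroup G) [N.Normal] (hMN : M ⊓ N = ⊥) : ¬ p ∣ Nat.card N ∧ (∀ q : ℕ, [Fact q.Prime] → ∃! Q : Sylow q ↥N, M ≤ Subgroup.normalizer ((Q : Subgroup ↥N).map N.subtype : Set G)) ∧ ((∃ q r : ℕ, q.Prime ∧ r.Prime ∧ q ≠ r ∧ q ∣ Nat.card N ∧ r ∣ Nat.card N) → ¬ IsCoatom M) := by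
  have hp : p.Prime := Fact.out
  have hQ := pcore_pi {p} M
  have hQM := pcore_nml {p} M
  have hQ1 : O[{p}](M) ≠ ⊥ := by
    rw [pcore_singleton hp]
    exact fun e => hOp ((map_eq_bot_iff_of_injective _ M.subtype_injective).1 e)
  generalize O[{p}](M) = Q at hQ hQM hQ1
  have hNQ : N(Q) = M := hprim Q hQM.le hQM.nrm hQ1
  have hn : ∀ X : Subgroup G, X ≤ N(N) := fun X => le_top.trans (nml_top_iff.2 ‹_›).nrm
  have hC : N ⊓ C(Q) = ⊥ :=
    inf_eq_bot_mono ((inf_comm _ _).trans hMN) le_rfl ((cen_le_nrm Q).trans hNQ.le)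
  have hpN : ¬ p ∣ #N := fun hd => by
    obtain ⟨R, hR, hQR, -⟩ := hQ.exists_syl_norms (hn Q)
    exact hQ.meet_cen hR.pi hQR (hR.syl_ne_bot ⟨hp, hd⟩) (inf_eq_bot_mono hC hR.le le_rfl)
  have hc : Cop N Q := (p'grp_of_not_dvd hpN).cop' hQ
  have hs : Sol N ∨ Sol Q := Or.inr hQ.sol
  have uniq : ∀ q P P', Syl q P N → Q ≤ N(P) → Syl q P' N → Q ≤ N(P') → P' = P :=
    fun q P P' h1 h2 h3 h4 => by
      obtain ⟨c, hc, e⟩ := coprime_Sylow_trans (hn Q) hc hs h1 h2 h3 h4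
      rw [hC, mem_bot] at hc
      rw [e, hc, cj_one]
  have ex : ∀ q, ∃ P, Syl q P N ∧ M ≤ N(P) := fun q => by
    obtain ⟨P, h1, h2⟩ := coprime_Sylow_exists q (hn Q) hc hs
    refine ⟨P, h1, fun g hg => mem_nrm_of_cj_le (uniq q P _ h1 h2 ?_ ?_).le⟩
    · have := h1.cj g
      rwa [cj_of_mem_nrm (hn M hg)] at this
    · rw [← cj_of_mem_nrm (hQM.nrm hg), ← cj_nrm]
      exact cj_mono g h2
  refine ⟨hpN, fun q hq => ?_, fun ⟨q, r, hq, hr, hne, h1, h2⟩ hmax => ?_⟩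
  · obtain ⟨P, h1, h2⟩ := ex q
    obtain ⟨T, rfl⟩ := h1.exists_sylow hq.out
    exact ⟨T, h2, fun T' h3 => Sylow.ext (map_injective N.subtype_injective
      (uniq q _ _ h1 (hQM.le.trans h2) (syl_map_subtype hq.out T') (hQM.le.trans h3)))⟩
  · obtain ⟨P, h3, h4⟩ := ex q
    have h5 : M ⊔ P = ⊤ := hmax.2 _ (left_lt_sup.2 fun h => h3.syl_ne_bot ⟨hq, h1⟩
      (eq_bot_iff.2 (hMN ▸ le_inf h h3.le)))
    have h6 := inf_sup_right' h4 h3.le
    rw [h5, inf_top_eq, inf_comm, hMN, bot_sup_eq] at h6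
    exact hne (h3.pi r hr (h6 ▸ h2)).symm

end Cfsg.Agent.S3749
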