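import Cfsg.Statements.S3750
import Mathlib
import Cfsg.Agent.H2.Misc

set_option autoImplicit false
open Cfsg

namespace Cfsg.Agent.S3750

open Cfsg.Agent.FT Subgroup
open scoped commutatorElement

/-- Call a proper subgroup M of G primitive when M = N_G(N) for every non-trivial normal subgroup N of M. Let M be a primitive subgroup of the finite group G and N a normal subgroup of G with M ∩ F*(N) ≠ 1. Then F(G) = 1 and F*(N) = F*(G) = E(G); in particular every minimal normal subgroup of G is contained in N. -/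
theorem result {G : Type*} [Group G] [Finite G] (M : Subgroup G) (hM : M ≠ ⊤) (hprim : ∀ N : Subgroup G, N ≤ M → M ≤ Subgroup.normalizer (N : Set G) → N ≠ ⊥ → Subgroup.normalizer (N : Set G) = M) (N : Subgroup G) [N.Normal] (hMF : M ⊓ (Cfsg.generalizedFittingSubgroup ↥N).map N.subtype ≠ ⊥) : Cfsg.fittingSubgroup G = ⊥ ∧ (Cfsg.generalizedFittingSubgroup ↥N).map N.subtype = Cfsg.generalizedFittingSubgroup G ∧ Cfsg.generalizedFittingSubgroup G = Cfsg.layer G ∧ ∀ K : Subgroup G, K.Normal → K ≠ ⊥ → (∀ K' : Subgroup G, K'.Normal → K' ≤ K → K' = ⊥ ∨ K' = K) → K ≤ N := by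
  have hN : N ⊴ ⊤ := nml_top_iff.2 inferInstance
  have hF := hN.gfit
  have h0 : ∀ K : Subgroup G, K ⊴ ⊤ → K ≤ M → K = ⊥ := fun K hK h => by_contra fun h1 =>
    hM (top_le_iff.1 (hK.nrm.trans (hprim K h (le_top.trans hK.nrm) h1).le))
  have h1 : C(F*(N)) = ⊥ := h0 _ ⟨le_top, norms_cent hF.nrm⟩ ((cen_anti inf_le_right).trans ((cen_le_nrm _).trans
    (hprim _ inf_le_left (normsI (le_nrm M) (le_top.trans hF.nrm)) hMF).le))
  have h2 : F(N) = ⊥ := by_contra fun h => (fitting_nil N).center_ne_bot h (eq_bot_of_le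
    (by rw [gfit_eq]; exact centsY (centsC ((lay_cents_fitting N).trans (cen_anti inf_le_left))) inf_le_right) h1)
  have h3 : F*(N) = E(N) := by rw [gfit_eq, h2, sup_bot_eq]
  have h4 : F((⊤ : Subgroup G)) = ⊥ := eq_bot_of_le
    (by rw [h3]; exact centsC ((lay_mono_nml hN).trans (lay_cents_fitting ⊤))) h1
  have h5 : E((⊤ : Subgroup G)) ≤ N := lay_le_iff.2 fun K hK => (hK.le_or_cents hN.subn).resolve_right fun h =>
    hK.ne (eq_bot_of_le (centsS (gfit_le N) h) h1)
  have h6 : F*((⊤ : Subgroup G)) = E(⊤) := by rw [gfit_eq, h4, sup_bot_eq]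
  refine ⟨fitting_top.symm.trans h4, ?_, by rw [← gfit_top, ← lay_top, h6], fun K hK hK1 hmin => ?_⟩
  · exact h3.trans ((lay_eq_of_le hN.subn h5).trans (h6.symm.trans gfit_top))
  · have hK' := nml_top_iff.2 hK
    refine inf_eq_left.1 ((hmin (K ⊓ N) (nml_top_iff.1 (hK'.inf hN)) inf_le_left).resolve_left fun h => hK1 ?_)
    exact eq_bot_of_le (centsS (gfit_le N)
      (cents_of_norms_of_inf (le_top.trans hK'.nrm) (le_top.trans hN.nrm) h)) h1

end Cfsg.Agent.S3750
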