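import Cfsg.Statements.S3751
import Mathlib
import Cfsg.Agent.H27.Prim

set_option autoImplicit false
open Cfsg

namespace Cfsg.Agent.S3751

open Subgroup Cfsg.Agent.FT Cfsg.Agent.H27

/-- Two distinct subgroups M₁, M₂ of G form a primitive pair when, for {i, j} = {1, 2}, every non-trivial normal subgroup A of M_i contained in M₁ ∩ M₂ satisfies N_{M_j}(A) = M₁ ∩ M₂; the pair has characteristic p when moreover C_{M_i}(O_p(M_i)) ≤ O_p(M_i) for both i and O_p(M₁)O_p(M₂) ≤ M₁ ∩ M₂. Let G be a finite group, p a prime dividing its order, with O_p(G) = 1 and every p-local subgroup of characteristic p. Then either G has a primitive pair of characteristic p, or every maximal p-local subgroup M of G is strongly p-embedded in G: M is a proper subgroup, p divides its order, and for every g ∉ M the order of M ∩ gMg⁻¹ is prime to p. -/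
theorem result {G : Type*} [Group G] [Finite G] {p : ℕ} [Fact p.Prime] (hloc : Cfsg.IsOfLocalCharacteristic p G) (hOp : Cfsg.pCore p G = ⊥) : (∃ M₁ M₂ : Subgroup G, M₁ ≠ M₂ ∧ (∀ A : Subgroup G, A ≠ ⊥ → A ≤ M₁ ⊓ M₂ → (M₁ ≤ Subgroup.normalizer (A : Set G) → M₂ ⊓ Subgroup.normalizer (A : Set G) = M₁ ⊓ M₂) ∧ (M₂ ≤ Subgroup.normalizer (A : Set G) → M₁ ⊓ Subgroup.normalizer (A : Set G) = M₁ ⊓ M₂)) ∧ Subgroup.centralizer (Cfsg.pCore p ↥M₁ : Set ↥M₁) ≤ Cfsg.pCore p ↥M₁ ∧ Subgroup.centralizer (Cfsg.pCore p ↥M₂ : Set ↥M₂) ≤ Cfsg.pCore p ↥M₂ ∧ (Cfsg.pCore p ↥M₁).map M₁.subtype ⊔ (Cfsg.pCore p ↥M₂).map M₂.subtype ≤ M₁ ⊓ M₂) ∨ (∀ M : Subgroup G, (∃ T : Subgroup G, IsPGroup p T ∧ T ≠ ⊥ ∧ M = Subgroup.normalizer (T : Set G)) → (∀ L : Subgroup G, (∃ T : Subgroup G, IsPGroup p T ∧ T ≠ ⊥ ∧ L = Subgroup.normalizer (T : Set G)) → M ≤ L → L = M) → M ≠ ⊤ ∧ p ∣ Nat.card M ∧ ∀ g : G, g ∉ M → ¬ p ∣ Nat.card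 ↥(M ⊓ M.map (MulAut.conj g).toMonoidHom)) := by
  have hp : p.Prime := Fact.out
  have hc : ∀ M : Subgroup G, MLoc p M → CharP' p M := by
    rintro M ⟨⟨T, h1, h2, rfl⟩, -⟩
    exact (charP'_iff_cent hp _).2 (hloc.2 T h1 h2)
  by_cases h : ∃ A B : Subgroup G, MLoc p A ∧ MLoc p B ∧ A ≠ B ∧ p ∣ Nat.card ↥(A ⊓ B)
  · left
    obtain ⟨A, B, hA, hB, hne, hd⟩ := h
    obtain ⟨M₁, M₂, T, m1, m2, hne, s1, s2⟩ := exists_common_syl hp hc hA hB hne hd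
    refine ⟨M₁, M₂, hne, fun A h1 hle => ⟨fun hn => ?_, fun hn => ?_⟩,
      (charP'_iff_cent hp _).1 (hc _ m1), (charP'_iff_cent hp _).1 (hc _ m2), ?_⟩
    · rw [m1.nrm_nml hp (hc _ m1) ⟨hle.trans inf_le_left, hn⟩ h1, inf_comm]
    · rw [m2.nrm_nml hp (hc _ m2) ⟨hle.trans inf_le_right, hn⟩ h1]
    · rw [← pcore_singleton hp, ← pcore_singleton hp]
      exact (sup_le (pcore_le_syl s1) (pcore_le_syl s2)).trans (le_inf s1.le s2.le)
  · right
    intro M h1 h2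
    have m : MLoc p M := ⟨h1, h2⟩
    have hO := m.1.pcore_ne hp
    refine ⟨fun ht => hO ?_, (pcore_pi {p} M).dvd_of_le hO (pcore_le _ _), fun g hg hd => h ⟨M, cj g M, m, m.cj g, fun e => hg ?_, hd⟩⟩
    · rw [ht, pcore_top, piCore_singleton hp, hOp]
    · have hL : M ≠ ⊥ := fun h0 => hO (by rw [h0, pcore_bot])
      rw [← m.nrm_nml hp (hc _ m) (Nml.refl _) hL]
      exact cj_eq_self.1 e.symm

end Cfsg.Agent.S3751
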