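import Cfsg.Statements.S3753
import Mathlib
import Cfsg.Agent.H27.Prim
import Cfsg.Agent.H21.FusMin
import Cfsg.Agent.H5.QdFree

set_option autoImplicit false
open Cfsg

namespace Cfsg.Agent.S3753

open Subgroup Cfsg.Agent.FT Cfsg.Agent.H27

theorem aux {G : Type*} [Group G] [Finite G] {p : ℕ} [Fact p.Prime] (hp2 : p ≠ 2) {M B : Subgroup G}
    (hc : Subgroup.centralizer (Cfsg.pCore p ↥M : Set ↥M) ≤ Cfsg.pCore p ↥M)
    (h : ∀ S : Sylow 2 M, IsMulCommutative (S : Subgroup M)) (h1 : O[{p}](M) ≤ B) (h2 : B ≤ M) :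
    M ≤ N(H21.kL B) := by
  have hp : p.Prime := Fact.out
  have ab := H5b.ab2_of_sylow h
  have hS : pCore p M ≤ B.subgroupOf M := by
    rw [← piCore_singleton hp, ← pcore_subgroupOf]
    exact subgroupOf_mono _ h1
  have hn := (H21.kinf_normal_of_stable (p := p) (fun K _ => H5b.isNormalizerPStable_of_qf fun H =>
    H5b.qf_of_ab2 hp2 ((ab.of_surjective _ (QuotientGroup.mk'_surjective K)).subgroup H)) hc hS).1
  have e : (H21.kL (B.subgroupOf M)).map M.subtype = H21.kL B := by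
    rw [H21.map_kL M.subtype_injective, subgroupOf_map_subtype, inf_eq_left.2 h2]
  rw [← e]
  exact (nml_map_subtype _).2

theorem aux2 {G : Type*} [Group G] [Finite G] {M B : Subgroup G} (hc : CharP' 2 M)
    (h : ∀ S : Sylow 2 M, IsMulCommutative (S : Subgroup M)) (h1 : PGrp 2 B) (h2 : B ≤ M) :
    B ≤ O[{2}](M) := by
  obtain ⟨P, hP, hBP⟩ := h1.exists_syl h2
  obtain ⟨T, rfl⟩ := hP.exists_sylow Nat.prime_two
  refine le_trans (le_inf h2 (hBP.trans (le_trans ?_ (cen_anti (pcore_le_syl hP))))) hc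
  rintro _ ⟨x, hx, rfl⟩
  rw [mem_centralizer_iff]
  rintro _ ⟨y, hy, rfl⟩
  have := (h T).is_comm.comm ⟨y, hy⟩ ⟨x, hx⟩
  exact congrArg (fun z : T => ((z : M) : G)) this

/-- Two distinct subgroups M₁, M₂ of G form a primitive pair when, for {i, j} = {1, 2}, every non-trivial normal subgroup A of M_i contained in M₁ ∩ M₂ satisfies N_{M_j}(A) = M₁ ∩ M₂; the pair has characteristic p when moreover C_{M_i}(O_p(M_i)) ≤ O_p(M_i) for both i and O_p(M₁)O_p(M₂) ≤ M₁ ∩ M₂. If the finite group G has a primitive pair (M₁, M₂) of characteristic p for some prime p, then M₁ or M₂ has non-abelian Sylow 2-subgroups. In particular no group of odd order has a primitive pair of characteristic p. -/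
theorem result {G : Type*} [Group G] [Finite G] {p : ℕ} [Fact p.Prime] (M₁ M₂ : Subgroup G) (hne : M₁ ≠ M₂) (hP : ∀ A : Subgroup G, A ≠ ⊥ → A ≤ M₁ ⊓ M₂ → (M₁ ≤ Subgroup.normalizer (A : Set G) → M₂ ⊓ Subgroup.normalizer (A : Set G) = M₁ ⊓ M₂) ∧ (M₂ ≤ Subgroup.normalizer (A : Set G) → M₁ ⊓ Subgroup.normalizer (A : Set G) = M₁ ⊓ M₂)) (hc₁ : Subgroup.centralizer (Cfsg.pCore p ↥M₁ : Set ↥M₁) ≤ Cfsg.pCore p ↥M₁) (hc₂ : Subgroup.centralizer (Cfsg.pCore p ↥M₂ : Set ↥M₂) ≤ Cfsg.pCore p ↥M₂) (hO : (Cfsg.pCore p ↥M₁).map M₁.subtype ⊔ (Cfsg.pCore p ↥M₂).map M₂.subtype ≤ M₁ ⊓ M₂) : (∃ S : Sylow 2 ↥M₁, ¬ IsMulCommutative (S : Subgroup ↥M₁)) ∨ (∃ S : Sylow 2 ↥M₂, ¬ IsMulCommutative (S : Subgroup ↥M₂)) := by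
  have hp : p.Prime := Fact.out
  by_contra hcon
  push Not at hcon
  obtain ⟨a1, a2⟩ := hcon
  rw [← pcore_singleton hp, ← pcore_singleton hp] at hO
  have c1 := (charP'_iff_cent hp _).2 hc₁
  have c2 := (charP'_iff_cent hp _).2 hc₂
  have key : ∀ A : Subgroup G, A ≤ M₁ ⊓ M₂ → M₁ ≤ N(A) → M₂ ≤ N(A) → A = ⊥ := by
    intro A hA n1 n2
    by_contra h
    have e1 := (hP A h hA).1 n1
    have e2 := (hP A h hA).2 n2
    rw [inf_eq_left.2 n2] at e1
    rw [inf_eq_left.2 n1] at e2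
    exact hne (e2.trans e1.symm)
  have hB : O[{p}](M₁) ⊔ O[{p}](M₂) ≠ ⊥ := by
    intro h
    rw [sup_eq_bot_iff] at h
    unfold CharP' at c1 c2
    rw [h.1] at c1
    rw [h.2] at c2
    simp only [cen_bot, inf_top_eq, le_bot_iff] at c1 c2
    exact hne (c1.trans c2.symm)
  have hBp : PGrp p (O[{p}](M₁) ⊔ O[{p}](M₂)) :=
    (pcore_pi _ _).sup (pcore_pi _ _) ((le_sup_right.trans (hO.trans inf_le_left)).trans (pcore_nrm _ _))
  by_cases hp2 : p = 2
  · subst hp2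
    have e1 : O[{2}](M₁) ⊔ O[{2}](M₂) = O[{2}](M₁) :=
      le_antisymm (aux2 c1 a1 hBp (hO.trans inf_le_left)) le_sup_left
    have e2 : O[{2}](M₁) ⊔ O[{2}](M₂) = O[{2}](M₂) :=
      le_antisymm (aux2 c2 a2 hBp (hO.trans inf_le_right)) le_sup_right
    exact hB (key _ hO (by rw [e1]; exact pcore_nrm _ _) (by rw [e2]; exact pcore_nrm _ _))
  · have := key _ ((H21.kL_le _).trans hO) (aux hp2 hc₁ a1 le_sup_left (hO.trans inf_le_left))
      (aux hp2 hc₂ a2 le_sup_right (hO.trans inf_le_right))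
    exact hBp.center_ne_bot hB (le_bot_iff.1 (this ▸ H21.center_le_kL _))

end Cfsg.Agent.S3753
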