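import Cfsg.Statements.S3754
import Mathlib
import Cfsg.Agent.H27.Sep

set_option autoImplicit false
open Cfsg

namespace Cfsg.Agent.S3754

open Subgroup Cfsg.Agent.FT Cfsg.Agent.H27

/-- Let M be a finite p-soluble group and A a p-subgroup of M with Φ(A) ≤ O_p(M) but A ≰ O_p(M). Then there is x ∈ O_{p,p'}(M) such that L = ⟨A, xAx⁻¹⟩ satisfies: x ∈ O^p(L) and O^p(L) ≤ O_{p,p'}(M); [O^p(L), A] = O^p(L); A ∩ O_p(L) has index p in A; and [A ∩ O_p(L), L] ≤ O_p(M). Here O^p(L) is the subgroup generated by the p'-elements of L and O_{p,p'}(M) the preimage of O_{p'}(M/O_p(M)). -/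
theorem result {M : Type*} [Group M] [Finite M] {p : ℕ} [Fact p.Prime] (hM : Cfsg.IsPSolvable p M) (A : Subgroup M) (hA : IsPGroup p A) (hΦ : (frattini ↥A).map A.subtype ≤ Cfsg.pCore p M) (hnot : ¬ A ≤ Cfsg.pCore p M) : ∃ x ∈ (Cfsg.pPrimeCore p (M ⧸ Cfsg.pCore p M)).comap (QuotientGroup.mk' (Cfsg.pCore p M)), x ∈ (Cfsg.pResidual p ↥(A ⊔ A.map (MulAut.conj x).toMonoidHom)).map (A ⊔ A.map (MulAut.conj x).toMonoidHom).subtype ∧ (Cfsg.pResidual p ↥(A ⊔ A.map (MulAut.conj x).toMonoidHom)).map (A ⊔ A.map (MulAut.conj x).toMonoidHom).subtype ≤ (Cfsg.pPrimeCore p (M ⧸ Cfsg.pCore p M)).comap (QuotientGroup.mk' (Cfsg.pCore p M)) ∧ ⁅(Cfsg.pResidual p ↥(A ⊔ A.map (MulAut.conj x).toMonoidHom)).map (A ⊔ A.map (MulAut.conj x).toMonoidHom).subtype, A⁆ = (Cfsg.pResidual p ↥(A ⊔ A.map (MulAut.conj x).toMonoidHom)).map (A ⊔ A.map (MulAut.conj x).toMonoidHom).subtype ∧ (A ⊓ (Cfsg.pCore p ↥(A ⊔ A.map (MulAut.conj x).toMonoidHom)).map (A ⊔ A.map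 (MulAut.conj x).toMonoidHom).subtype).relIndex A = p ∧ ⁅A ⊓ (Cfsg.pCore p ↥(A ⊔ A.map (MulAut.conj x).toMonoidHom)).map (A ⊔ A.map (MulAut.conj x).toMonoidHom).subtype, A ⊔ A.map (MulAut.conj x).toMonoidHom⁆ ≤ Cfsg.pCore p M := by
  have hp : p.Prime := Fact.out
  have hA' : PGrp p A := pGrp_of_isPGroup hp hA
  have hK : PGrp p (pCore p M) := by
    rw [← piCore_singleton hp, ← pcore_top]; exact pcore_pi _ _
  have hKn : ∀ X : Subgroup M, X ≤ N(pCore p M) := fun X => le_top.trans (normalizer_eq_top _).ge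
  have hΦ' := (hA'.Phi_le_iff hp).1 hΦ
  have hF : PiGrp {p}ᶜ (pPrimeCore p (M ⧸ pCore p M)) := by
    rw [← piCore_compl_singleton hp, ← pcore_top]; exact pcore_pi _ _
  have hcen := H5b.centralizer_pPrimeCore_le (H1.isPSolvable_quotient hp hM (pCore p M))
    H2.pCore_quotient_self
  have hFn : (pPrimeCore p (M ⧸ pCore p M)).Normal := inferInstance
  generalize pPrimeCore p (M ⧸ pCore p M) = F at hF hcen hFn ⊢
  have hker : (QuotientGroup.mk' (pCore p M)).ker = pCore p M := QuotientGroup.ker_mk' _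
  have hf := QuotientGroup.mk'_surjective (pCore p M)
  generalize QuotientGroup.mk' (pCore p M) = f at hker hf ⊢
  have hAf : Abelem p (A.map f) := abelem_iff.2 ⟨by
    rw [ab_iff_der, ← map_commutator, Subgroup.map_eq_bot_iff, hker]; exact hΦ'.1, by
    rintro _ ⟨x, hx, rfl⟩
    rw [← map_pow, ← MonoidHom.mem_ker, hker]; exact hΦ'.2 x hx⟩
  have h1 : A.map f ≠ ⊥ := by rwa [Ne, Subgroup.map_eq_bot_iff, hker]
  have hnF : ∀ X, X ≤ N(F) := fun X => le_top.trans (normalizer_eq_top _).ge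
  obtain ⟨B, hB, hi, hn⟩ : ∃ B, B ≤ A.map f ∧ B.relIndex (A.map f) = p ∧ ¬ F ⊓ C(B) ≤ C(A.map f) := by
    by_contra h
    push Not at h
    have := coprime_abelem_gen_cent hp hAf h1 (hnF _) (hF.cop' (hAf.pGrp hp)) h
    exact h1 ((hAf.pGrp hp).eq_bot (hF.mono ((centsC this).trans hcen)))
  have hY : A.map f ≤ N(F ⊓ C(B)) := normsI (hnF _) (norms_cent (hAf.ab.norms hB))
  have hXn : A ≤ N((F ⊓ C(B)).comap f) := le_nrm_iff.2 fun a ha x hx => by
    rw [mem_comap, map_mul, map_mul, map_inv]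
    exact conj_mem (hY (mem_map_of_mem f ha)) hx
  have hno : ¬ A ≤ O[{p}]((F ⊓ C(B)).comap f ⊔ A) := fun h => by
    have h2 : PGrp p ⁅(F ⊓ C(B)).comap f, A⁆ := (pcore_pi {p} _).mono
      ((commSS le_sup_left h).trans (comm_le_right (pcore_nrm _ _)))
    have h3 := h2.map f
    rw [map_commutator, map_comap_eq_self_of_surjective hf] at h3
    exact hn (comm_eq_bot.1 (h3.eq_bot (hF.mono ((comm_le_left hY).trans inf_le_left))))
  obtain ⟨x, hx, h2, h3, h4⟩ := exists_min_gen hp hA' le_sup_right hno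
  have hL : A ⊔ cj x A ≤ (F ⊓ C(B)).comap f ⊔ A := sup_le le_sup_right (cj_le_of_mem hx le_sup_right)
  have hR : piGen {p}ᶜ (A ⊔ cj x A) ≤ F.comap f := by
    refine (piGen_mono _ hL).trans ((piGen_min (sup_le le_normalizer hXn) ?_).trans (comap_mono inf_le_left))
    rw [compl_compl, relIndex_sup_norm hXn]
    exact hA'.relIndex _
  have hBL : ⁅A ⊓ B.comap f, A ⊔ cj x A⁆ ≤ pCore p M := by
    refine (commSS le_rfl hL).trans (comm_sup_le' (hKn _) ?_ ((commSS inf_le_left le_rfl).trans hΦ'.1))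
    refine le_trans ?_ hker.le
    rw [← Subgroup.map_eq_bot_iff, map_commutator, comm_eq_bot']
    exact ((map_comap_le _ _).trans inf_le_right).trans
      (cen_anti ((map_mono inf_le_right).trans (map_comap_le _ _)))
  have hBO : A ⊓ B.comap f ≤ O[{p}](A ⊔ cj x A) := by
    have hle : A ⊓ B.comap f ≤ A ⊔ cj x A := inf_le_left.trans le_sup_left
    have hn1 : A ⊔ cj x A ≤ N((A ⊔ cj x A) ⊓ pCore p M) := normsI le_normalizer (hKn _)
    refine le_sup_right.trans (pcore_max ((hK.mono inf_le_right).sup (hA'.mono inf_le_left) (hle.trans hn1))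
      ⟨sup_le inf_le_left hle, norms_of_comm_le (le_trans ?_ le_sup_left)⟩)
    exact comm_sup_le ((sup_le inf_le_left hle).trans hn1) (comm_le_left hn1)
      (le_inf (comm_le_of_le hle le_rfl) hBL)
  have hi' : (A ⊓ B.comap f).relIndex A = p := by rw [inf_relIndex_left, relIndex_comap, hi]
  have e : A ⊓ O[{p}](A ⊔ cj x A) = A ⊓ B.comap f := by
    by_contra h
    have := (maxIn_of_prime_relIndex (by rwa [hi']) inf_le_left).sup_eq (K := A ⊓ O[{p}](A ⊔ cj x A))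
      inf_le_left fun h' => h (le_antisymm h' (le_inf inf_le_left hBO))
    exact h2 (this.ge.trans (sup_le hBO inf_le_right))
  refine ⟨x, hR h3, ?_⟩
  rw [← cj_def, pResidual_map hp, ← pcore_singleton hp, e]
  exact ⟨h3, hR, h4, hi', hBL⟩

end Cfsg.Agent.S3754
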