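import Cfsg.Statements.S3758
import Mathlib
import Cfsg.Agent.GW.ZN

set_option autoImplicit false
open Cfsg

namespace Cfsg.Agent.S3758



/-- Let G be a finite group of even order in which every 2-local subgroup is solvable and C_G(Ω₁(Z(S))) ≤ N_G(S) for every Sylow 2-subgroup S, and suppose O_{2'}(G) = 1 = O₂(G). Fix a Sylow 2-subgroup S, put Z = Ω₁(Z(S)), H = O²(G) (generated by the elements of odd order) and R = S ∩ H. Then one of the following holds: H has a strongly embedded subgroup; R is dihedral (of order at least 4) or semidihedral; Z ∩ R has order 2 and is weakly closed in R with respect to H; or Z has order 4 and is exactly the subgroup generated by the involutions of R. -/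
theorem result {G : Type*} [Group G] [Finite G] (heven : Even (Nat.card G)) (hN : ∀ L : Subgroup G, Cfsg.IsTwoLocal L → Group.IsSolvable L) (hZ : ∀ S : Sylow 2 G, Subgroup.centralizer (Cfsg.omegaOne 2 ((S : Subgroup G) ⊓ Subgroup.centralizer ((S : Subgroup G) : Set G)) : Set G) ≤ Subgroup.normalizer ((S : Subgroup G) : Set G)) (hO' : Cfsg.pPrimeCore 2 G = ⊥) (hO : Cfsg.pCore 2 G = ⊥) (S : Sylow 2 G) : (∃ M : Subgroup ↥(Cfsg.pResidual 2 G), Cfsg.IsStronglyEmbedded M) ∨ ((∃ n : ℕ, 2 ≤ n ∧ Nonempty (↥((S : Subgroup G) ⊓ Cfsg.pResidual 2 G) ≃* DihedralGroup n)) ∨ Cfsg.IsQuasiDihedral ↥((S : Subgroup G) ⊓ Cfsg.pResidual 2 G)) ∨ (Nat.card ↥(Cfsg.omegaOne 2 ((S : Subgroup G) ⊓ Subgroup.centralizer ((S : Subgroup G) : Set G)) ⊓ Cfsg.pResidual 2 G) = 2 ∧ ∀ h ∈ Cfsg.pResidual 2 G, ∀ z ∈ Cfsg.omegaOne 2 ((S : Subgroup G) ⊓ Subgroup.centralizer ((S : Subgroup G) : Set G)) ⊓ Cfsg.pResidual 2 G, h * z * h⁻¹ ∈ (S : Subgroup G) → h * z *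 h⁻¹ ∈ Cfsg.omegaOne 2 ((S : Subgroup G) ⊓ Subgroup.centralizer ((S : Subgroup G) : Set G))) ∨ (Nat.card ↥(Cfsg.omegaOne 2 ((S : Subgroup G) ⊓ Subgroup.centralizer ((S : Subgroup G) : Set G))) = 4 ∧ Cfsg.omegaOne 2 ((S : Subgroup G) ⊓ Cfsg.pResidual 2 G) = Cfsg.omegaOne 2 ((S : Subgroup G) ⊓ Subgroup.centralizer ((S : Subgroup G) : Set G))) := by
  open Cfsg.Agent.FT Cfsg.Agent.GW in
  · obtain h | ⟨a, b, m, h | h⟩ | h := zn_main (fun Q h1 h2 => hN _ ⟨Q, h1.isPGroup, h2, rfl⟩)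
      ((p'core_top Nat.prime_two).trans hO') ((pcore_top' Nat.prime_two).trans hO)
      (by rw [Subgroup.card_top]; exact heven.two_dvd) (fun T hT => by
        obtain ⟨T, rfl⟩ := (syl_top_iff Nat.prime_two).1 hT
        exact hZ T) (syl_top Nat.prime_two S) (pResidual_top Nat.prime_two)
    exacts [.inl h, .inr (.inl (.inl ⟨_, (Nat.le_self_pow (by have := h.two_le; omega) 2), h.iso⟩)),
      .inr (.inl (.inr h.qd)), .inr (.inr (.inr h))]

end Cfsg.Agent.S3758
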