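import Cfsg.Statements.S3760
import Mathlib
import Cfsg.Agent.H16.RegNormal

set_option autoImplicit false
open Cfsg

namespace Cfsg.Agent.S3760

/-- Let the group G act transitively on a set X, let x ∈ X with stabilizer H = G_x, and let K ≤ H. Then N_G(K) acts transitively on the set of fixed points of K if and only if every G-conjugate of K contained in H is already an H-conjugate of K. -/
theorem result {G : Type*} [Group G] {X : Type*} [MulAction G X] (htrans : ∀ a b : X, ∃ g : G, g • a = b) (x : X) (K : Subgroup G) (hK : K ≤ MulAction.stabilizer G x) : (∀ a b : X, (∀ k ∈ K, k • a = a) → (∀ k ∈ K, k • b = b) → ∃ g ∈ Subgroup.normalizer (K : Set G), g • a = b) ↔ ∀ g : G, K.map (MulAut.conj g).toMonoidHom ≤ MulAction.stabilizer G x → ∃ h ∈ MulAction.stabilizer G x, K.map (MulAut.conj g).toMonoidHom = K.map (MulAut.conj h).toMonoidHom := by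
  open MulAction in
  have hn : ∀ g : G, g ∈ Subgroup.normalizer (K : Set G) ↔ K.map (MulAut.conj g).toMonoidHom = K := by
    intro g
    rw [Subgroup.mem_normalizer_iff_map_conj_eq]; rfl
  have hmul : ∀ g h : G, K.map (MulAut.conj (g * h)).toMonoidHom =
      (K.map (MulAut.conj h).toMonoidHom).map (MulAut.conj g).toMonoidHom := by
    intro g h
    rw [Subgroup.map_map, map_mul]; rfl
  constructor
  · intro h g hg
    obtain ⟨n, hn1, hn2⟩ := h (g⁻¹ • x) x (fun k hk => by
      have : (g * k * g⁻¹) • x = x := hg ⟨k, hk, rfl⟩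
      rwa [mul_smul, mul_smul, ← eq_inv_smul_iff] at this) (fun k hk => hK hk)
    refine ⟨g * n⁻¹, ?_, ?_⟩
    · rw [mem_stabilizer_iff, mul_smul, ← eq_inv_smul_iff, inv_smul_eq_iff, hn2]
    · rw [hmul, (hn _).1 (Subgroup.inv_mem _ hn1)]
  · intro h
    have key : ∀ c : X, (∀ k ∈ K, k • c = c) → ∃ g ∈ Subgroup.normalizer (K : Set G), g • c = x := by
      intro c hc
      obtain ⟨g, hg⟩ := htrans c x
      obtain ⟨k, hk, e⟩ := h g (by
        rintro _ ⟨k, hk, rfl⟩
        change (g * k * g⁻¹) • x = x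
        rw [← hg, mul_smul, mul_smul, inv_smul_smul, hc k hk])
      refine ⟨k⁻¹ * g, ?_, by rw [mul_smul, hg, inv_smul_eq_iff, hk]⟩
      rw [hn, hmul, e, ← hmul, inv_mul_cancel, ← hn]
      exact Subgroup.one_mem _
    intro a b ha hb
    obtain ⟨g, hg, e⟩ := key a ha
    obtain ⟨k, hk, e'⟩ := key b hb
    exact ⟨k⁻¹ * g, Subgroup.mul_mem _ (Subgroup.inv_mem _ hk) hg, by
      rw [mul_smul, e, inv_smul_eq_iff, e']⟩

end Cfsg.Agent.S3760
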