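import Cfsg.Statements.S3761
import Mathlib
import Cfsg.Agent.H3.Two

set_option autoImplicit false
open Cfsg

namespace Cfsg.Agent.S3761

/-- Let G be a finite non-abelian p-group with a cyclic normal subgroup U of order p^n such that C_G(U) = U. Then either p = 2 and G is dihedral, generalized quaternion or semidihedral of order 2^(n+1); or, writing U₁ for the subgroup generated by the p-th powers of elements of U and M = C_G(U₁), the subgroup U has index p in M and the subgroup Ω₁(M) generated by the elements of M of order dividing p is elementary abelian of order p² and characteristic in G. -/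
theorem result {G : Type*} [Group G] [Finite G] {p : ℕ} [Fact p.Prime] (hG : IsPGroup p G) (hna : ¬ IsMulCommutative G) (U : Subgroup G) [U.Normal] (hU : IsCyclic U) (n : ℕ) (hUn : Nat.card U = p ^ n) (hC : Subgroup.centralizer (U : Set G) = U) : (p = 2 ∧ Nat.card G = 2 ^ (n + 1) ∧ ((∃ m : ℕ, Nonempty (G ≃* DihedralGroup m)) ∨ (∃ m : ℕ, Nonempty (G ≃* QuaternionGroup m)) ∨ Cfsg.IsQuasiDihedral G)) ∨ (U.relIndex (Subgroup.centralizer (Cfsg.powerClosure p 1 U : Set G)) = p ∧ Cfsg.IsElementaryAbelian p (Cfsg.omegaOne p (Subgroup.centralizer (Cfsg.powerClosure p 1 U : Set G))) ∧ Nat.card ↥(Cfsg.omegaOne p (Subgroup.centralizer (Cfsg.powerClosure p 1 U : Set G))) = p ^ 2 ∧ (Cfsg.omegaOne p (Subgroup.centralizer (Cfsg.powerClosure p 1 U : Set G))).Characteristic) := by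
  open Subgroup Cfsg.Agent.FT Cfsg.Agent.H3 in
  open scoped commutatorElement in
  · obtain ⟨u, rfl⟩ := cyc_iff.1 hU
    have hM : ℧[p](⟪u⟫) = ⟪u ^ p⟫ := by
      refine le_antisymm (Mho_le_iff.2 fun x hx => ?_) (zpowers_le.2 (pow_mem_Mho p (mem_zpowers u)))
      obtain ⟨i, rfl⟩ := mem_zpowers_iff.1 hx
      exact mem_zpowers_iff.2 ⟨i, by rw [← zpow_natCast, ← zpow_mul, ← zpow_natCast, ← zpow_mul, mul_comm]⟩
    rcases mc_or_mod_of_scn (S := ⊤) Fact.out (pGrp_top hG) (nml_top_iff.2 ‹_›) (by rw [← cen_zpowers, hC]; exact inf_le_right)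
      (mt ab_top.1 hna) ((card_zpowers' u).symm.trans hUn) with ⟨rfl, b, h⟩ | ⟨b, h, h'⟩
    · exact Or.inl ⟨rfl, card_top'.symm.trans h.card, h.iso_cases_top.imp (fun h => ⟨_, h⟩) (Or.imp_left fun h => ⟨_, h⟩)⟩
    rw [top_inf_eq] at h
    rw [hM, cen_zpowers]
    refine Or.inr ⟨h.relIndex, h.pnElem_Ohm.abelem, h.pnElem_Ohm.card, ?_⟩
    rcases h' with h' | ⟨h1, h2⟩
    · rw [Ohm_eq_of_le h' le_top]; exact omegaOne_characteristic p ⊤
    · haveI : (⟪u ^ p⟫).Characteristic := characteristic_of_le_isCyclic (C := commutator G) ((cyc_zpowers u).mono h2) h1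
      rw [← cen_zpowers]
      exact omegaOne_characteristic p _

end Cfsg.Agent.S3761
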