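import Cfsg.Statements.S3763
import Mathlib
import Cfsg.Agent.H3.Extra

set_option autoImplicit false
open Cfsg

namespace Cfsg.Agent.S3763

/-- Let E be an extraspecial 2-group of order 2^(2n+1). Then the largest elementary abelian subgroups of E have order 2^n or 2^(n+1); and two extraspecial 2-groups of the same order whose largest elementary abelian subgroups have the same order are isomorphic. -/
theorem result {E : Type*} [Group E] [Finite E] (hE : Cfsg.IsExtraspecial 2 E) (n : ℕ) (hn : Nat.card E = 2 ^ (2 * n + 1)) : ((Cfsg.PRankLE 2 n E ∧ ¬ Cfsg.PRankLE 2 (n - 1) E) ∨ (Cfsg.PRankLE 2 (n + 1) E ∧ ¬ Cfsg.PRankLE 2 n E)) ∧ ∀ (E' : Type*) [Group E'] [Finite E'], Cfsg.IsExtraspecial 2 E' → Nat.card E' = Nat.card E → (∀ k : ℕ, Cfsg.PRankLE 2 k E ↔ Cfsg.PRankLE 2 k E') → Nonempty (E ≃* E') := by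
  open Subgroup Cfsg.Agent.FT Cfsg.Agent.H3 in
  open scoped commutatorElement in
  · obtain ⟨z, h1, h2⟩ := exists_xs_top hE
    have hn' := card_top'.trans hn
    have h3 : n ≠ 0 := by
      rintro rfl
      exact h2 (h1.ab_iff.2 hn')
    refine ⟨?_, fun E' _ _ hE' hc hr => ?_⟩
    · simp only [← prank_top_le_iff Nat.prime_two, h1.prank_eq hn']
      split_ifs <;> omega
    · obtain ⟨z', h1', -⟩ := exists_xs_top hE'
      have := hr n
      simp only [← prank_top_le_iff Nat.prime_two, h1.prank_eq hn', h1'.prank_eq (card_top'.trans (hc.trans hn))] at this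
      refine (h1.gi_sign h1' (by rw [card_top', card_top', hc]) ?_).iso_top hc.symm
      split_ifs at this <;> omega

end Cfsg.Agent.S3763
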