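import Cfsg.Statements.S3764
import Mathlib
import Cfsg.Agent.H28.Extra2
import Cfsg.Agent.H2.MinNormal

set_option autoImplicit false
open Cfsg

namespace Cfsg.Agent.S3764

/-- Let p, q, r be distinct primes and let X, Q, V be subgroups of a finite group with X of order r, Q an extraspecial q-group normalized by X with C_Q(X) = Z(Q), and V an elementary abelian p-group normalized by X and Q on which XQ acts faithfully ((X ⊔ Q) ∩ C(V) = 1). If C_V(X) = 1, then q = 2, r = 2^n + 1 for some n, and Q has order 2^(2n+1). -/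
theorem result {G : Type*} [Group G] [Finite G] {p q r : ℕ} (hp : p.Prime) (hq : q.Prime) (hr : r.Prime) (hpq : p ≠ q) (hpr : p ≠ r) (hqr : q ≠ r) (X Q V : Subgroup G) (hX : Nat.card X = r) (hQ : Cfsg.IsExtraspecial q ↥Q) (hXQ : X ≤ Subgroup.normalizer (Q : Set G)) (hCQ : Q ⊓ Subgroup.centralizer (X : Set G) = (Subgroup.center ↥Q).map Q.subtype) (hV : Cfsg.IsElementaryAbelian p V) (hXV : X ≤ Subgroup.normalizer (V : Set G)) (hQV : Q ≤ Subgroup.normalizer (V : Set G)) (hfaith : (X ⊔ Q) ⊓ Subgroup.centralizer (V : Set G) = ⊥) (hCV : V ⊓ Subgroup.centralizer (X : Set G) = ⊥) : q = 2 ∧ ∃ n : ℕ, r = 2 ^ n + 1 ∧ Nat.card Q = 2 ^ (2 * n + 1) := by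
  haveI := Fact.mk hp
  haveI := Fact.mk hq
  haveI := Fact.mk hr
  rw [H2.center_map_subtype] at hCQ
  obtain ⟨m, hm⟩ := hQ.1.1.exists_card_eq
  have hder : ⁅Q, Q⁆ = Q ⊓ Subgroup.centralizer (Q : Set G) := by
    rw [← Subgroup.map_subtype_commutator, hQ.1.2.2, H2.center_map_subtype]
  have hZ : Nat.card ↥(Q ⊓ Subgroup.centralizer (Q : Set G)) = q := by
    rw [← H28.card_center_coe, hQ.2]
  have hn : Q ⊔ X ≤ Subgroup.normalizer (V : Set G) := sup_le hQV hXV
  obtain ⟨S⟩ := H28.nonempty_secRep p (M := Q ⊔ X) (U := V) (W := ⊥) bot_le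
    (Subgroup.commutator_self_eq_bot_iff.2 hV.1).le hV.2 hn Subgroup.le_normalizer_of_normal
  set Q' := Q.subgroupOf (Q ⊔ X) with hQ'
  set X' := X.subgroupOf (Q ⊔ X) with hX'
  have hcQ : Nat.card Q' = q ^ m := by rw [H28.card_subgroupOf_of_le le_sup_left, hm]
  have hcX : Nat.card X' = r := by rw [H28.card_subgroupOf_of_le le_sup_right, hX]
  have hcen : ∀ {A : Subgroup G}, A ≤ Q ⊔ X → Subgroup.centralizer (A.subgroupOf (Q ⊔ X) :
      Set ↥(Q ⊔ X)) = (Subgroup.centralizer (A : Set G)).subgroupOf (Q ⊔ X) := by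
    intro A hA
    ext x
    simp only [Subgroup.mem_subgroupOf, Subgroup.mem_centralizer_iff]
    exact ⟨fun h g hg => congrArg Subtype.val (h ⟨g, hA hg⟩ hg),
      fun h g hg => Subtype.ext (h g hg)⟩
  have hZ' : Q' ⊓ Subgroup.centralizer (Q' : Set ↥(Q ⊔ X)) =
      (Q ⊓ Subgroup.centralizer (Q : Set G)).subgroupOf (Q ⊔ X) := by
    rw [hQ', hcen le_sup_left]; rfl
  have hcZ' : Nat.card ↥(Q' ⊓ Subgroup.centralizer (Q' : Set ↥(Q ⊔ X))) = q := by
    rw [hZ', H28.card_subgroupOf_of_le (inf_le_left.trans le_sup_left), hZ]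
  obtain ⟨d, h1, -, h3⟩ := H28.extraspecial_cyclic_aux (H28.bcRep (AlgebraicClosure (ZMod p)) S.ρ)
    (P := Q') (H := X') (hcZ' ▸ hq) (isCyclic_of_prime_card hcX) (H28.subgroupOf_le_normalizer hXQ)
    (by rw [hcQ, hcX]; exact ((Nat.coprime_primes hq hr).2 hqr).pow_left _)
    (by
      rw [hQ', ← H28.commutator_subgroupOf le_sup_left le_sup_left, hcen le_sup_left, hder]
      exact fun _ h => h.2)
    (by
      intro y hy hy1
      rw [H28.centralizer_eq_of_prime_card (hcX ▸ hr) hy hy1, hZ', hX', hcen le_sup_right, ← hCQ]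
      rfl)
    (by
      rw [H28.ker_bcRep, hZ', S.le_ker_iff (inf_le_left.trans le_sup_left), le_bot_iff,
        Subgroup.commutator_eq_bot_iff_le_centralizer]
      intro h
      have : Q ⊓ Subgroup.centralizer (Q : Set G) = ⊥ := by
        rw [eq_bot_iff, ← hfaith]
        exact le_inf (inf_le_left.trans le_sup_right) h
      rw [this, Subgroup.card_bot] at hZ
      exact hq.one_lt.ne hZ)
    (H28.natCast_ne_zero_of_algebra _ (H28.natCast_zmod_ne_zero (by
      rw [hcQ]; exact fun h => hpq ((Nat.prime_dvd_prime_iff_eq hp hq).1 (hp.dvd_of_dvd_pow h)))))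
    (H28.natCast_ne_zero_of_algebra _ (H28.natCast_zmod_ne_zero (by
      rw [hcX]; exact fun h => hpr ((Nat.prime_dvd_prime_iff_eq hp hr).1 h))))
  have h4 := (Subgroup.center Q').card_mul_index
  rw [H28.card_center_coe, hcZ', ← h1, hcQ] at h4
  obtain ⟨n, -, rfl⟩ := (Nat.dvd_prime_pow hq).1
    ((dvd_pow_self d two_ne_zero).trans (Dvd.intro_left _ h4))
  have h5 := h3 (H28.rfix_bcRep_eq_bot _ _ (by
    rw [hX', S.rfix_eq_img le_sup_right Subgroup.le_normalizer_of_normal (by simp)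
      (Or.inr inferInstance), eq_bot_iff]
    rintro _ ⟨b, hb, rfl⟩
    rw [hCV, Subgroup.mem_bot] at hb
    rw [hb, S.map_one]
    exact Submodule.zero_mem _))
  have hn0 : q ^ n ≠ 1 := by
    intro h
    rw [h, one_pow, mul_one, ← hm, ← hZ] at h4
    have h6 := Subgroup.eq_of_le_of_card_ge inf_le_left h4.ge
    have h7 : ⁅Q, Q⁆ = ⊥ := Subgroup.commutator_eq_bot_iff_le_centralizer.2 (inf_eq_left.1 h6)
    rw [← hder, h7, Subgroup.card_bot] at hZ
    exact hq.one_lt.ne hZ
  have h6 := h5.resolve_left hn0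
  rw [hcX] at h6
  have hq2 : q = 2 := by
    by_contra hne
    have h7 : Even r := h6 ▸ ((hq.odd_of_ne_two hne).pow).add_one
    have h8 := hr.even_iff.1 h7
    omega
  subst hq2
  exact ⟨rfl, n, h6.symm, by rw [hm, ← h4]; ring⟩

end Cfsg.Agent.S3764
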