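import Cfsg.Statements.S3765
import Mathlib
import Cfsg.Agent.H1.Fpf

set_option autoImplicit false
open Cfsg

namespace Cfsg.Agent.S3765

/-- Let p, q, r be distinct primes and let X, Q, V be subgroups of a finite group with X of order r normalizing the q-group Q and acting faithfully on it (X ∩ C(Q) = 1), and V a nontrivial elementary abelian p-group normalized by X and Q on which XQ acts faithfully. If q = 2 and r has the form 2^n + 1, assume in addition that Q is abelian. Then C_V(X) ≠ 1. -/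
theorem result {G : Type*} [Group G] [Finite G] {p q r : ℕ} (hp : p.Prime) (hq : q.Prime) (hr : r.Prime) (hpq : p ≠ q) (hpr : p ≠ r) (hqr : q ≠ r) (X Q V : Subgroup G) (hX : Nat.card X = r) (hQ : IsPGroup q Q) (hXQ : X ≤ Subgroup.normalizer (Q : Set G)) (hXfaith : X ⊓ Subgroup.centralizer (Q : Set G) = ⊥) (hV : Cfsg.IsElementaryAbelian p V) (hV1 : V ≠ ⊥) (hXV : X ≤ Subgroup.normalizer (V : Set G)) (hQV : Q ≤ Subgroup.normalizer (V : Set G)) (hfaith : (X ⊔ Q) ⊓ Subgroup.centralizer (V : Set G) = ⊥) (hexc : q = 2 → (∃ n : ℕ, r = 2 ^ n + 1) → IsMulCommutative Q) : V ⊓ Subgroup.centralizer (X : Set G) ≠ ⊥ := by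
  intro h
  have hQ' := FT.pGrp_of_isPGroup hq hQ
  have hX' := FT.pGrp_of_card_prime hr hX
  have lX : X ≤ X ⊔ Q := le_sup_left
  have lQ : Q ≤ X ⊔ Q := le_sup_right
  obtain ⟨k, _, _, W, _, _, _, Γ, _, _, ρ, f, hf, hk, hker, hfix⟩ := H1.exists_sec_rep hp bot_le (FT.norms_bot _)
    (sup_le hXV hQV) (FT.ab_iff_der.1 hV.1).le fun x hx => hV.2 x hx
  have hk0 : FT.pker f = ⊥ := eq_bot_iff.2 (hfaith ▸ le_inf (FT.pker_le f)
    (FT.comm_eq_bot'.1 (le_bot_iff.1 ((hker _ (FT.pker_le f)).1 le_rfl))))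
  have e : ∀ A, A ≤ X ⊔ Q → Nat.card (FT.pmap f A) = Nat.card A := fun A hA => FT.card_pmap_of_inf hA (by rw [hk0, bot_inf_eq])
  have := H1.prime_rfix0' hf (FT.pmap_norms f hXQ) (by rwa [e X lX, hX]) ((hQ'.cop_of_ne hX' hqr).pmap f)
    (hk _ fun h => hpq ((hQ'.pmap f).eq_prime hp h)) (hk _ fun h => hpr ((hX'.pmap f).eq_prime hp h))
    (hfix X lX (FT.cop_bot_left X) (Or.inl FT.sol_bot) h.le) fun m hm Y hY h2 => by
      by_cases h1 : Y = ⊥
      · exact h1 ▸ FT.ab_bot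
      · exact (FT.Ab.pmap (hexc (((hQ'.pmap f).mono hY).eq_of_pgrp h2 h1) ⟨m, by rwa [← hX, ← e X lX]⟩) f).mono hY
  rw [FT.pmap_cents_iff lX lQ, hk0, le_bot_iff, FT.comm_eq_bot] at this
  exact FT.ne_bot_of_prime_card (hX ▸ hr) (inf_eq_left.2 this ▸ hXfaith)

end Cfsg.Agent.S3765
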