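import Cfsg.Statements.S3768
import Mathlib
import Cfsg.Agent.H28.FrobBridge

set_option autoImplicit false
open Cfsg

namespace Cfsg.Agent.S3768

/-- Let G be a finite Frobenius group with Frobenius complement R and Frobenius kernel K (the identity together with the elements in no conjugate of R), and let N be a normal subgroup of G not containing K. Then G/N is a Frobenius group with Frobenius complement RN/N whose Frobenius kernel is the image of K. -/
theorem result {G : Type*} [Group G] [Finite G] (R : Subgroup G) (hR : Cfsg.IsFrobeniusComplement R) (N : Subgroup G) [N.Normal] (hKN : ¬ Cfsg.frobeniusKernel R ⊆ N) : Cfsg.IsFrobeniusComplement (R.map (QuotientGroup.mk' N)) ∧ Cfsg.frobeniusKernel (R.map (QuotientGroup.mk' N)) = QuotientGroup.mk' N '' Cfsg.frobeniusKernel R := by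
  obtain ⟨K, hK, hn, hc⟩ := H6.exists_frobeniusKernel R hR
  have hreg : H28.SemiReg K R := H6.fpf_of_isFrobeniusComplement hR hc.disjoint
  rw [← hK] at hKN ⊢
  have hKN' : ¬ K ≤ N := hKN
  have hnR : R ≤ Subgroup.normalizer (K : Set G) := Subgroup.le_normalizer_of_normal
  have hNK : N ≤ K := hreg.le_of_not_le hnR (hc.sup_eq_top ▸ le_top)
    Subgroup.le_normalizer_of_normal hKN'
  haveI : (K.map (QuotientGroup.mk' N)).Normal := hn.map _ (QuotientGroup.mk'_surjective N)
  have h := H28.isFrobeniusComplement_of_semiReg (K := K.map (QuotientGroup.mk' N))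
    (R := R.map (QuotientGroup.mk' N))
    ((hreg.map hnR _).resolve_right (by rwa [QuotientGroup.ker_mk']))
    (by rwa [Ne, Subgroup.map_eq_bot_iff, QuotientGroup.ker_mk'])
    (by
      rw [Ne, Subgroup.map_eq_bot_iff, QuotientGroup.ker_mk']
      intro h
      apply hR.1
      rw [eq_bot_iff, ← hreg.inf_eq_bot]
      exact le_inf (h.trans hNK) le_rfl)
    (by rw [← Subgroup.map_sup, hc.sup_eq_top, Subgroup.map_top_of_surjective _
      (QuotientGroup.mk'_surjective N)])
  exact ⟨h.1, by rw [h.2, Subgroup.coe_map]⟩

end Cfsg.Agent.S3768
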