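import Cfsg.Statements.S3769
import Mathlib
import Cfsg.Agent.H28.Extra2

set_option autoImplicit false
open Cfsg

namespace Cfsg.Agent.S3769

/-- Let G and V be subgroups of a finite group with G solvable of odd order normalizing V, V an elementary abelian ℓ-group for a prime ℓ not dividing the order of G, and suppose G has a normal Hall subgroup K with a complement R of prime order. If C_V(R) = 1, then [R, K] centralizes V. -/
theorem result {X : Type*} [Group X] [Finite X] (G : Subgroup X) (hsolv : Group.IsSolvable G) (hodd : Odd (Nat.card G)) (V : Subgroup X) {ℓ : ℕ} (hℓ : ℓ.Prime) (hV : Cfsg.IsElementaryAbelian ℓ V) (hℓG : ¬ ℓ ∣ Nat.card G) (hGV : G ≤ Subgroup.normalizer (V : Set X)) (K R : Subgroup X) (hKG : K ≤ G) (hKn : G ≤ Subgroup.normalizer (K : Set X)) (hHall : (Nat.card K).Coprime (K.relIndex G)) (hRG : R ≤ G) (hR : (Nat.card R).Prime) (hKR : K ⊓ R = ⊥) (hKRG : K ⊔ R = G) (hCV : V ⊓ Subgroup.centralizer (R : Set X) = ⊥) : ⁅R, K⁆ ≤ Subgroup.centralizer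 (V : Set X) := by
  haveI := Fact.mk hℓ
  haveI := hV.1
  have hp : IsPGroup ℓ V := fun v => ⟨1, Subtype.ext (by simpa using hV.2 v v.2)⟩
  obtain ⟨n, hn'⟩ := hp.exists_card_eq
  have hRK := hRG.trans hKn
  refine H28.odd_prime_cent1 hRK hR ?_ (hodd.of_dvd_nat (Subgroup.card_dvd_of_le hKG))
    (hodd.of_dvd_nat (Subgroup.card_dvd_of_le hRG)) (hKRG.le.trans hGV)
    (H1.isSolvable_of_isMulCommutative V) ?_ hCV
  · have h1 := H3.card_sup_mul_card_inf hRK
    rw [hKR, hKRG, Subgroup.card_bot, mul_one, ← H3.card_mul_relIndex hKG] at h1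
    rwa [← Nat.eq_of_mul_eq_mul_left Nat.card_pos h1]
  · rw [hKRG, hn']
    exact ((Nat.Prime.coprime_iff_not_dvd hℓ).2 hℓG).pow_left n

end Cfsg.Agent.S3769
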