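import Cfsg.Statements.S3770
import Mathlib
import Cfsg.Agent.H28.FrobBridge

set_option autoImplicit false
open Cfsg

namespace Cfsg.Agent.S3770

/-- Let G and V be subgroups of a finite group with G a Frobenius group with complement R of prime order and kernel K, G normalizing V, and V an elementary abelian ℓ-group for a prime ℓ not dividing the order of G. If C_V(R) has order ℓ, then the derived subgroup of K centralizes V. -/
theorem result {X : Type*} [Group X] [Finite X] (G : Subgroup X) (V : Subgroup X) {ℓ : ℕ} (hℓ : ℓ.Prime) (hV : Cfsg.IsElementaryAbelian ℓ V) (hℓG : ¬ ℓ ∣ Nat.card G) (hGV : G ≤ Subgroup.normalizer (V : Set X)) (R : Subgroup ↥G) (hR : Cfsg.IsFrobeniusComplement R) (hRp : (Nat.card R).Prime) (hCV : Nat.card ↥(V ⊓ Subgroup.centralizer ((R.map G.subtype : Subgroup X) : Set X)) = ℓ) : ⁅Subgroup.closure (Subtype.val '' Cfsg.frobeniusKernel R), Subgroup.closure (Subtype.val '' Cfsg.frobeniusKernel R)⁆ ≤ Subgroup.centralizer (V : Set X) := by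
  obtain ⟨K, hK, hs, hn, hreg, hc⟩ := H28.exists_kernel_of_frobenius hR
  rw [← hK, Subgroup.closure_eq]
  haveI := Fact.mk hℓ
  haveI := hV.1
  have hp : IsPGroup ℓ V := fun v => ⟨1, Subtype.ext (by simpa using hV.2 v v.2)⟩
  obtain ⟨n, hn'⟩ := hp.exists_card_eq
  refine H28.commutator_le_centralizer_of_isCyclic hn hreg (hs.le.trans hGV)
    (H1.isSolvable_of_isMulCommutative V) ?_ (isCyclic_of_prime_card hCV)
  rw [hs, hn']
  exact ((Nat.Prime.coprime_iff_not_dvd hℓ).2 hℓG).pow_left n

end Cfsg.Agent.S3770
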