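import Cfsg.Statements.S3772
import Mathlib
import Cfsg.Agent.H3.Extra

set_option autoImplicit false
open Cfsg

namespace Cfsg.Agent.S3772

/-- Let G be a finite 2-group whose Frattini subgroup Φ(G) has order 2, with |G : Φ(G)| = 2^d, and let j be the number of elements x of G with x² = 1. Then j = 2^d, or j = 2^d + 2^(d−r) or j = 2^d − 2^(d−r) for some positive integer r with 2r ≤ d. Moreover if d = 2r and j is 2^d + 2^r or 2^d − 2^r, then G is extraspecial. -/
theorem result {G : Type*} [Group G] [Finite G] (hG : IsPGroup 2 G) (hΦ : Nat.card (frattini G) = 2) (d : ℕ) (hd : (frattini G).index = 2 ^ d) : (Nat.card {x : G // x ^ 2 = 1} = 2 ^ d ∨ ∃ r : ℕ, 1 ≤ r ∧ 2 * r ≤ d ∧ (Nat.card {x : G // x ^ 2 = 1} = 2 ^ d + 2 ^ (d - r) ∨ Nat.card {x : G // x ^ 2 = 1} + 2 ^ (d - r) = 2 ^ d)) ∧ (∀ r : ℕ, d = 2 * r → (Nat.card {x : G // x ^ 2 = 1} = 2 ^ d + 2 ^ r ∨ Nat.card {x : G // x ^ 2 = 1} + 2 ^ r = 2 ^ d) → Cfsg.IsExtraspecial 2 G) := by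
  open Subgroup Cfsg.Agent.FT Cfsg.Agent.H3 in
  open scoped commutatorElement in
  · obtain ⟨z, hz, ho⟩ := exists_elt_of_prime_dvd (H := frattini G) Nat.prime_two hΦ.symm.dvd
    have e : frattini G = ⟪z⟫ := (eq_of_card_eq (zpowers_le.2 hz) (by rw [card_zpowers', ho, hΦ])).symm
    have h : X2 (⊤ : Subgroup G) z := ⟨⟨Nat.prime_two, ho, mem_top z,
      (center_top' (G := G) ▸ le_center_of_normal_card_p hG _ hΦ hz : z ∈ Z((⊤ : Subgroup G))).2,
      fun x _ y _ => e ▸ commutatorElement_mem_frattini hG x y⟩,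
      fun x _ => (mem_zpowers_two (ho ▸ pow_orderOf_eq_one z)).1 (e ▸ pow_mem_frattini hG x)⟩
    have hc : #(⊤ : Subgroup G) = 2 * 2 ^ d := by rw [card_top', ← (frattini G).card_mul_index, hΦ, hd]
    rw [← nsq_top]
    rcases h.dl_cases with ⟨-, h1⟩ | ⟨h0, r, h1, h2⟩
    · simp only [dl, hc] at h1
      have h2 : nsq (⊤ : Subgroup G) = 2 ^ d := by zify; push_cast at h1; omega
      refine ⟨.inl h2, fun r _ h3 => ?_⟩
      have : 0 < 2 ^ r := by positivity
      omega
    obtain ⟨k, hk⟩ := ((pGrp_top hG).mono (inf_le_left : Z((⊤ : Subgroup G)) ≤ ⊤)).card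
    obtain ⟨j, rfl⟩ : ∃ j, k = j + 1 := by
      refine Nat.exists_eq_add_one_of_ne_zero ?_
      rintro rfl
      have := card_le h.zle_center
      rw [h.card_z] at this
      omega
    have hr : r ≠ 0 := by
      rintro rfl
      have h3 : Z((⊤ : Subgroup G)) = ⊤ := eq_of_card_eq le_top (by simpa using h1.symm)
      have : frattini G = ⊥ := (frattini_eq_bot_iff hG).2
        ⟨isMulCommutative_top_iff.1 (h3 ▸ ab_center _), fun x => h0 x (h3.symm ▸ mem_top x)⟩
      simp [this] at hΦ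
    rw [hk] at h2
    rw [hk, hc, ← pow_add, ← pow_succ'] at h1
    obtain rfl : d = 2 * r + j := by have := Nat.pow_right_injective le_rfl h1; omega
    have h3 : nsq (⊤ : Subgroup G) = 2 ^ (2 * r + j) + 2 ^ (r + j) ∨
        nsq (⊤ : Subgroup G) + 2 ^ (r + j) = 2 ^ (2 * r + j) := by
      simp only [dl, hc] at h2
      push_cast at h2
      rw [← pow_add, ← add_assoc, pow_succ] at h2
      zify
      omega
    refine ⟨.inr ⟨r, by omega, by omega, by rwa [show 2 * r + j - r = r + j by omega]⟩, fun s hs h4 => ?_⟩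
    have : 0 < 2 ^ s := by positivity
    have : 0 < 2 ^ (r + j) := by positivity
    have := Nat.pow_right_injective le_rfl (show 2 ^ s = 2 ^ (r + j) by omega)
    obtain rfl : j = 0 := by omega
    have h5 : XS 2 (⊤ : Subgroup G) z := ⟨h.toXC, (eq_of_card_eq h.zle_center (h.card_z.trans hk.symm)).symm⟩
    exact h5.isExtraspecial_top (h5.not_ab_of_card (n := r) (by omega) (by rw [hc, pow_succ']; rfl))

end Cfsg.Agent.S3772
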