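import Cfsg.Statements.S3773
import Mathlib
import Cfsg.Agent.H27.Quad
import Cfsg.Agent.H27.Misc
import Cfsg.Agent.H1.Prim

set_option autoImplicit false
open Cfsg

namespace Cfsg.Agent.S3773

open Subgroup Cfsg.Agent.FT
open scoped commutatorElement

/-- Let G be a finite 2-group of nilpotency class at most 2 and exponent dividing 4 in which the elements x with x² = 1 form a subgroup N. Then |G| ≤ |N|³, and |G| < |N|³ unless G is special. -/
theorem result {G : Type*} [Group G] [Finite G] (hG : IsPGroup 2 G) (hcl : (⊤ : Subgroup G).lowerCentralSeries 2 = ⊥) (hexp : ∀ x : G, x ^ 4 = 1) (hN : ∀ x y : G, x ^ 2 = 1 → y ^ 2 = 1 → (x * y) ^ 2 = 1) : Nat.card G ≤ Nat.card {x : G // x ^ 2 = 1} ^ 3 ∧ (¬ Cfsg.IsSpecial 2 G → Nat.card G < Nat.card {x : G // x ^ 2 = 1} ^ 3) := by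
  classical
  have hP : PGrp 2 (⊤ : Subgroup G) := pGrp_of_isPGroup Nat.prime_two (hG.to_subgroup ⊤)
  let N : Subgroup G :=
    { carrier := {x | x ^ 2 = 1}
      mul_mem' := fun {a b} ha hb => hN a b ha hb
      one_mem' := one_pow 2
      inv_mem' := fun {a} ha => by
        change a⁻¹ ^ 2 = 1
        rw [inv_pow, ha, inv_one] }
  have hm : ∀ x, x ^ 2 = 1 ↔ x ∈ N := fun x => Iff.rfl
  change Nat.card G ≤ #N ^ 3 ∧ (_ → Nat.card G < #N ^ 3)
  clear_value N
  have hsqN : ∀ x : G, x ^ 2 ∈ N := fun x => (hm _).1 (by rw [← pow_mul]; exact hexp x)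
  have hZ : ⁅(⊤ : Subgroup G), ⊤⁆ ≤ center G := fun x hx =>
    mem_center_iff.2 fun g => comm_eq_bot.1 hcl hx g (mem_top _)
  have hAZ : ℧[2]((⊤ : Subgroup G)) ≤ Z((⊤ : Subgroup G)) := Mho_le_iff.2 fun x _ =>
    ⟨mem_top _, fun g _ => by
      rw [eq_comm, ← commutatorElement_eq_one_iff_mul_comm, sq, H27.comm_mul_left_of_central
        (hZ (commutator_mem_commutator (mem_top _) (mem_top _))), ← sq]
      exact (hm _).2 (H27.comm_mem_of_sq (H := ⊤) (fun x _ => hsqN x) (mem_top _) (mem_top _))⟩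
  have hAN : ℧[2]((⊤ : Subgroup G)) ≤ N := Mho_le_iff.2 fun x _ => hsqN x
  have hsq : ∀ x ∈ (⊤ : Subgroup G), x ^ 2 ∈ ℧[2]((⊤ : Subgroup G)) := fun x => pow_mem_Mho 2
  have hder : ⁅(⊤ : Subgroup G), ⊤⁆ ≤ ℧[2]((⊤ : Subgroup G)) :=
    commutator_le.2 fun x hx u hu => H27.comm_mem_of_sq hsq hx hu
  have hΦ : Phi ⊤ = ℧[2]((⊤ : Subgroup G)) := by rw [hP.Phi_eq Nat.prime_two, sup_eq_right.2 hder]
  generalize ℧[2]((⊤ : Subgroup G)) = A at hAZ hAN hsq hder hΦ
  have h1 := Nat.le_of_dvd (mul_pos (pow_pos (card_pos A) 2) (card_pos N))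
    (H27.card_dvd_sq_mul hAZ hsq hAN le_top fun x _ => hm x)
  rw [card_top'] at h1
  have hpos := card_pos N
  refine ⟨h1.trans (by rw [pow_succ _ 2]; gcongr; exact card_le hAN), fun hns => ?_⟩
  rcases hAN.lt_or_eq with hlt | rfl
  · exact h1.trans_lt (by rw [pow_succ _ 2]; gcongr; exact card_lt hlt)
  by_cases hZA : Z((⊤ : Subgroup G)) ≤ A
  · have hlt : ⁅(⊤ : Subgroup G), ⊤⁆ < A := lt_of_le_of_ne hder fun e => hns ⟨hG, by
      rw [H27.center_eq_Z, ← H1.Phi_top, hΦ]; exact le_antisymm hAZ hZA, by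
      rw [H27.center_eq_Z, commutator_def, e]; exact le_antisymm hAZ hZA⟩
    obtain ⟨B, hB, hBA, hi⟩ := (hP.mono le_top).exists_relIndex_p hlt
    have hc : ∀ x u : G, ⁅x, u⁆ ∈ B := fun x u =>
      hB (commutator_mem_commutator (mem_top _) (mem_top _))
    let H : Subgroup G :=
      { carrier := {x | x ^ 2 ∈ B}
        mul_mem' := fun {a b} ha hb => by
          change _ ∈ B
          rw [H27.mul_sq_eq]
          exact mul_mem (mul_mem ha (hc _ _)) hb
        one_mem' := by simp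
        inv_mem' := fun {a} ha => by
          change _ ∈ B
          rw [inv_pow]; exact inv_mem ha }
    have h2 := Nat.le_of_dvd (mul_pos (pow_pos (card_pos B) 2) (card_pos A))
      (H27.card_dvd_sq_mul (H := H) (A := B) (N := A)
        (le_inf (fun x hx => by
          change _ ∈ B
          exact pow_mem hx 2) (centsS le_top (hBA.le.trans (hAZ.trans inf_le_right))))
        (fun x hx => hx) hBA.le (fun x hx => by
          change _ ∈ B
          rw [(hm x).2 hx]; exact one_mem _) fun x _ => hm x)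
    have h3 : H.index ≤ 2 := by
      by_cases h : H = ⊤
      · simp [h]
      obtain ⟨a, -, ha⟩ := SetLike.exists_of_lt (lt_top_iff_ne_top.2 h)
      refine (index_eq_two_iff.2 ⟨a, fun b => ?_⟩).le
      have := mul_mem_iff_of_index_two (H := B.subgroupOf A) hi (a := ⟨_, hsqN b⟩)
        (b := ⟨_, hsqN a⟩)
      have e : b * a ∈ H ↔ b ^ 2 * a ^ 2 ∈ B := by
        change _ ∈ B ↔ _
        rw [H27.mul_sq_eq, mul_assoc, mem_center_iff.1 (hZ (commutator_mem_commutator (mem_top _)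
          (mem_top _))) _ |>.symm, ← mul_assoc, mul_mem_cancel_right (hc _ _)]
      change b ^ 2 * a ^ 2 ∈ B ↔ (b ∈ H ↔ a ∈ H) at this
      rw [e, this]
      by_cases hb : b ∈ H <;> simp [Xor, hb, ha]
    have h4 := card_mul_relIndex hBA.le
    have h5 := H.card_mul_index
    have h6 := card_pos B
    rw [hi] at h4
    rw [← h4] at h2
    rw [← h5, ← h4]
    nlinarith [Nat.mul_le_mul h2 h3, pow_pos h6 3]
  obtain ⟨z, hz, hzA⟩ := SetLike.not_le_iff_exists.1 hZA
  obtain ⟨H, hH, hzH⟩ : ∃ H, MaxIn H ⊤ ∧ z ∉ H := by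
    by_contra h
    push Not at h
    exact hzA (hΦ ▸ le_Phi le_top (fun H hH => zpowers_le.2 (h H hH)) (mem_zpowers z))
  have hAH : A ≤ H := hΦ ▸ hH.Phi_le
  have hK : ⟪z ^ 2⟫ ≤ A := zpowers_le.2 (hsqN z)
  have hKn : ∀ X : Subgroup G, X ≤ N(⟪z ^ 2⟫) := fun X =>
    le_top.trans (nml_of_le_center (hK.trans hAZ)).nrm
  have ho : orderOf (z ^ 2) = 2 := orderOf_eq_prime (by rw [← pow_mul]; exact hexp z)
    fun e => hzA ((hm z).1 e)
  have h2 := Nat.le_of_dvd (pow_pos (card_pos _) 3) (H27.card_dvd_cube (H := H /ₛ ⟪z ^ 2⟫)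
    (A := A /ₛ ⟪z ^ 2⟫) (le_inf (quo_mono _ hAH)
      (quo_cents _ (centsS le_top (hAZ.trans inf_le_right)))) (fun u hu => by
      obtain ⟨x, -, hx, rfl⟩ := mem_quo.1 hu
      rw [← coset_pow hx]
      exact mem_quo_of_mem (pow_mem hx 2) (hsqN x)) fun u hu => by
      obtain ⟨x, hxH, hx, rfl⟩ := mem_quo.1 hu
      rw [← coset_pow hx, coset_eq_one_iff (pow_mem hx 2), coset_mem_quo_iff hx (hKn _),
        sup_eq_right.2 hK]
      refine ⟨fun h => (hm x).1 (by_contra fun h1 => hzH ?_),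
        fun h => by rw [(hm x).2 h]; exact one_mem _⟩
      have e : x ^ 2 = z ^ 2 := by
        obtain ⟨k, hk, e⟩ := Finset.mem_image.1 (mem_zpowers_iff_mem_range_orderOf.1 h)
        rw [ho, Finset.mem_range] at hk
        interval_cases k
        · exact absurd (e.symm.trans (pow_zero _)) h1
        · exact e.symm.trans (pow_one _)
      refine (mul_mem_cancel_left hxH).1 (hAH ((hm _).1 ?_))
      rw [Commute.mul_pow (hz.2 x (mem_top _)), e, ← pow_add]
      exact hexp z)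
  have h3 := card_quo_mul (K := ⟪z ^ 2⟫) ⟨hK.trans hAH, hKn H⟩
  have h4 := card_quo_mul (K := ⟪z ^ 2⟫) ⟨hK, hKn A⟩
  have h5 := card_mul_relIndex (le_top (a := H))
  rw [card_zpowers', ho] at h3 h4
  rw [hP.maxIn_relIndex hH, card_top'] at h5
  rw [← h5, ← h4, ← h3]
  nlinarith [pow_pos (card_pos (A /ₛ ⟪z ^ 2⟫)) 3]

end Cfsg.Agent.S3773
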