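import Cfsg.Statements.S3774
import Mathlib
import Cfsg.Agent.H27.Count

set_option autoImplicit false
open Cfsg

namespace Cfsg.Agent.S3774

open Subgroup

/-- Let G be a nontrivial finite 2-group whose automorphism group permutes the involutions of G transitively. Then every involution of G is central, so that the involutions together with 1 form the subgroup Ω₁(Z(G)), and if this subgroup has order q then |G| is a power of q. -/
theorem result {G : Type*} [Group G] [Finite G] [Nontrivial G] (hG : IsPGroup 2 G) (htrans : ∀ x y : G, x ≠ 1 → x ^ 2 = 1 → y ≠ 1 → y ^ 2 = 1 → ∃ a : MulAut G, a x = y) : (∀ x : G, x ^ 2 = 1 → x ∈ Subgroup.center G) ∧ ∃ m : ℕ, Nat.card G = Nat.card {z : G // z ^ 2 = 1} ^ m := by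
  haveI := Fact.mk Nat.prime_two
  haveI := hG.center_nontrivial
  obtain ⟨⟨z, hz⟩, hzo⟩ := exists_prime_orderOf_dvd_card' (G := center G) 2 (by
    obtain ⟨n, hn, e⟩ := (hG.to_subgroup (center G)).nontrivial_iff_card.1 inferInstance
    rw [e]; exact dvd_pow_self _ hn.ne')
  rw [orderOf_mk] at hzo
  have hz1 : z ≠ 1 := fun e => by simp [e] at hzo
  have hz2 : z ^ 2 = 1 := hzo ▸ pow_orderOf_eq_one z
  have hc : ∀ x : G, x ^ 2 = 1 → x ∈ center G := fun x hx => by
    by_cases h1 : x = 1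
    · exact h1 ▸ one_mem _
    obtain ⟨a, rfl⟩ := htrans z x hz1 hz2 h1 hx
    refine mem_center_iff.2 fun g => ?_
    obtain ⟨g, rfl⟩ := a.surjective g
    rw [← map_mul, ← map_mul, mem_center_iff.1 hz g]
  refine ⟨hc, ?_⟩
  let N : Subgroup G :=
    { carrier := {x | x ^ 2 = 1}
      mul_mem' := fun {a b} ha hb => by
        change (a * b) ^ 2 = 1
        rw [Commute.mul_pow (mem_center_iff.1 (hc b hb) a), ha, hb, mul_one]
      one_mem' := one_pow 2
      inv_mem' := fun {a} ha => by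
        change a⁻¹ ^ 2 = 1
        rw [inv_pow, ha, inv_one] }
  obtain ⟨n, hn⟩ := IsPGroup.iff_card.1 (hG.to_subgroup N)
  obtain ⟨s, hs⟩ := IsPGroup.iff_card.1 hG
  have key := H27.cast_ncard_of_fibers (R := ℕ) (S := (Set.univ : Set G) \ {1})
    (T := (N : Set G) \ {1}) (fun x => x ^ (orderOf x / 2))
    (c := {a | a ∈ (Set.univ : Set G) \ {1} ∧ a ^ (orderOf a / 2) = z}.ncard) (fun a ha => by
      obtain ⟨k, hk⟩ := hG.exists_orderOf_eq_pow a
      obtain _ | k := k
      · exact absurd (orderOf_eq_one_iff.1 hk) ha.2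
      have e : orderOf a / 2 = 2 ^ k := by rw [hk, pow_succ, Nat.mul_div_cancel _ two_pos]
      refine ⟨?_, fun h => ?_⟩
      · change _ ^ 2 = 1
        rw [← pow_mul, e, ← pow_succ, ← hk, pow_orderOf_eq_one]
      · have := orderOf_dvd_of_pow_eq_one h
        rw [e, hk, Nat.pow_dvd_pow_iff_le_right one_lt_two] at this
        omega) (fun b hb => by
      obtain ⟨a, rfl⟩ := htrans z b hz1 hz2 hb.2 hb.1
      rw [Nat.cast_id, ← Set.ncard_image_of_injective {a : G | a ∈ _ ∧ _ = z} a.injective]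
      congr 1
      ext x
      obtain ⟨x, rfl⟩ := a.surjective x
      simp [← map_pow])
  have e1 : (N : Set G).ncard = 2 ^ n := hn
  rw [Nat.cast_id, Nat.cast_id, Set.ncard_sdiff_singleton_of_mem (Set.mem_univ _),
    Set.ncard_sdiff_singleton_of_mem N.one_mem, Set.ncard_univ, hs, e1] at key
  have h1 := Nat.pow_sub_one_gcd_pow_sub_one 2 n s
  rw [Nat.gcd_eq_left ⟨_, key.trans (mul_comm _ _)⟩] at h1
  have h2 : 2 ^ n = 2 ^ n.gcd s := by
    have := Nat.two_pow_pos n
    have := Nat.two_pow_pos (n.gcd s)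
    omega
  obtain ⟨m, hm⟩ := Nat.gcd_dvd_right n s
  refine ⟨m, ?_⟩
  change _ = Nat.card N ^ m
  rw [hn, h2, ← pow_mul, ← hm, hs]

end Cfsg.Agent.S3774
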