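import Cfsg.Statements.S3775
import Mathlib
import Cfsg.Agent.H27.Homo
import Cfsg.Agent.H3.Aut

set_option autoImplicit false
open Cfsg

namespace Cfsg.Agent.S3775

open Subgroup Cfsg.Agent.FT

/-- Let A be a finite abelian p-group and X a group of automorphisms of A of order prime to p. Call a subgroup of A invariant when every element of X maps it onto itself. Then the following are equivalent: (i) A is not the direct product of two nontrivial invariant subgroups; (ii) every invariant subgroup of A is one of the subgroups Ω_i(A) = {a : a^(p^i) = 1}; (iii) the subgroup Ω₁(A) of elements of order dividing p has no invariant subgroups other than 1 and itself. -/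
theorem result {A : Type*} [CommGroup A] [Finite A] {p : ℕ} [Fact p.Prime] (hA : IsPGroup p A) (X : Subgroup (MulAut A)) (hX : (Nat.card X).Coprime p) : ((¬ ∃ B C : Subgroup A, B ≠ ⊥ ∧ C ≠ ⊥ ∧ (∀ x ∈ X, B.map x.toMonoidHom = B) ∧ (∀ x ∈ X, C.map x.toMonoidHom = C) ∧ B ⊓ C = ⊥ ∧ B ⊔ C = ⊤) ↔ (∀ B : Subgroup A, (∀ x ∈ X, B.map x.toMonoidHom = B) → ∃ i : ℕ, ∀ a : A, a ∈ B ↔ a ^ p ^ i = 1)) ∧ ((∀ B : Subgroup A, (∀ x ∈ X, B.map x.toMonoidHom = B) → ∃ i : ℕ, ∀ a : A, a ∈ B ↔ a ^ p ^ i = 1) ↔ (∀ B : Subgroup A, (∀ x ∈ X, B.map x.toMonoidHom = B) → (∀ b ∈ B, b ^ p = 1) → B = ⊥ ∨ ∀ a : A, a ∈ B ↔ a ^ p = 1)) := by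
  classical
  have hp : p.Prime := Fact.out
  have inv_iff : ∀ B : Subgroup A, (∀ x ∈ X, B.map x.toMonoidHom = B) ↔
      ∀ x ∈ X, ∀ b ∈ B, x b ∈ B := fun B => forall₂_congr fun x _ =>
    ⟨fun h b hb => h ▸ mem_map_of_mem _ hb, fun h => eq_of_card_eq
      (by rintro _ ⟨b, hb, rfl⟩; exact h b hb) (card_map_inj x.injective B)⟩
  simp only [inv_iff]
  have hne : ∀ B : Subgroup A, B ≠ ⊥ → ∃ b ∈ B, b ≠ 1 ∧ b ^ p = 1 := fun B hB => by
    obtain ⟨b, hb, e⟩ := (pGrp_of_isPGroup hp (hA.to_subgroup B)).exists_elt hB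
    exact ⟨b, hb, fun h => hp.ne_one (by rw [← e, h, orderOf_one]), e ▸ pow_orderOf_eq_one b⟩
  refine (fun {P Q R : Prop} (h13 : P → R) (h32 : R → Q) (h23 : Q → R) (h31 : R → P) =>
    (⟨⟨fun h => h32 (h13 h), fun h => h31 (h23 h)⟩, h23, h32⟩ : (P ↔ Q) ∧ (Q ↔ R))) ?_ ?_ ?_ ?_
  · intro h B hB hBp
    have hn : ∀ U : Subgroup A, H3.holR (⊤ : Subgroup X) ≤ N(H3.holL X U) ↔
        ∀ x ∈ X, ∀ b ∈ U, x b ∈ U := fun U =>
      ⟨fun h x hx b hb => H3.apply_mem_of_inr_mem_normalizer (γ := ⟨x, hx⟩)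
        (h (mem_map_of_mem _ (mem_top _))) hb, fun h => by
        rintro _ ⟨x, -, rfl⟩
        exact H3.inr_mem_normalizer_holL (h x x.2)⟩
    have hab : Ab (H3.holL X ⊤) := Ab.map _ (FT.ab_top.2 inferInstance)
    rcases H27.exists_dp_or_irr hp hab (pGrp_of_isPGroup hp (H3.isPGroup_holL hA ⊤))
      (X := H3.holR (⊤ : Subgroup X)) (p'grp_of_not_dvd (by
        rw [H3.card_holR, card_top]
        exact (Nat.Prime.coprime_iff_not_dvd hp).1 hX.symm)) ((hn ⊤).2 fun _ _ _ _ => mem_top _) with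
      ⟨B', C', h1, h2, h3, h4, h5⟩ | h1
    · obtain ⟨B', rfl⟩ := H3.exists_holL_eq h5.left
      obtain ⟨C', rfl⟩ := H3.exists_holL_eq h5.right
      refine absurd ⟨B', C', fun e => h1 (by rw [e]; exact Subgroup.map_bot _),
        fun e => h2 (by rw [e]; exact Subgroup.map_bot _), (hn _).1 h3, (hn _).1 h4,
        H3.holL_injective (Γ := X) ?_, H3.holL_injective (Γ := X) ?_⟩ h
      · exact (map_inf_eq _ _ _ SemidirectProduct.inl_injective).trans
          (h5.inf.trans (Subgroup.map_bot _).symm)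
      · exact (Subgroup.map_sup _ _ _).trans h5.sup
    · rw [← map_Ohm_inj SemidirectProduct.inl_injective] at h1
      refine (h1 (H3.holL X B) (map_mono (le_Ohm le_top hBp)) ((hn B).2 hB)).imp
        (fun e => H3.holL_injective (Γ := X) (e.trans (Subgroup.map_bot _).symm)) fun e a => ?_
      rw [H3.holL_injective e, (FT.ab_top.2 inferInstance).mem_Ohm_iff]
      simp
  · intro h B hB
    have hex : ∃ i, ∀ b ∈ B, b ^ p ^ i = 1 := by
      obtain ⟨k, hk⟩ := IsPGroup.iff_card.1 hA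
      exact ⟨k, fun a _ => hk ▸ pow_card_eq_one'⟩
    have he := Nat.find_spec hex
    have hmin := @Nat.find_min _ _ hex
    generalize Nat.find hex = i at he hmin
    have key : ∀ j ≤ i, ∀ a : A, a ^ p ^ j = 1 → a ∈ B := by
      intro j
      induction j with
      | zero => exact fun _ a ha => by rw [show a = 1 by simpa using ha]; exact one_mem _
      | succ j ih =>
        intro hj a ha
        obtain ⟨k, rfl⟩ := Nat.exists_eq_add_of_le hj
        have h1 := hmin (m := k + j) (by omega)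
        push Not at h1
        obtain ⟨b, hb, hb1⟩ := h1
        have h2 := (h ((B ⊓ (powMonoidHom (p ^ (j + 1))).ker).map (powMonoidHom (p ^ j))) (by
          rintro x hx _ ⟨c, hc, rfl⟩
          refine ⟨x c, ⟨hB x hx c hc.1, ?_⟩, (map_pow _ _ _).symm⟩
          change x c ^ _ = 1
          rw [← map_pow, show c ^ _ = 1 from hc.2, map_one]) (by
          rintro _ ⟨c, hc, rfl⟩
          rw [powMonoidHom_apply, ← pow_mul, ← pow_succ]
          exact hc.2)).resolve_left (ne_bot_of_mem ⟨b ^ p ^ k, ⟨pow_mem hb _, by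
            change (b ^ p ^ k) ^ p ^ (j + 1) = 1
            rw [← pow_mul, ← pow_add, add_comm, he b hb]⟩, rfl⟩ (by
            rwa [powMonoidHom_apply, ← pow_mul, ← pow_add]))
        obtain ⟨c, hc, e⟩ := (h2 (a ^ p ^ j)).2 (by rwa [← pow_mul, ← pow_succ])
        refine (B.mul_mem_cancel_left (B.inv_mem hc.1)).1 (ih (by omega) _ ?_)
        rw [mul_pow, ← e, powMonoidHom_apply, inv_pow, inv_mul_cancel]
    exact ⟨i, fun a => ⟨he a, key i le_rfl a⟩⟩
  · intro h B hB hBp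
    obtain ⟨i, hi⟩ := h B hB
    obtain _ | i := i
    · exact Or.inl (eq_bot_iff.2 fun a ha => by simpa using (hi a).1 ha)
    · exact Or.inr fun a => ⟨hBp a, fun ha => (hi a).2 (by rw [pow_succ', pow_mul, ha, one_pow])⟩
  · rintro h ⟨B, C, h1, h2, h3, h4, h5, -⟩
    obtain ⟨b, hb, hb1, hbp⟩ := hne B h1
    obtain ⟨c, hc, hc1, hcp⟩ := hne C h2
    have := (h (C ⊓ (powMonoidHom p : A →* A).ker) (fun x hx c hc => ⟨h4 x hx c hc.1, by
      change x c ^ _ = 1
      rw [← map_pow, show c ^ _ = 1 from hc.2, map_one]⟩) fun c hc => hc.2).resolve_left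
      (ne_bot_of_mem ⟨hc, hcp⟩ hc1)
    exact hb1 (eq_one_of_mem_inf h5 hb ((this b).2 hbp).1)

end Cfsg.Agent.S3775
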