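import Cfsg.Statements.S3778
import Mathlib
import Cfsg.Agent.FT.Nil

set_option autoImplicit false
open Cfsg

namespace Cfsg.Agent.S3778

open Subgroup Cfsg.Agent.FT
open scoped commutatorElement

def D {G : Type*} [Group G] (N : Subgroup G) [N.Normal] (S : Set G) : Subgroup G :=
  (centralizer (QuotientGroup.mk' N '' S)).comap (QuotientGroup.mk' N)

theorem mem_D {G : Type*} [Group G] {N : Subgroup G} [N.Normal] {S : Set G} {x : G} :
    x ∈ D N S ↔ ∀ g ∈ S, ⁅g, x⁆ ∈ N := by
  simp only [D, mem_comap, mem_centralizer_iff, Set.forall_mem_image]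
  refine forall₂_congr fun g _ => ?_
  rw [← QuotientGroup.eq_one_iff, ← QuotientGroup.mk'_apply, map_commutatorElement,
    commutatorElement_eq_one_iff_mul_comm]

/-- If G is a finite p-group in which every conjugacy class has at most p^b elements (every element has centralizer of index at most p^b), then G is abelian when b = 0, and when b ≥ 1 its nilpotency class c satisfies (c − 1)(p − 1) < bp, that is c < bp/(p − 1) + 1, and hence c ≤ 2b. -/
theorem result {G : Type*} [Group G] [Finite G] {p : ℕ} [Fact p.Prime] (hG : IsPGroup p G) (b : ℕ) (hb : ∀ x : G, (Subgroup.centralizer ({x} : Set G)).index ≤ p ^ b) : ∃ c : ℕ, (⊤ : Subgroup G).lowerCentralSeries c = ⊥ ∧ (b ≠ 0 → (c - 1) * (p - 1) < b * p ∧ c ≤ 2 * b) ∧ (b = 0 → c ≤ 1) := by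
  classical
  have hp : p.Prime := Fact.out
  haveI := hG.isNilpotent
  haveI := Fintype.ofFinite G
  have hP : PGrp p (⊤ : Subgroup G) := pGrp_of_isPGroup hp (hG.to_subgroup ⊤)
  set L := (⊤ : Subgroup G).lowerCentralSeries with hL
  set c := Group.nilpotencyClass G
  have hc : L c = ⊥ := Subgroup.lowerCentralSeries_nilpotencyClass
  let K : ℕ → Subgroup G := fun i => D (L (i + 2)) (L i)
  let f : G → ℕ → ℕ := fun x n => ((Finset.range n).filter fun i => x ∉ K i).card
  have hf : ∀ x n, p ^ f x n * #(D (L (n + 1)) {x}) ≤ Nat.card G := by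
    intro x n
    induction n with
    | zero => exact (one_mul _).trans_le (card_le_card_group _)
    | succ n ih =>
      have hle : D (L (n + 2)) {x} ≤ D (L (n + 1)) {x} := fun g hg => mem_D.2 fun y hy =>
        Subgroup.lowerCentralSeries_antitone _ (Nat.le_succ _) (mem_D.1 hg y hy)
      by_cases hx : x ∈ K n
      · have : f x (n + 1) = f x n := by
          simp only [f, Finset.range_add_one, Finset.filter_insert, hx, not_true, if_false]
        rw [this]
        exact (Nat.mul_le_mul_left _ (card_le_of_le hle)).trans ih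
      · have : f x (n + 1) = f x n + 1 := by
          simp only [f, Finset.range_add_one, Finset.filter_insert, hx, not_false_iff, if_true]
          exact Finset.card_insert_of_notMem (by simp)
        rw [this, pow_succ, mul_assoc]
        refine (Nat.mul_le_mul_left _ ((hP.mono le_top).mul_card_le
          (lt_of_le_of_ne hle fun e => hx (mem_D.2 fun g hg => ?_)))).trans ih
        have h1 : g ∈ D (L (n + 1)) {x} := mem_D.2 (by
          rintro _ rfl
          rw [← commutatorElement_inv]
          exact inv_mem (commutator_mem_commutator hg (mem_top _)))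
        rw [← e] at h1
        rw [← commutatorElement_inv]
        exact inv_mem (mem_D.1 h1 x rfl)
  have hfb : ∀ x, f x (c - 1) ≤ b := fun x => by
    have h1 : C[x] ≤ D (L (c - 1 + 1)) {x} := fun g hg => mem_D.2 (by
      rintro _ rfl
      rw [commutatorElement_eq_one_iff_mul_comm.2 (mem_cen1.1 hg).symm]
      exact one_mem _)
    have h2 := (Nat.mul_le_mul_left _ (card_le_of_le h1)).trans (hf x (c - 1))
    rw [← C[x].index_mul_card] at h2
    exact (Nat.pow_le_pow_iff_right hp.one_lt).1
      ((Nat.le_of_mul_le_mul_right h2 Nat.card_pos).trans (hb x))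
  have hK : ∀ i ∈ Finset.range (c - 1),
      (p - 1) * Nat.card G ≤ p * (Finset.univ.filter fun x => x ∉ K i).card := fun i hi => by
    have h1 : K i < ⊤ := lt_top_iff_ne_top.2 fun e => by
      have h2 : L (i + 1) ≤ L (i + 2) := commutator_le.2 fun g hg x _ =>
        mem_D.1 (e ▸ mem_top x : x ∈ K i) g hg
      have h3 : L (i + 1) ≠ ⊥ := fun e => by
        have := Subgroup.lowerCentralSeries_eq_bot_iff_nilpotencyClass_le.1 e
        have := Finset.mem_range.1 hi
        omega
      exact (hP.comm_lt (hP.mono le_top) (nml_top_iff.2 inferInstance).nrm h3).not_ge h2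
    have h2 := hP.mul_card_le h1
    have h3 := Finset.card_filter_add_card_filter_not (s := Finset.univ) fun x => x ∈ K i
    have h4 : (Finset.univ.filter fun x => x ∈ K i).card = #(K i) := by
      rw [Nat.card_eq_fintype_card, Fintype.card_subtype]
    rw [h4, Finset.card_univ, ← Nat.card_eq_fintype_card] at h3
    rw [card_top] at h2
    obtain ⟨q, rfl⟩ : ∃ q, p = q + 1 := ⟨p - 1, (Nat.sub_add_cancel hp.pos).symm⟩
    rw [Nat.add_sub_cancel]
    nlinarith
  have h1 : (c - 1) * ((p - 1) * Nat.card G) ≤ p * ∑ x, f x (c - 1) := by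
    have : ∑ x, f x (c - 1) =
        ∑ i ∈ Finset.range (c - 1), (Finset.univ.filter fun x => x ∉ K i).card := by
      simp only [f, Finset.card_filter]
      exact Finset.sum_comm
    rw [this, Finset.mul_sum]
    simpa using Finset.sum_le_sum hK
  have h2 : ∑ x, f x (c - 1) + b ≤ b * Nat.card G := by
    have h3 : f 1 (c - 1) = 0 := by simp [f, one_mem]
    rw [← Finset.add_sum_erase _ _ (Finset.mem_univ 1), h3, zero_add]
    have h4 := Finset.sum_le_card_nsmul (Finset.univ.erase (1 : G)) (fun x => f x (c - 1)) b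
      fun x _ => hfb x
    rw [Finset.card_erase_of_mem (Finset.mem_univ _), Finset.card_univ, smul_eq_mul,
      ← Nat.card_eq_fintype_card] at h4
    obtain ⟨m, hm⟩ : ∃ m, Nat.card G = m + 1 := ⟨_, (Nat.sub_add_cancel Nat.card_pos).symm⟩
    rw [hm] at h4 ⊢
    rw [Nat.add_sub_cancel] at h4
    nlinarith
  have h3 : (c - 1) * (p - 1) * Nat.card G + p * b ≤ b * p * Nat.card G := by nlinarith
  have h4 := hp.two_le
  have h5 : 0 < Nat.card G := Nat.card_pos
  refine ⟨c, hc, fun h0 => ?_, fun h0 => ?_⟩
  · have h6 : (c - 1) * (p - 1) < b * p := by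
      refine lt_of_mul_lt_mul_right (lt_of_lt_of_le ?_ h3) h5.le
      have := Nat.mul_pos hp.pos (Nat.pos_of_ne_zero h0)
      omega
    refine ⟨h6, ?_⟩
    obtain ⟨q, rfl⟩ : ∃ q, p = q + 2 := ⟨p - 2, by omega⟩
    by_contra h7
    obtain ⟨d, hd⟩ : ∃ d, c - 1 = 2 * b + d := ⟨c - 1 - 2 * b, by omega⟩
    rw [hd, show q + 2 - 1 = q + 1 from rfl] at h6
    nlinarith
  · subst h0
    simp only [mul_zero, add_zero, zero_mul, nonpos_iff_eq_zero, mul_eq_zero] at h3
    omega

end Cfsg.Agent.S3778
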