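import Cfsg.Statements.S3780
import Mathlib
import Cfsg.Agent.H1.Alperin
import Cfsg.Agent.H3.Frattini

set_option autoImplicit false
open Cfsg

namespace Cfsg.Agent.S3780

open Cfsg.Agent.FT Cfsg.Agent.H1 Subgroup

/-- Let V be a finite abelian p-group and α an automorphism of V of order p whose fixed-point subgroup has order p^n. Then V can be generated by pn elements: some subset of V with at most pn elements generates V. -/
theorem result {V : Type*} [CommGroup V] [Finite V] {p : ℕ} [Fact p.Prime] (hV : IsPGroup p V) (α : MulAut V) (hα : orderOf α = p) (n : ℕ) (hfix : Nat.card {v : V // α v = v} = p ^ n) : ∃ S : Finset V, S.card ≤ p * n ∧ Subgroup.closure (S : Set V) = ⊤ := by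
  have hp : p.Prime := Fact.out
  obtain ⟨k, hk⟩ := hV.index (frattini V)
  obtain ⟨T, -, h1, h2⟩ := H3.exists_basis_subset hV hk Set.univ closure_univ
  refine ⟨T, h1 ▸ (Nat.pow_le_pow_iff_right hp.one_lt).1 ?_, h2⟩
  have h := (card_le_fix_pow hp (hα ▸ pow_orderOf_eq_one α) 1).trans (Nat.mul_le_mul_left _ (card_le (B := frattini V) (by
    rintro _ ⟨x, rfl⟩; simpa using H3.pow_mem_frattini hV x)))
  rw [← index_mul_card (frattini V), hk, hfix, ← pow_mul, mul_one, mul_comm n] at h
  exact Nat.le_of_mul_le_mul_right h Nat.card_pos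

end Cfsg.Agent.S3780
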