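import Cfsg.Statements.S3782
import Mathlib
import Cfsg.Agent.H1.Alperin

set_option autoImplicit false
open Cfsg

namespace Cfsg.Agent.S3782

open Cfsg.Agent.FT Cfsg.Agent.H1 Subgroup SemidirectProduct

/-- Alperin's Theorem: for each prime p and each n ≥ 0 there is an integer l such that every finite solvable group admitting an automorphism of order p with exactly p^n fixed points has derived length at most l. -/
theorem result (p : ℕ) (hp : p.Prime) (n : ℕ) : ∃ l : ℕ, ∀ (G : Type) [Group G] [Finite G], Group.IsSolvable G → ∀ α : MulAut G, orderOf α = p → Nat.card {g : G // α g = g} = p ^ n → derivedSeries G l = ⊥ := by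
  haveI : Fact p.Prime := ⟨hp⟩
  refine ⟨?_, fun G _ _ hs α hα hn => ?_⟩
  swap
  haveI := sd_finite (MonoidHom.id (MulAut G))
  have e : #((⊤ : Subgroup G).map (inl : G →* G ⋊[MonoidHom.id _] MulAut G) ⊓ C[inr α] : Subgroup _) = p ^ n := by
    rw [← cen_zpowers, ← MonoidHom.map_zpowers, sd_cen (MonoidHom.id _) _ (α.toMonoidHom.eqLocus (MonoidHom.id G)) fun x =>
      ⟨fun h a ha => MulAction.mem_stabilizer_iff.1 ((zpowers_le (H := MulAction.stabilizer (MulAut G) x)).2 h ha),
        fun h => h α (mem_zpowers α)⟩, sd_cardL, ← hn]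
    rfl
  have := alperin (fun _ _ _ => Krek.higman) (sd_sol _ hs) (sd_norms (MonoidHom.id (MulAut G)) ⊤ (mem_top (inr α)))
    (by rw [← map_pow, show α ^ p = 1 from hα ▸ pow_orderOf_eq_one α, map_one]) (pGrp_of_card hp e) e.le
  rw [← map_dn, map_eq_bot_iff_of_injective _ inl_injective, dn, ← derivedSeries_eq_iter] at this
  exact this

end Cfsg.Agent.S3782
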