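import Cfsg.Statements.S3785
import Mathlib
import Cfsg.Agent.H27.Misc
import Cfsg.Agent.FT.BG04b

set_option autoImplicit false
open Cfsg

namespace Cfsg.Agent.S3785

open Subgroup Cfsg.Agent.FT
open scoped commutatorElement

/-- Let G be a finite solvable group whose Fitting subgroup F(G) has odd order. If an element g of G commutes with every element of prime order of F(G), then g ∈ F(G). -/
theorem result {G : Type*} [Group G] [Finite G] (hG : Group.IsSolvable G) (hodd : Odd (Nat.card (Cfsg.fittingSubgroup G))) (g : G) (hg : ∀ x ∈ Cfsg.fittingSubgroup G, (orderOf x).Prime → g * x = x * g) : g ∈ Cfsg.fittingSubgroup G := by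
  rw [← fitting_top] at hodd hg ⊢
  set S := Subgroup.closure {x : G | x ∈ F((⊤ : Subgroup G)) ∧ (orderOf x).Prime}
  have hS : (⊤ : Subgroup G) ≤ N(S) := norms_closure fun a ha x hx =>
    ⟨(fitting_nml ⊤).conj_mem ha hx.1, by rw [orderOf_conj]; exact hx.2⟩
  have hL : C(S) ⊴ ⊤ := ⟨le_top, norms_cent hS⟩
  refine chief_stab_sub_Fitting (sol_top.2 hG) (Nml.refl ⊤) (X := C(S)) le_top
    (fun V U hc hU => ?_) (le_cen1.1 ((closure_le _).2 fun x hx =>
      mem_cen1.2 (hg x hx.1 hx.2).symm))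
  obtain ⟨p, hp, hpU⟩ := bg4_chief_pnat hc ((sol_top.2 hG).mono le_top)
  refine bg4_chief_cents hc hpU hL fun X hX hX' => ?_
  have h1 : X ≤ C(O[{p}]((⊤ : Subgroup G))) := by
    refine coprime_odd_faithful_Ohm1 (pcore_pi _ _) (le_top.trans (pcore_nrm _ _))
      ((pcore_pi _ _).cop hX') (odd_of_le (pcore_le_fitting p ⊤) hodd)
      (centsS (Ohm_le_iff.2 fun x hx h => ?_) hX)
    by_cases h1 : x = 1
    · exact h1 ▸ one_mem S
    · haveI := Fact.mk hp
      exact subset_closure ⟨pcore_le_fitting p ⊤ hx, by rw [orderOf_eq_prime h h1]; exact hp⟩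
  refine bg4_comm_le_of_syl hc.nml hpU (le_top.trans hc.nmlU.nrm) (le_top.trans hc.nmlV.nrm)
    ((pcore_syl_fitting p ⊤).inf_of_nml (le_top.trans (pcore_nrm _ _)) hU) (piGrp_bot _) ?_
  exact (comm_eq_bot'.2 (centsS inf_le_left h1)).le

end Cfsg.Agent.S3785
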