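import Cfsg.Statements.S3786
import Mathlib
import Cfsg.Agent.H1.HHF

set_option autoImplicit false
open Cfsg

namespace Cfsg.Agent.S3786

open Cfsg.Agent.H1 Cfsg.Agent.FT

/-- The Hall–Higman bound on p-length. Let p be an odd prime and G a finite p-soluble group whose Sylow p-subgroups have exponent dividing p^e. (a) If p is not of the form 2^k + 1, or if the Sylow 2-subgroups of G are abelian, then G has p-length at most e. (b) In every case G has p-length at most 2e. -/
theorem result {G : Type*} [Group G] [Finite G] {p : ℕ} [Fact p.Prime] (hp : p ≠ 2) (hG : Cfsg.IsPSolvable p G) (e : ℕ) (hexp : ∀ (P : Sylow p G), ∀ x ∈ (P : Subgroup G), x ^ p ^ e = 1) : (((¬ ∃ k : ℕ, p = 2 ^ k + 1) ∨ ∀ S : Sylow 2 G, IsMulCommutative (S : Subgroup G)) → Cfsg.PLengthLE p e G) ∧ Cfsg.PLengthLE p (2 * e) G := by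
  have hp' : p.Prime := Fact.out
  refine ⟨fun h => pl_of_exp e hG (fun q n m Q hq _ a _ c d hQ => ?_) (pexp_of_syl hexp),
    pl_two_exp hp e hG (pexp_of_syl hexp)⟩
  have h1 : p - 1 ∣ q ^ m := d ▸ Nat.sub_one_dvd_pow_sub_one p n
  obtain rfl := (Nat.prime_dvd_prime_iff_eq Nat.prime_two hq).1 (Nat.prime_two.dvd_of_dvd_pow
    ((hp'.even_sub_one hp).two_dvd.trans h1))
  rcases h with h | h
  · obtain ⟨k, -, hk⟩ := (Nat.dvd_prime_pow hq).1 h1
    exact absurd ⟨k, by have := hp'.pos; omega⟩ h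
  · obtain ⟨S, hS⟩ := hQ.isPGroup.exists_le_sylow
    exact Ab.mono (h S) hS

end Cfsg.Agent.S3786
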