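import Cfsg.Statements.S3788
import Mathlib
import Cfsg.Agent.H1.HHG

set_option autoImplicit false
open Cfsg

namespace Cfsg.Agent.S3788

open Cfsg.Agent.H1 Cfsg.Agent.FT Subgroup

/-- Let G be a finite p-soluble group, P a Sylow p-subgroup of G and A a cyclic normal subgroup of P. If p is odd, or if no section of G is isomorphic to the symmetric group of degree 4, then A ≤ O_{p',p}(G). -/
theorem result {G : Type*} [Group G] [Finite G] {p : ℕ} [Fact p.Prime] (hG : Cfsg.IsPSolvable p G) (P : Sylow p G) (A : Subgroup G) (hAP : A ≤ (P : Subgroup G)) (hAn : (P : Subgroup G) ≤ Subgroup.normalizer (A : Set G)) (hA : IsCyclic A) (h : p ≠ 2 ∨ ¬ Cfsg.Involves (Equiv.Perm (Fin 4)) G) : A ≤ Cfsg.pPrimePCore p G := by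
  have hp : p.Prime := Fact.out
  obtain ⟨G', _, _, f, V, a1, a2, a3⟩ := exists_hred hp hG
  haveI := a2.normal
  obtain ⟨a, rfl⟩ := cyc_iff.1 hA
  have h1 := (map_top_of_surjective _ a1 ▸ (syl_top hp P).map f).ge_of_nml (a2.abe.pGrp hp) (nml_top_iff.2 ‹_›)
  have h2 := MonoidHom.map_zpowers f a
  exact a3 ▸ zpowers_le.2 (a2.mem_of_cyc (piElt_iff.2 (h2 ▸ ((syl_top hp P).pi.mono hAP).map f))
    (h1.trans (h2 ▸ map_norms f hAn)) (h.imp_right (mt fun c => H18.Involves.trans c (H18.involves_of_surjective f a1))))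

end Cfsg.Agent.S3788
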