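import Cfsg.Statements.S3789
import Mathlib
import Cfsg.Agent.H1.HHQ

set_option autoImplicit false
open Cfsg

namespace Cfsg.Agent.S3789

open Cfsg.Agent.H1 Cfsg.Agent.FT

/-- Let p be an odd prime and G a finite p-soluble group whose Sylow p-subgroups have derived length at most d. Then G has p-length at most d. -/
theorem result {G : Type*} [Group G] [Finite G] {p : ℕ} [Fact p.Prime] (hp : p ≠ 2) (hG : Cfsg.IsPSolvable p G) (d : ℕ) (hd : ∀ P : Sylow p G, derivedSeries ↥(P : Subgroup G) d = ⊥) : Cfsg.PLengthLE p d G := by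
  refine pl_of_dn hp d hG fun P hP => ?_
  obtain ⟨S, hS⟩ := hP.isPGroup.exists_le_sylow
  exact eq_bot_of_le (dn_mono d hS) (dn_eq_bot_iff.2 (hd S))

end Cfsg.Agent.S3789
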