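import Cfsg.Statements.S3790
import Mathlib
import Cfsg.Agent.H1.PLenB

set_option autoImplicit false
open Cfsg

namespace Cfsg.Agent.S3790

open Cfsg.Agent.H1 Cfsg.Agent.FT

/-- Let G be a finite solvable group and p a prime. Suppose p₁, …, p_r are distinct primes, all different from p, that include every prime dividing the order of G other than p, and that G has p_i-length at most l_i for each i. Then G has p-length at most the product of the numbers 1 + l_i. -/
theorem result {G : Type*} [Group G] [Finite G] (hG : Group.IsSolvable G) (p : ℕ) [Fact p.Prime] (r : ℕ) (q : Fin r → ℕ) (hq : ∀ i, (q i).Prime ∧ q i ≠ p) (hinj : Function.Injective q) (hcover : ∀ s : ℕ, s.Prime → s ∣ Nat.card G → s ≠ p → ∃ i, q i = s) (l : Fin r → ℕ) (hl : ∀ i, Cfsg.PLengthLE (q i) (l i) G) : Cfsg.PLengthLE p (Finset.univ.prod fun i => 1 + l i) G := by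
  exact (pLengthLE_iff_top Fact.out).2 (pl_prod r q l (fun i => (hq i).2) ⊤
    (fun s hs hd => hcover s hs (Subgroup.card_top (G := G) ▸ hd)) fun i => (pLengthLE_iff_top (hq i).1).1 (hl i))

end Cfsg.Agent.S3790
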