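import Cfsg.Statements.S3793
import Mathlib
import Cfsg.Agent.H1.FitH

set_option autoImplicit false
open Cfsg

namespace Cfsg.Agent.S3793

/-- The Shult–Gross Theorem: let p be an odd prime and G a finite solvable group with an automorphism σ of order p^n fixing only the identity. Then G has Fitting height at most n: G has Fitting height at most m when there is a chain of normal subgroups 1 = F₀ ≤ F₁ ≤ ⋯ ≤ F_m = G with each F_{i+1}/F_i nilpotent. -/
theorem result {G : Type*} [Group G] [Finite G] (hG : Group.IsSolvable G) {p : ℕ} (hp : p.Prime) (hp2 : p ≠ 2) (σ : MulAut G) (n : ℕ) (hσ : orderOf σ = p ^ n) (hfpf : ∀ g : G, σ g = g → g = 1) : ∃ F : Fin (n + 1) → Subgroup G, F 0 = ⊥ ∧ F (Fin.last n) = ⊤ ∧ Monotone F ∧ (∀ i, (F i).Normal) ∧ ∀ i : Fin n, ∃ k : ℕ, (F i.succ).lowerCentralSeries k ≤ F i.castSucc := by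
  haveI := H1.sd_finite (Subgroup.zpowers σ).subtype
  have hc : Nat.card ((⊤ : Subgroup (Subgroup.zpowers σ)).map (SemidirectProduct.inr : _ →* G ⋊[(Subgroup.zpowers σ).subtype] _)) = p ^ n := by
    rw [H1.sd_cardR, FT.card_top', Nat.card_zpowers, hσ]
  exact H1.chain_iff.2 ((H1.sd_nres _ ⊤).1 (H1.fh_cyc hp hp2 (FT.Cyc.map _ (inferInstance : IsCyclic (⊤ : Subgroup _)))
    (FT.pGrp_of_card hp hc) n _ ⊥ (H1.sd_sol _ hG) (H1.sd_norms _ _)
    (H1.sd_cen_bot _ fun x hx => hfpf x (hx ⟨σ, Subgroup.mem_zpowers σ⟩)) bot_le bot_le (by rw [Subgroup.relIndex_bot_left, hc])))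

end Cfsg.Agent.S3793
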