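import Cfsg.Statements.S3794
import Mathlib
import Cfsg.Agent.H1.FitH

set_option autoImplicit false
open Cfsg

namespace Cfsg.Agent.S3794

/-- Let G be a finite solvable group with an automorphism σ satisfying σ⁴ = 1 and fixing only the identity. Then the derived subgroup G' is nilpotent. -/
theorem result {G : Type*} [Group G] [Finite G] (hG : Group.IsSolvable G) (σ : MulAut G) (hσ : σ ^ 4 = 1) (hfpf : ∀ g : G, σ g = g → g = 1) : Group.IsNilpotent (commutator G) := by
  haveI := H1.sd_finite (MonoidHom.id (MulAut G))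
  refine H1.sd_nil_der (MonoidHom.id (MulAut G)) (H1.nil_der_four (a := SemidirectProduct.inr σ) (H1.sd_sol _ hG)
    (H1.sd_norms _ ⊤ trivial) (by rw [← map_pow, hσ, map_one]) ?_)
  rw [← MonoidHom.map_zpowers, H1.sd_cen _ _ ⊥ fun x => ⟨fun e a _ => by rw [Subgroup.mem_bot.1 e, map_one],
    fun e => hfpf x (e σ (Subgroup.mem_zpowers σ))⟩, Subgroup.map_bot]

end Cfsg.Agent.S3794
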