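import Cfsg.Statements.S3795
import Mathlib
import Cfsg.Agent.H1.Gross

set_option autoImplicit false
open Cfsg

namespace Cfsg.Agent.S3795

/-- Gross's Theorem: let G be a finite solvable group with an automorphism σ of order 2^n, n > 1, fixing only the identity. Then G has Fitting height at most 2n − 2: G has Fitting height at most m when there is a chain of normal subgroups 1 = F₀ ≤ F₁ ≤ ⋯ ≤ F_m = G with each F_{i+1}/F_i nilpotent. -/
theorem result {G : Type*} [Group G] [Finite G] (hG : Group.IsSolvable G) (σ : MulAut G) (n : ℕ) (hn : 1 < n) (hσ : orderOf σ = 2 ^ n) (hfpf : ∀ g : G, σ g = g → g = 1) : ∃ F : Fin ((2 * n - 2) + 1) → Subgroup G, F 0 = ⊥ ∧ F (Fin.last (2 * n - 2)) = ⊤ ∧ Monotone F ∧ (∀ i, (F i).Normal) ∧ ∀ i : Fin (2 * n - 2), ∃ k : ℕ, (F i.succ).lowerCentralSeries k ≤ F i.castSucc := by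
  haveI := H1.sd_finite (Subgroup.zpowers σ).subtype
  obtain ⟨n, rfl⟩ := Nat.exists_eq_add_of_lt hn
  have hc : Nat.card ((⊤ : Subgroup (Subgroup.zpowers σ)).map (SemidirectProduct.inr : _ →* G ⋊[(Subgroup.zpowers σ).subtype] _)) = 2 ^ (n + 2) := by
    rw [H1.sd_cardR, FT.card_top', Nat.card_zpowers, hσ, add_comm 1 n]
  refine H1.chain_iff.2 ((H1.sd_nres (Subgroup.zpowers σ).subtype ⊤).1 ?_)
  rw [show 2 * (1 + n + 1) - 2 = 2 * n + 2 by omega]
  exact H1.fh_two (FT.Cyc.map _ (inferInstance : IsCyclic (⊤ : Subgroup _)))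
    (FT.pGrp_of_card Nat.prime_two hc) n _ ⊥ (H1.sd_sol _ hG) (H1.sd_norms _ _)
    (H1.sd_cen_bot _ fun x hx => hfpf x (hx ⟨σ, Subgroup.mem_zpowers σ⟩)) bot_le bot_le (by rw [Subgroup.relIndex_bot_left, hc])

end Cfsg.Agent.S3795
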