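import Cfsg.Statements.S3797
import Mathlib
import Cfsg.Agent.H1.Th86
import Cfsg.Agent.H5.PLen
import Cfsg.Agent.H1.HHR

set_option autoImplicit false
open Cfsg

namespace Cfsg.Agent.S3797

open Cfsg.Agent.H1 Cfsg.Agent.FT Cfsg.Agent.H2 Subgroup

theorem pe {H : Type*} [Group H] (x : H) (h1 : x ≠ 1) (h2 : x ^ 2 = 1) : PiElt {2} x :=
  (piElt_of_orderOf_prime Nat.prime_two (orderOf_eq_prime h2 h1)).2 rfl

/-- Let G be a finite solvable group of even order whose Sylow 2-subgroups contain more than one involution, and suppose all involutions of G are conjugate. Then G has 2-length at most 1, and a Sylow 2-subgroup S of G is either homocyclic (a direct product of cyclic groups of one common order) or a non-abelian 2-group with more than one involution admitting a solvable group of automorphisms transitive on its involutions. -/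
theorem result {G : Type*} [Group G] [Finite G] (hG : Group.IsSolvable G) (heven : Even (Nat.card G)) (S : Sylow 2 G) (htwo : ∃ x y : G, x ∈ (S : Subgroup G) ∧ y ∈ (S : Subgroup G) ∧ x ≠ y ∧ x ≠ 1 ∧ x ^ 2 = 1 ∧ y ≠ 1 ∧ y ^ 2 = 1) (hconj : ∀ x y : G, x ≠ 1 → x ^ 2 = 1 → y ≠ 1 → y ^ 2 = 1 → IsConj x y) : Cfsg.PLengthLE 2 1 G ∧ ((∃ m r : ℕ, Nonempty (↥(S : Subgroup G) ≃* (Fin r → Multiplicative (ZMod (2 ^ m))))) ∨ (¬ IsMulCommutative (S : Subgroup G) ∧ ∃ Y : Subgroup (MulAut ↥(S : Subgroup G)), Group.IsSolvable Y ∧ ∀ x y : ↥(S : Subgroup G), x ≠ 1 → x ^ 2 = 1 → y ≠ 1 → y ^ 2 = 1 → ∃ a ∈ Y, a x = y)) := by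
  have hp := Nat.prime_two
  haveI := Fact.mk hp
  haveI := pPrimeCore_characteristic (p := 2) (G := G)
  have s := QuotientGroup.mk'_surjective (pPrimeCore 2 G)
  have hO := (pcore_top _).trans (piCore_compl_singleton (G := G) hp)
  have k : ∀ x : G, PiElt {2} x → QuotientGroup.mk' (pPrimeCore 2 G) x = 1 → x = 1 := fun x h hx =>
    h.eq_one_of_mem (pcore_pi _ ⊤) (hO.ge ((QuotientGroup.eq_one_iff _).1 hx))
  have hS := syl_top hp S
  have hi : Function.Injective ((QuotientGroup.mk' (pPrimeCore 2 G)).comp (S : Subgroup G).subtype) :=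
    (injective_iff_map_eq_one _).2 fun x hx => Subtype.ext (k _ (hS.pi.piElt x.2) hx)
  have hs : Sol (⊤ : Subgroup (G ⧸ pPrimeCore 2 G)) := inferInstance
  have hq : O[{2}ᶜ]((⊤ : Subgroup (G ⧸ pPrimeCore 2 G))) = ⊥ := by
    rw [pcore_top, piCore_compl_singleton hp, pPrimeCore_quotient_self]
  have fin : (S : Subgroup G).map (QuotientGroup.mk' (pPrimeCore 2 G)) ≤ O[{2}]((⊤ : Subgroup _)) →
      PLengthLE 2 1 G := fun h =>
    H5b.pLengthLE_one_iff.2 (H5b.coprime_index_of_sylow_le S (map_le_iff_le_comap.1 (h.trans (pcore_top' hp).le)))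
  generalize QuotientGroup.mk' (pPrimeCore 2 G) = f at *
  have cq : ∀ x y : G ⧸ pPrimeCore 2 G, x ≠ 1 → x ^ 2 = 1 → y ≠ 1 → y ^ 2 = 1 → IsConj x y := fun x y x1 x2 y1 y2 => by
    obtain ⟨x, a1, rfl⟩ := exists_pelt_map s (pe x x1 x2)
    obtain ⟨y, a2, rfl⟩ := exists_pelt_map s (pe y y1 y2)
    exact f.map_isConj (hconj x y (fun e => x1 (by simp [e])) (k _ (a1.pow 2) (by simpa)) (fun e => y1 (by simp [e]))
      (k _ (a2.pow 2) (by simpa)))
  obtain ⟨a, b, a0, b0, hab, a1, a2, b1, b2⟩ := htwo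
  have h1 := syl_of_one_class hs hq (a := f a) (b := f b) (fun e => hab (congrArg Subtype.val (hi (a₁ := ⟨a, a0⟩)
    (a₂ := ⟨b, b0⟩) e))) (mt (k a (pe a a1 a2)) a1) (by rw [← map_pow, a2, map_one]) (mt (k b (pe b b1 b2)) b1)
    (by rw [← map_pow, b2, map_one]) cq
  have h2 : (f.comp (S : Subgroup G).subtype).range = O[{2}]((⊤ : Subgroup _)) := by
    rw [MonoidHom.range_comp, range_subtype]
    exact h1.uniq_of_nml (pcore_nml _ _).nrm (map_top_of_surjective _ s ▸ hS.map f)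
  haveI : (f.comp (S : Subgroup G).subtype).range.Normal := h2 ▸ nml_top_iff.1 (pcore_nml _ _)
  let e := MonoidHom.ofInjective hi
  let φ := (MulAut.congr e.symm).toMonoidHom.comp (MulAut.conjNormal (H := (f.comp (S : Subgroup G).subtype).range))
  have h3 : ∀ x y : S, x ≠ 1 → x ^ 2 = 1 → y ≠ 1 → y ^ 2 = 1 → ∃ a ∈ φ.range, a x = y := fun x y x1 x2 y1 y2 => by
    obtain ⟨g, hg⟩ := isConj_iff.1 (hconj x y (by simpa) (by simpa using congrArg Subtype.val x2) (by simpa)
      (by simpa using congrArg Subtype.val y2))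
    exact ⟨_, ⟨f g, rfl⟩, e.symm_apply_eq.2 (Subtype.ext (by simpa [e, MonoidHom.ofInjective_apply] using congrArg f hg))⟩
  refine ⟨fin (by rw [← h2, MonoidHom.range_comp, range_subtype]), (em (IsMulCommutative S)).imp
    (fun h => homocyclic_of_trans h S.isPGroup' fun x y x1 x2 y1 y2 => (h3 x y x1 x2 y1 y2).imp fun _ h => h.2)
    fun h => ⟨h, φ.range, Group.isSolvable_of_surjective φ.rangeRestrict_surjective, h3⟩⟩

end Cfsg.Agent.S3797
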