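import Cfsg.Statements.S3798
import Mathlib
import Cfsg.Agent.H1.PLow
import Cfsg.Agent.H1.FitH

set_option autoImplicit false
open Cfsg

namespace Cfsg.Agent.S3798

open Cfsg.Agent.FT Cfsg.Agent.H1 Subgroup SemidirectProduct

/-- The Gaschütz–Yen Theorem: let G be a finite p-soluble group, p an odd prime dividing its order, such that the automorphism group of G permutes the subgroups of G of order p transitively. Then G has p-length at most 1. -/
theorem result {G : Type*} [Group G] [Finite G] {p : ℕ} [Fact p.Prime] (hp : p ≠ 2) (hdvd : p ∣ Nat.card G) (hG : Cfsg.IsPSolvable p G) (htrans : ∀ U V : Subgroup G, Nat.card U = p → Nat.card V = p → ∃ a : MulAut G, U.map a.toMonoidHom = V) : Cfsg.PLengthLE p 1 G := by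
  have hp' : p.Prime := Fact.out
  haveI := sd_finite (MonoidHom.id (MulAut G))
  have e := (⊤ : Subgroup G).equivMapOfInjective (inl : G →* G ⋊[MonoidHom.id _] MulAut G) inl_injective
  have := gaschutz_yen hp' hp (isPSolvable_of_surjective hp' e.toMonoidHom e.surjective (psol_top hp' hG))
    (sd_norms _ ⊤) fun K h1 h2 h3 X h4 h5 => by
      obtain ⟨Y, h6, h7⟩ := exists_card_prime_le hp' h3
      obtain ⟨U, rfl⟩ : ∃ U : Subgroup G, U.map inl = X := ⟨_, map_comap_eq_self (h4.trans (map_le_range _ _))⟩
      obtain ⟨V, rfl⟩ : ∃ U : Subgroup G, U.map inl = Y := ⟨_, map_comap_eq_self ((h6.trans h1).trans (map_le_range _ _))⟩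
      rw [sd_cardL] at h5 h7
      obtain ⟨a, rfl⟩ := htrans V U h7 h5
      rintro _ ⟨_, ⟨x, hx, rfl⟩, rfl⟩
      have := conj_mem (h2 (mem_top (inr a))) (h6 (mem_map_of_mem _ hx))
      rwa [← map_inv, ← inl_aut] at this
  exact H5b.PLengthLE.of_injective this (topEquiv.symm.trans e).toMonoidHom (topEquiv.symm.trans e).injective

end Cfsg.Agent.S3798
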