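import Cfsg.Statements.S3799
import Mathlib
import Cfsg.Agent.H27.Misc
import Cfsg.Agent.H1.Prim

set_option autoImplicit false
open Cfsg

namespace Cfsg.Agent.S3799

open Subgroup Cfsg.Agent.FT
open scoped commutatorElement

theorem es_of {Y : Type*} [Group Y] [Finite Y] {p : ℕ} (hp : p.Prime) (hexp : ∀ y : Y, y ^ p = 1)
    (hZ : Nat.card (center Y) = p) (hc : ∀ x y : Y, ⁅x, y⁆ ∈ center Y) (hna : ∃ x y : Y, ⁅x, y⁆ ≠ 1) :
    IsExtraspecial p Y := by
  have hP : IsPGroup p Y := fun y => ⟨1, by rw [pow_one, hexp]⟩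
  have hle : commutator Y ≤ center Y := commutator_le.2 fun x _ y _ => hc x y
  have h1 : commutator Y = center Y := by
    obtain ⟨x, y, h⟩ := hna
    rcases (Nat.dvd_prime hp).1 (hZ ▸ card_dvd_of_le hle) with h2 | h2
    · exact absurd (mem_bot.1 (card_eq_one.1 h2 ▸ commutator_mem_commutator (mem_top x) (mem_top y) :
        _ ∈ (⊥ : Subgroup Y))) h
    · exact eq_of_le_of_card_ge hle (hZ.trans h2.symm).le
  refine ⟨⟨hP, ?_, h1⟩, hZ⟩
  rw [← H1.Phi_top, (pGrp_of_isPGroup hp (hP.to_subgroup ⊤)).Phi_eq hp, ← h1, commutator_def,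
    sup_eq_left]
  exact Mho_le_iff.2 fun x _ => by rw [hexp]; exact one_mem _

@[ext] structure HG (F : Type) (n : ℕ) where
  a : Fin n → F
  b : Fin n → F
  c : F

variable {F : Type} [Field F] {n : ℕ}

instance : Mul (HG F n) := ⟨fun x y => ⟨x.a + y.a, x.b + y.b, x.c + y.c + x.a ⬝ᵥ y.b⟩⟩
instance : One (HG F n) := ⟨⟨0, 0, 0⟩⟩
instance : Inv (HG F n) := ⟨fun x => ⟨-x.a, -x.b, -x.c + x.a ⬝ᵥ x.b⟩⟩
@[simp] theorem mul_a (x y : HG F n) : (x * y).a = x.a + y.a := rfl
@[simp] theorem mul_b (x y : HG F n) : (x * y).b = x.b + y.b := rfl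
@[simp] theorem mul_c (x y : HG F n) : (x * y).c = x.c + y.c + x.a ⬝ᵥ y.b := rfl
@[simp] theorem one_a : (1 : HG F n).a = 0 := rfl
@[simp] theorem one_b : (1 : HG F n).b = 0 := rfl
@[simp] theorem one_c : (1 : HG F n).c = 0 := rfl
@[simp] theorem inv_a (x : HG F n) : x⁻¹.a = -x.a := rfl
@[simp] theorem inv_b (x : HG F n) : x⁻¹.b = -x.b := rfl
@[simp] theorem inv_c (x : HG F n) : x⁻¹.c = -x.c + x.a ⬝ᵥ x.b := rfl

instance : Group (HG F n) := Group.ofLeftAxioms
  (fun x y z => HG.ext (add_assoc _ _ _) (add_assoc _ _ _) (by simp; ring))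
  (fun x => HG.ext (zero_add _) (zero_add _) (by simp))
  (fun x => HG.ext (neg_add_cancel _) (neg_add_cancel _) (by simp))

def eqv : HG F n ≃ (Fin n → F) × (Fin n → F) × F :=
  ⟨fun x => (x.a, x.b, x.c), fun x => ⟨x.1, x.2.1, x.2.2⟩, fun _ => rfl, fun _ => rfl⟩

theorem pow_eq (x : HG F n) (k : ℕ) :
    x ^ k = ⟨(k : F) • x.a, (k : F) • x.b, k * x.c + (k.choose 2 : F) * (x.a ⬝ᵥ x.b)⟩ := by
  induction k with
  | zero => ext <;> simp
  | succ k ih =>
    rw [pow_succ, ih]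
    refine HG.ext ?_ ?_ ?_
    · simp [add_smul]
    · simp [add_smul]
    · simp [Nat.choose_succ_succ' k 1]; ring

theorem mem_center {x : HG F n} : x ∈ center (HG F n) ↔ x.a = 0 ∧ x.b = 0 := by
  rw [mem_center_iff]
  refine ⟨fun h => ⟨funext fun i => ?_, funext fun i => ?_⟩, fun h y => ?_⟩
  · simpa using (congrArg HG.c (h ⟨0, Pi.single i 1, 0⟩)).symm
  · simpa using congrArg HG.c (h ⟨Pi.single i 1, 0, 0⟩)
  · ext <;> simp [h.1, h.2, add_comm]

def rho : HG F n →* Module.End F (F × (Fin n → F) × F) where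
  toFun g :=
    { toFun := fun v => (v.1 + g.a ⬝ᵥ v.2.1 + g.c * v.2.2, v.2.1 + v.2.2 • g.b, v.2.2)
      map_add' := fun u v => by ext <;> simp <;> ring
      map_smul' := fun r v => by ext <;> simp <;> ring }
  map_one' := LinearMap.ext fun v => by simp
  map_mul' g h := LinearMap.ext fun v => by ext <;> simp <;> ring

theorem rho_inj : Function.Injective (rho : HG F n →* _) := by
  rw [injective_iff_map_eq_one]
  intro g hg
  have h1 := LinearMap.congr_fun hg (0, 0, 1)
  refine HG.ext (funext fun i => ?_) ?_ ?_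
  · simpa [rho] using LinearMap.congr_fun hg (0, Pi.single i 1, 0)
  · simpa [rho] using congrArg (·.2.1) h1
  · simpa [rho] using congrArg (·.1) h1

/-- For every odd prime p and every n ≥ 1 there is an extraspecial p-group of order p^(1+2n) and exponent p; concretely, the general linear group of degree n + 2 over the field with p elements contains such a subgroup. -/
theorem result (p : ℕ) [Fact p.Prime] (hp : p ≠ 2) (n : ℕ) (hn : 1 ≤ n) : ∃ E : Subgroup (Matrix.GeneralLinearGroup (Fin (n + 2)) (ZMod p)), Cfsg.IsExtraspecial p ↥E ∧ Nat.card E = p ^ (1 + 2 * n) ∧ ∀ x ∈ E, x ^ p = 1 := by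
  have hp' : p.Prime := Fact.out
  let b := Module.finBasisOfFinrankEq (ZMod p) (ZMod p × (Fin n → ZMod p) × ZMod p) (n := n + 2)
    (by simp; ring)
  let f : HG (ZMod p) n →* Matrix.GeneralLinearGroup (Fin (n + 2)) (ZMod p) :=
    (Matrix.GeneralLinearGroup.toLin' b).symm.toMonoidHom.comp rho.toHomUnits
  have hf : Function.Injective f := (Matrix.GeneralLinearGroup.toLin' b).symm.injective.comp
    fun x y h => rho_inj (congrArg Units.val h)
  have e := MonoidHom.ofInjective hf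
  haveI : Finite (HG (ZMod p) n) := Finite.of_equiv _ eqv.symm
  haveI : Finite f.range := Finite.of_equiv _ e.toEquiv
  have hexp : ∀ x : HG (ZMod p) n, x ^ p = 1 := fun x => by
    have : ((p.choose 2 : ℕ) : ZMod p) = 0 := (ZMod.natCast_eq_zero_iff _ _).2
      (hp'.dvd_choose_self two_ne_zero (lt_of_le_of_ne hp'.two_le hp.symm))
    rw [pow_eq, this]
    ext <;> simp
  have hexp' : ∀ x : f.range, x ^ p = 1 := e.surjective.forall.2 fun x => by
    rw [← map_pow, hexp, map_one]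
  refine ⟨f.range, es_of hp' hexp' ?_ ?_ ?_, ?_, fun x hx => congrArg Subtype.val (hexp' ⟨x, hx⟩)⟩
  · rw [← Nat.card_congr (centerCongr e).toEquiv]
    refine (Nat.card_congr ⟨fun x => x.1.c, fun c => ⟨⟨0, 0, c⟩, mem_center.2 ⟨rfl, rfl⟩⟩, fun x => ?_,
      fun _ => rfl⟩).trans (Nat.card_zmod p)
    exact Subtype.ext (HG.ext (mem_center.1 x.2).1.symm (mem_center.1 x.2).2.symm rfl)
  · refine e.surjective.forall₂.2 fun x y => ?_
    rw [← map_commutatorElement]
    refine (centerCongr e ⟨_, mem_center.2 ⟨?_, ?_⟩⟩).2 <;> simp [commutatorElement_def]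
  · refine ⟨e ⟨Pi.single ⟨0, hn⟩ 1, 0, 0⟩, e ⟨0, Pi.single ⟨0, hn⟩ 1, 0⟩, ?_⟩
    rw [← map_commutatorElement, Ne, map_eq_one_iff _ e.injective, commutatorElement_eq_one_iff_mul_comm]
    intro h
    simpa using congrArg HG.c h
  · rw [← Nat.card_congr e.toEquiv, Nat.card_congr eqv]
    simp; ring

end Cfsg.Agent.S3799
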