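import Cfsg.Statements.S3950
import Mathlib
import Cfsg.Agent.H27.Schur3
import Cfsg.Agent.S3979

set_option autoImplicit false
open Cfsg

namespace Cfsg.Agent.S3950

open Subgroup
open scoped commutatorElement Function

/-- A finite abelian group has trivial Schur multiplier if and only if it is cyclic. -/
theorem result {G : Type*} [CommGroup G] [Finite G] : Cfsg.HasCyclicSchurMultiplier G 1 ↔ IsCyclic G := by
  refine ⟨fun h => ?_, fun h => S3979.result⟩
  classical
  obtain ⟨ι, _, n, hn, ⟨e⟩⟩ := CommGroup.equiv_prod_multiplicative_zmod_of_finite G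
  by_cases hc : Pairwise (Nat.Coprime on n)
  · haveI : NeZero (∏ i, n i) := ⟨Finset.prod_ne_zero_iff.2 (fun i _ => by have := hn i; omega)⟩
    let f : Multiplicative (ZMod (∏ i, n i)) ≃* ((i : ι) → Multiplicative (ZMod (n i))) :=
      (AddEquiv.toMultiplicative (ZMod.prodEquivPi n hc).toAddEquiv).trans
        (MulEquiv.piMultiplicative _)
    exact isCyclic_of_surjective (f.trans e.symm) (f.trans e.symm).surjective
  · exfalso
    simp only [Pairwise, not_forall] at hc
    obtain ⟨i, j, hij, hc⟩ := hc
    obtain ⟨p, hp, hi, hj⟩ := Nat.Prime.not_coprime_iff_dvd.1 hc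
    haveI : Fact p.Prime := ⟨hp⟩
    let φ : G → ZMod p := fun x => ZMod.castHom hi (ZMod p) (e x i).toAdd
    let ψ : G → ZMod p := fun x => ZMod.castHom hj (ZMod p) (e x j).toAdd
    have hφ : ∀ x y, φ (x * y) = φ x + φ y := fun x y => by simp only [φ, map_mul, Pi.mul_apply, toAdd_mul, map_add]
    have hψ : ∀ x y, ψ (x * y) = ψ x + ψ y := fun x y => by simp only [ψ, map_mul, Pi.mul_apply, toAdd_mul, map_add]
    let β : G →* G →* Multiplicative (ZMod p) := MonoidHom.mk'
      (fun x => MonoidHom.mk' (fun y => Multiplicative.ofAdd (φ x * ψ y))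
        (fun y y' => by simp [hψ, mul_add]))
      (fun x x' => MonoidHom.ext fun y => by simp [hφ, add_mul])
    have hβ : ∀ x y, β x y = Multiplicative.ofAdd (φ x * ψ y) := fun _ _ => rfl
    have hs : IsStemExtension (H27.Heis.proj β) := by
      apply H27.Heis.stem
      rw [eq_top_iff]
      intro t _
      apply Subgroup.subset_closure
      refine ⟨e.symm (Pi.mulSingle i (Multiplicative.ofAdd 1)),
        e.symm (Pi.mulSingle j (Multiplicative.ofAdd (t.toAdd.val : ZMod (n j)))), mul_comm _ _, ?_⟩
      simp only [hβ, φ, ψ, MulEquiv.apply_symm_apply, Pi.mulSingle_eq_same, toAdd_ofAdd, map_one,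
        map_natCast, Pi.mulSingle_eq_of_ne hij, toAdd_one, map_zero]
      simp
    have h1 := H27.mult_eq_bot_of_trivial h (H27.stem_centExt hs)
    rw [H27.stem_mult hs] at h1
    have h2 : Nat.card (H27.Heis.proj β).ker = p := by
      rw [Nat.card_congr (H27.Heis.kerEquiv β).toEquiv]; simp
    rw [h1] at h2
    simp at h2
    exact hp.one_lt.ne h2

end Cfsg.Agent.S3950
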