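import Cfsg.Statements.S3951
import Mathlib
import Cfsg.Agent.H27.CycExt

set_option autoImplicit false
open Cfsg

namespace Cfsg.Agent.S3951

open Subgroup
open scoped commutatorElement

/-- For positive integers `m` and `n` with `n` dividing `m`, the Schur multiplier of the abelian group `ZMod m × ZMod n` (written multiplicatively) is cyclic of order `n`. In particular the elementary abelian group of order `p ^ 2` has multiplier of order `p`. -/
theorem result (m n : ℕ) [NeZero m] [NeZero n] (hnm : n ∣ m) : Cfsg.HasCyclicSchurMultiplier (Multiplicative (ZMod m × ZMod n)) n := by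
  let π : ZMod m →+* ZMod n := ZMod.castHom hnm (ZMod n)
  let β : Multiplicative (ZMod m × ZMod n) →* Multiplicative (ZMod m × ZMod n) →*
      Multiplicative (ZMod n) := MonoidHom.mk'
    (fun x => MonoidHom.mk' (fun y => Multiplicative.ofAdd (π x.toAdd.1 * y.toAdd.2))
      (fun y y' => by simp [mul_add]))
    (fun x x' => MonoidHom.ext fun y => by simp [add_mul])
  have hβ : ∀ x y, β x y = Multiplicative.ofAdd (π x.toAdd.1 * y.toAdd.2) := fun _ _ => rfl
  have hs : IsStemExtension (H27.Heis.proj β) := by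
    apply H27.Heis.stem
    rw [eq_top_iff]
    intro t _
    apply Subgroup.subset_closure
    refine ⟨Multiplicative.ofAdd (1, 0), Multiplicative.ofAdd (0, t.toAdd), mul_comm _ _, ?_⟩
    simp [hβ]
  refine H27.hasSchurMultiplier_of_card_le hs (H27.Heis.kerEquiv β) ?_
  intro Γ _ _ τ hτ
  obtain ⟨x, hx⟩ := hτ.1 (Multiplicative.ofAdd (0, 1))
  obtain ⟨y, hy⟩ := hτ.1 (Multiplicative.ofAdd (1, 0))
  have hgen : zpowers (τ x) ⊔ zpowers (τ y) = ⊤ := by
    rw [hx, hy, eq_top_iff]
    intro g _
    have : g = Multiplicative.ofAdd ((0 : ZMod m), (1 : ZMod n)) ^ g.toAdd.2.val *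
        Multiplicative.ofAdd ((1 : ZMod m), (0 : ZMod n)) ^ g.toAdd.1.val := by
      rw [← ofAdd_nsmul, ← ofAdd_nsmul, ← ofAdd_add]
      simp
    rw [this]
    exact mul_mem_sup (pow_mem (mem_zpowers _) _) (pow_mem (mem_zpowers _) _)
  have h1 := H27.meta_card_ker hτ x y hgen
  have h2 := H27.meta_comm_pow_eq_one hτ.2.1 x y n 0 (by
    rw [hx, pow_zero, ← ofAdd_nsmul]; simp)
  rw [(Commute.all _ _).commutator_eq, orderOf_one, mul_one] at h1
  rw [h1]
  simpa using Nat.le_of_dvd (NeZero.pos n) (orderOf_dvd_of_pow_eq_one h2)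

end Cfsg.Agent.S3951
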