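import Cfsg.Statements.S3952
import Mathlib
import Cfsg.Agent.H27.Schur3
import Cfsg.Agent.H27.Schur4

set_option autoImplicit false
open Cfsg

namespace Cfsg.Agent.S3952

open Subgroup
open scoped commutatorElement

universe u

theorem key (p : ℕ) [hp : Fact p.Prime] (n : ℕ) : ∀ (X : Type u) [Group X] [Finite X],
    Nat.card X = n → IsPGroup p X → ∀ a ∈ center X, a ∈ commutator X →
      orderOf a ^ 2 ≤ (center X).index := by
  classical
  induction n using Nat.strong_induction_on with
  | _ n ih =>
  intro X _ _ hn hX a ha ha'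
  by_cases h1 : ∃ N : Subgroup X, N.Normal ∧ N ≠ ⊥ ∧ N ⊓ zpowers a = ⊥
  · obtain ⟨N, _, hN, hNa⟩ := h1
    have hlt : Nat.card (X ⧸ N) < n := by
      rw [← hn, ← N.index_eq_card, ← N.index_mul_card]
      have : 1 < Nat.card N := N.one_lt_card_iff_ne_bot.2 hN
      exact lt_mul_of_one_lt_right (Nat.pos_of_ne_zero FiniteIndex.index_ne_zero) this
    have hle : center X ≤ (center (X ⧸ N)).comap (QuotientGroup.mk' N) := by
      intro z hz
      rw [mem_comap, mem_center_iff]
      intro y
      obtain ⟨y, rfl⟩ := QuotientGroup.mk'_surjective N y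
      rw [← map_mul, ← map_mul, mem_center_iff.1 hz]
    have h2 := ih _ hlt (X ⧸ N) rfl (hX.to_quotient N) (a : X ⧸ N) (hle ha) (by
      have : (commutator X).map (QuotientGroup.mk' N) ≤ commutator (X ⧸ N) := by
        rw [commutator_def, map_commutator]; exact commutator_mono le_top le_top
      exact this (mem_map_of_mem _ ha'))
    have h3 : orderOf (a : X ⧸ N) = orderOf a := by
      rw [orderOf_eq_orderOf_iff]
      intro k
      rw [← QuotientGroup.mk_pow, QuotientGroup.eq_one_iff]
      constructor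
      · intro hk
        have : a ^ k ∈ N ⊓ zpowers a := ⟨hk, pow_mem (mem_zpowers a) k⟩
        rwa [hNa] at this
      · intro hk; rw [hk]; exact one_mem N
    rw [h3, ← index_comap_of_surjective _ (QuotientGroup.mk'_surjective N)] at h2
    exact h2.trans (index_antitone hle)
  push Not at h1
  by_cases hab : center X = ⊤
  · rw [(commutator_eq_bot_iff_center_eq_top X).2 hab, mem_bot] at ha'
    rw [ha', hab]; simp
  haveI : Nontrivial (X ⧸ center X) := QuotientGroup.nontrivial_iff.2 hab
  haveI := (hX.to_quotient (center X)).center_nontrivial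
  obtain ⟨w, hw⟩ : ∃ w : center (X ⧸ center X), orderOf w = p := by
    apply exists_prime_orderOf_dvd_card'
    obtain ⟨k, hk, hk'⟩ := (((hX.to_quotient (center X)).to_subgroup
      (center _)).nontrivial_iff_card).1 inferInstance
    rw [hk']; exact dvd_pow_self p hk.ne'
  obtain ⟨⟨w, hwc⟩, rfl⟩ : ∃ w' : center (X ⧸ center X), w' = w := ⟨w, rfl⟩
  obtain ⟨z, rfl⟩ := QuotientGroup.mk_surjective w
  rw [← orderOf_coe] at hw
  change orderOf (z : X ⧸ center X) = p at hw
  have hz1 : z ∉ center X := by
    intro h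
    rw [(QuotientGroup.eq_one_iff _).2 h, orderOf_one] at hw
    exact hp.out.one_lt.ne hw
  have hz2 : z ^ p ∈ center X := by
    rw [← QuotientGroup.eq_one_iff, QuotientGroup.mk_pow, ← hw, pow_orderOf_eq_one]
  have hz3 : ∀ x : X, ⁅z, x⁆ ∈ center X := by
    intro x
    rw [← QuotientGroup.eq_one_iff]
    change QuotientGroup.mk' _ ⁅z, x⁆ = 1
    rw [map_commutatorElement, commutatorElement_eq_one_iff_mul_comm]
    exact (mem_center_iff.1 hwc _).symm
  let f : X →* X := MonoidHom.mk' (fun x => ⁅z, x⁆)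
    (fun x y => H27.comm_mul_right_of_central (hz3 y))
  have hfp : ∀ x : X, ⁅z, x⁆ ^ p = 1 := by
    intro x
    have : ∀ k : ℕ, ⁅z ^ k, x⁆ = ⁅z, x⁆ ^ k := by
      intro k
      induction k with
      | zero => simp
      | succ k ih => rw [pow_succ, H27.comm_mul_left_of_central (hz3 x), ih, pow_succ]
    rw [← this, commutatorElement_eq_one_iff_mul_comm]
    exact (mem_center_iff.1 hz2 x).symm
  have hfa : ∀ x : X, ⁅z, x⁆ ∈ zpowers a := by
    intro x
    by_cases h0 : ⁅z, x⁆ = 1
    · rw [h0]; exact one_mem _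
    have ho : orderOf ⁅z, x⁆ = p := orderOf_eq_prime (hfp x) h0
    have h2 := h1 (zpowers ⁅z, x⁆) (H27.normal_of_le_center' (zpowers_le.2 (hz3 x)))
      (by simpa using h0)
    have h3 : Nat.card (zpowers ⁅z, x⁆ ⊓ zpowers a : Subgroup X) ∣ p := by
      rw [← ho, ← Nat.card_zpowers]; exact card_dvd_of_le inf_le_left
    rcases (Nat.dvd_prime hp.out).1 h3 with h4 | h4
    · exact absurd (card_eq_one.1 h4) h2
    · have : zpowers ⁅z, x⁆ ⊓ zpowers a = zpowers ⁅z, x⁆ :=
        eq_of_le_of_card_ge inf_le_left (by rw [h4, Nat.card_zpowers, ho])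
      exact (this.ge (mem_zpowers _)).2
  have hC : f.ker.index = p := by
    have h2 : f.ker.index ≤ p := by
      rw [index_ker]
      letI := Fintype.ofFinite (zpowers a)
      have h3 := IsCyclic.card_pow_eq_one_le (α := zpowers a) hp.out.pos
      refine le_trans ?_ h3
      rw [← Fintype.card_coe, ← Nat.card_eq_fintype_card]
      refine Nat.card_le_card_of_injective (fun y => ⟨⟨y.1, ?_⟩, ?_⟩) ?_
      · obtain ⟨_, x, rfl⟩ := y; exact hfa x
      · obtain ⟨_, x, rfl⟩ := y
        simp only [Finset.mem_filter, Finset.mem_univ, true_and]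
        exact Subtype.ext (hfp x)
      · intro y y' h
        exact Subtype.ext (congrArg (fun t => t.1.1) h)
    obtain ⟨k, hk⟩ := hX.index f.ker
    have h3 : f.ker.index ≠ 1 := by
      rw [Ne, index_eq_one]
      intro h
      apply hz1
      rw [mem_center_iff]
      intro x
      have : x ∈ f.ker := h ▸ mem_top x
      exact (commutatorElement_eq_one_iff_mul_comm.1 this).symm
    rw [hk] at h2 h3 ⊢
    have : k ≠ 0 := by rintro rfl; simp at h3
    have h4 : k ≤ 1 := (Nat.pow_le_pow_iff_right hp.out.one_lt).1 (by simpa using h2)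
    rw [show k = 1 by omega, pow_one]
  set C := f.ker with hCdef
  have hlt : Nat.card C < n := by
    rw [← hn, ← C.card_mul_index, hC]
    exact lt_mul_of_one_lt_right Nat.card_pos hp.out.one_lt
  have h2 := H27.central_pow_index_mem_commutator C ha ha'
  rw [hC, ← map_subtype_commutator] at h2
  obtain ⟨b, hb, hba⟩ := h2
  have hba' : (b : X) = a ^ p := hba
  have h3 := ih _ hlt C rfl (hX.to_subgroup C) b (by
    rw [mem_center_iff]
    intro y
    apply Subtype.ext
    rw [coe_mul, coe_mul, hba']
    exact mem_center_iff.1 (pow_mem ha p) y) hb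
  let W := (center C).map C.subtype
  have hZW : center X ≤ W := by
    intro y hy
    refine ⟨⟨y, ?_⟩, ?_, rfl⟩
    · exact commutatorElement_eq_one_iff_mul_comm.2 (mem_center_iff.1 hy z)
    · rw [SetLike.mem_coe, mem_center_iff]
      intro x
      exact Subtype.ext (mem_center_iff.1 hy x)
  have hzW : z ∈ W := by
    refine ⟨⟨z, commutatorElement_self z⟩, ?_, rfl⟩
    rw [SetLike.mem_coe, mem_center_iff]
    intro x
    exact Subtype.ext (commutatorElement_eq_one_iff_mul_comm.1 x.2).symm
  have h4 : p ≤ (center X).relIndex W := by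
    obtain ⟨k, hk⟩ := (hX.to_subgroup W).index ((center X).subgroupOf W)
    have h5 : (center X).relIndex W ≠ 1 := by
      rw [Ne, relIndex_eq_one]
      exact fun h => hz1 (h hzW)
    change (center X).relIndex W = _ at hk
    rw [hk] at h5 ⊢
    have : k ≠ 0 := by rintro rfl; simp at h5
    exact Nat.le_self_pow this p
  have h5 : orderOf a ≤ p * orderOf b := by
    apply Nat.le_of_dvd (Nat.mul_pos hp.out.pos (orderOf_pos b))
    apply orderOf_dvd_of_pow_eq_one
    rw [pow_mul, ← hba', ← coe_pow, pow_orderOf_eq_one, coe_one]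
  rw [← relIndex_mul_index hZW, index_map_subtype, hC]
  calc orderOf a ^ 2 ≤ (p * orderOf b) ^ 2 := Nat.pow_le_pow_left h5 2
    _ = p * (orderOf b ^ 2 * p) := by ring
    _ ≤ _ := Nat.mul_le_mul h4 (Nat.mul_le_mul_right _ h3)

/-- If `A` is the Schur multiplier of the finite group `Q`, then the square of the exponent of `A` divides the order of `Q`. -/
theorem result {Q : Type*} [Group Q] [Finite Q] {A : Type*} [CommGroup A] (hA : Cfsg.HasSchurMultiplier Q A) : Monoid.exponent A ^ 2 ∣ Nat.card Q := by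
  haveI := H27.schur_finite hA
  obtain ⟨⟨Γ, _, _, σ, hσ, ⟨e⟩⟩, -⟩ := hA
  have he : Monoid.exponent A ≠ 0 := Monoid.exponent_ne_zero_of_finite
  rw [← Nat.factorization_prime_le_iff_dvd (pow_ne_zero _ he) Nat.card_pos.ne']
  intro p hp
  haveI : Fact p.Prime := ⟨hp⟩
  obtain ⟨a, ha⟩ := hp.exists_orderOf_eq_pow_factorization_exponent A
  obtain ⟨x, rfl⟩ := e.surjective a
  rw [MulEquiv.orderOf_eq, ← orderOf_coe] at ha
  let P : Sylow p Γ := default
  have h1 := H27.central_pow_index_mem_commutator (P : Subgroup Γ) (hσ.2.1 x.2) (hσ.2.2 x.2)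
  rw [← map_subtype_commutator] at h1
  obtain ⟨y, hy, hyx⟩ := h1
  have hyx' : (y : Γ) = x ^ (P : Subgroup Γ).index := hyx
  have h2 := key p _ P rfl P.isPGroup' y (by
    rw [mem_center_iff]
    intro w
    apply Subtype.ext
    rw [coe_mul, coe_mul, hyx']
    exact mem_center_iff.1 (pow_mem (hσ.2.1 x.2) _) w) hy
  have h3 : orderOf y = p ^ (Monoid.exponent A).factorization p := by
    rw [← orderOf_coe, hyx', Nat.Coprime.orderOf_pow, ha]
    rw [ha]
    exact Nat.Coprime.pow_left _ ((Nat.Prime.coprime_iff_not_dvd hp).2 P.not_dvd_index)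
  obtain ⟨j, hj⟩ := P.isPGroup'.index (center P)
  have h4 : (center P).index ∣ Nat.card Q := by
    have h5 : σ.ker.subgroupOf P ≤ center P := by
      intro w hw
      rw [mem_center_iff]
      intro v
      exact Subtype.ext (mem_center_iff.1 (hσ.2.1 hw) v)
    refine (index_dvd_of_le h5).trans ((relIndex_dvd_index_of_normal σ.ker P).trans ?_)
    rw [index_ker, MonoidHom.range_eq_top.2 hσ.1, card_top]
  rw [h3, hj, ← pow_mul, Nat.pow_le_pow_iff_right hp.one_lt] at h2
  rw [hj, hp.pow_dvd_iff_le_factorization Nat.card_pos.ne'] at h4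
  rw [Nat.factorization_pow]
  simp only [Finsupp.smul_apply, smul_eq_mul]
  omega

end Cfsg.Agent.S3952
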