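import Cfsg.Statements.S3953
import Mathlib
import Cfsg.Agent.H27.Schur4

set_option autoImplicit false
open Cfsg

namespace Cfsg.Agent.S3953

/-- Let `P` be a Sylow `p`-subgroup of the finite group `G`, let `A` be the Schur multiplier of `G` and `B` that of `P`. Then the `p`-primary component of `A` is isomorphic to a direct factor of `B`: there are subgroups `C` and `D` of `B` meeting trivially and generating `B`, with `C` isomorphic to the `p`-primary component of `A`. -/
theorem result {G : Type*} [Group G] [Finite G] (p : ℕ) [Fact p.Prime] (P : Sylow p G) {A B : Type*} [CommGroup A] [CommGroup B] (hA : Cfsg.HasSchurMultiplier G A) (hB : Cfsg.HasSchurMultiplier P B) : ∃ C D : Subgroup B, C ⊓ D = ⊥ ∧ C ⊔ D = ⊤ ∧ Nonempty (CommGroup.primaryComponent A p ≃* C) := by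
  obtain ⟨i, t, h⟩ := H27.exists_schur_transfer (P : Subgroup G) hA hB
  have hcop : ∀ a ∈ CommGroup.primaryComponent A p, ∃ k : ℕ, (a ^ (P : Subgroup G).index) ^ k = a := by
    intro a ha
    obtain ⟨n, hn⟩ := CommGroup.mem_primaryComponent_iff_orderOf.1 ha
    apply exists_pow_eq_self_of_coprime
    rw [hn]
    exact Nat.Coprime.pow_right _
      ((Nat.Prime.coprime_iff_not_dvd Fact.out).2 P.not_dvd_index).symm
  let t' : CommGroup.primaryComponent A p →* B := t.comp (CommGroup.primaryComponent A p).subtype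
  have hinj : ∀ a ∈ CommGroup.primaryComponent A p, i (t a) = 1 → a = 1 := by
    intro a ha h1
    obtain ⟨k, hk⟩ := hcop a ha
    rw [← hk, ← h, h1, one_pow]
  have ht' : Function.Injective t' := by
    rw [injective_iff_map_eq_one]
    intro a ha
    apply Subtype.ext
    apply hinj a a.2
    have : t a = 1 := ha
    rw [this, map_one]
  refine ⟨t'.range, i.ker, ?_, ?_, ⟨MonoidHom.ofInjective ht'⟩⟩
  · rw [eq_bot_iff]
    rintro _ ⟨⟨a, rfl⟩, ha⟩
    have : a = 1 := Subtype.ext (hinj a a.2 ha)
    rw [this, map_one]; exact Subgroup.mem_bot.2 rfl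
  · rw [eq_top_iff]
    intro b _
    have hb : i b ∈ CommGroup.primaryComponent A p := by
      obtain ⟨n, hn⟩ := P.isPGroup'.exists_card_eq
      refine ⟨n, ?_⟩
      rw [← map_pow, ← hn, H27.schur_pow_card hB, map_one]
    obtain ⟨k, hk⟩ := hcop _ hb
    have h1 : b = t' (⟨i b, hb⟩ ^ k) * ((t' (⟨i b, hb⟩ ^ k))⁻¹ * b) := by group
    rw [h1]
    refine Subgroup.mul_mem_sup ⟨_, rfl⟩ ?_
    rw [MonoidHom.mem_ker, map_mul, map_inv]
    change (i (t ((i b) ^ k)))⁻¹ * i b = 1
    rw [h, ← pow_mul, mul_comm k, pow_mul, hk, inv_mul_cancel]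

end Cfsg.Agent.S3953
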