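import Cfsg.Statements.S3954
import Mathlib
import Cfsg.Agent.H27.Schur4

set_option autoImplicit false
open Cfsg

namespace Cfsg.Agent.S3954

/-- Let `U` be a subgroup of index `m` in the finite group `G`, let `A` be the Schur multiplier of `G` and `B` that of `U`. Then the subgroup of `m`-th powers of `A` is isomorphic to a subgroup of `B`. -/
theorem result {G : Type*} [Group G] [Finite G] (U : Subgroup G) {A B : Type*} [CommGroup A] [CommGroup B] (hA : Cfsg.HasSchurMultiplier G A) (hB : Cfsg.HasSchurMultiplier U B) : ∃ C : Subgroup B, Nonempty ((powMonoidHom U.index : A →* A).range ≃* C) := by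
  obtain ⟨i, t, h⟩ := H27.exists_schur_transfer U hA hB
  haveI := H27.schur_finite hB
  let f : t.range →* (powMonoidHom U.index : A →* A).range :=
    (i.comp t.range.subtype).codRestrict _ (by
      rintro ⟨_, a, rfl⟩
      exact ⟨a, (h a).symm⟩)
  have hf : Function.Surjective f := by
    rintro ⟨_, a, rfl⟩
    exact ⟨⟨t a, a, rfl⟩, Subtype.ext (h a)⟩
  obtain ⟨g, hg⟩ := H27.exists_injective_of_surjective f hf
  have hg' : Function.Injective (t.range.subtype.comp g) := t.range.subtype_injective.comp hg
  exact ⟨_, ⟨MonoidHom.ofInjective hg'⟩⟩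

end Cfsg.Agent.S3954
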