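import Cfsg.Statements.S3958
import Mathlib
import Cfsg.Agent.H27.Schur2

set_option autoImplicit false
universe u v
open Cfsg

namespace Cfsg.Agent.S3958

open scoped IsMulCommutative

/-- Let `σ : Γ →* Q` be a finite stem extension of the finite group `Q` with `Γ` of trivial Schur multiplier. Then `σ` is a Schur covering group of `Q`: for every finite stem extension `τ : Δ →* Q` with `Δ` in the same universe as `Q`, the kernel of `τ` is a homomorphic image of the kernel of `σ`. -/
theorem result {Q : Type u} [Group Q] [Finite Q] {Γ : Type v} [Group Γ] [Finite Γ] (σ : Γ →* Q) (hσ : Cfsg.IsStemExtension σ) (hΓ : Cfsg.HasCyclicSchurMultiplier Γ 1) (Δ : Type u) [Group Δ] [Finite Δ] (τ : Δ →* Q) (hτ : Cfsg.IsStemExtension τ) : ∃ π : σ.ker →* τ.ker, Function.Surjective π := by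
  obtain ⟨Γ₀, _, _, σ₀, h1, ⟨e⟩, β, hβ, hβσ⟩ := H27.exists_cover_onto hσ
  have hk : β.ker ≤ σ₀.ker := by
    intro x hx
    rw [MonoidHom.mem_ker, ← hβσ, MonoidHom.comp_apply, MonoidHom.mem_ker.1 hx, map_one]
  have h2 := H27.mult_eq_bot_of_trivial hΓ (ξ := β) ⟨hβ, hk.trans h1.2.1⟩
  have h3 : β.ker = ⊥ := by
    rw [← h2]; exact (inf_eq_left.2 (hk.trans h1.2.2)).symm
  have hinj : Function.Injective β := (MonoidHom.ker_eq_bot_iff _).1 h3
  have hb : Function.Bijective (H27.multMap β hβσ) :=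
    ⟨fun a b h => Subtype.ext (hinj (congrArg Subtype.val h)),
      H27.multMap_surjective h1.1 hσ.2.1 β hβσ⟩
  let f : σ.ker ≃* H27.stdM Q :=
    ((MulEquiv.subgroupCongr (H27.stem_mult hσ)).symm.trans (MulEquiv.ofBijective _ hb).symm).trans
      ((MulEquiv.subgroupCongr (H27.stem_mult h1)).trans e)
  obtain ⟨p, hp⟩ := H27.schur_onto_ker (H27.hasSchurMultiplier_std (Q := Q)) hτ
  exact ⟨p.comp f.toMonoidHom, hp.comp f.surjective⟩

end Cfsg.Agent.S3958
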