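import Cfsg.Statements.S3960
import Mathlib
import Cfsg.Agent.H27.Schur2

set_option autoImplicit false
universe u
open Cfsg

namespace Cfsg.Agent.S3960

open Subgroup

/-- A finite perfect group `Q` has a universal central extension: a finite perfect group `G` in the universe of `Q` and a surjective homomorphism `π : G →* Q` with central kernel such that for every group `X` in that universe and every surjective homomorphism `ξ : X →* Q` with central kernel there is exactly one homomorphism `η : G →* X` with `ξ ∘ η = π`. -/
theorem result {Q : Type u} [Group Q] [Finite Q] (hQ : Group.IsPerfect Q) : ∃ (G : Type u) (_ : Group G) (_ : Finite G) (π : G →* Q), Group.IsPerfect G ∧ Function.Surjective π ∧ π.ker ≤ Subgroup.center G ∧ ∀ (X : Type u) [Group X] (ξ : X →* Q), Function.Surjective ξ → ξ.ker ≤ Subgroup.center X → ∃! η : G →* X, ξ.comp η = π := by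
  let E := H27.stdE Q
  let ε : E →* Q := H27.stdMap Q
  have hε : H27.IsCentExt ε := H27.std_centExt Q
  let π : commutator E →* Q := ε.comp (commutator E).subtype
  have hπ : Function.Surjective π := by
    intro q
    have h1 : (commutator E).map ε = commutator Q := by
      rw [map_commutator_eq, MonoidHom.range_eq_top.2 hε.1]; rfl
    have h2 : q ∈ commutator Q := Group.IsPerfect.mem_commutator
    rw [← h1] at h2
    obtain ⟨x, hx, rfl⟩ := h2
    exact ⟨⟨x, hx⟩, rfl⟩
  have hperf : commutator (commutator E) = ⊤ := by
    have h1 := H27.map_commutator_of_lift hπ hε.2 (η := (commutator E).subtype) rfl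
    apply map_injective (commutator E).subtype_injective
    rw [h1, ← MonoidHom.range_eq_map, range_subtype]
  refine ⟨commutator E, inferInstance, H27.finite_commutator_of_ker_le_center hε.2, π,
    Group.isPerfect_def.2 hperf, hπ, ?_, ?_⟩
  · intro x hx
    rw [mem_center_iff]
    intro y
    exact Subtype.ext (mem_center_iff.1 (hε.2 hx) y)
  · intro X _ ξ h1 h2
    obtain ⟨η, hη⟩ := H27.hopf_lift' (H27.stdPres Q) (ξ := ξ) ⟨h1, h2⟩
    have h3 : ξ.comp (η.comp (commutator E).subtype) = π := by
      rw [← MonoidHom.comp_assoc, hη]
    refine ⟨η.comp (commutator E).subtype, h3, ?_⟩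
    intro η' hη'
    ext x
    exact H27.lift_eq_on_commutator h2 (hη'.trans h3.symm) (hperf ▸ mem_top x)

end Cfsg.Agent.S3960
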