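import Cfsg.Statements.S3961
import Mathlib
import Cfsg.Agent.H27.Schur2
import Cfsg.Agent.S3962

set_option autoImplicit false
universe u v
open Cfsg

namespace Cfsg.Agent.S3961

open Subgroup

/-- Let `π : G →* Q` be a surjective homomorphism with central kernel from a finite perfect group `G` (a perfect cover of `Q`). Then `π` is universal, in the sense that every surjective homomorphism `ξ : X →* Q` with central kernel from a group `X` in the universe of `G` admits a homomorphism `η : G →* X` with `ξ ∘ η = π`, if and only if `G` has trivial Schur multiplier. -/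
theorem result {G : Type u} {Q : Type v} [Group G] [Group Q] [Finite G] (hG : Group.IsPerfect G) (π : G →* Q) (hπ : Function.Surjective π) (hker : π.ker ≤ Subgroup.center G) : (∀ (X : Type u) [Group X] (ξ : X →* Q), Function.Surjective ξ → ξ.ker ≤ Subgroup.center X → ∃ η : G →* X, ξ.comp η = π) ↔ Cfsg.HasCyclicSchurMultiplier G 1 := by
  constructor
  · intro h
    rw [H27.trivial_mult_iff]
    intro Γ _ _ τ hτ
    have hΓ : commutator Γ = ⊤ := by
      rw [eq_top_iff]
      intro x _
      have h1 : (commutator Γ).map τ = commutator G := by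
        rw [map_commutator_eq, MonoidHom.range_eq_top.2 hτ.1]; rfl
      have h2 : τ x ∈ commutator G := Group.IsPerfect.mem_commutator
      rw [← h1] at h2
      obtain ⟨y, hy, hxy⟩ := h2
      have h3 : y⁻¹ * x ∈ τ.ker := by simp [MonoidHom.mem_ker, hxy]
      simpa using mul_mem hy (hτ.2.2 h3)
    have hc := S3962.result (Group.isPerfect_def.2 hΓ) τ hτ.1 hτ.2.1
    have hk : (π.comp τ).ker ≤ center Γ := by
      intro x hx
      have h1 : τ x ∈ center G := hker hx
      rw [← hc] at h1
      obtain ⟨y, hy, hxy⟩ := h1
      have h3 : y⁻¹ * x ∈ τ.ker := by simp [MonoidHom.mem_ker, hxy]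
      simpa using mul_mem hy (hτ.2.1 h3)
    obtain ⟨η, hη⟩ := h Γ (π.comp τ) (hπ.comp hτ.1) hk
    have h4 : τ.comp η = MonoidHom.id G := by
      ext x
      exact H27.lift_eq_on_commutator (η₁ := τ.comp η) (η₂ := MonoidHom.id G) hker hη
        Group.IsPerfect.mem_commutator
    have h5 := H27.surjective_of_lift_stem Function.surjective_id hτ h4
    rw [eq_bot_iff]
    intro x hx
    obtain ⟨y, rfl⟩ := h5 x
    have : y = 1 := (DFunLike.congr_fun h4 y).symm.trans hx
    rw [this, map_one]; exact mem_bot.2 rfl
  · intro h X _ ξ h1 h2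
    let Y : Subgroup (G × X) := (π.comp (MonoidHom.fst G X)).eqLocus (ξ.comp (MonoidHom.snd G X))
    let p : Y →* G := (MonoidHom.fst G X).comp Y.subtype
    have hp : H27.IsCentExt p := by
      constructor
      · intro g
        obtain ⟨x, hx⟩ := h1 (π g)
        exact ⟨⟨(g, x), hx.symm⟩, rfl⟩
      · rintro ⟨⟨g, x⟩, hgx⟩ hy
        have hg : g = 1 := hy
        have hx : ξ x = 1 := by
          have : π g = ξ x := hgx
          rw [← this, hg, map_one]
        rw [mem_center_iff]
        rintro ⟨⟨g', x'⟩, h'⟩
        apply Subtype.ext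
        apply Prod.ext
        · simp [hg]
        · exact mem_center_iff.1 (h2 hx) x'
    have hm := H27.mult_eq_bot_of_trivial h hp
    let q : commutator Y →* G := p.comp (commutator Y).subtype
    have hq : Function.Bijective q := by
      constructor
      · rw [injective_iff_map_eq_one]
        rintro ⟨y, hy⟩ h0
        have : y ∈ H27.mult p := ⟨h0, hy⟩
        rw [hm] at this
        exact Subtype.ext this
      · intro g
        have h3 : (commutator Y).map p = commutator G := by
          rw [map_commutator_eq, MonoidHom.range_eq_top.2 hp.1]; rfl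
        have h4 : g ∈ commutator G := Group.IsPerfect.mem_commutator
        rw [← h3] at h4
        obtain ⟨y, hy, rfl⟩ := h4
        exact ⟨⟨y, hy⟩, rfl⟩
    let e := MulEquiv.ofBijective q hq
    refine ⟨((MonoidHom.snd G X).comp Y.subtype).comp
      ((commutator Y).subtype.comp e.symm.toMonoidHom), ?_⟩
    ext g
    obtain ⟨y, rfl⟩ := e.surjective g
    have : e.symm (e y) = y := e.symm_apply_apply y
    change ξ ((e.symm (e y) : Y) : G × X).2 = π (e y)
    rw [this]
    exact y.1.2.symm

end Cfsg.Agent.S3961
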