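import Cfsg.Statements.S3963
import Mathlib
import Cfsg.Agent.H27.CycExt

set_option autoImplicit false
open Cfsg

namespace Cfsg.Agent.S3963

open Subgroup QuaternionGroup
open scoped commutatorElement

theorem mem_zp {n : ℕ} [NeZero n] (i : ZMod (2 * n)) :
    (a i : QuaternionGroup n) ∈ zpowers (a 1 : QuaternionGroup n) := by
  haveI : NeZero (2 * n) := ⟨by have := NeZero.ne n; omega⟩
  exact ⟨(i.val : ℕ), by simp only [zpow_natCast, a_one_pow, ZMod.natCast_zmod_val]⟩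

theorem mem_zp' {n : ℕ} {x : QuaternionGroup n} (h : x ∈ zpowers (a 1 : QuaternionGroup n)) :
    ∃ i, x = a i := by
  let H : Subgroup (QuaternionGroup n) :=
    { carrier := {x | ∃ i, x = a i}
      mul_mem' := by rintro _ _ ⟨i, rfl⟩ ⟨j, rfl⟩; exact ⟨_, rfl⟩
      one_mem' := ⟨0, rfl⟩
      inv_mem' := by rintro _ ⟨i, rfl⟩; exact ⟨-i, rfl⟩ }
  exact (zpowers_le (H := H)).2 ⟨1, rfl⟩ h

theorem normal_zp (n : ℕ) [NeZero n] : (zpowers (a 1 : QuaternionGroup n)).Normal := by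
  constructor
  intro x hx g
  obtain ⟨i, rfl⟩ := mem_zp' hx
  rcases g with j | j
  · exact mem_zp _
  · exact mem_zp _

theorem gen (n : ℕ) [NeZero n] :
    zpowers (a 1 : QuaternionGroup n) ⊔ zpowers (xa 0 : QuaternionGroup n) = ⊤ := by
  rw [eq_top_iff]
  rintro (i | i) -
  · exact mem_sup_left (mem_zp i)
  · have : (xa i : QuaternionGroup n) = a (-i) * xa 0 := by simp
    rw [this]
    exact mul_mem_sup (mem_zp _) (mem_zpowers _)

theorem comm_eq (n : ℕ) : ⁅(xa 0 : QuaternionGroup n), (a 1 : QuaternionGroup n)⁆ =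
    ((a 1 : QuaternionGroup n) ^ 2)⁻¹ := by
  rw [commutatorElement_def, mul_inv_eq_iff_eq_mul, mul_inv_eq_iff_eq_mul, eq_comm,
    mul_assoc, inv_mul_eq_iff_eq_mul, sq]
  simp

/-- For every `n ≥ 1` the dicyclic (generalized quaternion) group of order `4 n` has trivial Schur multiplier. -/
theorem result (n : ℕ) [NeZero n] : Cfsg.HasCyclicSchurMultiplier (QuaternionGroup n) 1 := by
  rw [H27.trivial_mult_iff]
  intro Γ _ _ τ hτ
  obtain ⟨x, hx⟩ := hτ.1 (a 1)
  obtain ⟨y, hy⟩ := hτ.1 (xa 0)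
  haveI : (zpowers (τ x)).Normal := hx ▸ normal_zp n
  have h1 := H27.meta_card_ker hτ x y (by rw [hx, hy]; exact gen n)
  have h2 := H27.meta_comm_pow_eq_one hτ.2.1 x y n 2 (by rw [hx, hy]; simp)
  rw [hx, hy, comm_eq, orderOf_inv, orderOf_pow' _ two_ne_zero, orderOf_a_one] at h1
  have h3 : 2 * n / (2 * n).gcd 2 = n := by simp
  rw [h3] at h1
  have h4 := orderOf_dvd_of_pow_eq_one h2
  rw [← h1] at h4
  have h5 : Nat.card τ.ker ∣ 1 :=
    Nat.dvd_of_mul_dvd_mul_right (NeZero.pos n) (by simpa using h4)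
  exact Subgroup.card_eq_one.1 (Nat.dvd_one.1 h5)

end Cfsg.Agent.S3963
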