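import Cfsg.Statements.S3966
import Mathlib

set_option autoImplicit false
open Cfsg

namespace Cfsg.Agent.S3966

open Subgroup
open scoped commutatorElement

/-- The projection of the dicyclic group onto the dihedral group. -/
def proj (n : ℕ) : QuaternionGroup n →* DihedralGroup n :=
  MonoidHom.mk' (fun x => match x with
    | QuaternionGroup.a i => DihedralGroup.r (ZMod.castHom (dvd_mul_left n 2) (ZMod n) i)
    | QuaternionGroup.xa i => DihedralGroup.sr (ZMod.castHom (dvd_mul_left n 2) (ZMod n) i))
    (by
      rintro (i | i) (j | j)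
      · simp only [QuaternionGroup.a_mul_a, map_add, DihedralGroup.r_mul_r]
      · simp only [QuaternionGroup.a_mul_xa, map_sub, DihedralGroup.r_mul_sr]
      · simp only [QuaternionGroup.xa_mul_a, map_add, DihedralGroup.sr_mul_r]
      · simp only [QuaternionGroup.xa_mul_xa, map_add, map_sub, DihedralGroup.sr_mul_sr,
          map_natCast, ZMod.natCast_self, zero_add])

theorem proj_a (n : ℕ) (i : ZMod (2 * n)) : proj n (QuaternionGroup.a i) =
    DihedralGroup.r (ZMod.castHom (dvd_mul_left n 2) (ZMod n) i) := rfl

theorem proj_xa (n : ℕ) (i : ZMod (2 * n)) : proj n (QuaternionGroup.xa i) =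
    DihedralGroup.sr (ZMod.castHom (dvd_mul_left n 2) (ZMod n) i) := rfl

theorem ker_proj (n : ℕ) [NeZero n] :
    (proj n).ker = zpowers (QuaternionGroup.a (n : ZMod (2 * n))) := by
  haveI : NeZero (2 * n) := ⟨by have := NeZero.ne n; omega⟩
  apply le_antisymm
  · rintro (i | i) h
    · rw [MonoidHom.mem_ker, proj_a, DihedralGroup.one_def, DihedralGroup.r.injEq] at h
      have h1 : ((i.val : ℕ) : ZMod n) = 0 := by
        rw [← h, ← map_natCast (ZMod.castHom (dvd_mul_left n 2) (ZMod n)), ZMod.natCast_zmod_val]
      obtain ⟨k, hk⟩ := (ZMod.natCast_eq_zero_iff _ _).1 h1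
      refine ⟨(k : ℕ), ?_⟩
      simp only [zpow_natCast]
      rw [← QuaternionGroup.a_one_pow, ← pow_mul, QuaternionGroup.a_one_pow, ← hk,
        ZMod.natCast_zmod_val]
    · rw [MonoidHom.mem_ker, proj_xa, DihedralGroup.one_def] at h
      cases h
  · rw [zpowers_le, MonoidHom.mem_ker, proj_a]
    simp

/-- For even `n ≥ 2` the dicyclic group of order `4 n` is a stem extension of the dihedral group of order `2 n` with kernel of order `2`: there is a surjective homomorphism `QuaternionGroup n →* DihedralGroup n` whose kernel is central, lies in the commutator subgroup and has two elements. Together with the order of the multiplier this exhibits the dicyclic group as a Schur covering group of the dihedral group. -/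
theorem result (n : ℕ) [NeZero n] (hn : Even n) : ∃ σ : QuaternionGroup n →* DihedralGroup n, Cfsg.IsStemExtension σ ∧ Nat.card σ.ker = 2 := by
  haveI : NeZero (2 * n) := ⟨by have := NeZero.ne n; omega⟩
  have h2 : (2 * n : ZMod (2 * n)) = 0 := by exact_mod_cast ZMod.natCast_self (2 * n)
  refine ⟨proj n, ⟨?_, ?_, ?_⟩, ?_⟩
  · rintro (i | i)
    · obtain ⟨j, rfl⟩ := ZMod.castHom_surjective (dvd_mul_left n 2) i
      exact ⟨QuaternionGroup.a j, rfl⟩
    · obtain ⟨j, rfl⟩ := ZMod.castHom_surjective (dvd_mul_left n 2) i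
      exact ⟨QuaternionGroup.xa j, rfl⟩
  · rw [ker_proj, zpowers_le, mem_center_iff]
    rintro (i | i)
    · simp [add_comm]
    · simp only [QuaternionGroup.xa_mul_a, QuaternionGroup.a_mul_xa, QuaternionGroup.xa.injEq]
      linear_combination h2
  · rw [ker_proj, zpowers_le]
    obtain ⟨k, hk⟩ := hn
    have : QuaternionGroup.a (n : ZMod (2 * n)) =
        ⁅QuaternionGroup.a (k : ZMod (2 * n)), QuaternionGroup.xa 0⁆ := by
      rw [commutatorElement_def, eq_mul_inv_iff_mul_eq, eq_mul_inv_iff_mul_eq]
      simp only [QuaternionGroup.xa_mul_a, QuaternionGroup.a_mul_xa, QuaternionGroup.xa.injEq]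
      have : (n : ZMod (2 * n)) = k + k := by rw [← Nat.cast_add, ← hk]
      rw [this]; ring
    rw [this]
    exact commutator_mem_commutator (mem_top _) (mem_top _)
  · rw [ker_proj, Nat.card_zpowers, ← QuaternionGroup.a_one_pow, orderOf_pow' _ (NeZero.ne n),
      QuaternionGroup.orderOf_a_one, Nat.gcd_eq_right (dvd_mul_left n 2),
      Nat.mul_div_cancel _ (NeZero.pos n)]

end Cfsg.Agent.S3966
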