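import Cfsg.Statements.S3969
import Mathlib
import Cfsg.Agent.H4.Cyc2

set_option autoImplicit false
open Cfsg

namespace Cfsg.Agent.S3969

/-- Let `P` be an abelian Sylow `p`-subgroup of the finite group `G`, generated by `d` elements (`d` its minimal number of generators). If the order of `G` is coprime to `(p - 1)(p ^ 2 - 1) ⋯ (p ^ d - 1)`, then `G` has a normal `p`-complement. (The classical statement needs only the largest number of cyclic factors of `P` of equal order in place of `d`; the form here follows from it.) -/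
theorem result {G : Type*} [Group G] [Finite G] (p : ℕ) [Fact p.Prime] (P : Sylow p G) (hab : IsMulCommutative (P : Subgroup G)) (hcop : Nat.Coprime (Nat.card G) (∏ i ∈ Finset.Icc 1 (Group.rank (P : Subgroup G)), (p ^ i - 1))) : Cfsg.HasNormalPComplement p G := by
  open Subgroup Cfsg.Agent.H22 Cfsg.Agent.H4 in
  refine hasNPC_of_abelian_sylow P hab fun g hg ho => ?_
  refine le_of_forall_syl (H := zpowers g) (fun q hq => ?_) (mem_zpowers g)
  have := Fact.mk hq
  obtain ⟨R, hR⟩ := exists_sylIn q (zpowers g)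
  refine ⟨R, hR, ?_⟩
  by_cases h0 : R = ⊥
  · simp [h0]
  have h1 : q ∣ orderOf g := (pgrp_dvd_card hR.2 h0).trans (Nat.card_zpowers g ▸ card_dvd_of_le hR.1)
  by_contra hc
  obtain ⟨c, c1, c2, c3⟩ := dvd_of_frattini (q := q) (n := Group.rank (P : Subgroup G))
    (fun e => (Nat.Prime.coprime_iff_not_dvd Fact.out).1 ho.symm (by rw [← e]; exact h1)) P.isPGroup'
    (H3.index_frattini_eq_pow_rank P.isPGroup').le hR.2 (hR.1.trans (zpowers_le.2 hg)) hc
  exact hq.one_lt.ne' (Nat.eq_one_of_dvd_coprimes hcop (h1.trans (orderOf_dvd_natCard g))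
    (c3.trans (Finset.dvd_prod_of_mem _ (Finset.mem_Icc.2 ⟨c1, c2⟩))))

end Cfsg.Agent.S3969
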