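import Cfsg.Statements.S3970
import Mathlib
import Cfsg.Agent.H27.Misc
import Cfsg.Agent.H28.AutP
import Cfsg.Agent.H3.Frattini
import Cfsg.Agent.H1.Supersolv

set_option autoImplicit false
open Cfsg

namespace Cfsg.Agent.S3970

open Subgroup Cfsg.Agent.FT
open scoped commutatorElement

/-- Let `G` be a finite group such that for every prime `p` dividing its order, other than the largest such prime, the Sylow `p`-subgroups are abelian and generated by at most two elements, and suppose `12` does not divide the order of `G`. Then `G` is solvable. In particular a group of cube-free order not divisible by `12` is solvable. -/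
theorem result {G : Type*} [Group G] [Finite G] (h : ∀ p : ℕ, p.Prime → p ∣ Nat.card G → (∃ q : ℕ, q.Prime ∧ q ∣ Nat.card G ∧ p < q) → ∀ P : Sylow p G, IsMulCommutative (P : Subgroup G) ∧ Group.rank (P : Subgroup G) ≤ 2) (h12 : ¬ 12 ∣ Nat.card G) : Group.IsSolvable G := by
  suffices H : ∀ n (M : Subgroup G), #M = n → IsHall M ⊤ → Sol M from
    sol_top.1 (H _ ⊤ rfl (isHall_self _))
  intro n
  induction n using Nat.strong_induction_on with
  | _ n ih =>
  intro M hn hM
  by_cases h1 : M = ⊥
  · exact h1 ▸ sol_bot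
  have hp : (#M).minFac.Prime := Nat.minFac_prime (one_lt_card h1).ne'
  have hpM := (#M).minFac_dvd
  have hmin : ∀ q, q.Prime → q ∣ #M → (#M).minFac ≤ q := fun q hq hd =>
    Nat.minFac_le_of_dvd hq.two_le hd
  set p := (#M).minFac
  haveI := Fact.mk hp
  by_cases hP : PGrp p M
  · exact hP.sol
  have hG : #M ∣ Nat.card G := card_subgroup_dvd_card M
  obtain ⟨P, hS⟩ := exists_syl p M
  obtain ⟨T, rfl⟩ := (syl_top_iff hp).1 (hM.hall.subHall_syl ⟨hp, hpM⟩ hS)
  obtain ⟨hab, hr⟩ := h p hp (hpM.trans hG) (by
    by_contra hc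
    refine hP fun q hq hd => le_antisymm (not_lt.1 fun hlt => hc ⟨q, hq, hd.trans hG, hlt⟩)
      (hmin q hq hd)) T
  have hnpc : NPC p M := by
    refine Burnside_normal_complement hS (relIndex_eq_one.1 ?_)
    by_contra hne
    obtain ⟨q, hq, hd⟩ := Nat.exists_prime_and_dvd hne
    have hqp : q ≠ p := by
      rintro rfl
      exact (hS.subnorm.relIndex_of_le (Ab.le_cen hab)).not_dvd hp rfl hd
    have hqM : q ∣ #M := hd.trans ((relIndex_dvd _ _).trans (card_dvd inf_le_left))
    have hlt : p < q := lt_of_le_of_ne (hmin q hq hqM) hqp.symm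
    obtain ⟨k, hk⟩ := hS.pi.card
    have h2 := (hd.trans (relIndex_cen_dvd_card_aut inf_le_right)).trans
      (H28.card_mulAut_dvd hk (H3.index_frattini_eq_pow_rank T.isPGroup'))
    have hpp : ∀ j, ¬ q ∣ p ^ j := fun j h =>
      hqp ((Nat.prime_dvd_prime_iff_eq hq hp).1 (hq.dvd_of_dvd_pow h))
    have hp1 : ¬ q ∣ p - 1 := fun h => by
      have := Nat.le_of_dvd (by have := hp.two_le; omega) h
      omega
    replace h2 := ((Nat.Prime.dvd_mul hq).1 h2).resolve_left (hpp _)
    have hidx := (H3.index_frattini_eq_pow_rank T.isPGroup').symm ▸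
      index_dvd_card (frattini (T : Subgroup G))
    generalize Group.rank (T : Subgroup G) = r at hr h2 hidx
    interval_cases r
    · exact hq.one_lt.ne' (by simpa using h2)
    · exact hp1 (by simpa using h2)
    · have e1 : p ^ 2 - p ^ 0 = (p + 1) * (p - 1) := by
        rw [pow_zero, ← Nat.sq_sub_sq, one_pow]
      have e2 : p ^ 2 - p ^ 1 = p ^ 1 * (p - 1) := by
        rw [Nat.mul_sub_one, ← pow_succ]
      rw [Finset.prod_range_succ, Finset.prod_range_one, e1, e2] at h2
      simp only [Nat.Prime.dvd_mul hq, hp1, hpp, or_false] at h2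
      have h3 : q = p + 1 := le_antisymm (Nat.le_of_dvd p.succ_pos h2) hlt
      have h4 : p = 2 := by
        rcases hp.eq_two_or_odd' with h | h
        · exact h
        · have := hq.even_iff.1 (h3 ▸ h.add_one)
          have := hp.two_le
          omega
      replace hidx := hidx.trans (card_subgroup_dvd_card _)
      rw [h4] at h3 hidx
      exact h12 (Nat.Coprime.mul_dvd_of_dvd_of_dvd (m := 4) (n := 3) (by norm_num)
        hidx (by have := hqM.trans hG; rwa [h3] at this))
  have hsd := hnpc.sd hS
  exact hsd.sol (ih _ (hn ▸ card_lt (hsd.lt_of_ne (hS.syl_ne_bot ⟨hp, hpM⟩))) _ rfl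
    (hnpc.hall.isHall.trans' hM)) hS.pi.sol

end Cfsg.Agent.S3970
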