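import Cfsg.Statements.S3971
import Mathlib
import Cfsg.Agent.H4.Cyc2

set_option autoImplicit false
open Cfsg

namespace Cfsg.Agent.S3971

/-- Let `G` be a finite group of order `2 ^ a * n` with `n` odd and not divisible by `3`, and suppose `G` has an element of order `2 ^ (a - 1)` (so a Sylow `2`-subgroup has a cyclic subgroup of index at most `2`). Then `G` has a normal subgroup of order `n`. -/
theorem result {G : Type*} [Group G] [Finite G] (a n : ℕ) (hG : Nat.card G = 2 ^ a * n) (hn : Odd n) (h3 : ¬ 3 ∣ n) (hx : ∃ x : G, orderOf x = 2 ^ (a - 1)) : ∃ N : Subgroup G, N.Normal ∧ Nat.card N = n := by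
  open Subgroup Cfsg.Agent.H22 Cfsg.Agent.H4 in
  obtain ⟨x, hx⟩ := hx
  obtain ⟨P, hP⟩ := (isPGroup_zpowers_of_orderOf hx).exists_le_sylow
  have hn2 : n.Coprime 2 := Nat.coprime_two_right.2 hn
  have h1 : Nat.card (P : Subgroup G) = 2 ^ a := by
    rw [P.card_eq_multiplicity, hG, Nat.factorization_mul (by positivity) hn.pos.ne', Finsupp.add_apply,
      Nat.factorization_eq_zero_of_not_dvd hn.not_two_dvd_nat, Nat.prime_two.factorization_pow]
    simp
  have hi : (zpowers x).relIndex P ∣ 2 := by
    have h2 := H22.card_mul_relIndex hP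
    rw [Nat.card_zpowers, hx, h1] at h2
    rcases a with _ | a
    · simp at h2; simp [h2]
    · rw [add_tsub_cancel_right, pow_succ] at h2
      rw [Nat.eq_of_mul_eq_mul_left (by positivity) h2]
  have key : HasNormalPComplement 2 G := hasNPC_of_forall_le_sylow P fun Q hQ _ g hg ho => by
    by_contra hc
    obtain ⟨u, -, -, -, h6⟩ := cyc2' P.isPGroup' hi hQ hg ho hc
    have := (h6.three_dvd ho).trans (orderOf_dvd_natCard g)
    rw [hG] at this
    exact h3 ((Nat.Coprime.pow_right a (by norm_num)).dvd_of_dvd_mul_left this)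
  refine ⟨pResidual 2 G, inferInstance, ?_⟩
  have := (hasNPC_isComplement' key P).card_mul
  rw [h1, hG, mul_comm] at this
  exact Nat.eq_of_mul_eq_mul_left (by positivity) this

end Cfsg.Agent.S3971
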