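import Cfsg.Statements.S3972
import Mathlib
import Cfsg.Agent.H1.SRing
import Cfsg.Agent.H6.Misc

set_option autoImplicit false
open Cfsg

namespace Cfsg.Agent.S3972

open MulAction
open scoped Pointwise

/-- Let `p` be a prime, `m ≥ 2`, and `G` a transitive but not doubly transitive permutation group on `p ^ m` points containing a permutation of order `p ^ m` (necessarily a full cycle). Then `G` is imprimitive, and the normal closure in `G` of the `p ^ (m - 1)`-th power of that permutation is an intransitive normal subgroup. -/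
theorem result {Ω : Type*} [Fintype Ω] [DecidableEq Ω] (p m : ℕ) (hp : p.Prime) (hm : 2 ≤ m) (hΩ : Fintype.card Ω = p ^ m) (G : Subgroup (Equiv.Perm Ω)) (htr : MulAction.IsPretransitive G Ω) (h2 : ¬ MulAction.IsMultiplyPretransitive G Ω 2) (g : G) (hg : orderOf g = p ^ m) : ¬ MulAction.IsPreprimitive G Ω ∧ ¬ MulAction.IsPretransitive (Subgroup.normalClosure ({g ^ (p ^ (m - 1))} : Set G)) Ω := by
  classical
  have hpos : 0 < m := by omega
  have hex : ∃ a : Ω, period g a = p ^ m := by
    by_contra hne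
    push Not at hne
    have : g ^ p ^ (m - 1) = 1 := by
      apply Cfsg.Agent.H16.eq_one_of_smul_eq (α := Ω)
      intro a
      have h1 := period_dvd_orderOf g a
      rw [hg] at h1
      obtain ⟨j, hj, e⟩ := (Nat.dvd_prime_pow hp).1 h1
      have : j ≠ m := fun h => hne a (h ▸ e)
      rw [pow_smul_eq_iff_period_dvd, e]
      exact pow_dvd_pow _ (by omega)
    have h2 := orderOf_dvd_of_pow_eq_one this
    rw [hg, Nat.pow_dvd_pow_iff_le_right hp.one_lt] at h2
    omega
  obtain ⟨a, ha⟩ := hex
  set C := Subgroup.zpowers g with hC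
  have hcard : Nat.card C = p ^ m := by rw [hC, Nat.card_zpowers, hg]
  have hb : Function.Bijective fun k : C => C.subtype k • a := by
    rw [Nat.bijective_iff_injective_and_card, hcard, Nat.card_eq_fintype_card, hΩ]
    refine ⟨?_, rfl⟩
    intro x y h
    have h1 : ((x⁻¹ * y : C) : G) • a = a := by
      simp only [Subgroup.coe_subtype] at h
      rw [Subgroup.coe_mul, mul_smul, ← h, Subgroup.coe_inv, inv_smul_smul]
    obtain ⟨k, hk⟩ := (x⁻¹ * y).2
    rw [← hk, zpow_smul_eq_iff_period_dvd, ha, ← hg, orderOf_dvd_iff_zpow_eq_one] at h1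
    rw [← inv_mul_eq_one]
    exact Subtype.ext (hk.symm.trans h1)
  have hnp : ¬ IsPreprimitive G Ω := by
    intro h
    apply h2
    refine Cfsg.Agent.H1.two_trans_of_cyclic C.subtype a hb fun h => ?_
    rw [hcard] at h
    have := h.eq_one_of_pow
    omega
  refine ⟨hnp, fun htr' => hnp ?_⟩
  refine IsPreprimitive.of_isTrivialBlock_base a fun {B} haB hB => ?_
  by_contra hnt
  rw [IsTrivialBlock, not_or] at hnt
  obtain ⟨b, hbB, hba⟩ : ∃ b ∈ B, b ≠ a := by
    by_contra h
    push Not at h
    exact hnt.1 fun x hx y hy => (h x hx).trans (h y hy).symm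
  obtain ⟨u, hu⟩ := hb.2 b
  simp only [Subgroup.coe_subtype] at hu
  have huB : (u : G) • B = B := hB.smul_eq_of_mem haB (hu ▸ hbB)
  have hu1 : (u : G) ≠ 1 := by
    intro h; rw [h, one_smul] at hu; exact hba hu.symm
  -- the element of order `p` is a power of `u`
  have hz : g ^ p ^ (m - 1) ∈ stabilizer G B := by
    have hz1 : g ^ p ^ (m - 1) ∈ C := Subgroup.pow_mem _ (Subgroup.mem_zpowers g) _
    have ho : orderOf u ∣ p ^ m := hcard ▸ orderOf_dvd_natCard u
    obtain ⟨j, hj, e⟩ := (Nat.dvd_prime_pow hp).1 ho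
    have hj0 : j ≠ 0 := by
      rintro rfl
      rw [pow_zero, orderOf_eq_one_iff] at e
      exact hu1 (by simp [e])
    have ho2 : orderOf (u ^ p ^ (j - 1)) = p := by
      rw [orderOf_pow' _ (pow_pos hp.pos _).ne', e, Nat.gcd_eq_right (pow_dvd_pow _ (by omega)),
        Nat.pow_div (by omega) hp.pos, show j - (j - 1) = 1 by omega, pow_one]
    have h3 : (⟨_, hz1⟩ : C) ^ p = 1 := by
      apply Subtype.ext
      simp only [SubmonoidClass.mk_pow, OneMemClass.coe_one]
      rw [← pow_mul, ← pow_succ, show m - 1 + 1 = m by omega, ← hg, pow_orderOf_eq_one]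
    obtain ⟨k, hk⟩ := Cfsg.Agent.H6.mem_of_isCyclic_of_orderOf_eq_prime hp h3 ho2
    have hk' := congrArg Subtype.val hk
    simp only at hk'
    rw [← hk']
    simpa using zpow_mem (pow_mem (mem_stabilizer_iff.2 huB) (p ^ (j - 1))) k
  have hker : Subgroup.normalClosure ({g ^ p ^ (m - 1)} : Set G) ≤ (stabilizer G B).normalCore := by
    apply Subgroup.normalClosure_le_normal
    rintro _ rfl
    intro x
    obtain ⟨c, hc⟩ := hb.2 (x⁻¹ • a)
    simp only [Subgroup.coe_subtype] at hc
    have h1 : x * c ∈ stabilizer G B :=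
      hB.smul_eq_of_mem haB (by rw [mul_smul, hc, smul_inv_smul]; exact haB)
    have h2 : (c : G) * g ^ p ^ (m - 1) = g ^ p ^ (m - 1) * c := by
      obtain ⟨k, hk⟩ := c.2
      rw [← hk]
      exact ((Commute.refl g).zpow_left k).pow_right _
    have h3 : x * g ^ p ^ (m - 1) * x⁻¹ = (x * c) * g ^ p ^ (m - 1) * (x * c)⁻¹ := by
      rw [mul_assoc x c, h2]; group
    rw [h3]
    exact mul_mem (mul_mem h1 hz) (inv_mem h1)
  apply hnt.2
  rw [Set.eq_univ_iff_forall]
  intro y
  obtain ⟨x, hx⟩ := htr'.exists_smul_eq a y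
  have h1 := Subgroup.normalCore_le _ (hker x.2)
  rw [← hx, ← mem_stabilizer_iff.1 h1]
  exact Set.smul_mem_smul_set haB

end Cfsg.Agent.S3972
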