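import Cfsg.Statements.S3976
import Mathlib
import Cfsg.Agent.H27.Count

set_option autoImplicit false
open Cfsg

namespace Cfsg.Agent.S3976

open Subgroup Cfsg.Agent.FT

/-- Let `p` be a prime and `G` a group of order `p ^ m`. For every `s ≤ m` the number of normal subgroups of `G` of order `p ^ s` is congruent to `1` modulo `p`. -/
theorem result {G : Type*} [Group G] [Finite G] (p m s : ℕ) (hp : p.Prime) (hG : Nat.card G = p ^ m) (hs : s ≤ m) : Nat.card {H : Subgroup G // H.Normal ∧ Nat.card H = p ^ s} ≡ 1 [MOD p] := by
  have := H27.ncard_nml_modEq hp (P := (⊤ : Subgroup G)) (pGrp_of_card hp (card_top'.trans hG))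
    (Nml.refl _) (s := s) (by rw [card_top', hG]; exact pow_dvd_pow p hs)
  simp only [le_top, true_and, nml_top_iff] at this
  exact this

end Cfsg.Agent.S3976
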