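import Cfsg.Statements.S3977
import Mathlib
import Cfsg.Agent.H27.Count
import Cfsg.Agent.H8.Rank1

set_option autoImplicit false
open Cfsg

namespace Cfsg.Agent.S3977

open Subgroup Cfsg.Agent.FT

/-- Let `p` be a prime and `G` a group of order `p ^ m` which has exactly one subgroup of order `p ^ s`, where `1 ≤ s < m`, and where `s ≥ 2` if `p = 2`. Then `G` is cyclic. (For `p = 2` and `s = 1` the generalized quaternion groups also occur; that case is the classical criterion for a unique involution.) -/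
theorem result {G : Type*} [Group G] [Finite G] (p m s : ℕ) (hp : p.Prime) (hG : Nat.card G = p ^ m) (hs : 1 ≤ s) (hsm : s < m) (h2 : p ≠ 2 ∨ 2 ≤ s) (huniq : ∀ H K : Subgroup G, Nat.card H = p ^ s → Nat.card K = p ^ s → H = K) : IsCyclic G := by
  haveI := Fact.mk hp
  have hT : #(⊤ : Subgroup G) = p ^ m := card_top'.trans hG
  have hP : PGrp p (⊤ : Subgroup G) := pGrp_of_card hp hT
  have hle : ∀ k, k ≤ m → p ^ k ≤ #(⊤ : Subgroup G) := fun k hk =>
    hT ▸ Nat.pow_le_pow_right hp.pos hk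
  obtain ⟨H, -, -, hH⟩ := hP.exists_between hp bot_le (n := s)
    (by rw [card_bot']; exact Nat.pow_pos hp.pos) (hle s hsm.le)
  have hsub : ∀ X : Subgroup G, #X ≤ p ^ s → X ≤ H := fun X hX => by
    obtain ⟨Q, h1, -, h2⟩ := hP.exists_between hp le_top hX (hle s hsm.le)
    exact huniq Q H h2 hH ▸ h1
  obtain ⟨K, hHK, -, hK⟩ := hP.exists_between hp (H := H) le_top (n := s + 1)
    (hH ▸ Nat.pow_le_pow_right hp.pos s.le_succ) (hle _ hsm)
  have hcyc : Cyc H := by
    obtain ⟨x, hx, hx'⟩ := SetLike.exists_of_lt (lt_of_card_lt hHK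
      (by rw [hH, hK]; exact Nat.pow_lt_pow_right hp.one_lt s.lt_succ_self))
    refine (cyc_zpowers x).mono (hHK.trans (le_of_eq ?_))
    by_contra hne
    have hlt : ⟪x⟫ < K := lt_of_le_of_ne (zpowers_le.2 hx) (Ne.symm hne)
    have := (hP.mono le_top).mul_card_le hlt
    rw [hK, pow_succ'] at this
    exact hx' (hsub _ (Nat.le_of_mul_le_mul_left this hp.pos) (mem_zpowers x))
  have hone : ∀ X : Subgroup G, #X = p → X = Ω[p](H) := fun X hX =>
    hcyc.eq_Ohm hp (hsub X (by rw [hX]; exact Nat.le_self_pow (by omega) p)) hX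
  by_cases hp2 : p = 2
  · subst hp2
    rcases H8.cyclic_or_quaternion (G := G) (IsPGroup.of_card hG) (fun a b ha hb => by
      have e : ⟪a⟫ = ⟪b⟫ := (hone _ (by rw [card_zpowers', ha])).trans
        (hone _ (by rw [card_zpowers', hb])).symm
      obtain ⟨k, hk⟩ := mem_powers_iff_mem_zpowers.2 (e ▸ mem_zpowers a : a ∈ ⟪b⟫)
      have hb2 : b ^ 2 = 1 := hb ▸ pow_orderOf_eq_one b
      rcases k.even_or_odd' with ⟨j, rfl | rfl⟩
      · simp only [pow_mul, hb2, one_pow] at hk
        rw [← hk, orderOf_one] at ha; omega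
      · simp only [pow_succ, pow_mul, hb2, one_pow, one_mul] at hk
        exact hk.symm) with h | ⟨n, ⟨e⟩⟩
    · exact h
    · exfalso
      haveI : NeZero (2 ^ (n + 1)) := ⟨by positivity⟩
      have h4 : ∀ i, e.symm (QuaternionGroup.xa i) ∈ H := fun i => hsub _ (by
        rw [card_zpowers', MulEquiv.orderOf_eq, QuaternionGroup.orderOf_xa]
        exact Nat.pow_le_pow_right (n := 2) (i := 2) two_pos (by omega)) (mem_zpowers _)
      have := hcyc.ab.comm (h4 0) (h4 1)
      rw [← map_mul, ← map_mul, e.symm.apply_eq_iff_eq, QuaternionGroup.xa_mul_xa,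
        QuaternionGroup.xa_mul_xa, QuaternionGroup.a.injEq] at this
      have h2 : ((2 : ℕ) : ZMod (2 * 2 ^ (n + 1))) = 0 := by
        push_cast; linear_combination this
      rw [ZMod.natCast_eq_zero_iff] at h2
      have := Nat.le_of_dvd two_pos h2
      have : 0 < 2 ^ n := by positivity
      omega
  · rw [← cyc_top, odd_pgroup_rank1_cyclic hp hP (hT ▸ (hp.odd_of_ne_two hp2).pow)]
    by_contra hr
    obtain ⟨A, hA⟩ := exists_pnElem_of_lt_prank (not_le.1 hr)
    refine hA.not_cyc (hcyc.mono fun x hx => ?_)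
    by_cases h1 : x = 1
    · exact h1 ▸ one_mem H
    · exact Ohm_le p H (hone _ (hA.abelem.card_zpowers hp hx h1) ▸ mem_zpowers x)

end Cfsg.Agent.S3977
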