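import Cfsg.Statements.S3978
import Mathlib
import Cfsg.Agent.H27.Schur6

set_option autoImplicit false
open Cfsg

namespace Cfsg.Agent.S3978

/-- A finite group `Q` has trivial Schur multiplier if and only if, for every `n`, every homomorphism from `Q` to the projective general linear group (the quotient of `GL n ℂ` by its centre) lifts to a homomorphism into `GL n ℂ`. -/
theorem result {Q : Type*} [Group Q] [Finite Q] : Cfsg.HasCyclicSchurMultiplier Q 1 ↔ ∀ (n : ℕ) (γ : Q →* (GL (Fin n) ℂ ⧸ Subgroup.center (GL (Fin n) ℂ))), ∃ ρ : Q →* GL (Fin n) ℂ, (QuotientGroup.mk' (Subgroup.center (GL (Fin n) ℂ))).comp ρ = γ := by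
  constructor
  · intro h n γ
    haveI : Subsingleton (Multiplicative (ZMod 1)) := inferInstanceAs (Subsingleton (ZMod 1))
    haveI : Unique (MonoidHom.id Q).ker := by rw [MonoidHom.ker_id]; infer_instance
    haveI : Unique (Multiplicative (ZMod 1)) := uniqueOfSubsingleton 1
    exact H27.exists_lift_of_cover h (H27.stem_id Q) ⟨MulEquiv.ofUnique⟩ n γ
  · intro h
    rw [H27.trivial_mult_iff]
    intro Γ _ _ σ hσ
    obtain ⟨π, hπ⟩ := H27.exists_onto_of_lift (H27.stem_id Q) h hσ
    rw [eq_bot_iff]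
    intro x hx
    obtain ⟨⟨y, hy⟩, e⟩ := hπ ⟨x, hx⟩
    obtain rfl : y = 1 := hy
    exact (congrArg Subtype.val ((map_one π).symm.trans e)).symm

end Cfsg.Agent.S3978
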