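import Cfsg.Statements.S3980
import Mathlib
import Cfsg.Agent.H27.Schur3

set_option autoImplicit false
universe u v w
open Cfsg

namespace Cfsg.Agent.S3980

/-- Let `Q₁` and `Q₂` be finite groups whose commutator quotients have coprime orders, with Schur multipliers `A` and `B`. Then the Schur multiplier of `Q₁ × Q₂` is isomorphic to `A × B`. -/
theorem result {Q₁ : Type u} {Q₂ : Type v} [Group Q₁] [Group Q₂] [Finite Q₁] [Finite Q₂] {A B : Type w} [CommGroup A] [CommGroup B] (hA : Cfsg.HasSchurMultiplier Q₁ A) (hB : Cfsg.HasSchurMultiplier Q₂ B) (hcop : Nat.Coprime (Nat.card (Abelianization Q₁)) (Nat.card (Abelianization Q₂))) : Cfsg.HasSchurMultiplier (Q₁ × Q₂) (A × B) := by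
  have h : ∀ t : H27.AbT Q₁ Q₂, t = 1 := by
    apply H27.abT_induction
    · rfl
    · intro x y
      have h1 : H27.abTmul x y ^ Nat.card (Abelianization Q₁) = 1 := by
        change Multiplicative.ofAdd _ ^ _ = 1
        rw [← ofAdd_nsmul, TensorProduct.smul_tmul', ← ofMul_pow, pow_card_eq_one']
        simp
      have h2 : H27.abTmul x y ^ Nat.card (Abelianization Q₂) = 1 := by
        change Multiplicative.ofAdd _ ^ _ = 1
        rw [← ofAdd_nsmul, ← TensorProduct.tmul_smul, ← ofMul_pow, pow_card_eq_one']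
        simp
      rw [← orderOf_eq_one_iff]
      exact Nat.eq_one_of_dvd_coprimes hcop (orderOf_dvd_of_pow_eq_one h1)
        (orderOf_dvd_of_pow_eq_one h2)
    · intro s t hs ht
      rw [hs, ht, one_mul]
  haveI : Unique (H27.AbT Q₁ Q₂) := ⟨⟨1⟩, h⟩
  exact H27.schur_of_equiv (H27.hasSchurMultiplier_prod hA hB)
    (MulEquiv.prodCongr (MulEquiv.refl A) (MulEquiv.prodUnique))

end Cfsg.Agent.S3980
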