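import Mathlib
import Cfsg.Agent.H28.Eppo
import Cfsg.Agent.H2.Rel
-- Template for statement S3992 (row 3992; see /opt/grader/pristine/manifest.json for weights).
-- Copy to Cfsg/Agent/S3992.lean and replace the sorry. The statement below is byte-identical to the frozen
-- statement Cfsg.CfsgFrozen.S3992 (Cfsg/Statements/S3992.lean; the theorem Cfsg.fg5_prime_power_element_orders_nonsolvable_structure);
-- the grader kernel-checks Cfsg.Agent.S3992.result against that frozen type. Keep the theorem IN THIS FILE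
-- (a `result` declared elsewhere and merely imported here is not credited); helpers may live anywhere
-- under Cfsg/Agent/.
import Cfsg.Statements.S3992
-- import your own Cfsg.Agent.* helpers here

set_option autoImplicit false
open Cfsg

namespace Cfsg.Agent.S3992

section
open Subgroup Cfsg.Agent.FT Cfsg.Agent.H28
open scoped commutatorElement Pointwise
set_option linter.style.haveILetI false

theorem exists_third {G : Type*} [Group G] [Finite G] {K : Subgroup G} (h : ¬ Sol K) {p q : ℕ} (hp : p.Prime) (hq : q.Prime) :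
    ∃ r : ℕ, r.Prime ∧ r ∣ #K ∧ r ≠ p ∧ r ≠ q := by
  by_contra hc
  refine h (sol_of_two_primes hp hq fun r hr hd => by_contra fun e => hc ⟨r, hr, hd, ?_⟩)
  simpa using e

end

/-- Let G be a finite non-solvable group in which every element has prime-power order, and let R be its largest solvable normal subgroup. Then R is a p-group for some prime p; G/R has a non-abelian simple normal subgroup contained in every nontrivial normal subgroup of G/R (its unique minimal normal subgroup); and the order of every solvable subgroup of G has at most two prime divisors. -/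
theorem result {G : Type*} [Group G] [Finite G] (hns : ¬ Group.IsSolvable G) (hpp : ∀ g : G, g ≠ 1 → IsPrimePow (orderOf g))
    (R : Subgroup G) [R.Normal] (hRs : Group.IsSolvable ↥R) (hRmax : ∀ N : Subgroup G, N.Normal → Group.IsSolvable ↥N → N ≤ R) :
    (∃ p : ℕ, p.Prime ∧ IsPGroup p ↥R) ∧
      (∃ M : Subgroup (G ⧸ R), M.Normal ∧ IsSimpleGroup ↥M ∧ ¬ IsMulCommutative ↥M ∧
        ∀ N : Subgroup (G ⧸ R), N.Normal → N ≠ ⊥ → M ≤ N) ∧
      ∀ H : Subgroup G, Group.IsSolvable ↥H → (Nat.card ↥H).primeFactors.card ≤ 2 := by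
  open Subgroup Cfsg.Agent.FT Cfsg.Agent.H28 in
  open scoped commutatorElement Pointwise in
  · have hno : ∀ (x : G) (p q : ℕ), p.Prime → q.Prime → p ≠ q → orderOf x ≠ p * q := fun x p q hp hq hne e => by
      have h1 := hpp x (by rintro rfl; exact hp.ne_one (Nat.eq_one_of_mul_eq_one_right (orderOf_one.symm.trans e).symm))
      rw [e, isPrimePow_iff_unique_prime_dvd] at h1
      exact hne (h1.unique ⟨hp, dvd_mul_right _ _⟩ ⟨hq, dvd_mul_left _ _⟩)
    have h3 : ∀ (H : Subgroup G) (p q r : ℕ), Sol H → p.Prime → q.Prime → r.Prime → p ≠ q → p ≠ r → q ≠ r →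
        p ∣ #H → q ∣ #H → r ∣ #H → False := fun H p q r hs hp hq hr h1 h2 h3 h4 h5 h6 => by
      obtain ⟨x, -, e | e | e⟩ := three_primes hs hp hq hr h1 h2 h3 h4 h5 h6
      · exact hno x p q hp hq h1 e
      · exact hno x p r hp hr h2 e
      · exact hno x q r hq hr h3 e
    refine ⟨?_, ?_, fun H hH => not_lt.1 fun h => ?_⟩
    · by_cases h : R = ⊥
      · exact ⟨2, Nat.prime_two, h ▸ IsPGroup.of_bot⟩
      obtain ⟨p, hp, hd⟩ := Nat.exists_prime_and_dvd (card_eq_one.not.2 h)
      refine ⟨p, hp, (pGrp_iff hp).1 fun q hq hd' => by_contra fun hne => ?_⟩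
      obtain ⟨r, hr, h4, h5, h6⟩ := exists_third (mt sol_top.1 hns) hp hq
      obtain ⟨X, -, hX⟩ := exists_card_prime_le hr h4
      exact h3 (R ⊔ X) p q r (Sol.sup hRs (sol_of_prime (hX ▸ hr)) (le_nrm_of_normal R X)) hp hq hr (Ne.symm hne) h5.symm
        h6.symm (hd.trans (card_dvd le_sup_left)) (hd'.trans (card_dvd le_sup_left)) (hX ▸ card_dvd le_sup_right)
    · have hF : F((⊤ : Subgroup (G ⧸ R))) = ⊥ := by
        haveI := nml_top_iff.1 (fitting_nml (⊤ : Subgroup (G ⧸ R)))
        haveI : Group.IsSolvable _ := (fitting_nil (⊤ : Subgroup (G ⧸ R))).sol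
        rw [← map_comap_mk' R F(⊤), Subgroup.map_eq_bot_iff, QuotientGroup.ker_mk']
        refine hRmax _ inferInstance (Group.isSolvable_of_ker_le_range (inclusion (le_comap_mk' R _))
          ((QuotientGroup.mk' R).subgroupComap _) fun x hx => ⟨⟨x, ?_⟩, rfl⟩)
        exact (QuotientGroup.eq_one_iff _).1 (congrArg Subtype.val hx)
      have h1 : (⊤ : Subgroup (G ⧸ R)) ≠ ⊥ := fun e => hns (isSolvable_of_normal R hRs (sol_top.1 (e ▸ sol_bot)))
      have h2 := gfit_ne_bot h1
      rw [gfit_eq, hF, sup_bot_eq, Ne, lay_eq_bot_iff, not_forall_not] at h2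
      obtain ⟨K, hK⟩ := h2
      have key : ∀ U, K ≤ C(U) → U = ⊥ := fun U hU => by_contra fun hne => by
        obtain ⟨u, hu, hu1⟩ := (Subgroup.bot_or_exists_ne_one U).resolve_left hne
        obtain ⟨t, ht, hd⟩ := Nat.exists_prime_and_dvd (orderOf_eq_one_iff.not.2 hu1)
        obtain ⟨s, hs, h4, h5, -⟩ := exists_third hK.qs.not_sol ht ht
        obtain ⟨k, hk, hk'⟩ := exists_elt_of_prime_dvd hs h4
        obtain ⟨z, -, hz⟩ := exists_orderOf_mul_of_comm ht hs h5.symm hd hk'.symm.dvd (mem_cen.1 (hU hk) u hu)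
        obtain ⟨z, rfl⟩ := QuotientGroup.mk'_surjective R z
        obtain ⟨y, -, hy⟩ := H27.exists_orderOf_of_dvd (hz ▸ orderOf_map_dvd _ z)
        exact hno y t s ht hs h5.symm hy
      refine ⟨K, nml_top_iff.1 ⟨le_top, fun g _ => cj_eq_self.1 ?_⟩, ?_, fun h => hK.qs.not_cents (le_centralizer K), fun N hN h => ?_⟩
      · have := hK.cj_of_mem (mem_top g)
        exact ((hK.eq_or_cents this).resolve_right fun e => this.ne (key _ e)).symm
      · haveI := (nontrivial_iff_ne_bot K).2 hK.ne
        refine ⟨fun N hN => (hK.qs.simple (nml_map_subtype N)).symm.imp (fun e => ?_) fun e => ?_⟩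
        · exact (map_eq_bot_iff_of_injective _ K.subtype_injective).1 (key _ (centsC e))
        · exact map_injective K.subtype_injective (by rw [e, ← MonoidHom.range_eq_map, range_subtype])
      · exact (hK.le_or_cents (nml_top N).subn).resolve_right fun e => h (key _ e)
    · obtain ⟨p, hp, q, hq, r, hr, h4, h5, h6⟩ := Finset.two_lt_card.1 h
      exact h3 H p q r hH (Nat.prime_of_mem_primeFactors hp) (Nat.prime_of_mem_primeFactors hq)
        (Nat.prime_of_mem_primeFactors hr) h4 h5 h6 (Nat.dvd_of_mem_primeFactors hp) (Nat.dvd_of_mem_primeFactors hq)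
        (Nat.dvd_of_mem_primeFactors hr)

end Cfsg.Agent.S3992
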