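import Cfsg.Statements.S3994
import Mathlib
import Cfsg.Agent.H27.Count

set_option autoImplicit false
open Cfsg

namespace Cfsg.Agent.S3994

/-- Let G be a finite group and n a positive integer. The number of elements of G whose order is divisible by n is either 0 or divisible by the largest divisor of the order of G that is coprime to n. -/
theorem result {G : Type*} [Group G] [Finite G] (n : ℕ) (hn : 0 < n) :
    Nat.card {g : G // n ∣ orderOf g} = 0 ∨
      (Nat.card G / Nat.gcd (Nat.card G) (n ^ Nat.card G)) ∣ Nat.card {g : G // n ∣ orderOf g} := by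
  right
  have h0 : Nat.card G ≠ 0 := Nat.card_pos.ne'
  set s := Nat.card G / Nat.gcd (Nat.card G) (n ^ Nat.card G) with hs
  have hsd : s ∣ Nat.card G := Nat.div_dvd_of_dvd (Nat.gcd_dvd_left _ _)
  have hc : n.Coprime s := by
    rw [FT.coprime_iff_forall]
    intro q hq h1 h2
    have e : Nat.gcd (Nat.card G) (n ^ Nat.card G) * s = Nat.card G :=
      Nat.mul_div_cancel' (Nat.gcd_dvd_left _ _)
    have h3 : q ^ (Nat.card G).factorization q ∣ Nat.gcd (Nat.card G) (n ^ Nat.card G) :=
      Nat.dvd_gcd (Nat.ordProj_dvd _ _) ((pow_dvd_pow q (Nat.factorization_lt q h0).le).trans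
        (pow_dvd_pow_of_dvd h1 _))
    have h4 := Nat.mul_dvd_mul h3 h2
    rw [e, ← pow_succ] at h4
    exact Nat.pow_succ_factorization_not_dvd h0 hq h4
  have key : ∀ g : G, n ∣ orderOf (g ^ s) ↔ n ∣ orderOf g := fun g => by
    refine ⟨fun h => h.trans (orderOf_pow_dvd s), fun h => ?_⟩
    apply hc.dvd_of_dvd_mul_right
    refine h.trans (orderOf_dvd_of_pow_eq_one ?_)
    rw [mul_comm, pow_mul, pow_orderOf_eq_one]
  refine H27.dvd_ncard_of_fibers (S := {g : G | n ∣ orderOf g})
    (fun g => ConjClasses.mk (g ^ s)) fun a ha => ?_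
  refine (Nat.dvd_gcd (dvd_mul_left _ _) hsd).trans
    ((H28.gcd_dvd_ncard_root_class (a ^ s) s).trans (dvd_of_eq ?_))
  congr 1
  ext y
  simp only [Set.mem_setOf_eq, ConjClasses.mk_eq_mk_iff_isConj]
  refine ⟨fun h => ⟨?_, h.symm⟩, fun h => h.2.symm⟩
  obtain ⟨c, hc⟩ := isConj_iff.1 h
  rw [← key, ← hc, FT.orderOf_conj, key]
  exact ha

end Cfsg.Agent.S3994
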