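import Cfsg.Statements.S3995
import Mathlib
import Cfsg.Agent.H27.Nse
import Cfsg.Agent.H8.Rank1

set_option autoImplicit false
open Cfsg

namespace Cfsg.Agent.S3995

open Subgroup Cfsg.Agent.H27 Cfsg.Agent.FT

theorem equivProd {G : Type*} [Group G] {A B H : Subgroup G} (h : DP A B H) : Nonempty (H ≃* A × B) := by
  have hc : ∀ (a : A) (b : B), Commute (A.subtype a) (B.subtype b) := fun a b => mem_cen.1 (h.cen b.2) a a.2
  have hi : Function.Injective (A.subtype.noncommCoprod B.subtype hc) :=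
    (MonoidHom.noncommCoprod_injective _ _ hc).2 ⟨A.subtype_injective, B.subtype_injective, by
      rw [range_subtype, range_subtype, disjoint_iff, h.inf]⟩
  have e : (A.subtype.noncommCoprod B.subtype hc).range = H := by
    rw [MonoidHom.noncommCoprod_range, range_subtype, range_subtype, h.sup]
  exact ⟨((MonoidHom.ofInjective hi).trans (MulEquiv.subgroupCongr e)).symm⟩

theorem pgrp_of {G : Type*} [Group G] [Finite G] {p : ℕ}
    (h : ∀ q : ℕ, q.Prime → q ∣ Nat.card G → q = p) : IsPGroup p G :=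
  IsPGroup.of_card (Nat.eq_prime_pow_of_unique_prime_dvd Nat.card_pos.ne' fun hq hd => h _ hq hd)

theorem exp_eq {G : Type*} [Group G] [Finite G] {p : ℕ} (hp : p.Prime) (h : IsPGroup p G)
    (h1 : p ∣ Nat.card G) (h2 : ∀ g : G, orderOf g ≠ p ^ 2) : Monoid.exponent G = p := by
  haveI := Fact.mk hp
  haveI : Nontrivial G := Finite.one_lt_card_iff_nontrivial.1 (hp.one_lt.trans_le (Nat.le_of_dvd Nat.card_pos h1))
  refine (Monoid.exponent_eq_prime_iff hp).2 fun g hg => ?_
  obtain ⟨k, hk⟩ := IsPGroup.iff_orderOf.1 h g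
  rcases k with _ | _ | k
  · exact absurd (orderOf_eq_one_iff.1 hk) hg
  · simpa using hk
  · refine absurd ?_ (h2 (g ^ p ^ k))
    rw [orderOf_pow_of_dvd (pow_pos hp.pos _).ne' (hk ▸ pow_dvd_pow p (by omega)), hk,
      Nat.pow_div (by omega) hp.pos, show k + 1 + 1 - k = 2 by omega]

/-- Let G be a finite group such that the numbers of elements of each order that occurs in G (the numbers #{g : o(g) = m}, m ranging over the element orders of G) take exactly two values, 1 and some n ≠ 1. Then either G is a p-group of exponent p and order at least 3 for some prime p, or G is the quaternion group of order 8, or G is cyclic of order 4, or G ≅ Z₂ × P for a p-group P of exponent p with p an odd prime. -/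
theorem result {G : Type*} [Group G] [Finite G] (n : ℕ) (hn : n ≠ 1) (h : ((fun m : ℕ => Nat.card {g : G // orderOf g = m}) '' Set.range (orderOf : G → ℕ)) = {1, n}) :
    (∃ p : ℕ, p.Prime ∧ IsPGroup p G ∧ 3 ≤ Nat.card G ∧ Monoid.exponent G = p) ∨
      Nonempty (G ≃* QuaternionGroup 2) ∨ (IsCyclic G ∧ Nat.card G = 4) ∨
      (∃ (p : ℕ) (P : Type) (_ : Group P) (_ : Finite P), p.Prime ∧ p ≠ 2 ∧ IsPGroup p P ∧ Monoid.exponent P = p ∧
        Nonempty (G ≃* Multiplicative (ZMod 2) × P)) := by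
  change (nse G) '' _ = _ at h
  have h0 : ∀ k, nse G k = 0 ∨ nse G k = 1 ∨ nse G k = n := fun k => by
    by_cases hk : nse G k = 0
    · exact .inl hk
    · exact .inr (h.subset ⟨k, nse_ne_zero.1 hk, rfl⟩)
  obtain ⟨k₀, ⟨g₀, hg₀⟩, hk₀⟩ : n ∈ nse G '' Set.range (orderOf : G → ℕ) := h.symm ▸ Or.inr rfl
  have hn0 : n ≠ 0 := hk₀ ▸ nse_ne_zero.2 ⟨g₀, hg₀⟩
  have h1 : ∀ k, 2 < k → nse G k = 0 ∨ nse G k = n := fun k hk => by
    have := h0 k
    have := even_nse (G := G) hk
    omega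
  have huniq := eq_of_nse_eq fun k hk _ => h1 k hk
  have hz : ∀ k, nse G k = 0 → ∀ g : G, orderOf g ≠ k := fun k hk g hg => nse_ne_zero.2 ⟨g, hg⟩ hk
  have hodd : ∀ p : ℕ, p.Prime → p ≠ 2 → p ∣ Nat.card G → nse G p = n ∧ p ∣ 1 + n ∧ nse G (p ^ 2) = 0 := by
    intro p hp hp2 hd
    have h2 := nse_prime hp hd
    have h3 := lt_of_le_of_ne hp.two_le hp2.symm
    have h4 : nse G p = n := (h1 p h3).resolve_left fun h => hp.one_lt.ne' (Nat.dvd_one.1 (by simpa [h] using h2))
    rw [h4] at h2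
    refine ⟨h4, h2, (h1 _ (by nlinarith)).resolve_right fun h => hp.one_lt.ne' (Nat.dvd_one.1 ?_)⟩
    have := totient_dvd_nse (G := G) (p ^ 2)
    rw [h, Nat.totient_prime_pow hp two_pos] at this
    exact (Nat.dvd_add_left ((dvd_mul_of_dvd_left (by simp) _).trans this)).1 h2
  have hk1 : k₀ ≠ 1 := by rintro rfl; exact hn (hk₀.symm.trans nse_one)
  have hk2 : k₀ ∣ Nat.card G := hg₀ ▸ orderOf_dvd_natCard _
  have hk3 : k₀ ≠ 0 := hg₀ ▸ (orderOf_pos _).ne'
  by_cases h2 : ¬ 2 ∣ Nat.card G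
  · have hp := Nat.minFac_prime hk1
    have hd := (Nat.minFac_dvd k₀).trans hk2
    generalize k₀.minFac = p at hp hd
    have hp2 : p ≠ 2 := by rintro rfl; exact h2 hd
    have hP : IsPGroup p G := pgrp_of fun q hq hq' => huniq q p hq hp (by rintro rfl; exact h2 hq') hp2 hq' hd
    exact .inl ⟨p, hp, hP, (lt_of_le_of_ne hp.two_le hp2.symm).trans_le (Nat.le_of_dvd Nat.card_pos hd),
      exp_eq hp hP hd (hz _ (hodd p hp hp2 hd).2.2)⟩
  push Not at h2
  have h3 := nse_prime Nat.prime_two h2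
  by_cases hs : nse G 2 ≠ 1
  · have h4 : ∀ k, 2 < k → nse G k = 0 := fun k hk => by
      have := h1 k hk
      have := even_nse (G := G) hk
      have := h0 2
      omega
    have hP : IsPGroup 2 G := pgrp_of fun q hq hq' => by_contra fun h => hn0
      ((hodd q hq h hq').1.symm.trans (h4 q (lt_of_le_of_ne hq.two_le (Ne.symm h))))
    refine .inl ⟨2, Nat.prime_two, hP, ?_, exp_eq Nat.prime_two hP h2 (hz _ (h4 _ (by norm_num)))⟩
    have : nse G 2 ≤ Nat.card G := Finite.card_subtype_le _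
    omega
  push Not at hs
  right
  by_cases h4 : 4 ∣ Nat.card G
  · have h5 := nse_frob h4
    rw [sum_div_four, nse_one, hs] at h5
    have h6 : nse G 4 = n := by have := h1 4 (by norm_num); omega
    rw [h6] at h5
    have hP : IsPGroup 2 G := pgrp_of fun p hp hd => by_contra fun hp2 => by
      obtain ⟨a1, a2, -⟩ := hodd p hp hp2 hd
      have c4 : p.Coprime 4 := ((Nat.coprime_primes hp Nat.prime_two).2 hp2).pow_right 2
      have h3 := lt_of_le_of_ne hp.two_le (Ne.symm hp2)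
      have h7 := nse_frob_mul hp hd h4 c4
      have h8 : nse G (p * 4) = 0 := by
        have := h1 (p * 4) (by omega)
        have := four_dvd_nse (G := G) c4 h3 (by norm_num)
        omega
      rw [sum_div_four, sum_div_four, nse_one, hs, h6, mul_one, mul_comm p 2,
        nse_two_mul hs (hp.odd_of_ne_two hp2), a1, h8] at h7
      refine hp.one_lt.ne' (Nat.dvd_one.1 ((Nat.dvd_add_left h7).1 ?_))
      exact (a2.mul_left 3).trans (dvd_of_eq (by ring))
    have h8 : ∀ g : G, ¬ 8 ∣ orderOf g := fun g hg => by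
      refine hz 8 ?_ (g ^ (orderOf g / 8)) (orderOf_pow_orderOf_div (orderOf_pos g).ne' hg)
      have := h1 8 (by norm_num)
      have : 4 ∣ nse G 8 := totient_dvd_nse 8
      omega
    rcases H8.cyclic_or_quaternion hP fun s t => unique_of_nse hs with hc | ⟨m, ⟨e⟩⟩
    · refine .inr (.inl ⟨hc, ?_⟩)
      obtain ⟨g, hg⟩ := isCyclic_iff_exists_orderOf_eq_natCard.1 hc
      obtain ⟨k, hk⟩ := IsPGroup.iff_card.1 hP
      have := h8 g
      rw [hg] at this
      rw [hk] at this h4 ⊢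
      rcases k with _ | _ | _ | k
      · omega
      · omega
      · rfl
      · exact absurd (pow_dvd_pow 2 (by omega : 3 ≤ k + 1 + 1 + 1)) this
    · rcases m with _ | m
      · exact .inl ⟨e⟩
      · refine absurd ?_ (h8 (e.symm (.a 1)))
        rw [e.symm.orderOf_eq, QuaternionGroup.orderOf_a_one]
        exact ⟨2 ^ m, by ring⟩
  right; right
  obtain ⟨p, hp, hp2, hd⟩ : ∃ p : ℕ, p.Prime ∧ p ≠ 2 ∧ p ∣ Nat.card G := by
    by_contra hc
    push Not at hc
    obtain ⟨k, hk⟩ := IsPGroup.iff_card.1 (pgrp_of (p := 2) fun q hq hq' => by_contra fun h => hc q hq h hq')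
    rw [hk] at h4 hk2
    obtain ⟨i, hi, rfl⟩ := (Nat.dvd_prime_pow Nat.prime_two).1 hk2
    rcases i with _ | _ | i
    · exact hk1 rfl
    · exact hn (hk₀.symm.trans hs)
    · exact h4 (pow_dvd_pow 2 (by omega : 2 ≤ k))
  obtain ⟨z, hz1, hz2⟩ := exists_central_invol hs
  obtain ⟨P, hP⟩ := exists_syl p (⊤ : Subgroup G)
  have hZ : #⟪z⟫ = 2 := by rw [card_zpowers', hz2]
  have hdp : DP ⟪z⟫ P ⊤ := by
    refine ⟨centsC (zpowers_le.2 fun x _ => mem_center_iff.1 hz1 x), eq_top_iff.2 (le_of_forall_syl fun q hq hq' => ?_),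
      (PiGrp.cop_of_ne (pGrp_of_card_prime Nat.prime_two hZ) hP.pi hp2.symm).inf⟩
    rw [card_top'] at hq'
    by_cases hq2 : q = 2
    · subst hq2
      refine ⟨⟪z⟫, syl_of_not_dvd le_top (pGrp_of_card_prime Nat.prime_two hZ) fun h => h4 ?_, le_sup_left⟩
      rw [← card_top', ← card_mul_relIndex (le_top (a := ⟪z⟫)), hZ]
      exact Nat.mul_dvd_mul_left 2 h
    · obtain rfl := huniq q p hq hp hq2 hp2 hq' hd
      exact ⟨P, hP, le_sup_right⟩
  obtain ⟨e⟩ := equivProd hdp
  obtain ⟨Y, _, _, ⟨f'⟩⟩ : ∃ (H : Type) (_ : Group H) (_ : Finite H), Nonempty (H ≃* P) := by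
    obtain ⟨n, ⟨e⟩⟩ := Finite.exists_equiv_fin P
    let := e.symm.group
    exact ⟨Fin n, this, inferInstance, ⟨e.symm.mulEquiv⟩⟩
  have hPp := hP.pi.isPGroup.of_equiv f'.symm
  haveI : Fact (Nat.Prime 2) := ⟨Nat.prime_two⟩
  refine ⟨p, Y, inferInstance, inferInstance, hp, hp2, hPp, exp_eq hp hPp ?_ fun g hg => ?_,
    ⟨topEquiv.symm.trans (e.trans (MulEquiv.prodCongr (mulEquivOfPrimeCardEq hZ (by simp)) f'.symm))⟩⟩
  · rw [Nat.card_congr f'.toEquiv]
    exact hP.pi.dvd (by rw [Ne, hP.syl_eq_bot_iff hp, card_top']; exact not_not.2 hd)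
  · exact hz _ (hodd p hp hp2 hd).2.2 (f' g) (by rw [orderOf_coe, f'.orderOf_eq, hg])

end Cfsg.Agent.S3995
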