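import Cfsg.Statements.S3996
import Mathlib
import Cfsg.Agent.H27.Nse
import Cfsg.Agent.FT.Main

set_option autoImplicit false
open Cfsg

namespace Cfsg.Agent.S3996

open Subgroup Cfsg.Agent.H27

/-- A finite group in which the numbers of elements of each order that occurs (the numbers #{g : o(g) = m}, m ranging over the element orders) take exactly three different values is solvable. -/
theorem result {G : Type*} [Group G] [Finite G] (h : (((fun m : ℕ => Nat.card {g : G // orderOf g = m}) '' Set.range (orderOf : G → ℕ))).ncard = 3) : Group.IsSolvable G := by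
  change ((nse G) '' _).ncard = 3 at h
  have three : ∀ j, nse G j ≠ 0 → nse G j ≠ 1 →
      ∃ n, ∀ k, nse G k = 0 ∨ nse G k = 1 ∨ nse G k = nse G j ∨ nse G k = n := by
    intro j h0 h1
    have hm : ∀ k, nse G k ≠ 0 → nse G k ∈ nse G '' Set.range (orderOf : G → ℕ) := fun k hk =>
      ⟨k, nse_ne_zero.1 hk, rfl⟩
    obtain ⟨a, b, c, -, -, -, e⟩ := Set.ncard_eq_three.1 h
    simp only [e, Set.mem_insert_iff, Set.mem_singleton_iff] at hm
    have h2 := hm 1 (by rw [nse_one]; exact one_ne_zero)
    have h3 := hm j h0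
    rw [nse_one] at h2
    refine ⟨a + b + c - 1 - nse G j, fun k => ?_⟩
    have := hm k
    omega
  by_cases h2 : ¬ 2 ∣ Nat.card G
  · exact FT.odd_order_solvable (Nat.odd_iff.2 (by omega))
  have h3 := nse_prime Nat.prime_two (not_not.1 h2)
  by_cases h1 : nse G 2 ≠ 1
  · obtain ⟨n, hn⟩ := three 2 (by omega) h1
    refine solvable_of_one_odd_prime (eq_of_nse_eq (n := n) fun k hk _ => ?_)
    have := hn k
    have := even_nse (G := G) hk
    omega
  push Not at h1
  by_cases h4 : ¬ 4 ∣ Nat.card G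
  · obtain ⟨z, hz, hz2⟩ := exists_central_invol h1
    haveI : (zpowers z).Normal := ⟨fun x hx g => by
      rwa [mem_center_iff.1 (zpowers_le.2 hz hx) g, mul_inv_cancel_right]⟩
    haveI : Group.IsSolvable (G ⧸ zpowers z) := FT.odd_order_solvable (by
      have := (zpowers z).card_mul_index
      rw [Nat.card_zpowers, hz2, index_eq_card] at this
      rw [Nat.odd_iff]; omega)
    exact Group.isSolvable_of_ker_le_range (zpowers z).subtype (QuotientGroup.mk' (zpowers z)) (by simp)
  push Not at h4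
  have h5 := nse_frob h4
  rw [sum_div_four, nse_one, h1] at h5
  obtain ⟨n, hn⟩ := three 4 (by omega) (by omega)
  have hn1 : ∀ k, 2 < k → nse G k = 0 ∨ nse G k = nse G 4 ∨ nse G k = n := fun k hk => by
    have := hn k
    have := even_nse (G := G) hk
    omega
  have hn2 : ∀ a b : ℕ, a.Coprime b → 2 < a → 2 < b → nse G (a * b) = 0 ∨ nse G (a * b) = n := by
    intro a b hc ha hb
    have := hn1 (a * b) (by nlinarith)
    have := four_dvd_nse (G := G) hc ha hb
    omega
  have hs2 : ∀ k, Odd k → nse G (k * 2) = nse G k := fun k hk => by rw [mul_comm, nse_two_mul h1 hk]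
  generalize hm : nse G 4 = m at h5 hn1
  clear hn three
  -- facts on one odd prime
  let P : ℕ → Prop := fun p => p.Prime ∧ p ≠ 2 ∧ p ∣ Nat.card G
  have lt : ∀ p, P p → 2 < p := fun p hp => lt_of_le_of_ne hp.1.two_le hp.2.1.symm
  have c4 : ∀ p, P p → p.Coprime 4 := fun p hp =>
    ((Nat.coprime_primes hp.1 Nat.prime_two).2 hp.2.1).pow_right 2
  have small : ∀ p, P p → ∀ x : ℤ, (p : ℤ) ∣ x → x = 1 ∨ x = 2 → False := by
    rintro p hp _ hx (rfl | rfl) <;>
    · have := Int.le_of_dvd (by norm_num) hx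
      have := lt p hp
      omega
  have f1 : ∀ p, P p → (p : ℤ) ∣ 1 + nse G p := fun p hp => by exact_mod_cast nse_prime hp.1 hp.2.2
  have f0 : ∀ p, P p → nse G p = m ∨ nse G p = n := fun p hp => by
    rcases hn1 p (lt p hp) with h | h
    · exact (small p hp _ (f1 p hp) (by simp [h])).elim
    · exact h
  have f2 : ∀ p, P p → nse G p = m → (p : ℤ) ∣ n - 1 := fun p hp hpm => by
    have h6 := nse_frob_mul hp.1 hp.2.2 h4 (c4 p hp)
    rw [sum_div_four, sum_div_four, nse_one, h1, hm, mul_one, hs2 p (hp.1.odd_of_ne_two hp.2.1), hpm] at h6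
    have h7 := f1 p hp
    rw [hpm] at h7
    zify at h6
    rcases hn2 p 4 (c4 p hp) (lt p hp) (by norm_num) with h | h <;> rw [h] at h6
    · exact (small p hp _ (dvd_sub (h7.mul_left 3) h6) (by left; push_cast; ring)).elim
    · exact (dvd_sub h6 (h7.mul_left 3)).trans (dvd_of_eq (by ring))
  have f3 : ∀ p q, P p → P q → p ≠ q → (p : ℤ) ∣ nse G q + nse G (p * q) := fun p q hp hq hne => by
    have h6 := nse_frob_mul hp.1 hp.2.2 hq.2.2 ((Nat.coprime_primes hp.1 hq.1).2 hne)
    rw [sum_div_prime hq.1, sum_div_prime hq.1, nse_one, mul_one] at h6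
    zify at h6
    exact (dvd_sub h6 (f1 p hp)).trans (dvd_of_eq (by ring))
  have f4 : ∀ p q, P p → P q → p ≠ q → nse G q = m := fun p q hp hq hne => by
    by_contra hc
    have hqn := (f0 q hq).resolve_left hc
    have h6 := f3 p q hp hq hne
    have h7 : (p : ℤ) ∣ n - 1 ∨ (p : ℤ) ∣ n + 1 := by
      rcases f0 p hp with h | h
      · exact .inl (f2 p hp h)
      · right; rw [add_comm, ← h]; exact f1 p hp
    rw [hqn] at h6
    rcases hn2 p q ((Nat.coprime_primes hp.1 hq.1).2 hne) (lt p hp) (lt q hq) with h | h <;> rw [h] at h6 <;>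
      rcases h7 with h7 | h7
    · exact small p hp _ (dvd_sub h6 h7) (by left; push_cast; ring)
    · exact small p hp _ (dvd_sub h7 h6) (by left; push_cast; ring)
    · exact small p hp _ (dvd_sub h6 (h7.mul_left 2)) (by right; ring)
    · exact small p hp _ (dvd_sub (h7.mul_left 2) h6) (by right; ring)
  refine solvable_of_one_odd_prime fun p q p1 q1 p2 q2 p3 q3 => by_contra fun hne => ?_
  have hp : P p := ⟨p1, p2, p3⟩
  have hq : P q := ⟨q1, q2, q3⟩
  have hpm := f4 q p hq hp (Ne.symm hne)
  have hqm := f4 p q hp hq hne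
  have hc := (Nat.coprime_primes p1 q1).2 hne
  have h6 := f1 p hp
  have h7 := f2 p hp hpm
  have h8 := f3 p q hp hq hne
  rw [hpm] at h6
  rw [hqm] at h8
  have hpq : nse G (p * q) = n := by
    rcases hn2 p q hc (lt p hp) (lt q hq) with h | h
    · rw [h] at h8
      exact (small p hp _ (dvd_sub h6 h8) (by left; push_cast; ring)).elim
    · exact h
  have hq4 : nse G (q * 4) = n := by
    have h9 := nse_frob_mul q1 q3 h4 (c4 q hq)
    rw [sum_div_four, sum_div_four, nse_one, h1, hm, mul_one, hs2 q (q1.odd_of_ne_two q2), hqm] at h9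
    have h10 := f1 q hq
    rw [hqm] at h10
    zify at h9
    rcases hn2 q 4 (c4 q hq) (lt q hq) (by norm_num) with h | h
    · rw [h] at h9
      exact (small q hq _ (dvd_sub (h10.mul_left 3) h9) (by left; push_cast; ring)).elim
    · exact h
  have hp4 : nse G (p * 4) = n := by
    have h9 := nse_frob_mul p1 p3 h4 (c4 p hp)
    rw [sum_div_four, sum_div_four, nse_one, h1, hm, mul_one, hs2 p (p1.odd_of_ne_two p2), hpm] at h9
    zify at h9
    rcases hn2 p 4 (c4 p hp) (lt p hp) (by norm_num) with h | h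
    · rw [h] at h9
      exact (small p hp _ (dvd_sub (h6.mul_left 3) h9) (by left; push_cast; ring)).elim
    · exact h
  have h9 := nse_frob_mul p1 p3 ((c4 q hq).mul_dvd_of_dvd_of_dvd q3 h4) (Nat.Coprime.mul_right hc (c4 p hp))
  simp only [sum_div_mul (c4 q hq), sum_div_prime q1, sum_div_four, one_mul, mul_one, ← mul_assoc, nse_one, h1, hm,
    hs2 p (p1.odd_of_ne_two p2), hs2 q (q1.odd_of_ne_two q2),
    hs2 _ ((p1.odd_of_ne_two p2).mul (q1.odd_of_ne_two q2)), hpm, hqm, hpq, hq4, hp4] at h9
  zify at h9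
  rcases hn2 (p * q) 4 (Nat.Coprime.mul_left (c4 p hp) (c4 q hq)) (by nlinarith [lt p hp, lt q hq])
    (by norm_num) with h | h <;> rw [h] at h9
  · exact small p hp _ (dvd_sub h9 (dvd_add (h6.mul_left 5) (h7.mul_left 4))) (by left; push_cast; ring)
  · exact small p hp _ (dvd_sub h9 (dvd_add (h6.mul_left 5) (h7.mul_left 5))) (by right; ring)

end Cfsg.Agent.S3996
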