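import Cfsg.Statements.S3997
import Mathlib
import Cfsg.Agent.H27.Count

set_option autoImplicit false
open Cfsg

namespace Cfsg.Agent.S3997

open Subgroup Cfsg.Agent.FT

theorem ncard_pi {G : Type*} [Group G] [Finite G] (Q : ℕ → Prop) (N : ℕ) (hN : Nat.card G ≤ N) :
    {g : G | Q (orderOf g)}.ncard =
      ∑ m ∈ Finset.range (N + 1), (by classical exact if Q m then Nat.card {g : G // orderOf g = m} else 0) := by
  classical
  rw [Set.ncard_eq_toFinset_card _ (Set.toFinite _), Finset.card_eq_sum_card_fiberwise
    (f := orderOf) (t := Finset.range (N + 1)) (fun a _ => by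
      simpa using Nat.lt_succ_of_le (orderOf_le_card.trans hN))]
  refine Finset.sum_congr rfl fun m _ => ?_
  split_ifs with h
  · rw [show Nat.card {g : G // orderOf g = m} = {g : G | orderOf g = m}.ncard from rfl,
      Set.ncard_eq_toFinset_card _ (Set.toFinite _)]
    congr 1
    ext g
    simp only [Finset.mem_filter, Set.Finite.mem_toFinset, Set.mem_setOf_eq]
    exact ⟨fun h => h.2, fun h' => ⟨h' ▸ h, h'⟩⟩
  · rw [Finset.card_eq_zero, Finset.filter_eq_empty_iff]
    intro g hg e
    exact h (e ▸ (by simpa using hg))

/-- Let G and H be finite groups with the same order type: for every m they have the same number of elements of order m. If G is nilpotent then so is H. -/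
theorem result {G H : Type*} [Group G] [Finite G] [Group H] [Finite H] (hT : (∀ m : ℕ, Nat.card {g : G // orderOf g = m} = Nat.card {h : H // orderOf h = m})) (hG : Group.IsNilpotent G) :
    Group.IsNilpotent H := by
  have key : ∀ Q : ℕ → Prop, {g : G | Q (orderOf g)}.ncard = {g : H | Q (orderOf g)}.ncard :=
    fun Q => by
      rw [ncard_pi Q (Nat.card G + Nat.card H) (by omega),
        ncard_pi Q (Nat.card G + Nat.card H) (by omega)]
      simp only [hT]
  have hc : Nat.card G = Nat.card H := by simpa using key fun _ => True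
  rw [← nil_top] at hG ⊢
  refine nil_of_forall_syl fun p P hp hP => ?_
  have h1 := hG.pcore_hall {p}
  have h2 : {g : G | PiNat {p} (orderOf g)} = (O[{p}]((⊤ : Subgroup G)) : Set G) := by
    ext g
    exact (h1.mem_iff_of_nml (pcore_nrm _ _) (mem_top g)).symm
  have h3 : (P : Set H) = {g : H | PiNat {p} (orderOf g)} := by
    refine Set.eq_of_subset_of_ncard_le (fun g hg => hP.pi.piElt hg) (le_of_eq ?_)
    rw [← key, h2]
    show #O[{p}]((⊤ : Subgroup G)) = #P
    rw [h1.card, hP.card, card_top', card_top', hc]
  refine le_nrm_iff.2 fun g _ x hx => ?_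
  show _ ∈ (P : Set H)
  rw [h3]
  exact (hP.pi.piElt hx).conj g

end Cfsg.Agent.S3997
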