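import Cfsg.Statements.S3999
import Mathlib
import Cfsg.Agent.H1.OrdType

set_option autoImplicit false
open Cfsg

namespace Cfsg.Agent.S3999

/-- Let F be a finite Frobenius group (it has a Frobenius complement) and G a finite group with the same order type as F (for every m the same number of elements of order m). Then G is a Frobenius group; moreover G is solvable if and only if F is. -/
theorem result {F G : Type*} [Group F] [Finite F] [Group G] [Finite G] (hF : (∃ C : Subgroup F, Cfsg.IsFrobeniusComplement C)) (hT : (∀ m : ℕ, Nat.card {g : F // orderOf g = m} = Nat.card {h : G // orderOf h = m})) :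
    (∃ C : Subgroup G, Cfsg.IsFrobeniusComplement C) ∧ (Group.IsSolvable G ↔ Group.IsSolvable F) := by
  obtain ⟨C, hC⟩ := hF
  obtain ⟨K, -, -, h⟩ := H5b.exists_frob_of_compl hC
  have e := H1.sameOrd_of_card hT
  obtain ⟨K', C', h', -, -⟩ := e.frob h
  exact ⟨⟨C', (H27.compl_of_frob_top h').1⟩,
    fun hs => FT.sol_top.1 (e.frob_sol h (FT.sol_top.2 hs)),
    fun hs => FT.sol_top.1 (e.symm.frob_sol h' (FT.sol_top.2 hs))⟩

end Cfsg.Agent.S3999
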