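import Cfsg.Statements.S4001
import Mathlib
import Cfsg.Agent.H27.Frob2

set_option autoImplicit false
open Cfsg

namespace Cfsg.Agent.S4001

open Subgroup Cfsg.Agent.FT Cfsg.Agent.H27
open scoped commutatorElement

/-- Let G be a 2-Frobenius group: it has normal subgroups H < K with K a Frobenius group with kernel H and G/H a Frobenius group with kernel K/H. Then G is solvable; K/H has odd order coprime to the order of H and to the order of G/K (it is the image of an odd-order Hall subgroup); G/K is cyclic; and the prime graph of G has exactly two connected components, both complete: for distinct primes p, q dividing the order of G, G has an element of order pq exactly when p and q either both divide the order of K/H or both do not. -/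
theorem result {G : Type*} [Group G] [Finite G] (H K : Subgroup G) [H.Normal] [K.Normal] (hlt : H < K)
    (hK : ∃ C : Subgroup ↥K, Cfsg.IsFrobeniusComplement C ∧ Cfsg.frobeniusKernel C = (H.subgroupOf K : Set ↥K))
    (hGH : ∃ C : Subgroup (G ⧸ H), Cfsg.IsFrobeniusComplement C ∧ Cfsg.frobeniusKernel C = (K.map (QuotientGroup.mk' H) : Set (G ⧸ H))) :
    Group.IsSolvable G ∧ Odd (Nat.card (↥K ⧸ H.subgroupOf K)) ∧
      Nat.Coprime (Nat.card (↥K ⧸ H.subgroupOf K)) (Nat.card ↥H * Nat.card (G ⧸ K)) ∧ IsCyclic (G ⧸ K) ∧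
      ∀ p q : ℕ, p.Prime → q.Prime → p ≠ q → p ∣ Nat.card G → q ∣ Nat.card G →
        ((∃ g : G, orderOf g = p * q) ↔ (p ∣ Nat.card (↥K ⧸ H.subgroupOf K) ↔ q ∣ Nat.card (↥K ⧸ H.subgroupOf K))) := by
  obtain ⟨B', hB1, hB2⟩ := hK
  obtain ⟨C, hC1, hC2⟩ := hGH
  have hB := exists_frob_of_compl_sub hlt.le hB1 hB2
  have hC := exists_frob_top hC1 hC2
  set B := B'.map K.subtype
  set f := QuotientGroup.mk' H
  have hf : Function.Surjective f := QuotientGroup.mk'_surjective H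
  have hk : f.ker = H := QuotientGroup.ker_mk' H
  set U := K.map f
  have e : B ≃* U := SDmapEquiv f (hk.symm ▸ hB.sd)
  obtain ⟨ho, hc⟩ := two_frob_cyc hB hC e
  have c1 : Nat.card (↥K ⧸ H.subgroupOf K) = #B := hB.sd.relIndex_left
  have c2 : #B = #U := card_of_equiv e
  have hcom : U.comap f = K := by rw [comap_map_eq, hk, sup_eq_left.2 hlt.le]
  have c3 : Nat.card (G ⧸ K) = #C := by
    rw [← hC.sd.relIndex_left, relIndex_top_right, ← index_comap_of_surjective _ hf, hcom]; rfl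
  have hCc : Cyc C := by
    obtain ⟨x, hx, hx1⟩ := exists_ne_one hC.ker_ne
    refine cyc_of_ab_semiReg (hc.ab_of_faithful hC.nrm (eq_bot_iff.2 fun y hy => ?_)) hC.nrm
      hC.ker_ne hC.reg
    exact hC.reg.eq_one' hy.1 hx hx1 (mem_cen.1 hy.2 x hx)
  have hGK : IsCyclic (G ⧸ K) := by
    obtain ⟨y, rfl⟩ := cyc_iff.1 hCc
    obtain ⟨x, rfl⟩ := hf y
    refine ⟨QuotientGroup.mk x, fun g => ?_⟩
    obtain ⟨g, rfl⟩ := QuotientGroup.mk_surjective g
    obtain ⟨a, ha, _, ⟨k, rfl⟩, h⟩ := hC.sd.mulEq.mul (f g) (mem_top _)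
    refine ⟨k, ?_⟩
    have h2 : g * (x ^ k)⁻¹ ∈ U.comap f := by
      rw [mem_comap, map_mul, map_inv, h, map_zpow]; simpa using ha
    rw [hcom] at h2
    show (QuotientGroup.mk x : G ⧸ K) ^ k = _
    rw [← QuotientGroup.mk_zpow, eq_comm, QuotientGroup.eq_iff_div_mem, div_eq_mul_inv]
    exact h2
  have hHn := H5b.frob_ker_nil hB
  have hKs : Sol K := hB.sd.sol hHn.sol (hc.of_equiv e.symm).sol
  have hcard : Nat.card G = #H * #B * #C := by
    rw [← hB.sd.card, ← c3, card_eq_card_quotient_mul_card_subgroup K, mul_comm]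
  have cop1 : Cop H B := hB.cop
  have cop2 : (#B).Coprime #C := c2 ▸ hC.cop
  refine ⟨solvable_of_ker_le_range K.subtype (QuotientGroup.mk' K) (by simp), c1 ▸ c2 ▸ ho,
    c1 ▸ c3 ▸ Nat.Coprime.mul_right cop1.symm cop2, hGK, ?_⟩
  rw [c1]
  have hd : Disc (piOf B) G := fun x y hx hy hxy => by
    by_contra hne
    obtain ⟨hx1, hy1⟩ := not_or.1 hne
    have hxK : x ∈ K := hx.mem_of_relIndex (mem_top x) (nml_top K).nrm (by
      rw [relIndex_top_right, index_eq_card, c3]; exact coprime_iff_piOf.1 cop2)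
    have hxH : x ∉ H := fun h => hx1 (hx.eq_one_of_mem cop1.symm'.pi' h)
    have hyK : y ∈ K := hcom ▸ hC.cent1_ker (mem_map_of_mem f hxK)
      (fun h => hxH (hk ▸ h)) ⟨mem_top _, mem_cen1.2 (by rw [← map_mul, ← hxy, map_mul])⟩
    have hyH : y ∈ H := hy.mem_of_relIndex hyK hB.nml.nrm (by
      rw [hB.sd.relIndex_left, compl_compl]; exact piGrp_piOf B)
    exact hy1 (mem_bot.1 (hB.cent_of_not_mem hxK hxH ▸ ⟨hyH, mem_cen1.2 hxy.symm⟩))
  have hdisc : ∀ p q : ℕ, p.Prime → q.Prime → p ∣ #B → ¬ q ∣ #B → ∀ g : G, orderOf g ≠ p * q := by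
    intro p q hp hq h1 h2 g hg
    obtain ⟨x, ⟨i, rfl⟩, hx⟩ := exists_orderOf_of_dvd (x := g) (hg ▸ dvd_mul_right p q)
    obtain ⟨y, ⟨j, rfl⟩, hy⟩ := exists_orderOf_of_dvd (x := g) (hg ▸ dvd_mul_left q p)
    rcases hd _ _ ((piElt_of_orderOf_prime hp hx).2 ⟨hp, h1⟩)
      ((piElt_of_orderOf_prime hq hy).2 fun h => h2 h.2) (zpow_mul_comm g i j) with h | h
    · exact hp.ne_one (by rw [← hx, h, orderOf_one])
    · exact hq.ne_one (by rw [← hy, h, orderOf_one])
  have key : ∀ p q : ℕ, p.Prime → q.Prime → p ≠ q → p ∣ #H → ¬ q ∣ #H → ¬ q ∣ #B → q ∣ #C →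
      ∃ g : G, orderOf g = p * q := by
    intro p q hp hq hne h1 h2 h3 h4
    have hfr := Hall_Frattini_arg hKs (nml_top K) (hB.sd.isHall_right.2 cop1).hall
    have hqK : ¬ q ∣ #K := by
      rw [hB.sd.card]; exact fun h => ((Nat.Prime.dvd_mul hq).1 h).elim h2 h3
    obtain ⟨R, hR, hRq⟩ := exists_card_prime_le hq (H := ⊤ ⊓ N(B)) (by
      have := hfr.card_dvd
      rw [card_top', hcard] at this
      exact ((Nat.Prime.dvd_mul hq).1 ((h4.mul_left _).trans this)).resolve_left hqK)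
    have hRB : R ≤ N(B) := hR.trans inf_le_right
    have hR' : PGrp q R := pGrp_of_card_prime hq hRq
    have hF : Frob (B ⊔ R) B R := ⟨sd_sup hRB ((p'grp_of_not_dvd h3).inf_eq_bot' hR'),
      hB.compl_ne, ne_bot_of_prime_card (hRq ▸ hq), fun x hx hx1 => eq_bot_iff.2 fun y hy =>
        mem_bot.2 ((hd y x ((piGrp_piOf B).piElt hy.1) ((hR'.piElt hx).pi fun h => h3 h.2)
          (mem_cen1.1 hy.2)).resolve_right hx1)⟩
    have hP : O[{p}](H) ⊴ ⊤ := (nml_top H).pcore _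
    have hP1 : O[{p}](H) ≠ ⊥ := hHn.pcore_ne_bot ⟨hp, h1⟩ rfl
    have hw := Frobenius_Wielandt_card hF (le_top.trans hP.nrm)
      ((cop1.mono_left (pcore_le _ _)).sup_right ((pcore_pi _ _).cop_of_ne hR' hne) hRB)
      (pcore_pi {p} H).sol ((hB.reg.mono_left (pcore_le _ _)).cent le_rfl hB.compl_ne)
    have hne' : O[{p}](H) ⊓ C(R) ≠ ⊥ := fun h => hP1 (by
      rw [h, card_bot', one_pow] at hw; exact eq_bot_iff_card'.2 hw)
    obtain ⟨x, hx, hxo⟩ := ((pcore_pi {p} H).inf_left C(R)).exists_elt hne'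
    obtain ⟨y, hy, hyo⟩ := hR'.exists_elt hF.compl_ne
    refine ⟨x * y, ?_⟩
    rw [Commute.orderOf_mul_eq_mul_orderOf_of_coprime (mem_cen.1 hx.2 y hy).symm
      (by rw [hxo, hyo]; exact (Nat.coprime_primes hp hq).2 hne), hxo, hyo]
  intro p q hp hq hne hpG hqG
  constructor
  · rintro ⟨g, hg⟩
    exact ⟨fun h => by_contra fun h' => hdisc p q hp hq h h' g hg,
      fun h => by_contra fun h' => hdisc q p hq hp h h' g (hg.trans (mul_comm _ _))⟩
  · intro h
    by_cases hpB : p ∣ #B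
    · obtain ⟨g, -, hg⟩ := exists_orderOf_mul_of_nil (hc.of_equiv e.symm).nil hp hq hne hpB (h.1 hpB)
      exact ⟨g, hg⟩
    have hqB : ¬ q ∣ #B := fun h' => hpB (h.2 h')
    rw [hcard] at hpG hqG
    simp only [Nat.Prime.dvd_mul hp, Nat.Prime.dvd_mul hq, hpB, hqB, or_false] at hpG hqG
    by_cases hpH : p ∣ #H <;> by_cases hqH : q ∣ #H
    · obtain ⟨g, -, hg⟩ := exists_orderOf_mul_of_nil hHn hp hq hne hpH hqH
      exact ⟨g, hg⟩
    · exact key p q hp hq hne hpH hqH hqB (hqG.resolve_left hqH)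
    · rw [mul_comm]
      exact key q p hq hp hne.symm hqH hpH hpB (hpG.resolve_left hpH)
    · obtain ⟨g, -, hg⟩ := exists_orderOf_mul_of_nil hCc.nil hp hq hne (hpG.resolve_left hpH)
        (hqG.resolve_left hqH)
      obtain ⟨x, rfl⟩ := hf g
      obtain ⟨y, -, hy⟩ := exists_orderOf_of_dvd (hg ▸ orderOf_map_dvd f x)
      exact ⟨y, hy⟩

end Cfsg.Agent.S4001
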