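import Mathlib
import Cfsg.Agent.H28.Eppo
-- Template for statement S4002 (row 4002; see /opt/grader/pristine/manifest.json for weights).
-- Copy to Cfsg/Agent/S4002.lean and replace the sorry. The statement below is byte-identical to the frozen
-- statement Cfsg.CfsgFrozen.S4002 (Cfsg/Statements/S4002.lean; the theorem Cfsg.fg5_consecutive_element_orders_seven_or_more_not_solvable);
-- the grader kernel-checks Cfsg.Agent.S4002.result against that frozen type. Keep the theorem IN THIS FILE
-- (a `result` declared elsewhere and merely imported here is not credited); helpers may live anywhere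
-- under Cfsg/Agent/.
import Cfsg.Statements.S4002
-- import your own Cfsg.Agent.* helpers here

set_option autoImplicit false
open Cfsg

namespace Cfsg.Agent.S4002

/-- If the set of element orders of a finite group G is {1, 2, …, n} with n ≥ 7, then G is not solvable. -/
theorem result {G : Type*} [Group G] [Finite G] (n : ℕ) (hn : 7 ≤ n) (h : Set.range (orderOf : G → ℕ) = {k : ℕ | 1 ≤ k ∧ k ≤ n}) : ¬ Group.IsSolvable G := by
  open Subgroup Cfsg.Agent.FT Cfsg.Agent.H28 in
  open scoped commutatorElement Pointwise in
  · intro hs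
    have key : ∀ p q r : ℕ, p.Prime → q.Prime → r.Prime → p < q → q < r → r ≤ n → n < p * q → False :=
      fun p q r hp hq hr h1 h2 h3 h4 => by
      have hd : ∀ t : ℕ, t.Prime → t ≤ n → t ∣ #(⊤ : Subgroup G) := fun t ht h5 => by
        obtain ⟨x, hx⟩ : t ∈ Set.range (orderOf : G → ℕ) := h ▸ ⟨ht.one_le, h5⟩
        exact hx ▸ orderOf_dvd_natCard _ (mem_top x)
      obtain ⟨x, -, hx⟩ := three_primes (sol_top.2 hs) hp hq hr h1.ne (h1.trans h2).ne h2.ne (hd p hp (by omega))
        (hd q hq (by omega)) (hd r hr h3)
      have h5 : orderOf x ≤ n := (show orderOf x ∈ {k : ℕ | 1 ≤ k ∧ k ≤ n} from h ▸ ⟨x, rfl⟩).2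
      rcases hx with e | e | e <;> nlinarith
    by_cases h1 : n ≤ 14
    · exact key 3 5 7 (by norm_num) (by norm_num) (by norm_num) (by norm_num) (by norm_num) hn (by omega)
    by_cases h2 : n ≤ 34
    · exact key 5 7 11 (by norm_num) (by norm_num) (by norm_num) (by norm_num) (by norm_num) (by omega) (by omega)
    by_cases h3 : n ≤ 142
    · exact key 11 13 17 (by norm_num) (by norm_num) (by norm_num) (by norm_num) (by norm_num) (by omega) (by omega)
    obtain ⟨p, hp, h4, h5⟩ := Nat.exists_prime_lt_and_le_two_mul (n / 8) (by omega)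
    obtain ⟨q, hq, h6, h7⟩ := Nat.exists_prime_lt_and_le_two_mul p hp.ne_zero
    obtain ⟨r, hr, h8, h9⟩ := Nat.exists_prime_lt_and_le_two_mul q hq.ne_zero
    refine key p q r hp hq hr h6 h8 (by omega) (lt_of_lt_of_le (by omega : n < p * 17) (Nat.mul_le_mul_left _ (by omega)))

end Cfsg.Agent.S4002
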