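import Cfsg.Statements.S4003
import Mathlib
import Cfsg.Agent.H27.Count

set_option autoImplicit false
open Cfsg

namespace Cfsg.Agent.S4003

open Subgroup Cfsg.Agent.FT

/-- Let G be a finite group, p an odd prime dividing the order of G whose Sylow p-subgroups are not cyclic, and n = p^s·m with s > 1 and m coprime to p. Then the number of elements of G of order n is a multiple of p^s. -/
theorem result {G : Type*} [Group G] [Finite G] (p : ℕ) [Fact p.Prime] (hodd : p ≠ 2) (hpG : p ∣ Nat.card G)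
    (P : Sylow p G) (hP : ¬ IsCyclic ↥(P : Subgroup G)) (s m : ℕ) (hs : 1 < s) (hm : Nat.Coprime p m) :
    p ^ s ∣ Nat.card {g : G // orderOf g = p ^ s * m} := by
  have hp : p.Prime := Fact.out
  obtain ⟨s, rfl⟩ : ∃ t, s = t + 2 := ⟨s - 2, by omega⟩
  have hS := syl_top hp P
  set Q : Subgroup G := (P : Subgroup G)
  have hφ : ∀ k, p.Coprime k → Nat.totient (p ^ (s + 2) * k) = p ^ (s + 1) * ((p - 1) * k.totient) :=
    fun k hk => by
      rw [Nat.totient_mul (hk.pow_left _), Nat.totient_prime_pow_succ hp, mul_assoc]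
  have hdv : ∀ k, p.Coprime k → p ^ (s + 2) ∣ Nat.totient (p ^ (s + 2) * k) * p := fun k hk => by
    rw [hφ k hk, pow_succ _ (s + 1)]
    exact Nat.mul_dvd_mul_right (dvd_mul_right _ _) _
  show _ ∣ {g : G | orderOf g = p ^ (s + 2) * m}.ncard
  by_cases h : p ∣ m.totient
  · refine dvd_trans ?_ (H27.totient_dvd_ncard_orderOf _)
    rw [hφ m hm, pow_succ _ (s + 1)]
    exact Nat.mul_dvd_mul_left _ (h.mul_left _)
  have hodd' : Odd #Q := by
    obtain ⟨k, hk⟩ := hS.pi.card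
    exact hk ▸ (hp.odd_of_ne_two hodd).pow
  have ho : ∀ x y : G, ⟪y⟫ = ⟪x⟫ → orderOf y = orderOf x := fun x y e => by
    rw [← card_zpowers', e, card_zpowers']
  have h1 := H27.ncard_modEq_normed hp hS.pi (S := {x | x ∈ Q ∧ orderOf x = p ^ (s + 2)})
    (n := p ^ (s + 2) * 1) (fun x hx => by simpa using hx.2)
    (fun x hx y e => ⟨zpowers_le.2 hx.1 (e ▸ mem_zpowers y), (ho x y e).trans hx.2⟩)
    (fun g hg x hx => ⟨mul_mem (mul_mem hg hx.1) (inv_mem hg), (orderOf_conj g x).trans hx.2⟩)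
  have h2 := ((h1.of_dvd (hdv 1 (Nat.coprime_one_right p))).dvd_iff dvd_rfl).1
    (H27.pow_dvd_ncard_orderOf hp hS.pi hodd' hP s)
  have h3 := H27.ncard_modEq_normed hp hS.pi (S := {x : G | orderOf x = p ^ (s + 2) * m})
    (n := p ^ (s + 2) * m) (fun x hx => hx) (fun x hx y e => (ho x y e).trans hx)
    (fun g _ x hx => (orderOf_conj g x).trans hx)
  refine ((h3.of_dvd (hdv m hm)).dvd_iff dvd_rfl).2 ?_
  have hm' : PiNat {p}ᶜ m := (p'nat_iff_coprime hp).2 hm.symm
  have hm0 : p ^ (s + 2) * m ≠ 0 := mul_ne_zero (pow_ne_zero _ hp.ne_zero) (by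
    rintro rfl; exact hp.ne_one (by simpa using hm))
  have hpart : ∀ x : G, orderOf x = p ^ (s + 2) * m →
      orderOf (constt {p} x) = p ^ (s + 2) ∧ orderOf (constt {p}ᶜ x) = m := fun x hx => by
    have e1 : orderOf (constt {p} x) = p ^ (s + 2) := by
      rw [orderOf_constt, hx, partn_eq_of_mul (piNat_self_pow hp _) hm' hm0]
    refine ⟨e1, ?_⟩
    have := partn_mul_compl {p} hm0
    rw [partn_eq_of_mul (piNat_self_pow hp _) hm' hm0] at this
    rw [orderOf_constt, hx]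
    exact Nat.eq_of_mul_eq_mul_left (Nat.pow_pos hp.pos) this
  refine H27.dvd_ncard_of_fibers (constt {p}ᶜ) ?_
  rintro a ⟨ha, haN⟩
  have hv : constt {p}ᶜ a ∈ C(Q) := by
    have hn : Q ≤ N(⟪constt {p}ᶜ a⟫) := (cyc_zpowers a).norms_sub (zpowers_constt_le _ a) haN
    have := (cyc_zpowers _).cents_of_coprime hn (by
      rw [card_zpowers', (hpart a ha).2]
      exact hS.pi.piNat.coprime (p'nat_of_not_dvd h))
    exact centsC this (mem_zpowers _)
  refine h2.trans (dvd_of_eq (Set.ncard_congr (fun u _ => u * constt {p}ᶜ a) ?_ ?_ ?_))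
  · rintro u ⟨⟨hu, huo⟩, hun⟩
    have hc : u * constt {p}ᶜ a = constt {p}ᶜ a * u := mem_cen.1 hv u hu
    have hcop : (orderOf u).Coprime (orderOf (constt {p}ᶜ a)) :=
      (hS.pi.piElt hu).coprime (piElt_constt _ a)
    refine ⟨⟨?_, ?_⟩, constt_mul_of_pi' (hS.pi.piElt hu) (piElt_constt _ a) hc⟩
    · show orderOf _ = _
      rw [Commute.orderOf_mul_eq_mul_orderOf_of_coprime hc hcop, huo, (hpart a ha).2]
    · rw [zpowers_mul_of_coprime hc hcop]
      exact normsY hun (cents_norm (centsC (zpowers_le.2 hv)))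
  · intro u v _ _ e
    exact mul_right_cancel e
  · rintro y ⟨⟨hy, hyN⟩, e⟩
    have hn : Q ≤ N(⟪constt {p} y⟫) := (cyc_zpowers y).norms_sub (zpowers_constt_le _ y) hyN
    refine ⟨constt {p} y, ⟨⟨?_, (hpart y hy).1⟩, hn⟩, e ▸ constt_mul_compl _ y⟩
    exact hS.le_of_normed (piElt_constt _ y).zpowers le_top hn (mem_zpowers _)

end Cfsg.Agent.S4003
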