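import Cfsg.Statements.S4004
import Mathlib
import Cfsg.Agent.H27.Nse
import Cfsg.Agent.FT.Main

set_option autoImplicit false
open Cfsg

namespace Cfsg.Agent.S4004

open Subgroup Cfsg.Agent.H27 Cfsg.Agent.FT
open scoped IsMulCommutative Pointwise

variable {G : Type*} [Group G] [Finite G]

theorem norm_contra (N : Subgroup G) [N.Normal] [IsMulCommutative N] (Q : Subgroup G) [Fintype Q] {x : G}
    {p : ℕ} (hp : 0 < p) (hx : x ∈ N(Q)) (hxp : x ^ p = 1) (h1 : ∀ v ∈ N, (v * x) ^ p = 1)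
    (h2 : ∀ v ∈ N, v ∈ C(Q) → v = 1)
    (h3 : ∀ i, 0 < i → i < p → ∀ y ∈ Q, y * x ^ i = x ^ i * y → y = 1) (v : N) : v ^ #Q = 1 := by
  let ρ : G →* MulAut N := MulAut.conjNormal
  have a1 : ∀ v : N, ∏ i ∈ Finset.range p, ρ (x ^ i) v = 1 := fun v => by
    have : ∀ n, ((v : G) * x) ^ n = (∏ i ∈ Finset.range n, ρ (x ^ i) v : N) * x ^ n := fun n => by
      induction n with
      | zero => simp
      | succ n ih =>
        rw [pow_succ, ih, Finset.prod_range_succ, coe_mul, MulAut.conjNormal_apply]; group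
    have h := this p
    rw [h1 v v.2, hxp, mul_one] at h
    exact Subtype.ext h.symm
  have a2 : ∀ v : N, ∏ y : Q, ρ y v = 1 := fun v => Subtype.ext (h2 _ (SetLike.coe_mem _) (by
    rw [mem_cen]
    intro z hz
    rw [← mul_inv_eq_iff_eq_mul, ← MulAut.conjNormal_apply, map_prod]
    congr 1
    exact Fintype.prod_equiv (Equiv.mulLeft ⟨z, hz⟩) _ _ fun y => by simp [ρ]))
  have a3 : ∏ i ∈ Finset.range p, ∏ y : Q, ρ (y * x ^ i * (y : G)⁻¹) v = 1 := by
    rw [Finset.prod_comm]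
    refine Finset.prod_eq_one fun y _ => ?_
    simp only [map_mul, MulAut.mul_apply]
    rw [← map_prod, a1, map_one]
  obtain ⟨p, rfl⟩ : ∃ k, p = k + 1 := ⟨p - 1, by omega⟩
  rw [Finset.prod_range_succ', Finset.prod_eq_one, one_mul] at a3
  · simpa [← Nat.card_eq_fintype_card] using a3
  intro i hi
  let f : Q → Q := fun y => y * ⟨_, conj_mem (pow_mem hx (i + 1)) (inv_mem y.2)⟩
  have hf : Function.Injective f := fun y z e => by
    have e' : (y : G) * (x ^ (i + 1) * (y : G)⁻¹ * (x ^ (i + 1))⁻¹) =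
      z * (x ^ (i + 1) * (z : G)⁻¹ * (x ^ (i + 1))⁻¹) := congrArg Subtype.val e
    have := h3 (i + 1) (by omega) (by simpa using hi) ((z : G)⁻¹ * y) (mul_mem (inv_mem z.2) y.2) (by
      calc _ = (z : G)⁻¹ * (y * (x ^ (i + 1) * (y : G)⁻¹ * (x ^ (i + 1))⁻¹)) * x ^ (i + 1) * y := by group
        _ = _ := by rw [e']; group)
    exact Subtype.ext (inv_mul_eq_one.1 this).symm
  rw [← a2 (ρ (x ^ (i + 1)) v)]
  refine Fintype.prod_bijective f hf.bijective_of_finite _ _ fun y => ?_
  rw [← MulAut.mul_apply, ← map_mul]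
  congr 2
  simp [f, mul_assoc]

theorem two_ne {p : ℕ} (hp : p.Prime) (h : p ≠ 2) : (2 : ZMod p) ≠ 0 := fun e =>
  h ((Nat.prime_dvd_prime_iff_eq hp Nat.prime_two).1 ((ZMod.natCast_eq_zero_iff 2 p).1 (by exact_mod_cast e)))

theorem z1 {p : ℕ} (hp : p.Prime) (h : p ∣ Nat.card G) : (nse G p : ZMod p) = -1 := by
  have := (ZMod.natCast_eq_zero_iff _ p).2 (nse_prime hp h)
  push_cast at this
  linear_combination this

theorem z2 {p q : ℕ} (hp : p.Prime) (hq : q.Prime) (h : p ∣ Nat.card G) (h' : q ∣ Nat.card G) (hne : p ≠ q) :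
    (nse G (p * q) : ZMod p) = -nse G q := by
  have := (ZMod.natCast_eq_zero_iff _ p).2 (nse_frob_mul hp h h' ((Nat.coprime_primes hp hq).2 hne))
  rw [sum_div_prime hq, sum_div_prime hq, nse_one, mul_one] at this
  push_cast at this
  linear_combination this - z1 hp h

theorem z3 {p q r : ℕ} (hp : p.Prime) (hq : q.Prime) (hr : r.Prime) (h : p ∣ Nat.card G)
    (h' : q ∣ Nat.card G) (h'' : r ∣ Nat.card G) (pq : p ≠ q) (pr : p ≠ r) (qr : q ≠ r) :
    (nse G (p * (q * r)) : ZMod p) = -nse G (q * r) := by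
  have c := (Nat.coprime_primes hq hr).2 qr
  have := (ZMod.natCast_eq_zero_iff _ p).2 (nse_frob_mul hp h (c.mul_dvd_of_dvd_of_dvd h' h'')
    (((Nat.coprime_primes hp hq).2 pq).mul_right ((Nat.coprime_primes hp hr).2 pr)))
  simp only [sum_div_mul c, sum_div_prime hq, sum_div_prime hr, nse_one, mul_one, one_mul] at this
  push_cast at this
  linear_combination this - z1 hp h - z2 hp hq h h' pq - z2 hp hr h h'' pr

theorem z4 {p : ℕ} (hp : p.Prime) {j : ℕ} (hj : 2 ≤ j) : (nse G (p ^ j) : ZMod p) = 0 := by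
  rw [ZMod.natCast_eq_zero_iff]
  refine Dvd.dvd.trans ?_ (totient_dvd_nse _)
  rw [Nat.totient_prime_pow hp (by omega)]
  exact (dvd_pow_self p (by omega)).mul_right _

theorem nse_eq_zero_of_dvd {a b : ℕ} (h : nse G a = 0) (hd : a ∣ b) : nse G b = 0 := by
  by_contra hb
  obtain ⟨g, rfl⟩ := nse_ne_zero.1 hb
  exact nse_ne_zero.2 ⟨_, orderOf_pow_orderOf_div (orderOf_pos g).ne' hd⟩ h

section
variable (hodd : Odd (Nat.card G)) {m n : ℕ} (H : ∀ k, k ≠ 1 → nse G k = 0 ∨ nse G k = m ∨ nse G k = n)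
include hodd H

theorem not_eq {p q : ℕ} (hp : p.Prime) (hq : q.Prime) (dp : p ∣ Nat.card G) (dq : q ∣ Nat.card G)
    (hne : p ≠ q) (h1 : nse G p = m) (h2 : nse G q = m) : False := by
  have o : ∀ r, r.Prime → r ∣ Nat.card G → (2 : ZMod r) ≠ 0 ∧ (1 : ZMod r) ≠ 0 := fun r hr hd => by
    haveI := Fact.mk hr
    exact ⟨two_ne hr (by rintro rfl; exact (Nat.not_even_iff_odd.2 hodd) (even_iff_two_dvd.2 hd)), one_ne_zero⟩
  have ne1 : ∀ a b : ℕ, a.Prime → a * b ≠ 1 := fun a b ha e => ha.one_lt.ne' (Nat.eq_one_of_mul_eq_one_right e)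
  have pair : ∀ p q, p.Prime → q.Prime → p ∣ Nat.card G → q ∣ Nat.card G → p ≠ q → nse G p = m →
      nse G q = m → (m : ZMod p) = -1 ∧ (n : ZMod p) = 1 ∧ nse G (p * q) = n := by
    intro p q hp hq dp dq hne h1 h2
    have a := z1 hp dp
    have b := z2 hp hq dp dq hne
    rw [h1] at a
    rw [h2, a, neg_neg] at b
    obtain ⟨o2, o1⟩ := o p hp dp
    rcases H _ (ne1 p q hp) with e | e | e <;> rw [e] at b
    · exact absurd (by simpa using b.symm) o1
    · exact absurd (by linear_combination a - b) o2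
    · exact ⟨a, b, e⟩
  have all : ∀ r, r.Prime → r ∣ Nat.card G → nse G r = m := fun r hr dr => by
    by_contra hm
    have rp : r ≠ p := by rintro rfl; exact hm h1
    have rq : r ≠ q := by rintro rfl; exact hm h2
    obtain ⟨o2, o1⟩ := o r hr dr
    obtain ⟨p2, p1⟩ := o p hp dp
    have a := z1 hr dr
    have hn : nse G r = n := by
      rcases H r hr.one_lt.ne' with e | e | e
      · rw [e] at a; exact absurd (by simpa using a.symm) o1
      · exact absurd e hm
      · exact e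
    have k : ∀ p q, p.Prime → q.Prime → p ∣ Nat.card G → q ∣ Nat.card G → p ≠ q → nse G p = m →
        nse G q = m → r ≠ p → nse G (p * r) = m := fun p q hp hq dp dq hne h1 h2 rp => by
      obtain ⟨b1, b2, -⟩ := pair p q hp hq dp dq hne h1 h2
      obtain ⟨p2, p1⟩ := o p hp dp
      have b := z2 hp hr dp dr rp.symm
      rw [hn, b2] at b
      rcases H _ (ne1 p r hp) with e | e | e
      · rw [e] at b; exact absurd (by simpa using b.symm) p1
      · exact e
      · rw [e] at b; exact absurd (by linear_combination b - b2) p2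
    obtain ⟨b1, b2, b3⟩ := pair p q hp hq dp dq hne h1 h2
    have c1 := z3 hp hq hr dp dq dr hne rp.symm rq.symm
    rw [k q p hq hp dq dp hne.symm h2 h1 rq, b1, neg_neg] at c1
    have c2 := z3 hr hp hq dr dp dq rp rq hne
    rw [b3, show r * (p * q) = p * (q * r) by ring] at c2
    rw [hn] at a
    rcases H _ (ne1 p (q * r) hp) with e | e | e <;> rw [e] at c1 c2
    · exact absurd (by simpa using c1.symm) p1
    · exact absurd (by linear_combination b1 - c1) p2
    · exact absurd (by linear_combination 2 * a - c2) o2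
  have dv : Nat.card G ∣ 1 + m := (Nat.dvd_iff_prime_pow_dvd_dvd _ _).2 fun r k hr hd => by
    rcases k with _ | k
    · simp
    have dr := (dvd_pow_self r k.succ_ne_zero).trans hd
    have := nse_frob hd
    rw [Nat.sum_divisors_prime_pow hr, Finset.sum_range_succ', Finset.sum_range_succ',
      Finset.sum_eq_zero, zero_add, zero_add, pow_one, pow_zero, nse_one, all r hr dr, add_comm m] at this
    · exact this
    intro j _
    obtain ⟨b1, b2, -⟩ : (m : ZMod r) = -1 ∧ (n : ZMod r) = 1 ∧ True := by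
      by_cases e : r = p
      · subst e; exact (pair r q hr hq dr dq hne h1 h2).imp_right (·.imp_right fun _ => trivial)
      · exact (pair r p hr hp dr dp e (all r hr dr) h1).imp_right (·.imp_right fun _ => trivial)
    obtain ⟨o2, o1⟩ := o r hr dr
    have b := z4 (G := G) hr (j := j + 1 + 1) (by omega)
    rcases H (r ^ (j + 1 + 1)) (by rw [pow_succ']; exact ne1 _ _ hr) with e | e | e
    · exact e
    · rw [e, b1] at b; exact absurd (by simpa using b) o1
    · rw [e, b2] at b; exact absurd b o1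
  have s := nse_sum (G := G) (Nat.card_pos (α := G)).ne'
  simp only [pow_card_eq_one', Nat.card_congr (Equiv.subtypeUnivEquiv (p := fun _ : G => True) fun _ => trivial)] at s
  have s2 := Finset.sum_le_sum_of_subset (f := nse G) (s := {1, p, q}) (t := (Nat.card G).divisors) (by
    simp [Finset.insert_subset_iff, dp, dq, Nat.card_pos.ne'])
  rw [Finset.sum_insert (by simp [hp.one_lt.ne, hq.one_lt.ne]), Finset.sum_pair hne, nse_one, h1, h2, s] at s2
  have := Nat.le_of_dvd (by omega) dv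
  have m0 : m = 0 := by omega
  have := (pair p q hp hq dp dq hne h1 h2).1
  rw [m0] at this
  exact (o p hp dp).2 (by simpa using this.symm)

omit hodd H in
theorem not_mix {p q : ℕ} (hp : p.Prime) (hq : q.Prime) (q2 : q ≠ 2) (dp : p ∣ Nat.card G)
    (dq : q ∣ Nat.card G) (hne : p ≠ q) (h : nse G (p * q) = nse G p) : False := by
  haveI := Fact.mk hp
  have a := z1 hp dp
  have b := z2 hp hq dp dq hne
  rw [h, a, neg_inj] at b
  obtain ⟨P⟩ : Nonempty (Sylow p G) := inferInstance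
  letI : MulAction P {g : G // orderOf g = q} :=
    { smul := fun x g => ⟨x * g * (x : G)⁻¹, ((MulAut.conj (x : G)).orderOf_eq g).trans g.2⟩
      one_smul := fun g => Subtype.ext (by change _ * _ * _ = _; simp)
      mul_smul := fun x y g => Subtype.ext (by
        change _ * _ * _ = _ * (_ * _ * _) * _; simp [mul_assoc]) }
  obtain ⟨y, hy⟩ := P.isPGroup'.nonempty_fixed_point_of_prime_not_dvd_card {g : G // orderOf g = q}
    (fun e => by
      have := (ZMod.natCast_eq_zero_iff (nse G q) p).2 e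
      rw [← b] at this; exact one_ne_zero this)
  have ex : ∀ x : {g : G // orderOf g = p}, ∃ z : G, orderOf z = q ∧ Commute x.1 z := fun x => by
    obtain ⟨g, -, hg⟩ := (syl_top hp P).syl_elt (mem_top x.1) ((piElt_of_orderOf_prime hp x.2).2 rfl)
    have : g * x * g⁻¹ * y * (g * x * g⁻¹)⁻¹ = y := congrArg Subtype.val (hy ⟨_, hg⟩)
    refine ⟨g⁻¹ * y * g⁻¹⁻¹, ((MulAut.conj g⁻¹).orderOf_eq y.1).trans y.2, ?_⟩
    rw [Commute, SemiconjBy]
    conv_rhs => rw [← this]
    group
  choose z hz hc using ex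
  have c := (Nat.coprime_primes hp hq).2 hne
  have q3 : 2 < q := lt_of_le_of_ne hq.two_le q2.symm
  have oz : ∀ x (i : Fin 2), orderOf (z x ^ (i.1 + 1)) = q := fun x i => by
    rw [Nat.Coprime.orderOf_pow, hz]
    rw [hz]
    exact Nat.coprime_of_lt_prime (by omega) (by omega) hq
  let f : {g : G // orderOf g = p} × Fin 2 → {g : G // orderOf g = p * q} := fun x =>
    ⟨x.1 * z x.1 ^ (x.2.1 + 1), by
      rw [((hc x.1).pow_right _).orderOf_mul_eq_mul_orderOf_of_coprime (by rw [x.1.2, oz]; exact c),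
        x.1.2, oz]⟩
  have hf : Function.Injective f := by
    rintro ⟨x, i⟩ ⟨x', j⟩ e
    have e1 : x.1 * z x ^ (i.1 + 1) = x'.1 * z x' ^ (j.1 + 1) := congrArg Subtype.val e
    have pw : ∀ (x : {g : G // orderOf g = p}) (i : Fin 2), (x.1 * z x ^ (i.1 + 1)) ^ q = x.1 ^ q :=
      fun x i => by
        rw [((hc x).pow_right _).mul_pow, ← pow_mul, mul_comm _ q, pow_mul,
          show z x ^ q = 1 from hz x ▸ pow_orderOf_eq_one _, one_pow, mul_one]
    have e2 : x.1 ^ q = x'.1 ^ q := by rw [← pw x i, e1, pw]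
    obtain ⟨k, -, hk⟩ := Nat.exists_mul_mod_eq_one_of_coprime c.symm hp.one_lt
    have rt : ∀ x : {g : G // orderOf g = p}, (x.1 ^ q) ^ k = x := fun x => by
      rw [← pow_mul, ← pow_mod_orderOf, x.2, hk, pow_one]
    obtain rfl : x = x' := Subtype.ext (by rw [← rt x, e2, rt])
    have e3 := pow_injOn_Iio_orderOf (x := z x) (by rw [hz]; simp; omega) (by rw [hz]; simp; omega)
      (mul_left_cancel e1)
    exact Prod.ext rfl (Fin.ext (Nat.succ_injective e3))
  have := Nat.card_le_card_of_injective f hf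
  rw [Nat.card_prod, Nat.card_fin] at this
  change nse G p * 2 ≤ nse G (p * q) at this
  have m0 : nse G p = 0 := by omega
  rw [m0] at a
  exact one_ne_zero (α := ZMod p) (by simpa using a.symm)

theorem sq_zero {p q : ℕ} (hp : p.Prime) (hq : q.Prime) (dp : p ∣ Nat.card G) (dq : q ∣ Nat.card G)
    (hne : p ≠ q) (h1 : nse G p = m) (h2 : nse G q = n) : nse G (p * q) = 0 ∧ nse G (q ^ 2) = 0 := by
  haveI := Fact.mk hp
  haveI := Fact.mk hq
  have o : ∀ r, r ∣ Nat.card G → r ≠ 2 := by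
    rintro r hd rfl; exact (Nat.not_even_iff_odd.2 hodd) (even_iff_two_dvd.2 hd)
  have a : nse G (p * q) = 0 := by
    rcases H (p * q) (fun e => hp.one_lt.ne' (Nat.eq_one_of_mul_eq_one_right e)) with e | e | e
    · exact e
    · exact (not_mix hp hq (o q dq) dp dq hne (e.trans h1.symm)).elim
    · exact (not_mix hq hp (o p dp) dq dp hne.symm (by rw [mul_comm, e, h2])).elim
  refine ⟨a, by_contra fun hn => ?_⟩
  have b := z4 (G := G) hq le_rfl
  have c := z1 hq dq
  have e : nse G (q ^ 2) = m := by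
    rcases H (q ^ 2) (by rw [pow_two]; exact fun e => hq.one_lt.ne' (Nat.eq_one_of_mul_eq_one_right e))
      with e | e | e
    · exact absurd e hn
    · exact e
    · rw [e, ← h2, c] at b; exact absurd (by simpa using b) (one_ne_zero (α := ZMod q))
  obtain ⟨g, hg⟩ := nse_ne_zero.1 hn
  have := (ZMod.natCast_eq_zero_iff _ p).2 (nse_frob_mul hp dp (hg ▸ orderOf_dvd_natCard g)
    (((Nat.coprime_primes hp hq).2 hne).pow_right 2))
  simp only [Nat.sum_divisors_prime_pow hq, Finset.sum_range_succ, Finset.range_zero, Finset.sum_empty,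
    pow_zero, pow_one, mul_one, nse_one, e, a, h1,
    nse_eq_zero_of_dvd a (Nat.mul_dvd_mul_left p (dvd_pow_self q two_ne_zero))] at this
  push_cast at this
  have d1 := z1 hp dp
  have d2 := z2 hp hq dp dq hne
  rw [a] at d2
  rw [h1] at d1
  push_cast at d2
  exact one_ne_zero (α := ZMod p) (by linear_combination 2 * d1 - this + d2)

end

theorem pow_eq_one {p : ℕ} (hp : p.Prime) (h : nse G (p ^ 2) = 0) {x : G} (hx : PiElt {p} x) : x ^ p = 1 := by
  obtain ⟨k, hk⟩ := hx.exists_pow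
  obtain ⟨j, -, hj⟩ := (Nat.dvd_prime_pow hp).1 (orderOf_dvd_of_pow_eq_one hk)
  rw [← orderOf_dvd_iff_pow_eq_one, hj]
  rcases j with _ | _ | j
  · simp
  · simp
  · exact absurd (nse_eq_zero_of_dvd h (pow_dvd_pow p (by omega))) (nse_ne_zero.2 ⟨x, hj⟩)

theorem frob {p q : ℕ} (hodd : Odd (Nat.card G)) (hp : p.Prime) (hq : q.Prime) (dq : q ∣ Nat.card G)
    (hne : p ≠ q) (all : ∀ r, r.Prime → r ∣ Nat.card G → r = p ∨ r = q) (h0 : nse G (p * q) = 0)
    (h1 : nse G (p ^ 2) = 0) (h2 : nse G (q ^ 2) = 0) {N : Subgroup G} (hN : Abelem p N) (N1 : N ≠ ⊥)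
    (hn : ⊤ ≤ N(N)) : ∃ C : Subgroup G, IsFrobeniusComplement C ∧ (Nat.card C).Prime := by
  classical
  have hNp := hN.pGrp hp
  have com : ∀ x y : G, PiElt {p} x → PiElt {q} y → x * y = y * x → x = 1 ∨ y = 1 := fun x y a b c => by
    by_contra hc
    push Not at hc
    haveI := Fact.mk hp
    haveI := Fact.mk hq
    have ox := orderOf_eq_prime (pow_eq_one hp h1 a) hc.1
    have oy := orderOf_eq_prime (pow_eq_one hq h2 b) hc.2
    refine nse_ne_zero.2 ⟨x * y, ?_⟩ h0
    rw [Commute.orderOf_mul_eq_mul_orderOf_of_coprime c (by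
      rw [ox, oy]; exact (Nat.coprime_primes hp hq).2 hne), ox, oy]
  obtain ⟨Q, hQ⟩ := exists_syl q (⊤ : Subgroup G)
  have Q1 : Q ≠ ⊥ := hQ.syl_ne_bot ⟨hq, by rwa [card_top']⟩
  have hc : Cyc Q := odd_regular_pgroup_cyclic hQ.pi (hodd.of_dvd_nat (card_subgroup_dvd_card Q)) N1
    (le_top.trans hn) fun x hx x1 => eq_bot_iff.2 fun y hy =>
      (com y x (hNp.piElt hy.1) (hQ.pi.piElt hx) (mem_cen1.1 hy.2)).resolve_right x1
  obtain ⟨y, rfl⟩ := cyc_iff.1 hc
  haveI := Fact.mk hq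
  have oy : #⟪y⟫ = q := by
    rw [Nat.card_zpowers]
    exact orderOf_eq_prime (pow_eq_one hq h2 (hQ.pi.piElt (mem_zpowers y))) (by simpa using Q1)
  generalize ⟪y⟫ = Q at *
  have nQ : N(Q) ≤ Q := by
    by_contra hle
    obtain ⟨r, hr, hd⟩ := Nat.exists_prime_and_dvd (one_lt_relIndex hle).ne'
    have d1 := hd.trans (relIndex_dvd _ _)
    obtain rfl : r = p := (all r hr (d1.trans (card_subgroup_dvd_card _))).resolve_right (by
      rintro rfl
      exact (hQ.subl (le_nrm Q) le_top).not_dvd hr hd)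
    obtain ⟨x, hx, ox⟩ := exists_elt_of_prime_dvd hr d1
    have px : PiElt {r} x := (piElt_of_orderOf_prime hr ox).2 rfl
    haveI := nml_top_iff.1 ⟨le_top, hn⟩
    haveI := hN.ab
    haveI := Fintype.ofFinite Q
    obtain ⟨v, hv, v1⟩ := exists_ne_one N1
    have := norm_contra N Q hr.pos hx (ox ▸ pow_orderOf_eq_one x)
      (fun v hv => pow_eq_one hr h1 ((hNp.sup px.zpowers (le_top.trans hn)).piElt
        (mul_mem_sup hv (mem_zpowers x))))
      (fun v hv hc => by
        obtain ⟨z, hz, z1⟩ := exists_ne_one Q1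
        exact (com v z (hNp.piElt hv) (hQ.pi.piElt hz) (mem_cen.1 hc z hz).symm).resolve_right z1)
      (fun i i0 ip z hz e => (com _ z (px.pow i) (hQ.pi.piElt hz) e.symm).resolve_left
        (pow_ne_one_of_lt_orderOf i0.ne' (ox ▸ ip))) ⟨v, hv⟩
    have e : v ^ q = 1 := oy ▸ congrArg Subtype.val this
    exact v1 ((hNp.piElt hv).eq_one ((pElt_of_pow_eq_one hq e).sub (by simpa using hne)))
  refine ⟨Q, ⟨Q1, ?_, fun g hg => by_contra fun e => hg (nQ ?_)⟩, oy ▸ hq⟩
  · rintro rfl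
    exact hne (hNp.eq_of_pgrp (hQ.pi.mono le_top) N1)
  · refine mem_nrm_of_cj_le (inf_eq_right.1 (eq_of_card_le inf_le_right (Nat.le_of_dvd (card_pos _) ?_)))
    rw [card_cj, oy]
    exact (hQ.pi.inf_left _).dvd e

/-- Let G be a finite group of odd order in which the numbers of elements of each order that occurs (the numbers #{g : o(g) = m}, m ranging over the element orders of G) take exactly three different values. Then the order of G has at most two prime divisors; and if it has exactly two, then every Sylow subgroup of G for a prime dividing its order has prime exponent, G is a Frobenius group, and some Frobenius complement of G has prime order. -/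
theorem result {G : Type*} [Group G] [Finite G] (hodd : Odd (Nat.card G)) (h : (((fun m : ℕ => Nat.card {g : G // orderOf g = m}) '' Set.range (orderOf : G → ℕ))).ncard = 3) :
    (Nat.card G).primeFactors.card ≤ 2 ∧
      ((Nat.card G).primeFactors.card = 2 →
        (∀ (p : ℕ) [Fact p.Prime] (P : Sylow p G), p ∣ Nat.card G → Monoid.exponent ↥(P : Subgroup G) = p) ∧
        ∃ C : Subgroup G, Cfsg.IsFrobeniusComplement C ∧ (Nat.card ↥C).Prime) := by
  change (nse G '' _).ncard = 3 at h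
  obtain ⟨m, n, H⟩ : ∃ m n, ∀ k, k ≠ 1 → nse G k = 0 ∨ nse G k = m ∨ nse G k = n := by
    obtain ⟨a, b, c, -, -, -, e⟩ := Set.ncard_eq_three.1 h
    have h1 : 1 ∈ ({a, b, c} : Set ℕ) := e ▸ ⟨1, ⟨1, orderOf_one⟩, nse_one⟩
    have h2 : ∀ k, k ≠ 1 → nse G k = 0 ∨ nse G k ≠ 1 ∧ nse G k ∈ ({a, b, c} : Set ℕ) := fun k hk => by
      by_cases h0 : nse G k = 0
      · exact Or.inl h0
      obtain ⟨g, rfl⟩ := nse_ne_zero.1 h0
      refine Or.inr ⟨?_, e ▸ ⟨_, ⟨g, rfl⟩, rfl⟩⟩
      obtain ⟨j, hj⟩ := hodd.of_dvd_nat (orderOf_dvd_natCard g)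
      have := even_nse (G := G) (n := orderOf g) (by omega)
      omega
    simp only [Set.mem_insert_iff, Set.mem_singleton_iff] at h1 h2
    rcases h1 with rfl | rfl | rfl
    · exact ⟨b, c, fun k hk => by have := h2 k hk; omega⟩
    · exact ⟨a, c, fun k hk => by have := h2 k hk; omega⟩
    · exact ⟨a, b, fun k hk => by have := h2 k hk; omega⟩
  have H' : ∀ k, k ≠ 1 → nse G k = 0 ∨ nse G k = n ∨ nse G k = m := fun k hk => by
    have := H k hk; tauto
  have v : ∀ r, r.Prime → r ∣ Nat.card G → nse G r = m ∨ nse G r = n := fun r hr hd =>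
    (H r hr.one_lt.ne').resolve_left fun e => hr.one_lt.ne' (by simpa [e] using nse_prime hr hd)
  have a := fun p q => not_eq hodd H (p := p) (q := q)
  have b := fun p q => not_eq hodd H' (p := p) (q := q)
  refine ⟨by_contra fun hn => ?_, fun h2 => ?_⟩
  · obtain ⟨p, hp, q, hq, r, hr, pq, pr, qr⟩ := Finset.two_lt_card.1 (not_le.1 hn)
    rw [Nat.mem_primeFactors] at hp hq hr
    have a1 := a p q hp.1 hq.1 hp.2.1 hq.2.1 pq
    have a2 := a p r hp.1 hr.1 hp.2.1 hr.2.1 pr
    have a3 := a q r hq.1 hr.1 hq.2.1 hr.2.1 qr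
    have b1 := b p q hp.1 hq.1 hp.2.1 hq.2.1 pq
    have b2 := b p r hp.1 hr.1 hp.2.1 hr.2.1 pr
    have b3 := b q r hq.1 hr.1 hq.2.1 hr.2.1 qr
    rcases v p hp.1 hp.2.1 with e1 | e1 <;> rcases v q hq.1 hq.2.1 with e2 | e2 <;>
      rcases v r hr.1 hr.2.1 with e3 | e3 <;>
      first | exact a1 e1 e2 | exact a2 e1 e3 | exact a3 e2 e3 | exact b1 e1 e2 | exact b2 e1 e3 | exact b3 e2 e3
  obtain ⟨p, q, pq, e⟩ := Finset.card_eq_two.1 h2
  have hp := Nat.mem_primeFactors.1 (e ▸ by simp : p ∈ (Nat.card G).primeFactors)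
  have hq := Nat.mem_primeFactors.1 (e ▸ by simp : q ∈ (Nat.card G).primeFactors)
  have all : ∀ r, r.Prime → r ∣ Nat.card G → r = p ∨ r = q := fun r hr hd => by
    simpa [e] using Nat.mem_primeFactors.2 ⟨hr, hd, hp.2.2⟩
  obtain ⟨h0, h1, h2⟩ : nse G (p * q) = 0 ∧ nse G (p ^ 2) = 0 ∧ nse G (q ^ 2) = 0 := by
    rcases v p hp.1 hp.2.1 with e1 | e1 <;> rcases v q hq.1 hq.2.1 with e2 | e2
    · exact (a p q hp.1 hq.1 hp.2.1 hq.2.1 pq e1 e2).elim
    · have := sq_zero hodd H hp.1 hq.1 hp.2.1 hq.2.1 pq e1 e2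
      exact ⟨this.1, (sq_zero hodd H' hq.1 hp.1 hq.2.1 hp.2.1 pq.symm e2 e1).2, this.2⟩
    · have := sq_zero hodd H' hp.1 hq.1 hp.2.1 hq.2.1 pq e1 e2
      exact ⟨this.1, (sq_zero hodd H hq.1 hp.1 hq.2.1 hp.2.1 pq.symm e2 e1).2, this.2⟩
    · exact (b p q hp.1 hq.1 hp.2.1 hq.2.1 pq e1 e2).elim
  refine ⟨fun r hr P hd => ?_, ?_⟩
  · have hr' : r.Prime := Fact.out
    have h3 : nse G (r ^ 2) = 0 := by rcases all r hr' hd with rfl | rfl <;> assumption
    haveI := (nontrivial_iff_ne_bot _).2 (P.ne_bot_of_dvd_card hd)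
    refine (Monoid.exponent_eq_prime_iff hr').2 fun g hg => orderOf_eq_prime (Subtype.ext ?_) hg
    exact pow_eq_one hr' h3 ((syl_top hr' P).pi.piElt g.2)
  · haveI := odd_order_solvable hodd
    obtain ⟨N, -, hN⟩ := exists_minNml (K := (⊤ : Subgroup G)) (M := ⊤)
      (ne_bot_of_prime_dvd hp.1 (by rw [card_top']; exact hp.2.1)) (le_nrm _)
    obtain ⟨r, hr, hA⟩ := hN.abelem inferInstance
    rcases all r hr (((hA.pGrp hr).dvd hN.ne).trans (card_subgroup_dvd_card N)) with rfl | rfl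
    · exact frob hodd hp.1 hq.1 hq.2.1 pq all h0 h1 h2 hA hN.ne hN.nrm
    · exact frob hodd hq.1 hp.1 hp.2.1 pq.symm (fun r a b => (all r a b).symm) (mul_comm p r ▸ h0) h2 h1 hA
        hN.ne hN.nrm

end Cfsg.Agent.S4004
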