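import Mathlib
import Cfsg.Agent.H28.Eppo
-- Template for statement S4005 (row 4005; see /opt/grader/pristine/manifest.json for weights).
-- Copy to Cfsg/Agent/S4005.lean and replace the sorry. The statement below is byte-identical to the frozen
-- statement Cfsg.CfsgFrozen.S4005 (Cfsg/Statements/S4005.lean; the theorem Cfsg.fg5_element_orders_one_two_three_structure);
-- the grader kernel-checks Cfsg.Agent.S4005.result against that frozen type. Keep the theorem IN THIS FILE
-- (a `result` declared elsewhere and merely imported here is not credited); helpers may live anywhere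
-- under Cfsg/Agent/.
import Cfsg.Statements.S4005
-- import your own Cfsg.Agent.* helpers here

set_option autoImplicit false
open Cfsg

namespace Cfsg.Agent.S4005

/-- A finite group whose set of element orders is exactly {1, 2, 3} has either a normal elementary abelian 3-subgroup of index 2 or a normal elementary abelian 2-subgroup of index 3. -/
theorem result {G : Type*} [Group G] [Finite G] (h : Set.range (orderOf : G → ℕ) = {k : ℕ | 1 ≤ k ∧ k ≤ 3}) :
    (∃ N : Subgroup G, N.Normal ∧ Cfsg.IsElementaryAbelian 3 N ∧ N.index = 2) ∨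
      (∃ N : Subgroup G, N.Normal ∧ Cfsg.IsElementaryAbelian 2 N ∧ N.index = 3) := by
  open Subgroup Cfsg.Agent.FT Cfsg.Agent.H28 in
  open scoped commutatorElement Pointwise in
  · have h1 : ∀ x : G, orderOf x ≤ 3 := fun x => (show orderOf x ∈ {k : ℕ | 1 ≤ k ∧ k ≤ 3} from h ▸ ⟨x, rfl⟩).2
    have hd : ∀ t : ℕ, 1 ≤ t → t ≤ 3 → t ∣ #(⊤ : Subgroup G) := fun t h4 h5 => by
      obtain ⟨x, hx⟩ : t ∈ Set.range (orderOf : G → ℕ) := h ▸ ⟨h4, h5⟩
      exact hx ▸ orderOf_dvd_card' (mem_top x)
    have sq2 : ∀ A : Subgroup G, PGrp 2 A → Abelem 2 A := fun A hA => by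
      suffices e : ∀ x ∈ A, x ^ 2 = 1 from abelem_iff.2 ⟨ab_of_sq e, e⟩
      intro x hx
      have h6 := h1 x
      have := orderOf_pos x
      have h7 : orderOf x ≠ 3 := fun e => by simpa using (piElt_of_orderOf_prime Nat.prime_three e).1 (hA.piElt hx)
      refine orderOf_dvd_iff_pow_eq_one.1 ?_
      interval_cases orderOf x <;> simp_all
    rcases orders_le_four (fun x => (h1 x).trans (by norm_num)) (hd 2 (by norm_num) (by norm_num)) (hd 3 (by norm_num) le_rfl) with
      ⟨V, S, hV, hV1, hS, hsd, hr⟩ | ⟨N, H, hN, hsd, ⟨hH, -⟩ | ⟨-, -, t, ht, hP⟩⟩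
    · refine Or.inl ⟨V, nml_top_iff.1 hsd.nml, hV, ?_⟩
      rw [← relIndex_top_right, hsd.relIndex_left]
      exact (sq2 S hS.pi).card_of_cyc Nat.prime_two (H27.cyc_of_ab_semiReg (sq2 S hS.pi).ab (hsd.right.trans hsd.nml.nrm) hV1 hr)
        (ne_bot_of_prime_dvd Nat.prime_two (hS.dvd_card Nat.prime_two rfl (hd 2 (by norm_num) (by norm_num))))
    · exact Or.inr ⟨N, nml_top_iff.1 hsd.nml, sq2 N hN, by rw [← relIndex_top_right, hsd.relIndex_left, hH]⟩
    · exact (ht (mem_cen.2 fun k hk => (sq2 _ hP).ab.comm (mem_sup_left hk) (mem_sup_right (mem_zpowers t)))).elim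

end Cfsg.Agent.S4005
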