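import Mathlib
import Cfsg.Agent.H28.Eppo
import Cfsg.Agent.H3.Two
-- Template for statement S4006 (row 4006; see /opt/grader/pristine/manifest.json for weights).
-- Copy to Cfsg/Agent/S4006.lean and replace the sorry. The statement below is byte-identical to the frozen
-- statement Cfsg.CfsgFrozen.S4006 (Cfsg/Statements/S4006.lean; the theorem Cfsg.fg5_element_orders_one_to_four_structure);
-- the grader kernel-checks Cfsg.Agent.S4006.result against that frozen type. Keep the theorem IN THIS FILE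
-- (a `result` declared elsewhere and merely imported here is not credited); helpers may live anywhere
-- under Cfsg/Agent/.
import Cfsg.Statements.S4006
-- import your own Cfsg.Agent.* helpers here

set_option autoImplicit false
open Cfsg

namespace Cfsg.Agent.S4006

/-- A finite group whose set of element orders is exactly {1, 2, 3, 4} has a normal subgroup N such that either N is a 2-group of exponent 4 and nilpotency class at most 2 with G/N of order 3, or N is an elementary abelian 2-group with G/N isomorphic to the symmetric group of degree 3, or N is an elementary abelian 3-group with G/N cyclic of order 4 or quaternion of order 8. -/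
theorem result {G : Type*} [Group G] [Finite G] (h : Set.range (orderOf : G → ℕ) = {k : ℕ | 1 ≤ k ∧ k ≤ 4}) :
    ∃ (N : Subgroup G) (_ : N.Normal),
      (IsPGroup 2 ↥N ∧ Monoid.exponent ↥N = 4 ∧ Group.nilpotencyClass ↥N ≤ 2 ∧ N.index = 3) ∨
      (Cfsg.IsElementaryAbelian 2 N ∧ Nonempty (G ⧸ N ≃* Equiv.Perm (Fin 3))) ∨
      (Cfsg.IsElementaryAbelian 3 N ∧ ((IsCyclic (G ⧸ N) ∧ N.index = 4) ∨ Nonempty (G ⧸ N ≃* QuaternionGroup 2))) := by
  open Subgroup Cfsg.Agent.FT Cfsg.Agent.H28 in
  open scoped commutatorElement Pointwise in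
  · have h1 : ∀ x : G, orderOf x ≤ 4 := fun x => (show orderOf x ∈ {k : ℕ | 1 ≤ k ∧ k ≤ 4} from h ▸ ⟨x, rfl⟩).2
    have hd : ∀ t : ℕ, 1 ≤ t → t ≤ 4 → t ∣ #(⊤ : Subgroup G) := fun t h4 h5 => by
      obtain ⟨x, hx⟩ : t ∈ Set.range (orderOf : G → ℕ) := h ▸ ⟨h4, h5⟩
      exact hx ▸ orderOf_dvd_card' (mem_top x)
    have p2 := Nat.prime_two
    have h4 : ∀ S : Subgroup G, Syl 2 S ⊤ → ∃ y ∈ S, orderOf y = 4 := fun S hS => by
      obtain ⟨x, hx⟩ : 4 ∈ Set.range (orderOf : G → ℕ) := h ▸ ⟨by norm_num, le_rfl⟩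
      obtain ⟨g, -, hg⟩ := hS.syl_elt (mem_top x) ((pElt_iff p2).2 ⟨2, by rw [← pow_orderOf_eq_one x, hx]; rfl⟩)
      exact ⟨_, hg, (orderOf_conj g x).trans hx⟩
    rcases orders_le_four h1 (hd 2 (by norm_num) (by norm_num)) (hd 3 (by norm_num) (by norm_num)) with
      ⟨V, S, hV, hV1, hS, hsd, hr⟩ | ⟨N, H, hN, hsd, ⟨hH, hc⟩ | ⟨⟨e⟩, hA, -⟩⟩
    · haveI := nml_top_iff.1 hsd.nml
      refine ⟨V, this, Or.inr (Or.inr ⟨hV, ?_⟩)⟩
      have e := hsd.isComplement'_top.symm.QuotientMulEquiv
      rcases H3.cyc_or_mcq_of_rank hS.pi (prank_le_iff_forall.2 fun m A hA => by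
        have := (H27.cyc_of_ab_semiReg hA.abelem.ab (le_top.trans hsd.nml.nrm) hV1 (hr.mono_right hA.le)).prank_le 2
        rwa [hA.prank_eq] at this) with hc | ⟨a, b, m, hq⟩
      · refine Or.inl ⟨isCyclic_of_surjective e.symm e.symm.surjective, ?_⟩
        obtain ⟨y, hy, hy4⟩ := h4 S hS
        obtain ⟨x, -, -, hx⟩ := hc.exists_gen
        rw [← relIndex_top_right, hsd.relIndex_left]
        exact le_antisymm (hx ▸ h1 x) (Nat.le_of_dvd Nat.card_pos (hy4 ▸ orderOf_dvd_card' hy))
      · obtain rfl : m = 2 := le_antisymm ((Nat.pow_le_pow_iff_right one_lt_two).1 (hq.ord ▸ h1 a)) hq.two_le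
        exact Or.inr (hq.iso.map e.trans)
    · haveI := nml_top_iff.1 hsd.nml
      obtain ⟨y, hy, hy4⟩ := h4 N (hsd.hall_left hN ((pGrp_of_card_prime Nat.prime_three hH).p' (by norm_num)))
      refine ⟨N, this, Or.inl ⟨hN.isPGroup, Nat.dvd_antisymm (Monoid.exponent_dvd.2 fun x => ?_)
        (hy4 ▸ orderOf_mk y hy ▸ Monoid.order_dvd_exponent _), ?_, by rw [← relIndex_top_right, hsd.relIndex_left, hH]⟩⟩
      · have h6 := h1 x
        have := orderOf_pos (x : G)
        have h7 : orderOf (x : G) ≠ 3 := fun e => by simpa using (piElt_of_orderOf_prime Nat.prime_three e).1 (hN.piElt x.2)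
        rw [← orderOf_coe]
        interval_cases orderOf (x : G) <;> simp_all
      · haveI : Group.IsNilpotent N := hN.nil
        rw [← Subgroup.lowerCentralSeries_eq_bot_iff_nilpotencyClass_le]
        refine map_injective N.subtype_injective ?_
        change map _ ⁅⁅(⊤ : Subgroup N), (⊤ : Subgroup N)⁆, (⊤ : Subgroup N)⁆ = _
        rw [map_commutator, map_commutator, map_subtype_top, Subgroup.map_bot, comm_eq_bot.2 hc]
    · haveI := nml_top_iff.1 hsd.nml
      exact ⟨N, this, Or.inr (Or.inl ⟨hA, ⟨hsd.isComplement'_top.symm.QuotientMulEquiv.trans e⟩⟩)⟩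

end Cfsg.Agent.S4006
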