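import Cfsg.Statements.S4198
import Mathlib

set_option autoImplicit false
open Cfsg

namespace Cfsg.Agent.S4198

open Equiv Equiv.Perm

def TT (n : ℕ) : Set (Multiset ℕ) := {m | m.sum ≤ n ∧ ∀ a ∈ m, 2 ≤ a}

def ct (n : ℕ) : ConjClasses (Perm (Fin n)) → TT n :=
  Quotient.lift (fun g => ⟨g.cycleType, by simpa using g.sum_cycleType_le, fun _ h => two_le_of_mem_cycleType h⟩)
    fun _ _ h => Subtype.ext (isConj_iff_cycleType_eq.1 h)

theorem ct_mk {n : ℕ} (g : Perm (Fin n)) : (ct n (ConjClasses.mk g)).1 = g.cycleType := by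
  unfold ct ConjClasses.mk
  rfl

theorem ct_bij (n : ℕ) : Function.Bijective (ct n) := by
  constructor
  · intro a b h
    obtain ⟨x, rfl⟩ := ConjClasses.mk_surjective a
    obtain ⟨y, rfl⟩ := ConjClasses.mk_surjective b
    exact ConjClasses.mk_eq_mk_iff_isConj.2 (isConj_iff_cycleType_eq.2 (by
      have h' := congrArg Subtype.val h
      rwa [ct_mk, ct_mk] at h'))
  · rintro ⟨m, hm⟩
    obtain ⟨g, hg⟩ := (exists_with_cycleType_iff (Fin n) (m := m)).2 (by simpa [TT] using hm)
    exact ⟨ConjClasses.mk g, Subtype.ext hg⟩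

theorem TT_finite (n : ℕ) : (TT n).Finite := by
  have : Finite (TT n) := Finite.of_surjective _ (ct_bij n).2
  exact Set.toFinite _

theorem TT_small {n : ℕ} (hn : n ≤ 1) : (TT n).ncard ≤ 1 := by
  have : TT n ⊆ {0} := fun m hm => by
    by_contra h
    obtain ⟨a, ha⟩ := Multiset.exists_mem_of_ne_zero h
    have := Multiset.le_sum_of_mem ha
    have := hm.1
    have := hm.2 a ha
    omega
  simpa using Set.ncard_le_ncard this

theorem TT_rec (n : ℕ) : (TT (n + 2)).ncard ≤ (TT (n + 1)).ncard + (TT n).ncard := by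
  have : TT (n + 2) ⊆ TT (n + 1) ∪ (fun μ => (n + 2 - μ.sum) ::ₘ μ) '' TT n := fun m hm => by
    by_cases h : m.sum ≤ n + 1
    · exact Or.inl ⟨h, hm.2⟩
    have h0 : m ≠ 0 := by rintro rfl; simp at h
    obtain ⟨a, ha⟩ := Multiset.exists_mem_of_ne_zero h0
    have e := Multiset.sum_erase ha
    have h1 := hm.1
    have h2 := hm.2 a ha
    refine Or.inr ⟨m.erase a, ⟨by omega, fun b hb => hm.2 b (Multiset.mem_of_mem_erase hb)⟩, ?_⟩
    show (n + 2 - (m.erase a).sum) ::ₘ m.erase a = m
    rw [show n + 2 - (m.erase a).sum = a by omega, Multiset.cons_erase ha]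
  exact (Set.ncard_le_ncard this ((TT_finite _).union ((TT_finite _).image _))).trans
    ((Set.ncard_union_le _ _).trans (Nat.add_le_add_left (Set.ncard_image_le (TT_finite _)) _))

theorem TT_le (k : ℕ) : (TT (k + 4)).ncard ≤ 5 * 2 ^ k ∧ (TT (k + 5)).ncard ≤ 2 ^ (k + 3) := by
  induction k with
  | zero =>
    have := TT_small (n := 0) (by omega)
    have := TT_small (n := 1) (by omega)
    have := TT_rec 0
    have := TT_rec 1
    have := TT_rec 2
    have := TT_rec 3
    simp only [zero_add, Nat.reduceAdd] at *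
    omega
  | succ k ih =>
    have := TT_rec (k + 4)
    have e1 : 2 ^ (k + 3) = 8 * 2 ^ k := by ring
    have e2 : 2 ^ (k + 1 + 3) = 16 * 2 ^ k := by ring
    have e3 : 2 ^ (k + 1) = 2 * 2 ^ k := by ring
    simp only [add_assoc, Nat.reduceAdd] at *
    omega

theorem even_type {n : ℕ} (x : alternatingGroup (Fin n)) :
    Even ((x : Perm (Fin n)).cycleType.sum + Multiset.card (x : Perm (Fin n)).cycleType) := by
  have := mem_alternatingGroup.1 x.2
  rw [sign_of_cycleType] at this
  exact (neg_one_pow_eq_one_iff_even (by decide)).1 this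

theorem conj_of_odd {n : ℕ} {x y : alternatingGroup (Fin n)} {c : Perm (Fin n)} (hc : sign c = -1)
    (h : Commute c x) (e : (x : Perm (Fin n)).cycleType = (y : Perm (Fin n)).cycleType) : IsConj x y := by
  obtain ⟨g, hg⟩ := isConj_iff.1 (isConj_iff_cycleType_eq.2 e)
  rcases Int.units_eq_one_or (sign g) with h1 | h1
  · exact isConj_iff.2 ⟨⟨g, h1⟩, Subtype.ext hg⟩
  · refine isConj_iff.2 ⟨⟨g * c, by simp [h1, hc]⟩, Subtype.ext ?_⟩
    show g * c * x * (g * c)⁻¹ = y
    rw [← hg, mul_assoc g c, h.eq]; group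

theorem split_odd {n : ℕ} (hn : 5 ≤ n) {x y : alternatingGroup (Fin n)} (h : ¬ IsConj x y)
    (e : (x : Perm (Fin n)).cycleType = (y : Perm (Fin n)).cycleType) :
    (x : Perm (Fin n)).cycleType ≠ 0 ∧ ∀ a ∈ (x : Perm (Fin n)).cycleType, Odd a := by
  constructor
  · intro h0
    rw [h0, eq_comm, cycleType_eq_zero] at e
    rw [cycleType_eq_zero] at h0
    exact h ((Subtype.ext (h0.trans e.symm) : x = y) ▸ IsConj.refl x)
  · intro a ha
    by_contra h1
    obtain ⟨c, τ, e1, e2, e3, e4⟩ := mem_cycleType_iff.1 ha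
    refine h (conj_of_odd (c := c) ?_ ?_ e)
    · rw [e3.sign, e4, (Nat.not_odd_iff_even.1 h1).neg_one_pow]
    · rw [e1]; exact (Commute.refl c).mul_right e2.commute

theorem third {n : ℕ} {b x y : alternatingGroup (Fin n)} (h1 : ¬ IsConj b x) (h2 : ¬ IsConj b y)
    (e1 : (b : Perm (Fin n)).cycleType = (x : Perm (Fin n)).cycleType)
    (e2 : (b : Perm (Fin n)).cycleType = (y : Perm (Fin n)).cycleType) : IsConj x y := by
  obtain ⟨g, hg⟩ := isConj_iff.1 (isConj_iff_cycleType_eq.2 e1)
  obtain ⟨g', hg'⟩ := isConj_iff.1 (isConj_iff_cycleType_eq.2 e2)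
  have s1 := (Int.units_eq_one_or (sign g)).resolve_left fun h => h1 (isConj_iff.2 ⟨⟨g, h⟩, Subtype.ext hg⟩)
  have s2 := (Int.units_eq_one_or (sign g')).resolve_left fun h => h2 (isConj_iff.2 ⟨⟨g', h⟩, Subtype.ext hg'⟩)
  refine isConj_iff.2 ⟨⟨g' * g⁻¹, by simp [s1, s2]⟩, Subtype.ext ?_⟩
  show g' * g⁻¹ * x * (g' * g⁻¹)⁻¹ = y
  rw [← hg, ← hg']; group

theorem alt_lt {n : ℕ} (hn : 5 ≤ n) : Nat.card (ConjClasses (alternatingGroup (Fin n))) < (TT n).ncard := by
  classical
  let ty : alternatingGroup (Fin n) → Multiset ℕ := fun x => (x : Perm (Fin n)).cycleType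
  let b : Multiset ℕ → alternatingGroup (Fin n) := Function.invFun ty
  have hb : ∀ x, ty (b (ty x)) = ty x := fun x => Function.invFun_eq ⟨x, rfl⟩
  let pk : Multiset ℕ → ℕ := fun m => if h : ∃ a, a ∈ m then h.choose else 0
  have hpk : ∀ m, m ≠ 0 → pk m ∈ m := fun m h => by
    have h' := Multiset.exists_mem_of_ne_zero h
    simp only [pk, dif_pos h']
    exact h'.choose_spec
  choose rep hrep using ConjClasses.mk_surjective (α := alternatingGroup (Fin n))
  let F : ConjClasses (alternatingGroup (Fin n)) → Multiset ℕ := fun c =>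
    if IsConj (b (ty (rep c))) (rep c) then ty (rep c)
    else (pk (ty (rep c)) - 1) ::ₘ (ty (rep c)).erase (pk (ty (rep c)))
  have hs : ∀ x, ¬ IsConj (b (ty x)) x → pk (ty x) ∈ ty x ∧ (∀ a ∈ ty x, Odd a) ∧ 3 ≤ pk (ty x) := fun x h => by
    have := split_odd hn (fun e => h e.symm) (hb x).symm
    have h1 := hpk _ this.1
    have h2 : 2 ≤ pk (ty x) := two_le_of_mem_cycleType h1
    have h3 : pk (ty x) % 2 = 1 := Nat.odd_iff.1 (this.2 _ h1)
    exact ⟨h1, this.2, by omega⟩
  have hsum : ∀ x, (ty x).sum ≤ n := fun x => by simpa using (x : Perm (Fin n)).sum_cycleType_le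
  have hpar : ∀ x, ¬ IsConj (b (ty x)) x → ((pk (ty x) - 1) ::ₘ (ty x).erase (pk (ty x))).sum + 1 = (ty x).sum ∧
      Multiset.card ((pk (ty x) - 1) ::ₘ (ty x).erase (pk (ty x))) = Multiset.card (ty x) := fun x h => by
    obtain ⟨h1, -, h3⟩ := hs x h
    have e := Multiset.sum_erase h1
    have e' := Multiset.card_erase_add_one h1
    rw [Multiset.sum_cons, Multiset.card_cons]
    omega
  have hinj : Function.Injective F := by
    intro c d e
    rw [← hrep c, ← hrep d, ConjClasses.mk_eq_mk_iff_isConj]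
    simp only [F] at e
    have p1 := Nat.even_iff.1 (even_type (rep c))
    have p2 := Nat.even_iff.1 (even_type (rep d))
    split_ifs at e with h1 h2 h2
    · exact h1.symm.trans (e ▸ h2)
    · have := hpar _ h2
      rw [← e] at this
      simp only [ty] at this
      omega
    · have := hpar _ h1
      rw [e] at this
      simp only [ty] at this
      omega
    · obtain ⟨a1, a2, a3⟩ := hs _ h1
      obtain ⟨b1, b2, b3⟩ := hs _ h2
      have h3 : pk (ty (rep c)) - 1 ∈ (pk (ty (rep d)) - 1) ::ₘ (ty (rep d)).erase (pk (ty (rep d))) :=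
        e ▸ Multiset.mem_cons_self _ _
      have h4 : pk (ty (rep c)) = pk (ty (rep d)) := by
        rcases Multiset.mem_cons.1 h3 with h | h
        · omega
        · have := Nat.odd_iff.1 (b2 _ (Multiset.mem_of_mem_erase h))
          have := Nat.odd_iff.1 (a2 _ a1)
          omega
      rw [h4, Multiset.cons_inj_right] at e
      have h5 : ty (rep c) = ty (rep d) := by
        rw [← Multiset.cons_erase b1, ← e, ← h4, Multiset.cons_erase a1]
      exact third h1 (h5 ▸ h2) (hb _) ((hb _).trans h5)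
  have hsub : Set.range F ⊆ TT n := by
    rintro _ ⟨c, rfl⟩
    simp only [F]
    split_ifs with h
    · exact ⟨hsum _, fun _ h => two_le_of_mem_cycleType h⟩
    · refine ⟨by have := hpar _ h; have := hsum (rep c); omega, fun a ha => ?_⟩
      rcases Multiset.mem_cons.1 ha with rfl | ha
      · have := (hs _ h).2.2; omega
      · exact two_le_of_mem_cycleType (Multiset.mem_of_mem_erase ha)
  obtain ⟨t, ht1, ht2, ht3⟩ : ∃ t ∈ TT n, t.sum = n ∧ Odd (t.sum + Multiset.card t) := by
    rcases Nat.even_or_odd n with h | h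
    · exact ⟨{n}, ⟨by simp, by simp; omega⟩, by simp, by simpa using h.add_one⟩
    · refine ⟨{n - 3, 3}, ⟨by simp; omega, by simp; omega⟩, by simp; omega, ?_⟩
      have := Nat.odd_iff.1 h
      rw [Nat.odd_iff]
      simp; omega
  have hne : t ∉ Set.range F := by
    rintro ⟨c, rfl⟩
    simp only [F] at ht2 ht3
    split_ifs at ht2 ht3 with h
    · exact Nat.not_even_iff_odd.2 ht3 (even_type _)
    · have := hpar _ h; have := hsum (rep c); omega
  rw [← Set.ncard_univ, ← Set.ncard_image_of_injective _ hinj, Set.image_univ]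
  exact Set.ncard_lt_ncard ⟨hsub, fun h => hne (h ht1)⟩ (TT_finite n)

/-- For n ≥ 5 the alternating group of degree n has strictly fewer conjugacy classes than the symmetric group of degree n, and the symmetric group of degree n (whose classes correspond to the partitions of n) has at most 2^(n−2) conjugacy classes. -/
theorem result (n : ℕ) (hn : 5 ≤ n) : Nat.card (ConjClasses (alternatingGroup (Fin n))) < Nat.card (ConjClasses (Equiv.Perm (Fin n))) ∧ Nat.card (ConjClasses (Equiv.Perm (Fin n))) ≤ 2 ^ (n - 2) := by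
  rw [Nat.card_eq_of_bijective _ (ct_bij n), Nat.card_coe_set_eq]
  refine ⟨alt_lt hn, ?_⟩
  obtain ⟨k, rfl⟩ := Nat.exists_eq_add_of_le' hn
  exact (TT_le k).2

end Cfsg.Agent.S4198
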