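import Mathlib
import Cfsg.Agent.H28.ClassCount
-- Template for statement S4201 (row 4201; see /opt/grader/pristine/manifest.json for weights).
-- Copy to Cfsg/Agent/S4201.lean and replace the sorry. The statement below is byte-identical to the frozen
-- statement Cfsg.CfsgFrozen.S4201 (Cfsg/Statements/S4201.lean; the theorem Cfsg.class_number_le_normal_mul_quotient);
-- the grader kernel-checks Cfsg.Agent.S4201.result against that frozen type. Keep the theorem IN THIS FILE
-- (a `result` declared elsewhere and merely imported here is not credited); helpers may live anywhere
-- under Cfsg/Agent/.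
import Cfsg.Statements.S4201
-- import your own Cfsg.Agent.* helpers here

set_option autoImplicit false
open Cfsg

namespace Cfsg.Agent.S4201

/-- If N is a normal subgroup of the finite group X then k(X) ≤ k(N)·k(X ⧸ N), where k denotes the number of conjugacy classes. -/
theorem result {X : Type*} [Group X] [Finite X] (N : Subgroup X) [N.Normal] : Nat.card (ConjClasses X) ≤ Nat.card (ConjClasses N) * Nat.card (ConjClasses (X ⧸ N)) := by
  open Subgroup Cfsg.Agent.FT Cfsg.Agent.H28 in
  open scoped commutatorElement Pointwise in
  have := kpi_le_mul Set.univ N
  rwa [kpi_univ, kpi_univ, kpi_univ] at this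

end Cfsg.Agent.S4201
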