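import Mathlib
import Cfsg.Agent.H28.Util2
-- Template for statement S4203 (row 4203; see /opt/grader/pristine/manifest.json for weights).
-- Copy to Cfsg/Agent/S4203.lean and replace the sorry. The statement below is byte-identical to the frozen
-- statement Cfsg.CfsgFrozen.S4203 (Cfsg/Statements/S4203.lean; the theorem Cfsg.fg14_solvable_of_maximal_index_prime_or_prime_sq);
-- the grader kernel-checks Cfsg.Agent.S4203.result against that frozen type. Keep the theorem IN THIS FILE
-- (a `result` declared elsewhere and merely imported here is not credited); helpers may live anywhere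
-- under Cfsg/Agent/.
import Cfsg.Statements.S4203
-- import your own Cfsg.Agent.* helpers here

set_option autoImplicit false
open Cfsg

namespace Cfsg.Agent.S4203

section
open Subgroup Cfsg.Agent.FT Cfsg.Agent.H28
open scoped commutatorElement Pointwise
set_option linter.style.haveILetI false

universe u

theorem key (n : ℕ) : ∀ (G : Type u) [Group G] [Finite G], Nat.card G = n →
    (∀ M : Subgroup G, IsCoatom M → ∃ p : ℕ, p.Prime ∧ (M.index = p ∨ M.index = p ^ 2)) →
    Group.IsSolvable G := by
  induction n using Nat.strong_induction_on with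
  | _ n ih =>
  intro G _ _ hn h
  rcases subsingleton_or_nontrivial G with h0 | h0
  · infer_instance
  obtain ⟨N, -, hN⟩ := exists_minNml (K := (⊤ : Subgroup G)) (M := ⊤) top_ne_bot (le_nrm _)
  haveI := normal_of_top_le hN.nrm
  refine isSolvable_of_normal N ?_ (ih _ (hn ▸ card_quot_lt N hN.ne) _ rfl fun M hM => ?_)
  · have h1 : 1 < #N := FT.one_lt_card hN.ne
    have hne : (#N).primeFactors.Nonempty := Nat.nonempty_primeFactors.2 h1
    set p := (#N).primeFactors.max' hne with hpdef
    have hp' := Nat.mem_primeFactors.1 (Finset.max'_mem _ hne)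
    rw [← hpdef] at hp'
    have hp : p.Prime := hp'.1
    have hmax : ∀ q, q.Prime → q ∣ #N → q ≤ p := fun q hq hd =>
      Finset.le_max' _ q (Nat.mem_primeFactors.2 ⟨hq, hd, hp'.2.2⟩)
    clear_value p
    haveI := Fact.mk hp
    obtain ⟨P, hP⟩ := exists_syl p N
    by_cases hPn : N(P) = ⊤
    · rw [← hN.min P hP.le (hP.syl_ne_bot ⟨hp, hp'.2.1⟩) hPn.ge]
      exact hP.pi.sol
    obtain ⟨M, hM, hle⟩ := exists_coatom hPn
    have h2 : MulEq N M ⊤ := (hP.frattini (nml_top N)).mono le_rfl le_top
      (inf_le_right.trans hle) le_top
    have h3 : M.index = M.relIndex N := by rw [← relIndex_top_right, h2.relIndex_right]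
    have hPM : P ≤ N ⊓ M := le_inf hP.le ((le_nrm P).trans hle)
    have h4 : M.index ≡ 1 [MOD p] := by
      have e1 := card_sylow_modEq_one p N
      have e2 := card_sylow_modEq_one p (N ⊓ M : Subgroup G)
      rw [card_sylow_eq_relIndex hP] at e1
      rw [card_sylow_eq_relIndex (hP.subl hPM inf_le_left)] at e2
      have e3 : N(P).relIndex N = N(P).relIndex (N ⊓ M) * M.relIndex N := by
        rw [← inf_relIndex_right N(P) N, ← inf_relIndex_right N(P) (N ⊓ M), ← inf_relIndex_right M N,
          show N(P) ⊓ (N ⊓ M) = N(P) ⊓ N from le_antisymm (inf_le_inf_left _ inf_le_left)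
            (le_inf inf_le_left (le_inf inf_le_right (inf_le_left.trans hle))), inf_comm M N]
        exact (relIndex_mul (le_inf inf_le_right (inf_le_left.trans hle)) inf_le_left).symm
      rw [e3, ← h3] at e1
      have := (e2.mul_right M.index).symm.trans e1
      rwa [one_mul] at this
    obtain ⟨q, hq, hi⟩ := h M hM
    have hqN : q ∣ #N := by
      refine Dvd.dvd.trans ?_ (h3 ▸ relIndex_dvd M N)
      rcases hi with hi | hi <;> rw [hi]
      exact dvd_pow_self q two_ne_zero
    have hqp := hmax q hq hqN
    have hq2 := hq.two_le
    have h5 : p ∣ q ^ 2 - 1 := by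
      rcases hi with hi | hi
      · rw [hi] at h4
        have := h4.pow 2
        rw [one_pow] at this
        exact (Nat.modEq_iff_dvd' (Nat.one_le_pow _ _ hq.pos)).1 this.symm
      · rw [hi] at h4
        exact (Nat.modEq_iff_dvd' (Nat.one_le_pow _ _ hq.pos)).1 h4.symm
    have h6 : p = 3 := by
      rw [← one_pow 2, Nat.sq_sub_sq] at h5
      rcases (Nat.Prime.dvd_mul hp).1 h5 with h5 | h5
      · have := Nat.le_of_dvd (by omega) h5
        rcases (by omega : p = q ∨ p = q + 1) with rfl | rfl
        · exact absurd ((Nat.dvd_add_right dvd_rfl).1 h5) hp.not_dvd_one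
        · rcases hq.eq_two_or_odd' with rfl | ho
          · rfl
          · have := hp.eq_two_or_odd'
            rcases this with h7 | h7
            · omega
            · exact absurd h7 (by rw [Nat.odd_add_one]; simpa using ho)
      · have := Nat.le_of_dvd (by omega) h5
        omega
    refine sol_of_two_primes Nat.prime_two Nat.prime_three fun r hr hd => ?_
    have := hmax r hr hd
    have := hr.two_le
    simp only [Set.mem_insert_iff, Set.mem_singleton_iff]
    omega
  · rw [← index_comap_mk']
    exact h _ (isCoatom_comap_of_surjective (QuotientGroup.mk'_surjective N) hM)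

end

/-- A finite group in which every maximal subgroup has index a prime or the square of a prime is solvable. -/
theorem result {G : Type*} [Group G] [Finite G] (h : ∀ M : Subgroup G, IsCoatom M → ∃ p : ℕ, p.Prime ∧ (M.index = p ∨ M.index = p ^ 2)) : Group.IsSolvable G := by
  open Subgroup Cfsg.Agent.FT Cfsg.Agent.H28 in
  open scoped commutatorElement Pointwise in
  exact key _ G rfl h

end Cfsg.Agent.S4203
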