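import Mathlib
import Cfsg.Agent.H28.Util
-- Template for statement S4204 (row 4204; see /opt/grader/pristine/manifest.json for weights).
-- Copy to Cfsg/Agent/S4204.lean and replace the sorry. The statement below is byte-identical to the frozen
-- statement Cfsg.CfsgFrozen.S4204 (Cfsg/Statements/S4204.lean; the theorem Cfsg.fg14_join_of_normal_nilpotent_class_add);
-- the grader kernel-checks Cfsg.Agent.S4204.result against that frozen type. Keep the theorem IN THIS FILE
-- (a `result` declared elsewhere and merely imported here is not credited); helpers may live anywhere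
-- under Cfsg/Agent/.
import Cfsg.Statements.S4204
-- import your own Cfsg.Agent.* helpers here

set_option autoImplicit false
open Cfsg

namespace Cfsg.Agent.S4204

section
open Subgroup Cfsg.Agent.FT Cfsg.Agent.H28
open scoped commutatorElement Pointwise
set_option linter.style.haveILetI false

theorem comm_le_iff {G : Type*} [Group G] {A B N : Subgroup G} [N.Normal] :
    ⁅A, B⁆ ≤ N ↔ A ≤ (C(B.map (QuotientGroup.mk' N))).comap (QuotientGroup.mk' N) := by
  rw [← map_le_iff_le_comap, ← comm_eq_bot, ← map_commutator, Subgroup.map_eq_bot_iff, QuotientGroup.ker_mk']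

def a {G : Type*} [Group G] (H : Subgroup G) : ℕ → Subgroup G
  | 0 => ⊤
  | (i + 1) => H.lowerCentralSeries i

theorem lcs_normal {G : Type*} [Group G] (H : Subgroup G) [H.Normal] (i : ℕ) :
    (H.lowerCentralSeries i).Normal := by
  induction i with
  | zero => simpa
  | succ i ih => rw [Subgroup.lowerCentralSeries_succ]; infer_instance

theorem a_normal {G : Type*} [Group G] (H : Subgroup G) [H.Normal] (i : ℕ) : (a H i).Normal := by
  cases i with
  | zero => exact normal_top
  | succ i => exact lcs_normal H i

theorem a_succ {G : Type*} [Group G] (H : Subgroup G) [H.Normal] (i : ℕ) :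
    ⁅a H i, H⁆ ≤ a H (i + 1) := by
  cases i with
  | zero => exact commutator_le_right _ _
  | succ i => exact le_rfl

def b {G : Type*} [Group G] (H K : Subgroup G) (n : ℕ) : Subgroup G :=
  ⨆ p : {p : ℕ × ℕ // p.1 + p.2 = n}, a H p.1.1 ⊓ a K p.1.2

theorem le_b {G : Type*} [Group G] (H K : Subgroup G) {i j n : ℕ} (h : i + j = n) :
    a H i ⊓ a K j ≤ b H K n :=
  le_iSup (fun p : {p : ℕ × ℕ // p.1 + p.2 = n} => a H p.1.1 ⊓ a K p.1.2) ⟨(i, j), h⟩

theorem b_normal {G : Type*} [Group G] (H K : Subgroup G) [H.Normal] [K.Normal] (n : ℕ) :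
    (b H K n).Normal := by
  refine nml_top_iff.1 ⟨le_top, norms_iSup fun p => ?_⟩
  haveI := a_normal H p.1.1
  haveI := a_normal K p.1.2
  exact le_nrm_of_normal _ _

end

/-- If `H` and `K` are normal subgroups of a finite group with `H` nilpotent of class at most `c` and `K` nilpotent of class at most `d` (the terms with index `c`, respectively `d`, of their lower central series are trivial, indices starting at `0`), then `HK` is nilpotent of class at most `c + d`. -/
theorem result {G : Type*} [Group G] [Finite G] (H K : Subgroup G) [H.Normal] [K.Normal] (c d : ℕ) (hH : H.lowerCentralSeries c = ⊥) (hK : K.lowerCentralSeries d = ⊥) : (H ⊔ K).lowerCentralSeries (c + d) = ⊥ := by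
  open Subgroup Cfsg.Agent.FT Cfsg.Agent.H28 in
  open scoped commutatorElement Pointwise in
  have key : ∀ n, (H ⊔ K).lowerCentralSeries n ≤ b H K (n + 1) := by
    intro n
    induction n with
    | zero =>
      refine sup_le (le_trans ?_ (le_b H K (i := 1) (j := 0) rfl))
        (le_trans ?_ (le_b H K (i := 0) (j := 1) rfl))
      · exact le_inf le_rfl le_top
      · exact le_inf le_top le_rfl
    | succ n ih =>
      haveI := b_normal H K (n + 1 + 1)
      rw [Subgroup.lowerCentralSeries_succ]
      refine le_trans (commSS ih le_rfl) (comm_le_iff.2 (iSup_le fun p => comm_le_iff.1 ?_))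
      haveI := a_normal H p.1.1
      haveI := a_normal K p.1.2
      have hp := p.2
      refine comm_sup_le' (le_nrm_of_normal _ _) ?_ ?_
      · refine le_trans (le_inf ?_ ?_) (le_b H K (i := p.1.1 + 1) (j := p.1.2) (by omega))
        · exact le_trans (commSS inf_le_left le_rfl) (a_succ H _)
        · exact le_trans (commSS inf_le_right le_rfl) (commutator_le_left _ _)
      · refine le_trans (le_inf ?_ ?_) (le_b H K (i := p.1.1) (j := p.1.2 + 1) (by omega))
        · exact le_trans (commSS inf_le_left le_rfl) (commutator_le_left _ _)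
        · exact le_trans (commSS inf_le_right le_rfl) (a_succ K _)
  refine le_bot_iff.1 (le_trans (key _) (iSup_le ?_))
  rintro ⟨⟨i, j⟩, hp⟩
  simp only at hp ⊢
  by_cases h : c + 1 ≤ i
  · obtain ⟨i, rfl⟩ : ∃ k, i = k + 1 := ⟨i - 1, by omega⟩
    exact le_trans inf_le_left (hH ▸ Subgroup.lowerCentralSeries_antitone H (by omega : c ≤ i))
  · obtain ⟨j, rfl⟩ : ∃ k, j = k + 1 := ⟨j - 1, by omega⟩
    exact le_trans inf_le_right (hK ▸ Subgroup.lowerCentralSeries_antitone K (by omega : d ≤ j))

end Cfsg.Agent.S4204
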