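import Mathlib
import Cfsg.Agent.H28.Util
-- Template for statement S4205 (row 4205; see /opt/grader/pristine/manifest.json for weights).
-- Copy to Cfsg/Agent/S4205.lean and replace the sorry. The statement below is byte-identical to the frozen
-- statement Cfsg.CfsgFrozen.S4205 (Cfsg/Statements/S4205.lean; the theorem Cfsg.fg14_iterated_normalizer_reaches_top);
-- the grader kernel-checks Cfsg.Agent.S4205.result against that frozen type. Keep the theorem IN THIS FILE
-- (a `result` declared elsewhere and merely imported here is not credited); helpers may live anywhere
-- under Cfsg/Agent/.
import Cfsg.Statements.S4205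
-- import your own Cfsg.Agent.* helpers here

set_option autoImplicit false
open Cfsg

namespace Cfsg.Agent.S4205

/-- In a finite group whose upper central series reaches the whole group at step `c` (nilpotent of class at most `c`), starting from any subgroup and taking normalizers `c` times reaches the whole group. -/
theorem result {G : Type*} [Group G] [Finite G] (c : ℕ) (hG : Subgroup.upperCentralSeries G c = ⊤) (H : Subgroup G) : (fun K : Subgroup G => Subgroup.normalizer (K : Set G))^[c] H = ⊤ := by
  open Subgroup Cfsg.Agent.FT Cfsg.Agent.H28 in
  open scoped commutatorElement Pointwise in
  have key : ∀ i : ℕ, Subgroup.upperCentralSeries G i ≤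
      (fun K : Subgroup G => Subgroup.normalizer (K : Set G))^[i] H := by
    intro i
    induction i with
    | zero => simp
    | succ i ih =>
      rw [Function.iterate_succ_apply']
      intro z hz
      refine mem_nrm.2 fun k hk => ?_
      have h1 := ih (Subgroup.mem_upperCentralSeries_succ_iff.1 hz k)
      have e : z * k * z⁻¹ = ⁅z, k⁆ * k := by rw [commutatorElement_def]; group
      rw [e]
      exact mul_mem h1 hk
  exact top_le_iff.1 (hG ▸ key c)

end Cfsg.Agent.S4205
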