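import Mathlib
import Cfsg.Agent.H28.Util
-- Template for statement S4206 (row 4206; see /opt/grader/pristine/manifest.json for weights).
-- Copy to Cfsg/Agent/S4206.lean and replace the sorry. The statement below is byte-identical to the frozen
-- statement Cfsg.CfsgFrozen.S4206 (Cfsg/Statements/S4206.lean; the theorem Cfsg.fg14_commutator_chain_lower_central_series);
-- the grader kernel-checks Cfsg.Agent.S4206.result against that frozen type. Keep the theorem IN THIS FILE
-- (a `result` declared elsewhere and merely imported here is not credited); helpers may live anywhere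
-- under Cfsg/Agent/.
import Cfsg.Statements.S4206
-- import your own Cfsg.Agent.* helpers here

set_option autoImplicit false
open Cfsg

namespace Cfsg.Agent.S4206

section
open Subgroup Cfsg.Agent.FT Cfsg.Agent.H28
open scoped commutatorElement Pointwise
set_option linter.style.haveILetI false

theorem three_le {G : Type*} [Group G] {A B C N : Subgroup G} [N.Normal]
    (h1 : ⁅⁅A, B⁆, C⁆ ≤ N) (h2 : ⁅⁅B, C⁆, A⁆ ≤ N) : ⁅⁅C, A⁆, B⁆ ≤ N := by
  rw [← QuotientGroup.ker_mk' N, ← Subgroup.map_eq_bot_iff, map_commutator, map_commutator] at h1 h2 ⊢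
  exact three_subgroup h1 h2

end

/-- Let `H 0 ≥ H 1 ≥ H 2 ≥ ⋯` be normal subgroups of a finite group and `L` a subgroup with `⁅H i, L⁆ ≤ H (i+1)` for all `i`. Then `⁅H i, γ⁆ ≤ H (i + j + 1)` where `γ` is the `j`-th term of the lower central series of `L` (indexed from `0`, so the term with index `j` is the `(j+1)`-fold commutator). -/
theorem result {G : Type*} [Group G] [Finite G] (H : ℕ → Subgroup G) (hN : ∀ i, (H i).Normal) (hdesc : ∀ i, H (i + 1) ≤ H i) (L : Subgroup G) (hL : ∀ i, ⁅H i, L⁆ ≤ H (i + 1)) (i j : ℕ) : ⁅H i, L.lowerCentralSeries j⁆ ≤ H (i + j + 1) := by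
  open Subgroup Cfsg.Agent.FT Cfsg.Agent.H28 in
  open scoped commutatorElement Pointwise in
  induction j generalizing i with
  | zero => exact hL i
  | succ j ih =>
    haveI := hN (i + (j + 1) + 1)
    rw [Subgroup.lowerCentralSeries_succ, commC]
    refine three_le ?_ ?_
    · refine le_trans (commSS (le_of_eq_of_le (commC _ _) (hL i)) le_rfl) (le_trans (ih (i + 1)) ?_)
      rw [show i + 1 + j + 1 = i + (j + 1) + 1 by ring]
    · exact le_trans (commSS (ih i) le_rfl) (hL _)

end Cfsg.Agent.S4206
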