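import Mathlib
import Cfsg.Agent.H28.FrobCount
-- Template for statement S4212 (row 4212; see /opt/grader/pristine/manifest.json for weights).
-- Copy to Cfsg/Agent/S4212.lean and replace the sorry. The statement below is byte-identical to the frozen
-- statement Cfsg.CfsgFrozen.S4212 (Cfsg/Statements/S4212.lean; the theorem Cfsg.fg14_card_nth_roots_into_class_dvd);
-- the grader kernel-checks Cfsg.Agent.S4212.result against that frozen type. Keep the theorem IN THIS FILE
-- (a `result` declared elsewhere and merely imported here is not credited); helpers may live anywhere
-- under Cfsg/Agent/.
import Cfsg.Statements.S4212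
-- import your own Cfsg.Agent.* helpers here

set_option autoImplicit false
open Cfsg

namespace Cfsg.Agent.S4212

/-- Let `G` be a finite group of order `g`, `c` an element whose conjugacy class has `h` elements, and `n` a natural number. Then the number of elements `x` of `G` with `x^n` conjugate to `c` is a multiple of `gcd(hn, g)`. -/
theorem result {G : Type*} [Group G] [Finite G] (c : G) (n : ℕ) : Nat.gcd (Nat.card {y : G // IsConj c y} * n) (Nat.card G) ∣ Nat.card {x : G // IsConj c (x ^ n)} := by
  open Subgroup Cfsg.Agent.FT Cfsg.Agent.H28 in
  open scoped commutatorElement Pointwise in
  have := gcd_dvd_ncard_root_class c n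
  rwa [← ncard_isConj] at this

end Cfsg.Agent.S4212
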