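import Mathlib
import Cfsg.Agent.H28.FrobCount
-- Template for statement S4213 (row 4213; see /opt/grader/pristine/manifest.json for weights).
-- Copy to Cfsg/Agent/S4213.lean and replace the sorry. The statement below is byte-identical to the frozen
-- statement Cfsg.CfsgFrozen.S4213 (Cfsg/Statements/S4213.lean; the theorem Cfsg.fg14_solvable_exact_solution_count_subgroup);
-- the grader kernel-checks Cfsg.Agent.S4213.result against that frozen type. Keep the theorem IN THIS FILE
-- (a `result` declared elsewhere and merely imported here is not credited); helpers may live anywhere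
-- under Cfsg/Agent/.
import Cfsg.Statements.S4213
-- import your own Cfsg.Agent.* helpers here

set_option autoImplicit false
open Cfsg

namespace Cfsg.Agent.S4213

section
open Subgroup Cfsg.Agent.FT Cfsg.Agent.H28
open scoped commutatorElement Pointwise
set_option linter.style.haveILetI false

universe u

theorem key (m : ℕ) : ∀ (G : Type u) [Group G] [Finite G], Nat.card G = m → Group.IsSolvable G →
    ∀ n : ℕ, n ∣ Nat.card G → {x : G | x ^ n = 1}.ncard = n →
    ∃ H : Subgroup G, H.Normal ∧ (H : Set G) = {x : G | x ^ n = 1} := by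
  induction m using Nat.strong_induction_on with
  | _ m ih =>
  classical
  intro G _ _ hm hG n hn hc
  rcases subsingleton_or_nontrivial G with h0 | h0
  · exact ⟨⊤, inferInstance, Set.ext fun x => ⟨fun _ => Subsingleton.elim (x ^ n) 1, fun _ => mem_top x⟩⟩
  obtain ⟨K, -, hK⟩ := exists_minNml (K := (⊤ : Subgroup G)) (M := ⊤) top_ne_bot (le_nrm _)
  haveI := normal_of_top_le hK.nrm
  obtain ⟨p, hp, hA⟩ := hK.abelem ((sol_top.2 hG).mono le_top)
  have hn0 : 0 < n := Nat.pos_of_dvd_of_pos hn Nat.card_pos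
  have hfin : ∀ H : Subgroup G, #H = n → (∀ x ∈ H, x ^ n = 1) →
      ∃ H : Subgroup G, H.Normal ∧ (H : Set G) = {x : G | x ^ n = 1} := by
    intro H h1 h2
    have e : (H : Set G) = {x : G | x ^ n = 1} :=
      Set.eq_of_subset_of_ncard_le h2 (by rw [hc, ncard_coe, h1]) (Set.toFinite _)
    refine ⟨H, ⟨fun x hx g => ?_⟩, e⟩
    rw [← SetLike.mem_coe, e, Set.mem_ofPred_eq, conj_pow, h2 x hx, mul_one, mul_inv_cancel]
  have hcard := card_eq_card_quotient_mul_card_subgroup K
  have hpos : ∀ u : ℕ, 0 < {z : G ⧸ K | z ^ u = 1}.ncard := fun u =>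
    (Set.ncard_pos (Set.toFinite _)).2 ⟨1, one_pow u⟩
  by_cases hpn : p ∣ n
  · have hg : 0 < n.gcd #K := Nat.gcd_pos_of_pos_left _ hn0
    obtain ⟨u, k, hcop, hu, hk⟩ := Nat.exists_coprime n #K
    have hu' : u ∣ Nat.card (G ⧸ K) := by
      have h1 : u * n.gcd #K ∣ Nat.card (G ⧸ K) * k * n.gcd #K := by
        rw [← hu, mul_assoc, ← hk, ← hcard]; exact hn
      exact hcop.dvd_of_dvd_mul_right (Nat.dvd_of_mul_dvd_mul_right hg h1)
    obtain ⟨t, ht⟩ := dvd_ncard_pow_eq_one hu'
    have hsub : ∀ x : G, (x : G ⧸ K) ^ u = 1 → x ^ n = 1 := by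
      intro x hx
      rw [← QuotientGroup.mk_pow, QuotientGroup.eq_one_iff] at hx
      obtain ⟨l, hl⟩ := Nat.dvd_gcd hpn ((hA.pGrp hp).dvd hK.ne)
      rw [hu, hl, pow_mul, pow_mul, hA.pow hx, one_pow]
    have h1 := mul_ncard_le_of_fibers (s := {x : G | x ^ n = 1}) (n := #K)
      (t := {z : G ⧸ K | z ^ u = 1}) (fun x => if (x : G ⧸ K) ^ u = 1 then (x : G ⧸ K) else 1)
      (fun x _ => by
        simp only [Set.mem_ofPred_eq]
        split_ifs with h
        · exact h
        · exact one_pow u) (by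
        intro z hz
        obtain ⟨y, rfl⟩ := QuotientGroup.mk_surjective z
        rw [← ncard_leftCoset K y]
        refine Set.ncard_le_ncard (fun x hx => ?_) (Set.toFinite _)
        have e : (x : G ⧸ K) = y := (QuotientGroup.eq.2 hx).symm
        have h2 : (x : G ⧸ K) ^ u = 1 := e ▸ hz
        exact ⟨hsub x h2, by rw [if_pos h2, e]⟩)
    have h2 := hpos u
    rw [hc, ht] at h1
    rw [ht] at h2
    have hu0 : 0 < u := Nat.pos_of_mul_pos_right h2
    have ht0 : 0 < t := Nat.pos_of_mul_pos_left h2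
    have h3 : n.gcd #K ≤ #K := Nat.gcd_le_right _ (card_pos K)
    have h4 : #K * t ≤ n.gcd #K := by
      refine Nat.le_of_mul_le_mul_left ?_ hu0
      rw [← hu]; linarith
    have h5 : t = 1 := by
      have := card_pos K
      nlinarith
    subst h5
    obtain ⟨U, -, hU⟩ := ih _ (hm ▸ card_quot_lt K hK.ne) _ rfl inferInstance u hu' (by simpa using ht)
    refine hfin (U.comap (QuotientGroup.mk' K)) ?_ fun x hx => hsub x ?_
    · rw [card_comap_mk, ← ncard_coe U, hU, ht, mul_one, mul_comm, hu]
      congr 1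
      omega
    · rw [mem_comap, ← SetLike.mem_coe, hU] at hx
      exact hx
  · have hn' : PiNat {p}ᶜ n := p'nat_of_not_dvd hpn
    have hu' : n ∣ Nat.card (G ⧸ K) :=
      PiNat.dvd_of_dvd_mul hn' (piNat_compl_compl.2 (hA.pGrp hp)) (hcard ▸ hn)
    have h1 : {z : G ⧸ K | z ^ n = 1}.ncard ≤ n := by
      rw [← hc]
      refine le_trans (Set.ncard_le_ncard ?_ (Set.toFinite _))
        (Set.ncard_image_le (f := QuotientGroup.mk' K) (Set.toFinite _))
      rw [hc]
      intro z hz
      obtain ⟨y, rfl⟩ := QuotientGroup.mk_surjective z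
      refine ⟨constt {p}ᶜ y, ?_, ?_⟩
      · rw [Set.mem_ofPred_eq, ← constt_pow]
        refine PiElt.constt_compl ((hA.pGrp hp).piElt ?_)
        rw [← QuotientGroup.eq_one_iff, QuotientGroup.mk_pow]
        exact hz
      · rw [constt_map]
        exact (piElt_of_pow_eq_one hn' hz).constt_eq
    obtain ⟨U, hUn, hU⟩ := ih _ (hm ▸ card_quot_lt K hK.ne) _ rfl inferInstance n hu'
      (le_antisymm h1 (Nat.le_of_dvd (hpos n) (dvd_ncard_pow_eq_one hu')))
    have hUc : #U = n := by
      rw [← ncard_coe, hU]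
      exact le_antisymm h1 (Nat.le_of_dvd (hpos n) (dvd_ncard_pow_eq_one hu'))
    have h2 : K.relIndex (U.comap (QuotientGroup.mk' K)) = n := by
      rw [← card_map_mk, map_comap_mk', hUc]
    obtain ⟨L, -, hL⟩ := Hall.exists_compl (⟨le_comap_mk' K U, hA.pGrp hp, h2 ▸ hn'⟩ :
      Hall {p} K (U.comap (QuotientGroup.mk' K))) (le_nrm_of_normal _ _)
    have h3 : #L = n := by rw [← hL.relIndex_left, h2]
    exact hfin L h3 fun x hx => h3 ▸ pow_card hx

end

/-- If `G` is a finite solvable group and `n` divides the order of `G` and exactly `n` elements `x` of `G` satisfy `x^n = 1`, then these elements form a normal subgroup. -/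
theorem result {G : Type*} [Group G] [Finite G] [Group.IsSolvable G] (n : ℕ) (hn : n ∣ Nat.card G) (hcount : Nat.card {x : G // x ^ n = 1} = n) : ∃ H : Subgroup G, H.Normal ∧ (H : Set G) = {x : G | x ^ n = 1} := by
  open Subgroup Cfsg.Agent.FT Cfsg.Agent.H28 in
  open scoped commutatorElement Pointwise in
  exact key _ G rfl ‹_› n hn hcount

end Cfsg.Agent.S4213
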