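import Mathlib
import Cfsg.Agent.H28.HallNum
-- Template for statement S4214 (row 4214; see /opt/grader/pristine/manifest.json for weights).
-- Copy to Cfsg/Agent/S4214.lean and replace the sorry. The statement below is byte-identical to the frozen
-- statement Cfsg.CfsgFrozen.S4214 (Cfsg/Statements/S4214.lean; the theorem Cfsg.fg14_hall_subgroup_count_factorization);
-- the grader kernel-checks Cfsg.Agent.S4214.result against that frozen type. Keep the theorem IN THIS FILE
-- (a `result` declared elsewhere and merely imported here is not credited); helpers may live anywhere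
-- under Cfsg/Agent/.
import Cfsg.Statements.S4214
-- import your own Cfsg.Agent.* helpers here

set_option autoImplicit false
open Cfsg

namespace Cfsg.Agent.S4214

/-- Let `G` be a finite solvable group of order `mn` with `gcd(m, n) = 1`. Then the number of subgroups of order `m` is a product of natural numbers each of which is a power of a prime, divides the order of some chief factor of `G` (a quotient `L/K` of normal subgroups `K < L` of `G` with no normal subgroup of `G` strictly between them), and is congruent to `1` modulo some prime divisor of `m`. -/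
theorem result {G : Type*} [Group G] [Finite G] [Group.IsSolvable G] (m n : ℕ) (hG : Nat.card G = m * n) (hmn : Nat.Coprime m n) : ∃ (k : ℕ) (f : Fin k → ℕ), Nat.card {H : Subgroup G // Nat.card H = m} = ∏ i, f i ∧ ∀ i, (∃ q e : ℕ, q.Prime ∧ f i = q ^ e) ∧ (∃ K L : Subgroup G, K.Normal ∧ L.Normal ∧ K < L ∧ (∀ M : Subgroup G, M.Normal → K ≤ M → M ≤ L → M = K ∨ M = L) ∧ f i ∣ K.relIndex L) ∧ (∃ q : ℕ, q.Prime ∧ q ∣ m ∧ f i ≡ 1 [MOD q]) := by
  open Subgroup Cfsg.Agent.FT Cfsg.Agent.H28 in
  open scoped commutatorElement Pointwise in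
  have hm : m ≠ 0 := by rintro rfl; exact Nat.card_pos.ne' (by simpa using hG)
  have hp : partn {q | q ∣ m} #(⊤ : Subgroup G) = m := by
    rw [card_top', hG]
    exact partn_eq_of_mul (fun q _ hd => hd) (fun q hq hd h =>
      hq.ne_one (Nat.eq_one_of_dvd_coprimes hmn h hd)) (hG ▸ Nat.card_pos.ne')
  have hs : Sol (⊤ : Subgroup G) := sol_top.2 ‹_›
  obtain ⟨H, hH⟩ := Hall_exists {q | q ∣ m} hs
  have e : Nat.card {H : Subgroup G // Nat.card H = m} = N(H).index := by
    rw [← ncard_cj, ← Nat.card_coe_set_eq]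
    refine Nat.card_congr (Equiv.subtypeEquivRight fun K => ⟨fun h => ?_, ?_⟩)
    · obtain ⟨g, -, hg⟩ := Hall_trans hs hH (hall_of_card le_top (h.trans hp.symm))
      exact ⟨g, hg⟩
    · rintro ⟨g, rfl⟩
      rw [card_cj, hH.card, hp]
  obtain ⟨l, hl, e2⟩ := Submonoid.exists_list_of_mem_closure (index_nrm_hall_mem_closure ‹_› hH)
  refine ⟨l.length, fun i => l[i], by rw [e, ← e2]; simp, fun i => ?_⟩
  obtain ⟨h1, ⟨V, U, h2, h3⟩, h4⟩ := hl l[i] (List.getElem_mem _)
  refine ⟨h1, ⟨V, U, nml_top_iff.1 h2.nmlV, nml_top_iff.1 h2.nmlU, h2.lt,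
    fun M _ h5 h6 => h2.eq_or_eq h5 h6 (le_nrm_of_normal _ _), h3⟩, ?_⟩
  rwa [hH.card, hp] at h4

end Cfsg.Agent.S4214
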