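import Cfsg.Statements.S4215
import Mathlib
import Cfsg.Agent.H4.HW2

set_option autoImplicit false
open Cfsg

namespace Cfsg.Agent.S4215

/-- Let `P` be a Sylow `p`-subgroup of the finite group `G`, `Q` a subgroup of `P` weakly closed in `P` with respect to `G`, and `H` the normalizer of `Q`. Suppose that for all `u ∈ P` and `z ∈ Q` the iterated commutator `[u, z, …, z]` with `p - 1` entries `z` is trivial, where `[x, z] = x⁻¹z⁻¹xz` and `[x, z, z] = [[x, z], z]`. Then `O^p(H) = O^p(G) ∩ H`, where `O^p` denotes the subgroup generated by the elements of order prime to `p`; so the largest `p`-factor groups of `G` and of `H` are isomorphic. -/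
theorem result {G : Type*} [Group G] [Finite G] {p : ℕ} [Fact p.Prime] (P : Sylow p G) (Q : Subgroup G) (hQ : Cfsg.IsWeaklyClosed Q (P : Subgroup G)) (h : ∀ u ∈ (P : Subgroup G), ∀ z ∈ Q, (fun y : G => y⁻¹ * z⁻¹ * y * z)^[p - 1] u = 1) : Cfsg.pResidualOf p (Subgroup.normalizer (Q : Set G)) = Cfsg.pResidual p G ⊓ Subgroup.normalizer (Q : Set G) := by
  open Subgroup Cfsg.Agent.H22 Cfsg.Agent.H4 in
  refine res_eq_of_inf_commutator P (fun g hg => mem_N_iff_cj.2 (hQ.2 g (cj_le_of_mem hg hQ.1))) ?_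
  by_contra h0
  obtain ⟨x, hx, z, hz, W₀, -, -, -, A, _, ψ, -, a5, a6⟩ := hall_wielandt P hQ h0
  rw [h x hx z hz] at a6
  have := a5 1 (one_mem _) 1 (one_mem _)
  rw [mul_one] at this
  exact a6 (left_eq_mul.1 this)

end Cfsg.Agent.S4215
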