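import Mathlib
import Cfsg.Agent.H28.AutP
-- Template for statement S4217 (row 4217; see /opt/grader/pristine/manifest.json for weights).
-- Copy to Cfsg/Agent/S4217.lean and replace the sorry. The statement below is byte-identical to the frozen
-- statement Cfsg.CfsgFrozen.S4217 (Cfsg/Statements/S4217.lean; the theorem Cfsg.fg14_abelian_normal_subgroup_complement_iff_sylow_local);
-- the grader kernel-checks Cfsg.Agent.S4217.result against that frozen type. Keep the theorem IN THIS FILE
-- (a `result` declared elsewhere and merely imported here is not credited); helpers may live anywhere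
-- under Cfsg/Agent/.
import Cfsg.Statements.S4217
-- import your own Cfsg.Agent.* helpers here

set_option autoImplicit false
open Cfsg

namespace Cfsg.Agent.S4217

section
open Subgroup Cfsg.Agent.FT Cfsg.Agent.H28
open scoped commutatorElement Pointwise
set_option linter.style.haveILetI false

theorem one_prime {G : Type*} [Group G] [Finite G] {A : Subgroup G} [A.Normal] (hA : Ab A) {q : ℕ}
    {U K : Subgroup G} (h : SD A K U) (hU : ¬ q ∣ U.index) :
    ∃ L : Subgroup G, L ⊓ A = O[{q}ᶜ](A) ∧ L ⊔ A = ⊤ := by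
  haveI : (O[{q}ᶜ](A)).Normal := nml_top_iff.1 ((nml_top A).pcore _)
  have hs := QuotientGroup.mk'_surjective O[{q}ᶜ](A)
  have h1 : PGrp q (A.map (QuotientGroup.mk' O[{q}ᶜ](A))) := by
    have := (hA.nil.pcore_hall {q}ᶜ).idx
    rwa [piNat_compl_compl, ← card_map_mk] at this
  have h2 := (nml_top A).map (QuotientGroup.mk' O[{q}ᶜ](A))
  rw [map_top_of_surjective _ hs] at h2
  obtain ⟨L, hL⟩ := Gaschutz_split (U := U.map (QuotientGroup.mk' O[{q}ᶜ](A)))
    (A := K.map (QuotientGroup.mk' O[{q}ᶜ](A))) h2 (hA.map _) le_top (by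
      rw [relIndex_top_right, index_map_mk _ ((pcore_le _ _).trans h.left)]
      exact PiNat.coprime h1 (p'nat_of_not_dvd hU))
    (sd_of_mulEq (h.mulEq.map _) (le_top.trans h2.nrm) (by
      rw [eq_bot_iff]
      rintro _ ⟨h3, x, hx, rfl⟩
      rw [eq_one_of_mem_inf h.inf ((mem_map_mk_iff _ (pcore_le _ _)).1 h3) hx, map_one]
      exact one_mem _))
  have e : A = (A.map (QuotientGroup.mk' O[{q}ᶜ](A))).comap (QuotientGroup.mk' O[{q}ᶜ](A)) := by
    rw [comap_map_mk', sup_eq_left.2 (pcore_le _ _)]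
  refine ⟨L.comap (QuotientGroup.mk' O[{q}ᶜ](A)), ?_, ?_⟩
  · conv_lhs => enter [2]; rw [e]
    rw [← comap_inf, inf_comm, hL.inf, MonoidHom.comap_bot, QuotientGroup.ker_mk']
  · conv_lhs => enter [2]; rw [e]
    rw [comap_sup_eq _ _ _ hs, sup_comm, hL.mulEq.sup, comap_top]

theorem all_primes {G : Type*} [Group G] [Finite G] {A : Subgroup G} [A.Normal] (hA : Ab A)
    (h : ∀ q : ℕ, q.Prime → ∃ L : Subgroup G, L ⊓ A = O[{q}ᶜ](A) ∧ L ⊔ A = ⊤) (s : Finset ℕ)
    (hs : ∀ q ∈ s, q.Prime) : ∃ L : Subgroup G, L ⊓ A = O[(s : Set ℕ)ᶜ](A) ∧ L ⊔ A = ⊤ := by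
  classical
  induction s using Finset.induction_on with
  | empty =>
    refine ⟨⊤, ?_, top_sup_eq _⟩
    rw [top_inf_eq, Finset.coe_empty, Set.compl_empty, (piGrp_univ A).pcore_eq]
  | insert q s hq ih =>
    obtain ⟨L, h1, h2⟩ := ih fun r hr => hs r (Finset.mem_insert_of_mem hr)
    obtain ⟨K, h3, h4⟩ := h q (hs q (Finset.mem_insert_self _ _))
    haveI : (O[{q}ᶜ](A)).Normal := nml_top_iff.1 ((nml_top A).pcore _)
    refine ⟨K ⊓ L, ?_, ?_⟩
    · rw [inf_inf_distrib_right, h1, h3, pcore_inf_pcore, Finset.coe_insert, Set.insert_eq,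
        Set.compl_union]
    · have h5 : O[{q}ᶜ](A) ⊔ L = ⊤ := by
        rw [eq_top_iff, ← h2]
        refine sup_le le_sup_right ?_
        conv_lhs => rw [← (hA.nil.dp_pcore {q}).mulEq.sup]
        refine sup_le (le_trans ?_ le_sup_right) le_sup_left
        refine le_trans (pcore_pi_le (by simpa using hq) A) (h1 ▸ inf_le_left)
      have h6 := inf_sup_left (L := K) (le_nrm_of_normal O[{q}ᶜ](A) L) (h3 ▸ inf_le_left)
      rw [h5, inf_top_eq] at h6
      rw [eq_top_iff, ← h4]
      refine sup_le ?_ le_sup_right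
      conv_lhs => rw [h6]
      exact sup_le ((pcore_le _ _).trans le_sup_right) le_sup_left

end

/-- Let `A` be an abelian normal subgroup of the finite group `G`. Then `A` has a complement in `G` if and only if, for every prime `p` dividing the index of `A`, there are a Sylow `p`-subgroup `S` of `G/A` and a subgroup `K` of `G` with `K ∩ A = 1` and `KA` equal to the preimage of `S` (that is, `A` has a complement in the preimage of a Sylow `p`-subgroup of `G/A`). -/
theorem result {G : Type*} [Group G] [Finite G] (A : Subgroup G) [A.Normal] (hA : IsMulCommutative A) : (∃ K : Subgroup G, K.IsComplement' A) ↔ ∀ p : ℕ, p.Prime → p ∣ A.index → ∃ (S : Sylow p (G ⧸ A)) (K : Subgroup G), K ⊓ A = ⊥ ∧ K ⊔ A = (S : Subgroup (G ⧸ A)).comap (QuotientGroup.mk' A) := by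
  open Subgroup Cfsg.Agent.FT Cfsg.Agent.H28 in
  open scoped commutatorElement Pointwise in
  constructor
  · rintro ⟨K, hK⟩ p hp _
    haveI := Fact.mk hp
    obtain ⟨S⟩ : Nonempty (Sylow p (G ⧸ A)) := inferInstance
    have h := (sd_top_of_isComplement' hK.symm).inf_left (le_comap_mk' A (S : Subgroup (G ⧸ A)))
    refine ⟨S, _, (inf_comm _ _).trans h.inf, ?_⟩
    rw [sup_comm, h.mulEq.sup, inf_top_eq]
  · intro h
    obtain ⟨L, h1, h2⟩ := all_primes hA (fun q hq => by
      by_cases hd : q ∣ A.index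
      · haveI := Fact.mk hq
        obtain ⟨S, K, h1, h2⟩ := h q hq hd
        refine one_prime hA (sd_sup (le_nrm_of_normal A K) ((inf_comm _ _).trans h1)) ?_
        rw [sup_comm, h2, index_comap_mk']
        exact S.not_dvd_index
      · exact one_prime hA (sd_bot_right A) hd) (#A).primeFactors
        fun q hq => Nat.prime_of_mem_primeFactors hq
    refine ⟨L, (SD.isComplement'_top (sd_of_mulEq (mulEq_of_sup (le_nrm_of_normal A L)
      ((sup_comm _ _).trans h2)) (le_nrm_of_normal A L) ?_)).symm⟩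
    rw [inf_comm, h1]
    refine PiGrp.pcore_compl fun q hq hd => ?_
    simp [hq, hd, card_ne_zero]

end Cfsg.Agent.S4217
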