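import Mathlib
import Cfsg.Agent.H28.AutP
import Cfsg.Agent.H5.HH
import Cfsg.Agent.H2.Cores
-- Template for statement S4218 (row 4218; see /opt/grader/pristine/manifest.json for weights).
-- Copy to Cfsg/Agent/S4218.lean and replace the sorry. The statement below is byte-identical to the frozen
-- statement Cfsg.CfsgFrozen.S4218 (Cfsg/Statements/S4218.lean; the theorem Cfsg.fg14_p_solvable_faithful_on_frattini_quotient_of_upper_p_series);
-- the grader kernel-checks Cfsg.Agent.S4218.result against that frozen type. Keep the theorem IN THIS FILE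
-- (a `result` declared elsewhere and merely imported here is not credited); helpers may live anywhere
-- under Cfsg/Agent/.
import Cfsg.Statements.S4218
-- import your own Cfsg.Agent.* helpers here

set_option autoImplicit false
open Cfsg

namespace Cfsg.Agent.S4218

section
open Subgroup Cfsg.Agent.FT Cfsg.Agent.H28
open scoped commutatorElement Pointwise
set_option linter.style.haveILetI false

theorem key {G : Type*} [Group G] [Finite G] {p : ℕ} [hp : Fact p.Prime] (hG : Cfsg.IsPSolvable p G)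
    (hO : Cfsg.pPrimeCore p G = ⊥) {g : G}
    (h : ∀ x ∈ Cfsg.pCore p G, ⁅g, x⁆ ∈ Phi (Cfsg.pCore p G)) : g ∈ Cfsg.pCore p G := by
  have hc := H5b.centralizer_pCore_le hG hO
  rw [← piCore_singleton hp.out, ← pcore_top] at *
  set P := O[{p}]((⊤ : Subgroup G))
  haveI : P.Normal := nml_top_iff.1 (pcore_nml _ _)
  haveI : (Phi P).Normal := nml_top_iff.1 (pcore_nml _ _).Phi
  let D := (C(P.map (QuotientGroup.mk' (Phi P)))).comap (QuotientGroup.mk' (Phi P))
  have hD : ⁅D, P⁆ ≤ Phi P := comm_le_iff_map.2 (map_comap_le _ _)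
  haveI : (P.map (QuotientGroup.mk' (Phi P))).Normal :=
    Normal.map inferInstance _ (QuotientGroup.mk'_surjective _)
  have h1 : PGrp p D := piGrp_of_forall_syl fun q Q hq hne hQ => by
    have h2 : PiGrp {p}ᶜ Q := hQ.pi.p' hne
    have h3 := coprime_cent_Phi ((pcore_pi _ _).cop h2)
      (le_trans (commC _ _).le (le_trans (commSS hQ.le le_rfl) hD))
    exact ((pcore_pi _ _).mono (h3.trans hc)).eq_bot h2
  refine pcore_max h1 (nml_top D) ?_
  refine mem_comap.2 (mem_cen.2 ?_)
  rintro _ ⟨x, hx, rfl⟩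
  have := (QuotientGroup.eq_one_iff _).2 (h x hx)
  rw [← QuotientGroup.mk'_apply, map_commutatorElement, commutatorElement_eq_one_iff_mul_comm] at this
  exact this.symm

end

/-- Let `G` be a finite `p`-solvable group, `N₀ = O_{p'}(G)`, `P₁ = O_{p',p}(G)`, and let `F ≤ P₁` be the preimage of the Frattini subgroup of `P₁/N₀`. Then an element `g` of `G` induces the identity on `P₁/F` by conjugation (that is, `g x g⁻¹ x⁻¹ ∈ F` for all `x ∈ P₁`) if and only if `g ∈ P₁`: the group `G/P₁` acts faithfully on `P₁/F`. -/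
theorem result {G : Type*} [Group G] [Finite G] {p : ℕ} [Fact p.Prime] (hG : Cfsg.IsPSolvable p G) (g : G) : (∀ x ∈ Cfsg.pPrimePCore p G, g * x * g⁻¹ * x⁻¹ ∈ ((frattini (↥(Cfsg.pPrimePCore p G) ⧸ (Cfsg.pPrimeCore p G).subgroupOf (Cfsg.pPrimePCore p G))).comap (QuotientGroup.mk' ((Cfsg.pPrimeCore p G).subgroupOf (Cfsg.pPrimePCore p G)))).map (Cfsg.pPrimePCore p G).subtype) ↔ g ∈ Cfsg.pPrimePCore p G := by
  open Subgroup Cfsg.Agent.FT Cfsg.Agent.H28 in
  open scoped commutatorElement Pointwise in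
  have hp : p.Prime := Fact.out
  let φ : Cfsg.pPrimePCore p G →* Cfsg.pCore p (G ⧸ Cfsg.pPrimeCore p G) :=
    ((QuotientGroup.mk' (Cfsg.pPrimeCore p G)).comp (Cfsg.pPrimePCore p G).subtype).codRestrict _
      fun x => x.2
  have hφ : (Cfsg.pPrimeCore p G).subgroupOf (Cfsg.pPrimePCore p G) = φ.ker := by
    ext x
    rw [mem_subgroupOf, MonoidHom.mem_ker, Subtype.ext_iff, ← QuotientGroup.eq_one_iff]
    rfl
  let f := QuotientGroup.lift _ φ hφ.le
  have hf : Function.Injective f := (QuotientGroup.injective_lift_iff _ _ _).2 hφ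
  have hP : IsPGroup p (Cfsg.pCore p (G ⧸ Cfsg.pPrimeCore p G)) := H2.pCore_isPGroup
  constructor
  · intro h
    refine key (H1.isPSolvable_quotient hp hG _) H2.pPrimeCore_quotient_self (g := g) fun u hu => ?_
    obtain ⟨x, rfl⟩ := QuotientGroup.mk_surjective u
    obtain ⟨y, hy, e⟩ := h x hu
    refine ⟨_, H3.map_frattini_le hP f ⟨_, hy, rfl⟩, ?_⟩
    exact congrArg (QuotientGroup.mk' (Cfsg.pPrimeCore p G)) e
  · intro hg x hx
    refine ⟨⁅(⟨g, hg⟩ : Cfsg.pPrimePCore p G), ⟨x, hx⟩⁆, ?_, rfl⟩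
    rw [SetLike.mem_coe, mem_comap, map_commutatorElement]
    exact H3.commutatorElement_mem_frattini (hP.of_injective f hf) _ _

end Cfsg.Agent.S4218
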