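import Cfsg.Statements.S4221
import Mathlib
import Cfsg.Agent.H16.LW

set_option autoImplicit false
open Cfsg

namespace Cfsg.Agent.S4221

open MulAction Subgroup Equiv Cfsg.Agent.H16 Cfsg.Agent.GW

/-- Let `G` be a `4`-fold transitive permutation group on a finite set of `n` points in which the pointwise stabilizer of some four distinct points has odd order. Then `n = 4` or `n = 5` with `G` the full symmetric group, or `n = 6` or `n = 7` with `G` the alternating group, or `n = 11` and `G` has order `7920`. -/
theorem result {α : Type*} [Fintype α] [DecidableEq α] (G : Subgroup (Equiv.Perm α)) (hG : MulAction.IsMultiplyPretransitive G α 4) (x : Fin 4 ↪ α) (hodd : Odd (Nat.card (MulAction.stabilizer G x))) : ((Fintype.card α = 4 ∨ Fintype.card α = 5) ∧ G = ⊤) ∨ ((Fintype.card α = 6 ∨ Fintype.card α = 7) ∧ G = alternatingGroup α) ∨ (Fintype.card α = 11 ∧ Nat.card G = 7920) := by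
  have hn : 4 ≤ Fintype.card α := by simpa using Fintype.card_le_of_embedding x
  have cn := Nat.card_eq_fintype_card (α := α)
  have H : Hall4 G α := ⟨inferInstance, hG, fun t ht a b c d h1 h2 h3 h4 h5 h6 ha hb hc hd => by
    obtain ⟨g, hg⟩ := mtrans_iff.1 hG ![a, b, c, d] x (inj_four h1 h2 h3 h4 h5 h6) x.injective
    refine (ht.conj g).not_mem_odd hodd (Function.Embedding.ext fun i => ?_)
    show (g * t * g⁻¹) • x i = x i
    rw [← hg]
    exact mem_stabilizer_conj.2 (by fin_cases i <;> assumption)⟩
  have : Nontrivial α := Fintype.one_lt_card_iff_nontrivial.1 (by omega)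
  have x01 : x 0 ≠ x 1 := x.injective.ne (by decide)
  have x23 : x 2 ≠ x 3 := x.injective.ne (by decide)
  have nt : 6 ≤ Fintype.card α → G ≠ ⊤ := fun h e => by
    have := H.le3 (t := ⟨swap (x 0) (x 1), e ▸ mem_top _⟩)
      (invo_of (Subtype.ext (swap_mul_self _ _)) fun e => x01 (swap_eq_one_iff.1 (congrArg Subtype.val e)))
    have e2 := ncard_fix (swap (x 0) (x 1))
    rw [Perm.card_support_swap x01] at e2
    change {y | swap (x 0) (x 1) y = y}.ncard ≤ 3 at this
    omega
  by_cases h5 : Fintype.card α ≤ 5
  · exact .inl ⟨by omega,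
      Perm.eq_top_of_isMultiplyPretransitive (mtrans_mono hG (by omega) (by omega))⟩
  by_cases h7 : Fintype.card α ≤ 7
  · refine .inr (.inl ⟨by omega, eq_alt_of_le ?_ (nt (by omega))⟩)
    by_cases h6 : Fintype.card α = 6
    · exact IsMultiplyPretransitive.alternatingGroup_le α G (by rwa [cn, h6])
    obtain ⟨t, ht, ha, hb⟩ := H.ex_invo x01 (by omega)
    have := nfix_modEq_of_orderOf (α := α) Nat.prime_two ht
    have h2 := two_le_nfix x01 ha hb
    have e2 := ncard_fix (t : Perm α)
    rw [nfix_eq_ncard] at this h2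
    change {y | (t : Perm α) y = y}.ncard ≡ _ [MOD 2] at this
    change 2 ≤ {y | (t : Perm α) y = y}.ncard at h2
    rw [Nat.ModEq] at this
    exact alt_le_of_small_support (by omega) hn hG t.2 (fun e => ht.ne (Subtype.ext e)) (by omega)
  have h11 := H.eleven (by omega)
  refine .inr (.inr ⟨by omega, ?_⟩)
  have : stabilizer G x = ⊥ := eq_bot_iff.2 fun d hd => by_contra fun d1 => by
    have fx : ∀ i, d • x i = x i := fun i => congrArg (fun f : Fin 4 ↪ α => f i) hd
    have ne : ∀ i j, i ≠ j → x i ≠ x j := fun i j => x.injective.ne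
    have := H.six (by omega) x01 (ne 0 2 (by decide)) (ne 0 3 (by decide)) (ne 1 2 (by decide))
      (ne 1 3 (by decide)) x23 (fx 0) (fx 1) (fx 2) (fx 3)
    have e2 := ncard_fix (d : Perm α)
    change 6 ≤ {y | (d : Perm α) y = y}.ncard at this
    have A := alt_le_of_small_support (by omega) hn hG d.2 (fun e => d1 (Subtype.ext e)) (by omega)
    have cm : Commute (swap (x 0) (x 1)) (swap (x 2) (x 3)) := (Perm.disjoint_swap_swap
      (by simp [ne])).commute
    have := H.le3 (t := ⟨swap (x 0) (x 1) * swap (x 2) (x 3), A (by simp [x01, x23])⟩)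
      (invo_of (Subtype.ext (by
        show _ * _ * (_ * _) = 1
        rw [cm.symm.mul_mul_mul_comm, swap_mul_self, swap_mul_self, one_mul])) fun e => x01 (by
        simpa [swap_apply_of_ne_of_ne, ne] using congrArg (fun g : G => (g : Perm α) (x 1)) e))
    have e3 := ncard_fix (swap (x 0) (x 1) * swap (x 2) (x 3))
    have := (Finset.card_le_card (Perm.support_mul_le (swap (x 0) (x 1)) (swap (x 2) (x 3)))).trans
      (Finset.card_union_le _ _)
    rw [Perm.card_support_swap x01, Perm.card_support_swap x23] at this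
    change {y | (swap (x 0) (x 1) * swap (x 2) (x 3)) y = y}.ncard ≤ 3 at *
    omega
  have c1 : Nat.card (stabilizer G x) = 1 := by rw [this, card_bot]
  exact (card_eq_descFactorial_mul hG x).trans (by rw [h11]; exact congrArg (7920 * ·) c1)

end Cfsg.Agent.S4221
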