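import Cfsg.Statements.S4220
import Mathlib
import Cfsg.Agent.S4221

set_option autoImplicit false
open Cfsg

namespace Cfsg.Agent.S4220

open MulAction Subgroup Equiv Cfsg.Agent.H16
open scoped commutatorElement Pointwise

theorem chi {P α : Type*} [Group P] [Finite P] [MulAction P α] {p : ℕ} [hp : Fact p.Prime]
    (hP : IsPGroup p P) {x : α} (h : (stabilizer P x).index = p) :
    ∃ c : P → ZMod p, (∀ u v, c (u * v) = c u + c v) ∧ (∃ u, c u = 1) ∧ ∀ u, c u = 0 ↔ u • x = x := by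
  obtain ⟨n, hn⟩ := hP.exists_card_eq
  have hn0 : n ≠ 0 := by
    rintro rfl
    have := (stabilizer P x).index_dvd_card
    rw [h, hn, pow_zero, Nat.dvd_one] at this
    exact hp.out.ne_one this
  have := normal_of_index_eq_minFac_card (H := stabilizer P x) (by rw [h, hn, hp.out.pow_minFac hn0])
  let e : (P ⧸ stabilizer P x) ≃* Multiplicative (ZMod p) := mulEquivOfPrimeCardEq (p := p) h (by simp)
  refine ⟨fun u => (e u).toAdd, fun u v => by simp, ?_, fun u => ?_⟩
  · obtain ⟨u, hu⟩ := QuotientGroup.mk_surjective (e.symm (.ofAdd 1))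
    exact ⟨u, by simp [hu]⟩
  · simp [QuotientGroup.eq_one_iff]

section
variable {P : Type*} [Group P] {p : ℕ} [hp : Fact p.Prime] {c c' : P → ZMod p}

theorem c_one (h : ∀ u v, c (u * v) = c u + c v) : c 1 = 0 := by simpa using h 1 1

theorem c_inv (h : ∀ u v, c (u * v) = c u + c v) (u : P) : c u⁻¹ = -c u := by
  have := h u⁻¹ u
  rw [inv_mul_cancel, c_one h] at this
  linear_combination -this

theorem c_pow (h : ∀ u v, c (u * v) = c u + c v) (u : P) (n : ℕ) : c (u ^ n) = n * c u := by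
  induction n with
  | zero => simp [c_one h]
  | succ n ih => rw [pow_succ, h, ih]; push_cast; ring

theorem c_mult (h : ∀ u v, c (u * v) = c u + c v) (h' : ∀ u v, c' (u * v) = c' u + c' v)
    (h1 : ∃ u, c u = 1) (hk : ∀ u, c u = 0 → c' u = 0) : ∃ d, ∀ u, c' u = d * c u := by
  obtain ⟨v, hv⟩ := h1
  refine ⟨c' v, fun u => ?_⟩
  have := hk (u * (v ^ (c u).val)⁻¹) (by rw [h, c_inv h, c_pow h, hv]; simp)
  rw [h', c_inv h', c_pow h', ZMod.natCast_zmod_val] at this
  linear_combination this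
end

theorem s4 : ∀ ρ : Perm (Fin 4), ρ ≠ 1 → ∃ σ τ : Perm (Fin 4),
    σ * ρ * σ⁻¹ * ρ⁻¹ * (τ * (σ * ρ * σ⁻¹ * ρ⁻¹) * τ⁻¹) ≠ 1 ∧
    (σ * ρ * σ⁻¹ * ρ⁻¹ * (τ * (σ * ρ * σ⁻¹ * ρ⁻¹) * τ⁻¹)) ^ 2 = 1 := by decide +kernel

theorem s3 : ∀ ρ : Perm (Fin 3), ρ ≠ 1 → ∃ σ : Perm (Fin 3),
    σ * ρ * σ⁻¹ * ρ⁻¹ ≠ 1 ∧ (σ * ρ * σ⁻¹ * ρ⁻¹) ^ 3 = 1 := by decide +kernel

theorem eq_of_pow {G : Type*} [Group G] {g : G} {p q : ℕ} (hp : p.Prime) (hq : q.Prime) (h : g ≠ 1)
    (h1 : g ^ p = 1) (h2 : g ^ q = 1) : p = q := by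
  have := Fact.mk hp
  have := Fact.mk hq
  rw [← orderOf_eq_prime h1 h, orderOf_eq_prime h2 h]

theorem fin_big {r p : ℕ} (hp : p.Prime) (hr : 5 ≤ r) {R E : Subgroup (Perm (Fin r))} [R.Normal]
    (hE : ∀ e ∈ E, e ^ p = 1) (hR : R ≠ ⊥) (h : ⁅R, R⁆ ≤ E) : False := by
  have h5 : 5 ≤ Nat.card (Fin r) := by simpa using hr
  have h1 := Perm.alternatingGroup_le_of_normal h5 ((nontrivial_iff_ne_bot R).2 hR)
  have h2 : alternatingGroup (Fin r) ≤ E :=
    (commutator_alternatingGroup_eq_self h5).ge.trans ((commutator_mono h1 h1).trans h)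
  have k : ∀ q : ℕ, q.Prime → q ≤ 3 → p = q := fun q hq h3 => by
    have := Fact.mk hq
    have : Nontrivial (Fin r) := Fin.nontrivial_iff_two_le.2 (by omega)
    have hd : q ∣ Nat.card (alternatingGroup (Fin r)) := by
      have h6 : 2 * 6 ∣ 2 * Nat.card (alternatingGroup (Fin r)) := by
        rw [two_mul_nat_card_alternatingGroup, Nat.card_perm, Nat.card_fin]
        exact (show 12 ∣ Nat.factorial 4 by decide).trans (Nat.factorial_dvd_factorial (by omega))
      refine dvd_trans ?_ (Nat.dvd_of_mul_dvd_mul_left two_pos h6)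
      have := hq.two_le
      interval_cases q <;> norm_num
    obtain ⟨g, hg⟩ := exists_prime_orderOf_dvd_card' q hd
    refine eq_of_pow hp hq (g := g) ?_ (Subtype.ext (hE _ (h2 g.2))) (hg ▸ pow_orderOf_eq_one g)
    rintro rfl
    rw [orderOf_one] at hg
    exact hq.ne_one hg.symm
  have := k 2 Nat.prime_two (by norm_num)
  have := k 3 Nat.prime_three (by norm_num)
  omega

theorem fin_small {r p : ℕ} (hp : p.Prime) (hr : (r = 4 ∧ p ≠ 2) ∨ (r = 3 ∧ p ≠ 3))
    {R E : Subgroup (Perm (Fin r))} [hn : E.Normal]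
    (hE : ∀ e ∈ E, e ^ p = 1) (hR : R ≠ ⊥) (h : ⁅(⊤ : Subgroup (Perm (Fin r))), R⁆ ≤ E) : False := by
  obtain ⟨⟨ρ, hρ⟩, h1⟩ := ne_bot_iff_exists_ne_one.1 hR
  have h1 : ρ ≠ 1 := by simpa using h1
  have k : ∀ σ, σ * ρ * σ⁻¹ * ρ⁻¹ ∈ E := fun σ => h (commutator_mem_commutator (mem_top σ) hρ)
  rcases hr with ⟨rfl, h2⟩ | ⟨rfl, h2⟩
  · obtain ⟨σ, τ, a, b⟩ := s4 ρ h1
    exact h2 (eq_of_pow hp Nat.prime_two a (hE _ (mul_mem (k σ) (hn.conj_mem _ (k σ) τ))) b)
  · obtain ⟨σ, a, b⟩ := s3 ρ h1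
    exact h2 (eq_of_pow hp Nat.prime_three a (hE _ (k σ)) b)

theorem nine {α : Type*} [Fintype α] [DecidableEq α] (G : Subgroup (Perm α))
    (hn : Fintype.card α = 9) (hG : IsMultiplyPretransitive G α 4) : alternatingGroup α ≤ G := by
  by_contra hA
  obtain ⟨x⟩ : Nonempty (Fin 4 ↪ α) := Function.Embedding.nonempty_of_card_le (by simp [hn])
  have : stabilizer G x = ⊥ := by
    rw [eq_bot_iff]
    intro g hg
    by_contra h1
    refine hA (alt_le_of_small_support (by norm_num) (by omega) hG g.2 (fun h => h1 (Subtype.ext h)) ?_)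
    have : g.1.support ⊆ (Finset.univ.map x)ᶜ := fun a ha => by
      rw [Finset.mem_compl, Finset.mem_map]
      rintro ⟨i, -, rfl⟩
      exact Perm.mem_support.1 ha (congrArg (· i) (mem_stabilizer_iff.1 hg))
    have := Finset.card_le_card this
    rw [Finset.card_compl, Finset.card_map, hn] at this
    simp at this
    omega
  have := S4221.result G hG x (by rw [this]; simp)
  omega

set_option maxHeartbeats 800000 in
/-- Let `n = kp + r` with `p` prime, `1 ≤ k < p` and `r > k`, excluding the case `k = 1, r = 2`. Then a permutation group of degree `n` that is `(r + 1)`-fold transitive contains the alternating group. -/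
theorem result {α : Type*} [Fintype α] [DecidableEq α] (G : Subgroup (Equiv.Perm α)) {k p r : ℕ} (hp : p.Prime) (hn : Fintype.card α = k * p + r) (hk : 1 ≤ k) (hpk : k < p) (hrk : k < r) (hex : ¬ (k = 1 ∧ r = 2)) (hG : MulAction.IsMultiplyPretransitive G α (r + 1)) : alternatingGroup α ≤ G := by
  by_contra hA
  have := Fact.mk hp
  have hn' : Nat.card α = k * p + r := by rw [Nat.card_eq_fintype_card, hn]
  have hkp : p ≤ k * p := Nat.le_mul_of_pos_left p hk
  have hp2 := hp.two_le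
  have hr3 : 3 ≤ r := by omega
  have hprim : IsPreprimitive G α :=
    isPreprimitive_of_is_two_pretransitive (mtrans_mono hG (by omega) (by omega))
  obtain ⟨Γ, -, hΓ⟩ := Finset.exists_subset_card_eq (s := (Finset.univ : Finset α)) (n := r)
    (by rw [Finset.card_univ]; omega)
  have hΔ : Γᶜ.card = k * p := by rw [Finset.card_compl]; omega
  obtain ⟨P, hP⟩ := H4.IsSylowIn.exists_isSylowIn p (fixingSubgroup G (Γ : Set α))
  have PΓ : ∀ u : P, ∀ x ∈ Γ, u • x = x := fun u => mem_fixing.1 (hP.le u.2)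
  have fixΔ : ∀ g : G, (∀ x ∈ Γ, g • x = x) → ∀ x ∉ Γ, g • x ∉ Γ := fun g hg x hx h =>
    hx (by rwa [smul_left_cancel_iff g |>.1 (hg _ h)] at h)
  have hidx : ∀ x ∉ Γ, (stabilizer P x).index = p := fun x hx => by
    obtain ⟨n, hn⟩ := hP.isPGroup.index (stabilizer P x)
    have h1 : p ^ n ≤ k * p := by
      rw [← hn, index_stabilizer, ← hΔ, ← Set.ncard_coe_finset]
      refine Set.ncard_le_ncard ?_ (Finset.finite_toSet _)
      rintro _ ⟨u, rfl⟩
      exact Finset.mem_coe.2 (Finset.mem_compl.2 (fixΔ u (PΓ u) x hx))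
    have h2 : n < 2 := by
      rw [← Nat.pow_lt_pow_iff_right hp.one_lt, sq]
      exact h1.trans_lt (Nat.mul_lt_mul_of_pos_right hpk hp.pos)
    have h3 : n ≠ 0 := by
      rintro rfl
      rw [pow_zero, index_eq_one] at hn
      set H := fixingSubgroup G (Γ : Set α)
      have e1 : P ≤ stabilizer G x ⊓ H := le_inf (fun u hu => (hn.ge (mem_top (⟨u, hu⟩ : P)) :)) hP.le
      have e2 : (stabilizer G x ⊓ H).relIndex H = k * p := by
        rw [inf_relIndex_right, ← hΔ, ← Set.ncard_coe_finset]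
        change (stabilizer H x).index = _
        rw [index_stabilizer]
        congr 1
        ext y
        simp only [Finset.coe_compl, Set.mem_compl_iff, Finset.mem_coe]
        constructor
        · rintro ⟨u, rfl⟩
          exact fixΔ u (mem_fixing.1 u.2) x hx
        · intro hy
          obtain ⟨g, hg, e⟩ := mtrans_fix_trans hG Γ hΓ x y hx hy
          exact ⟨⟨g, mem_fixing.2 hg⟩, e⟩
      apply hP.not_dvd
      rw [← relIndex_mul_relIndex P _ H e1 inf_le_right, e2, ← mul_assoc]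
      exact dvd_mul_left _ _
    rw [hn, show n = 1 by omega, pow_one]
  have horb : ∀ x ∉ Γ, (orbit P x).ncard = p := fun x hx => by rw [← index_stabilizer, hidx x hx]
  choose! c cm c1 c0 using fun x (hx : x ∉ Γ) => chi hP.isPGroup (hidx x hx)
  have cfix : ∀ x ∉ Γ, ∀ u : P, u • x = x → ∀ y ∈ orbit P x, u • y = y := by
    rintro x hx u hu _ ⟨v, rfl⟩
    have : c x (v⁻¹ * u * v) = 0 := by
      rw [cm x hx, cm x hx, c_inv (cm x hx), (c0 x hx u).2 hu]; ring
    rw [c0 x hx, mul_smul, mul_smul, inv_smul_eq_iff] at this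
    exact this
  have cext : ∀ u v : P, (∀ x ∉ Γ, c x u = c x v) → u = v := fun u v h => by
    rw [← mul_inv_eq_one]
    refine Subtype.ext (Subtype.ext (Equiv.ext fun x => ?_))
    change (u * v⁻¹) • x = x
    by_cases hx : x ∈ Γ
    · exact PΓ _ x hx
    · rw [← c0 x hx, cm x hx, c_inv (cm x hx), h x hx, add_neg_cancel]
  have cyc : ∀ x ∉ Γ, ∀ u : P, (∀ y ∉ Γ, y ∉ orbit P x → u • y = y) → u • x = x := by
    intro x hx u hu
    by_contra hux
    have h1 : u ^ p = 1 := cext _ _ fun y hy => by rw [c_pow (cm y hy), c_one (cm y hy)]; simp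
    have h2 : orderOf (u.1.1 : Perm α) = p := by
      rw [Subgroup.orderOf_coe, Subgroup.orderOf_coe]
      exact orderOf_eq_prime h1 (by rintro rfl; exact hux (one_smul _ _))
    have h3 : (u.1.1 : Perm α).support.card ≤ p := by
      rw [← horb x hx, ← Set.ncard_coe_finset]
      refine Set.ncard_le_ncard (fun y hy => ?_) (Set.toFinite _)
      by_contra hy'
      refine Perm.mem_support.1 hy ?_
      by_cases h : y ∈ Γ
      · exact PΓ u y h
      · exact hu y h hy'
    have h4 := Perm.isCycle_of_prime_order (h2 ▸ hp) (by omega)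
    exact hA (jordan_prime_cycle hprim hp (by omega) h4 (by rw [← h4.orderOf, h2]) u.1.2)
  have Pfix : ∀ x, (∀ u : P, u • x = x) → x ∈ Γ := fun x h => by
    by_contra hx
    obtain ⟨u, hu⟩ := c1 x hx
    rw [(c0 x hx u).2 (h u)] at hu
    exact zero_ne_one hu
  set M := normalizer (P : Set G)
  let κ := P.normalizerMonoidHom
  have hκ : ∀ (g : M) (u : P) (x : α), κ g u • x = g • u • g⁻¹ • x := fun g u x => by
    change ((g : G) * u * (g : G)⁻¹) • x = _
    rw [mul_smul, mul_smul]; rfl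
  have MΓ : ∀ g : M, ∀ x ∈ Γ, g • x ∈ Γ := fun g x hx => Pfix _ fun u => by
    have := PΓ (κ g⁻¹ u) x hx
    rw [hκ, inv_inv, inv_smul_eq_iff] at this
    exact this
  have MΔ : ∀ g : M, ∀ x ∉ Γ, g • x ∉ Γ := fun g x hx h => hx (by simpa using MΓ g⁻¹ _ h)
  have Morb : ∀ (g : M) (x : α), g • orbit P x = orbit P (g • x) := fun g x => by
    ext y
    constructor
    · rintro ⟨_, ⟨u, rfl⟩, rfl⟩
      exact ⟨κ g u, by simp [hκ]⟩
    · rintro ⟨u, rfl⟩
      exact ⟨_, ⟨κ g⁻¹ u, rfl⟩, by simp only [hκ, smul_inv_smul, inv_inv]⟩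
  let T : SubMulAction M (Set α) :=
    { carrier := {O | ∃ x ∉ Γ, orbit P x = O}
      smul_mem' := by
        rintro g _ ⟨x, hx, rfl⟩
        exact ⟨_, MΔ g x hx, (Morb g x).symm⟩ }
  classical
  have cI : (Γᶜ.image (orbit P)).card = k := by
    have h1 := Finset.card_eq_sum_card_image (orbit P) Γᶜ
    rw [Finset.sum_const_nat (m := p), hΔ] at h1
    · exact (Nat.eq_of_mul_eq_mul_right hp.pos h1).symm
    intro O hO
    obtain ⟨x, hx, rfl⟩ := Finset.mem_image.1 hO
    rw [Finset.mem_compl] at hx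
    rw [← horb x hx, ← Set.ncard_coe_finset]
    congr 1
    ext y
    simp only [Finset.coe_filter, Finset.mem_compl, Set.mem_setOf_eq, orbit_eq_iff,
      and_iff_right_iff_imp]
    rintro ⟨u, rfl⟩
    exact fixΔ u (PΓ u) x hx
  have cT : Nat.card T = k := by
    rw [← cI, ← Set.ncard_coe_finset, ← Nat.card_coe_set_eq]
    refine Nat.card_congr (Equiv.subtypeEquivRight fun O => ?_)
    change (∃ x ∉ Γ, _) ↔ _
    simp
  let φ := toPermHom M T
  have hφ : ∀ g ∈ φ.ker, ∀ x ∉ Γ, g • x ∈ orbit P x := fun g hg x hx => by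
    have : φ g = 1 := hg
    have : g • orbit P x = orbit P x := congrArg (fun σ : Perm T => (σ ⟨_, x, hx, rfl⟩ : Set α)) this
    rwa [Morb, orbit_eq_iff] at this
  have hd : ∀ g ∈ φ.ker, ∀ x ∉ Γ, ∃ d, ∀ u, c x (κ g u) = d * c x u := fun g hg x hx =>
    c_mult (cm x hx) (fun u v => by rw [map_mul, cm x hx]) (c1 x hx) fun u hu => by
      rw [c0 x hx] at hu ⊢
      rw [hκ, cfix x hx u hu _ (hφ _ (inv_mem hg) x hx), smul_inv_smul]
  let B : SubMulAction M α := { carrier := Γ, smul_mem' := fun g x hx => MΓ g x hx }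
  have cB : Nat.card B = r := by
    rw [← hΓ, ← Nat.card_eq_finsetCard]; rfl
  let e : B ≃ Fin r := Finite.equivFinOfCardEq cB
  let ψ : M →* Perm (Fin r) := e.permCongrHom.toMonoidHom.comp (toPermHom M B)
  have hψ : Function.Surjective ψ := by
    refine e.permCongrHom.surjective.comp fun σ => ?_
    obtain ⟨y, hy⟩ := mtrans_index (mtrans_mono hG (Nat.le_succ r) (by omega)) (ι := B)
      (by rw [← Nat.card_eq_fintype_card, cB]) (fun b => b.1) (fun b => (σ b).1)
      Subtype.val_injective (Subtype.val_injective.comp σ.injective)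
    obtain ⟨z, hz, hzy⟩ := witt_fixing hP y fun q hq x hx => by
      rw [hy ⟨x, hx⟩]; exact PΓ ⟨q, hq⟩ _ (σ ⟨x, hx⟩).2
    exact ⟨⟨z, hz⟩, Equiv.ext fun b => Subtype.ext ((hzy b b.2).trans (hy b))⟩
  have hE : ∀ s ∈ (φ.ker ⊓ κ.ker).map ψ, s ^ p = 1 := by
    rintro _ ⟨g, ⟨h1, h2⟩, rfl⟩
    have h2 : κ g = 1 := h2
    have h3 : ∀ x ∉ Γ, g ^ p • x = x := fun x hx => by
      obtain ⟨v, hv⟩ := hφ g h1 x hx
      have : ∀ n : ℕ, g ^ n • x = v ^ n • x := fun n => by
        induction n with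
        | zero => simp
        | succ n ih =>
          have := hκ g (v ^ n) (g • x)
          rw [h2, inv_smul_smul] at this
          rw [pow_succ', mul_smul, ih, ← this, pow_succ, mul_smul]
          exact congrArg (v ^ n • ·) hv.symm
      rw [this, ← c0 x hx, c_pow (cm x hx)]; simp
    have h4 : g ^ p = 1 := by
      by_contra h
      refine hA (alt_le_of_small_support (by omega) (by omega) hG (g ^ p).1.2
        (fun h' => h (Subtype.ext (Subtype.ext h'))) ?_)
      have : (g ^ p).1.1.support ⊆ Γ := fun x hx => by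
        by_contra h
        exact Perm.mem_support.1 hx (h3 x h)
      have := Finset.card_le_card this
      omega
    rw [← map_pow, h4, map_one]
  have nE : ((φ.ker ⊓ κ.ker).map ψ).Normal := Normal.map inferInstance ψ hψ
  have nR : (φ.ker.map ψ).Normal := Normal.map inferInstance ψ hψ
  have hR : φ.ker.map ψ ≠ ⊥ := fun h => by
    have h1 := φ.ker.index_map_dvd hψ
    rw [h, index_bot, Nat.card_perm, Nat.card_fin, index_ker] at h1
    have h2 := h1.trans (card_subgroup_dvd_card _)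
    rw [Nat.card_perm, cT] at h2
    exact (Nat.le_of_dvd k.factorial_pos h2).not_gt ((Nat.factorial_lt hk).2 hrk)
  have hcomm : ∀ K : Subgroup M, (∀ m ∈ K, ∀ g ∈ φ.ker, κ (m * g) = κ (g * m)) →
      ⁅K.map ψ, φ.ker.map ψ⁆ ≤ (φ.ker ⊓ κ.ker).map ψ := fun K hK => by
    rw [← map_commutator]
    refine map_mono (le_inf (commutator_le_right _ _) (commutator_le.2 fun m hm g hg => ?_))
    rw [MonoidHom.mem_ker, commutatorElement_def, mul_assoc, ← mul_inv_rev, map_mul, map_inv,
      hK m hm g hg, mul_inv_cancel]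
  rcases le_or_gt 5 r with h5 | h5
  · refine fin_big hp h5 hE hR (hcomm _ fun m hm g hg => MulEquiv.ext fun u => cext _ _ fun x hx => ?_)
    obtain ⟨d, h1⟩ := hd m hm x hx
    obtain ⟨d', h2⟩ := hd g hg x hx
    simp only [map_mul, MulAut.mul_apply, h1, h2]
    ring
  obtain ⟨x0, hx0⟩ : Γᶜ.Nonempty := Finset.card_pos.1 (by omega)
  rw [Finset.mem_compl] at hx0
  have mI : ∀ x ∉ Γ, orbit P x ∈ Γᶜ.image (orbit P) := fun x hx =>
    Finset.mem_image_of_mem _ (Finset.mem_compl.2 hx)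
  have hk1 : k ≠ 1 := by
    rintro rfl
    obtain ⟨u, hu⟩ := c1 x0 hx0
    rw [(c0 x0 hx0 u).2 (cyc x0 hx0 u fun y hy h => absurd (orbit_eq_iff.1
      (Finset.card_le_one.1 cI.le _ (mI y hy) _ (mI x0 hx0))) h)] at hu
    exact zero_ne_one hu
  by_cases h9 : r = 3 ∧ p = 3
  · obtain ⟨rfl, rfl⟩ := h9
    exact hA (nine G (by omega) hG)
  refine fin_small hp (by omega) hE hR ?_
  rw [← map_top_of_surjective ψ hψ]
  refine hcomm _ fun m _ g hg => ?_
  choose! d hd using hd g hg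
  have D : ∀ x ∉ Γ, ∀ (a : ZMod p) (u : P), c x (κ g u * (u ^ a.val)⁻¹) = (d x - a) * c x u :=
    fun x hx a u => by
      rw [cm x hx, c_inv (cm x hx), c_pow (cm x hx), hd x hx, ZMod.natCast_zmod_val]; ring
  have L : ∀ x ∉ Γ, ∀ y ∉ Γ, ∀ z ∉ Γ, d x ≠ d y → d x ≠ d z →
      (∀ t ∉ Γ, t ∈ orbit P x ∨ t ∈ orbit P y ∨ t ∈ orbit P z) → False := by
    intro x hx y hy z hz h1 h2 h
    obtain ⟨u, hu⟩ := c1 x hx
    have := cyc x hx (κ g (κ g u * (u ^ (d y).val)⁻¹) * ((κ g u * (u ^ (d y).val)⁻¹) ^ (d z).val)⁻¹)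
      fun t ht ht' => by
        rcases (h t ht).resolve_left ht' with h | h
        · exact cfix y hy _ (by rw [← c0 y hy, D y hy, D y hy]; ring) t h
        · exact cfix z hz _ (by rw [← c0 z hz, D z hz, D z hz]; ring) t h
    rw [← c0 x hx, D x hx, D x hx, hu, mul_one] at this
    exact mul_ne_zero (sub_ne_zero.2 h2) (sub_ne_zero.2 h1) this
  have hdd : ∀ x ∉ Γ, ∀ y ∉ Γ, d x = d y := fun x hx y hy => by
    by_contra h
    have hxy : orbit P x ≠ orbit P y := fun e => by
      obtain ⟨u, hu⟩ := c1 x hx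
      have := cfix y hy (κ g u * (u ^ (d y).val)⁻¹) (by rw [← c0 y hy, D y hy]; ring) x
        (orbit_eq_iff.1 e)
      rw [← c0 x hx, D x hx, hu, mul_one] at this
      exact h (sub_eq_zero.1 this)
    by_cases hz : ∃ z ∉ Γ, z ∉ orbit P x ∧ z ∉ orbit P y
    · obtain ⟨z, hz, z1, z2⟩ := hz
      have cov : ∀ t ∉ Γ, t ∈ orbit P x ∨ t ∈ orbit P y ∨ t ∈ orbit P z := fun t ht => by
        have e : {orbit P x, orbit P y, orbit P z} = Γᶜ.image (orbit P) := by
          refine Finset.eq_of_subset_of_card_le (by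
            simp only [Finset.insert_subset_iff, Finset.singleton_subset_iff]
            exact ⟨mI x hx, mI y hy, mI z hz⟩) ?_
          rw [Finset.card_eq_three.2 ⟨_, _, _, hxy, fun e => z1 (orbit_eq_iff.1 e.symm),
            fun e => z2 (orbit_eq_iff.1 e.symm), rfl⟩]
          omega
        have := mI t ht
        rw [← e] at this
        simpa only [Finset.mem_insert, Finset.mem_singleton, orbit_eq_iff] using this
      by_cases e : d x = d z
      · exact L y hy x hx z hz (Ne.symm h) (e ▸ Ne.symm h) fun t ht => by have := cov t ht; tauto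
      · exact L x hx y hy z hz h e cov
    · exact L x hx y hy y hy h h fun t ht => by by_contra! k; exact hz ⟨t, ht, k.1, k.2.1⟩
  have hpow : ∀ u, κ g u = u ^ (d x0).val := fun u => cext _ _ fun x hx => by
    rw [hd x hx, c_pow (cm x hx), ZMod.natCast_zmod_val, hdd x hx x0 hx0]
  refine MulEquiv.ext fun u => ?_
  simp only [map_mul, MulAut.mul_apply, hpow, map_pow]

end Cfsg.Agent.S4220
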