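import Mathlib
import Cfsg.Agent.H28.Util
-- Template for statement S4222 (row 4222; see /opt/grader/pristine/manifest.json for weights).
-- Copy to Cfsg/Agent/S4222.lean and replace the sorry. The statement below is byte-identical to the frozen
-- statement Cfsg.CfsgFrozen.S4222 (Cfsg/Statements/S4222.lean; the theorem Cfsg.fg14_complete_normal_subgroup_is_direct_factor);
-- the grader kernel-checks Cfsg.Agent.S4222.result against that frozen type. Keep the theorem IN THIS FILE
-- (a `result` declared elsewhere and merely imported here is not credited); helpers may live anywhere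
-- under Cfsg/Agent/.
import Cfsg.Statements.S4222
-- import your own Cfsg.Agent.* helpers here

set_option autoImplicit false
open Cfsg

namespace Cfsg.Agent.S4222

/-- If a normal subgroup `N` of a finite group is complete (its centre is trivial and every automorphism of `N` is inner), then the group is the internal direct product of `N` and the centralizer of `N`: the centralizer is a complement to `N`. -/
theorem result {T : Type*} [Group T] [Finite T] (N : Subgroup T) [N.Normal] (hz : Subgroup.center ↥N = ⊥) (ha : Function.Surjective (MulAut.conj : ↥N →* MulAut ↥N)) : (Subgroup.centralizer (N : Set T)).IsComplement' N := by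
  open Subgroup Cfsg.Agent.FT Cfsg.Agent.H28 in
  open scoped commutatorElement Pointwise in
  refine isComplement'_of_disjoint_and_mul_eq_univ ?_ ?_
  · rw [disjoint_iff, eq_bot_iff]
    rintro x ⟨h1, h2⟩
    have : (⟨x, h2⟩ : N) ∈ center N := by
      rw [mem_center_iff]
      intro g
      exact Subtype.ext (mem_cen.1 h1 g g.2)
    rw [hz, mem_bot] at this
    exact congrArg Subtype.val this
  · rw [Set.eq_univ_iff_forall]
    intro g
    obtain ⟨n, hn⟩ := ha (MulAut.conjNormal g)
    refine ⟨g * (n : T)⁻¹, mem_cen.2 fun x hx => ?_, n, n.2, by simp⟩
    have h1 := congrArg (fun f : MulAut N => ((f ⟨(n : T)⁻¹ * x * n, N.mul_mem (N.mul_mem (N.inv_mem n.2) hx) n.2⟩ : N) : T)) hn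
    simp only [MulAut.conj_apply, coe_mul, InvMemClass.coe_inv, MulAut.conjNormal_apply] at h1
    have e : (n : T) * ((n : T)⁻¹ * x * n) * (n : T)⁻¹ = x := by group
    rw [e] at h1
    nth_rewrite 1 [h1]
    group

end Cfsg.Agent.S4222
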