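import Mathlib
import Cfsg.Agent.H28.Util3
-- Template for statement S4223 (row 4223; see /opt/grader/pristine/manifest.json for weights).
-- Copy to Cfsg/Agent/S4223.lean and replace the sorry. The statement below is byte-identical to the frozen
-- statement Cfsg.CfsgFrozen.S4223 (Cfsg/Statements/S4223.lean; the theorem Cfsg.fg14_direct_decomposition_unique_up_to_isomorphism);
-- the grader kernel-checks Cfsg.Agent.S4223.result against that frozen type. Keep the theorem IN THIS FILE
-- (a `result` declared elsewhere and merely imported here is not credited); helpers may live anywhere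
-- under Cfsg/Agent/.
import Cfsg.Statements.S4223
-- import your own Cfsg.Agent.* helpers here

set_option autoImplicit false
open Cfsg

namespace Cfsg.Agent.S4223

section
open Subgroup Cfsg.Agent.FT Cfsg.Agent.H28
open scoped commutatorElement Pointwise
set_option linter.style.haveILetI false

universe u v

/-- nontrivial and directly indecomposable -/
def Ind (A : Type*) [Group A] : Prop :=
  Nontrivial A ∧ ∀ H K : Subgroup A, H.Normal → K.Normal → H ⊓ K = ⊥ → H ⊔ K = ⊤ → H = ⊥ ∨ K = ⊥

theorem exists_idem {M : Type*} [Monoid M] [Finite M] (x : M) :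
    ∃ n, 0 < n ∧ x ^ n * x ^ n = x ^ n := by
  obtain ⟨i, j, hij, e⟩ := Finite.exists_ne_map_eq_of_infinite fun n : ℕ => x ^ n
  wlog h : i < j generalizing i j
  · exact this j i hij.symm e.symm (by omega)
  obtain ⟨d, rfl⟩ := Nat.exists_eq_add_of_lt h
  have key : ∀ t, x ^ (i + (d + 1) * t) = x ^ i := by
    intro t
    induction t with
    | zero => simp
    | succ t ih =>
      rw [show i + (d + 1) * (t + 1) = (i + d + 1) + (d + 1) * t by ring, pow_add]
      erw [← e]
      rw [← pow_add, ih]
  obtain ⟨c, hc⟩ : ∃ c, (d + 1) * (i + 1) = c + i := ⟨d * (i + 1) + 1, by ring⟩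
  refine ⟨(d + 1) * (i + 1), by positivity, ?_⟩
  conv_lhs => rw [← pow_add]; enter [2, 1]; rw [hc]
  rw [add_assoc, pow_add, key, ← pow_add, ← hc]

theorem fitting {A : Type*} [Group A] [Finite A] (hA : Ind A) (ψ : A →* A)
    (hψ : ∀ x a, ψ (x * a * x⁻¹) = x * ψ a * x⁻¹) {a : A} (h1 : a ≠ 1) (ha : ψ a = a) :
    Function.Injective ψ := by
  haveI : Finite (Monoid.End A) := Finite.of_injective (fun f : Monoid.End A => (f : A → A))
    DFunLike.coe_injective
  obtain ⟨n, hn, e⟩ := exists_idem (M := Monoid.End A) ψ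
  have h2 : ∀ (k : ℕ) x b, ((show Monoid.End A from ψ) ^ k) (x * b * x⁻¹) =
      x * ((show Monoid.End A from ψ) ^ k) b * x⁻¹ := by
    intro k
    induction k with
    | zero => intro x b; rfl
    | succ k ih => intro x b; rw [pow_succ]; exact (congrArg _ (hψ x b)).trans (ih x (ψ b))
  have h3 : ∀ k : ℕ, ((show Monoid.End A from ψ) ^ k) a = a := by
    intro k
    induction k with
    | zero => rfl
    | succ k ih => rw [pow_succ]; exact (congrArg _ ha).trans ih
  set ε : A →* A := ((show Monoid.End A from ψ) ^ n : Monoid.End A) with hε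
  have e' : ∀ b, ε (ε b) = ε b := fun b => DFunLike.congr_fun e b
  rcases hA.2 ε.ker ε.range inferInstance ⟨by
      rintro _ ⟨b, rfl⟩ x; exact ⟨_, h2 n x b⟩⟩ (by
      rw [eq_bot_iff]
      rintro _ ⟨h, b, rfl⟩
      exact (e' b).symm.trans h) (by
      rw [eq_top_iff]
      intro b _
      have := mul_mem (mem_sup_left (S := ε.ker) (T := ε.range) (x := b * (ε b)⁻¹) (by
        simp [MonoidHom.mem_ker, e'])) (mem_sup_right ⟨b, rfl⟩)
      rwa [inv_mul_cancel_right] at this) with h | h
  · have := (MonoidHom.ker_eq_bot_iff _).1 h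
    obtain ⟨k, rfl⟩ := Nat.exists_eq_add_of_lt hn
    intro x y hxy
    apply this
    rw [hε, pow_succ]
    exact congrArg ((show Monoid.End A from ψ) ^ (0 + k) : Monoid.End A) hxy
  · exact absurd (mem_bot.1 (h ▸ ⟨a, h3 n⟩)) h1

/-- projection of a product on some of the factors -/
def prj {κ : Type*} [DecidableEq κ] (B : κ → Type*) [∀ j, Group (B j)] (s : Finset κ) :
    (∀ j, B j) →* ∀ j, B j where
  toFun f j := if j ∈ s then f j else 1
  map_one' := by ext j; simp
  map_mul' f g := by ext j; by_cases h : j ∈ s <;> simp [h]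

theorem exch {A : Type*} [Group A] [Finite A] (hA : Ind A) {κ : Type*} [DecidableEq κ]
    {B : κ → Type*} [∀ j, Group (B j)] (α : A →* ∀ j, B j) (β : (∀ j, B j) →* A)
    (h : ∀ a, β (α a) = a) (s : Finset κ) :
    Function.Injective (fun a => β (prj B s (α a))) →
      ∃ j, Function.Injective fun a => β (prj B {j} (α a)) := by
  have hn : ∀ s x a, β (prj B s (α (x * a * x⁻¹))) = x * β (prj B s (α a)) * x⁻¹ := by
    intro s x a
    conv_rhs => rw [← h x, ← map_inv, ← map_mul, ← map_mul]
    congr 1
    ext j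
    by_cases hj : j ∈ s <;> simp [prj, hj]
  induction s using Finset.induction_on with
  | empty =>
    intro hi
    haveI := hA.1
    obtain ⟨a, ha⟩ := exists_ne (1 : A)
    exact absurd (hi (a₁ := a) (a₂ := 1) (congrArg β (by ext j; simp [prj]))) ha
  | insert j t hj ih =>
    intro hi
    by_cases h1 : Function.Injective fun a => β (prj B {j} (α a))
    · exact ⟨j, h1⟩
    refine ih ?_
    obtain ⟨a, h2, h3⟩ : ∃ a, β (prj B {j} (α a)) = 1 ∧ a ≠ 1 := by
      by_contra hc
      push Not at hc
      exact h1 ((injective_iff_map_eq_one (β.comp ((prj B {j}).comp α))).2 hc)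
    let θ : A ≃* A := MulEquiv.ofBijective (β.comp ((prj B (insert j t)).comp α))
      (Finite.injective_iff_bijective.1 hi)
    have hθ : ∀ a, θ a = β (prj B (insert j t) (α a)) := fun _ => rfl
    have := fitting hA (θ.symm.toMonoidHom.comp (β.comp ((prj B t).comp α))) (fun x b => by
      apply θ.injective
      show θ (θ.symm (β (prj B t (α _)))) = θ (x * θ.symm (β (prj B t (α _))) * x⁻¹)
      rw [hθ (_ * _ * _), hn, hn, ← hθ, θ.apply_symm_apply, θ.apply_symm_apply]) h3 (by
      apply θ.injective
      show θ (θ.symm (β (prj B t (α _)))) = θ a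
      rw [θ.apply_symm_apply, hθ, ← one_mul (β _), ← h2, ← map_mul]
      congr 1
      ext i
      by_cases c1 : i = j
      · subst c1; simp [prj, hj]
      · by_cases c2 : i ∈ t <;> simp [prj, c1, c2])
    exact fun x y hxy => this (congrArg θ.symm hxy)

/-- restriction to the other factors -/
def res {κ : Type*} (B : κ → Type*) [∀ j, Group (B j)] (j : κ) :
    (∀ j, B j) →* ∀ i : {i // i ≠ j}, B i where
  toFun f i := f i
  map_one' := rfl
  map_mul' _ _ := rfl

/-- inclusion of the other factors -/
def inc {κ : Type*} [DecidableEq κ] (B : κ → Type*) [∀ j, Group (B j)] (j : κ) :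
    (∀ i : {i // i ≠ j}, B i) →* ∀ j, B j where
  toFun f i := if h : i = j then 1 else f ⟨i, h⟩
  map_one' := by ext i; simp
  map_mul' f g := by ext i; by_cases h : i = j <;> simp [h]

theorem krs (n : ℕ) : ∀ (ι κ : Type) [Fintype ι] [Fintype κ] (A : ι → Type u) (B : κ → Type v)
    [∀ i, Group (A i)] [∀ j, Group (B j)] [∀ i, Finite (A i)] [∀ j, Finite (B j)],
    Fintype.card ι = n → (∀ i, Ind (A i)) → (∀ j, Ind (B j)) → ((∀ i, A i) ≃* ∀ j, B j) →
    ∃ σ : ι ≃ κ, ∀ i, Nonempty (A i ≃* B (σ i)) := by
  induction n with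
  | zero =>
    intro ι κ _ _ A B _ _ _ _ hn _ hB e
    classical
    haveI := Fintype.card_eq_zero_iff.1 hn
    haveI : IsEmpty κ := ⟨fun j => by
      haveI := (hB j).1
      obtain ⟨b, hb⟩ := exists_ne (1 : B j)
      haveI := e.symm.injective.subsingleton
      exact hb (by simpa using congrFun (Subsingleton.elim (Pi.mulSingle j b : ∀ j, B j) 1) j)⟩
    exact ⟨Equiv.equivOfIsEmpty _ _, fun i => isEmptyElim i⟩
  | succ n ih =>
    intro ι κ _ _ A B _ _ _ _ hn hA hB e
    classical
    obtain ⟨i⟩ : Nonempty ι := Fintype.card_pos_iff.1 (by omega)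
    let α := e.toMonoidHom.comp (MonoidHom.mulSingle A i)
    let β := (Pi.evalMonoidHom A i).comp e.symm.toMonoidHom
    have h : ∀ a, β (α a) = a := fun a => by simp [α, β]
    obtain ⟨j, hj⟩ := exch (hA i) α β h Finset.univ (by
      intro x y hxy
      have : ∀ f, prj B Finset.univ f = f := fun f => by ext j; simp [prj]
      simpa only [this, h] using hxy)
    let α' := (Pi.evalMonoidHom B j).comp α
    let β' := β.comp (MonoidHom.mulSingle B j)
    have hj' : Function.Injective (β'.comp α') := by
      intro x y hxy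
      have : ∀ a, β (prj B {j} (α a)) = β' (α' a) := fun a => congrArg β (by
        ext k; by_cases c : k = j
        · subst c; simp [prj, α']
        · simp [prj, c])
      exact hj ((this x).trans (hxy.trans (this y).symm))
    have hs := Finite.injective_iff_surjective.1 hj'
    have hβ : Function.Injective β' := by
      rw [← MonoidHom.ker_eq_bot_iff]
      refine ((hB j).2 β'.ker α'.range inferInstance ⟨?_⟩ ?_ ?_).resolve_right fun h0 => ?_
      · rintro _ ⟨a, rfl⟩ x
        refine ⟨β' x * a * (β' x)⁻¹, ?_⟩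
        have : Pi.mulSingle i (β' x * a * (β' x)⁻¹) =
            e.symm (Pi.mulSingle j x) * Pi.mulSingle i a * (e.symm (Pi.mulSingle j x))⁻¹ := by
          ext k; by_cases c : k = i
          · subst c; simp [β', β]
          · simp [c]
        show e (Pi.mulSingle i _) j = x * e (Pi.mulSingle i a) j * x⁻¹
        rw [this]; simp
      · rw [eq_bot_iff]
        rintro _ ⟨h1, a, rfl⟩
        rw [(injective_iff_map_eq_one _).1 hj' a h1, map_one]; exact one_mem _
      · rw [eq_top_iff]
        intro b _
        obtain ⟨a, ha⟩ := hs (β' b)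
        have := mul_mem (mem_sup_left (S := β'.ker) (T := α'.range) (x := b * (α' a)⁻¹) (by
          rw [MonoidHom.mem_ker, map_mul, map_inv, ← ha]; exact mul_inv_cancel _))
          (mem_sup_right ⟨a, rfl⟩)
        rwa [inv_mul_cancel_right] at this
      · haveI := (hA i).1
        obtain ⟨a, ha⟩ := exists_ne (1 : A i)
        refine ha ((injective_iff_map_eq_one _).1 hj' a ?_)
        show β' (α' a) = 1
        rw [mem_bot.1 (h0 ▸ ⟨a, rfl⟩ : α' a ∈ (⊥ : Subgroup (B j))), map_one]
    let e1 : B j ≃* A i := MulEquiv.ofBijective β' ⟨hβ, fun a => (hs a).imp' α' fun _ h => h⟩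
    let γ := (res B j).comp (e.toMonoidHom.comp (inc A i))
    have hγ : Function.Injective γ := by
      rw [injective_iff_map_eq_one]
      intro f hf
      have h1 : e (inc A i f) = Pi.mulSingle j (e (inc A i f) j) := by
        ext k; by_cases c : k = j
        · subst c; simp
        · rw [Pi.mulSingle_eq_of_ne c]; exact congrFun hf ⟨k, c⟩
      have h2 : e (inc A i f) j = 1 := (injective_iff_map_eq_one _).1 hβ _ (by
        show e.symm (Pi.mulSingle j _) i = 1
        rw [← h1]; simp [inc])
      rw [h2, Pi.mulSingle_one, map_eq_one_iff e e.injective] at h1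
      ext ⟨k, hk⟩
      simpa [inc, hk] using congrFun h1 k
    have hc : Nat.card (∀ k : {k // k ≠ i}, A k) = Nat.card (∀ k : {k // k ≠ j}, B k) := by
      have c1 := Nat.card_congr (Equiv.piSplitAt i A)
      have c2 := Nat.card_congr (Equiv.piSplitAt j B)
      rw [Nat.card_prod] at c1 c2
      rw [Nat.card_congr e.toEquiv, c2, Nat.card_congr e1.toEquiv] at c1
      exact (Nat.eq_of_mul_eq_mul_left Nat.card_pos c1).symm
    obtain ⟨σ, hσ⟩ := ih {k // k ≠ i} {k // k ≠ j} (fun k => A k) (fun k => B k) (by simp [hn])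
      (fun k => hA k) (fun k => hB k)
      (MulEquiv.ofBijective γ ((Nat.bijective_iff_injective_and_card γ).2 ⟨hγ, hc⟩))
    refine ⟨(Equiv.optionSubtypeNe i).symm.trans (σ.optionCongr.trans (Equiv.optionSubtypeNe j)),
      fun k => ?_⟩
    obtain ⟨k, rfl⟩ := (Equiv.optionSubtypeNe i).surjective k
    have : ((Equiv.optionSubtypeNe i).symm.trans (σ.optionCongr.trans (Equiv.optionSubtypeNe j)))
      (Equiv.optionSubtypeNe i k) = Equiv.optionSubtypeNe j (σ.optionCongr k) := by
      rw [Equiv.trans_apply, Equiv.symm_apply_apply, Equiv.trans_apply]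
    rw [this]
    rcases k with _ | k
    · exact ⟨e1.symm⟩
    · exact hσ k

end

/-- If a finite group is isomorphic both to a direct product of `m` directly indecomposable nontrivial groups and to a direct product of `n` such groups (a group is directly indecomposable when it is not the internal direct product of two nontrivial normal subgroups), then `m = n` and the factors are isomorphic in pairs after a suitable matching. -/
theorem result {m n : ℕ} {A : Fin m → Type*} {B : Fin n → Type*} [∀ i, Group (A i)] [∀ j, Group (B j)] [∀ i, Finite (A i)] [∀ j, Finite (B j)] (hA : ∀ i, Nontrivial (A i) ∧ ∀ H K : Subgroup (A i), H.Normal → K.Normal → H ⊓ K = ⊥ → H ⊔ K = ⊤ → H = ⊥ ∨ K = ⊥) (hB : ∀ j, Nontrivial (B j) ∧ ∀ H K : Subgroup (B j), H.Normal → K.Normal → H ⊓ K = ⊥ → H ⊔ K = ⊤ → H = ⊥ ∨ K = ⊥) (e : ((i : Fin m) → A i) ≃* ((j : Fin n) → B j)) : ∃ σ : Fin m ≃ Fin n, ∀ i, Nonempty (A i ≃* B (σ i)) := by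
  open Subgroup Cfsg.Agent.FT Cfsg.Agent.H28 in
  open scoped commutatorElement Pointwise in
  exact krs _ _ _ A B rfl hA hB e

end Cfsg.Agent.S4223
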