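import Cfsg.Statements.S4227
import Mathlib
import Cfsg.Agent.H1.HHR
import Cfsg.Agent.H6.Frobenius

set_option autoImplicit false
open Cfsg

namespace Cfsg.Agent.S4227

open Cfsg.Agent.H1 Cfsg.Agent.FT

/-- A finite group in which every element has order dividing `6` has `2`-length at most `1` and `3`-length at most `1`. -/
theorem result {G : Type*} [Group G] [Finite G] (h : ∀ x : G, x ^ 6 = 1) : Cfsg.PLengthLE 2 1 G ∧ Cfsg.PLengthLE 3 1 G := by
  haveI : Fact (Nat.Prime 3) := ⟨Nat.prime_three⟩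
  have h0 : ∀ (a b : ℕ) (x : G), a * b = 6 → b.Prime → a ≠ b → PiElt {a} x → x ^ a ^ 1 = 1 := fun a b x e hb hab hx =>
    (hx.pow _).eq_one (piElt_of_pow_eq_one (n := b) (fun s hs hd c => hab (c ▸ (Nat.prime_dvd_prime_iff_eq hs hb).1 hd))
      (by rw [pow_one, ← pow_mul, e, h]))
  have hs : Group.IsSolvable G := H6.isSolvable_of_two_primes Nat.prime_two Nat.prime_three fun r hr hd => by
    haveI := Fact.mk hr
    obtain ⟨x, hx⟩ := exists_prime_orderOf_dvd_card' r hd
    have := (hr.dvd_mul (m := 2) (n := 3)).1 (hx ▸ orderOf_dvd_of_pow_eq_one (h x))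
    rwa [Nat.prime_dvd_prime_iff_eq hr Nat.prime_two, Nat.prime_dvd_prime_iff_eq hr Nat.prime_three] at this
  refine ⟨pl_of_exp 1 (isPSolvable_of_isSolvable Nat.prime_two hs) (fun q n m Q hq _ a b c d _ => ?_)
    fun x => h0 2 3 x rfl Nat.prime_three (by decide), pl_of_exp 1 (isPSolvable_of_isSolvable Nat.prime_three hs)
    (fun q n m Q hq _ a b c d hQ => ?_) fun x => h0 3 2 x rfl Nat.prime_two (by decide)⟩
  all_goals obtain rfl := a.antisymm b
  · exact absurd d (Nat.one_lt_pow (by omega) hq.one_lt).ne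
  · obtain rfl := (Nat.prime_dvd_prime_iff_eq hq Nat.prime_two).1 ((dvd_pow_self q (by omega)).trans d.symm.dvd)
    have := fun x hx => h0 2 3 x rfl Nat.prime_three (by decide) (hQ.piElt hx)
    refine ab_iff.2 fun x hx => mem_cen.2 fun y hy => ?_
    have e := this _ (mul_mem hy hx)
    rw [pow_one, sq, mul_eq_one_iff_eq_inv, mul_inv_rev] at e
    rw [e, inv_eq_of_mul_eq_one_right (by simpa [sq] using this x hx),
      inv_eq_of_mul_eq_one_right (by simpa [sq] using this y hy)]

end Cfsg.Agent.S4227
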