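import Cfsg.Statements.S4278
import Mathlib
import Cfsg.Agent.H12.SS6

set_option autoImplicit false
open Cfsg

namespace Cfsg.Agent.S4278

open Cfsg.Agent.H12

/-- In the Chevalley group of type G₂ over a finite field of odd order, any two involutions are conjugate. -/
theorem result {F : Type*} [Field F] [Fintype F] (hF : Odd (Fintype.card F)) (s t : ↥(Cfsg.Lie.chevG2.group F)) (hs : orderOf s = 2) (ht : orderOf t = 2) : IsConj s t := by
  obtain ⟨a, ha, h1⟩ := isConj_of_invol hF hT_ker_G2 clsChk_G2 hs
  obtain ⟨b, hb, h2⟩ := isConj_of_invol hF hT_ker_G2 clsChk_G2 ht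
  rw [List.mem_singleton] at ha hb
  subst ha hb
  exact h1.trans h2.symm

end Cfsg.Agent.S4278
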