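import Cfsg.Statements.S4279
import Mathlib
import Cfsg.Agent.H12.SS6
import Cfsg.Agent.H2.Radical
import Cfsg.Agent.H10.SL

set_option autoImplicit false
open Cfsg

namespace Cfsg.Agent.S4279

open Cfsg.Agent.H12 Cfsg.Lie
open scoped MatrixGroups

/-- In the Chevalley group G of type G₂ over a finite field F of odd order q, the centralizer of an involution t has order q²(q² − 1)² and contains two elementwise commuting subgroups, each isomorphic to SL(2, F), which meet exactly in the subgroup generated by t and whose join has index 2 in the centralizer. -/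
theorem result {F : Type*} [Field F] [Fintype F] (hF : Odd (Fintype.card F)) (t : ↥(Cfsg.Lie.chevG2.group F)) (ht : orderOf t = 2) : Nat.card (Subgroup.centralizer ({t} : Set ↥(Cfsg.Lie.chevG2.group F))) = Fintype.card F ^ 2 * (Fintype.card F ^ 2 - 1) ^ 2 ∧ ∃ L₁ L₂ : Subgroup ↥(Cfsg.Lie.chevG2.group F), Nonempty (L₁ ≃* Matrix.SpecialLinearGroup (Fin 2) F) ∧ Nonempty (L₂ ≃* Matrix.SpecialLinearGroup (Fin 2) F) ∧ (∀ x ∈ L₁, ∀ y ∈ L₂, x * y = y * x) ∧ L₁ ⊓ L₂ = Subgroup.zpowers t ∧ L₁ ⊔ L₂ ≤ Subgroup.centralizer ({t} : Set ↥(Cfsg.Lie.chevG2.group F)) ∧ (L₁ ⊔ L₂).relIndex (Subgroup.centralizer ({t} : Set ↥(Cfsg.Lie.chevG2.group F))) = 2 := by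
  have hq := Fintype.one_lt_card (α := F)
  have hp : ∀ n, 1 ≤ Fintype.card F ^ n := fun n => Nat.one_le_pow _ _ hq.le
  obtain ⟨a, ha, h1⟩ := isConj_of_invol hF hT_ker_G2 clsChk_G2 ht
  rw [List.mem_singleton] at ha
  subst ha
  obtain ⟨g, rfl⟩ := isConj_iff.1 h1.symm
  have h2 := card_cent_G2a hF rfl
  have h3 := orderOf_hP_neg hF hT_ker_G2 (e := dig 2 1) ⟨0, by decide⟩ rfl
  have h4 : Nat.card (Subgroup.centralizer {g * hP chevG2 F (tz _ (-1) (dig 2 1)) * g⁻¹}) =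
      Fintype.card F ^ 2 * (Fintype.card F ^ 2 - 1) ^ 2 := by
    rw [card_centralizer_of_isConj h1]; zify [hp]; exact h2
  refine ⟨h4, ?_⟩
  have key : ∀ r : Fin chevG2.nroots, (∀ s : Fin chevG2.nroots,
      (chevG2.pairing r s - lamT (tb chevG2) (dig 2 1) s) % 2 = 0) →
      ∃ φ : SL(2, F) →* chevG2.group F, Function.Injective φ ∧
        φ (-1) = g * hP chevG2 F (tz _ (-1) (dig 2 1)) * g⁻¹ ∧ φ.range = ((grpSt chevG2 F).U r ⊔
          (grpSt chevG2 F).U ((rsOf chevG2).neg r)).map (MulAut.conj g).toMonoidHom := by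
    intro r hr
    obtain ⟨φ, a1, a2, -, a3⟩ := exists_sl2_grp (K := F) r
    have b1 : φ (-1) = hP chevG2 F (tz _ (-1) (dig 2 1)) := a3.trans (grp_eq_of_conj fun s u => by
      rw [StSys.hProd_conj', grpNC.h_conj_x _ _ (by simp), wp_tz, cor_α]
      obtain ⟨k, hk⟩ := Int.dvd_of_emod_eq_zero (hr s)
      rw [sub_eq_iff_eq_add.1 hk, zpow_add₀ (by simp), zpow_mul]
      simp)
    refine ⟨(MulAut.conj g).toMonoidHom.comp φ, (MulAut.conj g).injective.comp
      ((injective_iff_map_eq_one _).2 fun z hz => (H19.St.mem_center_iff.1 (a2 hz)).resolve_right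
        ?_), by simp [b1], by rw [MonoidHom.range_comp, a1]⟩
    rintro rfl
    rw [b1] at hz
    simp [hz] at h3
  obtain ⟨φ, a1, a2, a3⟩ := key ⟨7, by decide⟩ (by rw [tbG2]; decide +kernel)
  obtain ⟨ψ, b1, b2, b3⟩ := key ⟨11, by decide⟩ (by rw [tbG2]; decide +kernel)
  have hc : ∀ x ∈ φ.range, ∀ y ∈ ψ.range, x * y = y * x := by
    rw [a3, b3]
    rintro _ ⟨x, hx, rfl⟩ _ ⟨y, hy, rfl⟩
    rw [← map_mul, ← map_mul]
    have h5 : ∀ a ∈ [7, chevG2.neg 7], ∀ b ∈ [11, chevG2.neg 11], ∀ ha hb,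
        (grpSt chevG2 F).U ⟨a, ha⟩ ≤ Subgroup.centralizer ((grpSt chevG2 F).U ⟨b, hb⟩) := by
      rintro a ha b hb ha' hb' _ ⟨t, rfl⟩ _ ⟨u, rfl⟩
      have := commute_of_commutes (grpSt chevG2 F) (p := 0) Nat.cast_zero (a := b) (b := a)
        ((by rw [tbG2]; decide +kernel : ∀ a ∈ [7, chevG2.neg 7], ∀ b ∈ [11, chevG2.neg 11],
          (tb chevG2).commutes 0 b a = true) a ha b hb) u.toAdd t.toAdd
      rwa [xN_lt _ ha', xN_lt _ hb'] at this
    have h6 : ∀ b ∈ [11, chevG2.neg 11], ∀ hb,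
        (grpSt chevG2 F).U ⟨b, hb⟩ ≤ Subgroup.centralizer {x} := fun b hb hb' y hy _ e =>
      e ▸ (sup_le (h5 _ (by simp) b hb _ _) (h5 _ (by simp) b hb _ _) hx y hy).symm
    exact congrArg _ (sup_le (h6 _ (by simp) _) (h6 _ (by simp) _) hy _ rfl)
  have h5 : φ.range ⊓ ψ.range = Subgroup.zpowers (φ (-1)) := by
    refine le_antisymm ?_ (Subgroup.zpowers_le.2 ⟨⟨_, rfl⟩, _, b2.trans a2.symm⟩)
    rintro _ ⟨⟨z, rfl⟩, hz⟩
    rcases H19.St.mem_center_iff.1 (Subgroup.mem_center_iff.2 fun y => a1 (by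
      rw [map_mul, map_mul]; exact hc _ ⟨y, rfl⟩ _ hz) : z ∈ _) with rfl | rfl
    exacts [map_one φ ▸ one_mem _, Subgroup.mem_zpowers _]
  have h6 : φ.range ⊔ ψ.range ≤ Subgroup.centralizer {φ (-1)} :=
    sup_le (fun x hx _ e => e ▸ (hc x hx _ ⟨_, b2.trans a2.symm⟩).symm)
      fun x hx _ e => e ▸ hc _ ⟨_, rfl⟩ x hx
  rw [← a2] at h4 ht ⊢
  refine ⟨φ.range, ψ.range, ⟨(MonoidHom.ofInjective a1).symm⟩, ⟨(MonoidHom.ofInjective b1).symm⟩,
    hc, h5, h6, ?_⟩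
  have h7 := H2.card_sup_mul_card_inf_of_le_normalizer (H := φ.range) (N := ψ.range)
    ((show φ.range ≤ Subgroup.centralizer ψ.range from fun x hx y hy => (hc x hx y hy).symm).trans
      (Subgroup.centralizer_le_normalizer _))
  rw [h5, Nat.card_zpowers, ht, ← Nat.card_congr (MonoidHom.ofInjective a1).toEquiv,
    ← Nat.card_congr (MonoidHom.ofInjective b1).toEquiv, H10.card_SL_two] at h7
  have h8 := (Subgroup.subgroupOf (φ.range ⊔ ψ.range) (Subgroup.centralizer {φ (-1)})).index_mul_card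
  rw [Nat.card_congr (Subgroup.subgroupOfEquivOfLe h6).toEquiv, h4] at h8
  refine Nat.eq_of_mul_eq_mul_right (Nat.card_pos (α := ↥(φ.range ⊔ ψ.range))) (h8.trans ?_)
  rw [mul_comm 2, h7]
  zify [hp, hq.le]
  ring

end Cfsg.Agent.S4279
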