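import Cfsg.Statements.S4280
import Mathlib
import Cfsg.Agent.H12.SS6

set_option autoImplicit false
open Cfsg

namespace Cfsg.Agent.S4280

open Cfsg.Agent.H12

/-- In the Chevalley group of type F₄ over a finite field of odd order q there are exactly two conjugacy classes of involutions; the centralizer of an involution in one class has order q¹⁶(q² − 1)(q⁴ − 1)(q⁶ − 1)(q⁸ − 1), and in the other class q¹⁰(q² − 1)²(q⁴ − 1)(q⁶ − 1). -/
theorem result {F : Type*} [Field F] [Fintype F] (hF : Odd (Fintype.card F)) : ∃ s t : ↥(Cfsg.Lie.chevF4.group F), orderOf s = 2 ∧ orderOf t = 2 ∧ ¬ IsConj s t ∧ (∀ u : ↥(Cfsg.Lie.chevF4.group F), orderOf u = 2 → IsConj u s ∨ IsConj u t) ∧ Nat.card (Subgroup.centralizer ({s} : Set ↥(Cfsg.Lie.chevF4.group F))) = Fintype.card F ^ 16 * (Fintype.card F ^ 2 - 1) * (Fintype.card F ^ 4 - 1) * (Fintype.card F ^ 6 - 1) * (Fintype.card F ^ 8 - 1) ∧ Nat.card (Subgroup.centralizer ({t} : Set ↥(Cfsg.Lie.chevF4.group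 F))) = Fintype.card F ^ 10 * (Fintype.card F ^ 2 - 1) ^ 2 * (Fintype.card F ^ 4 - 1) * (Fintype.card F ^ 6 - 1) := by
  have hq := Fintype.one_lt_card (α := F)
  have hp : ∀ n, 1 ≤ Fintype.card F ^ n := fun n => Nat.one_le_pow _ _ hq.le
  have h1 := card_cent_F4a hF rfl
  have h2 := card_cent_F4b hF rfl
  refine ⟨_, _, orderOf_hP_neg hF hT_ker_F4 (e := dig 2 1) ⟨0, by decide⟩ rfl,
    orderOf_hP_neg hF hT_ker_F4 (e := dig 2 4) ⟨2, by decide⟩ rfl, fun h => ?_, fun u hu => ?_,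
    ?_, ?_⟩
  · rw [card_centralizer_of_isConj h, h2] at h1
    have h3 : (1 : ℤ) < Fintype.card F := by exact_mod_cast hq
    generalize (Fintype.card F : ℤ) = q at h1 h3
    have h4 : ∀ n, n ≠ 0 → q ^ n - 1 ≠ 0 := fun n hn => (sub_pos.2 (one_lt_pow₀ h3 hn)).ne'
    have h5 : q ^ 2 - 1 = q ^ 6 * (q ^ 8 - 1) := mul_left_cancel₀ (mul_ne_zero (mul_ne_zero (mul_ne_zero
      (pow_ne_zero 10 (by omega : q ≠ 0)) (h4 2 (by omega))) (h4 4 (by omega))) (h4 6 (by omega)))
      (by linear_combination h1)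
    have := Int.le_of_dvd one_pos ⟨q - q ^ 5 * (q ^ 8 - 1), by linear_combination -h5⟩
    omega
  · simpa using isConj_of_invol hF hT_ker_F4 clsChk_F4 hu
  · zify [hp]; exact h1
  · zify [hp]; exact h2

end Cfsg.Agent.S4280
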