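import Cfsg.Statements.S4281
import Mathlib
import Cfsg.Agent.H12.SS6

set_option autoImplicit false
open scoped BigOperators
open Cfsg

namespace Cfsg.Agent.S4281

open Cfsg.Agent.H12

/-- In the Chevalley group of type E₈ over a finite field of odd order q there are exactly two conjugacy classes of involutions; the centralizer of an involution in one class has order q⁵⁶(q⁸ − 1)·∏_{i=1}^{7}(q^{2i} − 1), and in the other class q⁶⁴(q² − 1)²(q⁶ − 1)(q⁸ − 1)(q¹⁰ − 1)(q¹² − 1)(q¹⁴ − 1)(q¹⁸ − 1). -/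
theorem result {F : Type*} [Field F] [Fintype F] (hF : Odd (Fintype.card F)) : ∃ s t : ↥(Cfsg.Lie.chevE8.group F), orderOf s = 2 ∧ orderOf t = 2 ∧ ¬ IsConj s t ∧ (∀ u : ↥(Cfsg.Lie.chevE8.group F), orderOf u = 2 → IsConj u s ∨ IsConj u t) ∧ Nat.card (Subgroup.centralizer ({s} : Set ↥(Cfsg.Lie.chevE8.group F))) = Fintype.card F ^ 56 * (Fintype.card F ^ 8 - 1) * ∏ i ∈ Finset.Icc 1 7, (Fintype.card F ^ (2 * i) - 1) ∧ Nat.card (Subgroup.centralizer ({t} : Set ↥(Cfsg.Lie.chevE8.group F))) = Fintype.card F ^ 64 * (Fintype.card F ^ 2 - 1) ^ 2 * (Fintype.card F ^ 6 - 1) * (Fintype.card F ^ 8 - 1) * (Fintype.card F ^ 10 - 1) * (Fintype.card F ^ 12 - 1) * (Fintype.card F ^ 14 - 1) * (Fintype.card F ^ 18 - 1) := by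
  have hq := Fintype.one_lt_card (α := F)
  have hp : ∀ n, 1 ≤ Fintype.card F ^ n := fun n => Nat.one_le_pow _ _ hq.le
  have h1 := card_cent_E8a hF rfl
  have h2 := card_cent_E8b hF rfl
  refine ⟨_, _, orderOf_hP_neg hF hT_ker_E8 (e := dig 2 3) ⟨0, by decide⟩ rfl,
    orderOf_hP_neg hF hT_ker_E8 (e := dig 2 1) ⟨0, by decide⟩ rfl, fun h => ?_, fun u hu => ?_,
    ?_, ?_⟩
  · rw [card_centralizer_of_isConj h, h2] at h1
    have h3 : (1 : ℤ) < Fintype.card F := by exact_mod_cast hq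
    generalize (Fintype.card F : ℤ) = q at h1 h3
    have h4 : ∀ n, n ≠ 0 → 0 < q ^ n - 1 := fun n hn => sub_pos.2 (one_lt_pow₀ h3 hn)
    have h5 : q ^ 8 * (q ^ 2 - 1) * (q ^ 18 - 1) = (q ^ 4 - 1) * (q ^ 8 - 1) :=
      mul_left_cancel₀ (a := q ^ 56 * (q ^ 2 - 1) * (q ^ 6 - 1) * (q ^ 8 - 1) * (q ^ 10 - 1) *
        (q ^ 12 - 1) * (q ^ 14 - 1)) (by
          have := h4 2 (by omega); have := h4 6 (by omega); have := h4 8 (by omega)
          have := h4 10 (by omega); have := h4 12 (by omega); have := h4 14 (by omega)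
          positivity) (by linear_combination h1)
    have := Int.le_of_dvd one_pos ⟨q ^ 7 * (q ^ 2 - 1) * (q ^ 18 - 1) - q ^ 11 + q ^ 7 + q ^ 3,
      by linear_combination -h5⟩
    omega
  · obtain ⟨a, ha, e⟩ := isConj_of_invol hF hT_ker_E8 clsChk_E8 hu
    rcases List.mem_pair.1 ha with rfl | rfl
    exacts [.inl e, .inr e]
  · rw [show Finset.Icc 1 7 = {1, 2, 3, 4, 5, 6, 7} from rfl]
    simp only [Finset.mem_insert, Finset.mem_singleton, OfNat.one_ne_ofNat, or_self, not_false_eq_true,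
      Finset.prod_insert, Nat.reduceEqDiff, Finset.prod_singleton, Nat.reduceMul, OfNat.ofNat_eq_ofNat]
    zify [hp]; rw [h1]; ring
  · zify [hp]; exact h2

end Cfsg.Agent.S4281
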