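import Cfsg.Statements.S4282
import Mathlib
import Cfsg.Agent.H1.HHD

set_option autoImplicit false
open Cfsg

namespace Cfsg.Agent.S4282

open Cfsg.Agent.H1 Cfsg.Agent.H28 Cfsg.Agent.FT Subgroup Module
open scoped commutatorElement

/-- A critical case behind the Hall–Higman theorem. Let p ≠ q be primes and G a finite group generated by a normal q-subgroup Q and a cyclic p-subgroup generated by x, such that the centralizer of every non-identity element of that cyclic subgroup is its product with the centre of G. Let K be an algebraically closed field of characteristic p and ρ a faithful representation of G on a nonzero finite-dimensional K-space whose restriction to Q is irreducible. If s is the least exponent with (ρ(x) − 1)^s = 0, then |⟨x⟩| − 1 ≤ s ≤ |⟨x⟩|; and if s = |⟨x⟩| − 1 then |⟨x⟩| − 1 is a power of q and Q is non-abelian. -/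
theorem result {G : Type*} [Group G] [Finite G] (p q : ℕ) [Fact p.Prime] [Fact q.Prime] (hpq : p ≠ q) (Q : Subgroup G) [Q.Normal] (hQ : IsPGroup q Q) (x : G) (hx : IsPGroup p (Subgroup.zpowers x)) (hgen : Q ⊔ Subgroup.zpowers x = ⊤) (hC : ∀ y ∈ Subgroup.zpowers x, y ≠ 1 → Subgroup.centralizer ({y} : Set G) = Subgroup.zpowers x ⊔ Subgroup.center G) {K : Type*} [Field K] [IsAlgClosed K] [CharP K p] {V : Type*} [AddCommGroup V] [Module K V] [FiniteDimensional K V] [Nontrivial V] (ρ : Representation K G V) (hfaith : Function.Injective ρ) (hirr : ∀ W : Submodule K V, (∀ g ∈ Q, Submodule.map (ρ g) W ≤ W) → W = ⊥ ∨ W = ⊤) (s : ℕ) (hs : (ρ x - 1) ^ s = 0) (hmin : ∀ k < s, (ρ x - 1) ^ k ≠ 0) : Nat.card (Subgroup.zpowers x) - 1 ≤ s ∧ s ≤ Nat.card (Subgroup.zpowers x) ∧ (s = Nat.card (Subgroup.zpowers x) - 1 → (∃ b : ℕ, Nat.card (Subgroup.zpowers x) - 1 = q ^ b) ∧ ¬ IsMulCommutative Q) := by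
  have hp : p.Prime := Fact.out
  have hq : q.Prime := Fact.out
  rw [Nat.card_zpowers]
  obtain ⟨m, hm⟩ := hx.exists_card_eq
  rw [Nat.card_zpowers] at hm
  have hQ' := pGrp_of_isPGroup hq hQ
  have hy : ∀ y ∈ zpowers x, y ^ p ^ m = 1 := fun y hy => by
    obtain ⟨i, rfl⟩ := mem_zpowers_iff.1 hy
    rw [← hm, ← zpow_natCast, ← zpow_mul, mul_comm, zpow_mul, zpow_natCast, pow_orderOf_eq_one, one_zpow]
  have hcop : ∀ (S : Subgroup G), ∀ a ∈ Q, a ^ p ^ m ∈ S → a ∈ S := fun S a ha h => by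
    obtain ⟨j, hj⟩ := hQ ⟨a, ha⟩
    have hj' : orderOf a ∣ q ^ j := orderOf_dvd_of_pow_eq_one (congrArg Subtype.val hj)
    obtain ⟨l, hl⟩ := exists_pow_eq_self_of_coprime (x := a) (n := p ^ m)
      (((Nat.coprime_primes hp hq).2 hpq).pow m j |>.of_dvd_right hj')
    exact hl ▸ pow_mem h l
  have hs' : RSimple ρ Q ⊤ := ⟨top_ne_bot, rInv_top _ _, fun W _ hW => hirr W fun g hg =>
    Submodule.map_le_iff_le_comap.2 (hW g hg)⟩
  have hqK : (q : K) ≠ 0 := fun e => hpq ((Nat.prime_dvd_prime_iff_eq hp hq).1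
    ((CharP.cast_eq_zero_iff K p q).1 e))
  have h1 : s ≤ orderOf x := not_lt.1 fun h => hmin _ h (by
    rw [hm, sub_one_pow_char, ← map_pow, ← hm, pow_orderOf_eq_one, map_one, sub_self])
  rcases h1.lt_or_eq with h2 | h2
  swap
  · have := orderOf_pos x
    exact ⟨by omega, h1, fun e => by omega⟩
  have h3 : finrank K V ≠ 1 := fun e => by
    obtain ⟨c, hc⟩ := (LinearMap.existsUnique_eq_smul_id_of_finrank_eq_one e (ρ x - 1)).exists
    have h4 : c ^ s = 0 := by
      rw [hc, smul_pow, show (LinearMap.id : End K V) = 1 from rfl, one_pow] at hs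
      exact (smul_eq_zero.1 hs).resolve_right one_ne_zero
    rw [(pow_eq_zero_iff'.1 h4).1, zero_smul, sub_eq_zero, ← map_one ρ] at hc
    rw [hfaith hc, orderOf_one, Nat.lt_one_iff] at h2
    rw [h2, pow_zero] at hs
    exact one_ne_zero hs
  have hreg : ∀ y ∈ zpowers x, y ≠ 1 → ∀ a ∈ Q, ⁅a, y⁆ ∈ Q ⊓ center G → a ∈ Q ⊓ center G := by
    refine fun y hy' h1 a ha h => ⟨ha, ?_⟩
    have h6 : ⁅a, y⁆ = 1 := hcop ⊥ _ h.1 (by
      have e : ⁅a, y⁆ * y = a * y * a⁻¹ := by rw [commutatorElement_def]; group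
      have e2 := congrArg (· ^ p ^ m) e
      rwa [Commute.mul_pow (mem_center_iff.1 h.2 y).symm, conj_pow, hy y hy', mul_one, mul_one,
        mul_inv_cancel] at e2)
    have h7 : a ∈ zpowers x ⊔ center G := hC y hy' h1 ▸ mem_centralizer_singleton_iff.2
      (commutatorElement_eq_one_iff_mul_comm.1 h6)
    obtain ⟨u, hu, c, hc, rfl⟩ := mem_sup_of_normal_right.1 h7
    refine hcop _ _ ha ?_
    rw [Commute.mul_pow (mem_center_iff.1 hc u), hy u hu, one_mul]
    exact pow_mem hc _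
  obtain ⟨a, ha⟩ := hQ.exists_card_eq
  obtain ⟨h4, h5⟩ := (crit_top (Z := Q ⊓ center G) inf_le_right inf_le_left hs' le_normalizer_of_normal
    hreg (eq_bot_iff.2 fun y h => hcop ⊥ y h.2.1 (hy y h.1))
    (by rw [ha, Nat.cast_pow]; exact pow_ne_zero _ hqK) hs h2).resolve_left h3
  · obtain ⟨b, hb⟩ := finrank_eq_pow hq hqK _ ρ Q ⊤ le_rfl hQ' hs'
    rw [finrank_top] at hb
    exact ⟨by omega, h1, fun _ => ⟨⟨b, by omega⟩, fun e => h3 (by
      rw [← finrank_top, finrank_eq_one_of_ab hs' e])⟩⟩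

end Cfsg.Agent.S4282
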