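import Mathlib
import Cfsg.Agent.H28.Util2
-- Template for statement S4283 (row 4283; see /opt/grader/pristine/manifest.json for weights).
-- Copy to Cfsg/Agent/S4283.lean and replace the sorry. The statement below is byte-identical to the frozen
-- statement Cfsg.CfsgFrozen.S4283 (Cfsg/Statements/S4283.lean; the theorem Cfsg.fg15_central_quotient_frobenius_abelian_preimages_gives_coprime_class_sizes);
-- the grader kernel-checks Cfsg.Agent.S4283.result against that frozen type. Keep the theorem IN THIS FILE
-- (a `result` declared elsewhere and merely imported here is not credited); helpers may live anywhere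
-- under Cfsg/Agent/.
import Cfsg.Statements.S4283
-- import your own Cfsg.Agent.* helpers here

set_option autoImplicit false
open Cfsg

namespace Cfsg.Agent.S4283

/-- Let G be a finite group with centre Z and let K, H be abelian subgroups of G containing Z such that G/Z is a Frobenius group with complement H/Z and kernel K/Z. Then the conjugacy class sizes of G are exactly 1, [G : K] and [G : H], and these two indices are coprime. (This is the converse half of the characterization of finite groups whose conjugacy class sizes are exactly 1, m and n with m and n coprime.) -/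
theorem result {G : Type*} [Group G] [Finite G] (K H : Subgroup G) (hZK : Subgroup.center G ≤ K) (hZH : Subgroup.center G ≤ H) (hK : IsMulCommutative K) (hH : IsMulCommutative H) (hFrob : Cfsg.IsFrobeniusComplement (H.map (QuotientGroup.mk' (Subgroup.center G)))) (hker : Cfsg.frobeniusKernel (H.map (QuotientGroup.mk' (Subgroup.center G))) = (K.map (QuotientGroup.mk' (Subgroup.center G)) : Set (G ⧸ Subgroup.center G))) : Set.range (fun x : G => (Subgroup.centralizer ({x} : Set G)).index) = ({1, K.index, H.index} : Set ℕ) ∧ K.index.Coprime H.index := by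
  open Subgroup Cfsg.Agent.FT Cfsg.Agent.H28 in
  open scoped commutatorElement Pointwise in
  haveI hZ : (center G).Normal := inferInstance
  obtain ⟨N, hN, hNn, hc⟩ := H6.exists_frobeniusKernel _ hFrob
  have e : N = K.map (QuotientGroup.mk' (center G)) := SetLike.coe_injective (hN.trans hker)
  subst e
  have hfpf := H6.fpf_of_isFrobeniusComplement hFrob hc.disjoint
  have hnot : ∀ u : G ⧸ center G, u ∉ K.map (QuotientGroup.mk' (center G)) →
      u ≠ 1 ∧ ∃ g, g⁻¹ * u * g ∈ H.map (QuotientGroup.mk' (center G)) := by
    intro u hu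
    have : u ∉ Cfsg.frobeniusKernel (H.map (QuotientGroup.mk' (center G))) := by rwa [hker]
    simp only [Cfsg.frobeniusKernel, Set.mem_ofPred_eq, not_or, not_forall, not_not,
      H6.mem_conj_smul_iff] at this
    exact this
  have hCK : ∀ x ∈ K, x ∉ center G → C[x] = K := by
    intro x hx hxZ
    refine le_antisymm (fun c hc' => ?_) (Ab.le_cen1 hK hx)
    rw [← mem_map_mk_iff _ hZK]
    by_contra hcK
    obtain ⟨h1, g, hg⟩ := hnot _ hcK
    have h2 := hfpf _ hg (by simpa using (conj_ne_one (g := g⁻¹)).2 h1) (g⁻¹ * x * g)
      (by simpa using hNn.conj_mem _ ((mem_map_mk_iff _ hZK).2 hx) g⁻¹) (by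
        have : (c : G ⧸ center G) * x = x * c := by
          simpa using congrArg (QuotientGroup.mk' (center G)) (mem_cen1.1 hc')
        calc g⁻¹ * c * g * (g⁻¹ * x * g) = g⁻¹ * (c * x) * g := by group
          _ = _ := by rw [this]; group)
    apply hxZ
    rw [← QuotientGroup.eq_one_iff]
    have e : (x : G ⧸ center G) = g * (g⁻¹ * x * g) * g⁻¹ := by group
    rw [e, h2]; group
  have hCH : ∀ x ∈ H, x ∉ center G → C[x] = H := by
    intro x hx hxZ
    refine le_antisymm (fun c hc' => ?_) (Ab.le_cen1 hH hx)
    rw [← mem_map_mk_iff _ hZH]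
    by_contra hcH
    have hx' := (mem_map_mk_iff _ hZH).2 hx
    have : (c : G ⧸ center G) * x = x * c := by
      simpa using congrArg (QuotientGroup.mk' (center G)) (mem_cen1.1 hc')
    exact hxZ ((QuotientGroup.eq_one_iff x).1 (H6.eq_one_of_isFrobeniusComplement hFrob hcH hx'
      (by rwa [this, mul_inv_cancel_right])))
  have hex : ∀ L : Subgroup G, L.map (QuotientGroup.mk' (center G)) ≠ ⊥ → ∃ x ∈ L, x ∉ center G := by
    intro L hL
    rw [Ne, Subgroup.map_eq_bot_iff, QuotientGroup.ker_mk'] at hL
    exact SetLike.not_le_iff_exists.1 hL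
  refine ⟨?_, ?_⟩
  · ext n
    simp only [Set.mem_range, Set.mem_insert_iff, Set.mem_singleton_iff]
    constructor
    · rintro ⟨x, rfl⟩
      by_cases hxZ : x ∈ center G
      · exact Or.inl (by rw [cen1_eq_top_iff.2 hxZ, index_top])
      by_cases hxK : x ∈ K
      · exact Or.inr (Or.inl (by rw [hCK x hxK hxZ]))
      obtain ⟨h1, g, hg⟩ := hnot x (by rwa [mem_map_mk_iff _ hZK])
      obtain ⟨g, rfl⟩ := QuotientGroup.mk_surjective g
      have h2 : g⁻¹ * x * g⁻¹⁻¹ ∈ H := by
        rw [← mem_map_mk_iff _ hZH]; simpa using hg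
      refine Or.inr (Or.inr ?_)
      rw [← index_cen1_conj g⁻¹, hCH _ h2]
      intro h
      exact hxZ (by simpa [mul_assoc] using hZ.conj_mem _ h g)
    · rintro (rfl | rfl | rfl)
      · exact ⟨1, by rw [cen1_one, index_top]⟩
      · obtain ⟨x, hx, hxZ⟩ := hex K (by
          intro h
          rw [h] at hc
          exact hFrob.2.1 (isComplement'_bot_left.1 hc))
        exact ⟨x, by rw [hCK x hx hxZ]⟩
      · obtain ⟨x, hx, hxZ⟩ := hex H hFrob.1
        exact ⟨x, by rw [hCH x hx hxZ]⟩
  · rw [← index_map_mk _ hZK, ← index_map_mk _ hZH, hc.symm.index_eq_card, hc.index_eq_card]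
    obtain ⟨k, hk⟩ := H6.card_dvd_card_sub_one _ _ (fun h _ k hk => hNn.conj_mem k hk h) hfpf
    have h0 := card_pos (K.map (QuotientGroup.mk' (center G)))
    rw [show #(K.map (QuotientGroup.mk' (center G))) = 1 + #(H.map (QuotientGroup.mk' (center G))) * k
      by omega]
    simp

end Cfsg.Agent.S4283
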