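import Cfsg.Statements.S4290
import Mathlib
import Cfsg.Agent.H27.TwoTr

set_option autoImplicit false
open Cfsg

namespace Cfsg.Agent.S4290

/-- Let G be a doubly transitive group of permutations of a finite set Ω in which a point stabilizer is a Hall subgroup of G (its order is coprime to its index). Then every automorphism of G of odd order is induced by conjugation by a permutation of Ω normalizing G. -/
theorem result {Ω : Type*} [Fintype Ω] (G : Subgroup (Equiv.Perm Ω)) (h2 : MulAction.IsMultiplyPretransitive G Ω 2) (o : Ω) (hHall : (Nat.card (MulAction.stabilizer G o)).Coprime (MulAction.stabilizer G o).index) (α : MulAut G) (hα : Odd (orderOf α)) : ∃ σ : Equiv.Perm Ω, σ ∈ Subgroup.normalizer (G : Set (Equiv.Perm Ω)) ∧ ∀ g : G, ((α g : G) : Equiv.Perm Ω) = σ * (g : Equiv.Perm Ω) * σ⁻¹ := by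
  refine (H27.odd_aut_perm G h2 o α hα o ?_).1
  rcases subsingleton_or_nontrivial Ω with hs | hs
  · rw [Fintype.card_eq_one_iff.2 ⟨o, fun y => Subsingleton.elim _ _⟩]; exact Nat.coprime_one_right _
  have htr : MulAction.IsPretransitive G Ω := by
    rw [MulAction.is_two_pretransitive_iff] at h2
    refine ⟨fun a c => ?_⟩
    obtain ⟨b, hb⟩ := exists_ne a
    obtain ⟨d, hd⟩ := exists_ne c
    exact (h2 hb.symm hd.symm).imp fun _ h => h.1
  rw [MulAction.index_stabilizer_of_transitive, Nat.card_eq_fintype_card (α := Ω)] at hHall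
  refine hHall.coprime_dvd_left ?_
  rw [← Subgroup.card_map_of_injective (f := α.toMonoidHom) α.injective, Nat.card_coe_set_eq,
    ← MulAction.index_stabilizer]
  exact Subgroup.index_dvd_card _

end Cfsg.Agent.S4290
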