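import Cfsg.Statements.S4292
import Mathlib
import Cfsg.Agent.H16.FreeEx

set_option autoImplicit false
open Cfsg

namespace Cfsg.Agent.S4292

/-- Let A and B be nontrivial finite groups. Then the direct product A × B occurs as a Frobenius complement if and only if A and B both occur as Frobenius complements and the orders of A and B are coprime. -/
theorem result {A B : Type*} [Group A] [Finite A] [Nontrivial A] [Group B] [Finite B] [Nontrivial B] :
    (∃ (L : Type) (_ : Group L) (_ : Finite L) (H : Subgroup L), Cfsg.IsFrobeniusComplement H ∧ Nonempty ((A × B) ≃* H)) ↔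
    ((∃ (L : Type) (_ : Group L) (_ : Finite L) (H : Subgroup L), Cfsg.IsFrobeniusComplement H ∧ Nonempty (A ≃* H)) ∧
     (∃ (L : Type) (_ : Group L) (_ : Finite L) (H : Subgroup L), Cfsg.IsFrobeniusComplement H ∧ Nonempty (B ≃* H)) ∧
     (Nat.card A).Coprime (Nat.card B)) := by
  exact ⟨fun h => ⟨H16.IsFC.of_injective h (f := MonoidHom.inl A B) (Prod.mk_left_injective 1),
    H16.IsFC.of_injective h (f := MonoidHom.inr A B) (Prod.mk_right_injective 1),
    H16.IsFC.coprime_of_prod h⟩, fun h => H16.IsFC.prod h.1 h.2.1 h.2.2⟩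

end Cfsg.Agent.S4292
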