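import Cfsg.Statements.S4295
import Mathlib
import Cfsg.Agent.H16.FreeSq

set_option autoImplicit false
open Cfsg

namespace Cfsg.Agent.S4295

/-- For a natural number m the following are equivalent: (a) some finite group has a Frobenius complement isomorphic to the quaternion group of order 8 whose Frobenius kernel (the identity together with the elements lying in no conjugate of the complement) has exactly m elements; (b) m is an odd perfect square greater than 1. -/
theorem result (m : ℕ) :
    (∃ (L : Type) (_ : Group L) (_ : Finite L) (H : Subgroup L), Cfsg.IsFrobeniusComplement H ∧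
        Nonempty (H ≃* QuaternionGroup 2) ∧ Nat.card (Cfsg.frobeniusKernel H) = m) ↔
    (Odd m ∧ IsSquare m ∧ 1 < m) := by
  constructor
  · rintro ⟨L, _, _, H, hF, ⟨e⟩, rfl⟩
    obtain ⟨N, h1, _, φ, h⟩ := H16.exists_freeAut_of_compl hF
    rw [← h1]
    obtain ⟨h2, h3⟩ := (h.comp (f := (e.symm : QuaternionGroup 2 →* H))
      e.symm.injective).odd_isSquare (i := .a 1) (j := .xa 0) (z := .a 2) (by decide) (by decide)
      (by decide) (by decide) (by decide)
    exact ⟨h2, h3, Finite.one_lt_card (α := N)⟩
  · rintro ⟨h1, ⟨n, rfl⟩, h2⟩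
    have hn := (Nat.odd_mul.1 h1).1
    have : NeZero n := ⟨hn.pos.ne'⟩
    have : Fact (1 < n) := ⟨by nlinarith⟩
    obtain ⟨ρ, h⟩ := H16.exists_freeRep_quat hn
    obtain ⟨L, a, b, H, c, ⟨e⟩, d⟩ := h.freeAut.exists_fc
    exact ⟨L, a, b, H, c, ⟨e.symm⟩, d.trans (by simp [pow_two])⟩

end Cfsg.Agent.S4295
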