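import Cfsg.Statements.S4298
import Mathlib
import Cfsg.Agent.H16.Zhur

set_option autoImplicit false
open Cfsg

namespace Cfsg.Agent.S4298

/-- The group SL(2,3) of order 24 (the binary tetrahedral group) occurs as a Frobenius complement of some finite Frobenius group. -/
theorem result :
    ∃ (L : Type) (_ : Group L) (_ : Finite L) (H : Subgroup L), Cfsg.IsFrobeniusComplement H ∧ Nonempty (H ≃* Matrix.SpecialLinearGroup (Fin 2) (ZMod 3)) := by
  exact H16.isFC_sl23.symm_form

end Cfsg.Agent.S4298
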