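import Mathlib
import Cfsg.Agent.H28.HallNum
-- Template for statement S4303 (row 4303; see /opt/grader/pristine/manifest.json for weights).
-- Copy to Cfsg/Agent/S4303.lean and replace the sorry. The statement below is byte-identical to the frozen
-- statement Cfsg.CfsgFrozen.S4303 (Cfsg/Statements/S4303.lean; the theorem Cfsg.fg16_sylow_number_factors_as_prime_powers_and_simple_sylow_numbers);
-- the grader kernel-checks Cfsg.Agent.S4303.result against that frozen type. Keep the theorem IN THIS FILE
-- (a `result` declared elsewhere and merely imported here is not credited); helpers may live anywhere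
-- under Cfsg/Agent/.
import Cfsg.Statements.S4303
-- import your own Cfsg.Agent.* helpers here

set_option autoImplicit false
universe u
open Cfsg

namespace Cfsg.Agent.S4303

section
open Subgroup Cfsg.Agent.FT Cfsg.Agent.H28
open scoped commutatorElement Pointwise
set_option linter.style.haveILetI false

universe v

theorem key (p : ℕ) [hp : Fact p.Prime] (n : ℕ) : ∀ (G : Type v) [Group G] [Finite G],
    Nat.card G = n → Nat.card (Sylow p G) ∈ Submonoid.closure
      {m : ℕ | (IsPrimePow m ∧ m % p = 1) ∨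
        ∃ (S : Type v) (_ : Group S) (_ : Finite S), IsSimpleGroup S ∧ m = Nat.card (Sylow p S)} := by
  induction n using Nat.strong_induction_on with
  | _ n ih =>
  intro G _ _ hn
  obtain ⟨P⟩ : Nonempty (Sylow p G) := inferInstance
  rcases subsingleton_or_nontrivial G with h0 | h0
  · rw [card_sylow_eq_index P, Subsingleton.elim N((P : Subgroup G)) ⊤, index_top]
    exact one_mem _
  by_cases hS : IsSimpleGroup G
  · exact Submonoid.subset_closure (Or.inr ⟨G, _, ‹_›, hS, rfl⟩)
  obtain ⟨K, hK, h1, h2⟩ : ∃ K : Subgroup G, K.Normal ∧ K ≠ ⊥ ∧ K ≠ ⊤ := by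
    by_contra h
    push Not at h
    exact hS ⟨fun K hK => (em (K = ⊥)).imp id (h K hK)⟩
  by_cases h3 : (P : Subgroup G) ⊓ K = ⊥ ∧ (P : Subgroup G) ⊔ K = ⊤
  · have hP := syl_top hp.out P
    have h4 : PiGrp {p}ᶜ K := (hP.inf_nml (nml_top K)).eq_bot_iff.1 h3.1
    have h5 : MulEq K N((P : Subgroup G)) ⊤ :=
      (mulEq_of_sup' (le_nrm_of_normal K P) h3.2).symm.mono le_rfl le_top (le_nrm _) le_top
    rw [card_sylow_eq_index P, ← relIndex_top_right, h5.relIndex_right,
      relIndex_congr (coprime_norm_cent (le_nrm_of_normal K P) (h4.cop' hP.pi))]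
    refine mem_closure_of_partn (relIndex_pos _ _).ne' fun q hq hd => Or.inl ⟨?_, ?_⟩
    · exact (isPrimePow_nat_iff _).2 ⟨q, _, hq,
        hq.factorization_pos_of_dvd (relIndex_pos _ _).ne' hd, rfl⟩
    · have := pow_factorization_relIndex_cen hp.out hq hP.pi h4 (le_nrm_of_normal K P)
      rwa [Nat.ModEq, Nat.mod_eq_of_lt hp.out.one_lt] at this
  rw [card_sylow_eq_mul K P]
  refine mul_mem (mul_mem (ih _ (hn ▸ card_quot_lt K h1) _ rfl)
    (ih _ (hn ▸ card_lt_of_ne_top h2) _ rfl)) ?_
  by_cases h4 : (P : Subgroup G) ⊓ K = ⊥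
  · exact ih _ (hn ▸ card_lt_of_ne_top fun h => h3 ⟨h4, top_le_iff.1 (h.ge.trans inf_le_left)⟩) _ rfl
  · have hle : (P : Subgroup G) ⊓ K ≤ ((P : Subgroup G) ⊔ K) ⊓ N((P : Subgroup G) ⊓ K) :=
      le_inf (inf_le_left.trans le_sup_left) (le_nrm _)
    haveI := (⟨hle, inf_le_right⟩ : _ ⊴ _).normal
    rw [← card_sylow_quot_pgroup _ ((piGrp_so hle).2 ((sylow_pGrp P).mono inf_le_left))]
    refine ih _ (hn ▸ lt_of_lt_of_le (card_quot_lt _ (by rwa [Ne, so_eq_bot hle])) ?_) _ rfl
    exact card_le_card_group _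

end

/-- For a finite group `G` and a prime `p`, the number of Sylow `p`-subgroups of `G` is a product of natural numbers each of which is either a prime power congruent to 1 modulo `p` or the number of Sylow `p`-subgroups of some finite simple group. -/
theorem result {G : Type u} [Group G] [Finite G]
    (p : ℕ) [Fact p.Prime] :
    ∃ l : List ℕ, l.prod = Nat.card (Sylow p G) ∧
      ∀ m ∈ l, (IsPrimePow m ∧ m % p = 1) ∨
        ∃ (S : Type u) (_ : Group S) (_ : Finite S), IsSimpleGroup S ∧ m = Nat.card (Sylow p S) := by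
  open Subgroup Cfsg.Agent.FT Cfsg.Agent.H28 in
  open scoped commutatorElement Pointwise in
  obtain ⟨l, h1, h2⟩ := Submonoid.exists_list_of_mem_closure (key p _ G rfl)
  exact ⟨l, h2, h1⟩

end Cfsg.Agent.S4303
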