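import Cfsg.Statements.S4306
import Mathlib
import Cfsg.Agent.H1.FitH

set_option autoImplicit false
open Cfsg

namespace Cfsg.Agent.S4306

/-- Let `A` be a non-abelian group of order `pq` with `p, q` distinct primes, acting by automorphisms on a finite solvable group `G` of order prime to `pq`, so that only the identity of `G` is fixed by all of `A`. Then `G` has Fitting height at most 2: there is a normal nilpotent subgroup `F` of `G` with `G/F` nilpotent. -/
theorem result {G A : Type*} [Group G] [Finite G]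
    [Group.IsSolvable G] [Group A] [Finite A] [MulDistribMulAction A G] (p q : ℕ) (hp : p.Prime) (hq : q.Prime) (hpq : p ≠ q)
    (hA : Nat.card A = p * q) (hAna : ¬ IsMulCommutative A) (hcop : (Nat.card G).Coprime (p * q))
    (hfpf : ∀ g : G, (∀ a : A, a • g = g) → g = 1) :
    ∃ F : Subgroup G, ∃ hF : F.Normal, Group.IsNilpotent ↥F ∧ Group.IsNilpotent (G ⧸ F) := by
  haveI := H1.sd_finite (MulDistribMulAction.toMulAut A G)
  have h := (H1.sd_nres (MulDistribMulAction.toMulAut A G) ⊤).1 (H1.fh_pq (H1.sd_sol _ ‹_›) (H1.sd_norms _ _)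
    (by rwa [FT.Cop, H1.sd_cardL, H1.sd_cardR, FT.card_top', FT.card_top', hA]) (H1.sd_cen_bot _ hfpf) hp hq hpq
    (by rw [H1.sd_cardR, FT.card_top', hA]) (H1.sd_not_ab _ hAna))
  haveI hn := FT.nml_top_iff.1 ⟨le_top, H1.norms_nres (FT.le_nrm (⊤ : Subgroup G))⟩
  obtain ⟨n, e⟩ := H1.nres_le_iff.1 (le_refl (H1.nres (⊤ : Subgroup G)))
  refine ⟨H1.nres ⊤, hn, H1.nres_eq_bot.1 h, Subgroup.nilpotent_iff_lowerCentralSeries.2 ⟨n, ?_⟩⟩
  rw [← Subgroup.map_top_of_surjective _ (QuotientGroup.mk'_surjective _), ← Subgroup.map_lowerCentralSeries,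
    Subgroup.map_eq_bot_iff, QuotientGroup.ker_mk']
  exact e

end Cfsg.Agent.S4306
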