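import Mathlib
import Cfsg.Agent.H28.Util2
-- Template for statement S4309 (row 4309; see /opt/grader/pristine/manifest.json for weights).
-- Copy to Cfsg/Agent/S4309.lean and replace the sorry. The statement below is byte-identical to the frozen
-- statement Cfsg.CfsgFrozen.S4309 (Cfsg/Statements/S4309.lean; the theorem Cfsg.fg16_hall_subgroup_meets_normal_subgroup_and_quotient_in_hall_subgroups);
-- the grader kernel-checks Cfsg.Agent.S4309.result against that frozen type. Keep the theorem IN THIS FILE
-- (a `result` declared elsewhere and merely imported here is not credited); helpers may live anywhere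
-- under Cfsg/Agent/.
import Cfsg.Statements.S4309
-- import your own Cfsg.Agent.* helpers here

set_option autoImplicit false
open Cfsg

namespace Cfsg.Agent.S4309

/-- Let `π` be a set of primes, `G` a finite group with a Hall `π`-subgroup `H` (every prime divisor of the order of `H` lies in `π` and no prime of `π` divides its index), and `A` a normal subgroup of `G`. Then `H ∩ A` is a Hall `π`-subgroup of `A` and the image of `H` in `G/A` is a Hall `π`-subgroup of `G/A`. -/
theorem result {G : Type*} [Group G] [Finite G] (π : Set ℕ)
    (H A : Subgroup G) [A.Normal] (hH : Cfsg.IsPiHall π H) :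
    Cfsg.IsPiHall π ((H ⊓ A).subgroupOf A) ∧ Cfsg.IsPiHall π (H.map (QuotientGroup.mk' A)) := by
  open Subgroup Cfsg.Agent.FT Cfsg.Agent.H28 in
  open scoped commutatorElement Pointwise in
  have h := hall_top_iff.2 hH
  refine ⟨(hall_iff_subgroupOf inf_le_right).1 (h.inf_nml (nml_top A)), hall_top_iff.1 ?_⟩
  have := h.map (f := QuotientGroup.mk' A)
  rwa [map_top_of_surjective _ (QuotientGroup.mk'_surjective A)] at this

end Cfsg.Agent.S4309
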