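import Mathlib
import Cfsg.Agent.H28.Cls2
-- Template for statement S4314 (row 4314; see /opt/grader/pristine/manifest.json for weights).
-- Copy to Cfsg/Agent/S4314.lean and replace the sorry. The statement below is byte-identical to the frozen
-- statement Cfsg.CfsgFrozen.S4314 (Cfsg/Statements/S4314.lean; the theorem Cfsg.fg16_class_sizes_one_or_prime);
-- the grader kernel-checks Cfsg.Agent.S4314.result against that frozen type. Keep the theorem IN THIS FILE
-- (a `result` declared elsewhere and merely imported here is not credited); helpers may live anywhere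
-- under Cfsg/Agent/.
import Cfsg.Statements.S4314
-- import your own Cfsg.Agent.* helpers here

set_option autoImplicit false
open Cfsg

namespace Cfsg.Agent.S4314

section
open Subgroup Cfsg.Agent.FT Cfsg.Agent.H28
open scoped commutatorElement Pointwise
set_option linter.style.haveILetI false

theorem relIndex_nml_dvd {G : Type*} [Group G] [Finite G] (H K : Subgroup G) [K.Normal] :
    H.relIndex K ∣ H.index := by
  rw [← (mulEq_sup (le_nrm_of_normal K H)).relIndex_right, ← relIndex_mul_index (le_sup_right : H ≤ K ⊔ H)]
  exact Dvd.intro _ rfl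

end

/-- Let `G` be a finite group every conjugacy class of which has size 1 or a prime. Then either `G` is nilpotent of class at most 2, or `G/Z(G)` is a non-abelian group of order `pq` for distinct primes `p, q` (a Frobenius group of order `pq`). -/
theorem result {G : Type*} [Group G] [Finite G]
    (h : ∀ x : G, (Subgroup.centralizer ({x} : Set G)).index = 1 ∨ ((Subgroup.centralizer ({x} : Set G)).index).Prime) :
    Subgroup.upperCentralSeries G 2 = ⊤ ∨
      ∃ p q : ℕ, p.Prime ∧ q.Prime ∧ p ≠ q ∧ Nat.card (G ⧸ Subgroup.center G) = p * q ∧ ¬ IsMulCommutative (G ⧸ Subgroup.center G) := by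
  open Subgroup Cfsg.Agent.FT Cfsg.Agent.H28 in
  open scoped commutatorElement Pointwise in
  · obtain ⟨b, hmax⟩ := Finite.exists_max fun g : G => (C[g]).index
    have hpr : ∀ x : G, x ∉ center G → (C[x]).index.Prime := fun x hx => (h x).resolve_left (mt cs_eq_one.1 hx)
    by_cases hc : ∀ x : G, x ∉ center G → (C[x]).index = (C[b]).index
    · left
      have hnil := nil_of_p'_central (G := G) (p := (C[b]).index) fun r hr hne x hx =>
        mem_center_of_pElt hr (fun y hy => by
          by_cases hy' : y ∈ center G
          · rw [cs_eq_one.2 hy'] at hy; exact hr.one_lt.ne' (Nat.dvd_one.1 hy)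
          · exact hne (((Nat.prime_dvd_prime_iff_eq hr (hpr y hy')).1 hy).trans (hc y hy'))) hx
      rw [eq_top_iff]
      intro x _
      simp only [Subgroup.mem_upperCentralSeries_succ_iff, Subgroup.upperCentralSeries_zero, mem_bot]
      intro y z
      rw [commutatorElement_eq_one_iff_mul_comm, ← mem_cen1]
      by_cases hz : z ∈ center G
      · rw [cen1_eq_top_iff.2 hz]; exact mem_top _
      · have h1 : (C[z].relIndex ⊤).Prime := by rw [relIndex_top_right]; exact hpr z hz
        exact der_le_of_prime_relIndex (hnil.maxIn_nml (maxIn_of_prime_relIndex h1 le_top)).nrm h1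
          (commutator_mem_commutator (mem_top x) (mem_top y))
    · right
      push Not at hc
      obtain ⟨d, hd, hne⟩ := hc
      have hb : b ∉ center G := fun hh => by
        have := hmax d
        have := one_lt_cs hd
        have := cs_eq_one.2 hh
        omega
      obtain ⟨hK, -⟩ := qf_of_disc hmax (S := {(C[b]).index}) ((piNat_prime (hpr b hb)).2 rfl) (fun g => by
        rcases h g with h1 | h1
        · rw [h1]; exact Or.inl (piNat_one _)
        · rw [piNat_prime h1, piNat_prime h1]; exact em _) (hpr d hd) hne dvd_rfl
      obtain ⟨k, hk, hkZ⟩ := SetLike.exists_of_lt hK.lt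
      obtain ⟨y, -, hy⟩ := SetLike.exists_of_lt (lt_top_iff_ne_top.2 hK.ne)
      have h1 : (bhm b).index.Prime := hK.cen k hk hkZ ▸ hpr k hkZ
      have h2 : (center G).relIndex (bhm b) ∣ (C[y]).index := by
        rw [← hK.inf_cen1 hy, inf_comm, inf_relIndex_right]
        exact relIndex_nml_dvd _ _
      have h3 : ((center G).relIndex (bhm b)).Prime := by
        have h4 := hpr y fun hh => hy (hK.lt.le hh)
        rw [((Nat.dvd_prime h4).1 h2).resolve_left (one_lt_relIndex hK.lt.not_ge).ne']
        exact h4
      refine ⟨_, _, h3, h1, fun e => h1.one_lt.ne' ?_, ?_, fun hab => hK.map_ne_top (eq_top_iff.2 ?_)⟩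
      · have := hK.cop
        rwa [e, Nat.coprime_self] at this
      · rw [relIndex_mul_index hK.lt.le, index_eq_card]
      · obtain ⟨x, hx, hx1⟩ := exists_ne_one hK.map_ne_bot
        exact fun g _ => hK.cent1 hx hx1 (mem_cen1.2 (mul_comm' g x))

end Cfsg.Agent.S4314
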