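import Cfsg.Statements.S4320
import Mathlib


set_option autoImplicit false
open Cfsg

namespace Cfsg.Agent.S4320

open Subgroup MonoidAlgebra

section
variable {G : Type*} [Group G] [Finite G] {Q : Type*} [CommGroup Q] [Fintype Q]

theorem exists_ann (π : G →* Q) (hπ : Function.Surjective π) (hker : π.ker ≤ commutator G)
    {B : Type*} [AddCommGroup B] [Module (MonoidAlgebra ℤ Q) B] (d : G → B)
    (hd : ∀ g h, d (g * h) = d g + (single (π g) 1 : MonoidAlgebra ℤ Q) • d h) :
    ∃ μ : MonoidAlgebra ℤ Q, lift ℤ ℤ Q 1 μ = Fintype.card Q ∧ ∀ g, μ • d g = 0 := by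
  classical
  have := Fintype.ofFinite G
  obtain ⟨ι, _, n, hn, ⟨e⟩⟩ := CommGroup.equiv_prod_multiplicative_zmod_of_finite Q
  let ε := lift ℤ ℤ Q 1
  let I : Ideal (MonoidAlgebra ℤ Q) := RingHom.ker ε
  choose s hs using hπ
  let x : ι ⊕ π.ker → G := Sum.elim (fun i => s (e.symm (Pi.mulSingle i (Multiplicative.ofAdd 1)))) (↑)
  let m : ι ⊕ π.ker → ℕ := Sum.elim n fun _ => 1
  let M : Submodule (MonoidAlgebra ℤ Q) B := Submodule.span _ (Set.range fun j => d (x j))
  have d1 : d 1 = 0 := by
    have := hd 1 1
    rw [mul_one, map_one, ← MonoidAlgebra.one_def, one_smul] at this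
    exact left_eq_add.1 this
  let S : Subgroup G :=
    { carrier := {g | d g ∈ M}
      one_mem' := by simp [d1]
      mul_mem' := fun {a b} ha hb => by
        change d (a * b) ∈ M
        rw [hd]; exact M.add_mem ha (M.smul_mem _ hb)
      inv_mem' := fun {a} ha => by
        change d a⁻¹ ∈ M
        have := hd a⁻¹ a
        rw [inv_mul_cancel, d1, eq_comm, add_eq_zero_iff_eq_neg] at this
        rw [this]; exact M.neg_mem (M.smul_mem _ ha) }
  have xS : ∀ j, x j ∈ S := fun j => Submodule.subset_span ⟨j, rfl⟩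
  have hS : ∀ g, d g ∈ M := by
    have h1 : ∀ q, q ∈ S.map π := fun q => by
      rw [← e.symm_apply_apply q, ← Finset.univ_prod_mulSingle (e q), map_prod]
      refine prod_mem fun i _ => ?_
      haveI : NeZero (n i) := ⟨by have := hn i; omega⟩
      have : e q i = Multiplicative.ofAdd 1 ^ (e q i).toAdd.val := by
        rw [← ofAdd_nsmul]; simp
      rw [this, Pi.mulSingle_pow, map_pow]
      exact pow_mem (mem_map.2 ⟨_, xS (Sum.inl i), hs _⟩) _
    intro g
    obtain ⟨a, ha, e⟩ := h1 (π g)
    have : a⁻¹ * g ∈ S := xS (Sum.inr ⟨a⁻¹ * g, by simp [MonoidHom.mem_ker, e]⟩)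
    have h2 := S.mul_mem ha this
    rwa [mul_inv_cancel_left] at h2
  let φ : G →* Multiplicative (B ⧸ I • M) := MonoidHom.mk'
    (fun g => Multiplicative.ofAdd (Submodule.Quotient.mk (d g))) fun a b => by
      rw [← ofAdd_add, ← Submodule.Quotient.mk_add, hd]
      congr 1
      rw [Submodule.Quotient.eq]
      have : d a + (single (π a) 1 : MonoidAlgebra ℤ Q) • d b - (d a + d b) =
          (single (π a) 1 - 1 : MonoidAlgebra ℤ Q) • d b := by rw [sub_smul, one_smul]; abel
      rw [this]
      exact Submodule.smul_mem_smul (by simp [I, ε, RingHom.mem_ker]) (hS b)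
  have rel : ∀ j, (m j : MonoidAlgebra ℤ Q) • d (x j) ∈ I • M := fun j => by
    have h1 : x j ^ m j ∈ π.ker := by
      rcases j with i | k
      · rw [MonoidHom.mem_ker, map_pow]
        simp only [x, m, Sum.elim_inl, hs]
        rw [← map_pow, ← Pi.mulSingle_pow, ← ofAdd_nsmul]; simp
      · simp [x, m]
    have h2 : φ (x j ^ m j) = 1 := Abelianization.commutator_subset_ker φ (hker h1)
    rw [map_pow] at h2
    have h3 : m j • (Submodule.Quotient.mk (d (x j)) : B ⧸ I • M) = 0 := h2
    rw [Nat.cast_smul_eq_nsmul, ← Submodule.Quotient.mk_eq_zero, ← h3]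
    exact map_nsmul (I • M).mkQ _ _
  choose a ha hsum using fun j => (Submodule.mem_ideal_smul_span_iff_exists_sum I _ _).1 (rel j)
  let T : Matrix (ι ⊕ π.ker) (ι ⊕ π.ker) (MonoidAlgebra ℤ Q) :=
    Matrix.diagonal (fun j => (m j : MonoidAlgebra ℤ Q)) - Matrix.of fun j k => a j k
  have hT : ∀ j, ∑ k, T j k • d (x k) = 0 := fun j => by
    have := hsum j
    rw [Finsupp.sum_fintype _ _ (by simp)] at this
    simp only [T, Matrix.sub_apply, Matrix.of_apply, sub_smul, Finset.sum_sub_distrib, this,
      Matrix.diagonal_apply, ite_smul, zero_smul, Finset.sum_ite_eq, Finset.mem_univ, if_true, sub_self]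
  refine ⟨T.det, ?_, fun g => ?_⟩
  · change ε T.det = _
    rw [AlgHom.map_det]
    have : ε.mapMatrix T = Matrix.diagonal fun j => (m j : ℤ) := by
      ext j k
      have : ε (a j k) = 0 := ha j k
      simp only [T, AlgHom.mapMatrix_apply, Matrix.map_apply, Matrix.sub_apply, Matrix.of_apply,
        map_sub, this, sub_zero, Matrix.diagonal_apply]
      split_ifs <;> simp
    rw [this, Matrix.det_diagonal, Fintype.prod_sum_type, ← Nat.card_eq_fintype_card,
      Nat.card_congr e.toEquiv, Nat.card_pi]
    simp [m, Nat.card_congr Multiplicative.toAdd]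
  · refine Submodule.span_induction (p := fun b _ => T.det • b = 0) ?_ (by simp)
      (fun a b _ _ h1 h2 => by rw [smul_add, h1, h2, add_zero])
      (fun r b _ h => by rw [smul_comm, h, smul_zero]) (hS g)
    rintro _ ⟨j, rfl⟩
    calc T.det • d (x j) = ∑ k, (T.adjugate * T) j k • d (x k) := by
          simp [Matrix.adjugate_mul, Matrix.one_apply]
      _ = ∑ l, T.adjugate j l • ∑ k, T l k • d (x k) := by
          simp only [Matrix.mul_apply, Finset.sum_smul, Finset.smul_sum, mul_smul]
          exact Finset.sum_comm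
      _ = 0 := by simp [hT]

theorem norm_ann (π : G →* Q) (hπ : Function.Surjective π) (hker : π.ker ≤ commutator G)
    {B : Type*} [AddCommGroup B] [Module (MonoidAlgebra ℤ Q) B] (d : G → B)
    (hd : ∀ g h, d (g * h) = d g + (single (π g) 1 : MonoidAlgebra ℤ Q) • d h) (g : G) :
    ∑ q : Q, (single q 1 : MonoidAlgebra ℤ Q) • d g = 0 := by
  classical
  obtain ⟨μ, h1, h2⟩ := exists_ann π hπ hker (B := B × MonoidAlgebra ℤ Q)
    (fun g => (d g, single (π g) 1 - 1)) fun g h => by
      simp [hd, mul_sub, single_mul_single]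
  have c : ∀ q, μ.coeff q = μ.coeff 1 := fun q => by
    obtain ⟨g, rfl⟩ := hπ q
    have := congrArg Prod.snd (h2 g)
    simp only [Prod.smul_mk, smul_eq_mul, mul_sub, mul_one, Prod.snd_zero, sub_eq_zero] at this
    have h3 := congrArg (fun y => y.coeff (π g)) this
    simpa using h3.symm
  have e : μ = μ.coeff 1 • ∑ q : Q, single q 1 := by
    ext q
    rw [coeff_smul_apply, coeff_sum, c q]
    simp [Finsupp.single_apply]
  have c1 : μ.coeff 1 = 1 := by
    rw [e] at h1
    simp only [map_smul, map_sum, lift_single, MonoidHom.one_apply, smul_eq_mul, mul_one,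
      Finset.sum_const, Finset.card_univ, nsmul_eq_mul] at h1
    exact mul_right_cancel₀ (b := (Fintype.card Q : ℤ)) (by simp) (by rw [h1, one_mul])
  have := congrArg Prod.fst (h2 g)
  rw [e, c1, one_smul, Prod.smul_fst, Finset.sum_smul] at this
  exact this

theorem norm_ann' (π : G →* Q) (hπ : Function.Surjective π) (hker : π.ker ≤ commutator G)
    {B : Type*} [AddCommGroup B] (ρ : Representation ℤ Q B) (d : G → B)
    (hd : ∀ g h, d (g * h) = d g + ρ (π g) (d h)) (g : G) : ∑ q : Q, ρ q (d g) = 0 := by
  have := norm_ann π hπ hker (B := ρ.asModule) (fun g => ρ.asModuleEquiv.symm (d g))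
    (fun g h => by rw [hd, map_add, Representation.asModuleEquiv_symm_map_rho]; rfl) g
  have h := congrArg ρ.asModuleEquiv this
  rw [map_sum, map_zero] at h
  rw [← h]
  exact Finset.sum_congr rfl fun q _ => by
    rw [Representation.asModuleEquiv_map_smul, Representation.asAlgebraHom_single_one]; rfl

end

/-- The Principal Ideal Theorem of class field theory in its group-theoretic form: for every finite group `G`, the transfer homomorphism from `G` into the abelianization `G'/G''` of its derived subgroup `G'` is the trivial homomorphism. -/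
theorem result {G : Type*} [Group G] [Finite G] :
    MonoidHom.transfer (Abelianization.of : ↥(commutator G) →* Abelianization ↥(commutator G)) =
      (1 : G →* Abelianization ↥(commutator G)) := by
  classical
  ext g
  let T : (commutator G).LeftTransversal := default
  let Q := Abelianization G
  let A := Abelianization (commutator G)
  letI : Fintype Q := (commutator G).fintypeQuotientOfFiniteIndex
  let s : Q → G := fun q => T.2.leftQuotientEquiv q
  have hs : ∀ q, Abelianization.of (s q) = q := fun q => T.2.leftQuotientEquiv.symm_apply_apply q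
  let ρ : Representation ℤ Q (Q → Additive A) :=
    { toFun := fun q => LinearMap.funLeft ℤ _ fun y => q⁻¹ * y
      map_one' := by ext; simp
      map_mul' := fun a b => by ext; simp [mul_assoc, mul_left_comm] }
  have sm : ∀ (q : Q) (f : Q → Additive A) (y : Q), ρ q f y = f (q⁻¹ * y) := fun q f y => rfl
  have mem : ∀ (g : G) (y : Q), (s y)⁻¹ * (g * s ((Abelianization.of g)⁻¹ * y)) ∈ commutator G :=
    fun g y => by
      rw [← Abelianization.ker_of, MonoidHom.mem_ker]
      simp [hs]
  have := norm_ann' (Q := Q) Abelianization.of (fun q => ⟨_, hs q⟩) (Abelianization.ker_of G).le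
    ρ (fun g y => Additive.ofMul (Abelianization.of ⟨_, mem g y⟩))
    (fun g h => by
      funext y
      rw [Pi.add_apply, sm, ← ofMul_mul, ← map_mul]
      congr 2
      apply Subtype.ext
      simp [mul_assoc, mul_left_comm]) g
  have h1 := congrFun this 1
  simp only [Finset.sum_apply, sm, Pi.zero_apply, ← ofMul_prod, ofMul_eq_zero] at h1
  rw [MonoidHom.transfer_def _ T, MonoidHom.one_apply, ← h1]
  refine (Fintype.prod_equiv ((Equiv.inv Q).trans (Equiv.mulRight 1)) _ _ fun q => ?_).symm
  congr 1
  apply Subtype.ext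
  exact (congrArg ((s (q⁻¹ * 1))⁻¹ * ·) (smul_apply_eq_smul_apply_inv_smul g T (q⁻¹ * 1 : Q))).symm

end Cfsg.Agent.S4320
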