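import Cfsg.Statements.S4323
import Mathlib
import Cfsg.Agent.H20.Mt

set_option autoImplicit false
open Cfsg

namespace Cfsg.Agent.S4323

open Cfsg.Agent.FT Cfsg.Agent.H28 Subgroup

/-- Let `q` be a prime and `A` a non-cyclic group of order `q²` acting by automorphisms on a finite group `G` of order prime to `q`, such that the fixed-point subgroup `C_G(a)` is abelian for every non-identity `a ∈ A`. Then `G` is solvable. -/
theorem result {A G : Type*} [Group A] [Finite A]
    [Group G] [Finite G] [MulDistribMulAction A G] (q : ℕ) (hq : q.Prime) (hA : Nat.card A = q ^ 2) (hnc : ¬ IsCyclic A)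
    (hcop : ¬ q ∣ Nat.card G) (h : ∀ a : A, a ≠ 1 → IsMulCommutative ↥(FixedPoints.subgroup (Subgroup.zpowers a) G)) :
    Group.IsSolvable G := by
  have hc : (Nat.card A).Coprime (Nat.card G) := hA ▸ ((Nat.Prime.coprime_iff_not_dvd hq).2 hcop).pow_left 2
  by_cases h2 : q = 2
  · subst h2
    exact H23.isSolvable_of_sol_top (H23.sol_of_odd (by
      rw [card_top]; exact Nat.odd_iff.2 (Nat.two_dvd_ne_zero.1 hcop)))
  have e : #(al G (⊤ : Subgroup A)) = q ^ 2 := card_al_top.trans hA
  have nc : ¬ Cyc (al G (⊤ : Subgroup A)) := fun c => hnc (by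
    have := cyc_al.1 c
    exact isCyclic_of_surjective _ (topEquiv (G := A)).surjective)
  refine H23.isSolvable_of_sol_top ((sol_gl (A := A)).1 (H20.Mt.main h2 _ rfl
    ⟨hq, le_rfl, (cyc_or_abelem_of_card_sq hq e).resolve_left nc, e⟩ (al_norms_top ⊤) (cop_gl_al hc _ _) ?_))
  rintro _ ⟨a, -, rfl⟩ a1
  have : ⟪ai G a⟫ = al G ⟪a⟫ := (MonoidHom.map_zpowers _ _).symm
  rw [← cen_zpowers, this, gl_top_subcent, ab_gl]
  have := h a (by rintro rfl; exact a1 (map_one _))
  refine ab_iff_forall.2 fun x hx y hy => ?_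
  exact congrArg Subtype.val (this.is_comm.comm (⟨x, fun b => hx b.1 b.2⟩ : FixedPoints.subgroup (zpowers a) G)
    ⟨y, fun b => hy b.1 b.2⟩)

end Cfsg.Agent.S4323
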