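import Cfsg.Statements.S4416
import Mathlib
import Cfsg.Agent.H3.Extra

set_option autoImplicit false
open Cfsg

namespace Cfsg.Agent.S4416

/-- Classification of extraspecial 2-groups in intrinsic form. An extraspecial 2-group has order 2^(2m+1) for some m ≥ 1, and the number of its elements squaring to the identity is either 2^(2m) + 2^m or 2^(2m) − 2^m; two extraspecial 2-groups of the same order with the same number of such elements are isomorphic. (The two cases are the central products of m dihedral groups of order 8, and of m − 1 dihedral groups with one quaternion group.) -/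
theorem result (E : Type*) [Group E] [Finite E] (hE : Cfsg.IsExtraspecial 2 E) :
    (∃ m : ℕ, 1 ≤ m ∧ Nat.card E = 2 ^ (2 * m + 1) ∧
      (Nat.card {x : E // x ^ 2 = 1} = 2 ^ (2 * m) + 2 ^ m ∨ Nat.card {x : E // x ^ 2 = 1} = 2 ^ (2 * m) - 2 ^ m)) ∧
    ∀ (E' : Type*) [Group E'] [Finite E'], Cfsg.IsExtraspecial 2 E' → Nat.card E' = Nat.card E →
      Nat.card {x : E' // x ^ 2 = 1} = Nat.card {x : E // x ^ 2 = 1} → Nonempty (E ≃* E') := by
  open Subgroup Cfsg.Agent.FT Cfsg.Agent.H3 in
  open scoped commutatorElement in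
  · obtain ⟨z, h1, h2⟩ := exists_xs_top hE
    obtain ⟨m, h3, h4⟩ := h1.card' h2
    refine ⟨⟨m, h3, card_top'.symm.trans h4, ?_⟩, fun E' _ _ hE' hc hr => ?_⟩
    · have := h1.nsq_eq h4
      rw [← nsq_top]
      omega
    · obtain ⟨z', h1', -⟩ := exists_xs_top hE'
      exact (h1.gi_two h1' (by rw [card_top', card_top', hc]) (by simp only [dl, nsq_top, card_top', hc, hr])).iso_top hc.symm

end Cfsg.Agent.S4416
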