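import Mathlib
import Cfsg.Agent.H28.Util2
-- Template for statement S4422 (row 4422; see /opt/grader/pristine/manifest.json for weights).
-- Copy to Cfsg/Agent/S4422.lean and replace the sorry. The statement below is byte-identical to the frozen
-- statement Cfsg.CfsgFrozen.S4422 (Cfsg/Statements/S4422.lean; the theorem Cfsg.nt17_primitive_divisor_congruent_one_mod_exponent);
-- the grader kernel-checks Cfsg.Agent.S4422.result against that frozen type. Keep the theorem IN THIS FILE
-- (a `result` declared elsewhere and merely imported here is not credited); helpers may live anywhere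
-- under Cfsg/Agent/.
import Cfsg.Statements.S4422
-- import your own Cfsg.Agent.* helpers here

set_option autoImplicit false
open Cfsg

namespace Cfsg.Agent.S4422

/-- Primitive divisors of `q^e - 1` are congruent to 1 modulo `e`. Let `q ≥ 2` and `e ≥ 1` be natural numbers and let `m` be a divisor of `q^e - 1` that is coprime to `q^i - 1` for every `1 ≤ i < e` (so `m` divides the primitive part of `q^e - 1`, the largest such divisor). Then `m ≡ 1 (mod e)`. -/
theorem result (q e m : ℕ) (hq : 2 ≤ q) (he : 1 ≤ e)
    (hm : m ∣ q ^ e - 1) (hcop : ∀ i : ℕ, 1 ≤ i → i < e → Nat.Coprime m (q ^ i - 1)) :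
    m % e = 1 % e := by
  open Subgroup Cfsg.Agent.FT Cfsg.Agent.H28 in
  open scoped commutatorElement Pointwise in
  have h0 : q ^ e - 1 ≠ 0 := by
    have := Nat.one_lt_pow (by omega : e ≠ 0) (by omega : 1 < q)
    omega
  have key : ∀ r : ℕ, r.Prime → r ∣ m → r ≡ 1 [MOD e] := by
    intro r hr hd
    haveI := Fact.mk hr
    have hz : ∀ i, r ∣ q ^ i - 1 ↔ (q : ZMod r) ^ i = 1 := by
      intro i
      have h1 : 1 ≤ q ^ i := Nat.one_le_pow _ _ (by omega)
      rw [← ZMod.natCast_eq_zero_iff, Nat.cast_sub h1, sub_eq_zero]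
      simp
    have h1 := (hz e).1 (hd.trans hm)
    have h2 : orderOf (q : ZMod r) = e := by
      rw [orderOf_eq_iff (by omega)]
      refine ⟨h1, fun i hi hi0 h => hr.one_lt.ne' ?_⟩
      exact Nat.eq_one_of_dvd_coprimes (hcop i hi0 hi) hd ((hz i).2 h)
    have h3 : (q : ZMod r) ≠ 0 := by
      intro h
      rw [h, zero_pow (by omega)] at h1
      exact zero_ne_one h1
    exact ((Nat.modEq_iff_dvd' hr.one_le).2 (h2 ▸ ZMod.orderOf_dvd_card_sub_one h3)).symm
  have hm0 : m ≠ 0 := by rintro rfl; exact h0 (zero_dvd_iff.1 hm)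
  clear hm hcop
  induction m using induction_on_primes with
  | zero => exact absurd rfl hm0
  | one => rfl
  | prime_mul r a hr ih =>
    have := (key r hr (dvd_mul_right _ _)).mul
      (ih (fun s hs hd => key s hs (hd.mul_left _)) (by rintro rfl; simp at hm0))
    rwa [mul_one] at this

end Cfsg.Agent.S4422
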