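import Cfsg.Statements.S4425
import Mathlib
import Cfsg.Agent.H9.Contr

set_option autoImplicit false
open Cfsg

namespace Cfsg.Agent.S4425

/-- Let χ be an irreducible character of the finite group G, p a prime, p^a the p-part of the order of G and p^b the p-part of the degree χ(1). Let χ̃ be the class function equal to p^a · χ on p-regular elements and zero on p-singular elements. Then p^(−b) · χ̃ is a generalized character of G, while p^(−(b+1)) · χ̃ is not. -/
theorem result {G : Type*} [Group G] [Finite G] (p : ℕ) [Fact p.Prime] (χ : Cfsg.IrrCharacter G) : Cfsg.IsGeneralizedCharacter G (fun x : G => if p ∣ orderOf x then (0 : ℂ) else ((p ^ ((Nat.card G).factorization p - (Cfsg.charDegree (χ : G → ℂ)).factorization p) : ℕ) : ℂ) * (χ : G → ℂ) x) ∧ ¬ Cfsg.IsGeneralizedCharacter G (fun x : G => if p ∣ orderOf x then (0 : ℂ) else ((p ^ (Nat.card G).factorization p : ℕ) : ℂ) / ((p ^ ((Cfsg.charDegree (χ : G → ℂ)).factorization p + 1) : ℕ) : ℂ) * (χ : G → ℂ) x) := by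
  have hp : p.Prime := Fact.out
  have hle := H8.factorization_charDegree_le (p := p) χ
  have hg := H6.isGen_of_irr χ.2
  have := Fintype.ofFinite G
  constructor
  · refine H6.isGen_of_classInner_int (fun g x => by simp only [H8.orderOf_conj', H8.irr_conj])
      fun ψ hψ => ?_
    obtain ⟨n, hn⟩ := H9.pow_dvd_mZ (p := p) (B := {χ}) rfl (H6.isGen_of_irr hψ)
    refine ⟨H9.mZ p {χ} χ ψ, ?_⟩
    rw [H9.classInner_reg_smul, H9.mZ_spec (B := {χ}) rfl (H6.isGen_of_irr hψ), blockDefect]
    simp
  · intro h
    obtain ⟨k, hk⟩ := H9.pow_dvd_degree (p := p) h (fun y hy => if_pos hy)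
    rw [if_neg H9.not_dvd_orderOf_one, H8.irr_one_eq] at hk
    have h1 : (charDegree (χ : G → ℂ) : ℂ) =
        (p : ℂ) ^ ((charDegree (χ : G → ℂ)).factorization p + 1) * k := by
      have h2 := H9.pow_ne_zero_C (p := p) ((Nat.card G).factorization p)
      have h3 := H9.pow_ne_zero_C (p := p) ((charDegree (χ : G → ℂ)).factorization p + 1)
      push_cast at hk
      field_simp at hk
      rw [hk]
    have h2 : (p : ℤ) ^ ((charDegree (χ : G → ℂ)).factorization p + 1) ∣
        (charDegree (χ : G → ℂ) : ℤ) := ⟨k, by exact_mod_cast h1⟩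
    have h3 : p ^ ((charDegree (χ : G → ℂ)).factorization p + 1) ∣ charDegree (χ : G → ℂ) := by
      exact_mod_cast h2
    rw [hp.pow_dvd_iff_le_factorization (H8.charDegree_irr_ne_zero χ)] at h3
    omega

end Cfsg.Agent.S4425
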