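import Cfsg.Statements.S4426
import Mathlib
import Cfsg.Agent.H9.Contr

set_option autoImplicit false
open Cfsg

namespace Cfsg.Agent.S4426

/-- Let χ be an irreducible character in the p-block B of the finite group G (relative to a maximal ideal M of the algebraic integers containing p), let p^a be the p-part of the order of G, and let χ̃ be the class function equal to p^a · χ on p-regular elements and zero elsewhere. For ξ ∈ B the inner product [χ̃, ξ] is an integer. The following are equivalent: (a) χ has height zero in B; (b) for some ξ ∈ B the integer [χ̃, ξ] is nonzero and the exact power of p dividing it equals the exact power of p dividing ξ(1); (c) the same holds for every ξ ∈ B. -/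
theorem result {G : Type*} [Group G] [Fintype G] (p : ℕ) [Fact p.Prime] (M : Ideal Cfsg.AlgInt) (hM : Cfsg.IsPModular p M) (B : Set (Cfsg.IrrCharacter G)) (hB : Cfsg.IsPBlock M B) (χ : Cfsg.IrrCharacter G) (hχ : χ ∈ B) : (Cfsg.blockHeight p B (χ : G → ℂ) = 0 ↔ ∃ ξ ∈ B, ∃ n : ℤ, Cfsg.classInner (fun x : G => if p ∣ orderOf x then (0 : ℂ) else ((p ^ (Nat.card G).factorization p : ℕ) : ℂ) * (χ : G → ℂ) x) (ξ : G → ℂ) = (n : ℂ) ∧ n ≠ 0 ∧ padicValInt p n = (Cfsg.charDegree (ξ : G → ℂ)).factorization p) ∧ (Cfsg.blockHeight p B (χ : G → ℂ) = 0 ↔ ∀ ξ ∈ B, ∃ n : ℤ, Cfsg.classInner (fun x : G => if p ∣ orderOf x then (0 : ℂ) else ((p ^ (Nat.card G).factorization p : ℕ) : ℂ) * (χ : G → ℂ) x) (ξ : G → ℂ) = (n : ℂ) ∧ n ≠ 0 ∧ padicValInt p n = (Cfsg.charDegree (ξ : G → ℂ)).factorization p) := by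
  haveI := hM.2.1
  haveI : H9.PMod M p := ⟨hM⟩
  have key : ∀ ξ ∈ B, blockHeight p B (χ : G → ℂ) = 0 ↔ ∃ n : ℤ, classInner (fun x : G => if p ∣ orderOf x then (0 : ℂ) else ((p ^ (Nat.card G).factorization p : ℕ) : ℂ) * (χ : G → ℂ) x) (ξ : G → ℂ) = (n : ℂ) ∧ n ≠ 0 ∧ padicValInt p n = (charDegree (ξ : G → ℂ)).factorization p := fun ξ hξ => by
    have h1 := H9.defect_add_val (p := p) hξ
    have h2 := H9.blockDefect_le (p := p) B
    have h3 := H9.pow_succ_dvd_mZ_iff hB hξ hχ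
    have h4 := H9.pow_dvd_mZ (p := p) hξ (H6.isGen_of_irr χ.2)
    have hp0 : (p : ℤ) ≠ 0 := Int.natCast_ne_zero.2 hM.1.ne_zero
    have e : classInner (fun x : G => if p ∣ orderOf x then (0 : ℂ) else ((p ^ (Nat.card G).factorization p : ℕ) : ℂ) * (χ : G → ℂ) x) (ξ : G → ℂ) = (((p : ℤ) ^ ((Nat.card G).factorization p - blockDefect p B) * H9.mZ p B ξ χ : ℤ) : ℂ) := by
      push_cast
      rw [H9.classInner_reg_smul, H9.mZ_spec hξ (H6.isGen_of_irr χ.2), ← mul_assoc, ← pow_add,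
        Nat.sub_add_cancel h2, H9.rip_irr_comm]
    rw [e]
    simp only [Int.cast_inj, exists_eq_left']
    by_cases h0 : H9.mZ p B ξ χ = 0
    · simp only [h0, dvd_zero, true_iff] at h3
      simp [h0, h3]
    · have h5 : padicValInt p ((p : ℤ) ^ ((Nat.card G).factorization p - blockDefect p B) *
          H9.mZ p B ξ χ) = (Nat.card G).factorization p - blockDefect p B +
            padicValInt p (H9.mZ p B ξ χ) := by
        rw [padicValInt.mul (pow_ne_zero _ hp0) h0, ← Nat.cast_pow, padicValInt.of_nat,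
          padicValNat.prime_pow]
      rw [padicValInt_dvd_iff, or_iff_right h0] at h3 h4
      rw [h5, and_iff_right (mul_ne_zero (pow_ne_zero _ hp0) h0)]
      omega
  obtain ⟨ψ, hψ⟩ := H8.block_nonempty hB
  exact ⟨⟨fun h => ⟨ψ, hψ, (key ψ hψ).1 h⟩, fun ⟨ξ, hξ, h⟩ => (key ξ hξ).2 h⟩,
    ⟨fun h ξ hξ => (key ξ hξ).1 h, fun h => (key ψ hψ).2 (h ψ hψ)⟩⟩

end Cfsg.Agent.S4426
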