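import Cfsg.Statements.S4430
import Mathlib
import Cfsg.Agent.H9.Contr

set_option autoImplicit false
open Cfsg

namespace Cfsg.Agent.S4430

/-- Let H be a subgroup of the finite group G, b a block of H whose induced block B₀ in G is defined (relative to a maximal ideal M of the algebraic integers containing p), and ξ ∈ b. For a block B of G let n_B be the value at 1 of the B-part of the induced character ξ^G (a natural number: the sum over χ ∈ B of the multiplicity of χ in ξ^G times χ(1)). Then for B = B₀ the exact power of p dividing n_B equals the exact power of p dividing ξ^G(1), while for every other block B either n_B = 0 or n_B is divisible by a strictly higher power of p than ξ^G(1). -/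
theorem result {G : Type*} [Group G] [Fintype G] (p : ℕ) [Fact p.Prime] (M : Ideal Cfsg.AlgInt) (hM : Cfsg.IsPModular p M) (H : Subgroup G) [Fintype H] (b : Set (Cfsg.IrrCharacter H)) (B₀ : Set (Cfsg.IrrCharacter G)) (hind : Cfsg.IsInducedBlock M H b B₀) (ξ : Cfsg.IrrCharacter H) (hξ : ξ ∈ b) : (∃ n : ℕ, Cfsg.blockPart B₀ (Cfsg.indFun H (ξ : H → ℂ)) 1 = (n : ℂ) ∧ n ≠ 0 ∧ n.factorization p = (Cfsg.charDegree (Cfsg.indFun H (ξ : H → ℂ))).factorization p) ∧ ∀ B : Set (Cfsg.IrrCharacter G), Cfsg.IsPBlock M B → B ≠ B₀ → ∃ n : ℕ, Cfsg.blockPart B (Cfsg.indFun H (ξ : H → ℂ)) 1 = (n : ℂ) ∧ (n = 0 ∨ (Cfsg.charDegree (Cfsg.indFun H (ξ : H → ℂ))).factorization p < n.factorization p) := by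
  haveI := hM.2.1
  haveI : H9.PMod M p := ⟨hM⟩
  classical
  have hc : IsCharacter G (indFun H (ξ : H → ℂ)) := H6.isCharacter_indFun H (H8.irr_isChar ξ)
  have hcf := H7.char_cf hc
  have hdeg : indFun H (ξ : H → ℂ) 1 = charDegree (indFun H (ξ : H → ℂ)) :=
    H8.char_one_eq_charDegree hc
  have hne : charDegree (indFun H (ξ : H → ℂ)) ≠ 0 := by
    intro h
    rw [h, ← H7.ind_subtype, H7.ind_apply_one H.subtype_injective, Nat.cast_zero] at hdeg
    exact mul_ne_zero (Nat.cast_ne_zero.2 Subgroup.index_ne_zero_of_finite) (H8.irr_one_ne_zero ξ) hdeg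
  have key : ∀ B : Set (IrrCharacter G), IsPBlock M B → ∃ n : ℕ, blockPart B (indFun H (ξ : H → ℂ)) 1 = (n : ℂ) ∧
      (n : ℂ) / charDegree (indFun H (ξ : H → ℂ)) ∈ H8.locRing M ∧
      H8.rd M ((n : ℂ) / charDegree (indFun H (ξ : H → ℂ))) = if B = B₀ then 1 else 0 := by
    intro B hB
    have hu := H8.isBlockUnion_of_block hB
    have h1 : IsCharacter G (blockPart B (indFun H (ξ : H → ℂ))) :=
      H7.char_of_ip_nat (H8.isClassFunction_blockPart _ _) fun χ hχ => by
        rw [H9.ip_blockPart_irr _ _ ⟨χ, hχ⟩]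
        split_ifs
        · exact H7.ip_char_nat hc (H7.irr_char hχ)
        · exact ⟨0, by simp⟩
    obtain ⟨n, hn⟩ := H7.char_one_nat h1
    refine ⟨n, hn, ?_⟩
    have h2 : (n : ℂ) / charDegree (indFun H (ξ : H → ℂ)) =
        H8.omega (ξ : H → ℂ) (H8.up M (H8.resSub _ H (H8.fB M B))) := by
      rw [H8.mapRingHom_resSub, ← H8.omega_indFun H _ (H8.up_mem_Zen (H8.fB_mem_Zen B)),
        H8.omega_eq, ← hn, ← hdeg, H8.blockPart_eq_chiL B hcf, H8.up_fB hu]
      congr 2
      exact mul_one _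
    obtain ⟨h3, h4⟩ := H8.omega_up_mem_and ξ (H8.resSub_mem_Zen_of_mem_Zen H (H8.fB_mem_Zen (M := M) B))
    obtain ⟨χ₀, h₀⟩ := H8.block_nonempty hind.2.1
    rw [h2, ← h4]
    refine ⟨h3, ?_⟩
    rw [H8.mapRingHom_resSub, H8.red_fB, H8.IsInducedBlock.lam_eq hind hξ h₀ (H8.eB_mem_Zen B),
      H8.lam_eB hu]
    exact (if_congr ⟨fun h => H8.block_eq_of_mem hB hind.2.1 h h₀, fun h => h ▸ h₀⟩ rfl rfl)
  constructor
  · obtain ⟨n, h1, h2, h3⟩ := key B₀ hind.2.1
    rw [if_pos rfl] at h3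
    exact ⟨n, h1, H9.factorization_eq_of_rd_ne_zero (M := M) hne (by rw [h3]; exact one_ne_zero)⟩
  · intro B hB hne'
    obtain ⟨n, h1, h2, h3⟩ := key B hB
    rw [if_neg hne', H8.rd_eq_zero_iff h2] at h3
    refine ⟨n, h1, or_iff_not_imp_left.2 fun h0 => ?_⟩
    exact (H8.memLocalIdeal_natCast_div_iff hM h0 hne).1 h3

end Cfsg.Agent.S4430
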