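import Cfsg.Statements.S4431
import Mathlib
import Cfsg.Agent.H9.Contr

set_option autoImplicit false
open Cfsg

namespace Cfsg.Agent.S4431

/-- Let H be a subgroup of the finite group G and b a block of H whose induced block B₀ in G is defined (relative to a maximal ideal M of the algebraic integers containing p). Let χ be an irreducible character of G, ψ ∈ b, and let η be the class function on H equal to p^a · χ on the p-regular elements of H and zero elsewhere, p^a being the p-part of the order of H. Then (a) if χ ∉ B₀, the number [η, ψ]/ψ(1) lies in the local ideal at M; (b) if χ ∈ B₀ has height zero, it does not. -/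
theorem result {G : Type*} [Group G] [Fintype G] (p : ℕ) [Fact p.Prime] (M : Ideal Cfsg.AlgInt) (hM : Cfsg.IsPModular p M) (H : Subgroup G) [Fintype H] (b : Set (Cfsg.IrrCharacter H)) (B₀ : Set (Cfsg.IrrCharacter G)) (hind : Cfsg.IsInducedBlock M H b B₀) (χ : Cfsg.IrrCharacter G) (ψ : Cfsg.IrrCharacter H) (hψ : ψ ∈ b) : (χ ∉ B₀ → Cfsg.MemLocalIdeal M (Cfsg.classInner (fun h : H => if p ∣ orderOf h then (0 : ℂ) else ((p ^ (Nat.card H).factorization p : ℕ) : ℂ) * (χ : G → ℂ) h) (ψ : H → ℂ) / (ψ : H → ℂ) 1)) ∧ (χ ∈ B₀ → Cfsg.blockHeight p B₀ (χ : G → ℂ) = 0 → ¬ Cfsg.MemLocalIdeal M (Cfsg.classInner (fun h : H => if p ∣ orderOf h then (0 : ℂ) else ((p ^ (Nat.card H).factorization p : ℕ) : ℂ) * (χ : G → ℂ) h) (ψ : H → ℂ) / (ψ : H → ℂ) 1)) := by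
  haveI := hM.2.1
  haveI : H9.PMod M p := ⟨hM⟩
  classical
  have hg := H6.isGen_restrict H (H6.isGen_of_irr χ.2)
  obtain ⟨h1, h2⟩ := H8.lam_regElt (M := M) (p := p) (H6.isClassFunction_of_isGen hg)
    (H9.gen_mem hg) ψ
  obtain ⟨χ₀, h₀⟩ := H8.block_nonempty hind.2.1
  rw [← H8.resSub_regElt H (χ : G → ℂ), H8.IsInducedBlock.lam_eq hind hψ h₀
    (H8.regElt_mem_Zen (H8.irr_isClassFunction χ))] at h2
  have h3 : H8.rd M (((p ^ (Nat.card H).factorization p : ℕ) : ℂ) / (Nat.card H : ℕ)) ≠ 0 :=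
    H9.rd_natCast_div_ne_zero (pow_ne_zero _ hM.1.ne_zero) Nat.card_pos.ne'
      (Nat.factorization_pow_self hM.1)
  have h4 := H8.mem_locRing_of_rd_ne_zero h3
  have e : classInner (fun h : H => if p ∣ orderOf h then (0 : ℂ) else ((p ^ (Nat.card H).factorization p : ℕ) : ℂ) * (χ : G → ℂ) h) (ψ : H → ℂ) / (ψ : H → ℂ) 1 =
      (((p ^ (Nat.card H).factorization p : ℕ) : ℂ) / (Nat.card H : ℕ)) *
        ((∑ x : H with ¬ p ∣ orderOf x, (ψ : H → ℂ) x * (χ : G → ℂ) (x⁻¹ : H)) / (ψ : H → ℂ) 1) := by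
    rw [H9.classInner_reg_smul, H9.rip_def, H8.sum_reg_symm (ψ : H → ℂ) (fun h : H => (χ : G → ℂ) h)]
    simp only [H8.irr_inv]
    ring
  rw [e, ← H8.rd_eq_zero_iff (mul_mem h4 h1), H8.rd_mul h4 h1, ← h2, mul_eq_zero, or_iff_right h3]
  have := H8.lam_regElt_ne_zero_iff hM hind.2.1 h₀ χ
  tauto

end Cfsg.Agent.S4431
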