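import Cfsg.Statements.S4437
import Mathlib
import Cfsg.Agent.H9.Root

set_option autoImplicit false
open Cfsg

namespace Cfsg.Agent.S4437

/-- Let P be a p-subgroup of the finite group G, H = P·C_G(P), and b a block of H (relative to a maximal ideal M of the algebraic integers containing p) having P as a defect group; let B be the block of G induced by b. Let T be the stabilizer of b in N_G(P): the elements g of N_G(P) such that the g-conjugate of every member of b is again a member of b. Then B has defect group P if and only if p does not divide the index of H in T. -/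
theorem result {G : Type*} [Group G] [Fintype G] (p : ℕ) [Fact p.Prime] (M : Ideal Cfsg.AlgInt) (hM : Cfsg.IsPModular p M) (P : Subgroup G) (hP : IsPGroup p P) (H : Subgroup G) [Fintype H] (hH : H = P ⊔ Subgroup.centralizer (P : Set G)) (b : Set (Cfsg.IrrCharacter H)) (hb : Cfsg.IsPBlock M b) (hbP : Cfsg.IsDefectGroup p M b (P.subgroupOf H)) (B : Set (Cfsg.IrrCharacter G)) (hind : Cfsg.IsInducedBlock M H b B) (T : Subgroup G) (hT : ∀ g : G, g ∈ T ↔ (g ∈ Subgroup.normalizer (P : Set G) ∧ ∀ θ ∈ b, ∀ θ' : Cfsg.IrrCharacter H, (∀ h h' : H, (h' : G) = g * h * g⁻¹ → (θ' : H → ℂ) h' = (θ : H → ℂ) h) → θ' ∈ b)) : Cfsg.IsDefectGroup p M B P ↔ ¬ p ∣ H.relIndex T := by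
  haveI := hM.2.1
  haveI : H9.PMod M p := ⟨hM⟩
  subst hH
  obtain ⟨-, hB, hi⟩ := H9.isInducedBlock_iff.1 hind
  have hp := (H9.isInd_sup_top_iff hP hi.right).1 hi
  have h1 := (H9.isDefectGroup_subgroupOf hb le_sup_left).1 hbP
  have hT' : T = H9.pstab ⊤ P (H9.eI M b) := by
    ext g
    rw [hT, H9.mem_pstab, and_iff_right (Subgroup.mem_top g)]
    exact and_congr_right fun hg => H9.stab_forall_iff
      (H9.mem_normalizer_iff_cg.1 (H9.normalizer_le_normalizer_sup P hg)) hb
  rw [H9.isDefectGroup_iff hB, hp.isDef_iff hi.right le_top, top_inf_eq, and_iff_right h1, hT']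

end Cfsg.Agent.S4437
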