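import Cfsg.Statements.S4440
import Mathlib
import Cfsg.Agent.H7.PSB

set_option autoImplicit false
open Cfsg

namespace Cfsg.Agent.S4440

/-- Let G be a finite p-solvable group and fix a maximal ideal M of the algebraic integers containing p. Let U be a set of irreducible characters of G such that the class function Σ_{χ ∈ U} χ(1)·χ vanishes at every p-singular element of G. Then U is a union of p-blocks: if χ ∈ U and ψ lies in the same block as χ, then ψ ∈ U. -/
theorem result {G : Type*} [Group G] [Finite G] (p : ℕ) [Fact p.Prime] (M : Ideal Cfsg.AlgInt) (hM : Cfsg.IsPModular p M) (hsolv : Cfsg.IsPSolvable p G) (U : Set (Cfsg.IrrCharacter G)) (hU : ∀ x : G, p ∣ orderOf x → ∑ᶠ χ ∈ U, (χ : G → ℂ) 1 * (χ : G → ℂ) x = 0) (χ : Cfsg.IrrCharacter G) (hχ : χ ∈ U) (ψ : Cfsg.IrrCharacter G) (hψ : Cfsg.SameBlock M (χ : G → ℂ) (ψ : G → ℂ)) : ψ ∈ U := by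
  classical
  haveI := hM.2.1
  haveI := Fintype.ofFinite (IrrCharacter G)
  have e : ∀ η : IrrCharacter G, H7.ip (∑ χ with χ ∈ U, χ.1 1 • χ.1) η = if η ∈ U then η.1 1 else 0 :=
    fun η => by
      rw [H7.ip_sum_left, Finset.sum_filter, Finset.sum_eq_single η _ (by simp)]
      · simp [H7.ip_smul_left, H7.ip_irr_self η.2]
      · intro b _ hb
        simp [H7.ip_smul_left, H7.ip_irr_ne b.2 η.2 (Subtype.coe_ne_coe.mpr hb)]
  have := H7.harada hM hsolv (H8.isPBlock_blockOf χ) (∑ χ with χ ∈ U, χ.1 1 • χ.1)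
    ⟨H7.cf_sum _ fun χ _ => H7.cf_smul _ (H7.irr_cf χ.2), fun η hη => by
      rw [e ⟨η, hη⟩]; split_ifs; exacts [Or.inl rfl, Or.inr rfl]⟩
    (fun x hx => by simpa [H8.finsum_mem_irr] using hU x hx) χ (H8.mem_blockOf_self χ) ψ hψ
    (by rw [e, if_pos hχ]; exact H7.irr_one_ne_zero χ.2)
  by_contra h
  simp [e, h] at this

end Cfsg.Agent.S4440
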