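import Cfsg.Statements.S4441
import Cfsg.Agent.H24.D1Fam

set_option autoImplicit false
open Cfsg

namespace Cfsg.Agent.S4441

/-- Let p be an odd prime and G a finite group whose Sylow p-subgroup P has order p; let C = C_G(P), N = N_G(P), e the index of C in N and t = (p − 1)/e; fix a maximal ideal M of the algebraic integers containing p and let B₀ be the principal block. Then B₀ is the disjoint union of a set X of e characters and a set Y of t characters such that: each χ ∈ X has a sign ε_χ with χ(1) ≡ ε_χ (mod p) and χ(x y) = ε_χ for every non-identity x ∈ P and every p-regular y ∈ C; all members of Y agree on the p-regular elements of G; there is one sign ε with θ(1) ≡ ε e (mod p) for every θ ∈ Y; and for every θ ∈ Y and every p-regular g, ε θ(g) = Σ_{χ ∈ X} ε_χ χ(g). -/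
theorem result {G : Type*} [Group G] [Fintype G] (p : ℕ) [Fact p.Prime] (M : Ideal Cfsg.AlgInt) (hM : Cfsg.IsPModular p M) (hodd : p ≠ 2) (P : Sylow p G) (hP : Nat.card P = p) (e : ℕ) (he : (Subgroup.centralizer ((P : Subgroup G) : Set G)).relIndex (Subgroup.normalizer ((P : Subgroup G) : Set G)) = e) : ∃ X Y : Set (Cfsg.IrrCharacter G), Cfsg.principalBlock M G = X ∪ Y ∧ Disjoint X Y ∧ Nat.card X = e ∧ Nat.card Y = (p - 1) / e ∧ ∃ (εX : Cfsg.IrrCharacter G → ℤ) (ε : ℤ), (∀ χ ∈ X, (εX χ = 1 ∨ εX χ = -1) ∧ (Cfsg.charDegree (χ : G → ℂ) : ℤ) ≡ εX χ [ZMOD p] ∧ ∀ x : G, x ∈ (P : Subgroup G) → x ≠ 1 → ∀ y : G, y ∈ Subgroup.centralizer ((P : Subgroup G) : Set G) → ¬ p ∣ orderOf y → (χ : G → ℂ) (x * y) = (εX χ : ℂ)) ∧ (ε = 1 ∨ ε = -1) ∧ (∀ θ ∈ Y, (Cfsg.charDegree (θ : G → ℂ) : ℤ) ≡ ε * (e : ℤ) [ZMOD p]) ∧ (∀ θ ∈ Y, ∀ θ' ∈ Y, ∀ g : G, ¬ p ∣ orderOf g → (θ : G → ℂ) g = (θ' : G → ℂ) g) ∧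 ∀ θ ∈ Y, ∀ g : G, ¬ p ∣ orderOf g → (ε : ℂ) * (θ : G → ℂ) g = ∑ᶠ χ ∈ X, (εX χ : ℂ) * (χ : G → ℂ) g := by
  obtain ⟨x, h, hx⟩ := H24.D1.exists_syl1 P hP
  have he' : (H24.D1.CC x).relIndex (H24.D1.NN x) = e := by
    rw [← he, H24.D1.CC, ← H8.centralizer_zpowers, H24.D1.NN, hx]
  obtain ⟨X, ψ, ε, δ, F, -⟩ := h.exists_fam_principal hM
  refine ⟨X, Set.range ψ, F.eq_union, F.disjoint, by rw [F.card_coe, h.card_AA_one, he'],
    by rw [F.card_range, h.card_AA_one, he'], ε, δ, fun χ hχ => ⟨F.sε χ hχ, F.degX₀ hχ,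
      fun u hu h1 y hy hy' => F.val₀ hχ ?_⟩, F.sδ, ?_, ?_, ?_⟩
  · by_contra hd
    have := H8.pPart_mul (H8.pElt_of_mem P.isPGroup' hu) hy' (hy u hu)
    exact h1 (this.symm.trans (H8.pPart_eq_one_iff.2 hd))
  · rintro _ ⟨j, rfl⟩
    rw [← he']; exact F.degY₀ j
  · rintro _ ⟨i, rfl⟩ _ ⟨j, rfl⟩ g hg
    exact F.reg_eq i j hg
  · rintro _ ⟨j, rfl⟩ g hg
    rw [finsum_mem_coe_finset]
    exact F.reg j hg

end Cfsg.Agent.S4441
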