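import Cfsg.Statements.S4442
import Cfsg.Agent.H24.D1Fam

set_option autoImplicit false
open Cfsg

namespace Cfsg.Agent.S4442

/-- Blocks of defect one. Let p be an odd prime and G a finite group whose Sylow p-subgroup P has order p; let C = C_G(P) and N = N_G(P), and fix a maximal ideal M of the algebraic integers containing p. Let B be a block of G with defect group P, b a block of C inducing B, and θ the member of b having P in its kernel (there is exactly one). Let T be the stabilizer of θ in N (the elements g ∈ N with θ(g c g⁻¹) = θ(c) for all c ∈ C) and e the index of C in T. Then e divides p − 1 and B contains exactly e + (p − 1)/e irreducible characters. Moreover B is the disjoint union of a set X of e characters and a set Y of (p − 1)/e characters such that, with f the index of C in N: every χ ∈ X has χ(1) ≡ ±(f/e)·θ(1) (mod p), there is one sign ε with ψ(1) ≡ ε f θ(1) (mod p) for all ψ ∈ Y, and all members of Y agree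 on the p-regular elements of G. -/
theorem result {G : Type*} [Group G] [Finite G] (p : ℕ) [Fact p.Prime] (M : Ideal Cfsg.AlgInt) (hM : Cfsg.IsPModular p M) (hodd : p ≠ 2) (P : Sylow p G) (hP : Nat.card P = p) (B : Set (Cfsg.IrrCharacter G)) (hB : Cfsg.IsPBlock M B) (hBP : Cfsg.IsDefectGroup p M B P) (b : Set (Cfsg.IrrCharacter (Subgroup.centralizer ((P : Subgroup G) : Set G)))) (hind : Cfsg.IsInducedBlock M (Subgroup.centralizer ((P : Subgroup G) : Set G)) b B) (θ : Cfsg.IrrCharacter (Subgroup.centralizer ((P : Subgroup G) : Set G))) (hθ : θ ∈ b) (hθP : ∀ x : Subgroup.centralizer ((P : Subgroup G) : Set G), (x : G) ∈ (P : Subgroup G) → (θ : Subgroup.centralizer ((P : Subgroup G) : Set G) → ℂ) x = (θ : Subgroup.centralizer ((P : Subgroup G) : Set G) → ℂ) 1) (T : Subgroup G) (hT : ∀ g : G, g ∈ T ↔ (g ∈ Subgroup.normalizer ((P : Subgroup G) : Set G) ∧ ∀ c c' : Subgroup.centralizer ((P : Subgroup G) : Set G), (c' : G) = g * c * g⁻¹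 → (θ : Subgroup.centralizer ((P : Subgroup G) : Set G) → ℂ) c' = (θ : Subgroup.centralizer ((P : Subgroup G) : Set G) → ℂ) c)) (e f : ℕ) (he : (Subgroup.centralizer ((P : Subgroup G) : Set G)).relIndex T = e) (hf : (Subgroup.centralizer ((P : Subgroup G) : Set G)).relIndex (Subgroup.normalizer ((P : Subgroup G) : Set G)) = f) : e ∣ p - 1 ∧ Nat.card B = e + (p - 1) / e ∧ ∃ X Y : Set (Cfsg.IrrCharacter G), B = X ∪ Y ∧ Disjoint X Y ∧ Nat.card X = e ∧ Nat.card Y = (p - 1) / e ∧ (∀ χ ∈ X, (Cfsg.charDegree (χ : G → ℂ) : ℤ) ≡ ((f / e * Cfsg.charDegree (θ : Subgroup.centralizer ((P : Subgroup G) : Set G) → ℂ) : ℕ) : ℤ) [ZMOD p] ∨ (Cfsg.charDegree (χ : G → ℂ) : ℤ) ≡ -((f / e * Cfsg.charDegree (θ : Subgroup.centralizer ((P : Subgroup G) : Set G) → ℂ) : ℕ) : ℤ) [ZMOD p]) ∧ (∃ ε : ℤ, (ε = 1 ∨ ε = -1) ∧ ∀ ψ ∈ Y, (Cfsg.charDegree (ψ : G → ℂ) : ℤ) ≡ ε * ((f * Cfsg.charDegree (θ : Subgroup.centralizer ((P : Subgroup G) : Set G) → ℂ) : ℕ) : ℤ)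 [ZMOD p]) ∧ ∀ ψ ∈ Y, ∀ ψ' ∈ Y, ∀ g : G, ¬ p ∣ orderOf g → (ψ : G → ℂ) g = (ψ' : G → ℂ) g := by
  obtain ⟨x, h, hx⟩ := H24.D1.exists_syl1 P hP
  haveI := hM.2.1
  haveI : H9.PMod M p := ⟨hM⟩
  have hC : Subgroup.centralizer ((P : Subgroup G) : Set G) = H24.D1.CC x := by
    rw [H24.D1.CC, ← H8.centralizer_zpowers, hx]
  have hN : Subgroup.normalizer ((P : Subgroup G) : Set G) = H24.D1.NN x := by
    rw [H24.D1.NN, hx]
  have hxP : x ∈ (P : Subgroup G) := hx ▸ Subgroup.mem_zpowers x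
  revert b θ
  rw [hN] at hf ⊢
  generalize Subgroup.centralizer ((P : Subgroup G) : Set G) = C at *
  subst hC
  intro b hind θ hθ hθP hT
  have hθi : θ ∈ H8.indSet M (H24.D1.CC x) B :=
    (h.mem_indSet_iff hB).2 (H8.block_eq_blockOf hind.1 hθ ▸ hind)
  have ht : H24.D1.Triv x θ.1 := (H6.mem_charKer_iff_irr θ.2).2 (hθP _ hxP)
  obtain ⟨X, ψ, ε, δ, F, -⟩ := h.exists_fam hB hθi ht (H8.irrOne G)
  have hTe : T = (H24.D1.TT x θ.1).map (H24.D1.NN x).subtype := by
    ext g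
    rw [hT]
    constructor
    · rintro ⟨h1, h2⟩
      exact ⟨⟨g, h1⟩, H24.D1.mem_TT.2 h2, rfl⟩
    · rintro ⟨n, hn, rfl⟩
      exact ⟨n.2, H24.D1.mem_TT.1 hn⟩
  rw [hTe, h.relIndex_TT] at he
  subst he hf
  refine ⟨Dvd.intro_left _ F.card_range_mul, F.card_eq, X, Set.range ψ, F.eq_union, F.disjoint,
    F.card_coe, F.card_range, fun χ hχ => ?_, ⟨δ, F.sδ, ?_⟩, ?_⟩
  · have := F.degX hχ
    rcases F.sε χ hχ with h2 | h2 <;> rw [h2] at this <;> simp only [one_mul, neg_mul] at this <;>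
      tauto
  · rintro _ ⟨j, rfl⟩
    exact F.degY j
  · rintro _ ⟨i, rfl⟩ _ ⟨j, rfl⟩ g hg
    exact F.reg_eq i j hg

end Cfsg.Agent.S4442
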