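import Cfsg.Statements.S4443
import Mathlib
import Cfsg.Agent.H8.Robinson

set_option autoImplicit false
open Cfsg

namespace Cfsg.Agent.S4443

/-- Let D be a normal p-subgroup of the finite group G, of order p^d, let p^a be the p-part of the order of G, and fix a Sylow p-subgroup S and a maximal ideal M of the algebraic integers containing p. Index by a finite type ι (via an injective map K) exactly the conjugacy classes of p-regular elements x of G for which D is a Sylow p-subgroup of C_G(x). For classes K_i, K_j let ω(i, j) be the number of pairs (y, z) ∈ K_i × K_j with z y⁻¹ ∈ S; this number is divisible by p^(a−d). Then the number of p-blocks of G having D as a defect group equals the rank over ℤ/pℤ of the matrix with (i, j) entry ω(i, j)/p^(a−d) reduced modulo p. -/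
theorem result {G : Type*} [Group G] [Finite G] (p : ℕ) [Fact p.Prime] (M : Ideal Cfsg.AlgInt) (hM : Cfsg.IsPModular p M) (D : Subgroup G) [D.Normal] (hD : IsPGroup p D) (S : Sylow p G) {ι : Type*} [Fintype ι] [DecidableEq ι] (K : ι → ConjClasses G) (hKinj : Function.Injective K) (hK : ∀ C : ConjClasses G, (∃ i, K i = C) ↔ ∃ x ∈ C.carrier, ¬ p ∣ orderOf x ∧ ∃ Q : Sylow p (Subgroup.centralizer ({x} : Set G)), (Q : Subgroup (Subgroup.centralizer ({x} : Set G))).map (Subgroup.centralizer ({x} : Set G)).subtype = D) : Nat.card {B : Set (Cfsg.IrrCharacter G) // Cfsg.IsPBlock M B ∧ Cfsg.IsDefectGroup p M B D} = (Matrix.of fun i j : ι => ((Nat.card {yz : G × G // yz.1 ∈ (K i).carrier ∧ yz.2 ∈ (K j).carrier ∧ yz.2 * yz.1⁻¹ ∈ (S : Subgroup G)} / p ^ ((Nat.card G).factorization p - (Nat.card D).factorization p) : ℕ) : ZMod p)).rank := by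
  classical
  have := hM.2.1
  have := H8.charP_resField hM
  have := Fintype.ofFinite (H8.BlkD M p D)
  choose x hx h1 h2 using fun i => (hK (K i)).1 ⟨i, rfl⟩
  simp only [H8.exists_sylow_map_eq_iff] at h2 hK
  simp only [ConjClasses.mem_carrier_iff_mk_eq] at hx hK ⊢
  obtain ⟨u, hu, h3⟩ := H8.robinson_matrix hM S x h2
  have h4 := H8.lamMat_mul_coefMat hM (D := D) x (fun i j h => hKinj (by
    rw [← hx, ← hx, ConjClasses.mk_eq_mk_iff_isConj.2 h])) fun g hg hg' => by
      obtain ⟨i, hi⟩ := (hK _).2 ⟨g, rfl, hg, hg'⟩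
      exact ⟨i, ConjClasses.mk_eq_mk_iff_isConj.1 ((hx i).trans hi)⟩
  simp only [fun i => H8.pReg_of_not_dvd (h1 i)] at h3
  rw [← H8.rank_map_field (ZMod.castHom (dvd_refl p) (H8.resField M)), Nat.card_eq_fintype_card,
    ← H8.rank_mul_of_mul_eq_one h4, ← Matrix.rank_mul_eq_right_of_det_ne_zero (Matrix.diagonal u) _
      (by rw [Matrix.det_diagonal]; exact Finset.prod_ne_zero_iff.2 fun i _ => hu i), ← h3]
  congr 1
  ext i j
  simp only [Matrix.map_apply, Matrix.of_apply, map_natCast, H8.robN, ← hx,
    ConjClasses.mk_eq_mk_iff_isConj, isConj_comm]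

end Cfsg.Agent.S4443
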