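import Cfsg.Statements.S4444
import Mathlib
import Cfsg.Agent.H7.GlP

set_option autoImplicit false
open Cfsg

namespace Cfsg.Agent.S4444

open Cfsg.Agent.H7

/-- The Glauberman correspondence for a p-group of operators. Inside a finite group Γ let S normalise G with the orders of G and S coprime, S a p-group, and let C = G ⊓ C(S) be the fixed points. Call an irreducible character χ of G S-invariant when χ(s g s⁻¹) = χ(g) for s ∈ S, g ∈ G. Then: (i) for every S-invariant χ there is exactly one irreducible character β of C whose multiplicity [χ_C, β] in the restriction of χ is not divisible by p; (ii) that multiplicity is ≡ 1 or ≡ −1 (mod p); (iii) distinct S-invariant χ give distinct β; (iv) every irreducible character of C arises in this way. So χ ↦ β is a bijection from the S-invariant irreducible characters of G onto the irreducible characters of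 C. -/
theorem result {Γ : Type*} [Group Γ] [Fintype Γ] (G S : Subgroup Γ) [Fintype G] (hnorm : ∀ s ∈ S, ∀ g ∈ G, s * g * s⁻¹ ∈ G) (hcop : (Nat.card G).Coprime (Nat.card S)) (p : ℕ) (hp : p.Prime) (hS : IsPGroup p S) (C : Subgroup Γ) [Fintype C] (hC : C = G ⊓ Subgroup.centralizer (S : Set Γ)) (hCG : C ≤ G) : (∀ χ : Cfsg.IrrCharacter G, (∀ s ∈ S, ∀ g g' : G, (g' : Γ) = s * g * s⁻¹ → (χ : G → ℂ) g' = (χ : G → ℂ) g) → ∃! β : Cfsg.IrrCharacter C, ∃ m : ℕ, Cfsg.classInner (fun c : C => (χ : G → ℂ) ⟨c, hCG c.2⟩) (β : C → ℂ) = (m : ℂ) ∧ ¬ p ∣ m) ∧ (∀ χ : Cfsg.IrrCharacter G, (∀ s ∈ S, ∀ g g' : G, (g' : Γ) = s * g * s⁻¹ → (χ : G → ℂ) g' = (χ : G → ℂ) g) → ∀ β : Cfsg.IrrCharacter C, ∀ m : ℕ, Cfsg.classInner (fun c : C => (χ : G → ℂ) ⟨c, hCG c.2⟩) (β : C → ℂ) = (m : ℂ) → ¬ p ∣ m → ((m : ℤ) ≡ 1 [ZMOD p] ∨ (m : ℤ) ≡ -1 [ZMOD p])) ∧ (∀ χ χ' : Cfsg.IrrCharacter G,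 (∀ s ∈ S, ∀ g g' : G, (g' : Γ) = s * g * s⁻¹ → (χ : G → ℂ) g' = (χ : G → ℂ) g) → (∀ s ∈ S, ∀ g g' : G, (g' : Γ) = s * g * s⁻¹ → (χ' : G → ℂ) g' = (χ' : G → ℂ) g) → ∀ β : Cfsg.IrrCharacter C, ∀ m m' : ℕ, Cfsg.classInner (fun c : C => (χ : G → ℂ) ⟨c, hCG c.2⟩) (β : C → ℂ) = (m : ℂ) → ¬ p ∣ m → Cfsg.classInner (fun c : C => (χ' : G → ℂ) ⟨c, hCG c.2⟩) (β : C → ℂ) = (m' : ℂ) → ¬ p ∣ m' → χ = χ') ∧ (∀ β : Cfsg.IrrCharacter C, ∃ χ : Cfsg.IrrCharacter G, (∀ s ∈ S, ∀ g g' : G, (g' : Γ) = s * g * s⁻¹ → (χ : G → ℂ) g' = (χ : G → ℂ) g) ∧ ∃ m : ℕ, Cfsg.classInner (fun c : C => (χ : G → ℂ) ⟨c, hCG c.2⟩) (β : C → ℂ) = (m : ℂ) ∧ ¬ p ∣ m) := by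
  have h : CopAct S G C := ⟨hnorm, hcop, hC⟩
  have hG := h.glP hp hS
  have key : ∀ (χ : IrrCharacter G), SInv S G χ → ∀ (β : IrrCharacter C) (m : ℕ),
      classInner (fun c : C => (χ : G → ℂ) ⟨c, hCG c.2⟩) (β : C → ℂ) = m → ¬ p ∣ m →
      PCong p (fun c => (χ : G → ℂ) (Subgroup.inclusion h.le c)) β := by
    intro χ hχ β m hm hpm
    obtain ⟨γ, hγ, e⟩ := hG.ex χ χ.2 hχ
    rw [← ip_eq_classInner] at hm
    rwa [← e.eq_of_not_dvd hγ β.2 (m := m) hm (by exact_mod_cast hpm)]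
  have key2 : ∀ (χ : IrrCharacter G) (β : IrrCharacter C),
      PCong p (fun c => (χ : G → ℂ) (Subgroup.inclusion h.le c)) β → ∃ m : ℕ,
      classInner (fun c : C => (χ : G → ℂ) ⟨c, hCG c.2⟩) (β : C → ℂ) = m ∧ ¬ p ∣ m := by
    intro χ β e
    obtain ⟨m, hm⟩ := ip_char_nat (char_comp (Subgroup.inclusion h.le) (irr_char χ.2))
      (irr_char β.2)
    exact ⟨m, by rw [← ip_eq_classInner]; exact hm,
      by exact_mod_cast e.not_dvd hp β.2 (m := m) hm⟩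
  refine ⟨fun χ hχ => ?_, fun χ hχ β m hm hpm => ?_, fun χ χ' hχ hχ' β m m' h1 h2 h3 h4 => ?_,
    fun β => ?_⟩
  · obtain ⟨β, hβ, e⟩ := hG.ex χ χ.2 hχ
    refine ⟨⟨β, hβ⟩, key2 χ ⟨β, hβ⟩ e, ?_⟩
    rintro γ ⟨m, h1, h2⟩
    exact Subtype.ext ((key χ hχ γ m h1 h2).unique hp e γ.2 hβ)
  · exact (key χ hχ β m hm hpm).ip_self β.2 (by rw [ip_eq_classInner]; exact hm)
  · exact Subtype.ext (hG.inj _ _ _ χ.2 hχ χ'.2 hχ' β.2 (key χ hχ β m h1 h2)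
      (key χ' hχ' β m' h3 h4))
  · obtain ⟨χ, hχ, h1, e⟩ := hG.surj β β.2
    exact ⟨⟨χ, hχ⟩, h1, key2 ⟨χ, hχ⟩ β e⟩

end Cfsg.Agent.S4444
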