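import Cfsg.Statements.S4446
import Mathlib
import Cfsg.Agent.H7.GlCyc

set_option autoImplicit false
open Cfsg

namespace Cfsg.Agent.S4446

open Cfsg.Agent.H7

/-- Let the finite group Γ be generated by a normal subgroup G and a cyclic subgroup S of coprime orders, C = G ⊓ C(S), and let χ be an S-invariant irreducible character of G with canonical extension χ̂ to Γ (the extension whose determinantal order is coprime to the order of S). Then there are exactly one irreducible character β of C and one sign ε such that χ̂(c s) = ε β(c) for every c ∈ C and every generator s of S; this β is a constituent of the restriction of χ to C; distinct S-invariant χ give distinct β; and every irreducible character of C arises in this way. -/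
theorem result {Γ : Type*} [Group Γ] [Fintype Γ] (G S : Subgroup Γ) [Fintype G] (hnorm : ∀ s ∈ S, ∀ g ∈ G, s * g * s⁻¹ ∈ G) (hcop : (Nat.card G).Coprime (Nat.card S)) (htop : G ⊔ S = ⊤) (hcyc : IsCyclic S) (C : Subgroup Γ) [Fintype C] (hC : C = G ⊓ Subgroup.centralizer (S : Set Γ)) (hCG : C ≤ G) : (∀ (χ : Cfsg.IrrCharacter G) (χh : Cfsg.IrrCharacter Γ), (∀ s ∈ S, ∀ g g' : G, (g' : Γ) = s * g * s⁻¹ → (χ : G → ℂ) g' = (χ : G → ℂ) g) → (∀ g : G, (χh : Γ → ℂ) g = (χ : G → ℂ) g) → (Cfsg.detOrder (χh : Γ → ℂ)).Coprime (Nat.card S) → (∃! βε : Cfsg.IrrCharacter C × ℤ, (βε.2 = 1 ∨ βε.2 = -1) ∧ ∀ c : C, ∀ s : Γ, Subgroup.zpowers s = S → (χh : Γ → ℂ) ((c : Γ) * s) = (βε.2 : ℂ) * (βε.1 : C → ℂ) c) ∧ ∀ β : Cfsg.IrrCharacter C, ∀ ε : ℤ, (ε = 1 ∨ ε = -1) → (∀ c : C, ∀ s : Γ, Subgroup.zpowers s = S → (χh : Γ → ℂ) ((c : Γ) * s) = (ε : ℂ) * (β : C → ℂ) c) → Cfsg.classInner (fun c : C => (χ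 : G → ℂ) ⟨c, hCG c.2⟩) (β : C → ℂ) ≠ 0) ∧ (∀ (χ χ' : Cfsg.IrrCharacter G) (χh χh' : Cfsg.IrrCharacter Γ), (∀ s ∈ S, ∀ g g' : G, (g' : Γ) = s * g * s⁻¹ → (χ : G → ℂ) g' = (χ : G → ℂ) g) → (∀ s ∈ S, ∀ g g' : G, (g' : Γ) = s * g * s⁻¹ → (χ' : G → ℂ) g' = (χ' : G → ℂ) g) → (∀ g : G, (χh : Γ → ℂ) g = (χ : G → ℂ) g) → (∀ g : G, (χh' : Γ → ℂ) g = (χ' : G → ℂ) g) → (Cfsg.detOrder (χh : Γ → ℂ)).Coprime (Nat.card S) → (Cfsg.detOrder (χh' : Γ → ℂ)).Coprime (Nat.card S) → ∀ β : Cfsg.IrrCharacter C, ∀ ε ε' : ℤ, (ε = 1 ∨ ε = -1) → (ε' = 1 ∨ ε' = -1) → (∀ c : C, ∀ s : Γ, Subgroup.zpowers s = S → (χh : Γ → ℂ) ((c : Γ) * s) = (ε : ℂ) * (β : C → ℂ) c) → (∀ c : C, ∀ s : Γ, Subgroup.zpowers s = S → (χh' : Γ → ℂ) ((c : Γ) * s) = (ε' : ℂ) * (β : C → ℂ) c) → χ = χ') ∧ (∀ β : Cfsg.IrrCharacter C, ∃ (χ : Cfsg.IrrCharacter G) (χh : Cfsg.IrrCharacter Γ) (ε : ℤ), (∀ s ∈ S, ∀ g g' : G, (g' : Γ) = s *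 g * s⁻¹ → (χ : G → ℂ) g' = (χ : G → ℂ) g) ∧ (∀ g : G, (χh : Γ → ℂ) g = (χ : G → ℂ) g) ∧ (Cfsg.detOrder (χh : Γ → ℂ)).Coprime (Nat.card S) ∧ (ε = 1 ∨ ε = -1) ∧ ∀ c : C, ∀ s : Γ, Subgroup.zpowers s = S → (χh : Γ → ℂ) ((c : Γ) * s) = (ε : ℂ) * (β : C → ℂ) c) := by
  have hn : G.Normal := by
    rw [← Subgroup.normalizer_eq_top_iff, eq_top_iff, ← htop]
    exact sup_le Subgroup.le_normalizer fun s hs => Subgroup.mem_normalizer_fintype (hnorm s hs)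
  have hf := isNE_subtype G
  have hcyc' : ∀ s, Subgroup.zpowers s = S → CycSet G.subtype (Subgroup.inclusion hCG) s :=
    fun s hs => ⟨hf, Subgroup.inclusion_injective _, by rwa [← Nat.card_zpowers, hs], fun g => by
      rw [Subgroup.inclusion_range, Subgroup.mem_subgroupOf, hC, ← hs,
        Subgroup.zpowers_eq_closure, Subgroup.centralizer_closure, Subgroup.mem_inf,
        Subgroup.mem_centralizer_singleton_iff]
      exact ⟨fun h => h.2, fun h => ⟨g.2, h⟩⟩⟩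
  have hgen : ∀ s, Subgroup.zpowers s = S → ∀ x, ∃ (k : ℤ) (n : G), x = s ^ k * G.subtype n := by
    intro s hs x
    have : x ∈ ((S ⊔ G : Subgroup Γ) : Set Γ) := by rw [sup_comm, htop]; trivial
    rw [Subgroup.mul_normal] at this
    obtain ⟨a, ha, b, hb, rfl⟩ := this
    rw [← hs] at ha
    obtain ⟨k, rfl⟩ := ha
    exact ⟨k, ⟨b, hb⟩, rfl⟩
  obtain ⟨s, hs⟩ := (Subgroup.isCyclic_iff_exists_zpowers_eq_top S).mp hcyc
  have h := hcyc' s hs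
  have gen := hgen s hs
  have ho : Nat.card S = orderOf s := by rw [← hs, Nat.card_zpowers]
  have hε : ∀ ε : ℤ, (ε = 1 ∨ ε = -1) → (ε : ℂ) ≠ 0 := by rintro _ (rfl | rfl) <;> simp
  have hall : ∀ {χ : G → ℂ} {χh : Γ → ℂ}, IsIrrCharacter G χ → IsCharacter Γ χh →
      (∀ g : G, χh g = χ g) → (detOrder χh).Coprime (Nat.card S) → ∀ (c : C) (t : Γ),
      Subgroup.zpowers t = S → χh (c * t) = χh (c * s) := by
    intro χ χh hχ h1 h2 h3 c t ht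
    obtain ⟨m, rfl⟩ : ∃ m : ℕ, s ^ m = t := by
      rw [← Submonoid.mem_powers_iff, mem_powers_iff_mem_zpowers, hs, ← ht]
      exact Subgroup.mem_zpowers t
    refine h.canExt_pow gen hχ h1 h2 (ho ▸ h3) ?_ c
    have : orderOf (s ^ m) = orderOf s := by rw [← ho, ← ht, Nat.card_zpowers]
    rw [orderOf_pow] at this
    rw [Nat.Coprime, Nat.gcd_comm]
    exact ((Nat.div_eq_self.mp this).resolve_left (orderOf_pos s).ne')
  refine ⟨fun χ χh _ h2 h3 => ⟨?_, fun β ε hε' e => ?_⟩, ?_, fun β => ?_⟩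
  · obtain ⟨ε, β, h4, h5, h6⟩ := h.exists_corr gen χ.2 (irr_char χh.2) h2 (ho ▸ h3)
    refine ⟨(⟨β, h5⟩, ε), ⟨h4, fun c t ht => (hall χ.2 (irr_char χh.2) h2 h3 c t ht).trans (h6 c)⟩,
      ?_⟩
    rintro ⟨β', ε'⟩ ⟨h7, h8⟩
    have e : (ε' : ℂ) • (β' : C → ℂ) = (ε : ℂ) • β := funext fun c => (h8 c s hs).symm.trans (h6 c)
    have e1 := congrArg (ip · β) e
    simp only [ip_smul_left, ip_irr_self h5, mul_one] at e1
    have e2 := irr_eq_of_ip_ne_zero β'.2 h5 (fun h0 => hε ε h4 (by rw [← e1, h0, mul_zero]))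
    rw [e2, ip_irr_self h5, mul_one, Int.cast_inj] at e1
    exact Prod.ext (Subtype.ext e2) e1
  · obtain ⟨l, -, h4, h5⟩ := exists_roots_of_commute (irr_char χh.2)
      (G.subtype.comp (Subgroup.inclusion hCG)) h.commute (irr_char β.2)
    have e1 : (fun c : C => (χh : Γ → ℂ) ((G.subtype.comp (Subgroup.inclusion hCG)) c * s)) =
        (ε : ℂ) • (β : C → ℂ) := funext fun c => e c s hs
    rw [e1, ip_smul_left, ip_irr_self β.2, mul_one] at h4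
    have e2 : (fun c : C => (χh : Γ → ℂ) ((G.subtype.comp (Subgroup.inclusion hCG)) c)) =
        fun c : C => (χ : G → ℂ) ⟨c, hCG c.2⟩ := funext fun c => h2 ⟨c, hCG c.2⟩
    rw [← ip_eq_classInner, ← e2, h5, Nat.cast_ne_zero, Ne, Multiset.card_eq_zero]
    rintro rfl
    exact hε ε hε' (by simpa using h4)
  · intro χ χ' χh χh' _ _ h1 h2 _ _ β ε ε' h3 h4 h5 h6
    exact Subtype.ext (h.corr_inj χ.2 χ'.2 (irr_char χh.2) (irr_char χh'.2) h1 h2 (hε ε h3)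
      (hε ε' h4) β.2 (fun c => h5 c s hs) (fun c => h6 c s hs))
  · obtain ⟨χh, ε, h1, h2, h3, h4, h5⟩ := h.corr_surj gen β.2
    refine ⟨⟨_, h2⟩, ⟨χh, h1⟩, ε, fun t _ g g' e => ?_, fun _ => rfl, ho ▸ h3, h4, fun c t ht => ?_⟩
    · change χh g' = χh g
      rw [e, irr_cf h1]
    · exact (hall h2 (irr_char h1) (fun _ => rfl) (ho ▸ h3) c t ht).trans (h5 c)

end Cfsg.Agent.S4446
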