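import Cfsg.Statements.S4450
import Mathlib
import Cfsg.Agent.H7.McKay2
import Cfsg.Agent.H7.BL

set_option autoImplicit false
open Cfsg

namespace Cfsg.Agent.S4450

open H7

theorem central {Q : Type*} [Group Q] [Finite Q] {U Z : Subgroup Q} [hU : U.Normal] (h : Z ≤ U)
    (hZ : Z ≤ Subgroup.center Q) (hc : U.index.Coprime (Z.relIndex U))
    (hs : Group.IsSolvable (Q ⧸ U)) (lam : Z →* ℂˣ) :
    ∃ β, IsIrrCharacter U β ∧ SInv ⊤ U β ∧ Ov h β (linFun lam) := by
  obtain ⟨a, b, ha, hb, e⟩ := exists_pi_decomp {q | q ∣ Z.relIndex U}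
    (Nat.card_pos (α := U)).ne'
  obtain ⟨c, hc1, hc2⟩ := exists_piExp (ha.coprime hb)
  have nU : Nrm ⊤ U := fun g _ x hx => hU.conj_mem x hx g
  have nZ : Nrm ⊤ Z := nrm_of_cent (Subgroup.le_centralizer_iff.mp
    (hZ.trans (Subgroup.center_le_centralizer _)))
  obtain ⟨ρ, hρ⟩ := exists_powHom_of_center (G := U) (a := c) (by
    have : (Subgroup.center U).index ∣ Z.relIndex U := Subgroup.index_dvd_of_le fun x hx =>
      Subgroup.mem_center_iff.mpr fun y => Subtype.ext (Subgroup.mem_center_iff.mp (hZ hx) y)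
    exact (((H1.isPiNum_dvd_self _).of_dvd this).dvd_of_dvd_mul hb
      (e ▸ Subgroup.index_dvd_card _)).trans hc1)
  set V := ρ.ker.map U.subtype
  have hV : V ≤ U := Subgroup.map_subtype_le _
  have mem : ∀ x, x ∈ V ↔ x ∈ U ∧ x ^ c = 1 := fun x =>
    ⟨by rintro ⟨y, hy, rfl⟩; exact ⟨y.2, congrArg Subtype.val ((hρ y).symm.trans hy)⟩,
      fun ⟨h1, h2⟩ => ⟨⟨x, h1⟩, (hρ _).trans (Subtype.ext h2), rfl⟩⟩
  haveI : V.Normal := ⟨fun x hx g => (mem _).mpr ⟨hU.conj_mem x (hV hx) g, by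
    rw [conj_pow, ((mem x).mp hx).2]; simp⟩⟩
  have nV : Nrm ⊤ V := fun g _ x hx => ‹V.Normal›.conj_mem x hx g
  have h1 : V.relIndex U ∣ b := by
    rw [Subgroup.relIndex, Subgroup.subgroupOf, Subgroup.comap_map_eq_self_of_injective
      U.subtype_injective, Subgroup.index_ker]
    exact card_range_powHom (ha.coprime hb) e.dvd hc1 hρ
  have h2 : H1.IsPiNum {q | q ∣ Z.relIndex U} (Nat.card V) := fun q hq hd => by
    haveI := Fact.mk hq
    obtain ⟨x, hx⟩ := exists_prime_orderOf_dvd_card' q hd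
    have h3 : q ∣ c := by
      rw [← hx, ← Subgroup.orderOf_coe]
      exact orderOf_dvd_of_pow_eq_one ((mem x).mp x.2).2
    refine (hq.dvd_mul.mp (e ▸ hd.trans (Subgroup.card_dvd_of_le hV))).elim (ha q hq) fun h4 => ?_
    exact absurd (Nat.dvd_one.mp (((hc2.of_dvd h4).dvd_iff dvd_rfl).mp h3)) hq.one_lt.ne'
  have h3 : H1.IsPiNum {q | q ∣ Z.relIndex U}ᶜ V.index := by
    rw [← Subgroup.relIndex_mul_index hV]
    exact (hb.of_dvd h1).mul (H1.isPiNum_compl_of_coprime hc)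
  obtain ⟨S, hS⟩ := Subgroup.exists_right_complement'_of_coprime (h2.coprime h3)
  have h4 : Nat.card S = V.index := hS.symm.index_eq_card.symm
  have hs' : Group.IsSolvable S := by
    let φ := (QuotientGroup.mk' U).comp S.subtype
    have h5 : ∀ x : φ.ker, ((x : S) : Q) ∈ Subgroup.center Q := fun x =>
      hZ ((nZ.mono le_top).mem_of_coprime ((QuotientGroup.eq_one_iff _).mp x.2)
        ((H1.isPiNum_dvd_self _).coprime ((h4 ▸ h3).of_dvd
          (Subgroup.orderOf_dvd_natCard S x.1.2))).symm)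
    haveI := Group.isSolvable_of_comm (G := φ.ker) fun x y => Subtype.ext (Subtype.ext
      (Subgroup.mem_center_iff.mp (h5 y) x))
    exact Group.isSolvable_of_ker_le_range φ.ker.subtype φ (by simp)
  have e1 : Z ⊔ V = U := le_antisymm (sup_le h hV) (Subgroup.relIndex_eq_one.mp
    (((H1.isPiNum_dvd_self _).of_dvd (Subgroup.relIndex_dvd_of_le_left _ le_sup_left)).eq_one
      (hb.of_dvd ((Subgroup.relIndex_dvd_of_le_left _ le_sup_right).trans h1))))
  have X := sq_inclusion h hV (nZ.mono le_top) e1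
  have i1 : SInv ⊤ Z (linFun lam) :=
    sInv_of_centralizer (hZ.trans (Subgroup.center_le_centralizer _)) _
  have i2 : X.ne.Inv (linFun lam) := (inv_inclusion_iff _ _ _).mpr (i1.mono le_top)
  have i3 := irr_linFun (lam.comp (Subgroup.inclusion (inf_le_left : Z ⊓ V ≤ Z)))
  obtain ⟨χ, h5, h6, h7⟩ := exists_sInv_over hs' (nV.mono le_top) (h4 ▸ h2.coprime h3)
    inf_le_right ((nZ.inf_right nV).mono le_top) ((nZ.inf_right nV).mono le_top) i3
    ((i1.mono le_top).res _)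
  obtain ⟨β, h8, h9, h10⟩ := X.exists_over (irr_linFun lam) h5 h7
  have h11 := (X.res_eq (irr_linFun lam) i2 i3 h8 h10 h5 h9).1
  have h12 : SInv ⊤ V χ := hS.sup_eq_top ▸ (sInv_self (irr_cf h5)).sup h6 (nrm_self V)
    (nV.mono le_top)
  refine ⟨β, h8, (sInv_iff nU).mpr fun x hx => X.res_inj (irr_linFun lam) i2 i3 (irr_cjHom _ _ h8)
    ?_ h8 h10 ?_, h10⟩
  · rw [← (sInv_iff nZ).mp i1 x hx]
    exact fun a => h10 ((ip_cjHom x (nZ x hx) _ _).symm.trans a)
  · rw [h11, ← (sInv_iff nV).mp h12 x hx, ← h11]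
    rfl

/-- Let N ≤ G be normal subgroups of the finite group Γ with the index of G in Γ coprime to the index of N in G, and Γ/G or G/N solvable. Then for every irreducible character ϑ of N invariant under conjugation by Γ, the induced character ϑ^G has an irreducible constituent invariant under conjugation by Γ. -/
theorem result {Γ : Type*} [Group Γ] [Fintype Γ] (G N : Subgroup Γ) [hG : G.Normal] [hN : N.Normal] [Fintype G] [Fintype N] (hNG : N ≤ G) (hcop : (G.index).Coprime (N.relIndex G)) (hsolv : Group.IsSolvable (Γ ⧸ G) ∨ Group.IsSolvable (G ⧸ N.subgroupOf G)) (θ : Cfsg.IrrCharacter N) (hinv : ∀ (x : Γ) (n : N), (θ : N → ℂ) ⟨x * n * x⁻¹, hN.conj_mem n n.2 x⟩ = (θ : N → ℂ) n) : ∃ χ : Cfsg.IrrCharacter G, Cfsg.classInner (fun n : N => (χ : G → ℂ) ⟨n, hNG n.2⟩) (θ : N → ℂ) ≠ 0 ∧ ∀ (x : Γ) (g : G), (χ : G → ℂ) ⟨x * g * x⁻¹, hG.conj_mem g g.2 x⟩ = (χ : G → ℂ) g := by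
  have nG : Nrm ⊤ G := fun g _ x hx => hG.conj_mem x hx g
  have nN : Nrm ⊤ N := fun g _ x hx => hN.conj_mem x hx g
  have hi : SInv ⊤ N θ := fun s _ g g' e => by rw [← hinv s g]; exact congrArg _ (Subtype.ext e)
  suffices H : ∃ χ, IsIrrCharacter G χ ∧ SInv ⊤ G χ ∧ Ov hNG χ θ by
    obtain ⟨χ, h1, h2, h3⟩ := H
    exact ⟨⟨χ, h1⟩, ip_eq_classInner (G := N) _ _ ▸ h3, fun x g => h2 x trivial _ _ rfl⟩
  rcases hsolv with hs | hs
  · have hf := isNE_subtype N
    obtain ⟨E, Q, _, _, _, _, π, q, θ', Z, lam, X⟩ := hf.exists_ct θ.2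
      ((inv_subtype_iff N hf _).mpr hinv)
    have cZ := X.comap_eq
    rw [Subgroup.range_subtype] at cZ
    obtain ⟨U, cU⟩ := X.exists_cor_right G (by rwa [Subgroup.range_subtype])
    haveI := (X.normal_iff_of_cor cU).mp hG
    obtain ⟨e, -⟩ := X.quot_equiv cU
    obtain ⟨β, h1, h2, h3⟩ := central (X.Z_le_of_cor cU) X.cen
      (by rwa [← X.index_of_cor cU, ← X.relIndex_of_cor cZ cU])
      (Group.isSolvable_of_surjective (f := e.toMonoidHom) e.surjective) lam
    have c := ctCor_subtype cU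
    obtain ⟨χ, h4, h5⟩ := X.exists_left c (z := Subgroup.inclusion (X.Z_le_of_cor cU))
      (fun _ => rfl) h1 h3
    refine ⟨χ, h4, (sInv_iff nG).mpr fun x hx => ?_, fun a => h3 ((X.ip_base c
      (k := Subgroup.inclusion hNG) (fun _ => rfl) (z := Subgroup.inclusion (X.Z_le_of_cor cU))
      (fun _ => rfl) h5).symm.trans a)⟩
    obtain ⟨y, rfl⟩ := X.π_surj x
    have nU : Nrm ⊤ U := fun g _ x hx => ‹U.Normal›.conj_mem x hx g
    have := X.R_conj h5 y (ι' := G.subtype) (κ' := U.subtype) (a := cjHom (π y) (nG _ hx))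
      (b := cjHom (q y) (nU _ trivial)) (fun _ => rfl) fun _ => rfl
    rw [(sInv_iff nU).mp h2 _ trivial] at this
    exact X.left_unique c this h5
  · let π := QuotientGroup.mk' N
    have hk : π.ker ≤ G := by rwa [QuotientGroup.ker_mk']
    obtain ⟨S, hS⟩ := Subgroup.exists_right_complement'_of_coprime (N := G.map π) (by
      rw [H1.card_map_mk, Subgroup.index_map_eq _ (QuotientGroup.mk'_surjective N) hk]
      exact hcop.symm)
    obtain ⟨χ, h1, h2, h3⟩ := exists_sInv_over_solvable (S := S.comap π) (nG.mono le_top) hNG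
      (nN.mono le_top) (nN.mono le_top) (m := G.index) (fun s hs => (QuotientGroup.eq_one_iff _).mp
        (Subgroup.disjoint_def.mp hS.disjoint ⟨_, G.pow_index_mem s, rfl⟩
          ((S.comap π).pow_mem hs _))) hcop hs θ.2 (hi.mono le_top)
    refine ⟨χ, h1, ?_, h3⟩
    rw [← Subgroup.comap_top π, ← hS.sup_eq_top, ← Subgroup.comap_sup_eq _ _ _
      (QuotientGroup.mk'_surjective N), Subgroup.comap_map_eq_self hk]
    exact (sInv_self (irr_cf h1)).sup h2 (nrm_self G) (nG.mono le_top)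

end Cfsg.Agent.S4450
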