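import Cfsg.Statements.S4452
import Mathlib
import Cfsg.Agent.H7.RelGl
import Cfsg.Agent.H7.Sect

set_option autoImplicit false
open Cfsg

namespace Cfsg.Agent.S4452

open Cfsg.Agent.H7

theorem aux {G N : Type*} [Group G] [Group N] [Finite G] [Finite N] {f : N →* G} (hf : IsNE f)
    (hcop : f.range.index.Coprime (Nat.card N)) {H : Type*} [Group H] [Finite H] (π : G →* H)
    (hπ : Function.Surjective π) (hk : π.ker = f.range) :
    Nat.card {χ : IrrCharacter G // (charDegree (χ : G → ℂ)).Coprime (Nat.card H)} =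
      Nat.card {θ : IrrCharacter N // hf.Inv (θ : N → ℂ)} *
        Nat.card {β : IrrCharacter H // charDegree (β : H → ℂ) = 1} := by
  have hi := index_range_eq_card hπ hk
  choose e he he' _ using fun θ : {θ : IrrCharacter N // hf.Inv (θ : N → ℂ)} =>
    hf.exists_ext_of_hall hcop θ.1.2 θ.2 (char_one_eq (irr_char θ.1.2)) (irr_degree_dvd_card θ.1.2)
  have h1 : ∀ θ, IsIrrCharacter N (fun n => e θ (f n)) := fun θ => by
    rw [funext (he' θ)]; exact θ.1.2
  have h2 : ∀ β : {β : IrrCharacter H // charDegree (β : H → ℂ) = 1}, (β.1 : H → ℂ) 1 = 1 :=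
    fun β => by rw [char_one_eq (irr_char β.1.2), β.2, Nat.cast_one]
  have h0 : ∀ (θ : {θ : IrrCharacter N // hf.Inv (θ : N → ℂ)})
      (β : {β : IrrCharacter H // charDegree (β : H → ℂ) = 1}),
      (charDegree ((fun g => (β.1 : H → ℂ) (π g)) * e θ)).Coprime (Nat.card H) := fun θ β => by
    have : charDegree ((fun g => (β.1 : H → ℂ) (π g)) * e θ) = charDegree (θ.1 : N → ℂ) := by
      apply charDegree_eq
      rw [Pi.mul_apply, map_one, h2, one_mul, ← char_one_eq (irr_char θ.1.2), ← he', map_one]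
    rw [this, ← hi]
    exact (hcop.coprime_dvd_right (irr_degree_dvd_card θ.1.2)).symm
  rw [← Nat.card_prod]
  refine (Nat.card_congr (Equiv.ofBijective (fun x => ⟨⟨(fun g => (x.2.1 : H → ℂ) (π g)) * e x.1,
    gallagher_irr hπ hk (irr_char (he _)) (h1 _) x.2.1.2⟩, h0 _ _⟩) ⟨?_, ?_⟩)).symm
  · rintro ⟨θ, β⟩ ⟨θ', β'⟩ h
    have h3 : (fun g => (β.1 : H → ℂ) (π g)) * e θ = (fun g => (β'.1 : H → ℂ) (π g)) * e θ' :=
      congrArg (fun x => x.1.1) h
    obtain rfl : θ = θ' := Subtype.ext (Subtype.ext (funext fun n => by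
      have := congrFun h3 (f n)
      simpa only [Pi.mul_apply, apply_eq_one_of_ker_eq hk, h2, one_mul, he'] using this))
    rw [Subtype.ext (Subtype.ext (gallagher_inj hπ hk (irr_char (he _)) (h1 _) β.1.2 β'.1.2 h3))]
  · rintro ⟨χ, hχ⟩
    obtain ⟨θ, hθ, h⟩ := exists_irr_under f χ.2
    obtain ⟨a, ha, ha'⟩ := hf.degree_ratio_dvd hθ χ.2 h
    have : a = 1 := by
      rw [char_one_eq (irr_char χ.2), char_one_eq (irr_char hθ)] at ha
      refine Nat.eq_one_of_dvd_coprimes hχ ⟨charDegree θ, by exact_mod_cast ha⟩ (hi ▸ ha')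
    rw [this, Nat.cast_one, one_mul] at ha
    have h3 := eq_irr_of_degree_eq (char_comp f (irr_char χ.2)) hθ h (by simpa using ha)
    let θ' : {θ : IrrCharacter N // hf.Inv (θ : N → ℂ)} := ⟨⟨θ, hθ⟩, h3 ▸ hf.inv_res (irr_cf χ.2)⟩
    obtain ⟨β, hβ, h4⟩ := hf.gallagher_surj hπ hk (irr_char (he θ')) (h1 θ') χ.2
      (by rw [funext (he' θ')]; exact h)
    refine ⟨⟨θ', ⟨β, hβ⟩, charDegree_eq ?_⟩, Subtype.ext (Subtype.ext h4.symm)⟩
    have h5 := congrFun h4 (f 1)
    rw [Pi.mul_apply, he', map_one, map_one, ha, eq_comm, mul_eq_right₀ (irr_one_ne_zero hθ)] at h5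
    simpa using h5

/-- Let the finite group G be the product of a normal subgroup K and a solvable subgroup H of coprime orders, and let N = N_G(H). Then the number of irreducible characters of G of degree coprime to the order of H equals the number of irreducible characters of N of degree coprime to the order of H. (The two sets are in fact in a canonical bijection; only the equality of their sizes is stated here.) -/
theorem result {G : Type*} [Group G] [Finite G] (K H : Subgroup G) [K.Normal] (hKH : K ⊔ H = ⊤) (hcop : (Nat.card K).Coprime (Nat.card H)) (hsolv : Group.IsSolvable H) : Nat.card {χ : Cfsg.IrrCharacter G // (Cfsg.charDegree (χ : G → ℂ)).Coprime (Nat.card H)} = Nat.card {η : Cfsg.IrrCharacter (Subgroup.normalizer (H : Set G)) // (Cfsg.charDegree (η : Subgroup.normalizer (H : Set G) → ℂ)).Coprime (Nat.card H)} := by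
  have hdis : K ⊓ H = ⊥ := Subgroup.inf_eq_bot_of_coprime hcop
  have hc : K.IsComplement' H := Subgroup.isComplement'_of_disjoint_and_mul_eq_univ
    (disjoint_iff.mpr hdis) (by rw [← Subgroup.normal_mul, hKH]; rfl)
  let π : G →* H := hc.symm.QuotientMulEquiv.toMonoidHom.comp (QuotientGroup.mk' K)
  have hπ : Function.Surjective π :=
    hc.symm.QuotientMulEquiv.surjective.comp (QuotientGroup.mk'_surjective K)
  have hk : π.ker = K := by
    ext x; simp [π]
  have hπH : ∀ h : H, π h = h := fun h => by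
    simp only [π, MonoidHom.comp_apply, MulEquiv.coe_toMonoidHom]
    rw [← MulEquiv.eq_symm_apply]; rfl
  set N := Subgroup.normalizer (H : Set G)
  let C := K ⊓ Subgroup.centralizer (H : Set G)
  have hCN : C ≤ N := inf_le_right.trans (Subgroup.centralizer_le_normalizer _)
  have hact : CopAct H K C := ⟨fun s _ g hg => ‹K.Normal›.conj_mem g hg s, hcop, rfl⟩
  have hNK : N ⊓ K ≤ C := fun x hx => ⟨hx.2, fun h hh => by
    have : h * x * h⁻¹ * x⁻¹ ∈ K ⊓ H := ⟨K.mul_mem (‹K.Normal›.conj_mem x hx.2 h) (K.inv_mem hx.2),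
      by simpa [mul_assoc] using H.mul_mem hh ((hx.1 _).mp (H.inv_mem hh))⟩
    rw [hdis, Subgroup.mem_bot, mul_inv_eq_one, mul_inv_eq_iff_eq_mul] at this
    exact this⟩
  have hk' : (π.comp N.subtype).ker = (Subgroup.inclusion hCN).range := by
    ext x
    rw [← MonoidHom.comap_ker, hk, Subgroup.inclusion_range]
    exact ⟨fun h => hNK ⟨x.2, h⟩, fun h => h.1⟩
  have hπ' : Function.Surjective (π.comp N.subtype) := fun h =>
    ⟨⟨h, Subgroup.le_normalizer h.2⟩, hπH h⟩
  have hf := isNE_subtype K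
  have hf' : IsNE (Subgroup.inclusion hCN) := ⟨Subgroup.inclusion_injective _, hk' ▸ inferInstance⟩
  rw [aux hf (by rw [index_range_eq_card hπ (by simpa using hk)]; exact hcop.symm) π hπ
    (by simpa using hk), aux hf' (by
      rw [index_range_eq_card hπ' hk']
      exact (hcop.coprime_dvd_left (Subgroup.card_dvd_of_le inf_le_left)).symm) _ hπ' hk']
  congr 1
  have e1 : Nat.card {θ : IrrCharacter C // hf'.Inv (θ : C → ℂ)} = Nat.card (IrrCharacter C) := by
    refine Nat.card_congr (Equiv.subtypeUnivEquiv fun θ => ?_)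
    rw [inv_inclusion_iff]
    have : N ≤ C ⊔ H := fun x hx => by
      have h1 : x * (π x : G)⁻¹ ∈ K := by rw [← hk, MonoidHom.mem_ker, map_mul, map_inv, hπH]; simp
      have h2 := hNK ⟨N.mul_mem hx (N.inv_mem (Subgroup.le_normalizer (π x).2)), h1⟩
      simpa using Subgroup.mul_mem_sup h2 (π x).2
    exact ((sInv_self (irr_cf θ.2)).sup (sInv_of_centralizer inf_le_right _) (nrm_self C)
      fun s hs g hg => by rw [hg.2 s hs]; simpa using hg).mono this
  rw [e1, ← hact.card_irr hsolv]
  refine Nat.card_congr (Equiv.subtypeEquivRight fun θ => ?_)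
  rw [inv_subtype_iff]
  refine ⟨fun h s _ g g' e => by rw [← h s g]; exact congrArg _ (Subtype.ext e), fun h g n => ?_⟩
  have := (sInv_self (irr_cf θ.2)).sup h (nrm_self K) hact.nrm
  exact this g (hKH ▸ Subgroup.mem_top g) _ _ rfl

end Cfsg.Agent.S4452
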