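import Cfsg.Statements.S4453
import Mathlib
import Cfsg.Agent.H7.IsCor

set_option autoImplicit false
open Cfsg

namespace Cfsg.Agent.S4453

open H7

/-- Inside a finite group Γ let S normalise the solvable subgroup G of odd order with the orders of G and S coprime, let C = G ⊓ C(S), and let L ≤ K be S-invariant normal subgroups of G with K/L abelian, G = KC and H = LC (so C ≤ H ≤ G). Then for each S-invariant irreducible character χ of G there is exactly one S-invariant irreducible character ψ of H whose multiplicity in the restriction of χ to H is odd, and χ ↦ ψ is a bijection from the S-invariant irreducible characters of G onto those of H (distinct χ give distinct ψ, and every S-invariant ψ arises). -/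
theorem result {Γ : Type*} [Group Γ] [Fintype Γ] (G S : Subgroup Γ) [Fintype G] (hnorm : ∀ s ∈ S, ∀ g ∈ G, s * g * s⁻¹ ∈ G) (hcop : (Nat.card G).Coprime (Nat.card S)) (hGsolv : Group.IsSolvable G) (hodd : Odd (Nat.card G)) (C : Subgroup Γ) [Fintype C] (hC : C = G ⊓ Subgroup.centralizer (S : Set Γ)) (hCG : C ≤ G) (K L H : Subgroup Γ) [Fintype H] (hLK : L ≤ K) (hKG : K ≤ G) (hKn : ∀ g ∈ G, ∀ k ∈ K, g * k * g⁻¹ ∈ K) (hLn : ∀ g ∈ G, ∀ l ∈ L, g * l * g⁻¹ ∈ L) (hKS : ∀ s ∈ S, ∀ k ∈ K, s * k * s⁻¹ ∈ K) (hLS : ∀ s ∈ S, ∀ l ∈ L, s * l * s⁻¹ ∈ L) (hab : ∀ a ∈ K, ∀ b ∈ K, a * b * a⁻¹ * b⁻¹ ∈ L) (hGKC : K ⊔ C = G) (hH : H = L ⊔ C) (hHG : H ≤ G) : (∀ χ : Cfsg.IrrCharacter G, (∀ s ∈ S, ∀ g g' : G, (g' : Γ) = s * g * s⁻¹ → (χ : G → ℂ) g' = (χ : G → ℂ) g) → ∃! ψ : Cfsg.IrrCharacter H, (∀ s ∈ S, ∀ g g' : H, (g' : Γ) =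 s * g * s⁻¹ → (ψ : H → ℂ) g' = (ψ : H → ℂ) g) ∧ ∃ m : ℕ, Cfsg.classInner (fun h : H => (χ : G → ℂ) ⟨h, hHG h.2⟩) (ψ : H → ℂ) = (m : ℂ) ∧ Odd m) ∧ (∀ χ χ' : Cfsg.IrrCharacter G, (∀ s ∈ S, ∀ g g' : G, (g' : Γ) = s * g * s⁻¹ → (χ : G → ℂ) g' = (χ : G → ℂ) g) → (∀ s ∈ S, ∀ g g' : G, (g' : Γ) = s * g * s⁻¹ → (χ' : G → ℂ) g' = (χ' : G → ℂ) g) → ∀ ψ : Cfsg.IrrCharacter H, (∀ s ∈ S, ∀ g g' : H, (g' : Γ) = s * g * s⁻¹ → (ψ : H → ℂ) g' = (ψ : H → ℂ) g) → ∀ m m' : ℕ, Cfsg.classInner (fun h : H => (χ : G → ℂ) ⟨h, hHG h.2⟩) (ψ : H → ℂ) = (m : ℂ) → Odd m → Cfsg.classInner (fun h : H => (χ' : G → ℂ) ⟨h, hHG h.2⟩) (ψ : H → ℂ) = (m' : ℂ) → Odd m' → χ = χ') ∧ (∀ ψ : Cfsg.IrrCharacter H, (∀ s ∈ S, ∀ g g' : H, (g' : Γ) = s * g * s⁻¹ → (ψ : H → ℂ) g' = (ψ : H → ℂ) g) → ∃ χ : Cfsg.IrrCharacter G, (∀ s ∈ S, ∀ g g' : G, (g' :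 Γ) = s * g * s⁻¹ → (χ : G → ℂ) g' = (χ : G → ℂ) g) ∧ ∃ m : ℕ, Cfsg.classInner (fun h : H => (χ : G → ℂ) ⟨h, hHG h.2⟩) (ψ : H → ℂ) = (m : ℂ) ∧ Odd m) := by
  have hCH : C ≤ H := hH ▸ le_sup_right
  have hL : L ≤ K ⊓ H := le_inf hLK (hH ▸ le_sup_left)
  have hCS : C ≤ Subgroup.centralizer (S : Set Γ) := hC ▸ inf_le_right
  have hab' := (Subgroup.commutator_le.mpr hab).trans hL
  have hSH : Nrm S H := hH ▸ Nrm.sup_right hLS (nrm_of_cent (Subgroup.le_centralizer_iff.mp hCS))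
  have X := oddCor_abelian (L := K ⊓ H) inf_le_left inf_le_right hHG
    (hGKC ▸ (nrm_of_comm inf_le_left hab').sup ((Nrm.mono hKn hCG).inf_right (nrm_of_le hCH))) hKn
    (Nrm.inf_right hKS hSH) hKS hnorm hab' (by rw [hH, ← sup_assoc, sup_eq_left.mpr hLK, hGKC])
    hcop.symm hodd (fun h hh s hs => by
      obtain ⟨l, hl, c, hc, rfl⟩ := (Nrm.mono hLn hCG).mem_sup.mp (hH.le hh)
      convert hL (L.mul_mem (hLS s hs l hl) (L.inv_mem hl)) using 1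
      rw [← mul_assoc, mul_assoc (s * l), ← hCS hc _ (inv_mem hs)]
      group) (hC ▸ hCH) le_rfl
  simp only [← ip_eq_classInner]
  refine ⟨fun χ hχ => ?_, fun χ χ' h1 h2 ψ h3 m m' a b c d => Subtype.ext
    (X.inj _ _ ψ ⟨χ.2, h1⟩ ⟨χ'.2, h2⟩ ⟨ψ.2, h3⟩ ⟨m, a, b⟩ ⟨m', c, d⟩), fun ψ hψ => ?_⟩
  · obtain ⟨ψ, h1, h2⟩ := X.ex χ ⟨χ.2, hχ⟩
    exact ⟨⟨ψ, h1.1⟩, ⟨h1.2, h2⟩, fun ψ' h3 => Subtype.ext
      (X.uniq χ _ _ ⟨χ.2, hχ⟩ ⟨ψ'.2, h3.1⟩ h1 h3.2 h2)⟩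
  · obtain ⟨χ, h1, h2⟩ := X.surj ψ ⟨ψ.2, hψ⟩
    exact ⟨⟨χ, h1.1⟩, h1.2, h2⟩

end Cfsg.Agent.S4453
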