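import Cfsg.Statements.S4459
import Mathlib
import Cfsg.Agent.H7.Deg3

set_option autoImplicit false
open Cfsg

namespace Cfsg.Agent.S4459

open Cfsg Cfsg.Agent.H7

/-- Let G be a non-abelian finite group and p a prime. Then the irreducible character degrees of G are exactly 1 and p if and only if either G has an abelian normal subgroup of index p or the centre of G has index p³. -/
theorem result {G : Type*} [Group G] [Finite G] (hG : ∃ a b : G, a * b ≠ b * a) (p : ℕ) (hp : p.Prime) : ((∀ χ : Cfsg.IrrCharacter G, Cfsg.charDegree (χ : G → ℂ) = 1 ∨ Cfsg.charDegree (χ : G → ℂ) = p) ∧ ∃ χ : Cfsg.IrrCharacter G, Cfsg.charDegree (χ : G → ℂ) = p) ↔ ((∃ A : Subgroup G, A.Normal ∧ (∀ a ∈ A, ∀ b ∈ A, a * b = b * a) ∧ A.index = p) ∨ (Subgroup.center G).index = p ^ 3) := by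
  have hc : ¬ ∀ χ : G → ℂ, IsIrrCharacter G χ → charDegree χ = 1 := fun h => by
    obtain ⟨a, b, hab⟩ := hG
    exact hab (comm_iff_deg.mpr h a b)
  constructor
  · rintro ⟨h, χ, hχ⟩
    have h' : ∀ χ : G → ℂ, IsIrrCharacter G χ → charDegree χ = 1 ∨ charDegree χ = p :=
      fun χ hχ => h ⟨χ, hχ⟩
    rcases two_deg_structure hp.ne_one (mem_degSet.mpr ⟨χ, χ.2, hχ⟩) h' with h1 | h1
    · exact Or.inl h1
    obtain ⟨q, e, hq, -, P, A, hP, hA, h2, h3, -, h4⟩ := h1
    haveI := Fact.mk hq
    haveI : Group.IsNilpotent G := by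
      rw [← H2.fittingSubgroup_eq_top_iff, eq_top_iff, ← h4]
      refine sup_le (H2.le_fittingSubgroup h2.isNilpotent) (H2.le_fittingSubgroup ?_)
      letI : CommGroup A := { (inferInstance : Group A) with
        mul_comm := fun a b => Subtype.ext (h3 a a.2 b b.2) }
      exact CommGroup.isNilpotent
    by_contra h5
    rw [not_or] at h5
    refine h5.2 (prime_deg_nilpotent hp (fun e => ?_) h' fun A h6 h7 h8 => h5.1 ⟨A, h6, h7, h8⟩)
    obtain ⟨a, b, hab⟩ := hG
    exact hab (commutatorElement_eq_one_iff_mul_comm.mp (Subgroup.mem_bot.mp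
      (e ▸ Subgroup.commutator_mem_commutator (Subgroup.mem_top a) (Subgroup.mem_top b))))
  · intro h
    have h1 : ∀ χ : G → ℂ, IsIrrCharacter G χ → charDegree χ = 1 ∨ charDegree χ = p := by
      intro χ hχ
      rcases h with ⟨A, hA, h2, h3⟩ | h
      · exact (Nat.dvd_prime hp).mp (h3 ▸ degree_dvd_index_of_abelian_normal A h2 hχ
          (char_one_eq (irr_char hχ)))
      · have h2 := irr_degree_dvd_index_center hχ (char_one_eq (irr_char hχ))
        have h3 := H6.degree_sq_le_index_center hχ (char_one_eq (irr_char hχ))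
        rw [h] at h2 h3
        obtain ⟨k, -, h4⟩ := (Nat.dvd_prime_pow hp).mp h2
        rw [h4, ← pow_mul, Nat.pow_le_pow_iff_right hp.one_lt] at h3
        have : k = 0 ∨ k = 1 := by omega
        rcases this with rfl | rfl
        · exact Or.inl (by simpa using h4)
        · exact Or.inr (by simpa using h4)
    refine ⟨fun χ => h1 χ χ.2, ?_⟩
    push Not at hc
    obtain ⟨χ, hχ, h2⟩ := hc
    exact ⟨⟨χ, hχ⟩, (h1 χ hχ).resolve_left h2⟩

end Cfsg.Agent.S4459
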