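import Cfsg.Statements.S4460
import Mathlib
import Cfsg.Agent.H7.Deg3

set_option autoImplicit false
open Cfsg

namespace Cfsg.Agent.S4460

open Cfsg Cfsg.Agent.H7

/-- A finite group with exactly three distinct irreducible character degrees is solvable of derived length at most 3: its third derived subgroup is trivial. -/
theorem result {G : Type*} [Group G] [Finite G] (hcd : Nat.card {n : ℕ // ∃ χ : Cfsg.IrrCharacter G, Cfsg.charDegree (χ : G → ℂ) = n} = 3) : derivedSeries G 3 = ⊥ := by
  classical
  rw [card_degSet] at hcd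
  have h1 : ((degSet G).erase 1).card = 2 := by rw [Finset.card_erase_of_mem one_mem_degSet, hcd]
  obtain ⟨m, k, -, h2⟩ := Finset.card_eq_two.mp h1
  have h3 : ∀ d ∈ (degSet G).erase 1, d ≠ 0 := fun d hd => by
    obtain ⟨χ, hχ, rfl⟩ := mem_degSet.mp (Finset.mem_of_mem_erase hd)
    exact (irr_degree_pos hχ).ne'
  have h : ∀ χ : G → ℂ, IsIrrCharacter G χ → charDegree χ = 1 ∨ charDegree χ = m ∨
      charDegree χ = k := fun χ hχ => by
    by_cases e : charDegree χ = 1
    · exact Or.inl e
    · have : charDegree χ ∈ (degSet G).erase 1 := Finset.mem_erase.mpr ⟨e, mem_degSet.mpr ⟨χ, hχ, rfl⟩⟩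
      rw [h2] at this
      simpa using Or.inr this
  haveI := three_deg_solvable _ rfl (h3 m (by simp [h2])) (h3 k (by simp [h2])) h
  exact three_deg_of_solvable h

end Cfsg.Agent.S4460
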