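import Cfsg.Statements.S4467
import Mathlib
import Cfsg.Agent.H7.Small
import Cfsg.Agent.H7.MGroup
import Cfsg.Agent.FT.BG01
import Cfsg.Agent.H8.CharBase
import Cfsg.Agent.H6.Central
import Cfsg.Agent.H22.Hol
-- import your own Cfsg.Agent.* helpers here

set_option autoImplicit false
open Cfsg

namespace Cfsg.Agent.S4467


open Subgroup Cfsg.Agent.FT Cfsg.Agent.H7 Cfsg.Agent.H6
open scoped commutatorElement

universe u

/-- the conclusion -/
def Good (p n : ℕ) : Prop := ∃ q : ℕ, IsPrimePow q ∧ q ∣ n ∧ (p ∣ q ∨ q ^ 2 ≡ 1 [MOD p])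

theorem Good.dvd {p m n : ℕ} (h : Good p m) (hd : m ∣ n) : Good p n :=
  h.imp fun _ h => ⟨h.1, h.2.1.trans hd, h.2.2⟩

theorem modEq_one {p a b : ℕ} (h : a * b ≡ b [MOD p]) (hc : p.Coprime b) : a ≡ 1 [MOD p] :=
  Nat.ModEq.cancel_right_of_coprime hc (by rwa [one_mul])

theorem imprim {G : Type*} [Group G] [Finite G] [Group.IsSolvable G] {p : ℕ} (hp : p.Prime) {P H : Subgroup G}
    (hP : PGrp p P) (hO : ∀ N : Subgroup G, N.Normal → P ≤ N → N = ⊤) (hH : IsCoatom H) : Good p H.index := by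
  set K := H.normalCore with hK
  have hKH : K ≤ H := H.normalCore_le
  obtain ⟨V, -, hV⟩ := exists_chief_above (N := K) (K := ⊤) (lt_of_le_of_lt hKH hH.1.lt_top)
  haveI := hV.normal_right
  obtain ⟨r, k, hr, hk, hi, -⟩ := hV.exists_prime_pow
  have hVH : ¬ V ≤ H := fun h => hV.lt.not_ge (Subgroup.normal_le_normalCore.2 h)
  have hs : H ⊔ V = ⊤ := hH.2 _ (left_lt_sup.2 hVH)
  have hI : H ⊓ V = K := by
    refine le_antisymm ?_ (le_inf hKH hV.lt.le)
    haveI : (H ⊓ V).Normal := nml_top_iff.1 ⟨le_top, hs ▸ sup_le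
      (nml_inf_of_norms (nml_top_iff.2 hV.normal_right |>.nrm.trans' le_top)).nrm
      (norms_of_comm_le_of_le (H := V) (hV.commutator_le.trans (le_inf hKH hV.lt.le)) inf_le_right)⟩
    exact Subgroup.normal_le_normalCore.2 inf_le_left
  have hidx : H.index = r ^ k := by
    rw [← hi, ← hI, Subgroup.inf_relIndex_right, ← Subgroup.relIndex_top_right, ← hs]
    have h1 := Subgroup.relIndex_mul_relIndex (H ⊓ V) H (H ⊔ V) inf_le_left le_sup_left
    have h2 := Subgroup.relIndex_mul_relIndex (H ⊓ V) V (H ⊔ V) inf_le_right le_sup_right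
    rw [Subgroup.relIndex_sup_right, Subgroup.inf_relIndex_right, ← h1, Subgroup.inf_relIndex_left, mul_comm] at h2
    exact (Nat.eq_of_mul_eq_mul_left (Nat.pos_of_ne_zero Subgroup.index_ne_zero_of_finite) h2).symm
  by_cases hrp : r = p
  · exact ⟨p, hp.isPrimePow, hidx ▸ hrp ▸ dvd_pow_self r hk.ne', Or.inl dvd_rfl⟩
  set π := QuotientGroup.mk' K
  have hc : #(V.map π) = r ^ k := (IsChief.card_map (QuotientGroup.ker_mk' K)).trans hi
  haveI : (V.map π).Normal := hV.normal_right.map π (QuotientGroup.mk'_surjective K)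
  have hn : V.map π ⊴ ⊤ := nml_top_iff.2 inferInstance
  have h1 := P22.card_modEq_cen hp (hP.map π) (le_top.trans hn.nrm)
  set C := V.map π ⊓ C(P.map π) with hC
  have h2 := (mul_comm _ _).trans (card_mul_relIndex (A := C) (B := V.map π) inf_le_left)
  have hcop : p.Coprime (r ^ k) := ((Nat.coprime_primes hp hr).2 (Ne.symm hrp)).pow_right k
  rw [← h2] at h1
  rw [hc] at h2
  obtain ⟨j, -, hj⟩ := (Nat.dvd_prime_pow hr).1 (Dvd.intro _ h2)
  have h3 := modEq_one h1 (hcop.coprime_dvd_right (Dvd.intro_left _ h2))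
  refine ⟨C.relIndex (V.map π), ?_, hidx ▸ Dvd.intro _ h2, Or.inr (by simpa using h3.pow 2)⟩
  rw [hj]
  refine hr.isPrimePow.pow ?_
  rintro rfl
  have h4 : V.map π ≤ C(P.map π) := (Subgroup.relIndex_eq_one.1 (hj.trans (pow_zero r))).trans inf_le_right
  haveI : C(V.map π).Normal := nml_top_iff.1 ⟨le_top, hn.nrm.trans (cen_nml_nrm _).nrm⟩
  have h5 := hO (C(V.map π).comap π) inferInstance (Subgroup.map_le_iff_le_comap.1 (centsC h4))
  have h6 : V ≤ N(H) := by
    refine norms_of_comm_le (le_trans ?_ hKH)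
    rw [Subgroup.commutator_le]
    intro a _ b hb
    rw [← QuotientGroup.ker_mk' K, MonoidHom.mem_ker, map_commutatorElement, commutatorElement_eq_one_iff_mul_comm]
    exact (Subgroup.mem_centralizer_iff.1 (h5.ge (mem_top a)) _ ⟨b, hb, rfl⟩).symm
  haveI : H.Normal := nml_top_iff.1 ⟨le_top, hs ▸ sup_le Subgroup.le_normalizer h6⟩
  refine hH.1 (hO H inferInstance fun x hx => ?_)
  rw [← QuotientGroup.eq_one_iff, ← orderOf_eq_one_iff]
  obtain ⟨m, hm⟩ := hP.card
  refine Nat.eq_one_of_dvd_coprimes (hcop.pow_left m) ?_ ?_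
  · exact (orderOf_map_dvd (QuotientGroup.mk' H) x).trans (hm ▸ Subgroup.orderOf_dvd_natCard P hx)
  · rw [← hidx, Subgroup.index_eq_card]; exact orderOf_dvd_natCard _

theorem deg_le {G : Type*} [Group G] [Finite G] {χ ψ : G → ℂ} (hχ : IsCharacter G χ) (hψ : IsIrrCharacter G ψ)
    (h0 : ip χ ψ ≠ 0) {n d : ℕ} (hn : χ 1 = n) (hd : ψ 1 = d) : d ≤ n := by
  obtain ⟨m, hm⟩ := ip_char_nat hχ (irr_char hψ)
  have := degree_le_of_ip hχ hψ hm hn hd
  have hm0 : m ≠ 0 := by rintro rfl; exact h0 (by simpa using hm)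
  exact (Nat.le_mul_of_pos_left d (Nat.pos_of_ne_zero hm0)).trans this

theorem prim {G : Type*} [Group G] [Finite G] [Group.IsSolvable G] {p : ℕ} (hp : p.Prime) {P : Subgroup G}
    (hP : PGrp p P) (hO : ∀ N : Subgroup G, N.Normal → P ≤ N → N = ⊤) {χ : G → ℂ} (hχ : IsIrrCharacter G χ)
    (hK : charKer χ = ⊥) (hpr : IsPrim χ) {n : ℕ} (hn : χ 1 = n) (hna : ¬ (⊤ : Subgroup G) ≤ C((⊤ : Subgroup G))) :
    Good p n := by
  classical
  have hcen : C((⊤ : Subgroup G)) = Subgroup.center G := by rw [Subgroup.coe_top, Subgroup.centralizer_univ]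
  have hab : ∀ A : Subgroup G, A ⊴ ⊤ → Ab A → A ≤ C((⊤ : Subgroup G)) := fun A h1 h2 => by
    haveI := nml_top_iff.1 h1
    rw [hcen]
    exact hpr.le_center hχ hK A fun a ha b hb => h2.comm ha hb
  obtain ⟨E, -, ⟨hE, hEc⟩, hmin⟩ := exists_min (fun E : Subgroup G => E ⊴ ⊤ ∧ ¬ E ≤ C((⊤ : Subgroup G)))
    (A := ⊤) ⟨Nml.refl _, hna⟩
  have hE1 : E ≠ ⊥ := fun e => hEc (e ▸ bot_le)
  have hEs : Sol E := inferInstanceAs (Group.IsSolvable E)
  have hd : ⁅E, E⁆ ≤ C((⊤ : Subgroup G)) := by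
    by_contra h
    exact (hEs.der_lt hE1).ne (hmin _ ⟨hE.der, h⟩ (der_le E))
  have hnil : Nil E := (clsLE_two.2 (hd.trans (cen_anti le_top))).nil
  obtain ⟨r, hr, hEr⟩ : ∃ r : ℕ, r.Prime ∧ PGrp r E := by
    by_contra h
    push Not at h
    refine hEc (le_of_forall_syl' fun r R hr hR => ?_)
    by_contra h1
    have := hmin R ⟨(hnil.hall_char hR).nml_trans hE, h1⟩ hR.le
    exact h r hr (this ▸ hR.pi)
  haveI := nml_top_iff.1 hE
  obtain ⟨θ, hθ, h0⟩ := H7.exists_irr_under E.subtype hχ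
  obtain ⟨e, he0, he⟩ := (isNE_subtype E).clifford_inv_nat hχ hθ (hpr.inv hχ (isNE_subtype E) hθ h0) h0
  obtain ⟨d, hd1⟩ := char_one_nat (irr_char hθ)
  have hdn : d ∣ n := by
    have := congrFun he 1
    simp only [map_one, hn, Pi.smul_apply, hd1, smul_eq_mul] at this
    exact Dvd.intro_left e (by exact_mod_cast this.symm)
  obtain ⟨k, hk⟩ := hEr.card
  obtain ⟨i, -, hi⟩ := (Nat.dvd_prime_pow hr).1 (hk ▸ degree_dvd_card hθ hd1)
  -- a subgroup with the same centre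
  have key : ∀ F : Subgroup G, F ≤ E → Z(F) ≤ C((⊤ : Subgroup G)) → Z(F) ≠ F →
      ∃ q, IsPrimePow q ∧ q ∣ r ^ k ∧ q ∣ n ∧ q ^ 2 * #Z(F) = #F := by
    intro F hF hZ hne
    obtain ⟨φ, hφ, h1⟩ := H7.exists_irr_under (Subgroup.inclusion hF) hθ
    obtain ⟨c, hc⟩ := char_one_nat (irr_char hφ)
    obtain ⟨l, hl⟩ := (hEr.mono hF).card
    obtain ⟨j, -, hj⟩ := (Nat.dvd_prime_pow hr).1 (hl ▸ degree_dvd_card hφ hc)
    have h2 := deg_le (char_comp _ (irr_char hθ)) hφ h1 (n := d) (by simpa using hd1) hc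
    have h3 : c ∣ d := by
      rw [hi, hj] at h2 ⊢
      exact pow_dvd_pow r ((Nat.pow_le_pow_iff_right hr.one_lt).1 h2)
    have hZc : (Subgroup.center F).map F.subtype = Z(F) := by
      ext x
      constructor
      · rintro ⟨y, hy, rfl⟩
        exact ⟨y.2, fun w hw => congrArg Subtype.val (Subgroup.mem_center_iff.1 hy ⟨w, hw⟩)⟩
      · rintro ⟨h1, h2⟩
        exact ⟨⟨x, h1⟩, Subgroup.mem_center_iff.2 fun w => Subtype.ext (h2 w w.2), rfl⟩
    have hφK : charKer φ = ⊥ := by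
      by_contra h
      haveI hkn := charKer_normal (irr_cf hφ)
      haveI := Fact.mk hr
      have h4 := (pGrp_of_isPGroup hr ((hEr.mono hF).isPGroup.to_subgroup ⊤)).nil.meet_cen
        (nml_top_iff.2 hkn) h
      obtain ⟨z, ⟨hz1, hz2⟩, hz3⟩ := exists_ne_one h4
      have hzc : (z : G) ∈ Subgroup.center G := hcen ▸ hZ ⟨z.2, fun w hw =>
        congrArg Subtype.val (hz2 ⟨w, hw⟩ trivial)⟩
      obtain ⟨lam, hlam⟩ := exists_linear_of_le_center hχ (Subgroup.center G) le_rfl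
      have h5 := ip_comp_comp_ne_zero E.subtype (Subgroup.inclusion hF) (irr_char hχ) hθ (irr_char hφ) h0 h1
      have h6 : ip (fun a : F => χ (z * a)) φ = ip (fun a : F => χ a) φ := by
        have := ip_comp_equiv (Equiv.mulLeft z) (fun a : F => χ a) φ
        rw [← this]
        congr 1
        funext a
        exact (hz1 a).symm
      have h7 : (fun a : F => χ (z * a)) = (lam ⟨z, hzc⟩ : ℂ) • fun a : F => χ a :=
        funext fun a => hlam ⟨z, hzc⟩ a
      rw [h7, ip_smul_left] at h6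
      have h8 : (lam ⟨z, hzc⟩ : ℂ) = 1 := mul_right_cancel₀ h5 (h6.trans (one_mul _).symm)
      have h9 : (z : G) ∈ charKer χ := fun x => by
        have := hlam ⟨z, hzc⟩ x
        rwa [h8, one_mul] at this
      rw [hK, mem_bot] at h9
      exact hz3 (Subtype.ext h9)
    have h4 := sq_eq_index_charCenter hφ (by
      rw [charCenter_eq_center hφ hφK]
      intro x hx
      have : (x : G) ∈ ⁅F, F⁆ := by rw [der_eq_map]; exact ⟨x, hx, rfl⟩
      have h5 := hd (der_mono hF this)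
      exact Subgroup.mem_center_iff.2 fun w => Subtype.ext (h5 w trivial)) hc
    rw [charCenter_eq_center hφ hφK] at h4
    have h5 : c ^ 2 * #Z(F) = #F := by
      rw [h4, ← hZc, card_map_inj F.subtype_injective, Subgroup.index_mul_card]
    refine ⟨c, ?_, h3.trans (hk ▸ degree_dvd_card hθ hd1), h3.trans hdn, h5⟩
    rw [hj]
    refine hr.isPrimePow.pow ?_
    rintro rfl
    rw [hj] at h5
    exact hne (Subgroup.eq_of_le_of_card_ge inf_le_left (by simpa using h5.ge))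
  have hZE := hab _ hE.center (ab_center E)
  by_cases hrp : r = p
  · obtain ⟨q, h1, h2, h3, -⟩ := key E le_rfl hZE fun e => hEc (e ▸ hZE)
    refine ⟨q, h1, h3, Or.inl ?_⟩
    obtain ⟨j, -, rfl⟩ := (Nat.dvd_prime_pow hr).1 h2
    exact hrp ▸ dvd_pow_self r fun e => h1.ne_one (by rw [e, pow_zero])
  have hnE : P ≤ N(E) := le_top.trans hE.nrm
  have hcop : Cop E P := hEr.cop_of_ne hP hrp
  have hm := coprime_cent_prod hnE hcop hEs
  have h3s : ⁅E, P⁆ ≤ C(E ⊓ C(P)) := by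
    rw [← comm_eq_bot]
    refine three_subgroup ?_ ?_
    · rw [comm_eq_bot'.2 (inf_le_right : E ⊓ C(P) ≤ C(P)), Subgroup.commutator_bot_left]
    · exact comm_eq_bot.2 (((commSS inf_le_left le_rfl).trans hd).trans (cen_anti le_top))
  set F := ⁅E, P⁆ ⊔ Z(E) with hF
  have hFE : F ≤ E := sup_le (comm_le_left hnE) inf_le_left
  have hFC : F ≤ C(E ⊓ C(P)) := sup_le h3s (hZE.trans (cen_anti le_top))
  have hZF : Z(F) ≤ C((⊤ : Subgroup G)) := by
    refine le_trans (le_inf (inf_le_left.trans hFE) ?_) hZE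
    rw [← hm.sup]
    exact centsC (sup_le (centsC (inf_le_right.trans (cen_anti le_sup_left)))
      (centsC (inf_le_left.trans hFC)))
  have hCF : F ⊓ C(P) = Z(F) :=
    le_antisymm (le_inf inf_le_left (centsC (hFC.trans (cen_anti (inf_le_inf_right _ hFE)))))
      (le_inf inf_le_left (hZF.trans (cen_anti le_top)))
  obtain ⟨q, h1, -, h3, h4⟩ := key F hFE hZF fun e => by
    have h1 : ⁅E, P⁆ = ⊥ := by
      rw [← coprime_commGid hnE hcop, comm_eq_bot]
      exact le_sup_left.trans ((e.ge.trans hZF).trans (cen_anti le_top))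
    haveI : C(E).Normal := nml_top_iff.1 ⟨le_top, hE.nrm.trans (cen_nml_nrm _).nrm⟩
    exact hEc (centsC (hO _ this (comm_eq_bot'.1 h1)).ge)
  refine ⟨q, h1, h3, Or.inr ?_⟩
  have h5 := P22.card_modEq_cen hp hP (normsY (norm_comm_right E P)
    (le_top.trans hE.center.nrm) : P ≤ N(F))
  rw [hCF, ← h4] at h5
  refine modEq_one h5 ?_
  obtain ⟨l, hl⟩ := (hEr.mono (inf_le_left.trans hFE : Z(F) ≤ E)).card
  rw [hl]
  exact ((Nat.coprime_primes hp hr).2 (Ne.symm hrp)).pow_right l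

theorem main {p : ℕ} (hp : p.Prime) (N : ℕ) : ∀ (G : Type u) [Group G] [Finite G] [Group.IsSolvable G],
    Nat.card G = N → ∀ χ : G → ℂ, IsIrrCharacter G χ → ∀ n : ℕ, χ 1 = n → ∀ (x y : G) (a j : ℕ), x ^ p ^ a = 1 →
    y ^ p ^ a = 1 → (orderOf ((x * y) ^ j)).Coprime p → (x * y) ^ j ∉ charKer χ → Good p n := by
  induction N using Nat.strong_induction_on with
  | _ N ih =>
  intro G _ _ _ hN χ hχ n hn x y a j hx hy hc hz
  classical
  by_cases hK : charKer χ = ⊥
  swap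
  · obtain ⟨_, β, hβ, e, -⟩ := exists_faithful_deflate hχ
    set π := QuotientGroup.mk' (charKer χ)
    refine ih (Nat.card (G ⧸ charKer χ)) ?_ _ rfl β hβ n ((congrFun e 1).symm.trans hn) (π x) (π y) a j
      (by rw [← map_pow, hx, map_one]) (by rw [← map_pow, hy, map_one]) ?_ ?_
    · rw [← hN, ← Subgroup.index_eq_card, ← (charKer χ).index_mul_card]
      have h1 : 1 < Nat.card (charKer χ) := (Subgroup.one_lt_card_iff_ne_bot _).2 hK
      have h2 : 0 < (charKer χ).index := Nat.pos_of_ne_zero Subgroup.index_ne_zero_of_finite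
      nlinarith
    · rw [← map_mul, ← map_pow]
      exact hc.coprime_dvd_left (orderOf_map_dvd π _)
    · rw [← map_mul, ← map_pow, mem_charKer_iff_irr hβ]
      rw [mem_charKer_iff_irr hχ] at hz
      exact fun h => hz ((congrFun e _).trans (h.trans (congrFun e 1).symm))
  obtain ⟨P, hP⟩ := exists_syl p (⊤ : Subgroup G)
  by_cases hO : ∀ N : Subgroup G, N.Normal → P ≤ N → N = ⊤
  swap
  · push Not at hO
    obtain ⟨M, hM, hPM, hMt⟩ := hO
    have hm : ∀ w : G, w ^ p ^ a = 1 → w ∈ M := fun w hw => by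
      obtain ⟨l, -, hl⟩ := (Nat.dvd_prime_pow hp).1 (orderOf_dvd_of_pow_eq_one hw)
      exact hP.le_of_syl_le (nml_top_iff.2 hM).nrm hPM
        (pGrp_of_card hp ((Nat.card_zpowers w).trans hl)) le_top (mem_zpowers w)
    letI := Fintype.ofFinite M
    obtain ⟨θ, hθ, h0, h1⟩ : ∃ θ, IsIrrCharacter M θ ∧ ip (fun m : M => χ (M.subtype m)) θ ≠ 0 ∧
        ((⟨x, hm x hx⟩ * ⟨y, hm y hy⟩ : M)) ^ j ∉ charKer θ := by
      by_contra h
      push Not at h
      have := mem_charKer_of_forall_constituent (char_cf (char_comp M.subtype (irr_char hχ)))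
        fun ψ hψ h0 => h ψ hψ (by rwa [ip_eq_classInner])
      rw [charKer_comp _ (irr_char hχ)] at this
      exact hz this
    obtain ⟨d, hd⟩ := char_one_nat (irr_char hθ)
    refine (ih _ (hN ▸ card_lt_of_ne_top hMt) M rfl θ hθ d hd _ _ a j (Subtype.ext hx) (Subtype.ext hy) ?_ h1).dvd
      (Dvd.dvd.trans (Dvd.intro_left _ rfl) ((isNE_subtype M).degree_dvd_of_under hχ hθ h0 hn hd))
    rw [← Subgroup.orderOf_coe]
    exact hc
  by_cases hpr : IsPrim χ
  · refine prim hp hP.pi hO hχ hK hpr hn fun h => hz ?_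
    have h1 : Commute x y := h (mem_top y) x trivial
    have h2 : ((x * y) ^ j) ^ p ^ a = 1 := by rw [← pow_mul, mul_comm j, pow_mul, h1.mul_pow, hx, hy]; simp
    rw [orderOf_eq_one_iff.1 (Nat.eq_one_of_dvd_coprimes (hc.pow_right a) dvd_rfl (orderOf_dvd_of_pow_eq_one h2))]
    exact one_mem _
  simp only [IsPrim, not_forall] at hpr
  obtain ⟨U, ψ, hψ, hind, hU⟩ := hpr
  obtain ⟨H, hH, hUH⟩ := exists_coatom hU
  obtain ⟨e, he⟩ := char_one_nat hψ
  refine (imprim hp hP.pi hO hH).dvd ((Subgroup.index_dvd_of_le hUH).trans (Dvd.intro e ?_))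
  have := ind_apply_one U.subtype_injective ψ
  rw [hind, hn, he, Subgroup.range_subtype] at this
  exact_mod_cast this.symm

/-- Let the finite solvable group G have a faithful irreducible character of degree n, and suppose that for the prime p a Sylow p-subgroup of G is not normal. Then n is divisible by a prime power q > 1 with q congruent to −1, 0 or 1 modulo p. -/
theorem result {G : Type*} [Group G] [Finite G] (χ : Cfsg.IrrCharacter G) (hfaith : ∀ g : G, (χ : G → ℂ) g = (χ : G → ℂ) 1 → g = 1) (n : ℕ) (hn : Cfsg.charDegree (χ : G → ℂ) = n) (hsolv : Group.IsSolvable G) (p : ℕ) (hp : p.Prime) (P : Sylow p G) (hP : ¬ (P : Subgroup G).Normal) : ∃ q : ℕ, IsPrimePow q ∧ q ∣ n ∧ ((q : ℤ) ≡ -1 [ZMOD p] ∨ (q : ℤ) ≡ 0 [ZMOD p] ∨ (q : ℤ) ≡ 1 [ZMOD p]) := by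
  haveI := Fact.mk hp
  set a := (Nat.card G).factorization p
  have hpe : ∀ w : G, ∀ k, w ^ p ^ k = 1 → w ^ p ^ a = 1 := fun w k h => by
    obtain ⟨l, -, hl⟩ := (Nat.dvd_prime_pow hp).1 (orderOf_dvd_of_pow_eq_one h)
    refine orderOf_dvd_iff_pow_eq_one.1 (hl ▸ pow_dvd_pow p ?_)
    exact (hp.pow_dvd_iff_le_factorization Nat.card_pos.ne').1 (hl ▸ orderOf_dvd_natCard w)
  obtain ⟨x, y, hx, hy, h⟩ : ∃ x y : G, x ^ p ^ a = 1 ∧ y ^ p ^ a = 1 ∧ (x * y) ^ p ^ a ≠ 1 := by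
    by_contra h
    push Not at h
    let S : Subgroup G :=
      { carrier := {w | w ^ p ^ a = 1}
        mul_mem' := fun {x y} hx hy => h x y hx hy
        one_mem' := one_pow _
        inv_mem' := fun {x} hx => by
          change x⁻¹ ^ _ = 1
          rw [inv_pow, hx, inv_one] }
    have h1 : IsPGroup p S := fun w => ⟨a, Subtype.ext w.2⟩
    have h2 : S = P := P.3 h1 fun w hw => by
      obtain ⟨k, hk⟩ := P.2 ⟨w, hw⟩
      exact hpe w k (congrArg Subtype.val hk)
    refine hP (h2 ▸ ⟨fun w hw g => ?_⟩)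
    change (g * w * g⁻¹) ^ _ = 1
    rw [conj_pow, hw]; simp
  obtain ⟨q, h1, h2, h3⟩ := main hp _ G rfl χ χ.2 n (hn ▸ H8.irr_one_eq χ) x y a (p ^ a) hx hy (by
    refine ((Nat.coprime_ordCompl hp (Nat.card_pos (α := G)).ne').coprime_dvd_right ?_).symm
    rw [orderOf_dvd_iff_pow_eq_one, ← pow_mul, Nat.ordProj_mul_ordCompl_eq_self]
    exact pow_card_eq_one') fun hz => h (hfaith _ ((mem_charKer_iff_irr χ.2).1 hz))
  refine ⟨q, h1, h2, ?_⟩
  rcases h3 with h3 | h3
  · exact Or.inr (Or.inl (Int.modEq_zero_iff_dvd.2 (by exact_mod_cast h3)))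
  · have h4 : (p : ℤ) ∣ (q + 1) * (q - 1) := by
      have := (Nat.modEq_iff_dvd.1 h3.symm)
      convert this using 1
      push_cast; ring
    rcases (Nat.prime_iff_prime_int.1 hp).dvd_or_dvd h4 with h5 | h5
    · exact Or.inl (Int.modEq_iff_dvd.2 (by simpa using h5)).symm
    · exact Or.inr (Or.inr (Int.modEq_iff_dvd.2 h5).symm)

end Cfsg.Agent.S4467
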