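import Cfsg.Statements.S4471
import Mathlib
import Cfsg.Agent.H7.Jordan
import Cfsg.Agent.H7.MGroup
import Cfsg.Agent.FT.BG01
import Cfsg.Agent.H8.CharBase
import Cfsg.Agent.H6.Central
-- import your own Cfsg.Agent.* helpers here

set_option autoImplicit false
open Cfsg

namespace Cfsg.Agent.S4471


open Subgroup Cfsg.Agent.FT Cfsg.Agent.H7 Cfsg.Agent.H6
open scoped commutatorElement ComplexConjugate

open scoped Matrix.Norms.L2Operator in
theorem near_ab {G : Type*} [Group G] [Finite G] {χ : G → ℂ} (hχ : IsCharacter G χ) (hf : charKer χ = ⊥)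
    (z : ℂ) (hz : 1 / 2 < ‖z‖) : ∃ A : Subgroup G, A.Normal ∧ (∀ x ∈ A, ∀ y ∈ A, x * y = y * x) ∧
      ∀ {D : Type _} [Group D] [Finite D] (f : D →* G), (∀ x y : D, x * y = y * x) → ∀ x : D,
        (∀ l, IsIrrCharacter D l → ip (fun x => χ (f x)) l ≠ 0 → ‖l x - z‖ < 1 / 2) → f x ∈ A := by
  classical
  obtain ⟨U, h1, h2, h3⟩ := exists_unitary hχ
  have hU := (MonoidHom.ker_eq_bot_iff U).mp (h3.trans hf)
  have hn : ∀ g, ‖U g‖ ≤ 1 := fun g => by
    have := CStarRing.norm_star_mul_self (x := U g)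
    rw [h2, ← map_mul, inv_mul_cancel, map_one] at this
    have h0 := CStarRing.norm_star_mul_self
      (x := (1 : Matrix (Fin (charDegree χ)) (Fin (charDegree χ)) ℂ))
    rw [star_one, mul_one, this] at h0
    by_contra! h4
    have := mul_lt_mul'' h4 h4 zero_le_one zero_le_one
    nlinarith
  let S := {g | ‖U g - algebraMap ℂ _ z‖ < 1 / 2}
  have hS : ∀ g, ∀ s ∈ S, g * s * g⁻¹ ∈ S := fun g s hs => by
    refine lt_of_le_of_lt ?_ (show ‖U s - algebraMap ℂ _ z‖ < 1 / 2 from hs)
    rw [show U (g * s * g⁻¹) - algebraMap ℂ _ z = U g * (U s - algebraMap ℂ _ z) * U g⁻¹ by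
      rw [mul_sub, sub_mul, ← Algebra.commutes, mul_assoc _ (U g), ← map_mul, ← map_mul,
        ← map_mul, mul_inv_cancel, map_one, mul_one]]
    exact (norm_mul_le _ _).trans ((mul_le_of_le_one_right (norm_nonneg _) (hn _)).trans
      ((norm_mul_le _ _).trans (mul_le_of_le_one_left (norm_nonneg _) (hn _))))
  refine ⟨Subgroup.closure S, ⟨fun x hx g => ?_⟩, fun x hx y hy => ?_, fun {D} _ _ f hH' x hx => ?_⟩
  · exact (Subgroup.closure_le ((Subgroup.closure S).comap (MulAut.conj g).toMonoidHom)).mpr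
      (fun s hs => Subgroup.subset_closure (hS g s hs)) hx
  · have : IsMulCommutative (Subgroup.closure S) := Subgroup.isMulCommutative_closure
      fun a ha b hb => commute_of_near hU hn ha b ⟨z, lt_trans hb hz⟩
    exact comm_mem_iff.mp (fun a b => mul_comm' a b) x hx y hy
  letI := Fintype.ofFinite D
  let V := U.comp f
  refine Subgroup.subset_closure ?_
  rcases subsingleton_or_nontrivial (Matrix (Fin (charDegree χ)) (Fin (charDegree χ)) ℂ) with _ | _
  · change ‖_‖ < _
    rw [Subsingleton.elim (_ - _) 0]; norm_num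
  set T := U (f x) - algebraMap ℂ _ z with hT
  haveI : IsStarNormal T := ⟨by
    simp only [hT, star_sub, h2, ← algebraMap_star_comm]
    exact ((((Commute.refl _).inv_left.map U).sub_right (Algebra.commutes _ _).symm).sub_left
      (Algebra.commutes _ _))⟩
  obtain ⟨k, hk, e⟩ := spectrum.exists_nnnorm_eq_spectralRadius T
  rw [IsStarNormal.spectralRadius_eq_nnnorm, ENNReal.coe_inj, ← NNReal.coe_inj, coe_nnnorm,
    coe_nnnorm] at e
  obtain ⟨l, hl, h4, h5⟩ := spectrum_subset V hH' x (k := k + z) (by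
    rwa [spectrum.add_mem_iff, neg_add_eq_sub])
  have hi := mem_irrSet.mp hl
  have h6 := irr_one_eq_one_of_comm hH' hi
  have := hx l hi fun e' => h4 ?_
  · rwa [h5, add_sub_cancel_right, e] at this
  refine Matrix.toLin'.map_eq_zero_iff.mp (LinearMap.IsIdempotentElem.eq_zero_of_trace_eq_zero
    (by rw [IsIdempotentElem, Module.End.mul_eq_comp, ← Matrix.toLin'_mul,
      linIdem_mul_self V (irr_char hi) h6]) ?_)
  rw [← e', Matrix.trace_toLin'_eq, ip_def]
  simp [linIdem, V, h1, mul_comm]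

theorem deg_le {G : Type*} [Group G] [Finite G] {χ ψ : G → ℂ} (hχ : IsCharacter G χ) (hψ : IsIrrCharacter G ψ)
    (h0 : ip χ ψ ≠ 0) {n d : ℕ} (hn : χ 1 = n) (hd : ψ 1 = d) : d ≤ n := by
  obtain ⟨m, hm⟩ := ip_char_nat hχ (irr_char hψ)
  have := degree_le_of_ip hχ hψ hm hn hd
  have hm0 : m ≠ 0 := by rintro rfl; exact h0 (by simpa using hm)
  exact (Nat.le_mul_of_pos_left d (Nat.pos_of_ne_zero hm0)).trans this

theorem comm_le_ker {G : Type*} [Group G] [Finite G] {χ : G → ℂ} (hχ : IsCharacter G χ)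
    (h : ∀ ψ, IsIrrCharacter G ψ → ip χ ψ ≠ 0 → ψ 1 = 1) : _root_.commutator G ≤ charKer χ := by
  letI := Fintype.ofFinite G
  exact fun g hg => mem_charKer_of_forall_constituent (char_cf hχ) fun ψ hψ h0 =>
    (degree_eq_one_iff_commutator_le hψ).1 (h ψ hψ (by rwa [ip_eq_classInner])) hg

theorem main {G : Type*} [Group G] [Finite G] {χ : G → ℂ} (hχ : IsIrrCharacter G χ) (hK : charKer χ = ⊥)
    {n p : ℕ} (hn : χ 1 = n) (hp : p.Prime) (h7 : 7 ≤ p) (hn2 : n < 2 * p) (hnp : n ≠ p) {P : Subgroup G}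
    (hP : Syl p P ⊤) (hna : ¬ Ab P) : ¬ p ^ 2 ∣ O[{p}]((⊤ : Subgroup G)).index := by
  classical
  have hχP : IsCharacter P fun x : P => χ (P.subtype x) := char_comp _ (irr_char hχ)
  obtain ⟨k, hk⟩ := hP.pi.card
  have hpd : ∀ ψ, IsIrrCharacter P ψ → ∀ d : ℕ, ψ 1 = d → d < 2 * p → d = 1 ∨ d = p := by
    intro ψ hψ d hd h
    obtain ⟨j, -, rfl⟩ := (Nat.dvd_prime_pow hp).1 (hk ▸ degree_dvd_card hψ hd)
    rcases j with _ | _ | j
    · simp
    · simp
    · exfalso
      have : p ^ 2 ≤ p ^ (j + 1 + 1) := Nat.pow_le_pow_right hp.pos (by omega)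
      nlinarith
  have hKP : charKer (fun x : P => χ (P.subtype x)) = ⊥ := by
    rw [charKer_comp _ (irr_char hχ), hK, MonoidHom.comap_bot, Subgroup.ker_subtype]
  have hc1 : _root_.commutator P ≠ ⊥ := fun e => hna ⟨⟨fun a b => by
    rw [← commutatorElement_eq_one_iff_mul_comm, ← mem_bot, ← e]
    exact commutator_mem_commutator (mem_top a) (mem_top b)⟩⟩
  obtain ⟨θ, hθ, hθ0, hθ1⟩ : ∃ θ, IsIrrCharacter P θ ∧ ip (fun x : P => χ (P.subtype x)) θ ≠ 0 ∧ θ 1 = p := by
    by_contra h
    push Not at h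
    refine hc1 (eq_bot_iff.2 (hKP ▸ comm_le_ker hχP fun ψ hψ h0 => ?_))
    obtain ⟨d, hd⟩ := char_one_nat (irr_char hψ)
    rcases hpd ψ hψ d hd ((deg_le hχP hψ h0 hn hd).trans_lt hn2) with rfl | rfl
    · simpa using hd
    · exact absurd hd (h ψ hψ h0)
  by_cases hprim : IsPrim χ
  · exfalso
    have hR := char_sub_irr hχP hθ hθ0
    obtain ⟨r, hr⟩ := char_one_nat hR
    have hrn : r + p = n := by
      have : (r : ℂ) + p = n := by
        rw [← hr, ← hθ1, ← hn]; simp
      exact_mod_cast this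
    have hRk := comm_le_ker hR fun ψ hψ h0 => by
      obtain ⟨d, hd⟩ := char_one_nat (irr_char hψ)
      have := deg_le hR hψ h0 hr hd
      rcases hpd ψ hψ d hd (by omega) with rfl | rfl
      · simpa using hd
      · omega
    set D := _root_.commutator P ⊓ Subgroup.center P with hD
    obtain ⟨lam, hlam⟩ := exists_linear_of_le_center hθ D inf_le_right
    let f : D →* G := P.subtype.comp D.subtype
    have hres : (fun x => χ (f x)) = (p : ℂ) • (fun x => (lam x : ℂ)) + (r : ℂ) • (1 : D → ℂ) := by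
      funext x
      have e1 := hlam x 1
      have e2 := (mem_charKer_iff hR).1 (hRk x.2.1)
      rw [mul_one, hθ1] at e1
      rw [hr, Pi.sub_apply, e1] at e2
      simp only [Pi.add_apply, Pi.smul_apply, smul_eq_mul, Pi.one_apply, mul_one]
      rw [← e2]
      change χ x = _ + (χ x - _)
      ring
    haveI := Fact.mk hp
    have hPp := hP.pi.isPGroup
    obtain ⟨z, hz⟩ : ∃ z : D, orderOf z = p := by
      refine exists_prime_orderOf_dvd_card' p ?_
      have h1 : D ≠ ⊥ := by
        have := (pGrp_of_isPGroup hp (hPp.to_subgroup ⊤)).nil.meet_center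
          (nml_top_iff.2 (inferInstance : (_root_.commutator P).Normal)) hc1
        rwa [top_inf_eq, Subgroup.coe_top, Subgroup.centralizer_univ] at this
      exact (pGrp_of_isPGroup hp (hPp.to_subgroup D)).dvd h1
    have hz1 : (lam z : ℂ) ≠ 1 := fun e => by
      have h1 := congrFun hres z
      simp only [Pi.add_apply, Pi.smul_apply, smul_eq_mul, Pi.one_apply, mul_one, e] at h1
      have h2 : f z ∈ charKer χ := (mem_charKer_iff_irr hχ).2 (by rw [h1, hn, ← hrn]; push_cast; ring)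
      rw [hK, mem_bot] at h2
      have h3 : z = 1 := Subtype.ext (Subtype.ext h2)
      rw [h3, orderOf_one] at hz
      omega
    have hzp : (lam z : ℂ) ^ p = 1 := by
      rw [← Units.val_pow_eq_pow_val, ← map_pow, ← hz, pow_orderOf_eq_one, map_one, Units.val_one]
    have hprz : IsPrimitiveRoot (lam z : ℂ) p := by
      have := orderOf_eq_prime hzp hz1
      rw [← this]
      exact IsPrimitiveRoot.orderOf _
    have hζ := Complex.isPrimitiveRoot_exp p hp.ne_zero
    set ζ := Complex.exp (2 * Real.pi * Complex.I / p) with hζd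
    obtain ⟨i, -, hi⟩ := hprz.eq_pow_of_pow_eq_one hζ.pow_eq_one
    have hy : (lam (z ^ i) : ℂ) = ζ := by rw [map_pow, Units.val_pow_eq_pow_val, hi]
    have hnear : ‖ζ - 1‖ < 1 := by
      have e : ζ = Complex.exp (Complex.I * ((2 * Real.pi / p : ℝ) : ℂ)) := by
        rw [hζd]; congr 1; push_cast; ring
      rw [e]
      refine Real.norm_exp_I_mul_ofReal_sub_one_le.trans_lt ?_
      have h1 : (7 : ℝ) ≤ p := by exact_mod_cast h7
      rw [Real.norm_of_nonneg (by positivity), div_lt_one (by linarith)]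
      linarith [Real.pi_lt_d2]
    have hw1 : ‖1 - (1 + ζ) / 2‖ < 1 / 2 := by
      rw [show 1 - (1 + ζ) / 2 = -(ζ - 1) / 2 by ring, norm_div, norm_neg, Complex.norm_two]; linarith
    have hw2 : ‖ζ - (1 + ζ) / 2‖ < 1 / 2 := by
      rw [show ζ - (1 + ζ) / 2 = (ζ - 1) / 2 by ring, norm_div, Complex.norm_two]; linarith
    obtain ⟨A, hA1, hA2, hA3⟩ := near_ab (irr_char hχ) hK ((1 + ζ) / 2) (by
      have := norm_sub_norm_le (1 : ℂ) ((1 + ζ) / 2)
      rw [norm_one] at this
      linarith)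
    have hyA := hA3 f (fun a b => Subtype.ext (Subgroup.mem_center_iff.1 b.2.2 a)) (z ^ i) fun l hl h0 => by
      rw [hres, ip_add_left, ip_smul_left, ip_smul_left] at h0
      by_cases e : ip (fun x => (lam x : ℂ)) l = 0
      · rw [e, mul_zero, zero_add] at h0
        rw [← irr_eq_of_ip_ne_zero irr_one hl (right_ne_zero_of_mul h0)]
        exact hw1
      · rw [← irr_eq_of_ip_ne_zero (irr_of_hom lam) hl e]
        simp only [hy]
        exact hw2
    obtain ⟨μ, hμ⟩ := exists_linear_of_le_center hχ A (hprim.le_center hχ hK A hA2)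
    have e1 := hμ ⟨_, hyA⟩ 1
    have e2 := hμ ⟨_, hyA⟩ (f (z ^ i))
    have e3 := congrFun hres (z ^ i)
    have e4 := congrFun hres (z ^ i * z ^ i)
    simp only [Pi.add_apply, Pi.smul_apply, smul_eq_mul, Pi.one_apply, mul_one, map_mul lam, Units.val_mul,
      hy, map_mul f] at e1 e2 e3 e4
    rw [hn, ← hrn, Nat.cast_add] at e1
    have h5 : (p : ℂ) * r * (ζ - 1) ^ 2 = 0 := by
      rw [e3] at e1
      rw [e4, e3] at e2
      linear_combination (r + p : ℂ) * e2 - (p * ζ + r) * e1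
    have h6 : (r : ℂ) ≠ 0 := by rw [Nat.cast_ne_zero]; omega
    have h8 : (p : ℂ) ≠ 0 := by rw [Nat.cast_ne_zero]; omega
    exact hζ.ne_one hp.one_lt (sub_eq_zero.1 (pow_eq_zero_iff two_ne_zero |>.1
      ((mul_eq_zero.1 h5).resolve_left (mul_ne_zero h8 h6))))
  simp only [IsPrim, not_forall] at hprim
  obtain ⟨U, ψ, hψc, hind, hU⟩ := hprim
  have hψ := irr_of_irr_ind U.subtype_injective hψc (hind ▸ hχ)
  obtain ⟨e, he0, he⟩ := irr_one_pos hψ
  have hne : n = U.index * e := by
    have := ind_apply_one U.subtype_injective ψ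
    rw [hind, hn, he, Subgroup.range_subtype] at this
    exact_mod_cast this
  have hU1 : 1 < U.index := Subgroup.one_lt_index_of_ne_top hU
  set K := U.normalCore with hKd
  have hKf : K.index ∣ U.index.factorial := by
    letI := Fintype.ofFinite (G ⧸ U)
    rw [hKd, Subgroup.normalCore_eq_ker, Subgroup.index_ker, Subgroup.index_eq_card, Nat.card_eq_fintype_card (α := G ⧸ U),
      ← Fintype.card_perm, ← Nat.card_eq_fintype_card]
    exact Subgroup.card_subgroup_dvd_card _
  have hKdeg : ∀ φ, IsIrrCharacter K φ → ip (fun x => χ (K.subtype x)) φ ≠ 0 → ∀ d : ℕ, φ 1 = d → d ≤ e := by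
    intro φ hφ h0 d hd
    obtain ⟨φ0, h1, h2⟩ := H7.exists_irr_under (Subgroup.inclusion U.normalCore_le) hψ
    have h3 := ip_comp_comp_ne_zero U.subtype (Subgroup.inclusion U.normalCore_le) (irr_char hχ) hψ (irr_char h1)
      (by rw [← ip_ind_right _ _ (irr_cf hχ), hind, ip_irr_self hχ]; exact one_ne_zero) h2
    have h4 := (isNE_subtype K).degree_eq_of_under hχ hφ h1 h0 h3
    exact deg_le (char_comp _ hψc) h1 h2 (by simpa using he) (h4.trans hd)
  by_cases hm : U.index < p
  · exfalso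
    have hPK : P ≤ K := by
      obtain ⟨Q, hQ⟩ := exists_syl p K
      have h1 : Syl p Q ⊤ := hQ.of_relIndex le_top (by
        rw [Subgroup.relIndex_top_right]
        exact (p'nat_iff hp).2 fun h => absurd (hp.dvd_factorial.1 (h.trans hKf)) hm.not_ge)
      exact h1.le_of_syl_le (nml_top_iff.2 inferInstance).nrm hQ.le hP.pi le_top
    obtain ⟨φ, h1, h2, h3⟩ := exists_irr_between K.subtype (Subgroup.inclusion hPK) (irr_char hχ) hθ0
    obtain ⟨d, hd⟩ := char_one_nat (irr_char h1)
    have h4 := hKdeg φ h1 h2 d hd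
    have h5 := deg_le (char_comp _ (irr_char h1)) hθ h3 (n := d) (by simpa using hd) hθ1
    nlinarith
  · have he1 : e = 1 := by
      by_contra h
      have : 2 ≤ e := by omega
      nlinarith
    have hKab : Ab K := ⟨⟨fun a b => by
      have := comm_le_ker (char_comp K.subtype (irr_char hχ)) (fun φ hφ h0 => by
        obtain ⟨d, hd0, hd⟩ := irr_one_pos hφ
        have := hKdeg φ hφ h0 d hd
        rw [hd, show d = 1 by omega, Nat.cast_one]) (commutator_mem_commutator (mem_top a) (mem_top b))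
      rw [charKer_comp _ (irr_char hχ), hK, MonoidHom.comap_bot, Subgroup.ker_subtype, mem_bot] at this
      exact commutatorElement_eq_one_iff_mul_comm.1 this⟩⟩
    obtain ⟨Q, hQ⟩ := exists_syl p K
    have h1 : Q ≤ O[{p}]((⊤ : Subgroup G)) :=
      pcore_max hQ.pi (hQ.nml_trans ((hKab.cents hQ.le le_rfl).trans (cen_le_nrm Q)) (nml_top_iff.2 inferInstance))
    intro h2
    have h3 := h2.trans (Subgroup.index_dvd_of_le h1)
    rw [← Subgroup.relIndex_mul_index hQ.le] at h3
    have h4 := ((((Nat.Prime.coprime_iff_not_dvd hp).2 (hQ.not_dvd hp)).pow_left 2).dvd_of_dvd_mul_left h3).trans hKf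
    rw [hp.pow_dvd_factorial_iff (b := 2) (Nat.log_lt_of_lt_pow (by omega) (by nlinarith))] at h4
    simp only [Nat.Ico_succ_singleton, Finset.sum_singleton, pow_one] at h4
    have := (Nat.le_div_iff_mul_le hp.pos).1 h4
    nlinarith

/-- Let p ≥ 7 be a prime and let the finite group G have a faithful irreducible character of degree n with n < 2p and n ≠ p. If the Sylow p-subgroups of G are non-abelian then p² does not divide the index of O_p(G) in G; consequently, in every case G/O_p(G) has abelian Sylow p-subgroups. -/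
theorem result {G : Type*} [Group G] [Finite G] (χ : Cfsg.IrrCharacter G) (hfaith : ∀ g : G, (χ : G → ℂ) g = (χ : G → ℂ) 1 → g = 1) (n : ℕ) (hn : Cfsg.charDegree (χ : G → ℂ) = n) (p : ℕ) (hp : p.Prime) (h7 : 7 ≤ p) (hn2 : n < 2 * p) (hnp : n ≠ p) : ((∃ P : Sylow p G, ∃ x ∈ (P : Subgroup G), ∃ y ∈ (P : Subgroup G), x * y ≠ y * x) → ¬ p ^ 2 ∣ (Cfsg.pCore p G).index) ∧ ∀ Q : Sylow p (G ⧸ Cfsg.pCore p G), ∀ x ∈ (Q : Subgroup (G ⧸ Cfsg.pCore p G)), ∀ y ∈ (Q : Subgroup (G ⧸ Cfsg.pCore p G)), x * y = y * x := by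
  haveI := Fact.mk hp
  have hK : charKer (χ : G → ℂ) = ⊥ := by
    rw [eq_bot_iff]
    intro g hg
    exact hfaith g ((mem_charKer_iff_irr χ.2).1 hg)
  have h1 : ∀ P : Sylow p G, ¬ Ab (P : Subgroup G) → ¬ p ^ 2 ∣ (pCore p G).index := fun P h => by
    have := main χ.2 hK (hn ▸ H8.irr_one_eq χ) hp h7 hn2 hnp (syl_top hp P) h
    rwa [pcore_top, piCore_singleton hp] at this
  refine ⟨fun ⟨P, x, hx, y, hy, h⟩ => h1 P fun h' => h (h'.comm hx hy), fun Q x hx y hy => ?_⟩
  obtain ⟨P, rfl⟩ := Sylow.mapSurjective_surjective (QuotientGroup.mk'_surjective (pCore p G)) p Q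
  by_cases h : Ab (P : Subgroup G)
  · exact (h.map _).comm hx hy
  · set Q := P.mapSurjective (QuotientGroup.mk'_surjective (pCore p G))
    obtain ⟨k, hk⟩ := Q.isPGroup'.exists_card_eq
    have h2 : k ≤ 1 := by
      by_contra h3
      exact h1 P h (((pow_dvd_pow p (by omega : 2 ≤ k)).trans (hk ▸ Subgroup.card_subgroup_dvd_card _)))
    haveI : IsCyclic Q := isCyclic_of_card_dvd_prime (p := p) (by
      rw [hk]; exact (pow_dvd_pow p h2).trans (by rw [pow_one]))
    exact (Cyc.ab (A := (Q : Subgroup (G ⧸ pCore p G))) this).comm hx hy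

end Cfsg.Agent.S4471
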