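import Cfsg.Statements.S4473
import Mathlib
import Cfsg.Agent.H10.PGL2
import Cfsg.Agent.H7.Ind
import Cfsg.Agent.H6.Ortho
-- import your own Cfsg.Agent.* helpers here

set_option autoImplicit false
open Cfsg

namespace Cfsg.Agent.S4473


open MulAction Matrix Projectivization
open scoped MatrixGroups LinearAlgebra.Projectivization

theorem not_irr {H : Type*} [Group H] (ρ : Representation ℂ H (Fin 2 → ℂ)) (x : H10.PL ℂ)
    (h : ∀ g, ∃ c : ℂ, ρ g x.rep = c • x.rep) : ¬ ρ.IsIrreducible := by
  intro hi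
  let U : Subrepresentation ρ := ⟨ℂ ∙ x.rep, fun g v hv => by
    obtain ⟨a, rfl⟩ := Submodule.mem_span_singleton.mp hv
    obtain ⟨c, hc⟩ := h g
    rw [map_smul, hc]
    exact Submodule.smul_mem _ _ (Submodule.smul_mem _ _ (Submodule.mem_span_singleton_self _))⟩
  have h1 : Module.finrank ℂ (ℂ ∙ x.rep) = 1 := finrank_span_singleton x.rep_nonzero
  rcases hi.eq_bot_or_eq_top U with h2 | h2
  · have h3 : (ℂ ∙ x.rep) = ⊥ := congrArg Subrepresentation.toSubmodule h2
    rw [h3] at h1; simp at h1
  · have h3 : (ℂ ∙ x.rep) = ⊤ := congrArg Subrepresentation.toSubmodule h2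
    rw [h3] at h1; simp at h1


/-- Let the finite group G have a faithful irreducible character χ of degree 2 that is primitive: χ is not induced from a character of any proper subgroup. Then the centre of G has index 12, 24 or 60. -/
theorem result {G : Type*} [Group G] [Fintype G] (χ : Cfsg.IrrCharacter G) (hfaith : ∀ g : G, (χ : G → ℂ) g = (χ : G → ℂ) 1 → g = 1) (h2 : Cfsg.charDegree (χ : G → ℂ) = 2) (hprim : ∀ H : Subgroup G, H ≠ ⊤ → ∀ θ : H → ℂ, Cfsg.IsCharacter H θ → (χ : G → ℂ) ≠ Cfsg.indFun H θ) : (Subgroup.center G).index = 12 ∨ (Subgroup.center G).index = 24 ∨ (Subgroup.center G).index = 60 := by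
  obtain ⟨χ, n, ρ, hirr, rfl⟩ := χ
  have hn : n = 2 := by simpa [charDegree, Representation.char_one] using h2
  subst hn
  have hχ : IsIrrCharacter G ρ.character := ⟨2, ρ, hirr, rfl⟩
  have hχ1 : ρ.character 1 = (2 : ℕ) := by simp [Representation.char_one]
  have hinj : Function.Injective ρ := by
    rw [injective_iff_map_eq_one]
    intro g hg
    exact hfaith g (by simp only [Representation.character, hg, map_one])
  let μ : G →* GL (Fin 2) ℂ := ((Matrix.toLinAlgEquiv' (R := ℂ) (n := Fin 2)).symm.toMonoidHom.comp ρ).toHomUnits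
  have hμ : ∀ g v, (μ g : Matrix (Fin 2) (Fin 2) ℂ) *ᵥ v = ρ g v := fun g v => by
    change (Matrix.toLinAlgEquiv'.symm (ρ g)) *ᵥ v = _
    rw [← Matrix.toLinAlgEquiv'_apply, AlgEquiv.apply_symm_apply]
  let φ : G →* PGL(2, ℂ) := ProjGenLinGroup.mk.comp μ
  have hker : φ.ker = Subgroup.center G := by
    ext g
    rw [MonoidHom.mem_ker, Subgroup.mem_center_iff]
    change ProjGenLinGroup.mk (μ g) = 1 ↔ _
    rw [ProjGenLinGroup.mk_eq_one]
    constructor
    · intro h x
      apply hinj
      refine LinearMap.ext fun v => ?_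
      rw [← hμ, ← hμ, map_mul, map_mul, Subgroup.mem_center_iff.mp h]
    · intro h
      obtain ⟨c, hc⟩ := H6.exists_scalar_of_comm ρ (ρ g) fun x => by rw [← map_mul, ← map_mul, h]
      rw [Subgroup.mem_center_iff]
      intro A
      have : (μ g : Matrix (Fin 2) (Fin 2) ℂ) = c • 1 := by
        apply Matrix.toLin'.injective
        refine LinearMap.ext fun v => ?_
        rw [Matrix.toLin'_apply, hμ, hc]; simp
      apply Units.ext
      simp [this]
  have hfix : ∀ (g : G) (x : H10.PL ℂ), φ g • x = x → ∃ c : ℂ, ρ g x.rep = c • x.rep := by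
    intro g x hx
    change μ g • x = x at hx
    rw [← mk_rep x, smul_mk, mk_eq_mk_iff'] at hx
    obtain ⟨c, hc⟩ := hx
    exact ⟨c, by rw [← hμ]; exact hc.symm⟩
  haveI : Finite φ.range := Finite.of_surjective _ φ.rangeRestrict_surjective
  have hL : H10.LineAct 1 φ.range (H10.PL ℂ) := H10.lineAct_of_injective φ.range.subtype φ.range.subtype_injective
    fun _ _ => rfl
  rw [← hker, Subgroup.index_ker]
  rcases hL.classify with ⟨x, hx⟩ | ⟨z, hz⟩ | ⟨-, -, h⟩ | ⟨-, h, -⟩ | ⟨x, h, -⟩
  · exact absurd hirr (not_irr ρ x fun g => hfix g x (hx ⟨φ g, g, rfl⟩))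
  · exfalso
    let H := (stabilizer φ.range z).comap φ.rangeRestrict
    have hH : H.index = 2 := by
      rw [Subgroup.index_comap_of_surjective _ φ.rangeRestrict_surjective, index_stabilizer]; exact hz
    obtain ⟨θ, hθ, hip⟩ := H7.exists_irr_under H.subtype hχ
    obtain ⟨d, hd0, hd⟩ := H7.irr_one_pos hθ
    have hres := H7.char_comp H.subtype (H7.irr_char hχ)
    obtain ⟨m, hm⟩ := H7.ip_char_nat hres (H7.irr_char hθ)
    have hle := H7.degree_le_of_ip hres hθ hm (a := 2) (by simpa using hχ1) hd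
    have hm0 : m ≠ 0 := by rintro rfl; exact hip (by simpa using hm)
    have hd2 : d ≠ 2 := by
      rintro rfl
      have e := H7.eq_irr_of_degree_eq hres hθ hip (by rw [hd, map_one, hχ1])
      exact not_irr (ρ.comp H.subtype) z (fun g => hfix g z g.2)
        (H6.isIrreducible_of_isIrr_character _ (show IsIrrCharacter H fun x => ρ.character (H.subtype x) from e ▸ hθ))
    have hd1 : d = 1 := by
      have : d ≤ m * d := Nat.le_mul_of_pos_left _ (by omega)
      omega
    refine hprim H (fun h => by rw [h] at hH; simp at hH) θ (H7.irr_char hθ) ?_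
    rw [← H7.ind_subtype]
    refine (H7.eq_irr_of_degree_eq (H7.char_ind _ (H7.irr_char hθ)) hχ ?_ ?_).symm
    · rw [H7.ip_ind_left _ _ (H7.irr_cf hχ)]
      exact H7.ip_ne_zero_comm.mp hip
    · rw [H7.ind_apply_one H.subtype_injective, Subgroup.range_subtype, hH, hd, hd1, hχ1]; simp
  · exact h
  · omega
  · have : hL.U x = ⊥ := eq_bot_iff.mpr fun g hg => by simpa using (hL.mem_U.mp hg).2
    rw [this] at h
    simp at h

end Cfsg.Agent.S4473
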