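import Cfsg.Statements.S4476
import Mathlib
import Cfsg.Agent.H7.Cod

set_option autoImplicit false
open Cfsg

namespace Cfsg.Agent.S4476

open Cfsg Cfsg.Agent.H7
open scoped ComplexConjugate

/-- Let G be a finite group of even order g with exactly t involutions, and put α = (g − 1)/t (a rational number). Then (a) some non-identity element x of G has at most α² conjugates; and (b) some non-principal real-valued irreducible character of G has degree at most α. -/
theorem result {G : Type*} [Group G] [Fintype G] (heven : Even (Nat.card G)) (t : ℕ) (ht : Nat.card {x : G // orderOf x = 2} = t) : (∃ x : G, x ≠ 1 ∧ ((Subgroup.centralizer ({x} : Set G)).index : ℚ) ≤ (((Nat.card G : ℚ) - 1) / t) ^ 2) ∧ ∃ χ : Cfsg.IrrCharacter G, (χ : G → ℂ) ≠ (fun _ => 1) ∧ (∀ g : G, ((χ : G → ℂ) g).im = 0) ∧ (Cfsg.charDegree (χ : G → ℂ) : ℚ) ≤ ((Nat.card G : ℚ) - 1) / t := by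
  classical
  haveI := Fact.mk Nat.prime_two
  obtain ⟨s, hs⟩ := exists_prime_orderOf_dvd_card' (G := G) 2 heven.two_dvd
  haveI : Nonempty {x : G // orderOf x = 2} := ⟨⟨s, hs⟩⟩
  have h0 : (0 : ℚ) < t := by exact_mod_cast ht ▸ Nat.card_pos
  set S := ((irrSet G).erase 1).filter fun χ => ∀ g, (χ g).im = 0 with hS
  have h1 : Nat.card {s : G // s * s = 1} = t + 1 := by
    rw [← ht, Nat.subtype_card (Finset.univ.filter fun s : G => s * s = 1) (by simp),
      Nat.subtype_card (Finset.univ.filter fun s : G => orderOf s = 2) (by simp),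
      ← Finset.card_insert_of_notMem (a := 1) (by simp)]
    congr 1
    ext x
    by_cases h : x = 1 <;> simp [h, orderOf_eq_prime_iff, sq]
  have h2 : (t : ℚ) ≤ ∑ χ ∈ S, (charDegree χ : ℚ) := by
    have h2 := H6.card_sqrt_eq_sum (1 : G)
    rw [h1, sum_irr_eq_sum (fun χ => H6.fsInd χ * conj (χ 1)),
      ← Finset.add_sum_erase _ _ one_mem_irrSet] at h2
    have h3 : H6.fsInd (1 : G → ℂ) = 1 := by
      simp [H6.fsInd_def, ← Nat.card_eq_fintype_card]
    replace h2 := congrArg Complex.re h2
    rw [h3, Complex.add_re, Complex.re_sum] at h2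
    have h4 : ∑ χ ∈ (irrSet G).erase 1, (H6.fsInd χ * conj (χ 1)).re ≤
        ∑ χ ∈ S, (charDegree χ : ℝ) := by
      rw [hS, Finset.sum_filter]
      refine Finset.sum_le_sum fun χ hχ => ?_
      have h4 := mem_irrSet.mp (Finset.mem_of_mem_erase hχ)
      rw [char_one_eq (irr_char h4)]
      split_ifs with h5
      · rcases H6.fsInd_trichotomy h4 with e | e | e <;> simp [e]
      · simp [H6.fsInd_of_not_real h4 (mt (H6.conj_eq_iff_im_eq_zero χ).mp h5)]
    simp only [Nat.cast_add, Nat.cast_one, Complex.add_re, Complex.natCast_re, Complex.one_re,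
      Pi.one_apply, map_one, mul_one] at h2
    have : (t : ℝ) ≤ ∑ χ ∈ S, (charDegree χ : ℝ) := by linarith
    exact_mod_cast this
  have h3 : ∑ χ ∈ S, (charDegree χ : ℚ) ^ 2 ≤ Nat.card G - 1 := by
    rw [card_eq_sum_deg_sq, ← Finset.add_sum_erase _ _ one_mem_irrSet,
      charDegree_eq (d := 1) (by simp)]
    push_cast
    rw [add_sub_cancel_left]
    exact Finset.sum_le_sum_of_subset_of_nonneg (Finset.filter_subset _ _) fun _ _ _ => by positivity
  have h4 : (1 : ℚ) < Nat.card G := by
    exact_mod_cast lt_of_lt_of_le one_lt_two (hs ▸ orderOf_le_card)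
  constructor
  · by_contra! H
    have h5 : (t : ℚ) ^ 2 ≤ S.card * (Nat.card G - 1) :=
      ((pow_le_pow_left₀ h0.le h2 2).trans sq_sum_le_card_mul_sum_sq).trans
        (mul_le_mul_of_nonneg_left h3 (by positivity))
    have h6 : S.card + 1 ≤ Nat.card (ConjClasses G) := by
      rw [← H6.card_irr_eq_card_conjClasses, ← card_irrSet,
        ← Finset.card_erase_add_one one_mem_irrSet]
      exact Nat.succ_le_succ (Finset.card_filter_le _ _)
    have h7 := H6.sum_card_centralizer_univ (G := G)
    rw [← Finset.add_sum_erase _ _ (Finset.mem_univ 1), H6.centralizer_one', Subgroup.card_top] at h7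
    have h8 : ∑ g ∈ Finset.univ.erase (1 : G), (Nat.card (Subgroup.centralizer ({g} : Set G)) : ℚ) <
        ∑ g ∈ Finset.univ.erase (1 : G), (Nat.card G : ℚ) / ((Nat.card G - 1) / t) ^ 2 := by
      refine Finset.sum_lt_sum_of_nonempty ⟨s, by simp; rintro rfl; simp at hs⟩ fun g hg => ?_
      rw [lt_div_iff₀ (by have := sub_pos.mpr h4; positivity)]
      calc _ < (Nat.card (Subgroup.centralizer ({g} : Set G)) : ℚ) *
          (Subgroup.centralizer ({g} : Set G)).index :=
            mul_lt_mul_of_pos_left (H g (Finset.ne_of_mem_erase hg)) (by exact_mod_cast Nat.card_pos)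
        _ = _ := by exact_mod_cast Subgroup.card_mul_index _
    rw [Finset.sum_const, Finset.card_erase_of_mem (Finset.mem_univ _), Finset.card_univ,
      ← Nat.card_eq_fintype_card, nsmul_eq_mul, Nat.cast_sub Nat.card_pos, ← Nat.cast_sum] at h8
    have h9 : ((∑ g ∈ Finset.univ.erase (1 : G), Nat.card (Subgroup.centralizer ({g} : Set G)) : ℕ) : ℚ)
        = Nat.card G * Nat.card (ConjClasses G) - Nat.card G := by
      rw [eq_sub_iff_add_eq']; exact_mod_cast h7
    have h10 : (S.card : ℚ) + 1 ≤ Nat.card (ConjClasses G) := by exact_mod_cast h6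
    have h11 := sub_pos.mpr h4
    rw [h9, Nat.cast_one, div_pow, div_div_eq_mul_div, ← mul_div_assoc, lt_div_iff₀ (by positivity)] at h8
    generalize (Nat.card G : ℚ) = n at *
    generalize (Nat.card (ConjClasses G) : ℚ) = k at *
    have h12 : n * (n - 1) * (t : ℚ) ^ 2 ≤ n * (n - 1) * ((k - 1) * (n - 1)) :=
      mul_le_mul_of_nonneg_left (h5.trans (mul_le_mul_of_nonneg_right (by linarith) h11.le))
        (by positivity)
    nlinarith
  · by_contra! H
    have h5 : ∀ χ ∈ S, (Nat.card G - 1 : ℚ) / t * charDegree χ < (charDegree χ : ℚ) ^ 2 := by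
      intro χ hχ
      simp only [hS, Finset.mem_filter, Finset.mem_erase, mem_irrSet] at hχ
      rw [sq]
      exact mul_lt_mul_of_pos_right (H ⟨χ, hχ.1.2⟩ hχ.1.1 hχ.2)
        (by exact_mod_cast irr_degree_pos hχ.1.2)
    have h6 := Finset.sum_lt_sum_of_nonempty (Finset.nonempty_of_sum_ne_zero (h0.trans_le h2).ne') h5
    rw [← Finset.mul_sum] at h6
    have h7 := mul_le_mul_of_nonneg_left h2 (div_pos (sub_pos.mpr h4) h0).le
    rw [div_mul_cancel₀ _ h0.ne'] at h7
    linarith

end Cfsg.Agent.S4476
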