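import Cfsg.Statements.S4478
import Mathlib
import Cfsg.Agent.H7.Cod

set_option autoImplicit false
open Cfsg

namespace Cfsg.Agent.S4478

open Cfsg Cfsg.Agent.H7
open scoped ComplexConjugate

/-- Let G be a finite group of even order and χ an irreducible character of G whose degree x is divisible by the full power of 2 dividing the order of G and, for every odd prime p such that G has an element of order 2p, by the full power of p dividing the order of G. Then all involutions of G are conjugate, the centralizer of every involution has order exactly x with x coprime to its index, and the Frobenius–Schur indicator of χ equals 1. -/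
theorem result {G : Type*} [Group G] [Fintype G] (heven : Even (Nat.card G)) (χ : Cfsg.IrrCharacter G) (h2 : 2 ^ (Nat.card G).factorization 2 ∣ Cfsg.charDegree (χ : G → ℂ)) (hp : ∀ p : ℕ, p.Prime → p ≠ 2 → (∃ g : G, orderOf g = 2 * p) → p ^ (Nat.card G).factorization p ∣ Cfsg.charDegree (χ : G → ℂ)) : (∀ s t : G, orderOf s = 2 → orderOf t = 2 → IsConj s t) ∧ (∀ s : G, orderOf s = 2 → Nat.card (Subgroup.centralizer ({s} : Set G)) = Cfsg.charDegree (χ : G → ℂ) ∧ (Nat.card (Subgroup.centralizer ({s} : Set G))).Coprime (Subgroup.centralizer ({s} : Set G)).index) ∧ (Nat.card G : ℂ)⁻¹ * ∑ g : G, (χ : G → ℂ) (g * g) = 1 := by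
  classical
  obtain ⟨χ, hχ⟩ := χ
  simp only at h2 hp ⊢
  haveI := Fact.mk Nat.prime_two
  have hd := irr_degree_pos hχ
  have hn : Nat.card G ≠ 0 := Nat.card_pos.ne'
  have hv : ∀ p : ℕ, p.Prime → p ^ (Nat.card G).factorization p ∣ charDegree χ → ∀ x,
      p ∣ orderOf x → χ x = 0 := fun p hp h x hx =>
    defectZero_vanish hp hχ ((hp.pow_dvd_iff_le_factorization hd.ne').mp h) hx
  have hp' : ∀ p : ℕ, p.Prime → (∃ g : G, 2 ∣ orderOf g ∧ p ∣ orderOf g) →
      p ^ (Nat.card G).factorization p ∣ charDegree χ := by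
    rintro p h1 ⟨g, h3, h4⟩
    by_cases e : p = 2
    · exact e ▸ h2
    exact hp p h1 e ⟨_, orderOf_pow_orderOf_div (orderOf_pos g).ne'
      (((Nat.coprime_primes Nat.prime_two h1).mpr (Ne.symm e)).mul_dvd_of_dvd_of_dvd h3 h4)⟩
  have h1 : χ ≠ 1 := by
    rintro rfl
    rw [charDegree_eq (d := 1) (by simp), Nat.dvd_one, Nat.pow_eq_one] at h2
    exact (Nat.prime_two.factorization_pos_of_dvd hn heven.two_dvd).ne' (by simpa using h2)
  set I := Finset.univ.filter fun s : G => orderOf s = 2 with hI
  set O := Finset.univ.filter fun s : G => Odd (orderOf s) with hO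
  have h3 : ∑ g, χ (g * g) = I.card * charDegree χ := by
    have h3 : ∑ g ∈ O, χ (g * g) = ∑ g ∈ O, χ g := by
      have h4 : ∀ g ∈ O, g * g ∈ O := fun g hg => by
        simp only [hO, Finset.mem_filter, Finset.mem_univ, true_and] at hg ⊢
        exact hg.of_dvd_nat (sq g ▸ orderOf_pow_dvd 2)
      have h5 : Set.InjOn (fun g : G => g * g) O := fun a ha b hb e => by
        simp only [hO, Finset.coe_filter, Finset.mem_univ, true_and, Set.mem_setOf_eq] at ha hb e
        obtain ⟨k, hk⟩ := ha.mul hb
        have h5 : ∀ c : G, orderOf c ∣ 2 * k + 1 → c = (c * c) ^ (k + 1) := fun c hc => by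
          rw [← sq, ← pow_mul, show 2 * (k + 1) = 2 * k + 1 + 1 by ring, pow_succ,
            orderOf_dvd_iff_pow_eq_one.mp hc, one_mul]
        rw [h5 a (hk ▸ dvd_mul_right _ _), h5 b (hk ▸ dvd_mul_left _ _), e]
      exact Finset.sum_nbij _ h4 h5 (Finset.surjOn_of_injOn_of_card_le _ h4 h5 le_rfl) fun _ _ => rfl
    have h4 : ∑ g ∈ O, χ g = 0 := by
      have h4 := ip_irr_ne hχ irr_one h1
      simp only [ip_def, Pi.one_apply, map_one, mul_one, mul_eq_zero, inv_eq_zero,
        card_ne_zero', false_or] at h4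
      rw [← h4]
      exact Finset.sum_subset (Finset.subset_univ _) fun x _ hx => hv 2 Nat.prime_two h2 x
        (even_iff_two_dvd.mp (Nat.not_odd_iff_even.mp (by simpa [hO] using hx)))
    rw [← Finset.sum_filter_add_sum_filter_not _ (fun s : G => Odd (orderOf s)), h3, h4, zero_add,
      ← nsmul_eq_mul, ← Finset.sum_const]
    refine (Finset.sum_subset_zero_on_sdiff (fun s hs => ?_) (fun x hx => ?_) fun s hs => ?_).symm
    · simp only [hI, Finset.mem_filter, Finset.mem_univ, true_and] at hs ⊢
      simp [hs]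
    · simp only [hI, Finset.mem_sdiff, Finset.mem_filter, Finset.mem_univ, true_and,
        Nat.not_odd_iff_even] at hx
      obtain ⟨p, h5, h6⟩ := Nat.exists_prime_and_dvd (n := orderOf (x * x)) fun e => hx.2 (by
        refine orderOf_eq_prime (by simpa [sq] using e) ?_
        rintro rfl; simp at hx)
      exact hv p h5 (hp' p h5 ⟨x, hx.1.two_dvd, h6.trans (sq x ▸ orderOf_pow_dvd 2)⟩) _ h6
    · simp only [hI, Finset.mem_filter, Finset.mem_univ, true_and] at hs
      rw [← sq, ← hs, pow_orderOf_eq_one, char_one_eq (irr_char hχ)]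
  obtain ⟨s, hs⟩ := exists_prime_orderOf_dvd_card' (G := G) 2 heven.two_dvd
  have h4 : 0 < I.card := Finset.card_pos.mpr ⟨s, by simp [hI, hs]⟩
  have h5 : H6.fsInd χ = 1 := by
    have h5 : H6.fsInd χ * Nat.card G = (I.card * charDegree χ : ℕ) := by
      rw [H6.fsInd_def, h3, mul_comm, ← mul_assoc, mul_inv_cancel₀ (card_ne_zero' G)]; simp
    have := Nat.mul_pos h4 hd
    rcases H6.fsInd_trichotomy hχ with e | e | e
    · rw [e, zero_mul] at h5; exact absurd (Nat.cast_eq_zero.mp h5.symm) this.ne'
    · exact e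
    · rw [e, neg_one_mul, neg_eq_iff_add_eq_zero, ← Nat.cast_add, Nat.cast_eq_zero] at h5; omega
  have h6 : I.card * charDegree χ = Nat.card G := by
    rw [H6.fsInd_def, h3, inv_mul_eq_one₀ (card_ne_zero' G)] at h5
    exact_mod_cast h5.symm
  have h7 : ∀ s : G, orderOf s = 2 → ∀ p : ℕ, p.Prime →
      p ∣ Nat.card (Subgroup.centralizer ({s} : Set G)) →
      p ^ (Nat.card G).factorization p ∣ charDegree χ := fun s hs p h7 h8 => by
    by_cases e : p = 2
    · exact e ▸ h2
    haveI := Fact.mk h7
    obtain ⟨⟨x, hx⟩, h9⟩ := exists_prime_orderOf_dvd_card' p h8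
    rw [Subgroup.orderOf_mk] at h9
    refine hp p h7 e ⟨s * x, ?_⟩
    rw [Commute.orderOf_mul_eq_mul_orderOf_of_coprime
      (Subgroup.mem_centralizer_singleton_iff.mp hx).symm
      (by rw [hs, h9]; exact (Nat.coprime_primes Nat.prime_two h7).mpr (Ne.symm e)), hs, h9]
  have h8 : ∀ s : G, orderOf s = 2 → Nat.card (Subgroup.centralizer ({s} : Set G)) = charDegree χ ∧
      ∀ t, orderOf t = 2 → IsConj s t := fun s hs => by
    have h8 : Nat.card (Subgroup.centralizer ({s} : Set G)) ∣ charDegree χ :=
      (Nat.dvd_iff_prime_pow_dvd_dvd _ _).mpr fun p k h8 h9 => by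
        rcases k with _ | k
        · simp
        exact (pow_dvd_pow p ((h8.pow_dvd_iff_le_factorization hn).mp (h9.trans
          (Subgroup.card_subgroup_dvd_card _)))).trans
          (h7 s hs p h8 ((dvd_pow_self p k.succ_ne_zero).trans h9))
    have h9 : (Finset.univ.filter (IsConj s)).card =
        (Subgroup.centralizer ({s} : Set G)).index := by
      have := H6.sum_class_eq (χ := fun _ => 1) (cf_const 1) s
      simp only [Finset.sum_const, nsmul_eq_mul, mul_one] at this
      exact_mod_cast this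
    have h10 : Finset.univ.filter (IsConj s) ⊆ I := fun t ht => by
      obtain ⟨c, rfl⟩ := isConj_iff.mp (Finset.mem_filter.mp ht).2
      simpa [hI, hs] using (MulAut.conj c).orderOf_eq s
    have h11 := Finset.card_le_card h10
    have h12 := (Subgroup.centralizer ({s} : Set G)).card_mul_index
    have h13 := Nat.le_of_dvd hd h8
    have h14 : 0 < Nat.card (Subgroup.centralizer ({s} : Set G)) := Nat.card_pos
    rw [← h9, ← h6] at h12
    have h15 : I.card ≤ (Finset.univ.filter (IsConj s)).card := by nlinarith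
    exact ⟨by nlinarith, fun t ht => (Finset.mem_filter.mp
      ((Finset.eq_of_subset_of_card_le h10 h15).ge (by simp [hI, ht]))).2⟩
  refine ⟨fun s t hs ht => (h8 s hs).2 t ht, fun s hs => ⟨(h8 s hs).1, ?_⟩, h5⟩
  refine Nat.coprime_of_dvd fun p h9 h10 h11 => ?_
  have h12 := mul_dvd_mul ((h8 s hs).1 ▸ h7 s hs p h9 h10) h11
  rw [Subgroup.card_mul_index, ← pow_succ, h9.pow_dvd_iff_le_factorization hn] at h12
  omega

end Cfsg.Agent.S4478
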