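import Cfsg.Statements.S4479
import Mathlib
import Cfsg.Agent.H8.Klein

set_option autoImplicit false
open Cfsg

namespace Cfsg.Agent.S4479

open H8 H9 in
theorem sum_four {G : Type*} [Group G] [Finite G] {B : Set (IrrCharacter G)} {χ₁ χ₂ χ₃ : IrrCharacter G}
    (hB : B = {χ : Cfsg.IrrCharacter G | (χ : G → ℂ) = (fun _ => 1) ∨ χ = χ₁ ∨ χ = χ₂ ∨ χ = χ₃})
    (hdist : (χ₁ : G → ℂ) ≠ (fun _ => 1) ∧ (χ₂ : G → ℂ) ≠ (fun _ => 1) ∧ (χ₃ : G → ℂ) ≠ (fun _ => 1) ∧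
      χ₁ ≠ χ₂ ∧ χ₁ ≠ χ₃ ∧ χ₂ ≠ χ₃) (F : IrrCharacter G → ℂ) :
    ∑ χ ∈ bs B, F χ = F (irrOne G) + F χ₁ + F χ₂ + F χ₃ := by
  classical
  obtain ⟨h1, h2, h3, h4, h5, h6⟩ := hdist
  have a1 : irrOne G ≠ χ₁ := fun e => h1 (e ▸ rfl)
  have a2 : irrOne G ≠ χ₂ := fun e => h2 (e ▸ rfl)
  have a3 : irrOne G ≠ χ₃ := fun e => h3 (e ▸ rfl)
  rw [show bs B = {irrOne G, χ₁, χ₂, χ₃} by ext χ; simp [hB, Subtype.ext_iff, irrOne],
    Finset.sum_insert (by simp [*]), Finset.sum_insert (by simp [*]), Finset.sum_pair h6]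
  ring

/-- An order formula from the principal 2-block. Let G be a finite group of order 4·g₀ with g₀ odd having no normal 2-complement (no normal subgroup of order g₀); let P be a Sylow 2-subgroup, J an involution of P, and fix a maximal ideal M of the algebraic integers containing 2. Suppose the principal 2-block consists of the principal character and three further distinct characters χ₁, χ₂, χ₃ of degrees x₁, x₂, x₃, with χ_i(J) = ε_i = ±1. Then, writing c(J) and c(P) for the orders of the centralizers of J and of P, the order of G equals 8·α·c(J)³/c(P)² with α = x₁x₂x₃ / ((x₁ + ε₁)(x₂ + ε₂)(x₃ + ε₃)). -/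
theorem result {G : Type*} [Group G] [Finite G] (M : Ideal Cfsg.AlgInt) (hM : Cfsg.IsPModular 2 M) (g₀ : ℕ) (hg₀ : Odd g₀) (hG : Nat.card G = 4 * g₀) (hnc : ¬ ∃ N : Subgroup G, N.Normal ∧ Nat.card N = g₀) (P : Sylow 2 G) (J : G) (hJ : J ∈ (P : Subgroup G)) (hJ2 : orderOf J = 2) (χ₁ χ₂ χ₃ : Cfsg.IrrCharacter G) (ε₁ ε₂ ε₃ : ℤ) (hB : Cfsg.principalBlock M G = {χ : Cfsg.IrrCharacter G | (χ : G → ℂ) = (fun _ => 1) ∨ χ = χ₁ ∨ χ = χ₂ ∨ χ = χ₃}) (hdist : (χ₁ : G → ℂ) ≠ (fun _ => 1) ∧ (χ₂ : G → ℂ) ≠ (fun _ => 1) ∧ (χ₃ : G → ℂ) ≠ (fun _ => 1) ∧ χ₁ ≠ χ₂ ∧ χ₁ ≠ χ₃ ∧ χ₂ ≠ χ₃) (hε : (ε₁ = 1 ∨ ε₁ = -1) ∧ (ε₂ = 1 ∨ ε₂ = -1) ∧ (ε₃ = 1 ∨ ε₃ = -1)) (hval : (χ₁ : G → ℂ) J = ε₁ ∧ (χ₂ : G → ℂ) J = ε₂ ∧ (χ₃ : G → ℂ) J = ε₃) : (Nat.card G : ℚ) = 8 * (((Cfsg.charDegree (χ₁ : G → ℂ) : ℚ) * Cfsg.charDegree (χ₂ : G → ℂ) * Cfsg.charDegree (χ₃ : G → ℂ)) / ((Cfsg.charDegree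 (χ₁ : G → ℂ) + ε₁) * (Cfsg.charDegree (χ₂ : G → ℂ) + ε₂) * (Cfsg.charDegree (χ₃ : G → ℂ) + ε₃))) * (Nat.card (Subgroup.centralizer ({J} : Set G)) : ℚ) ^ 3 / (Nat.card (Subgroup.centralizer ((P : Subgroup G) : Set G)) : ℚ) ^ 2 := by
  open H8 H9 in
  classical
  have := hM.2.1
  obtain ⟨hP, hone⟩ := klein_of_card hg₀ hG hnc P
  have h1 := klein_order hM P hP hone hJ hJ2
  have h2 := col_principal hM (y := J) (z := 1) ⟨1, hJ2⟩ ⟨0, by simp⟩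
  rw [if_neg (by simpa using H20.ne_one_of_orderOf_two hJ2)] at h2
  simp only [sum_four hB hdist, hval.1, hval.2.1, hval.2.2, irrOne_apply, map_one] at h1 h2
  simp only [irr_one_eq, map_natCast] at h1 h2
  have a1 : (charDegree (χ₁ : G → ℂ) : ℚ) ≠ 0 := by exact_mod_cast charDegree_irr_ne_zero χ₁
  have a2 : (charDegree (χ₂ : G → ℂ) : ℚ) ≠ 0 := by exact_mod_cast charDegree_irr_ne_zero χ₂
  have a3 : (charDegree (χ₃ : G → ℂ) : ℚ) ≠ 0 := by exact_mod_cast charDegree_irr_ne_zero χ₃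
  have a4 : (Nat.card (Subgroup.centralizer ({J} : Set G)) : ℚ) ≠ 0 := by
    exact_mod_cast Nat.card_pos.ne'
  have a5 : (Nat.card (Subgroup.centralizer ((P : Subgroup G) : Set G)) : ℚ) ≠ 0 := by
    exact_mod_cast Nat.card_pos.ne'
  generalize charDegree (χ₁ : G → ℂ) = x, charDegree (χ₂ : G → ℂ) = y,
    charDegree (χ₃ : G → ℂ) = z, Nat.card (Subgroup.centralizer ({J} : Set G)) = c,
    Nat.card (Subgroup.centralizer ((P : Subgroup G) : Set G)) = d, Nat.card G = g at *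
  have h3 : (g : ℚ) * (1 / 1 + ε₁ / x + ε₂ / y + ε₃ / z) * d ^ 2 = 8 * c ^ 3 := by
    apply Rat.cast_injective (α := ℂ)
    push_cast
    exact h1
  have h4 : (1 : ℚ) * 1 + ε₁ * x + ε₂ * y + ε₃ * z = 0 := by exact_mod_cast h2
  have e1 : (ε₁ : ℚ) ^ 2 = 1 := by rcases hε.1 with h | h <;> simp [h]
  have e2 : (ε₂ : ℚ) ^ 2 = 1 := by rcases hε.2.1 with h | h <;> simp [h]
  have e3 : (ε₃ : ℚ) ^ 2 = 1 := by rcases hε.2.2 with h | h <;> simp [h]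
  have h5 : (g : ℚ) * ((x + ε₁) * (y + ε₂) * (z + ε₃)) * d ^ 2 = 8 * (x * y * z) * c ^ 3 := by
    field_simp at h3
    linear_combination h3 + g * d ^ 2 * (ε₁ * ε₂ * ε₃ * h4 - ε₂ * ε₃ * x * e1 - ε₁ * ε₃ * y * e2 -
      ε₁ * ε₂ * z * e3)
  have h6 : ((x : ℚ) + ε₁) * (y + ε₂) * (z + ε₃) ≠ 0 := fun e => by
    rw [e] at h5
    simp [a1, a2, a3, a4] at h5
  rw [eq_div_iff (pow_ne_zero 2 a5), mul_div_assoc', div_mul_eq_mul_div, eq_div_iff h6]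
  linear_combination h5

end Cfsg.Agent.S4479
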