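import Cfsg.Statements.S4480
import Mathlib
import Cfsg.Agent.S4479

set_option autoImplicit false
open Cfsg

namespace Cfsg.Agent.S4480

/-- Same setting as the Klein-four order formula: G of order 4·g₀ (g₀ odd) with no normal 2-complement, P a Sylow 2-subgroup, J an involution of P, M over 2, principal 2-block {1, χ₁, χ₂, χ₃} with χ_i(J) = ε_i = ±1. Suppose ε₁ε₂ε₃ = −1 and ε₃ = −1, and put q = x₃ = χ₃(1). Then there is a natural number m with 4·c(J) = m·c(P)·(q + 1), and the order of G equals (m³·c(P)/4)·(q³ − q)/2, that is 8·#G = m³·c(P)·(q³ − q). -/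
theorem result {G : Type*} [Group G] [Finite G] (M : Ideal Cfsg.AlgInt) (hM : Cfsg.IsPModular 2 M) (g₀ : ℕ) (hg₀ : Odd g₀) (hG : Nat.card G = 4 * g₀) (hnc : ¬ ∃ N : Subgroup G, N.Normal ∧ Nat.card N = g₀) (P : Sylow 2 G) (J : G) (hJ : J ∈ (P : Subgroup G)) (hJ2 : orderOf J = 2) (χ₁ χ₂ χ₃ : Cfsg.IrrCharacter G) (ε₁ ε₂ ε₃ : ℤ) (hB : Cfsg.principalBlock M G = {χ : Cfsg.IrrCharacter G | (χ : G → ℂ) = (fun _ => 1) ∨ χ = χ₁ ∨ χ = χ₂ ∨ χ = χ₃}) (hdist : (χ₁ : G → ℂ) ≠ (fun _ => 1) ∧ (χ₂ : G → ℂ) ≠ (fun _ => 1) ∧ (χ₃ : G → ℂ) ≠ (fun _ => 1) ∧ χ₁ ≠ χ₂ ∧ χ₁ ≠ χ₃ ∧ χ₂ ≠ χ₃) (hε : (ε₁ = 1 ∨ ε₁ = -1) ∧ (ε₂ = 1 ∨ ε₂ = -1) ∧ (ε₃ = 1 ∨ ε₃ = -1)) (hval : (χ₁ : G → ℂ) J = ε₁ ∧ (χ₂ : G → ℂ) J = ε₂ ∧ (χ₃ : G → ℂ) J = ε₃) (hprod : ε₁ * ε₂ * ε₃ = -1) (hε₃ : ε₃ = -1) : ∃ m : ℕ, 4 * Nat.card (Subgroup.centralizer ({J} : Set G)) = m * Nat.card (Subgroup.centralizer ((P : Subgroup G) : Set G)) * (Cfsg.charDegree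 (χ₃ : G → ℂ) + 1) ∧ 8 * Nat.card G = m ^ 3 * Nat.card (Subgroup.centralizer ((P : Subgroup G) : Set G)) * (Cfsg.charDegree (χ₃ : G → ℂ) ^ 3 - Cfsg.charDegree (χ₃ : G → ℂ)) := by
  open H8 H9 S4479 in
  classical
  have := hM.2.1
  have := Fintype.ofFinite G
  obtain ⟨hP, hone⟩ := klein_of_card hg₀ hG hnc P
  have h0 := S4479.result M hM g₀ hg₀ hG hnc P J hJ hJ2 χ₁ χ₂ χ₃ ε₁ ε₂ ε₃ hB hdist hε hval
  have h2 := col_principal hM (y := J) (z := 1) ⟨1, hJ2⟩ ⟨0, by simp⟩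
  rw [if_neg (by simpa using H20.ne_one_of_orderOf_two hJ2)] at h2
  simp only [sum_four hB hdist, hval.1, hval.2.1, hval.2.2, irrOne_apply, map_one] at h2
  simp only [irr_one_eq, map_natCast] at h2
  have h4 : (1 : ℤ) * 1 + ε₁ * charDegree (χ₁ : G → ℂ) + ε₂ * charDegree (χ₂ : G → ℂ) +
    ε₃ * charDegree (χ₃ : G → ℂ) = 0 := by exact_mod_cast h2
  have a1 := charDegree_irr_ne_zero χ₁
  have a2 := charDegree_irr_ne_zero χ₂
  have a3 := charDegree_irr_ne_zero χ₃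
  subst hε₃
  obtain ⟨rfl, rfl⟩ : ε₁ = 1 ∧ ε₂ = 1 := by
    rcases hε.1 with rfl | rfl <;> rcases hε.2.1 with rfl | rfl <;> omega
  have h5 : ∀ (χ : IrrCharacter G) (a : ℤ), (χ : G → ℂ) J = a →
      (4 : ℤ) ∣ charDegree (χ : G → ℂ) - a := fun χ a h => by
    have := card_dvd_degree_sub χ P (a := a) fun s hs h1 => (irr_isConj χ (hone _ _
      (H20.orderOf_two_of (klein_pElt P hP (pElt_of_mem P.2 hs)) h1) hJ2)).trans h
    rwa [hP.card_four] at this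
  have h6 : ∑ χ ∈ bs (principalBlock M G), H6.fsInd (χ : G → ℂ) * starRingEnd ℂ ((χ : G → ℂ) J) = 0 := by
    simp only [H6.fsInd, mul_assoc, ← Finset.mul_sum, Finset.sum_mul]
    rw [Finset.sum_comm, Finset.sum_eq_zero, mul_zero]
    intro s _
    rw [bs_eq_filter]
    refine weak_orthogonality' hM ub_principal (pPart_eq_one_iff.1 ?_) (hJ2 ▸ dvd_rfl)
    obtain ⟨a, ha⟩ := exists_pPart_eq_pow (G := G) (p := 2)
    rw [ha, (Commute.refl s).mul_pow, ← ha, klein_pElt P hP (orderOf_pPart s)]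
  have h7 : ∀ χ : IrrCharacter G, (χ : G → ℂ) J = (1 : ℤ) →
      (fun g => starRingEnd ℂ ((χ : G → ℂ) g)) = χ → H6.fsInd (χ : G → ℂ) = 1 := fun χ h h' =>
    H7.fsInd_eq_one_of_odd χ.2 ((H6.conj_eq_iff_im_eq_zero _).1 h') (irr_one_eq χ)
      (by have := h5 χ 1 h; rw [Nat.odd_iff]; omega)
  have h8 : (fun g => starRingEnd ℂ ((χ₁ : G → ℂ) g)) ≠ χ₁ := fun e => by
    rw [sum_four hB hdist, hval.1, hval.2.1, hval.2.2, h7 _ hval.1 e, h7 (irrOne G) (by simp)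
      (by ext; simp)] at h6
    have h9 : H6.fsInd (χ₂ : G → ℂ) = 0 ∨ H6.fsInd (χ₂ : G → ℂ) = 1 :=
      or_iff_not_imp_left.2 fun h => h7 _ hval.2.1 (by simpa [H6.fsInd_eq_zero_iff χ₂.2] using h)
    rcases h9 with h | h <;> rcases H6.fsInd_trichotomy χ₃.2 with h' | h' | h' <;>
      norm_num [h, h'] at h6
  have h9 : charDegree (χ₁ : G → ℂ) = charDegree (χ₂ : G → ℂ) := by
    have := star_mem_principal hM (χ := χ₁) (by simp [hB])
    rw [hB] at this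
    rcases this with h | h | h | h
    · exact (hdist.1 (funext fun g => by simpa using congrArg (starRingEnd ℂ) (congrFun h g))).elim
    · exact (h8 (congrArg Subtype.val h)).elim
    · have := congrFun (congrArg Subtype.val h) 1
      simpa [irr_one_eq] using this
    · have := congrFun (congrArg Subtype.val h) J
      norm_num [hval.1, hval.2.2] at this
  have hCP : Subgroup.centralizer ((P : Subgroup G) : Set G) ≤ Subgroup.centralizer {J} :=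
    Subgroup.centralizer_le (by simpa)
  obtain ⟨r, hr⟩ := Subgroup.card_dvd_of_le hCP
  obtain ⟨i, hi⟩ := Subgroup.card_subgroup_dvd_card (Subgroup.centralizer ({J} : Set G))
  have a5 : 0 < Nat.card (Subgroup.centralizer ((P : Subgroup G) : Set G)) := Nat.card_pos
  have a6 : r ≠ 0 := by rintro rfl; exact Nat.card_pos.ne' hr
  have h10 := h5 _ _ hval.1
  rw [hi, hr, ← h9] at h0
  rw [hi, hr]
  generalize charDegree (χ₁ : G → ℂ) = x, charDegree (χ₂ : G → ℂ) = y,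
    charDegree (χ₃ : G → ℂ) = z,
    Nat.card (Subgroup.centralizer ((P : Subgroup G) : Set G)) = d at *
  obtain rfl : z = 2 * x + 1 := by omega
  have h11 : i * (x + 1) ^ 2 = x * (2 * x + 1) * (2 * r) ^ 2 := by
    have b1 : (x : ℚ) ≠ 0 := by exact_mod_cast a1
    have b2 : (d : ℚ) ≠ 0 := by positivity
    have b3 : (r : ℚ) ≠ 0 := by exact_mod_cast a6
    push_cast at h0
    rw [show (2 * x + 1 + -1 : ℚ) = 2 * x by ring] at h0
    field_simp at h0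
    apply Nat.cast_injective (R := ℚ)
    push_cast
    linear_combination h0 / 2
  obtain ⟨m, hm⟩ : x + 1 ∣ 2 * r := by
    rw [← Nat.pow_dvd_pow_iff two_ne_zero]
    refine Nat.Coprime.dvd_of_dvd_mul_left (Nat.Coprime.pow_left _ (Nat.Coprime.mul_right
      (by simp) ?_)) (h11 ▸ dvd_mul_left _ _)
    rw [show 2 * x + 1 = x + (x + 1) by ring]
    simp
  refine ⟨m, by linear_combination 2 * d * hm, ?_⟩
  rw [hm, mul_pow, mul_comm (_ ^ 2), ← mul_assoc, Nat.mul_left_inj (by positivity)] at h11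
  rw [show (2 * x + 1) ^ 3 - (2 * x + 1) = (2 * x + 1) * (4 * x * (x + 1)) from
    Nat.sub_eq_of_eq_add (by ring), h11]
  linear_combination 4 * d * x * (2 * x + 1) * m ^ 2 * hm

end Cfsg.Agent.S4480
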