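import Cfsg.Statements.S4481
import Mathlib
import Cfsg.Agent.H8.Dih

set_option autoImplicit false
open Cfsg

namespace Cfsg.Agent.S4481

/-- The principal 2-block of a group with dihedral Sylow 2-subgroups. Let G be a finite group whose Sylow 2-subgroup P is dihedral of order 2^n ≥ 8, let σ be an element of P of order 2^(n−1), ζ a primitive 2^(n−1)-th root of unity, and M a maximal ideal of the algebraic integers containing 2. Then the principal 2-block consists of exactly 3 + 2^(n−2) irreducible characters, which can be labelled 1, χ₁, χ₂, χ₃ and χ^(j) for 1 ≤ j ≤ 2^(n−2) − 1 (all distinct), with signs δ₁, δ₂, δ₃ such that for 0 < λ < 2^(n−1): χ₁(σ^λ) = δ₁, χ₂(σ^λ) = δ₂(−1)^(λ+1), χ₃(σ^λ) = δ₃(−1)^(λ+1) and χ^(j)(σ^λ) = δ₁(ζ^(jλ) + ζ^(−jλ)); and for every element ρ of odd order and every j: 1 + δ₁χ₁(ρ) = −δ₂χ₂(ρ) − δ₃χ₃(ρ) = δ₁χ^(j)(ρ). -/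
theorem result {G : Type*} [Group G] [Finite G] (M : Ideal Cfsg.AlgInt) (hM : Cfsg.IsPModular 2 M) (n : ℕ) (hn : 3 ≤ n) (P : Sylow 2 G) (hP : Nonempty ((P : Subgroup G) ≃* DihedralGroup (2 ^ (n - 1)))) (σ : G) (hσ : σ ∈ (P : Subgroup G)) (hσo : orderOf σ = 2 ^ (n - 1)) (ζ : ℂ) (hζ : IsPrimitiveRoot ζ (2 ^ (n - 1))) : Nat.card (Cfsg.principalBlock M G) = 3 + 2 ^ (n - 2) ∧ ∃ (χ₁ χ₂ χ₃ : Cfsg.IrrCharacter G) (χ' : Fin (2 ^ (n - 2) - 1) → Cfsg.IrrCharacter G) (δ₁ δ₂ δ₃ : ℤ), (δ₁ = 1 ∨ δ₁ = -1) ∧ (δ₂ = 1 ∨ δ₂ = -1) ∧ (δ₃ = 1 ∨ δ₃ = -1) ∧ Function.Injective χ' ∧ (χ₁ : G → ℂ) ≠ (fun _ => 1) ∧ (χ₂ : G → ℂ) ≠ (fun _ => 1) ∧ (χ₃ : G → ℂ) ≠ (fun _ => 1) ∧ χ₁ ≠ χ₂ ∧ χ₁ ≠ χ₃ ∧ χ₂ ≠ χ₃ ∧ (∀ j, χ' j ≠ χ₁ ∧ χ' j ≠ χ₂ ∧ χ' j ≠ χ₃ ∧ (χ' j : G → ℂ) ≠ (fun _ => 1)) ∧ Cfsg.principalBlock M G = {χ : Cfsg.IrrCharacter G | (χ : G → ℂ) = (fun _ => 1) ∨ χ = χ₁ ∨ χ = χ₂ ∨ χ = χ₃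 ∨ ∃ j, χ = χ' j} ∧ (∀ l : ℕ, 0 < l → l < 2 ^ (n - 1) → (χ₁ : G → ℂ) (σ ^ l) = δ₁ ∧ (χ₂ : G → ℂ) (σ ^ l) = δ₂ * (-1) ^ (l + 1) ∧ (χ₃ : G → ℂ) (σ ^ l) = δ₃ * (-1) ^ (l + 1) ∧ ∀ j : Fin (2 ^ (n - 2) - 1), (χ' j : G → ℂ) (σ ^ l) = δ₁ * (ζ ^ (((j : ℕ) + 1) * l) + (ζ ^ (((j : ℕ) + 1) * l))⁻¹)) ∧ ∀ ρ : G, Odd (orderOf ρ) → ∀ j : Fin (2 ^ (n - 2) - 1), 1 + δ₁ * (χ₁ : G → ℂ) ρ = -δ₂ * (χ₂ : G → ℂ) ρ - δ₃ * (χ₃ : G → ℂ) ρ ∧ 1 + δ₁ * (χ₁ : G → ℂ) ρ = δ₁ * (χ' j : G → ℂ) ρ := by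
  open H8 H9 Subgroup in
  classical
  have := hM.2.1
  have := Fintype.ofFinite G
  obtain ⟨m, rfl⟩ : ∃ m, n = m + 1 := ⟨n - 1, by omega⟩
  simp only [Nat.add_sub_cancel, show m + 1 - 2 = m - 1 by omega] at *
  have hm : 2 ≤ m := by omega
  obtain ⟨b, h⟩ : ∃ b, H3.MCD (P : Subgroup G) σ b m := by
    obtain ⟨a, b, h⟩ := H3.exists_mcd_of_iso hm hP.some
    have h1 : σ ∈ zpowers a := by_contra fun e => by
      have := Nat.le_of_dvd two_pos (orderOf_dvd_of_pow_eq_one (h.out hσ e).sq)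
      have := Nat.pow_le_pow_right two_pos hm
      omega
    have h2 := dih_conj_inv h h1
    exact ⟨b, H3.mc_of_card hm h.card hσ h.b_mem hσo (fun e => h.nmem (zpowers_le.2 h1 e))
      (Or.inl h2), h2, h.sq⟩
  obtain ⟨lam, hl⟩ := exists_lam hσo hζ
  obtain ⟨χ₁, χ₂, χ₃, k, δ₁, δ₂, δ₃, a1, a2, a3, a4, a5, a6, a7, a8, a9, a10, a11, a12, a13⟩ :=
    dih_struct h hM hζ hl
  obtain ⟨r, hr, hN⟩ : ∃ r : ℕ, 2 ^ (m - 1) = r + 2 ∧ 2 ^ m = 2 * (r + 2) := by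
    obtain ⟨r, hr⟩ := Nat.exists_eq_add_of_le' (Nat.pow_le_pow_right two_pos (show 1 ≤ m - 1 by omega))
    exact ⟨r, hr, by rw [← show _ = r + 2 from hr, ← pow_succ', Nat.sub_add_cancel (by omega)]⟩
  have h0 : cz (dihW M lam (0 : ℕ)) = 0 := funext fun χ => by
    simp [cz, dihW, show etaF lam 0 = 0 by ext; simp [etaF], colW, H7.ind_zero, blockPart_zero,
      H7.ip_zero_left]
  have h1 : ∀ j < 2 ^ m, j ≠ 0 → j ≠ 2 ^ (m - 1) → ∃ i, cz (dihW M lam (j : ℕ)) =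
      Pi.single (irrOne G) 1 + (Pi.single χ₁ δ₁ + Pi.single (k i) (-δ₁)) := fun j hj e e' => by
    by_cases h1 : j < 2 ^ (m - 1)
    · exact ⟨⟨j - 1, by omega⟩, by rw [← a13, Nat.sub_add_cancel (by omega)]⟩
    · refine ⟨⟨2 ^ m - j - 1, by omega⟩, ?_⟩
      rw [← a13, Nat.sub_add_cancel (by omega), Nat.cast_sub hj.le, Nat.cast_pow, Nat.cast_ofNat,
        dihW_sub h hM hζ hl]
  have h2 : ∀ (j : ℕ) χ, cz (dihW M lam j) χ ≠ 0 → χ ∈ principalBlock M G := fun j χ e =>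
    mem_of_ip_colW _ (by rw [← dihW, ← cz_spec (isGen_dihW _)]; exact_mod_cast e)
  have d1 : δ₁ ≠ 0 := by omega
  have m1 : χ₁ ∈ principalBlock M G := h2 _ _ (by rw [a12]; simpa [a5, a8, a9])
  have m2 : χ₂ ∈ principalBlock M G := h2 _ _ (by rw [a12]; simp [a6, a8.symm, a10]; omega)
  have m3 : χ₃ ∈ principalBlock M G := h2 _ _ (by rw [a12]; simp [a7, a9.symm, a10.symm]; omega)
  have h3 : ∀ χ, χ ∈ principalBlock M G ↔
      χ = irrOne G ∨ χ = χ₁ ∨ χ = χ₂ ∨ χ = χ₃ ∨ ∃ j, χ = k j := fun χ => by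
    refine ⟨fun hχ => ?_, ?_⟩
    · by_contra! hc
      refine principal_ne_zero hM hχ (not_dvd_index_centralizer_of_mem P h.z_cen) ?_
      rw [dih_apply h hM hζ hl hχ (u := ⟨_, h.z_mem⟩) fun e => h.z_ne (congrArg Subtype.val e),
        Finset.sum_eq_zero, neg_zero]
      intro j hj
      by_cases e : j = 0
      · rw [e, h0]; simp
      by_cases e' : j = 2 ^ (m - 1)
      · rw [e', a12]; simp [hc]
      obtain ⟨i, hi⟩ := h1 j (by simpa using hj) e e'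
      simp [hi, hc]
    · rintro (rfl | rfl | rfl | rfl | ⟨j, rfl⟩)
      exacts [irrOne_mem_principalBlock, m1, m2, m3, h2 _ _ (by rw [a13 j]; simpa [a11 j])]
  have h4 : ∀ l : ℕ, (lam ⟨σ ^ l, npow_mem_zpowers σ l⟩ : ℂ) = ζ ^ l := fun l => by
    rw [show (⟨σ ^ l, _⟩ : zpowers σ) = ⟨σ, mem_zpowers σ⟩ ^ l from rfl, map_pow, ← hl]; simp
  have h5 : ζ ^ 2 ^ (m - 1) = -1 := (IsPrimitiveRoot.pow (by positivity) hζ
    (by rw [hN, hr, mul_comm])).eq_neg_one_of_two_right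
  have h6 : ∀ (j : ℕ) g, dihW M lam j g = ∑ χ, cz (dihW M lam j) χ * (χ : G → ℂ) g :=
    fun j => apply_eq_sum_cz (isGen_dihW _)
  refine ⟨?_, χ₁, χ₂, χ₃, k, δ₁, δ₂, δ₃, a1, a2, a3, a4, fun e => a5 (Subtype.ext e),
    fun e => a6 (Subtype.ext e), fun e => a7 (Subtype.ext e), a8, a9, a10,
    fun j => ⟨(a11 j).1, (a11 j).2.1, (a11 j).2.2.1, fun e => (a11 j).2.2.2 (Subtype.ext e)⟩,
    Set.ext fun χ => (h3 χ).trans (or_congr Subtype.ext_iff Iff.rfl), fun l hl0 hl1 => ?_,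
    fun ρ hρ j => ?_⟩
  · rw [Nat.card_coe_set_eq, show principalBlock M G = insert (irrOne G) (insert χ₁ (insert χ₂
      (insert χ₃ (Set.range k)))) by ext χ; simp [h3, eq_comm], Set.ncard_insert_of_notMem
      (by simp [a5.symm, a6.symm, a7.symm, a11]), Set.ncard_insert_of_notMem (by simp [a8, a9, a11]),
      Set.ncard_insert_of_notMem (by simp [a10, a11]), Set.ncard_insert_of_notMem (by simp [a11]),
      Set.ncard_range_of_injective a4]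
    simp
    omega
  · have hu : (⟨σ ^ l, npow_mem_zpowers σ l⟩ : zpowers σ) ≠ 1 := fun e =>
      pow_ne_one_of_lt_orderOf hl0.ne' (hσo ▸ hl1) (congrArg Subtype.val e)
    have h7 : ∀ (χ : IrrCharacter G) (δ : ℤ), χ ∈ principalBlock M G → χ ≠ irrOne G → χ ≠ χ₁ →
        (∀ j, k j ≠ χ) → cz (dihW M lam (2 ^ (m - 1) : ℕ)) χ = δ →
        (χ : G → ℂ) (σ ^ l) = δ * (-1) ^ (l + 1) := fun χ δ hχ e1 e2 e3 e4 => by
      rw [dih_apply h hM hζ hl hχ hu, Finset.sum_eq_single_of_mem (2 ^ (m - 1)) (by simp; omega),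
        e4, h4, ← pow_mul, mul_comm l, pow_mul, h5]
      · ring
      intro j hj e'
      by_cases e : j = 0
      · rw [e, h0]; simp
      obtain ⟨i, hi⟩ := h1 j (by simpa using hj) e e'
      simp [hi, e1, e2, (e3 i).symm]
    have h8 : (χ₁ : G → ℂ) (σ ^ l) = δ₁ := by
      have := sum_lam_pow hσo hζ hl hu
      rw [Finset.range_eq_Ico, Finset.sum_eq_sum_Ico_succ_bot (by positivity)] at this
      rw [dih_apply h hM hζ hl m1 hu, Finset.range_eq_Ico,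
        Finset.sum_eq_sum_Ico_succ_bot (by positivity), h0, Finset.sum_congr rfl (g := fun j =>
          (lam ⟨σ ^ l, npow_mem_zpowers σ l⟩ : ℂ) ^ j * δ₁), ← Finset.sum_mul]
      · simp only [pow_zero, Pi.zero_apply, Int.cast_zero] at this ⊢
        linear_combination -δ₁ * this
      intro j hj
      rw [Finset.mem_Ico] at hj
      by_cases e' : j = 2 ^ (m - 1)
      · rw [e', a12]; simp [a5, a8, a9]
      obtain ⟨i, hi⟩ := h1 j hj.2 (by omega) e'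
      simp [hi, a5, (a11 i).1.symm]
    refine ⟨h8, h7 _ _ m2 a6 a8.symm (fun j => (a11 j).2.1) (by rw [a12]; simp [a6, a8.symm, a10]),
      h7 _ _ m3 a7 a9.symm (fun j => (a11 j).2.2.1) (by rw [a12]; simp [a7, a9.symm, a10.symm]),
      fun j => ?_⟩
    have h9 := (dihW_apply h hM ((j : ℕ) + 1 : ℕ) ⟨_, npow_mem_zpowers σ l⟩).symm.trans (h6 _ _)
    simp only [a13, Pi.add_apply, Int.cast_add, add_mul, Finset.sum_add_distrib, sum_single_mul,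
      h8, h4, irrOne_apply, zpow_natCast, ← pow_mul, mul_comm l] at h9
    rcases a1 with e | e <;> simp only [e] at h9 ⊢ <;> push_cast at h9 ⊢
    · linear_combination h9
    · linear_combination -h9
  · have h9 := (dihW_reg h hM ((j : ℕ) + 1 : ℕ) hρ.not_two_dvd_nat).symm.trans (h6 _ _)
    have h10 := (dihW_reg h hM (2 ^ (m - 1) : ℕ) hρ.not_two_dvd_nat).symm.trans (h6 _ _)
    simp only [a12, a13, Pi.add_apply, Int.cast_add, add_mul, Finset.sum_add_distrib,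
      sum_single_mul, irrOne_apply] at h9 h10
    push_cast at h9 h10
    exact ⟨by linear_combination -h10, by linear_combination -h9⟩

end Cfsg.Agent.S4481
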