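import Cfsg.Statements.S4482
import Mathlib
import Cfsg.Agent.H8.Dih

set_option autoImplicit false
open Cfsg

namespace Cfsg.Agent.S4482

/-- An order formula for groups with dihedral Sylow 2-subgroups and one class of involutions. Let G be a finite group whose Sylow 2-subgroup P = ⟨σ, τ⟩ is dihedral of order 2^n ≥ 8 (σ of order 2^(n−1), τ an involution inverting σ), let J be the central involution σ^(2^(n−2)), and suppose J, τ and στ are conjugate in G. Fix M over 2 and let χ₁ be an irreducible character in the principal 2-block taking one constant value δ₁ = ±1 at every non-identity power of σ, with χ₁ ≠ 1. Then, with x₁ = χ₁(1) and c(·) denoting orders of centralizers, x₁ ≠ δ₁ and #G · (x₁ − δ₁)² = 2·x₁(x₁ + δ₁)·c(J)³·(1/c(J, τ) + 1/c(J, στ))², where c(J, y) is the order of the joint centralizer of J and y. -/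
theorem result {G : Type*} [Group G] [Finite G] (M : Ideal Cfsg.AlgInt) (hM : Cfsg.IsPModular 2 M) (n : ℕ) (hn : 3 ≤ n) (P : Sylow 2 G) (σ τ : G) (hσ : σ ∈ (P : Subgroup G)) (hτ : τ ∈ (P : Subgroup G)) (hσo : orderOf σ = 2 ^ (n - 1)) (hτo : orderOf τ = 2) (hrel : τ * σ * τ⁻¹ = σ⁻¹) (hgen : Subgroup.closure ({σ, τ} : Set G) = (P : Subgroup G)) (hconj : IsConj (σ ^ (2 ^ (n - 2))) τ ∧ IsConj (σ ^ (2 ^ (n - 2))) (σ * τ)) (χ₁ : Cfsg.IrrCharacter G) (hχ₁ : χ₁ ∈ Cfsg.principalBlock M G) (h1 : (χ₁ : G → ℂ) ≠ (fun _ => 1)) (δ₁ : ℤ) (hδ₁ : δ₁ = 1 ∨ δ₁ = -1) (hval : ∀ l : ℕ, 0 < l → l < 2 ^ (n - 1) → (χ₁ : G → ℂ) (σ ^ l) = δ₁) : (Cfsg.charDegree (χ₁ : G → ℂ) : ℤ) ≠ δ₁ ∧ (Nat.card G : ℚ) * ((Cfsg.charDegree (χ₁ : G → ℂ) : ℚ) - δ₁) ^ 2 = 2 * (Cfsg.charDegree (χ₁ : G → ℂ) : ℚ) * ((Cfsg.charDegree (χ₁ : G → ℂ) : ℚ) + δ₁) * (Nat.card (Subgroup.centralizer ({σ ^ (2 ^ (n - 2))} : Set G)) : ℚ) ^ 3 * (1 / (Nat.card (Subgroup.centralizer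 ({σ ^ (2 ^ (n - 2)), τ} : Set G)) : ℚ) + 1 / (Nat.card (Subgroup.centralizer ({σ ^ (2 ^ (n - 2)), σ * τ} : Set G)) : ℚ)) ^ 2 := by
  open H8 H9 Subgroup in
  classical
  have := hM.2.1
  have := Fintype.ofFinite G
  obtain ⟨m, rfl⟩ : ∃ m, n = m + 1 := ⟨n - 1, by omega⟩
  simp only [Nat.add_sub_cancel, show m + 1 - 2 = m - 1 by omega] at *
  have hm : 2 ≤ m := by omega
  have hτ2 : τ ^ 2 = 1 := hτo ▸ pow_orderOf_eq_one τ
  have h : H3.MCD (P : Subgroup G) σ τ m := ⟨⟨hm, hσo, fun e => by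
      rw [H3.comm_of_mem_zpowers e (mem_zpowers σ), mul_inv_cancel_right,
        eq_inv_iff_mul_eq_one, ← sq] at hrel
      have := Nat.le_of_dvd two_pos (orderOf_dvd_of_pow_eq_one hrel)
      have := Nat.pow_le_pow_right two_pos hm
      omega, by rw [← hgen, zpowers_eq_closure, zpowers_eq_closure, ← Subgroup.closure_union]; rfl,
    hτ2 ▸ one_mem _, Or.inl hrel⟩, hrel, hτ2⟩
  have hζ := Complex.isPrimitiveRoot_exp (2 ^ m) (by positivity)
  obtain ⟨lam, hl⟩ := exists_lam hσo hζ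
  obtain ⟨χ, χ₂, χ₃, k, δ, δ₂, δ₃, a1, a2, a3, a4, a5, a6, a7, a8, a9, a10, a11, a12, a13⟩ :=
    dih_struct h hM hζ hl
  obtain ⟨r, hr, hN⟩ : ∃ r : ℕ, 2 ^ (m - 1) = r + 2 ∧ 2 ^ m = 2 * (r + 2) := by
    obtain ⟨r, hr⟩ := Nat.exists_eq_add_of_le' (Nat.pow_le_pow_right two_pos (show 1 ≤ m - 1 by omega))
    exact ⟨r, hr, by rw [← show _ = r + 2 from hr, ← pow_succ', Nat.sub_add_cancel (by omega)]⟩
  have h2 : ∀ j : ℕ, 0 < j → j < 2 ^ m → cz (dihW M lam j) χ₁ = δ₁ := fun j h0 hj => by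
    apply Int.cast_injective (α := ℂ)
    have := Fintype.ofFinite (zpowers σ)
    rw [cz_spec (isGen_dihW _), dihW, ip_colW_of_mem _ _ hχ₁, H7.ip_eq_classInner,
      H6.classInner_congr_right (θ := (δ₁ : ℂ) • fun _ => 1), ← H7.ip_eq_classInner,
      H7.ip_smul_right, ip_etaF_one hζ hl fun e => by
        have := Nat.le_of_dvd h0 (Int.natCast_dvd_natCast.1 e); omega]
    · simp
    rintro ⟨u, hu⟩ e
    obtain ⟨l, hl, rfl⟩ := (mem_zpowers_iff_mem_range_orderOf.1 hu |> Finset.mem_image.1)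
    refine (hval l (Nat.pos_of_ne_zero ?_) (by simpa [hσo] using hl)).trans (by simp)
    rintro rfl
    simp [etaF, show (⟨1, _⟩ : zpowers σ) = 1 from rfl] at e
  have h3 := a13 ⟨0, by omega⟩
  have h4 : χ₁ ≠ irrOne G := fun e => h1 (e ▸ rfl)
  obtain ⟨rfl, rfl⟩ : χ₁ = χ ∧ δ₁ = δ := by
    have b1 := h2 _ (by omega) (show 2 ^ (m - 1) < _ by omega)
    have b2 := h2 (0 + 1) (by omega) (by omega)
    rw [a12] at b1
    rw [h3] at b2
    by_cases e : χ₁ = χ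
    · exact ⟨e, by simpa [e, a5, (a11 _).1.symm] using b2.symm⟩
    by_cases e' : χ₁ = k ⟨0, by omega⟩
    · simp [e', a11] at b1
      omega
    · simp [e, e', h4] at b2
      omega
  set J := σ ^ 2 ^ (m - 1) with hJ
  have h5 : (lam ⟨J, h.z_mem⟩ : ℂ) = -1 := by
    rw [show (⟨J, _⟩ : zpowers σ) = ⟨σ, mem_zpowers σ⟩ ^ 2 ^ (m - 1) from rfl, map_pow,
      Units.val_pow_eq_pow_val, hl]
    exact (IsPrimitiveRoot.pow (by positivity) hζ (by rw [hN, hr, mul_comm])).eq_neg_one_of_two_right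
  have h6 : ∀ (g x : G) (u : zpowers σ), x * pPart 2 g * x⁻¹ = u →
      dihW M lam 1 g = 2 - lam u - (lam u : ℂ)⁻¹ := fun g x u e => by
    rw [← pPart_conj] at e
    rw [← show dihW M lam 1 (x * g * x⁻¹) = dihW M lam 1 g from cf_colW _ _ g x]
    by_cases e' : u = 1
    · rw [dihW_reg h hM _ (pPart_eq_one_iff.1 (by rw [e, e']; rfl)), e']
      norm_num
    · rw [dihW, colW_eq_pPart _ hM _ (e ▸ dih_hasNPC h u.2 (by simpa)), e, ← dihW, dihW_apply h hM]
      simp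
  have h7 : ∀ s ∈ centralizer {J}, orderOf s = 2 → s ≠ J → ∀ x ∈ centralizer {J},
      x * s * x⁻¹ ∉ zpowers σ := fun s hs h2 hne x hx e => hne (by
    have := eq_of_mem_zpowers_two e h.z_mem ((orderOf_conj' _ _).trans h2) h.ord_z
    rwa [mul_inv_eq_iff_eq_mul, ← hJ, ← mem_centralizer_singleton_iff.1 hx, mul_right_inj] at this)
  have h8 := order_core h.ord_z (fun s hs => by
      obtain ⟨x, hx⟩ := H20.exists_conj_mem_sylow (isPGroup_zpowers ⟨1, hs⟩) P
      refine (isConj_iff.2 ⟨x, rfl⟩).trans ?_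
      by_cases e : x * s * x⁻¹ ∈ zpowers σ
      · rw [eq_of_mem_zpowers_two e h.z_mem ((orderOf_conj' _ _).trans hs) h.ord_z]
      rcases h.conj_or (hx s (mem_zpowers s)) e with ⟨g, -, e⟩ | ⟨g, -, e⟩
      exacts [(hconj.1.trans (isConj_iff.2 ⟨g, e⟩)).symm, (hconj.2.trans (isConj_iff.2 ⟨g, e⟩)).symm])
    (θ := dihW M lam 1) (cf_colW _ _) (fun g => dihW_reg h hM 1) (c := 4)
    fun a ha b hb ha2 hb2 haJ hbJ => by
      have hw := pPart_mem (p := 2) (mul_mem ha hb)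
      obtain ⟨x, hx, b1, b2⟩ := exists_conj_pair_mem P (dih_le h) ha2 (orderOf_pPart _)
        (pPart_inv_of_invol ha2 hb2) ha hw
      have hxJ : x * J * x⁻¹ = J := mul_inv_eq_iff_eq_mul.2 (mem_centralizer_singleton_iff.1 hx)
      have b3 := pPart_mul_ne h.ord_z hb2 (mem_centralizer_singleton_iff_commute.1 ha)
        (mem_centralizer_singleton_iff_commute.1 hb) hbJ
      have ha' := H20.mul_self_of_orderOf_two ha2
      have b4 : x * pPart 2 (a * b) * x⁻¹ ∈ zpowers σ := by_contra fun e => by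
        have c1 := h.mul_mem b1 b2 (h7 a ha ha2 haJ x hx) e
        rw [conj_mul] at c1
        rcases h.eq_one_or c1 (by
          have := pPart_inv_of_invol ha2 hb2
          rw [← mul_eq_one_iff_eq_inv.1 ha'] at this
          rw [conj_pow, conj_eq_one_iff, sq, ← mul_assoc, this, inv_mul_cancel]) with c2 | c2
        · exact b3.1 (by rw [conj_eq_one_iff] at c2; rw [eq_inv_of_mul_eq_one_right c2,
            ← mul_eq_one_iff_eq_inv.1 ha'])
        · rw [← hJ, ← hxJ, mul_left_inj, mul_right_inj] at c2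
          exact b3.2 (by rw [← mem_centralizer_singleton_iff.1 ha, ← hJ, ← c2, ← mul_assoc, ha', one_mul])
      have b5 : pPart 2 (J * (a * b)) = J * pPart 2 (a * b) := by
        have c1 := mem_centralizer_singleton_iff_commute.1 (mul_mem ha hb)
        conv_lhs => rw [← pPart_mul_pReg 2 (a * b), ← mul_assoc]
        refine pPart_mul ?_ (not_dvd_orderOf_pReg _) ((commute_pReg c1).mul_left (commute_pPart_pReg _))
        rw [← orderOf_conj' x, ← conj_mul, hxJ]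
        exact pElt_of_mem P.2 (mul_mem (h.le h.z_mem) b2)
      rw [h6 _ x ⟨_, b4⟩ rfl, h6 _ x (⟨J, h.z_mem⟩ * ⟨_, b4⟩) (by rw [b5, ← conj_mul, hxJ]; rfl)]
      refine ⟨by simp only [map_mul, Units.val_mul, h5]; ring, fun e => ?_⟩
      rw [show (⟨_, b4⟩ : zpowers σ) = 1 from by_contra fun e' => e ?_]
      · norm_num
      have := H6.conj_mem_zpowers_conj (dih_z_mem h b4 fun e => e' (Subtype.ext e)) x⁻¹
      rw [← hJ, ← hxJ] at this
      exact zpowers_le.2 (pPart_mem_zpowers _) (by simpa [mul_assoc] using this)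
  have h9 : ∀ t : G, centralizer {J} ⊓ centralizer {t} = centralizer {J, t} := fun t => by
    ext; simp [mem_centralizer_iff]
  have hστ := h.mul_mem_S (mem_zpowers σ)
  rw [card_two_classes (centralizer {J}) ⟨τ, dih_le h hτ⟩ ⟨σ * τ, dih_le h hστ⟩ _ (fun a => ?_)
    fun e => ?_, h9, h9] at h8
  · have c1 := (dihW_reg h hM (lam := lam) (0 + 1 : ℕ) (g := 1) (by simp)).symm.trans
      (apply_eq_sum_cz (isGen_dihW _) _)
    have c2 := (dihW_apply h hM (lam := lam) (0 + 1 : ℕ) ⟨J, h.z_mem⟩).symm.trans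
      (apply_eq_sum_cz (isGen_dihW _) _)
    have c3 := hval (2 ^ (m - 1)) (by omega) (by omega)
    simp only [← H7.ip_eq_classInner, ← cz_spec (isGen_dihW _), show (1 : ℤ) = (0 + 1 : ℕ) from rfl] at h8
    simp only [h3, Pi.add_apply, Int.cast_add, add_mul, Finset.sum_add_distrib, sum_single_mul,
      irrOne_apply, h5, ← hJ] at c1 c2 h8
    rw [← hJ] at c3
    have c4 : (δ₁ : ℂ) * δ₁ = 1 := by rcases a1 with e | e <;> simp [e]
    have c5 : (k ⟨0, by omega⟩ : G → ℂ) J = -2 * δ₁ := by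
      push_cast at c2
      linear_combination δ₁ * c2 + c3 + ((χ₁ : G → ℂ) J - (k ⟨0, by omega⟩ : G → ℂ) J) * c4
    have c6 : (k ⟨0, by omega⟩ : G → ℂ) 1 = (χ₁ : G → ℂ) 1 + δ₁ := by
      push_cast at c1
      linear_combination δ₁ * c1 + ((χ₁ : G → ℂ) 1 - (k ⟨0, by omega⟩ : G → ℂ) 1) * c4
    have c7 := c6 ▸ irr_one_ne_zero (k ⟨0, by omega⟩)
    have c8 := irr_one_ne_zero χ₁
    rw [c3, c5, c6] at h8
    rw [irr_one_eq] at c7 c8 h8
    have c9 : (Nat.card G : ℂ) * (charDegree (χ₁ : G → ℂ) - δ₁) ^ 2 = 2 * charDegree (χ₁ : G → ℂ) *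
        (charDegree (χ₁ : G → ℂ) + δ₁) * (Nat.card (centralizer ({J} : Set G)) : ℂ) ^ 3 *
        (1 / Nat.card (centralizer ({J, τ} : Set G)) + 1 / Nat.card (centralizer ({J, σ * τ} : Set G))) ^ 2 := by
      have : (1 : ℂ) * (1 * 1 / 1) + (δ₁ * (δ₁ * δ₁ / charDegree (χ₁ : G → ℂ)) +
          -δ₁ * (-2 * δ₁ * (-2 * δ₁) / (charDegree (χ₁ : G → ℂ) + δ₁))) =
          (charDegree (χ₁ : G → ℂ) - δ₁) ^ 2 / (charDegree (χ₁ : G → ℂ) * (charDegree (χ₁ : G → ℂ) + δ₁)) := by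
        field_simp
        linear_combination (δ₁ * δ₁ - 3 * δ₁ * charDegree (χ₁ : G → ℂ)) * c4
      push_cast at h8
      rw [this, mul_div_assoc', div_eq_iff (mul_ne_zero c8 c7)] at h8
      linear_combination h8 / 2
    have c10 : (Nat.card G : ℚ) * (charDegree (χ₁ : G → ℂ) - δ₁) ^ 2 = 2 * charDegree (χ₁ : G → ℂ) *
        (charDegree (χ₁ : G → ℂ) + δ₁) * (Nat.card (centralizer ({J} : Set G)) : ℚ) ^ 3 *
        (1 / Nat.card (centralizer ({J, τ} : Set G)) + 1 / Nat.card (centralizer ({J, σ * τ} : Set G))) ^ 2 := by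
      apply Rat.cast_injective (α := ℂ)
      push_cast
      exact c9
    refine ⟨fun e => ?_, c10⟩
    have e' : (charDegree (χ₁ : G → ℂ) : ℚ) = δ₁ := by exact_mod_cast e
    have p1 := Nat.card_pos (α := centralizer ({J} : Set G))
    have p2 := Nat.card_pos (α := centralizer ({J, τ} : Set G))
    have p3 := Nat.card_pos (α := centralizer ({J, σ * τ} : Set G))
    have p4 := Nat.pos_of_ne_zero (charDegree_irr_ne_zero χ₁)
    rw [← e', sub_self] at c10
    exact absurd c10 (by simp only [ne_eq, OfNat.ofNat_ne_zero, not_false_eq_true, zero_pow, mul_zero]; positivity)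
  · have key : ∀ s : centralizer {J}, (s : G) ∈ (P : Subgroup G) → (s : G) ∉ zpowers σ → IsConj s a →
        orderOf (a : G) = 2 ∧ (a : G) ≠ J := fun s hs hs' hc => by
      obtain ⟨x, rfl⟩ := isConj_iff.1 hc
      refine ⟨(orderOf_conj' _ _).trans ((h.out hs hs').ord_b_two (h.out hs hs').sq), fun e => hs' ?_⟩
      rw [coe_mul, coe_mul, coe_inv, mul_inv_eq_iff_eq_mul, ← mem_centralizer_singleton_iff.1 x.2,
        mul_right_inj] at e
      rw [e]
      exact h.z_mem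
    refine ⟨fun e => ?_, fun e => e.elim (key _ hτ h.nmem) (key _ hστ (h.mul_not_mem (mem_zpowers σ)))⟩
    obtain ⟨x, hx, b1, -⟩ := exists_conj_pair_mem P (dih_le h) e.1 (w := 1) ⟨0, by simp⟩ (by simp)
      a.2 (one_mem _)
    exact (h.conj_or b1 (h7 a a.2 e.1 e.2 x hx)).imp
      (fun ⟨g, hg, e⟩ => (isConj_iff.2 ⟨⟨g, dih_le h (h.le hg)⟩, Subtype.ext e⟩).trans
        (isConj_iff.2 ⟨⟨x, hx⟩, rfl⟩).symm)
      fun ⟨g, hg, e⟩ => (isConj_iff.2 ⟨⟨g, dih_le h (h.le hg)⟩, Subtype.ext e⟩).trans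
        (isConj_iff.2 ⟨⟨x, hx⟩, rfl⟩).symm
  · obtain ⟨x, hx⟩ := isConj_iff.1 e
    have hx : (x : G) * τ * (x : G)⁻¹ = σ * τ := congrArg Subtype.val hx
    obtain ⟨s, hs, e⟩ := dih_control h x.2 hτ (hx ▸ hστ)
    exact h.not_conj hs (e.trans hx)

end Cfsg.Agent.S4482
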