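import Cfsg.Statements.S4483
import Mathlib
import Cfsg.Agent.H8.Real

set_option autoImplicit false
open Cfsg

namespace Cfsg.Agent.S4483

/-- Let G be a finite group of order 2^n·g₀ with g₀ odd, and M a maximal ideal of the algebraic integers containing 2. Every real-valued irreducible character of G of odd degree lies in the principal 2-block; consequently G has at most 2^(2n) real-valued irreducible characters of odd degree. -/
theorem result {G : Type*} [Group G] [Finite G] (M : Ideal Cfsg.AlgInt) (hM : Cfsg.IsPModular 2 M) : (∀ χ : Cfsg.IrrCharacter G, (∀ g : G, ((χ : G → ℂ) g).im = 0) → Odd (Cfsg.charDegree (χ : G → ℂ)) → χ ∈ Cfsg.principalBlock M G) ∧ Nat.card {χ : Cfsg.IrrCharacter G // (∀ g : G, ((χ : G → ℂ) g).im = 0) ∧ Odd (Cfsg.charDegree (χ : G → ℂ))} ≤ 2 ^ (2 * (Nat.card G).factorization 2) := by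
  have := hM.2.1
  have : Fact (Nat.Prime 2) := ⟨Nat.prime_two⟩
  have h : ∀ χ : Cfsg.IrrCharacter G, (∀ g : G, ((χ : G → ℂ) g).im = 0) →
      Odd (Cfsg.charDegree (χ : G → ℂ)) → χ ∈ Cfsg.principalBlock M G := fun χ h1 h2 =>
    H8.mem_principal_of_real hM (Nat.two_dvd_ne_zero.2 (Nat.odd_iff.1 h2))
      fun x => Complex.conj_eq_iff_im.2 (h1 x)
  refine ⟨h, le_trans ?_ (H8.card_principal_le hM)⟩
  exact Nat.card_le_card_of_injective (fun χ => ⟨χ.1, h χ.1 χ.2.1 χ.2.2⟩)
    fun a b e => Subtype.ext (congrArg Subtype.val e :)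

end Cfsg.Agent.S4483
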