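import Cfsg.Statements.S4484
import Mathlib
import Cfsg.Agent.H8.Blich
import Cfsg.Agent.H8.Second
import Cfsg.Agent.H7.GlCyc
import Cfsg.Agent.H6.Galois
import Cfsg.Agent.FT.Card

set_option autoImplicit false
open Cfsg

namespace Cfsg.Agent.S4484

open scoped ComplexConjugate
open H7 H8

section
variable {G : Type*} [Group G] [Finite G] {p : ℕ} [hp : Fact p.Prime] {M : Ideal AlgInt}
  [hMm : M.IsMaximal]

theorem dvd_sub (hM : IsPModular p M) (χ : IrrCharacter G) (D : Subgroup G) (hD : Nat.card D = p)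
    {d f k : ℕ} (hk : ∀ y ∈ D, y ≠ 1 → (Subgroup.centralizer ({y} : Set G)).index = k)
    (hd : d = Nat.gcd (charDegree (χ : G → ℂ)) k) (hf : charDegree (χ : G → ℂ) = d * f)
    {l l' : D → ℂ} (hl : IsCharacter D l) (h1 : l 1 = 1) (hl' : IsCharacter D l') (h1' : l' 1 = 1)
    {a b : ℕ} (ha : ip (fun x : D => (χ : G → ℂ) x) l = a)
    (hb : ip (fun x : D => (χ : G → ℂ) x) l' = b) : (f : ℤ) ∣ a - b := by
  classical
  letI := Fintype.ofFinite D
  have hn := charDegree_irr_ne_zero χ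
  have hd0 : (d : ℂ) ≠ 0 := by
    rw [Nat.cast_ne_zero]; rintro rfl; simp [hf] at hn
  have hf0 : (f : ℂ) ≠ 0 := by
    rw [Nat.cast_ne_zero]; rintro rfl; simp [hf] at hn
  have hβ : ∀ y : D, y ≠ 1 → IsIntegral ℤ ((χ : G → ℂ) y / f) := fun y hy => by
    have e := congrArg (Int.cast : ℤ → ℂ) (Nat.gcd_eq_gcd_ab (charDegree (χ : G → ℂ)) k)
    rw [← hd] at e
    push_cast at e
    have e1 : (χ : G → ℂ) y / f = (Nat.gcdA (charDegree (χ : G → ℂ)) k : ℂ) * (χ : G → ℂ) y +
        (Nat.gcdB (charDegree (χ : G → ℂ)) k : ℂ) * centralChar (χ : G → ℂ) y := by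
      rw [centralChar, hk y y.2 (by simpa using hy), irr_one_eq]
      have e2 : (charDegree (χ : G → ℂ) : ℂ) = d * f := by exact_mod_cast hf
      rw [e2] at e ⊢
      field_simp
      linear_combination ((χ : G → ℂ) y) * e
    rw [e1]
    exact ((isIntegral_algebraMap (x := (_ : ℤ))).mul (char_isIntegral (irr_isChar χ) _)).add
      ((isIntegral_algebraMap (x := (_ : ℤ))).mul (isIntegral_centralChar χ _))
  have hr : ∀ {l : D → ℂ}, IsCharacter D l → l 1 = 1 → ∀ y, IsIntegral ℤ (conj (l y)) ∧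
      rd M (conj (l y)) = 1 := fun {l} hl h1 y => by
    rw [← H7.char_inv hl]
    refine ⟨char_isIntegral hl _, (rd_eq_one_of_pow_eq_one hM (k := 1) ?_).2⟩
    obtain ⟨μ, rfl⟩ := exists_hom_of_char_one hl h1
    rw [pow_one, ← hD, ← Units.val_pow_eq_pow_val, ← map_pow, pow_card_eq_one', map_one,
      Units.val_one]
  set S := ∑ y ∈ Finset.univ.erase (1 : D), (χ : G → ℂ) y / f * (conj (l y) - conj (l' y)) with hS
  have hSi : IsIntegral ℤ S := IsIntegral.sum _ fun y hy =>
    (hβ y (Finset.ne_of_mem_erase hy)).mul ((hr hl h1 y).1.sub (hr hl' h1' y).1)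
  have hS0 : rd M S = 0 := by
    rw [hS, rd_sum _ _ fun y hy => mem_locRing_of_isIntegral M
      ((hβ y (Finset.ne_of_mem_erase hy)).mul ((hr hl h1 y).1.sub (hr hl' h1' y).1))]
    refine Finset.sum_eq_zero fun y hy => ?_
    rw [rd_mul (mem_locRing_of_isIntegral M (hβ y (Finset.ne_of_mem_erase hy)))
      (mem_locRing_of_isIntegral M ((hr hl h1 y).1.sub (hr hl' h1' y).1)),
      rd_sub (mem_locRing_of_isIntegral M (hr hl h1 y).1)
        (mem_locRing_of_isIntegral M (hr hl' h1' y).1), (hr hl h1 y).2, (hr hl' h1' y).2, sub_self,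
      mul_zero]
  have hp0 : (p : ℂ) ≠ 0 := Nat.cast_ne_zero.2 hp.out.ne_zero
  have hS1 : f * S = p * (a - b) := by
    rw [← ha, ← hb, ip_def, ip_def, hD, ← mul_sub, mul_inv_cancel_left₀ hp0, ← Finset.sum_sub_distrib,
      ← Finset.add_sum_erase _ _ (Finset.mem_univ (1 : D)), h1, h1', sub_self, zero_add, hS,
      Finset.mul_sum]
    refine Finset.sum_congr rfl fun y _ => ?_
    field_simp
  obtain ⟨s, hs⟩ := H6.exists_int_of_isIntegral_of_rat hSi (q := (p * (a - b) / f : ℚ)) (by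
    push_cast
    rw [← hS1]; field_simp)
  rw [hs, rd_eq_zero_iff (mem_locRing_of_isIntegral M (hs ▸ hSi)),
    memLocalIdeal_intCast_iff hM] at hS0
  obtain ⟨t, rfl⟩ := hS0
  refine ⟨t, ?_⟩
  rw [hs] at hS1
  have : (a - b : ℂ) = f * t := by
    refine mul_left_cancel₀ hp0 ?_
    push_cast at hS1
    linear_combination -hS1
  exact_mod_cast this

theorem few (hM : IsPModular p M) (χ : IrrCharacter G) (hχ : χ ∈ principalBlock M G)
    (D : Subgroup G) (hD : Nat.card D = p) {d k : ℕ}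
    (hk : ∀ y ∈ D, y ≠ 1 → (Subgroup.centralizer ({y} : Set G)).index = k) (hpk : ¬ p ∣ k)
    (hd : d = Nat.gcd (charDegree (χ : G → ℂ)) k) (hdp : d < p)
    [DecidablePred fun l => ip (fun x : D => (χ : G → ℂ) x) l ≠ 0] :
    ((irrSet D).filter fun l => ip (fun x : D => (χ : G → ℂ) x) l ≠ 0).card ≤ d := by
  classical
  haveI : IsCyclic D := isCyclic_of_prime_card hD
  have hc : ∀ a b : D, a * b = b * a := fun a b => mul_comm' a b
  obtain ⟨f, hf⟩ : d ∣ charDegree (χ : G → ℂ) := hd ▸ Nat.gcd_dvd_left _ _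
  obtain ⟨e, he⟩ : d ∣ k := hd ▸ Nat.gcd_dvd_right _ _
  have hn := charDegree_irr_ne_zero χ
  have hd0 : d ≠ 0 := by rintro rfl; simp [hf] at hn
  have hf0 : f ≠ 0 := by rintro rfl; simp [hf] at hn
  have hres : IsCharacter D fun x : D => (χ : G → ℂ) x := H7.char_comp D.subtype (irr_isChar χ)
  have hm : ∀ l : D → ℂ, ∃ m : ℕ, l ∈ irrSet D → ip (fun x : D => (χ : G → ℂ) x) l = m := fun l => by
    by_cases h : l ∈ irrSet D
    · obtain ⟨m, hm⟩ := ip_char_nat hres (irr_char (mem_irrSet.1 h))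
      exact ⟨m, fun _ => hm⟩
    · exact ⟨0, fun h' => absurd h' h⟩
  choose m hm using hm
  obtain ⟨l₀, hl₀, hmin⟩ := Finset.exists_min_image (irrSet D) m ⟨1, mem_irrSet.2 irr_one⟩
  have h1 : ∀ l ∈ irrSet D, l 1 = 1 := fun l hl => irr_one_eq_one_of_comm hc (mem_irrSet.1 hl)
  have ht : ∀ l : D → ℂ, ∃ t : ℕ, l ∈ irrSet D → m l = m l₀ + f * t := fun l => by
    by_cases h : l ∈ irrSet D
    · have := dvd_sub hM χ D hD hk hd hf (irr_char (mem_irrSet.1 h)) (h1 l h)
        (irr_char (mem_irrSet.1 hl₀)) (h1 l₀ hl₀) (hm l h) (hm l₀ hl₀)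
      rw [← Nat.cast_sub (hmin l h), Int.natCast_dvd_natCast] at this
      obtain ⟨t, ht⟩ := this
      exact ⟨t, fun _ => by have := hmin l h; omega⟩
    · exact ⟨0, fun h' => absurd h' h⟩
  choose t ht using ht
  have hval : ∀ y : D, (χ : G → ℂ) y =
      m l₀ * (if y = 1 then (p : ℂ) else 0) + f * ∑ l ∈ irrSet D, t l * l y := fun y => by
    have e1 := congrFun (cf_expand (char_cf hres)) y
    have e2 := congrFun (reg_expand D) y
    rw [hD] at e2
    simp only [Finset.sum_apply, Pi.smul_apply, smul_eq_mul] at e1 e2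
    have e2' : (if y = 1 then (p : ℂ) else 0) = ∑ l ∈ irrSet D, l 1 * l y := by convert e2
    rw [e1, e2', Finset.mul_sum, Finset.mul_sum, ← Finset.sum_add_distrib]
    refine Finset.sum_congr rfl fun l hl => ?_
    rw [hm l hl, ht l hl, h1 l hl]
    push_cast; ring
  set T := ∑ l ∈ irrSet D, t l with hT
  have e1 : d * f = m l₀ * p + f * T := by
    have := hval 1
    rw [Subgroup.coe_one, irr_one_eq, hf, if_pos rfl,
      Finset.sum_congr rfl (g := fun l => (t l : ℂ)) fun l hl => by rw [h1 l hl, mul_one]] at this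
    rw [hT]
    exact_mod_cast this
  haveI : Nontrivial D := Finite.one_lt_card_iff_nontrivial.1 (hD ▸ hp.out.one_lt)
  obtain ⟨x, hx⟩ := exists_ne (1 : D)
  have hr : ∀ l ∈ irrSet D, l x ∈ locRing M ∧ rd M (l x) = 1 := fun l hl => by
    refine rd_eq_one_of_pow_eq_one hM (k := 1) ?_
    obtain ⟨μ, rfl⟩ := exists_hom_of_char_one (irr_char (mem_irrSet.1 hl)) (h1 l hl)
    rw [pow_one, ← hD, ← Units.val_pow_eq_pow_val, ← map_pow, pow_card_eq_one', map_one,
      Units.val_one]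
  have e2 : centralChar (χ : G → ℂ) x = ∑ l ∈ irrSet D, ((e * t l : ℕ) : ℂ) * l x := by
    rw [centralChar, hk x x.2 (by simpa using hx), hval x, if_neg hx, irr_one_eq, hf, he]
    have : (d : ℂ) ≠ 0 := Nat.cast_ne_zero.2 hd0
    have : (f : ℂ) ≠ 0 := Nat.cast_ne_zero.2 hf0
    push_cast
    simp_rw [mul_assoc (e : ℂ), ← Finset.mul_sum]
    field_simp
    ring
  have e3 := (lam_eq_iff _ _).1 ((mem_principalBlock_iff χ).1 hχ) x
  rw [e2, rd_sum _ _ fun l hl => mul_mem (natCast_mem _ _) (hr l hl).1,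
    Finset.sum_congr rfl (g := fun l => ((e * t l : ℕ) : resField M)) fun l hl => by
      rw [rd_mul (natCast_mem _ _) (hr l hl).1, (hr l hl).2, rd_natCast, mul_one],
    centralChar, hk x x.2 (by simpa using hx), irrOne_apply, irrOne_apply, mul_one, div_one,
    rd_natCast, ← Nat.cast_sum, ← Finset.mul_sum, ← hT] at e3
  haveI := charP_resField hM
  rw [CharP.natCast_eq_natCast _ p, he, mul_comm d] at e3
  have e4 : T ≡ d [MOD p] := e3.cancel_left_of_coprime
    ((hp.out.coprime_iff_not_dvd).2 fun h => hpk (he ▸ h.mul_left d))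
  have e5 : T ≤ d := Nat.le_of_mul_le_mul_left (by rw [mul_comm f d, e1]; omega)
    (Nat.pos_of_ne_zero hf0)
  have e6 : T = d := Nat.ModEq.eq_of_lt_of_lt e4 (by omega) hdp
  have e7 : m l₀ = 0 := by
    rw [e6, mul_comm f d] at e1
    have : m l₀ * p = 0 := by omega
    exact (Nat.mul_eq_zero.1 this).resolve_right hp.out.ne_zero
  rw [← e6, hT, Finset.card_filter]
  refine Finset.sum_le_sum fun l hl => ?_
  split_ifs with h
  · rw [hm l hl, ht l hl, e7, zero_add, Nat.cast_ne_zero] at h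
    exact Nat.pos_of_ne_zero (right_ne_zero_of_mul h)
  · exact Nat.zero_le _

theorem exists_char (hM : IsPModular p M) {q : ℕ} (hq : q.Prime) {x : G} (hx : orderOf x = p) :
    ∃ χ ∈ principalBlock M G, χ ≠ irrOne G ∧ ¬ q ∣ charDegree (χ : G → ℂ) := by
  classical
  haveI : Finite (IrrCharacter G) := H8.finite_irr
  letI := Fintype.ofFinite (IrrCharacter G)
  by_contra! hcon
  have h := block_orthogonality hM (isBlockUnion_of_block (isPBlock_principalBlock (M := M) (G := G)))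
    (g := x) (h := 1) (by
      rw [pPart_of_pElt ⟨1, by rw [hx, pow_one]⟩, pPart_of_pElt ⟨0, by simp⟩, isConj_one_left]
      rintro rfl
      exact hp.out.one_lt.ne (by simpa using hx))
  rw [← Finset.add_sum_erase _ _ (a := irrOne G) (by simpa using irrOne_mem_principalBlock)] at h
  have h2 : IsIntegral ℤ (((1 : ℕ) : ℂ) / (q : ℂ)) := by
    have hq0 : (q : ℂ) ≠ 0 := Nat.cast_ne_zero.2 hq.ne_zero
    have : ((1 : ℕ) : ℂ) / (q : ℂ) = -∑ χ ∈ (Finset.univ.filter (· ∈ principalBlock M G)).erase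
        (irrOne G), (χ : G → ℂ) x * conj ((χ : G → ℂ) 1) / q := by
      rw [← Finset.sum_div]
      simp only [irrOne_apply, map_one, mul_one] at h
      field_simp
      linear_combination h
    rw [this]
    refine (IsIntegral.sum _ fun χ hχ => ?_).neg
    simp only [Finset.mem_erase, Finset.mem_filter, Finset.mem_univ, true_and] at hχ
    obtain ⟨c, hc⟩ := hcon χ hχ.2 hχ.1
    rw [irr_one_eq, hc, map_natCast, show (χ : G → ℂ) x * ((q * c : ℕ) : ℂ) / q =
      (χ : G → ℂ) x * (c : ℂ) by push_cast; field_simp]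
    exact (char_isIntegral (irr_isChar χ) x).mul (isIntegral_natCast c)
  exact hq.one_lt.ne' (Nat.dvd_one.1 (dvd_of_isIntegral_div hq.ne_zero h2))

end

/-- A refinement of Burnside's result on simple groups of order divisible by only two primes. Let G be a finite simple group of order p^a · q^b · g₀ with p, q distinct primes, a > 0, g₀ coprime to p and q, and the order of G different from p. Then g₀ − 1 > log p / log 6, that is 6^(g₀ − 1) > p. -/
theorem result {G : Type*} [Group G] [Finite G] [IsSimpleGroup G] (p q a b g₀ : ℕ) (hp : p.Prime) (hq : q.Prime) (hpq : p ≠ q) (ha : 0 < a) (hg : Nat.card G = p ^ a * q ^ b * g₀) (hcop : ¬ p ∣ g₀) (hcoq : ¬ q ∣ g₀) (hne : Nat.card G ≠ p) : p < 6 ^ (g₀ - 1) := by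
  classical
  haveI : Fact p.Prime := ⟨hp⟩
  obtain ⟨M, hM⟩ := exists_isPModular hp
  haveI := hM.2.1
  by_contra hlt
  have hg0 : g₀ ≠ 0 := by rintro rfl; simp at hcop
  have hlt' : 6 ^ (g₀ - 1) < p := by
    refine lt_of_le_of_ne (not_lt.1 hlt) fun e => ?_
    rcases Nat.eq_zero_or_pos (g₀ - 1) with h | h
    · rw [h] at e; exact hp.one_lt.ne e
    · have h2 : 2 ∣ p := e ▸ Dvd.dvd.pow (by norm_num) h.ne'
      have h3 : 3 ∣ p := e ▸ Dvd.dvd.pow (by norm_num) h.ne'
      rw [Nat.prime_dvd_prime_iff_eq (by norm_num) hp] at h2 h3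
      omega
  have hpG : p ∣ Nat.card G := hg ▸ ((dvd_pow_self p ha.ne').mul_right _).mul_right _
  obtain ⟨P⟩ : Nonempty (Sylow p G) := inferInstance
  obtain ⟨x, hx, hxP⟩ : ∃ x : G, orderOf x = p ∧ (P : Subgroup G) ≤ Subgroup.centralizer {x} := by
    haveI : Nontrivial P := (P : Subgroup G).nontrivial_iff_ne_bot.2 (P.ne_bot_of_dvd_card hpG)
    haveI := P.isPGroup'.center_nontrivial
    obtain ⟨k, hk⟩ := (P.isPGroup'.to_subgroup (Subgroup.center P)).exists_card_eq
    obtain ⟨z, hz⟩ := exists_prime_orderOf_dvd_card' (G := Subgroup.center P) p (by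
      rw [hk]
      refine dvd_pow_self p ?_
      rintro rfl
      exact Finite.one_lt_card.ne' hk)
    refine ⟨z.1.1, by rw [Subgroup.orderOf_coe, Subgroup.orderOf_coe, hz], fun y hy => FT.mem_cen1.2 ?_⟩
    exact congrArg Subtype.val (Subgroup.mem_center_iff.1 z.2 ⟨y, hy⟩)
  set D := Subgroup.zpowers x with hDd
  have hD : Nat.card D = p := by rw [hDd, Nat.card_zpowers, hx]
  have hx1 : x ≠ 1 := by rintro rfl; exact hp.one_lt.ne (by simpa using hx)
  have hk : ∀ y ∈ D, y ≠ 1 → (Subgroup.centralizer ({y} : Set G)).index =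
      (Subgroup.centralizer ({x} : Set G)).index := fun y hy h1 => by
    rw [FT.cen1_eq_of_prime (hD ▸ hp) hy h1,
      FT.cen1_eq_of_prime (hD ▸ hp) (Subgroup.mem_zpowers x) hx1]
  have hpk : ¬ p ∣ (Subgroup.centralizer ({x} : Set G)).index := fun h =>
    P.not_dvd_index (h.trans (Subgroup.index_dvd_of_le hxP))
  obtain ⟨χ, hχ, hχ1, hχq⟩ := exists_char hM hq hx
  set d := Nat.gcd (charDegree (χ : G → ℂ)) (Subgroup.centralizer ({x} : Set G)).index with hd
  have hdg : d ≤ g₀ := by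
    refine Nat.le_of_dvd (Nat.pos_of_ne_zero hg0) ?_
    have h1 : d ∣ p ^ a * q ^ b * g₀ := hg ▸ (Nat.gcd_dvd_left _ _).trans (charDegree_dvd_card χ)
    refine Nat.Coprime.dvd_of_dvd_mul_left ?_ h1
    refine Nat.Coprime.mul_right (Nat.Coprime.pow_right _ ?_) (Nat.Coprime.pow_right _ ?_)
    · exact ((hp.coprime_iff_not_dvd).2 fun h => hpk (h.trans (Nat.gcd_dvd_right _ _))).symm
    · exact ((hq.coprime_iff_not_dvd).2 fun h => hχq (h.trans (Nat.gcd_dvd_left _ _))).symm
  have hg6 : g₀ ≤ 6 ^ (g₀ - 1) := by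
    have := Nat.lt_pow_self (n := g₀ - 1) (show 1 < 6 by norm_num)
    omega
  have hJ := few hM χ hχ D hD hk hpk hd (by omega)
  set J := (irrSet D).filter fun l => ip (fun x : D => (χ : G → ℂ) x) l ≠ 0 with hJd
  haveI : IsCyclic D := isCyclic_of_prime_card hD
  have hc : ∀ a b : D, a * b = b * a := fun a b => mul_comm' a b
  have hres : IsCharacter D fun x : D => (χ : G → ℂ) x := H7.char_comp D.subtype (irr_isChar χ)
  obtain ⟨l₀, hl₀, hl₀'⟩ := exists_irr_ip_ne_zero (char_cf hres) (fun h =>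
    irr_one_ne_zero χ (congrFun h 1))
  have hl₀J : l₀ ∈ J := Finset.mem_filter.2 ⟨mem_irrSet.2 hl₀, hl₀'⟩
  letI := Fintype.ofFinite D
  let F : D → (J.erase l₀) → Finset.Ico (0 : ℤ) 6 := fun y l =>
    ⟨_, Bl.floor_arg_mem (l.1 y * conj (l₀ y))⟩
  obtain ⟨y, z, hyz, hF⟩ := Fintype.exists_ne_map_eq_of_card_lt F (by
    rw [Fintype.card_fun, Fintype.card_coe, Fintype.card_coe, Finset.card_erase_of_mem hl₀J,
      ← Nat.card_eq_fintype_card, hD]
    refine lt_of_le_of_lt ?_ hlt'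
    exact Nat.pow_le_pow_right (by norm_num) (by omega))
  have hnorm : ∀ {l : D → ℂ}, IsIrrCharacter D l → ∀ w, ‖l w‖ = 1 := fun {l} hl w => by
    have := linear_mul_conj (irr_char hl) (irr_one_eq_one_of_comm hc hl) w
    rw [Complex.mul_conj, Complex.normSq_eq_norm_sq] at this
    have h3 : ‖l w‖ ^ 2 = 1 := by exact_mod_cast this
    exact (pow_eq_one_iff_of_nonneg (norm_nonneg _) two_ne_zero).1 h3
  have hg1 : ((y * z⁻¹ : D) : G) ≠ 1 := fun h => hyz (mul_inv_eq_one.1 (Subtype.ext h))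
  have hcen := Bl.mem_charCenter χ.2 D hc (y * z⁻¹) hl₀ hl₀' (fun l hl hl' => by
    by_cases e : l = l₀
    · simp [e]
    have h1 := congrArg Subtype.val (congrFun hF ⟨l, Finset.mem_erase.2 ⟨e,
      Finset.mem_filter.2 ⟨mem_irrSet.2 hl, hl'⟩⟩⟩)
    have h2 := Bl.norm_sub_le_of_floor_eq (by simp [hnorm hl, hnorm hl₀])
      (by simp [hnorm hl, hnorm hl₀]) h1.symm
    have i1 := irr_one_eq_one_of_comm hc hl
    have i0 := irr_one_eq_one_of_comm hc hl₀
    have : l (y * z⁻¹) - l₀ (y * z⁻¹) =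
        (l y * conj (l₀ y) - l z * conj (l₀ z)) * (l₀ y * conj (l z)) := by
      rw [linear_map_mul (irr_char hl) i1, linear_map_mul (irr_char hl₀) i0,
        H7.char_inv (irr_char hl), H7.char_inv (irr_char hl₀)]
      linear_combination (-(l y * conj (l z))) * linear_mul_conj (irr_char hl₀) i0 y +
        (l₀ y * conj (l₀ z)) * linear_mul_conj (irr_char hl) i1 z
    rw [this, norm_mul, norm_mul, Complex.norm_conj, hnorm hl, hnorm hl₀, mul_one, mul_one]
    exact h2) (by
    refine (Subgroup.normalClosure_normal.eq_bot_or_eq_top).resolve_left fun h => hg1 ?_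
    exact Subgroup.mem_bot.1 (h ▸ Subgroup.subset_normalClosure rfl))
  rw [H6.charCenter_eq_center χ.2 (H6.charKer_eq_bot_of_simple χ.2
    fun h => hχ1 (Subtype.ext h))] at hcen
  have htop : Subgroup.center G = ⊤ :=
    (Subgroup.Normal.eq_bot_or_eq_top inferInstance).resolve_left fun h => hg1 (by
      rw [h] at hcen; exact hcen)
  letI : CommGroup G := Group.commGroupOfCenterEqTop htop
  exact hne ((Nat.prime_dvd_prime_iff_eq hp IsSimpleGroup.prime_card).1 hpG).symm

end Cfsg.Agent.S4484
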