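import Cfsg.Statements.S4485
import Mathlib
import Cfsg.Agent.H7.BL

set_option autoImplicit false
open Cfsg

namespace Cfsg.Agent.S4485

open Cfsg Cfsg.Agent.H7

universe u

theorem aux {p : ℕ} [hp : Fact p.Prime] : ∀ (k : ℕ) {G : Type u} [Group G] [Finite G]
    (_ : Nat.card G = k) (P : Sylow p G)
    (_ : ∀ x ∈ (P : Subgroup G), x ≠ 1 → Subgroup.centralizer ({x} : Set G) =
      Subgroup.centralizer ((P : Subgroup G) : Set G)) {χ : G → ℂ} (_ : IsCharacter G χ)
    (_ : H6.charKer χ = ⊥) (_ : charDegree χ ^ 2 + 1 < Nat.card P), (P : Subgroup G).Normal := by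
  intro k
  induction k using Nat.strong_induction_on with
  | h k ih =>
  intro G _ _ hk P hstar χ hχ hf hd
  subst hk
  by_cases h : ∃ K : Subgroup G, K.Normal ∧ (P : Subgroup G) ≤ K ∧ K ≠ ⊤
  · obtain ⟨K, _, h1, h2⟩ := h
    have h3 := ih _ (card_lt_of_ne_top h2) rfl (P.subtype h1) (fun x hx e => by
      have := hstar x hx fun e' => e (Subtype.ext e')
      refine le_antisymm (fun (y : K) hy (z : K) hz => Subtype.ext (this.le (x := y) ?_ z hz))
        (Subgroup.centralizer_le (Set.singleton_subset_iff.mpr hx))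
      rw [Subgroup.mem_centralizer_singleton_iff] at hy ⊢
      exact congrArg Subtype.val hy) (char_comp K.subtype hχ)
      (by rw [H6.charKer_comp _ hχ, hf, MonoidHom.comap_bot, Subgroup.ker_subtype])
      (by rwa [deg_comp, Sylow.coe_subtype,
        Nat.card_congr (Subgroup.subgroupOfEquivOfLe h1).toEquiv])
    haveI := Sylow.characteristic_of_normal _ h3
    rw [← Subgroup.map_subgroupOf_eq_of_le h1, ← Sylow.coe_subtype P h1]
    infer_instance
  · letI := Fintype.ofFinite G
    have h1 : commutator G ≤ ⊥ := hf ▸ fun g hg =>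
      H6.mem_charKer_of_forall_constituent (char_cf hχ) fun ψ hψ e => by
        refine (deg_eq_one_iff hψ).mp ?_ hg
        by_cases e1 : ψ = 1
        · rw [e1]; exact charDegree_eq (by simp)
        · exact (brauer_leonard P hstar (fun K hK e => not_not.mp fun e' => h ⟨K, hK, e, e'⟩) hψ e1
            (lt_of_le_of_lt (Nat.succ_le_succ (Nat.pow_le_pow_left
              (deg_le_of_ip hχ hψ (by rwa [ip_eq_classInner])) 2)) hd)).1
    exact Subgroup.Normal.of_commutator_le _ (h1.trans bot_le)

/-- Let G be a finite group and p a prime dividing its order such that every non-identity element of a Sylow p-subgroup P has the same centralizer as P itself (so P is abelian); let p^n be the order of P. If G has a faithful character of degree x with x² < p^n − 1, then P is normal in G. -/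
theorem result {G : Type*} [Group G] [Finite G] (p : ℕ) (hp : p.Prime) (hpG : p ∣ Nat.card G) (P : Sylow p G) (hstar : ∀ x ∈ (P : Subgroup G), x ≠ 1 → Subgroup.centralizer ({x} : Set G) = Subgroup.centralizer ((P : Subgroup G) : Set G)) (n : ℕ) (hn : Nat.card P = p ^ n) (χ : G → ℂ) (hχ : Cfsg.IsCharacter G χ) (hfaith : ∀ g : G, χ g = χ 1 → g = 1) (hdeg : Cfsg.charDegree χ ^ 2 + 1 < p ^ n) : (P : Subgroup G).Normal := by
  haveI := Fact.mk hp
  exact aux _ rfl P hstar hχ (charKer_eq_bot_of_faithful hfaith) (hn ▸ hdeg)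

end Cfsg.Agent.S4485
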