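import Cfsg.Statements.S4489
import Mathlib
import Cfsg.Agent.FT.BG04p
import Cfsg.Agent.H7.Gallagher
import Cfsg.Agent.H6.Galois
import Cfsg.Agent.H6.Induce
import Cfsg.Agent.H8.CharBase
-- import your own Cfsg.Agent.* helpers here

set_option autoImplicit false
open Cfsg

namespace Cfsg.Agent.S4489


open Subgroup Cfsg.Agent.FT Cfsg.Agent.H7 Cfsg.Agent.H6

universe u

/-- Galois conjugates of a function. -/
def gal {G : Type*} (χ : G → ℂ) : Set (G → ℂ) := Set.range fun τ : ℂ ≃+* ℂ => fun g => τ (χ g)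

theorem gal_finite {G : Type*} [Group G] [Finite G] {χ : G → ℂ} (hχ : IsIrrCharacter G χ) :
    (gal χ).Finite := by
  refine (irrSet G).finite_toSet.subset ?_
  rintro _ ⟨τ, rfl⟩
  exact Finset.mem_coe.2 (mem_irrSet.2 (isIrr_map τ.toRingHom hχ))

theorem ip_map {G : Type*} [Group G] [Finite G] (τ : ℂ ≃+* ℂ) {χ θ : G → ℂ}
    (hθ : IsIrrCharacter G θ) (h : ip χ θ ≠ 0) :
    ip (fun g => τ (χ g)) (fun g => τ (θ g)) ≠ 0 := by
  classical
  letI := Fintype.ofFinite G
  rw [ip_eq_classInner] at h ⊢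
  have := classInner_map τ.toRingHom χ (H6.isGen_of_isCharacter (irr_char hθ))
  simp only [RingEquiv.toRingHom_eq_coe, RingEquiv.coe_toRingHom] at this
  rw [this]
  simpa using h

theorem map_ind {G : Type*} [Group G] [Finite G] (H : Subgroup G) (τ : ℂ ≃+* ℂ) (ψ : H → ℂ) :
    ind H.subtype (fun h => τ (ψ h)) = fun g => τ (ind H.subtype ψ g) := by
  classical
  letI := Fintype.ofFinite G
  rw [ind_subtype, ind_subtype]
  funext g
  exact (map_indFun H τ.toRingHom ψ g).symm

theorem bern (p s : ℕ) (hp : 1 ≤ p) : 1 + s * (p - 1) ≤ p ^ s := by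
  obtain ⟨r, rfl⟩ := Nat.exists_eq_add_of_le hp
  simp only [Nat.add_sub_cancel_left]
  induction s with
  | zero => simp
  | succ s ih => rw [pow_succ]; nlinarith [Nat.zero_le (s * r * r)]

theorem main (p t : ℕ) (hp : p.Prime) (n : ℕ) : ∀ (P : Type u) [Group P] [Finite P], Nat.card P = n →
    IsPGroup p P → ∀ (χ : P → ℂ), IsIrrCharacter P χ → ∀ a f : ℕ, (charKer χ).index = p ^ a → χ 1 = f →
    (gal χ).ncard ≤ (p - 1) * p ^ t → (p - 1) * a + 1 ≤ f + (p - 1) * (t + 1) * f := by
  induction n using Nat.strong_induction_on with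
  | _ n ih =>
  intro P _ _ hn hP χ hχ a f ha hf hN
  classical
  haveI := Fact.mk hp
  have hf0 : 0 < f := by
    obtain ⟨m, hm, h⟩ := irr_one_pos hχ
    rw [hf] at h
    have : f = m := by exact_mod_cast h
    omega
  by_cases hK : charKer χ = ⊥
  swap
  · haveI : (charKer χ).Normal := charKer_normal (irr_cf hχ)
    obtain ⟨ψ, hψ, e⟩ := exists_irr_quotient (charKer χ) hχ le_rfl
    refine ih (Nat.card (P ⧸ charKer χ)) ?_ (P ⧸ charKer χ) rfl (hP.to_quotient _) ψ hψ a f ?_ ?_ ?_
    · rw [← hn, ← Subgroup.index_eq_card, ← (charKer χ).index_mul_card]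
      have h1 : 1 < Nat.card (charKer χ) := (Subgroup.one_lt_card_iff_ne_bot _).2 hK
      have h2 : 0 < (charKer χ).index := Nat.pos_of_ne_zero Subgroup.index_ne_zero_of_finite
      nlinarith
    · rw [← ha]
      have := charKer_comp_of_surjective (χ := ψ) (QuotientGroup.mk' (charKer χ)) (QuotientGroup.mk'_surjective _)
      have e2 : charKer χ = (charKer ψ).comap (QuotientGroup.mk' (charKer χ)) := by
        rw [← this]; exact congrArg charKer e
      conv_rhs => rw [e2]
      exact (Subgroup.index_comap_of_surjective _ (QuotientGroup.mk'_surjective _)).symm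
    · exact (congrFun e 1).symm.trans hf
    · refine le_trans ?_ hN
      refine Set.ncard_le_ncard_of_injOn (fun φ => fun g : P => φ (g : P ⧸ charKer χ)) ?_ ?_ (gal_finite hχ)
      · rintro _ ⟨τ, rfl⟩
        exact ⟨τ, funext fun g => congrArg τ (congrFun e g)⟩
      · intro φ _ φ' _ h
        funext q
        obtain ⟨g, rfl⟩ := QuotientGroup.mk_surjective q
        exact congrFun h g
  have hcard : Nat.card P = p ^ a := by rw [← ha, hK, Subgroup.index_bot]
  rcases Nat.eq_zero_or_pos a with rfl | ha0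
  · simp only [mul_zero, zero_add]; omega
  have hfaith : ∀ g, χ g = χ 1 → g = 1 := fun g hg => by
    have := (mem_charKer_iff_irr hχ).2 hg
    rwa [hK, Subgroup.mem_bot] at this
  have hT : PGrp p (⊤ : Subgroup P) := pGrp_of_card (n := a) hp (by rw [Subgroup.card_top, hcard])
  obtain ⟨A, hA, -⟩ := exists_SCN_ge hT (nml_bot ⊤) ab_bot
  have hAab := hA.ab
  have hAn : A.Normal := nml_top_iff.1 hA.nml
  -- generic facts on a linear constituent on an abelian normal subgroup
  have gen : ∀ (E : Subgroup P) [E.Normal], Ab E → ∃ μ : E →* ℂˣ,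
      IsIrrCharacter E (fun x => (μ x : ℂ)) ∧ ip (fun x : E => χ (E.subtype x)) (fun x => (μ x : ℂ)) ≠ 0 ∧
      ∀ x : E, (∀ g : P, μ ((isNE_subtype E).cj g x) = 1) → x = 1 := by
    intro E _ hE
    obtain ⟨θ, hθ, h⟩ := H7.exists_irr_under E.subtype hχ
    have h1 : θ 1 = 1 := irr_one_eq_one_of_comm (fun a b => Subtype.ext (hE.comm a.2 b.2)) hθ
    obtain ⟨μ, rfl⟩ := exists_hom_of_char_one (irr_char hθ) h1
    refine ⟨μ, hθ, h, fun x hx => Subtype.ext (hfaith _ ?_)⟩
    have hc := (isNE_subtype E).clifford hχ hθ h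
    have e1 := congrFun hc x
    have e2 := congrFun hc 1
    simp only [Subgroup.coe_subtype, Pi.smul_apply, Finset.sum_apply, OneMemClass.coe_one] at e1 e2
    rw [e1, e2]
    congr 1
    refine Finset.sum_congr rfl fun φ hφ => ?_
    obtain ⟨g, rfl⟩ := ((isNE_subtype E).mem_orbit).1 hφ
    simp only [IsNE.cjf_apply, map_one, hx g]
  by_cases hcyc : Cyc A
  · obtain ⟨μ, hμ, hip, hfa⟩ := gen A hAab
    set hne := isNE_subtype A
    haveI : IsCyclic A := hcyc
    obtain ⟨x, hx⟩ := IsCyclic.exists_monoid_generator (α := A)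
    have hinj : Function.Injective μ := by
      rw [injective_iff_map_eq_one]
      intro y hy
      refine hfa y fun g => ?_
      obtain ⟨j, rfl⟩ := hx y
      obtain ⟨k, hk⟩ := hx (hne.cj g x)
      simp only at hk hy ⊢
      rw [map_pow, ← hk, ← pow_mul, mul_comm, pow_mul, map_pow, hy, one_pow]
    have hin : hne.inertia (fun x => (μ x : ℂ)) = A := by
      refine le_antisymm (fun g hg => ?_) ?_
      · rw [← hA.cen]
        refine Subgroup.mem_inf.2 ⟨trivial, ?_⟩
        rw [Subgroup.mem_centralizer_iff]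
        intro y hy
        have h1 := (hne.mem_inertia').1 hg ⟨y, hy⟩
        have h2 := hinj (Units.ext h1)
        have h3 := hne.cj_spec g ⟨y, hy⟩
        rw [h2] at h3
        simp only [Subgroup.coe_subtype] at h3
        calc y * g = (g * y * g⁻¹) * g := by rw [← h3]
          _ = g * y := by group
      · have := hne.range_le_inertia (irr_cf hμ)
        rwa [Subgroup.range_subtype] at this
    have hdvd := hne.degree_dvd_of_under hχ hμ hip hf (d := 1) (by simp)
    rw [hin, mul_one] at hdvd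
    obtain ⟨c, hc⟩ := (hT.mono (le_top : A ≤ ⊤)).card
    obtain ⟨s, -, hs⟩ := (Nat.dvd_prime_pow hp).1 (hcard ▸ A.index_dvd_card)
    have hac : a = s + c := by
      have := A.index_mul_card
      rw [hs, hc, hcard, ← pow_add] at this
      exact (Nat.pow_right_injective hp.two_le this).symm
    have hA1 : A ≠ ⊥ := by
      intro e
      have h1 : (⊤ : Subgroup P) = ⊥ := by
        have := hA.cen
        rw [e] at this
        rw [← this, eq_comm]
        simp [Subgroup.centralizer_eq_top_iff_subset]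
      have := congrArg (fun H : Subgroup P => Nat.card H) h1
      simp only [Subgroup.card_top, Subgroup.card_bot, hcard] at this
      have := Nat.one_lt_pow ha0.ne' hp.one_lt
      omega
    have hc0 : 0 < c := by
      rcases Nat.eq_zero_or_pos c with rfl | h
      · exact absurd (Subgroup.card_eq_one.1 (by simpa using hc)) hA1
      · exact h
    have hord : orderOf (μ x) = p ^ c := by
      rw [orderOf_injective μ hinj, ← hc]
      exact orderOf_eq_card_of_forall_mem_powers hx
    have hτ : ∀ k : ℕ, ∃ τ : ℂ ≃+* ℂ, k.Coprime (p ^ c) → ∀ z : ℂ, z ^ (p ^ c) = 1 → τ z = z ^ k := by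
      intro k
      by_cases h : k.Coprime (p ^ c)
      · obtain ⟨τ, hτ⟩ := exists_ringEquiv_pow (pow_ne_zero c hp.ne_zero) h
        exact ⟨τ, fun _ => hτ⟩
      · exact ⟨RingEquiv.refl ℂ, fun h' => absurd h' h⟩
    choose τ hτ using hτ
    set S := (Finset.range (p ^ c)).filter (fun k => (p ^ c).Coprime k) with hS
    have hScard : S.card = p ^ (c - 1) * (p - 1) := by
      rw [← Nat.totient_prime_pow hp hc0]; rfl
    have hle := Finset.card_le_mul_card_image (f := fun k => fun g => τ k (χ g)) S (p ^ s) (by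
      intro χ' hχ'
      obtain ⟨k0, -, rfl⟩ := Finset.mem_image.1 hχ'
      have hi0 := isIrr_map (τ k0).toRingHom hμ
      have hχ0 := isIrr_map (τ k0).toRingHom hχ
      refine le_trans (Finset.card_le_card_of_injOn (t := hne.orbit (fun y => τ k0 (μ y : ℂ)))
        (fun k => fun y => τ k (μ y : ℂ)) ?_ ?_) ?_
      · intro k hk
        have hk2 := (Finset.mem_filter.1 hk).2
        refine Finset.mem_coe.2 (hne.mem_orbit_of_under hχ0 hi0 (isIrr_map (τ k).toRingHom hμ) ?_ ?_)
        · exact ip_map (τ k0) hμ hip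
        · have := ip_map (τ k) hμ hip
          have e : (fun y : A => τ k (χ (A.subtype y))) = fun y : A => τ k0 (χ (A.subtype y)) :=
            funext fun y => congrFun hk2 _
          rw [e] at this
          exact this
      · intro k hk k' hk' h
        have hk1 := Finset.mem_filter.1 (Finset.mem_filter.1 hk).1
        have hk1' := Finset.mem_filter.1 (Finset.mem_filter.1 hk').1
        have hz : (μ x : ℂ) ^ (p ^ c) = 1 := by
          rw [← Units.val_pow_eq_pow_val, ← hord, pow_orderOf_eq_one, Units.val_one]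
        have h1 := congrFun h x
        simp only at h1
        rw [hτ k hk1.2.symm _ hz, hτ k' hk1'.2.symm _ hz, ← Units.val_pow_eq_pow_val,
          ← Units.val_pow_eq_pow_val] at h1
        refine pow_injOn_Iio_orderOf (x := μ x) ?_ ?_ (Units.ext h1)
        · rw [hord]; exact Finset.mem_range.1 hk1.1
        · rw [hord]; exact Finset.mem_range.1 hk1'.1
      · rw [hne.card_orbit, ← hs]
        have := hne.range_le_inertia (irr_cf hi0)
        rw [Subgroup.range_subtype] at this
        exact Nat.le_of_dvd (Nat.pos_of_ne_zero Subgroup.index_ne_zero_of_finite) (Subgroup.index_dvd_of_le this))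
    have hle2 : (S.image fun k => fun g => τ k (χ g)).card ≤ (gal χ).ncard := by
      rw [← Set.ncard_coe_finset]
      refine Set.ncard_le_ncard ?_ (gal_finite hχ)
      intro φ hφ
      obtain ⟨k, -, rfl⟩ := Finset.mem_image.1 (Finset.mem_coe.1 hφ)
      exact ⟨τ k, rfl⟩
    have h3 : p ^ (c - 1) * (p - 1) ≤ p ^ (s + t) * (p - 1) := by
      calc _ = S.card := hScard.symm
        _ ≤ p ^ s * ((p - 1) * p ^ t) := hle.trans (Nat.mul_le_mul_left _ (hle2.trans hN))
        _ = _ := by ring
    have hp1 : 0 < p - 1 := by have := hp.two_le; omega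
    have h4 : c - 1 ≤ s + t :=
      (Nat.pow_le_pow_iff_right hp.one_lt).1 (Nat.le_of_mul_le_mul_right h3 hp1)
    have h5 : 1 + s * (p - 1) ≤ f := (bern p s hp.one_le).trans (hs ▸ Nat.le_of_dvd hf0 hdvd)
    have h6 : a ≤ 2 * s + t + 1 := by omega
    obtain ⟨r, hr⟩ : ∃ r, p - 1 = r + 1 := ⟨p - 2, by omega⟩
    rw [hr] at h5 ⊢
    have h7 : 1 + s ≤ f := by nlinarith
    have h8 : (r + 1) * a ≤ (r + 1) * (2 * s + t + 1) := Nat.mul_le_mul_left _ h6
    have h9 : (r + 1) * (t + 1) * (1 + s) ≤ (r + 1) * (t + 1) * f := Nat.mul_le_mul_left _ h7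
    nlinarith [Nat.zero_le ((r + 1) * t * s)]
  · obtain ⟨q, E0, hE0⟩ := hAab.exists_pnElem_two hcyc
    have hqp : q = p := by
      have h1 := hE0.dvd
      obtain ⟨c, hc⟩ := (hT.mono (le_top : A ≤ ⊤)).card
      rw [hc] at h1
      exact (Nat.prime_dvd_prime_iff_eq hE0.1 hp).1 (hE0.1.dvd_of_dvd_pow h1)
    subst hqp
    set E := Ω[q](A) with hE
    have hEab : Abelem q E := hAab.abelem_Ohm q
    have hEnc : ¬ Cyc E := hE0.not_cyc_of_le hE0.le_Ohm
    have hEn' : E ⊴ ⊤ := (Ohm_char q A).nml_trans hA.nml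
    haveI hEn : E.Normal := nml_top_iff.1 hEn'
    obtain ⟨μ, hμ, hip, hfa⟩ := gen E hEab.ab
    set hne := isNE_subtype E
    set I := hne.inertia (fun x => (μ x : ℂ)) with hH
    have hIt : I ≠ ⊤ := by
      intro e
      apply hEnc
      have hinj : Function.Injective ((Units.coeHom ℂ).comp μ) := by
        rw [injective_iff_map_eq_one]
        intro y hy
        refine hfa y fun g => Units.ext ?_
        have := (hne.mem_inertia' (θ := fun x => (μ x : ℂ)) (g := g)).1 (by rw [← hH, e]; trivial) y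
        rw [this]; exact hy
      exact isCyclic_of_subgroup_isDomain _ hinj
    obtain ⟨H, hHc, hIH⟩ := (eq_top_or_exists_le_coatom I).resolve_left hIt
    have hHt : H ≠ ⊤ := hHc.1
    haveI := hP.isNilpotent
    haveI hHn : H.Normal := Subgroup.NormalizerCondition.normal_of_coatom H normalizerCondition_of_isNilpotent hHc
    obtain ⟨z, hzE, hzZ, hz1⟩ : ∃ z, z ∈ E ∧ z ∈ Subgroup.center P ∧ z ≠ 1 := by
      have hE1 : E ≠ ⊥ := fun e => hEnc (e ▸ cyc_bot)
      have := hT.nil.meet_center hEn' hE1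
      obtain ⟨⟨z, hz⟩, hz1⟩ := (Subgroup.ne_bot_iff_exists_ne_one).1 this
      refine ⟨z, hz.1, ?_, fun e => hz1 (Subtype.ext e)⟩
      rw [Subgroup.mem_center_iff]
      intro g
      exact hz.2.2 g trivial
    have hcz : ∀ g, hne.cj g ⟨z, hzE⟩ = ⟨z, hzE⟩ := fun g =>
      hne.cj_eq (by simp [Subgroup.mem_center_iff.1 hzZ g])
    have hμz : μ ⟨z, hzE⟩ ≠ 1 := fun e => hz1 (congrArg Subtype.val (hfa ⟨z, hzE⟩ fun g => by rw [hcz, e]))
    have hpow : ∀ y : E, (μ y : ℂ) ^ q = 1 := fun y => by
      rw [← Units.val_pow_eq_pow_val, ← map_pow]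
      have : y ^ q = 1 := Subtype.ext (hEab.pow y.2)
      rw [this, map_one, Units.val_one]
    have hprim : IsPrimitiveRoot (μ ⟨z, hzE⟩ : ℂ) q := by
      have := orderOf_eq_prime (hpow ⟨z, hzE⟩) (fun e => hμz (Units.ext e))
      rw [← this]
      exact IsPrimitiveRoot.orderOf _
    have hEH : ∀ y : E, E.subtype y ∈ H := fun y => hIH (hne.apply_mem_inertia (irr_cf hμ) y)
    have hk : ∀ y, H.subtype (E.subtype.codRestrict H hEH y) = E.subtype y := fun _ => rfl
    have hTT : hne.inertia (fun x => (μ x : ℂ)) ≤ H.subtype.range := by rw [Subgroup.range_subtype]; exact hIH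
    obtain ⟨ψ, hψ, hind, hψip⟩ := hne.corr_surj H.subtype_injective hk hμ hTT hχ hip
    have hψ0 : ip (fun y => ψ (E.subtype.codRestrict H hEH y)) (fun x => (μ x : ℂ)) ≠ 0 := hψip ▸ hip
    have key : ∀ σ : ℂ ≃+* ℂ, (fun g => σ (χ g)) = χ → (fun h => σ (ψ h)) = ψ := by
      intro σ hσ
      have h1 := ip_map σ hμ hip
      have e : (fun y : E => σ (χ (E.subtype y))) = fun y : E => χ (E.subtype y) :=
        funext fun y => congrFun hσ _
      rw [e] at h1
      obtain ⟨g, hg⟩ := hne.mem_orbit.1 (hne.mem_orbit_of_under hχ hμ (isIrr_map σ.toRingHom hμ) hip h1)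
      have h2 := congrFun hg ⟨z, hzE⟩
      rw [IsNE.cjf_apply, hcz] at h2
      have h3 : (fun y => σ (μ y : ℂ)) = fun y => (μ y : ℂ) := by
        funext y
        haveI : NeZero q := ⟨hp.ne_zero⟩
        obtain ⟨i, -, hi⟩ := hprim.eq_pow_of_pow_eq_one (hpow y)
        rw [← hi, map_pow]
        congr 1
        exact h2.symm
      have h4 := ip_map σ hμ hψ0
      rw [h3] at h4
      refine hne.corr_inj H.subtype_injective hk hμ hTT (isIrr_map σ.toRingHom hψ) h4 hψ hψ0 ?_
      exact (map_ind H σ ψ).trans (by rw [hind, hσ])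
    have hNψ : (gal ψ).ncard ≤ (gal χ).ncard := by
      refine Set.ncard_le_ncard_of_injOn (fun φ => ind H.subtype φ) ?_ ?_ (gal_finite hχ)
      · rintro _ ⟨τ, rfl⟩
        exact ⟨τ, by rw [map_ind, hind]⟩
      · rintro _ ⟨τ, rfl⟩ _ ⟨τ', rfl⟩ h
        simp only [map_ind, hind] at h
        have := key (τ.trans τ'.symm) (funext fun g => by
          rw [RingEquiv.trans_apply, congrFun h g, RingEquiv.symm_apply_apply])
        funext y
        have h5 := congrFun this y
        rw [RingEquiv.trans_apply] at h5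
        simp only
        rw [← h5, RingEquiv.apply_symm_apply, h5]
    obtain ⟨f', -, hf'⟩ := irr_one_pos hψ
    have hHp : IsPGroup q H := hP.to_subgroup H
    obtain ⟨b, hb⟩ := hHp.index (charKer ψ)
    obtain ⟨k, hk'⟩ := hP.index H
    have hlt : Nat.card H < n := by
      rw [← hn, ← H.index_mul_card]
      have h1 : 1 < H.index := Subgroup.one_lt_index_of_ne_top hHt
      have h2 : 0 < Nat.card H := Nat.card_pos
      nlinarith
    have IH := ih _ hlt H rfl hHp ψ hψ b f' hb hf' (hNψ.trans hN)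
    have hff : f = q ^ k * f' := by
      have := ind_apply_one H.subtype_injective ψ
      rw [hind, hf, hf', Subgroup.range_subtype, hk'] at this
      exact_mod_cast this
    haveI : (charKer ψ).Normal := charKer_normal (irr_cf hψ)
    have hHle : Nat.card H ≤ (q ^ b) ^ (q ^ k) := by
      letI := Fintype.ofFinite P
      let F : H → (P ⧸ H) → (H ⧸ charKer ψ) := fun h i =>
        ((⟨(i.out)⁻¹ * h * i.out, hHn.conj_mem' _ h.2 _⟩ : H) : H ⧸ charKer ψ)
      have hF : Function.Injective F := by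
        intro h h' e
        have hm : ((h⁻¹ * h' : H) : P) ∈ charKer χ := by
          rw [← hind, ind_subtype, mem_charKer_indFun_iff H (irr_char hψ) (irr_one_ne_zero hψ)]
          intro x
          refine ⟨hHn.conj_mem _ (h⁻¹ * h').2 _, ?_⟩
          obtain ⟨u, hu⟩ := QuotientGroup.mk_out_eq_mul H x⁻¹
          have h1 := QuotientGroup.eq.1 (congrFun e (x⁻¹ : P))
          have h2 := (inferInstance : (charKer ψ).Normal).conj_mem _ h1 u
          convert h2 using 1
          ext
          simp only [Subgroup.coe_mul, Subgroup.coe_inv, hu]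
          group
        rw [hK, Subgroup.mem_bot] at hm
        exact inv_mul_eq_one.1 (Subtype.ext hm)
      have := Nat.card_le_card_of_injective F hF
      rwa [Nat.card_fun, ← Subgroup.index_eq_card, ← Subgroup.index_eq_card, hb, hk'] at this
    have hak : a ≤ b * q ^ k + k := by
      have h1 := H.index_mul_card
      rw [hcard, hk'] at h1
      rw [← Nat.pow_le_pow_iff_right hp.one_lt, ← h1, pow_add, pow_mul, mul_comm]
      exact Nat.mul_le_mul_right _ hHle
    have h5 := bern q k hp.one_le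
    have h6 := Nat.mul_le_mul_left (q ^ k) IH
    have h7 := Nat.mul_le_mul_left (q - 1) hak
    rw [hff]
    generalize q ^ k = Q at *
    generalize q - 1 = r at *
    nlinarith

/-- Let P be a finite p-group of order p^a with a > 0, and χ a faithful irreducible character of P of degree f whose field of values ℚ(χ) has degree (p − 1)·p^t over ℚ. Then a ≤ (f − 1)/(p − 1) + (t + 1)·f; in integer form, (p − 1)·a ≤ (f − 1) + (p − 1)(t + 1)·f. -/
theorem result {P : Type*} [Group P] [Finite P] (p a : ℕ) (hp : p.Prime) (ha : 0 < a) (hP : Nat.card P = p ^ a) (χ : Cfsg.IrrCharacter P) (hfaith : ∀ g : P, (χ : P → ℂ) g = (χ : P → ℂ) 1 → g = 1) (f t : ℕ) (hf : Cfsg.charDegree (χ : P → ℂ) = f) (hfield : Module.finrank ℚ (IntermediateField.adjoin ℚ (Set.range (χ : P → ℂ))) = (p - 1) * p ^ t) : (p - 1) * a ≤ (f - 1) + (p - 1) * (t + 1) * f := by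
  classical
  haveI := Fact.mk hp
  have hχ : IsIrrCharacter P χ := χ.2
  have hK : charKer (χ : P → ℂ) = ⊥ := by
    rw [eq_bot_iff]
    intro g hg
    exact hfaith g ((mem_charKer_iff_irr hχ).1 hg)
  have hf' : (χ : P → ℂ) 1 = f := by rw [← hf]; exact Cfsg.Agent.H8.irr_one_eq χ
  have h := main p t hp _ P rfl (IsPGroup.of_card hP) χ hχ a f (by rw [hK, Subgroup.index_bot, hP]) hf' (by
    set F := IntermediateField.adjoin ℚ (Set.range (χ : P → ℂ)) with hF
    have hpos : 0 < Module.finrank ℚ F := by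
      rw [hfield]; have := hp.two_le
      exact Nat.mul_pos (by omega) (pow_pos hp.pos _)
    haveI : Module.Finite ℚ F := Module.finite_of_finrank_pos hpos
    have hm : ∀ g, (χ : P → ℂ) g ∈ F := fun g => IntermediateField.subset_adjoin _ _ ⟨g, rfl⟩
    rw [← hfield, ← AlgHom.card ℚ F ℂ, ← Nat.card_eq_fintype_card]
    refine le_trans (Set.ncard_le_ncard (t := Set.range fun σ : F →ₐ[ℚ] ℂ => fun g => σ ⟨_, hm g⟩) ?_
      (Set.finite_range _)) ?_
    · rintro _ ⟨τ, rfl⟩
      exact ⟨(τ.toRingHom.toRatAlgHom).comp F.val, rfl⟩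
    · rw [← Set.image_univ, ← Set.ncard_univ]
      exact Set.ncard_image_le)
  have hf0 : 0 < f := hf ▸ Nat.pos_of_ne_zero (Cfsg.Agent.H8.charDegree_irr_ne_zero χ)
  omega

end Cfsg.Agent.S4489
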