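import Cfsg.Statements.S4493
import Mathlib
import Cfsg.Agent.H7.Deg

set_option autoImplicit false
open Cfsg

namespace Cfsg.Agent.S4493

open Cfsg.Agent.H7

/-- Let G be a finite solvable group and p a prime. Then G has a normal abelian Sylow p-subgroup if and only if no irreducible character degree of G is divisible by p. -/
theorem result {G : Type*} [Group G] [Finite G] (hsolv : Group.IsSolvable G) (p : ℕ) (hp : p.Prime) : (∃ P : Subgroup G, P.Normal ∧ (∀ x ∈ P, ∀ y ∈ P, x * y = y * x) ∧ IsPGroup p P ∧ ¬ p ∣ P.index) ↔ ∀ χ : Cfsg.IrrCharacter G, ¬ p ∣ Cfsg.charDegree (χ : G → ℂ) := by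
  haveI := Fact.mk hp
  refine ⟨fun ⟨P, h1, h2, _, h3⟩ χ h => h3 (h.trans (degree_dvd_index_of_abelian_normal _
    h2 χ.2 (char_one_eq (irr_char χ.2)))), fun h => ?_⟩
  obtain ⟨P⟩ : Nonempty (Sylow p G) := inferInstance
  have := sylow_normal_of_not_dvd _ rfl (H1.isPSolvable_of_isSolvable hp hsolv)
    (fun χ hχ => h ⟨χ, hχ⟩) P
  exact ⟨P, this, sylow_comm_of_not_dvd P fun χ hχ => h ⟨χ, hχ⟩, P.isPGroup', P.not_dvd_index⟩

end Cfsg.Agent.S4493
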