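import Cfsg.Statements.S4495
import Cfsg.Agent.H24.SC

set_option autoImplicit false
open Cfsg

namespace Cfsg.Agent.S4495

/-- Let the finite group G contain an element x of prime order p with C_G(x) = ⟨x⟩, and let t be the number of conjugacy classes of elements of order p. If t ≠ p − 1 then the commutator subgroup has index at most (p − 1)/t; if t = p − 1 it has index exactly p. -/
theorem result {G : Type*} [Group G] [Finite G] (p : ℕ) (hp : p.Prime) (x : G) (hx : orderOf x = p) (hC : Subgroup.centralizer ({x} : Set G) = Subgroup.zpowers x) (t : ℕ) (ht : Nat.card {C : ConjClasses G // ∃ g ∈ C.carrier, orderOf g = p} = t) : (t ≠ p - 1 → (commutator G).index * t ≤ p - 1) ∧ (t = p - 1 → (commutator G).index = p) := by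
  have := Fact.mk hp
  have h : H24.D1.SC p x := ⟨hx, hC⟩
  have h1 := h.syl1.card_classes
  rw [ht] at h1
  have hp1 : 0 < p - 1 := by have := hp.two_le; omega
  refine ⟨fun hne => ?_, fun he => (h.index_commutator_eq ?_).1⟩
  · have hf : (H24.D1.CC x).relIndex (H24.D1.NN x) ≠ 1 := fun e => hne (by rw [← h1, e, mul_one])
    have h2 := h.index_dvd (h.syl1.mem_commutator hf)
    rw [← h1, mul_comm]
    exact Nat.mul_le_mul_left _ (Nat.le_of_dvd (Nat.pos_of_mul_pos_left (h1 ▸ hp1)) h2)
  · rw [he] at h1
    exact Nat.eq_of_mul_eq_mul_left hp1 (by rw [h1, mul_one])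

end Cfsg.Agent.S4495
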