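import Cfsg.Statements.S4497
import Cfsg.Agent.H24.SC

set_option autoImplicit false
open Cfsg

namespace Cfsg.Agent.S4497

/-- Let the finite group G contain an element x of prime order p with C_G(x) = ⟨x⟩, let t be the number of conjugacy classes of elements of order p, and let S* = O_{p′}(G) be the largest normal subgroup of order prime to p. Then S* ≤ G′; if t ≠ p − 1 the quotient G′/S* is simple (in particular non-trivial); if t = p − 1 then G′ = S*. -/
theorem result {G : Type*} [Group G] [Finite G] (p : ℕ) (hp : p.Prime) (x : G) (hx : orderOf x = p) (hC : Subgroup.centralizer ({x} : Set G) = Subgroup.zpowers x) (t : ℕ) (ht : Nat.card {C : ConjClasses G // ∃ g ∈ C.carrier, orderOf g = p} = t) : Cfsg.pPrimeCore p G ≤ commutator G ∧ (t ≠ p - 1 → ∀ h : ((Cfsg.pPrimeCore p G).subgroupOf (commutator G)).Normal, IsSimpleGroup (↥(commutator G) ⧸ (Cfsg.pPrimeCore p G).subgroupOf (commutator G))) ∧ (t = p - 1 → commutator G = Cfsg.pPrimeCore p G) := by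
  have := Fact.mk hp
  have h : H24.D1.SC p x := ⟨hx, hC⟩
  have h1 := h.syl1.card_classes
  rw [ht] at h1
  have hp1 : 0 < p - 1 := by have := hp.two_le; omega
  refine ⟨h.core_le, fun hne hn => ?_, fun he => h.commutator_eq_core (h.index_commutator_eq ?_).2⟩
  swap
  · rw [he] at h1
    exact Nat.eq_of_mul_eq_mul_left hp1 (by rw [h1, mul_one])
  have hf : (H24.D1.CC x).relIndex (H24.D1.NN x) ≠ 1 := fun e => hne (by rw [← h1, e, mul_one])
  have hx' := h.syl1.mem_commutator hf
  have h' := h.sub hx'
  have hS : ¬ p ∣ Nat.card (pPrimeCore p G) := (H8.not_dvd_iff_coprime _).2 H2.pPrimeCore_coprime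
  set S := (pPrimeCore p G).subgroupOf (commutator G) with hSd
  have hxS : (⟨x, hx'⟩ : commutator G) ∉ S := fun hh => hS (h.syl1.dvd_of_mem hh)
  have : Nontrivial (commutator G ⧸ S) :=
    ⟨⟨((⟨x, hx'⟩ : commutator G) : commutator G ⧸ S), 1,
      fun e => hxS ((QuotientGroup.eq_one_iff _).1 e)⟩⟩
  refine ⟨fun M hM => ?_⟩
  set M' := M.comap (QuotientGroup.mk' S) with hM'
  have : M'.Normal := hM.comap _
  have hSM : S ≤ M' := fun s hs => by
    rw [hM', Subgroup.mem_comap, QuotientGroup.mk'_apply, (QuotientGroup.eq_one_iff _).2 hs]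
    exact one_mem _
  by_cases hd : p ∣ Nat.card M'
  · right
    have h2 : M' = ⊤ := by
      have hxM := h'.syl1.mem_of_dvd hd
      by_cases hne2 : derivedSeries G 2 = derivedSeries G 1
      · refine eq_top_iff.2 (le_trans ?_ (h'.commutator_le_of_dvd hd))
        intro g _
        have h3 : (commutator (commutator G)).map (commutator G).subtype = derivedSeries G 2 := by
          rw [Subgroup.map_subtype_commutator]; rfl
        have h4 : (g : G) ∈ derivedSeries G 2 := hne2 ▸ g.2
        rw [← h3] at h4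
        obtain ⟨g', hg', e⟩ := h4
        exact (Subtype.ext e : g' = g) ▸ hg'
      · obtain ⟨h3, h4⟩ := h.second_derived hf hne2
        have h5 : derivedSeries G 2 ≤ pPrimeCore p G :=
          H2.le_pPrimeCore ((H8.not_dvd_iff_coprime _).1 h3)
        have h6 : commutator G ≤ M'.map (commutator G).subtype := by
          conv_lhs => rw [h4]
          refine sup_le (fun g hg => ⟨⟨g, h.core_le (h5 hg)⟩, hSM (h5 hg), rfl⟩) ?_
          exact Subgroup.zpowers_le.2 ⟨_, hxM, rfl⟩
        refine eq_top_iff.2 fun g _ => ?_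
        obtain ⟨g', hg', e⟩ := h6 g.2
        exact (Subtype.ext e : g' = g) ▸ hg'
    refine eq_top_iff.2 fun q _ => ?_
    obtain ⟨g, rfl⟩ := QuotientGroup.mk_surjective q
    exact (h2 ▸ Subgroup.mem_top g : g ∈ M')
  · left
    have h2 : M' ≤ S := by
      rw [hSd, H2.pPrimeCore_subgroupOf_of_isSubnormal (Subgroup.Normal.isSubnormal inferInstance)]
      exact H2.le_pPrimeCore ((H8.not_dvd_iff_coprime _).1 hd)
    refine eq_bot_iff.2 fun q hq => ?_
    obtain ⟨g, rfl⟩ := QuotientGroup.mk_surjective q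
    exact (QuotientGroup.eq_one_iff _).2 (h2 hq)

end Cfsg.Agent.S4497
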