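import Cfsg.Statements.S4731
import Mathlib
import Cfsg.Agent.H8.Murray2
import Cfsg.Agent.H9.Misc

set_option autoImplicit false
open Cfsg

namespace Cfsg.Agent.S4731

theorem isIntegral_of_loc {q : ℕ} (hq : q.Prime) {z : ℂ} {b : ℕ} (h1 : IsIntegral ℤ ((q : ℂ) ^ b * z))
    (h : ∀ (M : Ideal AlgInt) [M.IsMaximal], IsPModular q M → z ∈ H8.locRing M) : IsIntegral ℤ z := by
  let I : Ideal AlgInt :=
    { carrier := {a | IsIntegral ℤ ((a : ℂ) * z)}
      add_mem' := fun ha hb => by simpa [add_mul] using IsIntegral.add ha hb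
      zero_mem' := by simpa using isIntegral_zero
      smul_mem' := fun c a ha => by simpa [mul_assoc] using IsIntegral.mul c.2 ha }
  by_contra h2
  obtain ⟨M, hM, hI⟩ := Ideal.exists_le_maximal I fun e => h2 (by
    simpa [I] using (Ideal.eq_top_iff_one I).1 e)
  obtain ⟨a, c, hc, e⟩ := h M ⟨hq, hM, hM.isPrime.mem_of_pow_mem b (hI (by simpa [I] using h1))⟩
  refine hc (hI (show IsIntegral ℤ _ from ?_))
  rw [← e, mul_div_cancel₀ _ (H8.algInt_ne_zero_of_notMem M hc)]
  exact a.2

/-- Let p ≠ q be primes, M_p and M_q maximal ideals of the algebraic integers containing p and q respectively, and G a finite group with no element of order pq; let q^b be the q-part of the order of G. For a p-block B_p (relative to M_p), a q-block B_q (relative to M_q) and a p-singular element y, the sum of χ(1)χ(y) over the irreducible characters χ lying in both B_p and B_q is q^b times an algebraic integer. -/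
theorem result {G : Type*} [Group G] [Finite G] (p q : ℕ) [Fact p.Prime] [Fact q.Prime] (hpq : p ≠ q) (Mp Mq : Ideal Cfsg.AlgInt) (hMp : Cfsg.IsPModular p Mp) (hMq : Cfsg.IsPModular q Mq) (hno : ∀ g : G, orderOf g ≠ p * q) (b : ℕ) (hb : (Nat.card G).factorization q = b) (Bp : Set (Cfsg.IrrCharacter G)) (hBp : Cfsg.IsPBlock Mp Bp) (Bq : Set (Cfsg.IrrCharacter G)) (hBq : Cfsg.IsPBlock Mq Bq) (y : G) (hy : p ∣ orderOf y) : ∃ ω : Cfsg.AlgInt, ∑ᶠ χ ∈ Bp ∩ Bq, (Cfsg.charDegree (χ : G → ℂ) : ℂ) * (χ : G → ℂ) y = (q : ℂ) ^ b * (ω : ℂ) := by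
  open H8 in
  classical
  have := hMp.2.1
  have := hMq.2.1
  have : H9.PMod Mq q := ⟨hMq⟩
  have hq : q.Prime := Fact.out
  have := Fintype.ofFinite G
  have := finite_irr (G := G)
  have := Fintype.ofFinite (IrrCharacter G)
  have := Fintype.ofFinite (ConjClasses G)
  have h1 : NoPQ G p q := fun x y hx hy e => hno (x * y) (by
    rw [Commute.orderOf_mul_eq_mul_orderOf_of_coprime e, hx, hy]
    rw [hx, hy]; exact (Nat.coprime_primes Fact.out hq).2 hpq)
  have hi : ∀ (χ : IrrCharacter G) g, IsIntegral ℤ ((χ : G → ℂ) g) := fun χ =>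
    char_isIntegral (irr_isChar χ)
  have h0 : (q : ℂ) ^ b ≠ 0 := pow_ne_zero _ (Nat.cast_ne_zero.2 hq.ne_zero)
  rw [finsum_mem_irr]
  refine ⟨⟨_ / (q : ℂ) ^ b, isIntegral_of_loc hq (b := b) ?_ fun M _ hM => ?_⟩,
    (mul_div_cancel₀ _ h0).symm⟩
  · rw [mul_div_cancel₀ _ h0]
    exact IsIntegral.sum _ fun χ _ => (isIntegral_natCast _).mul (hi χ y)
  have : H9.PMod M q := ⟨hM⟩
  have hB := H9.isBlockUnion_indep (M' := M) (isBlockUnion_of_block hBq)
  let c : G → ℂ := fun g => ∑ χ with χ ∈ Bp, (χ : G → ℂ) y * (χ : G → ℂ) g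
  have hc : IsClassFunction G c := fun g x => by simp only [c, irr_conj]
  have e1 : chiL c (fC Bq) = ∑ χ with χ ∈ Bp ∩ Bq, (charDegree (χ : G → ℂ) : ℂ) * (χ : G → ℂ) y := by
    rw [chiL_sum _ _ _ c fun _ => rfl, Finset.sum_filter, Finset.sum_filter]
    refine Finset.sum_congr rfl fun χ _ => ?_
    rw [chiL_eq_omega, omega_fC, irr_one_eq]
    by_cases h : χ ∈ Bp <;> by_cases h' : χ ∈ Bq <;> simp [h, h', mul_comm]
  rw [← e1, Zen_eq_sum_classSum (fC_mem_Zen Bq), map_sum, Finset.sum_div]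
  refine sum_mem fun K _ => ?_
  generalize Quotient.out K = g
  rw [map_smul, chiL_classSum hc, smul_eq_mul, coeff_fC]
  by_cases hg : p ∣ orderOf g
  · rw [mul_div_assoc, mul_div_right_comm, ← Nat.cast_pow]
    refine mul_mem (blockCoeff_mem_locRing hB g) (mul_mem ?_ (mem_locRing_of_isIntegral M
      (IsIntegral.sum _ fun χ _ => (hi χ y).mul (hi χ g))))
    rw [natCast_div_mem_locRing_iff hM Subgroup.index_ne_zero_of_finite (pow_ne_zero _ hq.ne_zero),
      hq.factorization_pow, Finsupp.single_eq_same]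
    have h2 := factorization_card_eq (p := q) (Subgroup.centralizer {g})
    rw [Nat.factorization_eq_zero_of_not_dvd (h1.not_dvd hq hg)] at h2
    omega
  · have := weak_orthogonality hMp (isBlockUnion_of_block hBp) (x := g⁻¹) (by rwa [orderOf_inv]) hy
    simp only [irr_inv, Complex.conj_conj] at this
    simp only [c, this, mul_zero, zero_div]
    exact zero_mem _

end Cfsg.Agent.S4731
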