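import Cfsg.Statements.S4498
import Mathlib
import Cfsg.Agent.S4731

set_option autoImplicit false
open Cfsg

namespace Cfsg.Agent.S4498

/-- Let p and q be distinct primes dividing the order of the finite group G, and suppose G has no element of order p·q. Fix maximal ideals M_p over p and M_q over q of the algebraic integers. Then the principal p-block and the principal q-block of G have a non-principal irreducible character in common. -/
theorem result {G : Type*} [Group G] [Finite G] (p q : ℕ) [Fact p.Prime] [Fact q.Prime] (hpq : p ≠ q) (hp : p ∣ Nat.card G) (hq : q ∣ Nat.card G) (hno : ∀ g : G, orderOf g ≠ p * q) (Mp Mq : Ideal Cfsg.AlgInt) (hMp : Cfsg.IsPModular p Mp) (hMq : Cfsg.IsPModular q Mq) : ∃ χ : Cfsg.IrrCharacter G, (χ : G → ℂ) ≠ (fun _ => 1) ∧ χ ∈ Cfsg.principalBlock Mp G ∧ χ ∈ Cfsg.principalBlock Mq G := by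
  open H8 in
  have := hMp.2.1
  have := hMq.2.1
  by_contra! h
  have hq' : q.Prime := Fact.out
  obtain ⟨y, hy⟩ := exists_prime_orderOf_dvd_card' p hp
  obtain ⟨ω, e⟩ := S4731.result p q hpq Mp Mq hMp hMq hno _ rfl _ (isPBlock_principalBlock (G := G)) _
    isPBlock_principalBlock y hy.symm.dvd
  rw [show principalBlock Mp G ∩ principalBlock Mq G = {irrOne G} from Set.eq_singleton_iff_unique_mem.2
    ⟨⟨irrOne_mem_principalBlock, irrOne_mem_principalBlock⟩, fun χ hχ => Subtype.ext (by_contra fun e =>
      h χ e hχ.1 hχ.2)⟩, finsum_mem_singleton, ← irr_one_eq] at e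
  have h0 := pow_ne_zero ((Nat.card G).factorization q) hq'.ne_zero
  have := dvd_of_isIntegral_div (a := 1) h0 (by
    rw [Nat.cast_one, show (1 : ℂ) = _ from (mul_one _).symm.trans e, Nat.cast_pow,
      mul_div_cancel_left₀ _ (by exact_mod_cast h0)]
    exact ω.2)
  rw [Nat.dvd_one, Nat.pow_eq_one] at this
  exact this.elim hq'.one_lt.ne' (hq'.factorization_pos_of_dvd Nat.card_pos.ne' hq).ne'

end Cfsg.Agent.S4498
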