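import Cfsg.Statements.S4500
import Mathlib
import Cfsg.Agent.H9.BT
import Cfsg.Agent.S4499

set_option autoImplicit false
open Cfsg

namespace Cfsg.Agent.S4500

/-- Let G be a non-trivial finite group of order p^a · q^b · r^c with p, q, r distinct primes and a ≤ 2. Then G has a non-principal irreducible character whose degree is a power of q, and a non-principal irreducible character whose degree is a power of r; the power may be the zeroth, so a non-principal linear character serves for both. -/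
theorem result {G : Type*} [Group G] [Finite G] [Nontrivial G] (p q r a b c : ℕ) (hp : p.Prime) (hq : q.Prime) (hr : r.Prime) (hpq : p ≠ q) (hpr : p ≠ r) (hqr : q ≠ r) (ha : a ≤ 2) (hG : Nat.card G = p ^ a * q ^ b * r ^ c) : (∃ χ : Cfsg.IrrCharacter G, (χ : G → ℂ) ≠ (fun _ => 1) ∧ ∃ k : ℕ, Cfsg.charDegree (χ : G → ℂ) = q ^ k) ∧ ∃ χ : Cfsg.IrrCharacter G, (χ : G → ℂ) ≠ (fun _ => 1) ∧ ∃ k : ℕ, Cfsg.charDegree (χ : G → ℂ) = r ^ k := by
  by_cases hc : commutator G = ⊤
  swap
  · have h1 : 1 < Nat.card {χ : IrrCharacter G // (χ : G → ℂ) 1 = 1} := by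
      rw [H6.card_irr_degree_one]; exact Subgroup.one_lt_index_of_ne_top hc
    have := Finite.one_lt_card_iff_nontrivial.1 h1
    obtain ⟨⟨χ, h2⟩, h3⟩ := exists_ne (⟨H8.irrOne G, rfl⟩ : {χ : IrrCharacter G // (χ : G → ℂ) 1 = 1})
    have h4 : charDegree (χ : G → ℂ) = 1 := by
      rw [H8.irr_one_eq] at h2; exact_mod_cast h2
    have h5 : (χ : G → ℂ) ≠ fun _ => 1 := fun e => h3 (Subtype.ext (Subtype.ext e))
    exact ⟨⟨χ, h5, 0, h4⟩, χ, h5, 0, h4⟩
  have ha0 : a ≠ 0 := fun e => by
    have := S0144.result (G := G) q r b c hq hr (by rw [hG, e, pow_zero, one_mul])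
    exact (Group.IsSolvable.commutator_lt_top_of_nontrivial G).ne hc
  have := Fact.mk hp
  obtain ⟨M, hM⟩ := H7.exists_isPModular hp
  have hd : p ∣ Nat.card G := hG ▸ ((dvd_pow_self p ha0).mul_right _).mul_right _
  have hf : (Nat.card G).factorization p = a := by
    rw [hG, Nat.factorization_mul (mul_ne_zero (pow_ne_zero _ hp.ne_zero) (pow_ne_zero _ hq.ne_zero))
      (pow_ne_zero _ hr.ne_zero), Nat.factorization_mul (pow_ne_zero _ hp.ne_zero)
      (pow_ne_zero _ hq.ne_zero), hp.factorization_pow, hq.factorization_pow, hr.factorization_pow]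
    simp [hpq, hpr]
  obtain ⟨x, hx⟩ := exists_prime_orderOf_dvd_card' p hd
  have key : ∀ {q r b c : ℕ}, q.Prime → r.Prime → Nat.card G = p ^ a * q ^ b * r ^ c →
      ∃ χ : IrrCharacter G, (χ : G → ℂ) ≠ (fun _ => 1) ∧ ∃ k : ℕ, charDegree (χ : G → ℂ) = q ^ k :=
    fun {q r b c} hq hr e => by
      obtain ⟨χ, h4, h5, h6, h7⟩ := H9.exists_principal_not_dvd hM (g := x) hx.symm.dvd hr
      refine ⟨χ, fun e => h5 (Subtype.ext e), H9.eq_pow_of_dvd hp hq hr (e ▸ H8.charDegree_dvd_card χ)
        (fun h => ?_) h6⟩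
      obtain rfl | rfl : a = 1 ∨ a = 2 := by omega
      · exact H9.not_dvd_degree_of_ne_zero (fun h => by
          have := (hp.pow_dvd_iff_le_factorization Nat.card_pos.ne').1 h; omega) χ.2 hx.symm.dvd h7 h
      · have := hM.2.1
        have := S4499.result p M hM hd _ H8.isPBlock_principalBlock χ h4 (by simpa [hf] using h) _
          H8.irrOne_mem_principalBlock
        rw [hf, show charDegree (H8.irrOne G : G → ℂ) = 1 by
          have := H8.irr_one_eq (H8.irrOne G); rw [H8.irrOne_apply] at this; exact_mod_cast this.symm] at this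
        exact hp.one_lt.ne' (by simpa using this)
  exact ⟨key hq hr hG, key hr hq (b := c) (c := b) (by rw [hG]; ring)⟩

end Cfsg.Agent.S4500
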