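import Cfsg.Statements.S4506
import Mathlib
import Cfsg.Agent.H8.Height
import Cfsg.Agent.H7.Base
import Cfsg.Agent.H6.Galois
import Cfsg.Agent.H9.Contr
-- import your own Cfsg.Agent.* helpers here

set_option autoImplicit false
open Cfsg

namespace Cfsg.Agent.S4506


open Cfsg.Agent.H8 Cfsg.Agent.H6 MulAction
open scoped ComplexConjugate

theorem sum_smul' {U X : Type*} [Group U] [Fintype U] [MulAction U X] [Fintype X] (x : X)
    [DecidablePred (· ∈ orbit U x)] (f : X → ℂ) :
    ∑ u : U, f (u • x) = Nat.card (stabilizer U x) * ∑ y : X with y ∈ orbit U x, f y := by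
  classical
  rw [Finset.sum_comp f (fun u : U => u • x), Finset.mul_sum]
  have e : Finset.univ.image (fun u : U => u • x) = Finset.univ.filter (· ∈ orbit U x) := by
    ext y; simp [mem_orbit_iff]
  rw [e]
  refine Finset.sum_congr rfl fun y hy => ?_
  obtain ⟨u0, rfl⟩ := mem_orbit_iff.1 (Finset.mem_filter.1 hy).2
  rw [nsmul_eq_mul]
  congr 2
  rw [Nat.card_eq_fintype_card, Fintype.card_subtype]
  refine Finset.card_bij (fun u _ => u0⁻¹ * u) ?_ ?_ ?_
  · intro u hu
    simp only [Finset.mem_filter, Finset.mem_univ, true_and, mem_stabilizer_iff] at hu ⊢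
    rw [mul_smul, hu, inv_smul_smul]
  · intro a _ b _ h
    exact mul_left_cancel h
  · intro b hb
    simp only [Finset.mem_filter, Finset.mem_univ, true_and, mem_stabilizer_iff] at hb ⊢
    exact ⟨u0 * b, by rw [mul_smul, hb], by group⟩

variable {G : Type*} [Group G] [Finite G]

theorem blk {p : ℕ} [hp : Fact p.Prime] {M : Ideal AlgInt} [M.IsMaximal] (hM : IsPModular p M)
    [Fintype (IrrCharacter G)] (A : Set (IrrCharacter G)) [DecidablePred (· ∈ A)]
    {χ : IrrCharacter G} (hχ : χ ∈ A) (h1 : ∀ ψ ∈ A, (ψ : G → ℂ) 1 = (χ : G → ℂ) 1) (s : ℕ)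
    (hi : ∀ g, IsIntegral ℤ ((∑ ψ : IrrCharacter G with ψ ∈ A, (ψ : G → ℂ) g) / (p ^ s : ℕ))) :
    s + (charDegree (χ : G → ℂ)).factorization p ≤ (Nat.card G).factorization p ∧
    (s + (charDegree (χ : G → ℂ)).factorization p = (Nat.card G).factorization p →
      blockDefect p (blockOf M (χ : G → ℂ)) = s) := by
  classical
  set f := charDegree (χ : G → ℂ) with hf
  have hf0 : f ≠ 0 := charDegree_irr_ne_zero χ
  have hps : p ^ s ≠ 0 := pow_ne_zero _ hp.out.ne_zero
  have hG0 : Nat.card G ≠ 0 := Nat.card_pos.ne'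
  have hfac : (p ^ s * f).factorization p = s + f.factorization p := by
    rw [Nat.factorization_mul hps hf0, Finsupp.add_apply, hp.out.factorization_pow, Finsupp.single_eq_same]
  have hc : ∀ g, blockCoeff A g = (((p ^ s * f : ℕ) : ℂ) / (Nat.card G : ℂ)) *
      ((∑ ψ : IrrCharacter G with ψ ∈ A, (ψ : G → ℂ) g⁻¹) / (p ^ s : ℕ)) := by
    intro g
    rw [blockCoeff_eq]
    have : ∑ ψ : IrrCharacter G with ψ ∈ A, (ψ : G → ℂ) 1 * conj ((ψ : G → ℂ) g) =
        (f : ℂ) * ∑ ψ : IrrCharacter G with ψ ∈ A, (ψ : G → ℂ) g⁻¹ := by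
      rw [Finset.mul_sum]
      refine Finset.sum_congr rfl fun ψ hψ => ?_
      rw [h1 ψ (Finset.mem_filter.1 hψ).2, irr_one_eq, H7.char_inv (H7.irr_char ψ.2)]
    rw [this]
    have h2 : ((p ^ s : ℕ) : ℂ) ≠ 0 := by exact_mod_cast hps
    rw [Nat.cast_mul]
    field_simp
  have key : (Nat.card G).factorization p ≤ s + f.factorization p →
      (∀ g, (fC A).coeff g ∈ locRing M) := by
    intro h g
    rw [coeff_fC, hc]
    exact Subring.mul_mem _ ((natCast_div_mem_locRing_iff hM (mul_ne_zero hps hf0) hG0).2 (hfac ▸ h))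
      (mem_locRing_of_isIntegral M (hi _))
  have key2 : (Nat.card G).factorization p ≤ s + f.factorization p → ∀ ψ : IrrCharacter G,
      lam M (ψ : G → ℂ) (red M (toOG M (fC A))) = if ψ ∈ A then 1 else 0 := by
    intro h ψ
    have e := up_toOG (key h)
    rw [lam_red ψ (mem_Zen_of_up (by rw [e]; exact fC_mem_Zen A)), e, omega_fC]
    split_ifs <;> simp
  constructor
  · by_contra hlt
    push Not at hlt
    have h2 := key2 hlt.le χ
    rw [if_pos hχ] at h2
    have h3 : red M (toOG M (fC A)) = 0 := by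
      ext g
      rw [coeff_red_toOG, coeff_fC, hc]
      exact rd_eq_zero_of_memLocalIdeal (memLocalIdeal_mul_right
        ((memLocalIdeal_natCast_div_iff hM (mul_ne_zero hps hf0) hG0).2 (hfac ▸ hlt))
        (mem_locRing_of_isIntegral M (hi _)))
    rw [h3, map_zero] at h2
    exact zero_ne_one h2
  · intro he
    obtain ⟨ψ, hψ, hm⟩ := exists_minVal_eq (p := p) (block_nonempty (isPBlock_blockOf (M := M) χ))
    have h2 := key2 he.ge ψ
    rw [(mem_blockOf_iff χ ψ).1 hψ, key2 he.ge χ, if_pos hχ] at h2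
    have h3 : ψ ∈ A := by
      by_contra h
      rw [if_neg h] at h2
      exact one_ne_zero h2
    have h4 : charDegree (ψ : G → ℂ) = f := by
      have := h1 ψ h3
      rw [irr_one_eq, irr_one_eq] at this
      exact_mod_cast this
    rw [blockDefect_eq, ← hm, h4]
    omega

instance : NeZero (Nat.card G) := ⟨Nat.card_pos.ne'⟩

theorem pow_val_mul (g : G) (a b : ZMod (Nat.card G)) : g ^ (a * b).val = (g ^ a.val) ^ b.val := by
  rw [ZMod.val_mul, ← pow_mul, ← pow_eq_pow_mod _ pow_card_eq_one']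

theorem pow_val_add (g : G) (a b : ZMod (Nat.card G)) : g ^ (a + b).val = g ^ a.val * g ^ b.val := by
  rw [ZMod.val_add, ← pow_add, ← pow_eq_pow_mod _ pow_card_eq_one']

theorem pow_val_one (g : G) : g ^ (1 : ZMod (Nat.card G)).val = g := by
  rw [← Nat.cast_one, ZMod.val_natCast, ← pow_eq_pow_mod _ pow_card_eq_one', pow_one]

/-- The action of the units on the irreducible characters by power maps. -/
@[reducible] noncomputable def act (G : Type*) [Group G] [Finite G] :
    MulAction (ZMod (Nat.card G))ˣ (IrrCharacter G) where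
  smul u χ := ⟨fun g => χ.1 (g ^ (u : ZMod (Nat.card G)).val), isIrr_comp_pow χ.2 (ZMod.val_coe_unit_coprime u)⟩
  one_smul χ := Subtype.ext (funext fun g => congrArg χ.1 (pow_val_one g))
  mul_smul u v χ := Subtype.ext (funext fun g => congrArg χ.1 (pow_val_mul g u v))

attribute [local instance] act

theorem act_apply (u : (ZMod (Nat.card G))ˣ) (χ : IrrCharacter G) (g : G) :
    (u • χ).1 g = χ.1 (g ^ (u : ZMod (Nat.card G)).val) := rfl

/-- units congruent to one -/
def UU {n m : ℕ} (h : m ∣ n) : Subgroup (ZMod n)ˣ := (ZMod.unitsMap h).ker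

theorem mem_UU {n m : ℕ} [NeZero n] (h : m ∣ n) (u : (ZMod n)ˣ) : u ∈ UU h ↔ (u : ZMod n).val ≡ 1 [MOD m] := by
  rw [UU, MonoidHom.mem_ker, Units.ext_iff, ZMod.unitsMap_val, ← ZMod.natCast_eq_natCast_iff,
    ZMod.cast_eq_val]
  simp

theorem index_UU {n m : ℕ} [NeZero n] (h : m ∣ n) : (UU h).index = m.totient := by
  haveI : NeZero m := ⟨fun e => NeZero.ne n (by rw [e] at h; exact Nat.eq_zero_of_zero_dvd h)⟩
  rw [UU, Subgroup.index_ker, MonoidHom.range_eq_top.2 (ZMod.unitsMap_surjective h), Subgroup.card_top,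
    Nat.card_eq_fintype_card, ZMod.card_units_eq_totient]

theorem UU_le {n m k : ℕ} [NeZero n] (h : m * k ∣ n) (h' : m ∣ n) : UU h ≤ UU h' := fun u hu =>
  (mem_UU h' u).2 (((mem_UU h u).1 hu).of_mul_right k)

theorem relIndex_UU {n m k : ℕ} [NeZero n] (h : m * k ∣ n) (h' : m ∣ n) (hc : m.Coprime k) :
    (UU h).relIndex (UU h') = k.totient := by
  have h1 := Subgroup.relIndex_mul_index (UU_le h h')
  rw [index_UU, index_UU, Nat.totient_mul hc, mul_comm] at h1
  have : 0 < m := Nat.pos_of_ne_zero fun e => NeZero.ne n (by rw [e] at h'; exact Nat.eq_zero_of_zero_dvd h')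
  exact Nat.eq_of_mul_eq_mul_left (Nat.totient_pos.2 this) h1

theorem card_orbit_eq (U : Subgroup (ZMod (Nat.card G))ˣ) (χ : IrrCharacter G) :
    Nat.card (orbit U χ) = (stabilizer (ZMod (Nat.card G))ˣ χ).relIndex U := by
  rw [Nat.card_coe_set_eq, ← index_stabilizer]
  rfl

theorem avg_int {m : ℕ} (h : m ∣ Nat.card G) (hm : ∀ k : ℕ, k.Coprime m → k.Coprime (Nat.card G))
    (χ : IrrCharacter G) (g : G) [Fintype (UU h)] :
    IsIntegral ℤ ((Nat.card (UU h) : ℂ)⁻¹ * ∑ u : UU h, (u • χ).1 g) := by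
  classical
  let π : Multiplicative (ZMod (Nat.card G)) →* G :=
    { toFun := fun k => g ^ (Multiplicative.toAdd k).val
      map_one' := by simp
      map_mul' := fun a b => pow_val_add g _ _ }
  let D : Subgroup (Multiplicative (ZMod (Nat.card G))) :=
    (AddMonoidHom.toMultiplicative (ZMod.castHom h (ZMod m)).toAddMonoidHom).ker
  have hD : ∀ y, y ∈ D ↔ ZMod.castHom h (ZMod m) (Multiplicative.toAdd y) = 0 := fun y => Iff.rfl
  have hU : ∀ u : (ZMod (Nat.card G))ˣ, u ∈ UU h ↔ ZMod.castHom h (ZMod m) u = 1 := fun u => by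
    rw [UU, MonoidHom.mem_ker, Units.ext_iff]; rfl
  letI := Fintype.ofFinite D
  have hi := isIntegral_avg (H7.char_comp π (H7.irr_char χ.2)) (x := Multiplicative.ofAdd 1) (D := D)
    (fun y _ => by rw [Subgroup.mem_centralizer_iff]; intro z _; exact mul_comm _ _)
  let F : UU h → D := fun u => ⟨Multiplicative.ofAdd ((u.1 : ZMod (Nat.card G)) - 1), by
    rw [hD, toAdd_ofAdd, map_sub, (hU _).1 u.2, map_one, sub_self]⟩
  have hF : Function.Bijective F := by
    constructor
    · intro u v e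
      have := congrArg (fun y : D => Multiplicative.toAdd y.1) e
      simp only [F, toAdd_ofAdd, sub_left_inj] at this
      exact Subtype.ext (Units.ext this)
    · intro y
      have h1 : ZMod.castHom h (ZMod m) (Multiplicative.toAdd y.1 + 1) = 1 := by
        rw [map_add, (hD _).1 y.2, map_one, zero_add]
      have h2 : IsUnit (Multiplicative.toAdd y.1 + 1) := by
        rw [← ZMod.natCast_zmod_val (Multiplicative.toAdd y.1 + 1), ZMod.isUnit_iff_coprime]
        apply hm
        rw [← ZMod.isUnit_iff_coprime, ← map_natCast (ZMod.castHom h (ZMod m)), ZMod.natCast_zmod_val, h1]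
        exact isUnit_one
      refine ⟨⟨h2.unit, (hU _).2 h1⟩, Subtype.ext ?_⟩
      simp [F]
  rw [Nat.card_congr (Equiv.ofBijective F hF)]
  convert hi using 2
  refine Fintype.sum_bijective F hF _ _ fun u => ?_
  change χ.1 (g ^ (u.1 : ZMod (Nat.card G)).val) = χ.1 (g ^ (1 + ((u.1 : ZMod (Nat.card G)) - 1)).val)
  rw [add_sub_cancel]

/-- Let G be a finite group, p a prime, p^a the p-part of the order of G and g′ its p′-part. Call two irreducible characters p-conjugate when one is obtained from the other by applying a field automorphism of ℂ that fixes the g′-th roots of unity, and let r be the number of characters p-conjugate to the irreducible character χ (χ included). Then the exponent of p in r·χ(1) is at most a; and if p^a divides r·χ(1) then p^a already divides χ(1). -/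
theorem result {G : Type*} [Group G] [Finite G] (p : ℕ) (hp : p.Prime) (χ : Cfsg.IrrCharacter G) (r : ℕ) (hr : Nat.card {ψ : Cfsg.IrrCharacter G // ∃ σ : ℂ ≃+* ℂ, σ (Complex.exp (2 * Real.pi * Complex.I / ((Nat.card G / p ^ (Nat.card G).factorization p) : ℕ))) = Complex.exp (2 * Real.pi * Complex.I / ((Nat.card G / p ^ (Nat.card G).factorization p) : ℕ)) ∧ (ψ : G → ℂ) = fun g => σ ((χ : G → ℂ) g)} = r) : (r * Cfsg.charDegree (χ : G → ℂ)).factorization p ≤ (Nat.card G).factorization p ∧ (p ^ (Nat.card G).factorization p ∣ r * Cfsg.charDegree (χ : G → ℂ) → p ^ (Nat.card G).factorization p ∣ Cfsg.charDegree (χ : G → ℂ)) := by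
  classical
  haveI := Fact.mk hp
  set a := (Nat.card G).factorization p with ha
  set g' := Nat.card G / p ^ a with hg'
  have hG0 : Nat.card G ≠ 0 := Nat.card_pos.ne'
  have hn : g' * p ^ a = Nat.card G := by rw [mul_comm]; exact Nat.ordProj_mul_ordCompl_eq_self _ p
  have hcop : p.Coprime g' := Nat.coprime_ordCompl hp hG0
  have hg0 : g' ≠ 0 := (Nat.ordCompl_pos p hG0).ne'
  have hd : ∀ d, d ≤ a → g' * p ^ d ∣ Nat.card G := fun d h =>
    hn ▸ Nat.mul_dvd_mul_left _ (pow_dvd_pow p h)
  have hg1 : g' ∣ Nat.card G := Dvd.intro _ hn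
  have hζ := Complex.isPrimitiveRoot_exp _ hg0
  set S := stabilizer (ZMod (Nat.card G))ˣ χ with hS
  have hr' : r = S.relIndex (UU hg1) := by
    rw [← hr, ← card_orbit_eq]
    refine Nat.card_congr (Equiv.subtypeEquivRight fun ψ => ?_)
    rw [mem_orbit_iff]
    constructor
    · rintro ⟨σ, h1, h2⟩
      obtain ⟨m, hm, h3⟩ := exists_pow_of_ringHom σ.toRingHom hG0
      have h4 : m ≡ 1 [MOD g'] := by
        have h5 := h3 _ ((hζ.pow_eq_one_iff_dvd _).2 hg1)
        rw [RingEquiv.toRingHom_eq_coe, RingEquiv.coe_toRingHom, h1] at h5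
        have h6 := hζ.eq_orderOf
        rw [h6]
        haveI := hζ.isOfFinOrder hg0
        exact (this.pow_eq_pow_iff_modEq).1 (by rw [pow_one]; exact h5.symm)
      refine ⟨⟨ZMod.unitOfCoprime m hm, (mem_UU _ _).2 ?_⟩, Subtype.ext (funext fun g => ?_)⟩
      · rw [ZMod.coe_unitOfCoprime, ZMod.val_natCast]
        exact ((Nat.mod_modEq m _).of_dvd hg1).trans h4
      · change χ.1 (g ^ ((ZMod.unitOfCoprime m hm : (ZMod (Nat.card G))ˣ) : ZMod (Nat.card G)).val) = _
        rw [ZMod.coe_unitOfCoprime, ZMod.val_natCast, ← pow_eq_pow_mod _ pow_card_eq_one', h2]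
        exact (map_apply_eq_pow σ.toRingHom h3 (isGen_of_isCharacter (H7.irr_char χ.2)) pow_card_eq_one').symm
    · rintro ⟨u, rfl⟩
      obtain ⟨τ, hτ⟩ := exists_ringEquiv_pow hG0 (ZMod.val_coe_unit_coprime u.1)
      refine ⟨τ, ?_, funext fun g => ?_⟩
      · rw [hτ _ ((hζ.pow_eq_one_iff_dvd _).2 hg1), pow_eq_pow_of_modEq ((mem_UU _ _).1 u.2) hζ.pow_eq_one, pow_one]
      · exact (map_apply_eq_pow τ.toRingHom hτ (isGen_of_isCharacter (H7.irr_char χ.2)) pow_card_eq_one').symm
  have hB : ∀ d (h : d ≤ a), UU (hd d h) ≤ S → r ∣ (p ^ d).totient := by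
    intro d h hle
    rw [hr', ← relIndex_UU (hd d h) hg1 (hcop.symm.pow_right d)]
    exact Subgroup.relIndex_dvd_of_le_left _ hle
  have hf0 : charDegree (χ : G → ℂ) ≠ 0 := charDegree_irr_ne_zero χ
  have hr0 : r ≠ 0 := by rw [hr']; exact Subgroup.index_ne_zero_of_finite
  have hfa := factorization_charDegree_le (p := p) χ
  rw [← ha] at hfa
  rw [Nat.factorization_mul hr0 hf0, Finsupp.add_apply, hp.pow_dvd_iff_le_factorization hf0,
    hp.pow_dvd_iff_le_factorization (mul_ne_zero hr0 hf0), Nat.factorization_mul hr0 hf0, Finsupp.add_apply]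
  have hstab : ∀ d (h : d ≤ a), (∀ g : G, χ.1 g ≠ 0 → g ^ (g' * p ^ d) = 1) → UU (hd d h) ≤ S := by
    intro d h hv u hu
    have h1 := (mem_UU _ _).1 hu
    refine Subtype.ext (funext fun g => ?_)
    rw [act_apply]
    by_cases h2 : g ^ (g' * p ^ d) = 1
    · rw [pow_eq_pow_of_modEq h1 h2, pow_one]
    · have h3 : χ.1 g = 0 := by by_contra h3; exact h2 (hv g h3)
      rw [h3]
      by_contra h4
      apply h2
      have h5 := hv _ h4
      rw [← pow_mul, mul_comm, pow_mul] at h5
      have h6 := orderOf_dvd_of_pow_eq_one h5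
      exact orderOf_eq_one_iff.1 (Nat.eq_one_of_dvd_coprimes (ZMod.val_coe_unit_coprime u) h6 (orderOf_dvd_natCard _))
  rcases Nat.eq_zero_or_pos a with ha0 | ha0
  · have := hB 0 (Nat.zero_le _) (hstab 0 (Nat.zero_le _) fun g _ => by
      rw [← ha0, hn]; exact pow_card_eq_one')
    simp only [pow_zero, Nat.totient_one, Nat.dvd_one] at this
    rw [this]
    simp only [Nat.factorization_one, Finsupp.coe_zero, Pi.zero_apply]
    omega
  have h1 := hd 1 ha0
  have ht1 : (p ^ 1).totient = p - 1 := by rw [pow_one, Nat.totient_prime hp]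
  have hcard : Nat.card (UU h1) = p ^ (a - 1) := by
    have h2 := (UU h1).index_mul_card
    rw [index_UU, Nat.card_eq_fintype_card (α := (ZMod (Nat.card G))ˣ), ZMod.card_units_eq_totient] at h2
    conv_rhs at h2 => rw [← hn]
    rw [Nat.totient_mul (hcop.symm.pow_right 1), Nat.totient_mul (hcop.symm.pow_right a),
      Nat.totient_prime_pow hp ha0, ht1] at h2
    have h3 : 0 < g'.totient * (p - 1) :=
      Nat.mul_pos (Nat.totient_pos.2 (Nat.pos_of_ne_zero hg0)) (by have := hp.two_le; omega)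
    refine Nat.eq_of_mul_eq_mul_left h3 ?_
    rw [h2]; ring
  obtain ⟨s, -, hs⟩ := (Nat.dvd_prime_pow hp).1 (hcard ▸ Subgroup.relIndex_dvd_card S (UU h1))
  have hrs : r.factorization p ≤ s := by
    have h2 := Subgroup.relIndex_mul_relIndex (S ⊓ UU h1) (UU h1) (UU hg1) inf_le_right (UU_le h1 hg1)
    rw [Subgroup.inf_relIndex_right, hs, relIndex_UU h1 hg1 (hcop.symm.pow_right 1), ht1] at h2
    have h3 : r ∣ p ^ s * (p - 1) := by
      rw [h2, hr']; exact Subgroup.relIndex_dvd_of_le_left _ inf_le_left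
    have h4 : p ^ r.factorization p ∣ p ^ s :=
      (Nat.Coprime.pow_left _ ((Nat.coprime_self_sub_right hp.one_le).2 (Nat.coprime_one_right p))).dvd_of_dvd_mul_right
        ((Nat.ordProj_dvd r p).trans h3)
    exact (Nat.pow_dvd_pow_iff_le_right hp.one_lt).1 h4
  obtain ⟨M, hM⟩ := H9.exists_pmod p
  haveI := hM.2.1
  haveI := H8.finite_irr (G := G)
  letI := Fintype.ofFinite (IrrCharacter G)
  letI := Fintype.ofFinite (UU h1)
  obtain ⟨b1, b2⟩ := blk hM (orbit (UU h1) χ) (mem_orbit_self χ) (by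
    rintro _ ⟨u, rfl⟩
    change χ.1 (1 ^ _) = _
    rw [one_pow]) s (fun g => by
      have h2 := avg_int h1 (fun k hk => by
        rw [← hn]
        rw [pow_one] at hk
        exact Nat.Coprime.mul_right (Nat.Coprime.coprime_mul_right_right hk)
          ((Nat.Coprime.coprime_mul_left_right hk).pow_right a)) χ g
      rw [sum_smul' χ (fun ψ => ψ.1 g)] at h2
      have h3 := (stabilizer (UU h1) χ).index_mul_card
      have h4 : (stabilizer (UU h1) χ).index = p ^ s := hs
      rw [h4] at h3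
      rw [← h3] at h2
      convert h2 using 1
      have h5 : (Nat.card (stabilizer (UU h1) χ) : ℂ) ≠ 0 := by exact_mod_cast Nat.card_pos.ne'
      have h6 : ((p ^ s : ℕ) : ℂ) ≠ 0 := by exact_mod_cast pow_ne_zero _ hp.ne_zero
      rw [Nat.cast_mul]
      field_simp)
  rw [← ha] at b1 b2
  refine ⟨by omega, fun h => ?_⟩
  have b3 := b2 (by omega)
  have hsa : s ≤ a := by omega
  have h7 := hB s hsa (hstab s hsa fun g hg => by
    obtain ⟨D, hD, hgD⟩ := exists_defectGroup_mem hM (isPBlock_blockOf χ) (mem_blockOf_self χ) hg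
    have hc := card_defectGroup hM (isPBlock_blockOf χ) hD
    rw [b3] at hc
    have e1 : pPart p g ^ p ^ s = 1 := by
      have := pow_card_eq_one' (G := D) (x := ⟨_, hgD⟩)
      rw [hc] at this
      exact congrArg Subtype.val this
    have e2 : pReg p g ^ g' = 1 := by
      apply orderOf_dvd_iff_pow_eq_one.1
      have := orderOf_dvd_natCard (pReg p g)
      rw [← hn] at this
      exact (Nat.Coprime.pow_right a ((hp.coprime_iff_not_dvd.2 (not_dvd_orderOf_pReg g)).symm)).dvd_of_dvd_mul_right this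
    rw [← pPart_mul_pReg p g, (commute_pPart_pReg g).mul_pow, pow_mul (pReg p g), e2, mul_comm g', pow_mul, e1]
    simp)
  rcases Nat.eq_zero_or_pos s with hs0 | hs0
  · omega
  · exfalso
    rw [Nat.totient_prime_pow hp hs0] at h7
    have h4 : p ^ r.factorization p ∣ p ^ (s - 1) :=
      (Nat.Coprime.pow_left _ ((Nat.coprime_self_sub_right hp.one_le).2 (Nat.coprime_one_right p))).dvd_of_dvd_mul_right
        ((Nat.ordProj_dvd r p).trans h7)
    have := (Nat.pow_dvd_pow_iff_le_right hp.one_lt).1 h4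
    omega

end Cfsg.Agent.S4506
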