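import Cfsg.Statements.S4507
import Cfsg.Agent.H24.D1Gal

set_option autoImplicit false
open Cfsg

namespace Cfsg.Agent.S4507

/-- Let G be a finite group whose order g is divisible by the prime p exactly once, g′ = g/p, and fix a maximal ideal M of the algebraic integers containing p. Call two irreducible characters p-conjugate when a field automorphism of ℂ fixing the g′-th roots of unity carries one to the other. Let B be a p-block of positive defect (its defect group is a Sylow p-subgroup). Then B contains a subset Y (the exceptional family) such that: Y is a full p-conjugacy class (its members are pairwise p-conjugate and every p-conjugate of a member of Y lies in Y); every member of B outside Y is p-conjugate only to itself; the size t of Y divides p − 1 and B has exactly t + (p − 1)/t members; and there are signs δ_χ = ±1 (χ ∈ B) such that for every p-regular element x and every θ ∈ Y, Σ_{χ ∈ B ∖ Y} δ_χ χ(x)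 + δ_θ θ(x) = 0. -/
theorem result {G : Type*} [Group G] [Finite G] (p : ℕ) [Fact p.Prime] (M : Ideal Cfsg.AlgInt) (hM : Cfsg.IsPModular p M) (hdiv : p ∣ Nat.card G) (hsq : ¬ p ^ 2 ∣ Nat.card G) (B : Set (Cfsg.IrrCharacter G)) (hB : Cfsg.IsPBlock M B) (hd : 0 < Cfsg.blockDefect p B) : ∃ Y : Set (Cfsg.IrrCharacter G), Y ⊆ B ∧ Y.Nonempty ∧ (∀ θ ∈ Y, ∀ ψ : Cfsg.IrrCharacter G, (∃ σ : ℂ ≃+* ℂ, σ (Complex.exp (2 * Real.pi * Complex.I / ((Nat.card G / p ^ (Nat.card G).factorization p) : ℕ))) = Complex.exp (2 * Real.pi * Complex.I / ((Nat.card G / p ^ (Nat.card G).factorization p) : ℕ)) ∧ (ψ : G → ℂ) = fun g => σ ((θ : G → ℂ) g)) ↔ ψ ∈ Y) ∧ (∀ χ ∈ B, χ ∉ Y → ∀ ψ : Cfsg.IrrCharacter G, (∃ σ : ℂ ≃+* ℂ, σ (Complex.exp (2 * Real.pi * Complex.I / ((Nat.card G / p ^ (Nat.card G).factorization p) : ℕ))) = Complex.exp (2 * Real.pi * Complex.I / ((Nat.card G / p ^ (Nat.card G).factorization p) : ℕ)) ∧ (ψ : G → ℂ) = fun g => σ ((χ :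 G → ℂ) g)) → ψ = χ) ∧ Nat.card Y ∣ p - 1 ∧ Nat.card B = Nat.card Y + (p - 1) / Nat.card Y ∧ ∃ δ : Cfsg.IrrCharacter G → ℤ, (∀ χ ∈ B, δ χ = 1 ∨ δ χ = -1) ∧ ∀ x : G, ¬ p ∣ orderOf x → ∀ θ ∈ Y, (∑ᶠ χ ∈ B \ Y, (δ χ : ℂ) * (χ : G → ℂ) x) + (δ θ : ℂ) * (θ : G → ℂ) x = 0 := by
  classical
  obtain ⟨P⟩ : Nonempty (Sylow p G) := inferInstance
  obtain ⟨x, h, -⟩ := H24.D1.exists_syl1 P (H24.D1.card_sylow_eq hdiv hsq P)
  have := hM.2.1
  have : H9.PMod M p := ⟨hM⟩
  obtain ⟨θ, hθ, ht⟩ := h.exists_triv_mem hB hd.ne'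
  obtain ⟨X, ψ, ε, δ, F, -⟩ := h.exists_fam hB hθ ht (H8.irrOne G)
  have hX : B \ Set.range ψ = X := by
    rw [F.eq_union, Set.union_sdiff_right, F.disjoint.sdiff_eq_left]
  have hmem : ∀ χ ∈ B, χ ∉ Set.range ψ → χ ∈ X := fun χ h1 h2 => ((F.mem χ).1 h1).resolve_right h2
  have ht0 : 0 < Nat.card (Set.range ψ) := by
    have := H8.finite_irr (G := G)
    exact Nat.card_pos
  refine ⟨Set.range ψ, F.eq_union ▸ Set.subset_union_right, Set.range_nonempty _, ?_, ?_,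
    Dvd.intro _ F.card_range_mul, ?_, fun χ => if χ ∈ X then ε χ else -δ, fun χ hχ => ?_, ?_⟩
  · rintro _ ⟨i, rfl⟩ χ
    constructor
    · rintro ⟨σ, h1, h2⟩
      obtain ⟨j, hj⟩ := F.exists_map_Y ((H24.D1.fixReg_iff (σ : ℂ →+* ℂ)).2 h1) i
      exact ⟨j, Subtype.ext (funext fun g => by rw [h2]; exact (hj g).symm)⟩
    · rintro ⟨j, rfl⟩
      obtain ⟨σ, h1, h2⟩ := F.exists_map_eq i j
      exact ⟨σ, (H24.D1.fixReg_iff (σ : ℂ →+* ℂ)).1 h1, funext fun g => (h2 g).symm⟩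
  · rintro χ h1 h2 χ' ⟨σ, h3, h4⟩
    exact Subtype.ext (funext fun g => by
      rw [h4]; exact F.map_X ((H24.D1.fixReg_iff (σ : ℂ →+* ℂ)).2 h3) (hmem χ h1 h2) g)
  · rw [F.card_eq, ← F.card_range, ← F.card_range_mul, Nat.mul_div_cancel_left _ ht0, add_comm]
  · dsimp only
    split_ifs with h1
    · exact F.sε χ h1
    · rcases F.sδ with h2 | h2 <;> simp [h2]
  · rintro g hg _ ⟨j, rfl⟩
    dsimp only
    rw [hX, finsum_mem_coe_finset, Finset.sum_congr rfl fun χ hχ => by rw [if_pos hχ],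
      ← F.reg j hg, if_neg (F.notMem j)]
    simp

end Cfsg.Agent.S4507
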