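import Cfsg.Statements.S4508
import Cfsg.Agent.H24.SC

set_option autoImplicit false
open Cfsg

namespace Cfsg.Agent.S4508

/-- Let the finite group G contain an element x of prime order p with C_G(x) = ⟨x⟩, and let t be the number of conjugacy classes of elements of order p. If G has an irreducible character of degree p − 1, then t is even or the commutator subgroup has even index. -/
theorem result {G : Type*} [Group G] [Finite G] (p : ℕ) (hp : p.Prime) (x : G) (hx : orderOf x = p) (hC : Subgroup.centralizer ({x} : Set G) = Subgroup.zpowers x) (t : ℕ) (ht : Nat.card {C : ConjClasses G // ∃ g ∈ C.carrier, orderOf g = p} = t) (χ : Cfsg.IrrCharacter G) (hχ : Cfsg.charDegree (χ : G → ℂ) + 1 = p) : Even t ∨ Even (commutator G).index := by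
  have := Fact.mk hp
  have h : H24.D1.SC p x := ⟨hx, hC⟩
  have h1 := h.syl1.card_classes
  rw [ht] at h1
  have hp2 := hp.two_le
  set f := (H24.D1.CC x).relIndex (H24.D1.NN x) with hf
  by_cases hf1 : f = 1
  · rcases hp.eq_two_or_odd' with h2 | h2
    · right
      rw [(h.index_commutator_eq hf1).1, h2]; exact even_two
    · left
      rw [hf1, mul_one] at h1
      rw [h1]; exact Nat.Odd.sub_odd h2 odd_one
  have hf0 : 0 < f := Nat.pos_of_mul_pos_left (h1 ▸ (by omega : 0 < p - 1))
  have hfle : f ≤ p - 1 := Nat.le_of_dvd (by omega) (Dvd.intro_left _ h1)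
  have hodd : Odd p := hp.odd_of_ne_two (by omega)
  refine (Nat.even_or_odd t).imp_right fun ht' => ?_
  have hfe : Even f := by
    have : Even (t * f) := h1 ▸ Nat.Odd.sub_odd hodd odd_one
    exact (Nat.even_mul.1 this).resolve_left (Nat.not_even_iff_odd.2 ht')
  obtain ⟨M, hM⟩ := H9.exists_pmod p
  obtain ⟨X, ψ, ε, δ, F, -⟩ := h.syl1.exists_fam_principal hM
  have hd : ¬ p ∣ charDegree χ.1 := fun hd => by
    have := Nat.le_of_dvd (by omega) hd
    omega
  have hdeg : (charDegree χ.1 : ℤ) = p - 1 := by omega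
  refine h.even_index (H7.irr_char χ.2) (by rw [H8.irr_one_eq]; exact_mod_cast hχ)
    (fun u hu hu1 => ?_) h1 ht' hfe
  have hup : p ∣ orderOf u := (h.syl1.orderOf_eq hu hu1).symm ▸ dvd_rfl
  rcases (F.mem χ).1 (h.mem_principal hM hd) with h2 | ⟨j, rfl⟩
  · have h3 := (F.degX₀ h2).dvd
    rw [F.val₀ h2 hup]
    rcases F.sε χ h2 with h4 | h4
    · rw [h4, hdeg] at h3
      have h5 : (p : ℤ) ∣ 2 := by
        have := dvd_add h3 (dvd_refl (p : ℤ))
        rwa [show 1 - ((p : ℤ) - 1) + p = 2 by ring] at this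
      have := Int.le_of_dvd two_pos h5
      omega
    · simp [h4]
  · have h3 := (F.degY₀ j).dvd
    rw [hdeg, ← hf] at h3
    rcases F.sδ with h4 | h4
    · rw [h4] at h3
      have h5 : (p : ℤ) ∣ f + 1 := by
        have := dvd_add h3 (dvd_refl (p : ℤ))
        rwa [show 1 * (f : ℤ) - ((p : ℤ) - 1) + p = f + 1 by ring] at this
      have := Int.le_of_dvd (by omega) h5
      rw [F.valY_of_top (by omega) j hup, h4]; simp
    · rw [h4] at h3
      have h5 : (p : ℤ) ∣ f - 1 := by
        have := (dvd_neg.2 (dvd_add h3 (dvd_refl (p : ℤ))))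
        rwa [show -(-1 * (f : ℤ) - ((p : ℤ) - 1) + p) = f - 1 by ring] at this
      have := Int.le_of_dvd (by omega) h5
      omega

end Cfsg.Agent.S4508
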