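import Cfsg.Statements.S4509
import Cfsg.Agent.H24.SC

set_option autoImplicit false
open Cfsg

namespace Cfsg.Agent.S4509

/-- Let the finite group G contain an element x of prime order p with C_G(x) = ⟨x⟩; let t be the number of conjugacy classes of elements of order p and 1 + n·p the number of subgroups of order p. Then G has a normal subgroup of order 1 + n·p if and only if either t = p − 1, or t < p − 1 and G″ ≠ G′. Moreover, if t = p − 1 then G′ has order 1 + n·p and G/G′ is cyclic of order p; and if t < p − 1 and G″ ≠ G′ then G″ has order 1 + n·p and G′ has order p·(1 + n·p). -/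
theorem result {G : Type*} [Group G] [Finite G] (p : ℕ) (hp : p.Prime) (x : G) (hx : orderOf x = p) (hC : Subgroup.centralizer ({x} : Set G) = Subgroup.zpowers x) (t : ℕ) (ht : Nat.card {C : ConjClasses G // ∃ g ∈ C.carrier, orderOf g = p} = t) (n : ℕ) (hn : Nat.card {H : Subgroup G // Nat.card H = p} = 1 + n * p) : ((∃ S : Subgroup G, S.Normal ∧ Nat.card S = 1 + n * p) ↔ (t = p - 1 ∨ (t < p - 1 ∧ derivedSeries G 2 ≠ derivedSeries G 1))) ∧ (t = p - 1 → Nat.card (commutator G) = 1 + n * p ∧ IsCyclic (G ⧸ commutator G) ∧ (commutator G).index = p) ∧ (t < p - 1 → derivedSeries G 2 ≠ derivedSeries G 1 → Nat.card (derivedSeries G 2) = 1 + n * p ∧ Nat.card (commutator G) = p * (1 + n * p)) := by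
  have := Fact.mk hp
  have h : H24.D1.SC p x := ⟨hx, hC⟩
  have h1 := h.syl1.card_classes
  rw [ht] at h1
  rw [h.syl1.card_subgroups] at hn
  rw [← hn]
  have hp1 : 0 < p - 1 := by have := hp.two_le; omega
  have hA : t = p - 1 → Nat.card (commutator G) = (H24.D1.NN x).index ∧
      IsCyclic (G ⧸ commutator G) ∧ (commutator G).index = p := fun he => by
    rw [he] at h1
    have hf := Nat.eq_of_mul_eq_mul_left hp1 (h1.trans (mul_one _).symm)
    have h2 := (h.index_commutator_eq hf).1
    refine ⟨?_, isCyclic_of_prime_card h2, h2⟩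
    have h3 := (commutator G).card_mul_index
    rw [h2, ← (H24.D1.NN x).index_mul_card, h.card_NN, hf, mul_one] at h3
    exact Nat.eq_of_mul_eq_mul_right hp.pos h3
  have hB : t < p - 1 → derivedSeries G 2 ≠ derivedSeries G 1 →
      Nat.card (derivedSeries G 2) = (H24.D1.NN x).index ∧
        Nat.card (commutator G) = p * (H24.D1.NN x).index := fun hlt hne => by
    have hf : (H24.D1.CC x).relIndex (H24.D1.NN x) ≠ 1 := fun e =>
      hlt.ne (by rw [← h1, e, mul_one])
    obtain ⟨h3, h4⟩ := h.second_derived hf hne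
    have h5 : derivedSeries G 2 ⊔ H24.D1.NN x = ⊤ := by
      have h6 : H24.D1.NN x ⊔ commutator G = ⊤ := Sylow.normalizer_sup_eq_top' h.syl1.syl
        (N := commutator G) (Subgroup.zpowers_le.2 (h.syl1.mem_commutator hf))
      rw [eq_top_iff, ← h6, h4]
      exact sup_le le_sup_right (sup_le_sup_left (H24.D1.zp_le_NN x) _)
    have h7 := h.card_eq_index h3 h5
    refine ⟨h7, ?_⟩
    have h8 : Disjoint (derivedSeries G 2) (Subgroup.zpowers x) :=
      (h.disjoint h3 fun s hs => Subgroup.Normal.conj_mem inferInstance s hs x).mono_right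
        (H24.D1.zp_le_NN x)
    have h9 : (derivedSeries G 2).relIndex (commutator G) = p := by
      rw [h4, Subgroup.relIndex_sup_left, ← Subgroup.inf_relIndex_right, h8.eq_bot,
        Subgroup.relIndex_bot_left, h.syl1.card_zp]
    have hle : derivedSeries G 2 ≤ commutator G := derivedSeries_antitone G (by norm_num : 1 ≤ 2)
    rw [← h7, ← h9, ← Nat.card_congr (Subgroup.subgroupOfEquivOfLe hle).toEquiv, Subgroup.relIndex,
      Subgroup.index_mul_card]
  refine ⟨⟨?_, ?_⟩, hA, hB⟩
  · rintro ⟨S, hS, hc⟩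
    refine (eq_or_ne t (p - 1)).imp_right fun hne => ?_
    have hf : (H24.D1.CC x).relIndex (H24.D1.NN x) ≠ 1 := fun e => hne (by rw [← h1, e, mul_one])
    refine ⟨lt_of_le_of_ne (Nat.le_of_dvd hp1 (Dvd.intro _ h1)) hne, fun e => ?_⟩
    have h2 := h.sup_eq_top hc
    have h3 : commutator G ≤ S ⊔ H24.D1.CC x := h.syl1.commutator_le_sup fun g => by
      have h4 : g ∈ S ⊔ H24.D1.NN x := h2 ▸ Subgroup.mem_top g
      rw [← SetLike.mem_coe, Subgroup.normal_mul] at h4
      obtain ⟨s, hs, n, hn, e⟩ := h4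
      exact ⟨s, hs, n, hn, e.symm⟩
    have h5 : derivedSeries G 2 ≤ S := by
      refine Subgroup.commutator_le.2 fun a ha b hb => ?_
      have ha' := h3 ha
      have hb' := h3 hb
      rw [← SetLike.mem_coe, Subgroup.normal_mul] at ha' hb'
      obtain ⟨s, hs, u, hu, rfl⟩ := ha'
      obtain ⟨r, hr, v, hv, rfl⟩ := hb'
      have huv : Commute u v := H24.D1.comm_of_zp (h.cent ▸ hu) hv
      rw [← QuotientGroup.eq_one_iff]
      change QuotientGroup.mk' S _ = 1
      rw [map_commutatorElement, map_mul, map_mul,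
        show QuotientGroup.mk' S s = 1 from (QuotientGroup.eq_one_iff _).2 hs,
        show QuotientGroup.mk' S r = 1 from (QuotientGroup.eq_one_iff _).2 hr, one_mul, one_mul,
        commutatorElement_eq_one_iff_commute]
      exact huv.map (QuotientGroup.mk' S)
    have h6 : x ∈ derivedSeries G 2 := e ▸ h.syl1.mem_commutator hf
    exact h.syl1.not_dvd_index (hc ▸ h.syl1.dvd_of_mem (h5 h6))
  · rintro (he | ⟨hlt, hne⟩)
    · exact ⟨_, inferInstance, (hA he).1⟩
    · exact ⟨_, inferInstance, (hB hlt hne).1⟩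

end Cfsg.Agent.S4509
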