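import Cfsg.Statements.S4510
import Mathlib
import Cfsg.Agent.H8.Robinson

set_option autoImplicit false
open Cfsg

namespace Cfsg.Agent.S4510

/-- Let G be a finite group, p a prime, M a maximal ideal of the algebraic integers containing p, and call the defect of a conjugacy class the exponent of p in the order of the centralizer of its elements. Two irreducible characters lying in p-blocks of defect exactly d lie in the same block if and only if their central characters (class size times χ(x)/χ(1)) agree modulo the local ideal at M at every p-regular element x whose class has defect exactly d. -/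
theorem result {G : Type*} [Group G] [Finite G] (p : ℕ) [Fact p.Prime] (M : Ideal Cfsg.AlgInt) (hM : Cfsg.IsPModular p M) (d : ℕ) (χ ψ : Cfsg.IrrCharacter G) (hχ : Cfsg.blockDefect p (Cfsg.blockOf M (χ : G → ℂ)) = d) (hψ : Cfsg.blockDefect p (Cfsg.blockOf M (ψ : G → ℂ)) = d) : Cfsg.SameBlock M (χ : G → ℂ) (ψ : G → ℂ) ↔ ∀ x : G, ¬ p ∣ orderOf x → (Nat.card (Subgroup.centralizer ({x} : Set G))).factorization p = d → Cfsg.MemLocalIdeal M (Cfsg.centralChar (χ : G → ℂ) x - Cfsg.centralChar (ψ : G → ℂ) x) := by
  classical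
  have := hM.2.1
  refine ⟨fun h x _ _ => h x, fun h => ?_⟩
  have := Fintype.ofFinite (ConjClasses G)
  have hB := H8.isPBlock_blockOf (M := M) χ
  have hB' := H8.isPBlock_blockOf (M := M) ψ
  by_contra hne
  have h1 := H8.lam_eB_of_mem (H8.isBlockUnion_of_block hB) (H8.mem_blockOf_self χ)
  have h2 := H8.lam_eB_of_notMem (H8.isBlockUnion_of_block hB) (χ := ψ) hne
  rw [H8.lam_apply] at h1 h2
  refine one_ne_zero (h1.symm.trans ((Finset.sum_congr rfl fun K _ => ?_).trans h2))
  by_cases h3 : (H8.eB M (Cfsg.blockOf M (χ : G → ℂ))).coeff (Quotient.out K) = 0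
  · rw [h3, zero_mul, zero_mul]
  have h4 := H8.card_le_defect_of_coeff hM hB h3
  rcases h4.eq_or_lt with h5 | h5
  · rw [(H8.memLocalIdeal_sub_iff (H8.centralChar_mem_locRing χ _)
      (H8.centralChar_mem_locRing ψ _)).1 (h _ (H8.not_dvd_of_coeff_eB_ne_zero hM
        (H8.isBlockUnion_of_block hB) h3) (h5.trans hχ))]
  · rw [not_not.1 fun h6 => h5.not_ge (H8.defect_le_card_of_lam hM hB (H8.mem_blockOf_self χ) h6),
      not_not.1 fun h6 => h5.not_ge (hχ.trans_le (hψ.ge.trans
        (H8.defect_le_card_of_lam hM hB' (H8.mem_blockOf_self ψ) h6)))]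

end Cfsg.Agent.S4510
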