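import Cfsg.Statements.S4512
import Mathlib
import Cfsg.Agent.H8.Klein

set_option autoImplicit false
open Cfsg

namespace Cfsg.Agent.S4512

/-- If G is a finite group with a Sylow 2-subgroup that is a Klein four-group and a single conjugacy class of involutions, then its principal 2-block (relative to a maximal ideal M of the algebraic integers containing 2) has 2-regular rank 3: the restrictions of its irreducible characters to the elements of odd order span a space of dimension 3 (it has three irreducible Brauer characters). -/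
theorem result {G : Type*} [Group G] [Finite G] (M : Ideal Cfsg.AlgInt) (hM : Cfsg.IsPModular 2 M) (P : Sylow 2 G)
    (hP : Nat.card P = 4) (hexp : ∀ x : P, x * x = 1)
    (hone : ∀ s t : G, orderOf s = 2 → orderOf t = 2 → IsConj s t) :
    Cfsg.blockRank 2 (Cfsg.principalBlock M G) = 3 := by
  open H8 H9 in
  classical
  have := hM.2.1
  have : PMod M 2 := ⟨hM⟩
  have := Fintype.ofFinite G
  have hK : IsKleinFour (P : Subgroup G) := ⟨hP, by
    have : Nontrivial (P : Subgroup G) := Finite.one_lt_card_iff_nontrivial.1 (hP ▸ by decide)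
    exact (Monoid.exponent_eq_prime_iff Nat.prime_two).2 fun g => H20.orderOf_two_of (hexp g)⟩
  obtain ⟨ε, h1, h2, h3, h4⟩ := klein_block hM P hK hone
  set s : ℂ := (Nat.card G : ℂ)⁻¹ * ∑ g : G with 2 ∣ orderOf g, 1 with hs
  have h5 : ∀ χ ∈ principalBlock M G, ∀ ψ ∈ principalBlock M G,
      rip 2 (χ : G → ℂ) ψ = (if χ = ψ then 1 else 0) - ε χ * ε ψ * s := fun χ hχ ψ hψ => by
    rw [← ip_irr_irr, H7.ip_def, rip_def, hs, mul_left_comm, ← mul_sub,
      ← Finset.sum_filter_add_sum_filter_not Finset.univ (fun g : G => 2 ∣ orderOf g),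
      Finset.sum_congr (s₁ := Finset.univ.filter fun g : G => 2 ∣ orderOf g) rfl
        (f := fun g => (χ : G → ℂ) g * starRingEnd ℂ ((ψ : G → ℂ) g)) fun g hg => by
        rw [(h1 χ hχ).2 g (by simpa using hg), (h1 ψ hψ).2 g (by simpa using hg), map_intCast]]
    simp [mul_comm]
  have h6 : ∀ χ ∈ principalBlock M G, (ε χ : ℂ) * ε χ = 1 := fun χ hχ => by
    rcases (h1 χ hχ).1 with h | h <;> simp [h]
  have h7 : rip 2 (∑ χ with χ ∈ principalBlock M G, (ε χ : ℂ) • (χ : G → ℂ)) (irrOne G : G → ℂ) = 0 := by
    rw [rip_congr (θ' := 0) (fun g hg => by simpa using h4 g hg) (fun _ _ => rfl), rip_zero_left]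
  rw [rip_sum_left, Finset.sum_congr rfl (g := fun χ => (if χ = irrOne G then 1 else 0) - s)
    fun χ hχ => by
      have hχ : χ ∈ principalBlock M G := by simpa using hχ
      rw [rip_smul_left, h5 χ hχ _ irrOne_mem_principalBlock, h2]
      split_ifs with h
      · simp [h, h2]
      · linear_combination -s * h6 χ hχ] at h7
  apply Nat.cast_injective (R := ℂ)
  rw [blockRank_eq_sum ub_principal, bs_eq_filter, Finset.sum_congr rfl (g := fun _ => 1 - s)
    fun χ hχ => by
      have hχ : χ ∈ principalBlock M G := by simpa using hχ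
      rw [h5 χ hχ χ hχ, if_pos rfl, h6 χ hχ, one_mul]]
  simp only [Finset.sum_sub_distrib, Finset.sum_const, h3, Finset.sum_ite_eq', Finset.mem_filter,
    Finset.mem_univ, irrOne_mem_principalBlock, and_self, if_true, nsmul_eq_mul] at h7 ⊢
  push_cast at h7 ⊢
  linear_combination h7

end Cfsg.Agent.S4512
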