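import Cfsg.Statements.S4513
import Mathlib
import Cfsg.Agent.H9.Cyc

set_option autoImplicit false
open Cfsg

namespace Cfsg.Agent.S4513

/-- Blocks of defect one for p = 2. Let M be a maximal ideal of the algebraic integers containing 2, B a 2-block of the finite group G whose defect group is the subgroup generated by an involution x, C = C_G(x), b a block of C inducing B and θ a member of b taking the same value at x as at 1 (there is exactly one). Then B consists of exactly two irreducible characters, which agree on every element of odd order, and they can be labelled χ₁, χ₂ with signs ε₁, ε₂ = ±1, ε₁ε₂ = −1, such that χᵢ(x y) = εᵢ θ(y) for every element y of C of odd order. -/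
theorem result {G : Type*} [Group G] [Finite G] (M : Ideal Cfsg.AlgInt) (hM : Cfsg.IsPModular 2 M) (x : G) (hx : orderOf x = 2)
    (B : Set (Cfsg.IrrCharacter G)) (hB : Cfsg.IsPBlock M B) (hBD : Cfsg.IsDefectGroup 2 M B (Subgroup.zpowers x))
    (b : Set (Cfsg.IrrCharacter ↥(Subgroup.centralizer ({x} : Set G)))) (hb : Cfsg.IsInducedBlock M (Subgroup.centralizer ({x} : Set G)) b B)
    (θ : Cfsg.IrrCharacter ↥(Subgroup.centralizer ({x} : Set G))) (hθ : θ ∈ b)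
    (hθx : ∀ z : ↥(Subgroup.centralizer ({x} : Set G)), (z : G) = x → (θ : ↥(Subgroup.centralizer ({x} : Set G)) → ℂ) z = (θ : ↥(Subgroup.centralizer ({x} : Set G)) → ℂ) 1) :
    Nat.card B = 2 ∧ (∀ χ ∈ B, ∀ ψ ∈ B, ∀ g : G, ¬ 2 ∣ orderOf g → (χ : G → ℂ) g = (ψ : G → ℂ) g) ∧
      ∃ χ₁ ∈ B, ∃ χ₂ ∈ B, χ₁ ≠ χ₂ ∧ ∃ ε₁ ε₂ : ℤ, (ε₁ = 1 ∨ ε₁ = -1) ∧ (ε₂ = 1 ∨ ε₂ = -1) ∧ ε₁ * ε₂ = -1 ∧
        ∀ y : ↥(Subgroup.centralizer ({x} : Set G)), ¬ 2 ∣ orderOf y →
          (χ₁ : G → ℂ) (x * y) = (ε₁ : ℂ) * (θ : ↥(Subgroup.centralizer ({x} : Set G)) → ℂ) y ∧ (χ₂ : G → ℂ) (x * y) = (ε₂ : ℂ) * (θ : ↥(Subgroup.centralizer ({x} : Set G)) → ℂ) y := by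
  haveI := hM.2.1
  haveI : H9.PMod M 2 := ⟨hM⟩
  classical
  have hcyc : IsCyclic (Subgroup.zpowers x) := inferInstance
  have hab := H9.le_centralizer_of_cyc hcyc
  have hx1 : x ≠ 1 := by rintro rfl; simp at hx
  have hxp : ∃ k : ℕ, orderOf x = 2 ^ k := ⟨1, by rw [hx]; rfl⟩
  have h2 : Nat.card (Subgroup.zpowers x) = 2 := by rw [Nat.card_zpowers, hx]
  have hxD := Subgroup.mem_zpowers x
  have hN : Subgroup.normalizer (Subgroup.zpowers x : Set G) ≤
      Subgroup.centralizer (Subgroup.zpowers x : Set G) := fun t ht => by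
    rw [H8.centralizer_zpowers, Subgroup.mem_centralizer_singleton_iff, ← mul_inv_eq_iff_eq_mul]
    exact H8.eq_of_mem_zpowers_two (H9.mem_normalizer_iff_cg.1 ht ▸ H9.conj_mem_cg.2 hxD) hxD
      (by rw [← hx]; exact (MulAut.conj t).orderOf_eq x) hx
  have hD := (H9.isDefectGroup_iff hB).1 hBD
  have hp := (H9.induced_Z_iff hB hxp hb.1).1 hb
  have h : H9.FrD 2 B (Subgroup.zpowers x) (H9.eI M b) :=
    H9.AbD.frD_of_le ⟨hB, ⟨H9.isBlk_eB hB, hD, hp⟩, hab⟩ (H9.AbD.T_le.trans hN)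
  have hbu : H9.bu 2 (Subgroup.zpowers x) (H9.eI M b) x = b := by
    rw [H9.bu, H9.loc_self h.pair, H9.bOf_eI (H8.isBlockUnion_of_block hb.1)]
  have hU := h.uni (H9.AbD.T_le.trans hN)
  have hUb := h.uni_u hxD hx1
  have hc : Nat.card B = 2 := by rw [hU.card, ← h.card_D, h2]
  have hind : H8.indSet M (Subgroup.centralizer ({x} : Set G)) B = b := by
    refine Set.Subset.antisymm (fun ξ hξ => ?_) (hbu ▸ (h.subs hxD).sub)
    have h3 : Cfsg.IsInducedBlock M _ (Cfsg.blockOf M ξ.1) B :=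
      (H8.mem_indSet_iff (H8.inducedBlockDefined_centralizer hM hxp (H8.isPBlock_blockOf ξ)) hB).1 hξ
    obtain ⟨t, ht, h4⟩ := hD.exists_cj_pair le_rfl H9.top_le_normalizer_top (H9.isBlk_eB hB)
      ((H9.induced_Z_iff hB hxp h3.1).1 h3) hp
    have h5 := ((H9.induced_Z_iff hB hxp h3.1).1 h3).1.blk.inv (t := t) ⟨trivial, hN ht.2⟩
    rw [h5] at h4
    rw [← H9.bOf_eI (H8.isBlockUnion_of_block hb.1), ← h4, H9.bOf_eI (H8.isBlockUnion_of_block h3.1)]
    exact H8.mem_blockOf_self ξ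
  have h5 : ∀ χ : Cfsg.IrrCharacter G, ∃ n : ℤ,
      H9.dA 2 (Subgroup.zpowers x) (H9.eI M b) x χ = n := fun χ =>
    h.dA_int hxD hUb (by rw [← pow_two, ← hx, pow_orderOf_eq_one]) (H6.isGen_of_irr χ.2)
  choose n hn using h5
  have hval : ∀ χ ∈ B, ∀ y : Subgroup.centralizer ({x} : Set G), ¬ 2 ∣ orderOf y →
      χ.1 (x * y) = n χ * θ.1 y := fun χ hχ y hy => by
    rw [← H9.sec_indSet hxp h.ub (H8.blockPart_of_mem hχ) hy, hind, ← hn, H9.dA, hbu]
    exact (hbu ▸ hUb).sec_eq _ hθ hy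
  obtain ⟨χ₁, χ₂, hne, hs⟩ := Finset.card_eq_two.1 ((H9.card_bs B).trans hc)
  have m1 : χ₁ ∈ B := H9.mem_bs.1 (by simp [hs])
  have m2 : χ₂ ∈ B := H9.mem_bs.1 (by simp [hs])
  have h6 : n χ₁ ^ 2 + n χ₂ ^ 2 = 2 := by
    have := h.sum_norm_dA hxD hx1
    simp only [hn, Complex.norm_intCast, sq_abs, h2, hs, Finset.sum_pair hne] at this
    exact_mod_cast this
  have h7 : n χ₁ + n χ₂ = 0 := by
    have := congrFun (h.col_eq_sum hxD) 1
    rw [H9.col_reg hx1 H9.not_dvd_orderOf_one, hs, Finset.sum_pair hne] at this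
    simp only [hn, Pi.add_apply, Pi.smul_apply, smul_eq_mul, map_intCast, hU.deg_eq m2 m1,
      ← add_mul] at this
    exact_mod_cast (mul_eq_zero.1 this.symm).resolve_right (H8.irr_one_ne_zero χ₁)
  have h8 : n χ₂ = -n χ₁ := by omega
  have h9 : n χ₁ = 1 ∨ n χ₁ = -1 := by
    rw [h8] at h6
    exact mul_self_eq_one_iff.1 (by nlinarith)
  refine ⟨hc, hU.eq, χ₁, m1, χ₂, m2, hne, n χ₁, n χ₂, h9, by omega, ?_,
    fun y hy => ⟨hval _ m1 y hy, hval _ m2 y hy⟩⟩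
  rcases h9 with h9 | h9 <;> simp [h8, h9]

end Cfsg.Agent.S4513
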