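import Cfsg.Statements.S4633
import Mathlib
import Cfsg.Agent.H9.Root
import Cfsg.Agent.H3.Cyclic
import Cfsg.Agent.H1.Coprime2

set_option autoImplicit false
open Cfsg

namespace Cfsg.Agent.S4633

/-- Let B be a block of the finite group G relative to a maximal ideal M of the algebraic integers containing the prime p, with a nontrivial cyclic defect group P. Let c be a block of C_G(P) inducing B and T the stabilizer of c in N_G(P) (the elements of N_G(P) conjugating c to itself); T contains C_G(P). Then T/C_G(P) is cyclic of order dividing p − 1, and it acts freely on the non-identity elements of P: an element of T fixing some non-identity element of P under conjugation lies in C_G(P). -/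
theorem result {G : Type*} [Group G] [Finite G] (p : ℕ) [Fact p.Prime] (M : Ideal Cfsg.AlgInt) (hM : Cfsg.IsPModular p M) (B : Set (Cfsg.IrrCharacter G)) (hB : Cfsg.IsPBlock M B) (P : Subgroup G) (hPD : Cfsg.IsDefectGroup p M B P) (hP1 : P ≠ ⊥) (hcyc : IsCyclic P) (c : Set (Cfsg.IrrCharacter (Subgroup.centralizer (P : Set G)))) (hc : Cfsg.IsInducedBlock M (Subgroup.centralizer (P : Set G)) c B) (T : Subgroup G) (hT : ∀ g : G, g ∈ T ↔ (g ∈ Subgroup.normalizer (P : Set G) ∧ Cfsg.StabilizesBlock (Subgroup.centralizer (P : Set G)) c g)) [hn : ((Subgroup.centralizer (P : Set G)).subgroupOf T).Normal] : IsCyclic (T ⧸ (Subgroup.centralizer (P : Set G)).subgroupOf T) ∧ (Subgroup.centralizer (P : Set G)).relIndex T ∣ p - 1 ∧ ∀ g ∈ T, ∀ x ∈ P, x ≠ 1 → g * x * g⁻¹ = x → g ∈ Subgroup.centralizer (P : Set G) := by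
  haveI := hM.2.1
  haveI : H9.PMod M p := ⟨hM⟩
  have hm := H9.maxPair_of_induced hPD hc
  obtain rfl := H9.eq_pstab hc.1 hT
  haveI : IsMulCommutative P := H3.isMulCommutative_of_isCyclic hcyc
  have hPC : P ≤ Subgroup.centralizer (P : Set G) := Subgroup.le_centralizer P
  have h1 := hm.not_dvd_relIndex.1
  rw [top_inf_eq, sup_eq_right.2 hPC] at h1
  have hCT : Subgroup.centralizer (P : Set G) ≤ H9.pstab ⊤ P (H9.eI M c) :=
    le_trans (le_inf le_top le_rfl) hm.pair.1.centralizer_le_pstab
  have hTN : H9.pstab ⊤ P (H9.eI M c) ≤ Subgroup.normalizer (P : Set G) :=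
    H9.pstab_le.trans inf_le_right
  set Z := omegaOne p P with hZ
  have hZc : Nat.card Z = p := H3.card_omegaOne_of_isCyclic hm.isP hcyc hP1
  have hZP : Z ≤ P := H3.omegaOne_le p P
  have key : ∀ g ∈ H9.pstab ⊤ P (H9.eI M c), g ∈ Subgroup.centralizer (Z : Set G) →
      g ∈ Subgroup.centralizer (P : Set G) := by
    intro g hg hgZ
    rw [← H8.pPart_mul_pReg p g]
    refine mul_mem (H9.mem_of_pElt_of_not_dvd hCT
      (hTN.trans (H9.normalizer_le_normalizer_centralizer P)) h1 (H8.pPart_mem hg)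
      (H8.orderOf_pPart g)) (Subgroup.zpowers_le.1 (H1.le_centralizer_of_prime_order _ P
        (Subgroup.zpowers_le.2 (hTN (H8.pReg_mem hg))) ?_ fun v hv hpr a ha => ?_))
    · refine H1.coprime_card_of_isPGroup hm.isP ?_
      rw [Nat.card_zpowers, Nat.coprime_comm, Nat.Prime.coprime_iff_not_dvd hM.1]
      exact H8.not_dvd_orderOf_pReg g
    · obtain ⟨k, hk⟩ := H8.pElt_of_mem hm.isP hv
      have h2 : orderOf v = p := by
        rw [hk] at hpr ⊢; rw [hpr.eq_one_of_pow, pow_one]
      have h3 : v ∈ Z := H3.mem_omegaOne hv (h2 ▸ pow_orderOf_eq_one v)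
      exact ((Subgroup.zpowers_le.2 (H8.pReg_mem hgZ)) ha v h3).symm
  have hNZ := hTN.trans (H3.normalizer_le_normalizer_of_le_isCyclic hcyc hZP)
  let φ := Z.normalizerMonoidHom.comp (Subgroup.inclusion hNZ)
  have hker : φ.ker = (Subgroup.centralizer (P : Set G)).subgroupOf _ := by
    ext g
    rw [← MonoidHom.comap_ker, Subgroup.normalizerMonoidHom_ker]
    exact ⟨key g g.2, fun h => Subgroup.centralizer_le (SetLike.coe_subset_coe.2 hZP) h⟩
  haveI : IsCyclic Z := H3.isCyclic_of_le' hcyc hZP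
  haveI : Fact (Nat.card Z).Prime := ⟨hZc ▸ hM.1⟩
  haveI : IsCyclic (MulAut Z) := (IsCyclic.mulAutMulEquiv Z).isCyclic.2 inferInstance
  refine ⟨?_, ?_, fun g hg x hx hx1 hgx => key g hg ?_⟩
  · exact ((QuotientGroup.quotientMulEquivOfEq hker).symm.trans
      (QuotientGroup.quotientKerEquivRange φ)).isCyclic.2 inferInstance
  · rw [Subgroup.relIndex, ← hker, Subgroup.index_ker, ← Nat.totient_prime hM.1, ← hZc,
      ← IsCyclic.card_mulAut]
    exact Subgroup.card_subgroup_dvd_card _
  · refine Subgroup.centralizer_le (SetLike.coe_subset_coe.2 (H3.le_of_card_eq_p_of_isCyclic hm.isP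
      hcyc hZP (Subgroup.zpowers_le.2 hx) hZc (by simpa using hx1))) ?_
    rw [H8.centralizer_zpowers]
    exact Subgroup.mem_centralizer_singleton_iff.2 (mul_inv_eq_iff_eq_mul.1 hgx)

end Cfsg.Agent.S4633
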