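import Cfsg.Statements.S4634
import Mathlib
import Cfsg.Agent.H9.Nak3
import Cfsg.Agent.H9.PI
import Cfsg.Agent.H9.Misc

set_option autoImplicit false
open Cfsg

namespace Cfsg.Agent.S4634

open Cfsg.Agent.H9 in
theorem isBlk_one {M : Ideal AlgInt} [M.IsMaximal] {p : ℕ} [Fact p.Prime] [PMod M p] {F : Type*}
    [Group F] [Finite F] {R : Subgroup F} (hR : IsPGroup p R) :
    IsBlk R (1 : MonoidAlgebra (H8.resField M) F) := by
  classical
  refine IsBlk.of_pow (p := p) (N := ⊥) bot_le (fun x hx => (hR ⟨x, hx⟩).imp fun k hk =>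
    Subgroup.mem_bot.2 (congrArg Subtype.val hk)) ⟨one_mem _, mul_one _, one_ne_zero,
      fun u hu huu => ?_⟩ fun t _ => map_one _
  have h1 : u = u.coeff 1 • 1 := ext_coeff fun g => by
    rw [MonoidAlgebra.coeff_smul, Finsupp.smul_apply, coeff_one_apply]
    split_ifs with hg
    · simp [hg]
    · simpa using hu.1 g fun h => hg (Subgroup.mem_bot.1 h)
  generalize u.coeff 1 = c at h1
  subst h1
  rw [smul_mul_smul_comm, mul_one, ← sub_eq_zero, ← sub_smul, smul_eq_zero] at huu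
  rcases eq_or_ne c 0 with h | h
  · simp [h]
  · simp [mul_left_cancel₀ h ((sub_eq_zero.1 (huu.resolve_right one_ne_zero)).trans (mul_one c).symm)]

open Cfsg.Agent.H9 in
theorem sgD_one {M : Ideal AlgInt} [M.IsMaximal] {p : ℕ} [Fact p.Prime] [PMod M p] {F : Type*}
    [Group F] [Finite F] {Q : Subgroup F} [Q.Normal] (hS : H18.SylIn p Q ⊤) (hc : IsCyclic Q)
    (hQC : Subgroup.centralizer (Q : Set F) = Q) :
    SgD p (Set.univ : Set (IrrCharacter F)) Q (1 : MonoidAlgebra (H8.resField M) F) (fun _ => 1) ∧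
      ∀ θ, IsClassFunction F θ → ∀ u ∈ Q, u ≠ 1 →
        dA p Q (1 : MonoidAlgebra (H8.resField M) F) u θ = θ u := by
  have h1 : IsBlk (⊤ : Subgroup F) (1 : MonoidAlgebra (H8.resField M) F) :=
    (isBlk_iff_isPrim hS.isP le_top Subgroup.le_normalizer_of_normal (by rw [hQC, top_inf_eq])
      le_top).2 ((isBlk_one hS.isP).of_le le_top fun t _ => map_one _)
  obtain ⟨B, hB, hB1⟩ := exists_eB h1
  obtain rfl : B = Set.univ := H8.eB_injective (H8.isBlockUnion_of_block hB) H8.isBlockUnion_univ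
    (hB1.trans H8.eB_univ.symm)
  obtain ⟨e, h⟩ := exists_abD hB ((isDefectGroup_iff hB).2 (hB1 ▸ (isDef_iff_sylIn (by simp)).2 hS))
    hQC.ge
  obtain rfl : 1 = e := (isBlk_one hS.isP).eq_of_mul_ne le_rfl
    (by simpa only [hQC, top_inf_eq] using h.pair.blk) (by simpa using h.pair.blk.ne_zero)
  have hF := h.frD_of_cyc hc
  have h2 : ∀ θ, IsClassFunction F θ → ∀ u ∈ Q, u ≠ 1 →
      dA p Q (1 : MonoidAlgebra (H8.resField M) F) u θ = θ u := fun θ hθ u hu hu1 => by
    have h3 : bu p Q (1 : MonoidAlgebra (H8.resField M) F) u = Set.univ := by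
      rw [bu, ← (isBlk_one (hS.isP.to_le fun x hx => hQC.le (hF.free u hu hu1 ⟨hx, mem_pstab.2
        ⟨trivial, Subgroup.le_normalizer_of_normal (Subgroup.mem_top x), map_one _⟩⟩))).eq_of_mul_ne
          le_rfl (h.isBlk_u hu) (by simpa using (h.isBlk_u hu).ne_zero)]
      exact Set.eq_univ_of_forall fun ξ => by simp [bOf, H8.lam_one]
    have h4 := (hF.uni_u hu hu1).sec_eq (x := u) θ (ξ := H8.irrOne _) (h3 ▸ trivial)
      (not_dvd_orderOf_one (p := p))
    rw [H8.irrOne_apply, mul_one, sec, h3, blockPart_univ fun c t => by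
      rw [← hθ (u * c) t, Subgroup.coe_mul, Subgroup.coe_mul, ← mul_assoc, ← mul_assoc,
        ← Subgroup.mem_centralizer_singleton_iff.1 t.2, mul_assoc (t : F), Subgroup.coe_inv]] at h4
    rw [dA, h3, ← h4]
    simp
  exact ⟨⟨hF, fun _ => .inl rfl, fun _ _ _ _ => rfl, fun θ hθ => ⟨_, H6.isGen_comp Q.subtype hθ,
    fun u hu => by simp [sW, h2 θ (H6.isClassFunction_of_isGen hθ) u u.2 (by simpa using hu)]⟩⟩, h2⟩

/-- Let B be a block of the finite group G relative to a maximal ideal M of the algebraic integers containing the prime p, with a nontrivial cyclic defect group P, let c be a block of C_G(P) inducing B, T the stabilizer of c in N_G(P) and e the index of C_G(P) in T. Let F be any finite group of order #P · e having a cyclic subgroup Q of order #P that is its own centralizer (F is then the semidirect product of Q by a cyclic group of order e acting faithfully). Then there is a perfect isometry from the set of all irreducible characters of F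 onto B whose signs agree on all the characters of F that do not contain Q in their kernel. -/
theorem result {G : Type*} [Group G] [Finite G] (p : ℕ) [Fact p.Prime] (M : Ideal Cfsg.AlgInt) (hM : Cfsg.IsPModular p M) (B : Set (Cfsg.IrrCharacter G)) (hB : Cfsg.IsPBlock M B) (P : Subgroup G) (hPD : Cfsg.IsDefectGroup p M B P) (hP1 : P ≠ ⊥) (hcyc : IsCyclic P) (c : Set (Cfsg.IrrCharacter (Subgroup.centralizer (P : Set G)))) (hc : Cfsg.IsInducedBlock M (Subgroup.centralizer (P : Set G)) c B) (T : Subgroup G) (hT : ∀ g : G, g ∈ T ↔ (g ∈ Subgroup.normalizer (P : Set G) ∧ Cfsg.StabilizesBlock (Subgroup.centralizer (P : Set G)) c g)) (e : ℕ) (he : (Subgroup.centralizer (P : Set G)).relIndex T = e) (F : Type*) [Group F] [Finite F] (hF : Nat.card F = Nat.card P * e) (Q : Subgroup F) (hQ : IsCyclic Q) (hQcard : Nat.card Q = Nat.card P) (hQC : Subgroup.centralizer (Q : Set F) = Q) : ∃ (I : Cfsg.IrrCharacter F → Cfsg.IrrCharacter G) (ε : Cfsg.IrrCharacter F → ℤ),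 Cfsg.IsPerfectIsometry p M (Set.univ : Set (Cfsg.IrrCharacter F)) B I ε ∧ ∀ η η' : Cfsg.IrrCharacter F, (∃ x ∈ Q, (η : F → ℂ) x ≠ (η : F → ℂ) 1) → (∃ x ∈ Q, (η' : F → ℂ) x ≠ (η' : F → ℂ) 1) → ε η = ε η' := by
  classical
  haveI := hM.2.1
  haveI : H9.PMod M p := ⟨hM⟩
  have hp : p.Prime := Fact.out
  have h := H9.abD_of_induced hPD hc (H9.le_centralizer_of_cyc hcyc)
  obtain rfl := H9.eq_pstab hc.1 hT
  change H9.iidx P (H9.eI M c) = e at he
  have hF' := h.frD_of_cyc hcyc
  obtain ⟨Z, hZ, hZc⟩ := H3.exists_le_card_eq_pow (k := 1) h.max.isP (H3.pow_succ_le_card_of_lt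
    h.max.isP (by rwa [pow_zero, Subgroup.one_lt_card_iff_ne_bot]))
  rw [pow_one] at hZc
  have h1 : e ∣ p - 1 := by
    rw [← he, ← hZc]
    exact hF'.iidx_dvd hZ (fun h0 => hp.ne_one (by rw [← hZc, h0, Subgroup.card_bot]))
      (H9.AbD.T_le.trans (H9.normalizer_le_of_cyc hcyc hZ))
  have h2 : e < p := by have := hp.two_le; have := Nat.le_of_dvd (by omega) h1; omega
  have h3 : Q.index = e := Nat.eq_of_mul_eq_mul_left (Nat.card_pos (α := P))
    (by rw [← hF, ← hQcard, Q.card_mul_index])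
  have he0 : 0 < e := h3 ▸ Nat.pos_of_ne_zero Q.index_ne_zero_of_finite
  have hS : H18.SylIn p Q ⊤ := H18.sylIn_of_not_dvd_relIndex le_top
    (IsPGroup.of_card (hQcard.trans h.card_D))
    (by rw [Subgroup.relIndex_top_right, h3]; exact Nat.not_dvd_of_pos_of_lt he0 h2)
  have : Q.Normal := by
    obtain ⟨S, rfl⟩ := hS.exists_sylow_top
    have := (Nat.card_eq_one_iff_unique.1 ((card_sylow_modEq_one p F).eq_of_lt_of_lt
      ((Nat.le_of_dvd he0 (h3 ▸ S.card_dvd_index)).trans_lt h2) hp.one_lt)).1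
    exact S.normal_of_subsingleton
  obtain ⟨h', hd⟩ := sgD_one (M := M) hS hQ hQC
  have h4 : H9.iidx Q (1 : MonoidAlgebra (H8.resField M) F) = e := by
    rw [H9.iidx, hQC, ← h3, ← Subgroup.relIndex_top_right]
    exact congrArg _ (eq_top_iff.2 fun x _ => H9.mem_pstab.2
      ⟨trivial, Subgroup.le_normalizer_of_normal (Subgroup.mem_top x), map_one _⟩)
  have hQ1 : Q ≠ ⊥ := by rwa [← Subgroup.one_lt_card_iff_ne_bot, hQcard, Subgroup.one_lt_card_iff_ne_bot]
  obtain ⟨δ, hδ⟩ := hF'.exists_sgD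
  obtain ⟨X, ψ, ε, d, hX, -⟩ := hδ.exists_fam hP1 (h.le_rank_of_cyc hcyc hP1) (H8.irrOne G)
  obtain ⟨X', ψ', ε', d', hX', -⟩ := h'.exists_fam hQ1 (h'.le_rank_of_cyc hQ hQ1) (H8.irrOne F)
  let φ := mulEquivOfCyclicCardEq hQcard
  obtain ⟨I, σ, hI, hσ⟩ := hX.exists_perfect hX' φ (by
    have h5 : Nat.card ((H9.aut Q (1 : MonoidAlgebra (H8.resField M) F)).map
        (MulAut.congr φ).toMonoidHom) = e := by
      rw [Subgroup.card_map_of_injective (MulAut.congr φ).injective, H9.card_aut, h4]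
    have h6 := (H9.card_aut _ _).trans he
    by_cases h7 : p = 2
    · rw [h7, Nat.dvd_one] at h1
      rw [Subgroup.card_eq_one.1 (h5.trans h1), Subgroup.card_eq_one.1 (h6.trans h1)]
    · have : IsCyclic (ZMod (Nat.card P))ˣ := h.card_D ▸ ZMod.isCyclic_units_of_prime_pow p hp h7 _
      exact H3.eq_of_card_eq_of_isCyclic (H3.isCyclic_top_iff.2 ((IsCyclic.mulAutMulEquiv P).isCyclic.2
        inferInstance)) le_top le_top (h5.trans h6.symm))
  refine ⟨I, σ, hI, fun η η' hη hη' => ?_⟩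
  have := H8.finite_irr (G := F)
  have := Fintype.ofFinite (IrrCharacter F)
  let K : Finset (IrrCharacter F) := {η | ∀ x ∈ Q, η.1 x = η.1 1}
  have hK : e ≤ K.card := by
    let f : F →* MulAut Q := MulAut.conjNormal
    have h5 : f.ker = Q := Subgroup.ext fun x => by
      rw [MonoidHom.mem_ker]
      conv_rhs => rw [← hQC]
      exact ⟨fun hx y hy => (mul_inv_eq_iff_eq_mul.1 (congrArg (fun a : MulAut Q => (a ⟨y, hy⟩ : F))
        hx)).symm, fun hx => MulEquiv.ext fun y => Subtype.ext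
          (mul_inv_eq_iff_eq_mul.2 (hx y y.2).symm)⟩
    rw [← h3, ← h5, Subgroup.index_ker, ← H8.card_lin fun a b => Subtype.ext
      ((IsCyclic.mulAutMulEquiv Q).injective (by simp only [Subgroup.coe_mul, map_mul, mul_comm])),
      ← Fintype.card_coe K, ← Nat.card_eq_fintype_card]
    exact Nat.card_le_card_of_injective (fun lam => ⟨⟨_, H6.isIrr_linear (lam.comp f.rangeRestrict)⟩,
      Finset.mem_filter.2 ⟨Finset.mem_univ _, fun x hx => by
        simp [show f.rangeRestrict x = 1 from Subtype.ext (h5.ge hx)]⟩⟩)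
      fun a b hab => MonoidHom.ext fun ⟨_, x, rfl⟩ => Units.ext (congrArg (fun y => y.1.1 x) hab)
  have hn : ∀ η : IrrCharacter F, (∃ x ∈ Q, η.1 x ≠ η.1 1) → η ∉ K := fun η ⟨x, hx, h0⟩ h =>
    h0 ((Finset.mem_filter.1 h).2 x hx)
  by_cases h5 : ∃ j, ψ' j ∈ K
  · obtain ⟨j, hj⟩ := h5
    have h6 : ∀ i, i = j := fun i => by
      by_contra h6
      have h7 := h'.ip_Ph_of_const (H8.irr_isClassFunction (ψ' j)) (c := (ψ' j).1 1) (fun u hu => by
        simp [H9.sW, hd _ (H8.irr_isClassFunction (ψ' j)) u u.2 (by simpa using hu),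
          (Finset.mem_filter.1 hj).2 u u.2]) i
      rw [← H7.ip_conj_symm, hX'.ip_Ph_Y, if_neg h6, map_zero] at h7
      exact H8.irr_one_ne_zero _ h7.symm
    have h7 := hX'.card_B
    rw [h4, Nat.card_eq_one_iff_unique.2 ⟨⟨fun a b => (h6 a).trans (h6 b).symm⟩, ⟨j⟩⟩,
      Nat.card_congr (Equiv.Set.univ _), Nat.card_eq_fintype_card] at h7
    have h8 := Finset.card_compl K
    rw [Finset.card_le_one.1 (by omega : Kᶜ.card ≤ 1) η (Finset.mem_compl.2 (hn η hη)) η'
      (Finset.mem_compl.2 (hn η' hη'))]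
  · have h6 : K = X' := Finset.eq_of_subset_of_card_le (fun χ hχ => ((hX'.mem χ).1 trivial).resolve_right
      fun ⟨j, hj⟩ => h5 ⟨j, hj ▸ hχ⟩) (by rw [hX'.card, h4]; exact hK)
    obtain ⟨i, rfl⟩ := ((hX'.mem η).1 trivial).resolve_left (h6 ▸ hn η hη)
    obtain ⟨j, rfl⟩ := ((hX'.mem η').1 trivial).resolve_left (h6 ▸ hn η' hη')
    rw [hσ, hσ]

end Cfsg.Agent.S4634
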