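import Cfsg.Statements.S4635
import Mathlib
import Cfsg.Agent.H9.Nak3
import Cfsg.Agent.H9.PI

set_option autoImplicit false
open Cfsg

namespace Cfsg.Agent.S4635

/-- Let B be a block of the finite group G relative to a maximal ideal M of the algebraic integers containing the prime p, with a nontrivial cyclic defect group P; let Z be the subgroup of order p of P and H = N_G(Z), which contains N_G(P). Let c be the block of H with defect group P that induces B. Then B and c contain the same number of irreducible characters, have the same p-regular rank, and there is a perfect isometry from c onto B. -/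
theorem result {G : Type*} [Group G] [Finite G] (p : ℕ) [Fact p.Prime] (M : Ideal Cfsg.AlgInt) (hM : Cfsg.IsPModular p M) (B : Set (Cfsg.IrrCharacter G)) (hB : Cfsg.IsPBlock M B) (P : Subgroup G) (hPD : Cfsg.IsDefectGroup p M B P) (hP1 : P ≠ ⊥) (hcyc : IsCyclic P) (Z : Subgroup G) (hZ : Z ≤ P) (hZcard : Nat.card Z = p) (H : Subgroup G) (hH : H = Subgroup.normalizer (Z : Set G)) (c : Set (Cfsg.IrrCharacter H)) (hcD : Cfsg.IsDefectGroup p M c (P.subgroupOf H)) (hc : Cfsg.IsInducedBlock M H c B) : Nat.card c = Nat.card B ∧ Cfsg.blockRank p c = Cfsg.blockRank p B ∧ ∃ (I : Cfsg.IrrCharacter H → Cfsg.IrrCharacter G) (ε : Cfsg.IrrCharacter H → ℤ), Cfsg.IsPerfectIsometry p M c B I ε := by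
  haveI := hM.2.1
  haveI : H9.PMod M p := ⟨hM⟩
  have hK : Subgroup.normalizer (P : Set G) ≤ H := hH ▸ H9.normalizer_le_of_cyc hcyc hZ
  obtain ⟨e, e', h, h', hφ⟩ := H9.exists_abD_sub hPD (H9.le_centralizer_of_cyc hcyc) hK hcD hc
  have hle := Subgroup.le_normalizer.trans hK
  have hc' : IsCyclic (P.subgroupOf H) := (Subgroup.subgroupOfEquivOfLe hle).isCyclic.2 hcyc
  exact (h.frD_of_cyc hcyc).exists_perfect (h'.frD_of_cyc hc') hP1 (h.le_rank_of_cyc hcyc hP1)
    (h'.le_rank_of_cyc hc' (by
      rw [Ne, Subgroup.subgroupOf_eq_bot, disjoint_iff, inf_eq_left.2 hle]; exact hP1)) _ hφ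

end Cfsg.Agent.S4635
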