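import Cfsg.Statements.S4636
import Mathlib
import Cfsg.Agent.H3.Cyclic
import Cfsg.Agent.H9.GA

set_option autoImplicit false
open scoped Pointwise
open Cfsg

namespace Cfsg.Agent.S4636

/-- Let P be a nontrivial cyclic p-subgroup of the finite group G and Z its subgroup of order p. For every x outside N_G(Z), P meets its conjugate xPx⁻¹ trivially; consequently N_G(Q) ≤ N_G(Z) for every nontrivial subgroup Q of P. -/
theorem result {G : Type*} [Group G] [Finite G] (p : ℕ) [Fact p.Prime] (P : Subgroup G) (hP : IsPGroup p P) (hP1 : P ≠ ⊥) (hcyc : IsCyclic P) (Z : Subgroup G) (hZ : Z ≤ P) (hZcard : Nat.card Z = p) : (∀ x : G, x ∉ Subgroup.normalizer (Z : Set G) → P ⊓ MulAut.conj x • P = ⊥) ∧ ∀ Q : Subgroup G, Q ≤ P → Q ≠ ⊥ → Subgroup.normalizer (Q : Set G) ≤ Subgroup.normalizer (Z : Set G) := by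
  have h2 : ∀ Q : Subgroup G, Q ≤ P → Q ≠ ⊥ →
      Subgroup.normalizer (Q : Set G) ≤ Subgroup.normalizer (Z : Set G) := fun Q hQ h0 =>
    H3.normalizer_le_normalizer_of_le_isCyclic (H3.isCyclic_of_le' hcyc hQ)
      (H3.le_of_card_eq_p_of_isCyclic hP hcyc hZ hQ hZcard h0)
  refine ⟨fun x hx => ?_, h2⟩
  by_contra h
  apply hx
  have h1 : Z ≤ H9.cg x P :=
    (H3.le_of_card_eq_p_of_isCyclic hP hcyc hZ inf_le_left hZcard h).trans inf_le_right
  rw [H9.mem_normalizer_iff_cg]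
  exact H3.eq_of_card_eq_of_isCyclic (H3.isCyclic_map _ hcyc) (H9.cg_mono x hZ) h1 (H9.card_cg x Z)

end Cfsg.Agent.S4636
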