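import Cfsg.Statements.S4637
import Mathlib
import Cfsg.Agent.H9.Cyc

set_option autoImplicit false
open Cfsg

namespace Cfsg.Agent.S4637

/-- Let B be a block of the finite group G relative to a maximal ideal M of the algebraic integers containing 2, with a Klein four defect group P. Let c be a block of C_G(P) inducing B, T the stabilizer of c in N_G(P) and e the index of C_G(P) in T (the inertial index). Then e is 1 or 3, B contains exactly four irreducible characters, and the 2-regular rank of B (its number of irreducible Brauer characters) equals e. -/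
theorem result {G : Type*} [Group G] [Finite G] (M : Ideal Cfsg.AlgInt) (hM : Cfsg.IsPModular 2 M) (B : Set (Cfsg.IrrCharacter G)) (hB : Cfsg.IsPBlock M B) (P : Subgroup G) (hPD : Cfsg.IsDefectGroup 2 M B P) (hV : IsKleinFour P) (c : Set (Cfsg.IrrCharacter (Subgroup.centralizer (P : Set G)))) (hc : Cfsg.IsInducedBlock M (Subgroup.centralizer (P : Set G)) c B) (T : Subgroup G) (hT : ∀ g : G, g ∈ T ↔ (g ∈ Subgroup.normalizer (P : Set G) ∧ Cfsg.StabilizesBlock (Subgroup.centralizer (P : Set G)) c g)) (e : ℕ) (he : (Subgroup.centralizer (P : Set G)).relIndex T = e) : (e = 1 ∨ e = 3) ∧ Nat.card B = 4 ∧ Cfsg.blockRank 2 B = e := by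
  haveI := hM.2.1
  haveI : H9.PMod M 2 := ⟨hM⟩
  classical
  have hab : P ≤ Subgroup.centralizer (P : Set G) := fun x hx y hy =>
    congrArg Subtype.val ((H8.klein_comm hV).is_comm.comm (⟨y, hy⟩ : P) ⟨x, hx⟩)
  have h := (H9.abD_of_induced hPD hc hab).frD_of_klein hV
  obtain rfl := H9.eq_pstab hc.1 hT
  have h4 : Nat.card P = 4 := hV.card_four
  have hP1 : P ≠ ⊥ := by rintro rfl; simp at h4
  have h1 := h.iidx_dvd le_rfl hP1 H9.AbD.T_le
  have h2 := h.card_mul
  rw [show H9.iidx P (H9.eI M c) = e from he, h4] at h1 h2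
  have h3 : e = 1 ∨ e = 3 := (Nat.dvd_prime Nat.prime_three).1 h1
  obtain ⟨⟨u, hu⟩, hu1⟩ := Subgroup.ne_bot_iff_exists_ne_one.1 hP1
  have hu1' : u ≠ 1 := fun h0 => hu1 (Subtype.ext h0)
  have hU := h.uni_u hu hu1'
  have h5 : ∀ χ : Cfsg.IrrCharacter G, ∃ n : ℤ, H9.dA 2 P (H9.eI M c) u χ = n := fun χ =>
    h.dA_int hu hU (congrArg Subtype.val (IsKleinFour.mul_self (⟨u, hu⟩ : P))) (H6.isGen_of_irr χ.2)
  choose n hn using h5
  have h6 : ∑ χ ∈ H9.bs B, n χ ^ 2 = 4 := by
    have := h.sum_norm_dA hu hu1'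
    simp only [hn, Complex.norm_intCast, sq_abs, h4] at this
    exact_mod_cast this
  have h7 : ∀ χ ∈ H9.bs B, n χ ≠ 0 := fun χ hχ h0 =>
    h.dA_ne_zero hu hU (H9.mem_bs.1 hχ) (by rw [hn, h0, Int.cast_zero])
  have h8 := H9.blockRank_pos (p := 2) hB
  have h9 : Nat.card B = 4 := by
    by_cases h10 : ∀ χ ∈ H9.bs B, n χ ^ 2 = 1
    · rw [Finset.sum_congr rfl h10, Finset.sum_const, H9.card_bs, nsmul_one] at h6
      exact_mod_cast h6
    push Not at h10
    obtain ⟨χ, hχ, h11⟩ := h10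
    have h12 : 4 ≤ n χ ^ 2 := by
      have := h7 χ hχ
      have h13 : n χ ≠ 1 := fun h0 => h11 (by rw [h0]; rfl)
      have h14 : n χ ≠ -1 := fun h0 => h11 (by rw [h0]; rfl)
      have : 2 ≤ n χ ∨ n χ ≤ -2 := by omega
      rcases this with h | h <;> nlinarith
    have h13 : ((H9.bs B).erase χ).card • (1 : ℤ) ≤ ∑ ψ ∈ (H9.bs B).erase χ, n ψ ^ 2 :=
      Finset.card_nsmul_le_sum _ _ _ fun ψ hψ => (one_le_sq_iff_one_le_abs _).2
        (Int.one_le_abs (h7 ψ (Finset.mem_of_mem_erase hψ)))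
    rw [← Finset.add_sum_erase _ _ hχ] at h6
    rw [Finset.card_erase_of_mem hχ, H9.card_bs, nsmul_one] at h13
    rcases h3 with rfl | rfl <;> omega
  rw [h9] at h2
  refine ⟨h3, h9, ?_⟩
  rcases h3 with rfl | rfl <;> omega

end Cfsg.Agent.S4637
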