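import Cfsg.Statements.S4638
import Mathlib
import Cfsg.Agent.H9.PI

set_option autoImplicit false
open Cfsg

namespace Cfsg.Agent.S4638

/-- Let B be a block of the finite group G relative to a maximal ideal M of the algebraic integers containing 2, with a Klein four defect group P, and let c be its Brauer correspondent: the block of N_G(P) with defect group P that induces B. Then there is a perfect isometry from c onto B. -/
theorem result {G : Type*} [Group G] [Finite G] (M : Ideal Cfsg.AlgInt) (hM : Cfsg.IsPModular 2 M) (B : Set (Cfsg.IrrCharacter G)) (hB : Cfsg.IsPBlock M B) (P : Subgroup G) (hPD : Cfsg.IsDefectGroup 2 M B P) (hV : IsKleinFour P) (c : Set (Cfsg.IrrCharacter (Subgroup.normalizer (P : Set G)))) (hcD : Cfsg.IsDefectGroup 2 M c (P.subgroupOf (Subgroup.normalizer (P : Set G)))) (hc : Cfsg.IsInducedBlock M (Subgroup.normalizer (P : Set G)) c B) : ∃ (I : Cfsg.IrrCharacter (Subgroup.normalizer (P : Set G)) → Cfsg.IrrCharacter G) (ε : Cfsg.IrrCharacter (Subgroup.normalizer (P : Set G)) → ℤ), Cfsg.IsPerfectIsometry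 2 M c B I ε := by
  haveI := hM.2.1
  haveI : H9.PMod M 2 := ⟨hM⟩
  have hab : P ≤ Subgroup.centralizer (P : Set G) := fun x hx y hy =>
    congrArg Subtype.val (hV.isMulCommutative.is_comm.comm (⟨y, hy⟩ : P) ⟨x, hx⟩)
  obtain ⟨e, e', h, h', hφ⟩ := H9.exists_abD_sub hPD hab le_rfl hcD hc
  have φ := Subgroup.subgroupOfEquivOfLe (Subgroup.le_normalizer (H := P))
  have hV' : IsKleinFour (P.subgroupOf (Subgroup.normalizer (P : Set G))) :=
    ⟨(Nat.card_congr φ.toEquiv).trans hV.card_four, (Monoid.exponent_eq_of_mulEquiv φ).trans hV.exponent_two⟩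
  exact ((h.frD_of_klein hV).exists_perfect (h'.frD_of_klein hV') ((Subgroup.one_lt_card_iff_ne_bot P).1
    (by rw [hV.card_four]; decide)) ((h.frD_of_klein hV).le_rank_of_card_four hV.card_four)
    ((h'.frD_of_klein hV').le_rank_of_card_four hV'.card_four) _ hφ).2.2

end Cfsg.Agent.S4638
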