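import Cfsg.Statements.S4639
import Mathlib
import Cfsg.Agent.H9.Nak3

set_option autoImplicit false
open Cfsg

namespace Cfsg.Agent.S4639

/-- Let B be a block of the finite group G relative to a maximal ideal M of the algebraic integers containing the prime p, with a nontrivial commutative defect group P. Let c be a block of C_G(P) inducing B, T the stabilizer of c in N_G(P) and e the index of C_G(P) in T. Suppose that T/C_G(P) is commutative (all commutators of elements of T lie in C_G(P)) and acts freely on the non-identity elements of P (an element of T fixing a non-identity element of P under conjugation lies in C_G(P)). Then B has at most e + (#P − 1)/e irreducible characters and p-regular rank at most e; equality holds in the first bound exactly when it holds in the second; and both equalities hold when e ≤ 3. -/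
theorem result {G : Type*} [Group G] [Finite G] (p : ℕ) [Fact p.Prime] (M : Ideal Cfsg.AlgInt) (hM : Cfsg.IsPModular p M) (B : Set (Cfsg.IrrCharacter G)) (hB : Cfsg.IsPBlock M B) (P : Subgroup G) (hPD : Cfsg.IsDefectGroup p M B P) (hP1 : P ≠ ⊥) (hPab : ∀ x ∈ P, ∀ y ∈ P, x * y = y * x) (c : Set (Cfsg.IrrCharacter (Subgroup.centralizer (P : Set G)))) (hc : Cfsg.IsInducedBlock M (Subgroup.centralizer (P : Set G)) c B) (T : Subgroup G) (hT : ∀ g : G, g ∈ T ↔ (g ∈ Subgroup.normalizer (P : Set G) ∧ Cfsg.StabilizesBlock (Subgroup.centralizer (P : Set G)) c g)) (e : ℕ) (he : (Subgroup.centralizer (P : Set G)).relIndex T = e) (hEab : ∀ g ∈ T, ∀ h ∈ T, g * h * g⁻¹ * h⁻¹ ∈ Subgroup.centralizer (P : Set G)) (hfree : ∀ g ∈ T, ∀ x ∈ P, x ≠ 1 → g * x * g⁻¹ = x → g ∈ Subgroup.centralizer (P : Set G)) : Nat.card B ≤ e + (Nat.card P - 1) / e ∧ Cfsg.blockRank p B ≤ e ∧ (Nat.card B = e + (Nat.card P - 1) / e ↔ Cfsg.blockRank p B = e) ∧ (e ≤ 3 → Nat.card B = e + (Nat.card P - 1) / e ∧ Cfsg.blockRank p B = e) := by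
  haveI := hM.2.1
  haveI : H9.PMod M p := ⟨hM⟩
  have hp : p.Prime := Fact.out
  have h := H9.abD_of_induced hPD hc fun x hx y hy => hPab y hy x hx
  obtain rfl := H9.eq_pstab hc.1 hT
  change H9.iidx P (H9.eI M c) = e at he
  have hF : H9.FrD p B P (H9.eI M c) := ⟨h, fun u hu hu1 g hg => hfree g hg.2 u hu hu1 (by
    rw [Subgroup.mem_centralizer_singleton_iff.1 hg.1, mul_inv_cancel_right])⟩
  have h1 := hF.card_eq
  have h2 := hF.rank_le hP1
  have h3 := hF.card_orb
  have h4 := hF.card_orb_eq
  rw [he] at h2 h3 h4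
  have h5 : e ≤ 3 → e ≤ blockRank p B := fun h5 => by
    by_cases hc : IsCyclic P
    · exact he ▸ h.le_rank_of_cyc hc hP1
    refine he ▸ hF.le_rank hP1 (he ▸ h5) ?_
    have h6 : ¬ (Nat.card P).Prime := fun h6 => hc (haveI := Fact.mk h6; isCyclic_of_prime_card rfl)
    have h7 : Nat.card P ≠ 10 := fun h7 => by
      rw [h.card_D] at h7
      have h8 := (Nat.prime_dvd_prime_iff_eq Nat.prime_two hp).1
        (Nat.prime_two.dvd_of_dvd_pow (by rw [h7]; norm_num))
      have h9 := (Nat.prime_dvd_prime_iff_eq Nat.prime_five hp).1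
        (Nat.prime_five.dvd_of_dvd_pow (by rw [h7]; norm_num))
      omega
    have h8 := (Subgroup.one_lt_card_iff_ne_bot P).2 hP1
    rw [he]
    generalize Nat.card (Quotient (H8.orbS (H9.aut P (H9.eI M c)))) = t at h3 ⊢
    rw [← h3] at h6 h7 h8
    by_contra! h9
    obtain ⟨h9, h10⟩ := h9
    have : t ≤ 4 := by omega
    interval_cases e <;> interval_cases t <;> simp_all (config := {decide := true})
  rw [← h4]
  omega

end Cfsg.Agent.S4639
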