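import Cfsg.Statements.S4672
import Mathlib
import Cfsg.Agent.H9.Dict4

set_option autoImplicit false
open Cfsg

namespace Cfsg.Agent.S4672

/-- Fix a prime p and a maximal ideal M of the algebraic integers containing p. Let N be a normal subgroup of the finite group G of p-power index and c a p-block of N stable under conjugation by G. Then the idempotent of c is a block idempotent of G: there is a p-block B of G whose idempotent coefficients agree with those of c on N and vanish off N; and for every defect group P of such a block B, G = NP and P ∩ N is a defect group of c. -/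
theorem result {G : Type*} [Group G] [Fintype G] (p : ℕ) [Fact p.Prime] (M : Ideal Cfsg.AlgInt) (hM : Cfsg.IsPModular p M) (N : Subgroup G) [N.Normal] (hN : ∃ k : ℕ, N.index = p ^ k) (c : Set (Cfsg.IrrCharacter N)) (hc : Cfsg.IsPBlock M c) (hst : ∀ x : G, Cfsg.StabilizesBlock N c x) : (∃ B : Set (Cfsg.IrrCharacter G), Cfsg.IsPBlock M B ∧ ∀ g : G, Cfsg.blockCoeff B g = Cfsg.subgroupBlockCoeff N c g) ∧ ∀ B : Set (Cfsg.IrrCharacter G), Cfsg.IsPBlock M B → (∀ g : G, Cfsg.blockCoeff B g = Cfsg.subgroupBlockCoeff N c g) → ∀ P : Subgroup G, Cfsg.IsDefectGroup p M B P → N ⊔ P = ⊤ ∧ Cfsg.IsDefectGroup p M c ((P ⊓ N).subgroupOf N) := by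
  haveI := hM.2.1
  haveI : H9.PMod M p := ⟨hM⟩
  have hN' := H9.top_le_normalizer_of_normal N
  have hst' : ∀ t ∈ (⊤ : Subgroup G), H9.cj t (H9.eI M c) = H9.eI M c := fun t _ =>
    (H9.stabilizesBlock_normal_iff hc).1 (hst t)
  have hpow := H9.exists_pow_mem_of_index hN
  have hc1 := (H9.isBlk_eI hc).of_le le_top hst'
  constructor
  · obtain ⟨B, hB, h⟩ := H9.exists_eB ((H9.isBlk_iff_isPrim_of_pow le_top hpow).2 hc1)
    exact ⟨B, hB, (H9.eB_eq_iff_coeff (H8.isBlockUnion_of_block hB)
      (H8.isBlockUnion_of_block hc)).1 h⟩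
  · intro B hB h P hP
    have h1 := (H9.isDefectGroup_iff hB).1 hP
    rw [(H9.eB_eq_iff_coeff (H8.isBlockUnion_of_block hB) (H8.isBlockUnion_of_block hc)).2 h] at h1
    obtain ⟨h6, h7⟩ := h1.not_dvd_relIndex le_top hN' (H9.isBlk_eI hc) hst'
    exact ⟨by rw [sup_comm, eq_top_iff]; exact H9.le_of_pow_of_not_dvd le_sup_right le_top hN' hpow h6,
      (H9.isDefectGroup_subgroupOf hc inf_le_right).2 h7⟩

end Cfsg.Agent.S4672
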