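import Cfsg.Statements.S4640
import Mathlib
import Cfsg.Agent.H9.Cyc
import Cfsg.Agent.S4672

set_option autoImplicit false
open Cfsg

namespace Cfsg.Agent.S4640

/-- Let N be a normal subgroup of the finite group G of index a power of the prime p, M a maximal ideal of the algebraic integers containing p, b a block of N stabilized by every element of G, and B a block of G covering b (some member of B has a member of b as a constituent of its restriction to N). Suppose that B has a commutative defect group P. Then G = NP and P ∩ N is a defect group of b; every member of B restricts to a member of b; every member of b is the restriction of exactly [G : N] members of B; B contains exactly [G : N] times as many irreducible characters as b; and B and b have the same p-regular rank. -/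
theorem result {G : Type*} [Group G] [Fintype G] (p : ℕ) [Fact p.Prime] (M : Ideal Cfsg.AlgInt) (hM : Cfsg.IsPModular p M) (N : Subgroup G) [N.Normal] [Fintype N] (hNi : ∃ k : ℕ, N.index = p ^ k) (b : Set (Cfsg.IrrCharacter N)) (hb : Cfsg.IsPBlock M b) (hstab : ∀ g : G, Cfsg.StabilizesBlock N b g) (B : Set (Cfsg.IrrCharacter G)) (hB : Cfsg.IsPBlock M B) (hcov : ∃ χ ∈ B, ∃ θ ∈ b, Cfsg.classInner (fun n : N => (χ : G → ℂ) n) (θ : N → ℂ) ≠ 0) (P : Subgroup G) (hPD : Cfsg.IsDefectGroup p M B P) (hPab : ∀ x ∈ P, ∀ y ∈ P, x * y = y * x) : N ⊔ P = ⊤ ∧ Cfsg.IsDefectGroup p M b ((P ⊓ N).subgroupOf N) ∧ (∀ χ ∈ B, ∃ θ ∈ b, ∀ n : N, (χ : G → ℂ) n = (θ : N → ℂ) n) ∧ (∀ θ ∈ b, Nat.card {χ : Cfsg.IrrCharacter G // χ ∈ B ∧ ∀ n : N, (χ : G → ℂ) n = (θ : N → ℂ) n} = N.index) ∧ Nat.card B = N.index * Nat.card b ∧ Cfsg.blockRank p B = Cfsg.blockRank p b := by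
  haveI := hM.2.1
  haveI : H9.PMod M p := ⟨hM⟩
  classical
  have hN' := H9.top_le_normalizer_of_normal N
  have hpow := H9.exists_pow_mem_of_index hNi
  have hBlk : H9.IsBlk ⊤ (H9.eI M b) := (H9.isBlk_iff_isPrim_of_pow le_top hpow).2
    ((H9.isBlk_eI hb).of_le le_top fun t _ => (H9.stabilizesBlock_normal_iff hb).1 (hstab t))
  have hcv := (H9.covers_iff_sub hB hb).1 hcov
  have heq := (H9.isBlk_eB hB).eq_of_mul_ne le_rfl hBlk hcv
  obtain ⟨h1, h2⟩ := (S4672.result p M hM N hNi b hb hstab).2 B hB ((H9.eB_eq_iff_coeff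
    (H8.isBlockUnion_of_block hB) (H8.isBlockUnion_of_block hb)).1 heq) P hPD
  obtain ⟨e, hA⟩ := H9.exists_abD hB hPD fun x hx y hy => hPab y hy x hx
  have hreg : ∀ g, ¬ p ∣ orderOf g → g ∈ N := fun g hg => by
    obtain ⟨k, hk⟩ := hpow g trivial
    exact H9.mem_of_pElt_of_pReg hk hg
  have hq : ∀ x : G ⧸ N, ∃ u ∈ P, QuotientGroup.mk' N u = x := fun x => by
    have := congrArg (Subgroup.map (QuotientGroup.mk' N)) h1
    rw [Subgroup.map_sup, QuotientGroup.map_mk'_self, bot_sup_eq,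
      Subgroup.map_top_of_surjective _ (QuotientGroup.mk'_surjective N)] at this
    exact this.ge (Subgroup.mem_top x)
  have hab : ∀ x y : G ⧸ N, x * y = y * x := fun x y => by
    obtain ⟨u, hu, rfl⟩ := hq x
    obtain ⟨v, hv, rfl⟩ := hq y
    rw [← map_mul, hPab u hu v hv, map_mul]
  have hker : (QuotientGroup.mk' N).ker = N.subtype.range := by
    rw [QuotientGroup.ker_mk', Subgroup.range_subtype]
  have hirr : ∀ χ ∈ B, IsIrrCharacter N fun n : N => (χ : G → ℂ) n := fun χ hχ => by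
    refine (H7.isNE_subtype N).irr_res_of_abelian ?_ χ.2 fun U hU h => ?_
    · rw [Subgroup.range_subtype, ← Subgroup.Normal.quotient_commutative_iff_commutator_le]
      exact ⟨⟨hab⟩⟩
    rw [Subgroup.range_subtype] at hU
    rw [eq_top_iff, ← h1]
    refine sup_le hU fun u hu => by_contra fun hn => (hA.subs hu).contr_self_ne_zero_of_major
      (hA.blk_bu hu) hB (hA.defect_bu hu) hχ ?_
    rw [H9.contr_eq (hA.ub_bu hu), H9.rip_congr (θ' := 0) (fun c hc => by_contra fun h0 => hn ?_)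
      fun _ _ => rfl, H9.rip_zero_left]
    exact (mul_mem_cancel_right (hU (hreg c (by rwa [Subgroup.orderOf_coe])))).1 (h _ h0)
  have hres : ∀ χ ∈ B, ∃ θ ∈ b, ∀ n : N, (χ : G → ℂ) n = (θ : N → ℂ) n := fun χ hχ => by
    obtain ⟨θ, hθ, h⟩ := H9.exists_under_of_covers hB hb hcv hχ
    rw [← H7.ip_eq_classInner] at h
    exact ⟨θ, hθ, congrFun (H7.irr_eq_of_ip_ne_zero (hirr χ hχ) θ.2 h)⟩
  have hext : ∀ θ ∈ b, ∃ χ ∈ B, (fun n : N => (χ : G → ℂ) n) = θ := fun θ hθ => by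
    obtain ⟨χ, hχ, h⟩ := H9.exists_over_of_covers hB hb hcv hθ
    rw [← H7.ip_eq_classInner] at h
    exact ⟨χ, hχ, H7.irr_eq_of_ip_ne_zero (hirr χ hχ) θ.2 h⟩
  have hmem : ∀ θ ∈ b, ∀ ψ : IrrCharacter G, (∀ n : N, (ψ : G → ℂ) n = (θ : N → ℂ) n) → ψ ∈ B :=
    fun θ hθ ψ h => by
      have h3 := (H9.covers_iff_sub ⟨ψ, rfl⟩ hb).1 ⟨ψ, H8.mem_blockOf_self ψ, θ, hθ, by
        rw [funext h, ← H7.ip_eq_classInner, H7.ip_irr_self θ.2]; exact one_ne_zero⟩
      rw [← (H9.eB_inj ⟨ψ, rfl⟩ hB).1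
        (((H9.isBlk_eB ⟨ψ, rfl⟩).eq_of_mul_ne le_rfl hBlk h3).trans heq.symm)]
      exact H8.mem_blockOf_self ψ
  have hfib : ∀ θ ∈ b, Nat.card {χ : IrrCharacter G // χ ∈ B ∧
      ∀ n : N, (χ : G → ℂ) n = (θ : N → ℂ) n} = N.index := fun θ hθ => by
    obtain ⟨χ, hχ, h⟩ := hext θ hθ
    have hπ := QuotientGroup.mk'_surjective N
    have h3 : ∀ (β : IrrCharacter (G ⧸ N)) (n : N),
        ((fun x => β.1 (QuotientGroup.mk' N x)) * (χ : G → ℂ)) n = (θ : N → ℂ) n := fun β n => by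
      have := congrFun (H7.gallagher_res hker χ β.1) n
      rw [H7.irr_one_eq_one_of_comm hab β.2, one_smul] at this
      exact this.trans (congrFun h n)
    rw [Subgroup.index, ← H6.card_irr_of_comm hab, eq_comm]
    refine Nat.card_eq_of_bijective (fun β => ⟨⟨_, H7.gallagher_irr hπ hker (H8.irr_isChar χ)
      (hirr χ hχ) β.2⟩, hmem θ hθ _ (h3 β), h3 β⟩) ⟨fun β γ h4 => Subtype.ext (H7.gallagher_inj hπ hker
        (H8.irr_isChar χ) (hirr χ hχ) β.2 γ.2 (congrArg (fun x => x.1.1) h4)), fun ⟨ψ, _, hψ⟩ => ?_⟩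
    obtain ⟨β, hβ, h4⟩ := (H7.isNE_subtype N).gallagher_surj hπ hker (H8.irr_isChar χ) (hirr χ hχ) ψ.2
      (by
        change H7.ip (fun n : N => (ψ : G → ℂ) n) (fun n : N => (χ : G → ℂ) n) ≠ 0
        rw [funext hψ, h, H7.ip_irr_self θ.2]; exact one_ne_zero)
    exact ⟨⟨β, hβ⟩, Subtype.ext (Subtype.ext h4.symm)⟩
  refine ⟨h1, h2, hres, hfib, ?_, ?_⟩
  · choose f hf hf' using fun χ : B => hres χ χ.2
    have := H8.finite_irr (G := N)
    have := H8.finite_irr (G := G)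
    have := Fintype.ofFinite b
    rw [← Nat.card_congr (Equiv.sigmaFiberEquiv fun χ : B => (⟨f χ, hf χ⟩ : b)), Nat.card_sigma,
      Finset.sum_congr rfl (g := fun _ => N.index), Finset.sum_const, Finset.card_univ,
      Nat.card_eq_fintype_card, smul_eq_mul, mul_comm]
    intro θ _
    rw [← hfib θ θ.2]
    exact Nat.card_eq_of_bijective (fun χ => ⟨χ.1.1, χ.1.2, fun n =>
      (hf' _ n).trans (congrArg (fun x : b => x.1.1 n) χ.2)⟩)
      ⟨fun χ ψ h => Subtype.ext (Subtype.ext (congrArg (fun x => x.1) h)), fun ⟨χ, h3, h4⟩ =>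
        ⟨⟨⟨χ, h3⟩, Subtype.ext (Subtype.ext (funext fun n => (hf' _ n).symm.trans (h4 n)))⟩, rfl⟩⟩
  · let L : (N → ℂ) →ₗ[ℂ] G → ℂ :=
      ⟨⟨fun θ g => if h : g ∈ N then θ ⟨g, h⟩ else 0, fun _ _ => funext fun g => by
        by_cases h : g ∈ N <;> simp [h]⟩, fun _ _ => funext fun g => by by_cases h : g ∈ N <;> simp [h]⟩
    refine le_antisymm ((Submodule.finrank_mono ?_).trans (Submodule.finrank_map_le L _))
      ((Submodule.finrank_mono ?_).trans (Submodule.finrank_map_le (LinearMap.funLeft ℂ ℂ N.subtype) _))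
    · rw [Submodule.span_le]
      rintro _ ⟨χ, hχ, rfl⟩
      obtain ⟨θ, hθ, h⟩ := hres χ hχ
      refine ⟨_, Submodule.subset_span ⟨θ, hθ, rfl⟩, funext fun g => ?_⟩
      change dite _ _ _ = _
      split_ifs with hg
      · simp only [H9.reg_apply, ← h, Subgroup.orderOf_mk]
      · exact (H9.reg_of_dvd (by_contra fun h0 => hg (hreg g h0))).symm
    · rw [Submodule.span_le]
      rintro _ ⟨θ, hθ, rfl⟩
      obtain ⟨χ, hχ, h⟩ := hext θ hθ
      refine ⟨_, Submodule.subset_span ⟨χ, hχ, rfl⟩, funext fun n => ?_⟩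
      simp only [LinearMap.funLeft_apply, H9.reg_apply, ← h, Subgroup.coe_subtype, Subgroup.orderOf_coe]

end Cfsg.Agent.S4640
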