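import Cfsg.Statements.S4641
import Mathlib
import Cfsg.Agent.H9.OT

set_option autoImplicit false
open Cfsg

namespace Cfsg.Agent.S4641

/-- Let B be a block of the finite group G relative to a maximal ideal M of the algebraic integers containing the prime p, let p^a be the p-part of the order of G and p^d the order of a defect group D of B, and let g be the greatest common divisor of the degrees of the members of B. Then the p-part of g is exactly p^(a−d), and writing g = p^(a−d)·u there is a positive integer v, prime to p and at least the p-regular rank of B (its number of irreducible Brauer characters), with Σ_{χ ∈ B} χ(1)² = p^(2a−d)·u²·v. -/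
theorem result {G : Type*} [Group G] [Finite G] (p : ℕ) [Fact p.Prime] (M : Ideal Cfsg.AlgInt) (hM : Cfsg.IsPModular p M) (B : Set (Cfsg.IrrCharacter G)) (hB : Cfsg.IsPBlock M B) (D : Subgroup G) (hD : Cfsg.IsDefectGroup p M B D) (a d : ℕ) (ha : (Nat.card G).factorization p = a) (hd : Nat.card D = p ^ d) (g : ℕ) (hg1 : ∀ χ ∈ B, g ∣ Cfsg.charDegree (χ : G → ℂ)) (hg2 : ∀ g' : ℕ, (∀ χ ∈ B, g' ∣ Cfsg.charDegree (χ : G → ℂ)) → g' ∣ g) : g.factorization p = a - d ∧ ∃ v : ℕ, 0 < v ∧ ¬ p ∣ v ∧ Cfsg.blockRank p B ≤ v ∧ ∑ᶠ χ ∈ B, Cfsg.charDegree (χ : G → ℂ) ^ 2 = p ^ (2 * a - d) * (g / p ^ (a - d)) ^ 2 * v := by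
  haveI := hM.2.1; haveI : H9.PMod M p := ⟨hM⟩
  have hp : p.Prime := Fact.out
  obtain ⟨χ, hχ, h0⟩ := H8.exists_height_zero (p := p) hB
  obtain rfl : d = blockDefect p B :=
    Nat.pow_right_injective hp.two_le (hd.symm.trans (H8.card_defectGroup hM hB hD))
  subst ha
  have h1 := H9.defect_add_val (p := p) hχ
  have h2 := H8.charDegree_irr_ne_zero χ
  have h3 : g ≠ 0 := fun h => h2 (zero_dvd_iff.1 (h ▸ hg1 χ hχ))
  have h4 : g.factorization p = (Nat.card G).factorization p - blockDefect p B := le_antisymm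
    (((Nat.factorization_le_iff_dvd h3 h2).2 (hg1 χ hχ) p).trans (by omega))
    ((hp.pow_dvd_iff_le_factorization h3).1 (hg2 _ fun ψ hψ =>
      (hp.pow_dvd_iff_le_factorization (H8.charDegree_irr_ne_zero ψ)).2 (by
        have := H9.defect_add_val (p := p) hψ
        omega)))
  obtain ⟨ι, _, dd, φ, m, h⟩ := H9.exists_IBr (p := p) (H8.isBlockUnion_of_block hB)
  have h5 := Nat.not_dvd_ordCompl hp h3
  obtain ⟨v, h6, h7⟩ := h.exists_sum_sq hg1 (Nat.ordCompl_dvd g p) h5
  have h8 := H9.factorization_sum_sq (p := p) hB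
  have h9 := (H9.blockRank_pos (p := p) hB).trans_le h6
  have h10 := Nat.ordProj_mul_ordCompl_eq_self g p
  rw [h4] at h5 h7 h10
  set u := g / p ^ ((Nat.card G).factorization p - blockDefect p B)
  have h11 : ∑ χ ∈ H9.bs B, charDegree (χ : G → ℂ) ^ 2 =
      p ^ (2 * (Nat.card G).factorization p - blockDefect p B) * u ^ 2 * v := by
    rw [h7, ← h10, show 2 * (Nat.card G).factorization p - blockDefect p B =
      (Nat.card G).factorization p - blockDefect p B + (Nat.card G).factorization p by omega]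
    ring
  refine ⟨h4, v, h9, fun h12 => ?_, h6, by rw [H9.finsum_bs, h11]⟩
  have h13 : u ≠ 0 := fun h => h5 (h ▸ dvd_zero p)
  rw [h11, Nat.factorization_mul (by positivity [hp.pos]) h9.ne',
    Nat.factorization_mul (by positivity [hp.pos]) (pow_ne_zero _ h13), hp.factorization_pow] at h8
  have h14 := hp.factorization_pos_of_dvd h9.ne' h12
  simp only [Finsupp.add_apply, Finsupp.single_eq_same] at h8
  omega

end Cfsg.Agent.S4641
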