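import Cfsg.Statements.S4645
import Mathlib
import Cfsg.Agent.H9.Cyc

set_option autoImplicit false
open Cfsg

namespace Cfsg.Agent.S4645

/-- Let B be a block of the finite group G relative to a maximal ideal M of the algebraic integers containing the prime p, with a nontrivial cyclic defect group P; let c be a block of C_G(P) inducing B and T the stabilizer of c in N_G(P). Let Q be a nontrivial subgroup of P (so C_G(P) ≤ C_G(Q)), f the block of C_G(Q) induced by c inside C_G(Q), and T' the stabilizer of f in N_G(Q). Then T' = T·C_G(Q), the index of C_G(Q) in T' equals the index of C_G(P) in T, f has p-regular rank 1, and f is a nilpotent block of C_G(Q). -/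
theorem result {G : Type*} [Group G] [Finite G] (p : ℕ) [Fact p.Prime] (M : Ideal Cfsg.AlgInt) (hM : Cfsg.IsPModular p M) (B : Set (Cfsg.IrrCharacter G)) (hB : Cfsg.IsPBlock M B) (P : Subgroup G) (hPD : Cfsg.IsDefectGroup p M B P) (hP1 : P ≠ ⊥) (hcyc : IsCyclic P) (c : Set (Cfsg.IrrCharacter (Subgroup.centralizer (P : Set G)))) (hc : Cfsg.IsInducedBlock M (Subgroup.centralizer (P : Set G)) c B) (T : Subgroup G) (hT : ∀ g : G, g ∈ T ↔ (g ∈ Subgroup.normalizer (P : Set G) ∧ Cfsg.StabilizesBlock (Subgroup.centralizer (P : Set G)) c g)) (Q : Subgroup G) (hQP : Q ≤ P) (hQ1 : Q ≠ ⊥) (f : Set (Cfsg.IrrCharacter (Subgroup.centralizer (Q : Set G)))) (hf : Cfsg.IsInducedBlockIn M (Subgroup.centralizer (Q : Set G)) (Subgroup.centralizer (P : Set G)) c f) (T' : Subgroup G) (hT' : ∀ g : G, g ∈ T' ↔ (g ∈ Subgroup.normalizer (Q : Set G) ∧ Cfsg.StabilizesBlock (Subgroup.centralizer (Q : Set G)) f g)) : T' = T ⊔ Subgroup.centralizer (Q : Set G) ∧ (Subgroup.centralizer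 (Q : Set G)).relIndex T' = (Subgroup.centralizer (P : Set G)).relIndex T ∧ Cfsg.blockRank p f = 1 ∧ Cfsg.IsNilpotentBlock p M f := by
  haveI := hM.2.1
  haveI : H9.PMod M p := ⟨hM⟩
  have hab := H9.le_centralizer_of_cyc hcyc
  have h := (H9.abD_of_induced hPD hc hab).frD_of_cyc hcyc
  obtain ⟨-, hfb, hle⟩ := (H9.isInducedBlockIn_centralizer_iff h.max.isP hQP
    (hab.trans (Subgroup.centralizer_le hQP))).1 hf
  have hfe := (H9.loc_eq h.pair hle).symm
  have hn := H9.AbD.T_le.trans (H9.normalizer_le_of_cyc hcyc hQP) (a := H9.pstab ⊤ P (H9.eI M c))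
  obtain rfl := H9.eq_pstab hc.1 hT
  have h1 : T' = H9.pstab ⊤ P (H9.eI M c) ⊔ Subgroup.centralizer (Q : Set G) := by
    rw [H9.eq_pstab hfb hT', hfe, h.max.pstab_loc hab hQP hn]
  obtain ⟨h', e1, e2⟩ := h.abD_C hQP hfb hfe
  refine ⟨h1, ?_, (h'.uni (H9.pstab_sub_le e1 e2 (h.pstab_C_le hQP hQ1))).rank, ?_⟩
  · rw [h1, H9.relIndex_sup_of_le (hn.trans (H9.normalizer_le_normalizer_centralizer Q)),
      h.relIndex_C hQP hQ1]
    rfl
  · rw [H9.isNilpotentBlock_iff_sub, hfe, (h.max.maxPair_loc hab hQP).isNil_iff_of_ab hab]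
    exact ⟨hfb, h.pstab_C_le hQP hQ1⟩

end Cfsg.Agent.S4645
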