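import Cfsg.Statements.S4647
import Mathlib
import Cfsg.Agent.H8.PermMod

set_option autoImplicit false
open Cfsg

namespace Cfsg.Agent.S4647

/-- Let B be a block of the finite group G relative to a maximal ideal M of the algebraic integers containing the prime p, p^a the p-part of the order of G and p^d the order of a defect group D of B. If Σ_{χ ∈ B} χ(1)² = p^(2a−d) (the least possible value), then B is nilpotent. -/
theorem result {G : Type*} [Group G] [Finite G] (p : ℕ) [Fact p.Prime] (M : Ideal Cfsg.AlgInt) (hM : Cfsg.IsPModular p M) (B : Set (Cfsg.IrrCharacter G)) (hB : Cfsg.IsPBlock M B) (D : Subgroup G) (hD : Cfsg.IsDefectGroup p M B D) (a d : ℕ) (ha : (Nat.card G).factorization p = a) (hd : Nat.card D = p ^ d) (hmin : ∑ᶠ χ ∈ B, Cfsg.charDegree (χ : G → ℂ) ^ 2 = p ^ (2 * a - d)) : Cfsg.IsNilpotentBlock p M B := by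
  open H8 H9 in
  classical
  have := hM.2.1
  haveI : H9.PMod M p := ⟨hM⟩
  have hp : p.Prime := Fact.out
  haveI := finite_irr (G := G)
  refine isNilpotentBlock_iff.2 ⟨hB, isNil_of_dim hB ?_⟩
  rw [finsum_mem_eq_finite_toFinset_sum _ (Set.toFinite _)] at hmin
  have h1 : d ≤ a := ha ▸ (hp.pow_dvd_iff_le_factorization Nat.card_pos.ne').1
    (hd ▸ D.card_subgroup_dvd_card)
  rw [show bs B = (Set.toFinite B).toFinset from Finset.ext fun _ => by simp [mem_bs], hmin,
    ← card_defectGroup hM hB hD, hd, ha, ← pow_add, Nat.sub_add_cancel (by omega)]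

end Cfsg.Agent.S4647
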