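import Cfsg.Statements.S4648
import Mathlib
import Cfsg.Agent.H9.SLB

set_option autoImplicit false
open Cfsg

namespace Cfsg.Agent.S4648

/-- Let B be a block of the finite group G relative to a maximal ideal M of the algebraic integers containing the prime p, with a nontrivial defect group D. If B has p-regular rank 1 and at most four irreducible characters, then B is nilpotent, D has exactly as many elements as B has irreducible characters, and p is 2 or 3. -/
theorem result {G : Type*} [Group G] [Finite G] (p : ℕ) [Fact p.Prime] (M : Ideal Cfsg.AlgInt) (hM : Cfsg.IsPModular p M) (B : Set (Cfsg.IrrCharacter G)) (hB : Cfsg.IsPBlock M B) (D : Subgroup G) (hD : Cfsg.IsDefectGroup p M B D) (hD1 : D ≠ ⊥) (hl : Cfsg.blockRank p B = 1) (hk : Nat.card B ≤ 4) : Cfsg.IsNilpotentBlock p M B ∧ Nat.card D = Nat.card B ∧ (p = 2 ∨ p = 3) := by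
  haveI := hM.2.1
  haveI : H9.PMod M p := ⟨hM⟩
  have hp : p.Prime := Fact.out
  have h1 := H9.card_eq_pow_of_le_four hB hl hk
  have h2 := H8.card_defectGroup hM hB hD
  have h3 : 1 < Nat.card D := (Subgroup.one_lt_card_iff_ne_bot D).2 hD1
  have h4 : p ∣ Nat.card D := by
    rw [h2]; exact dvd_pow_self _ fun h0 => by rw [h2, h0] at h3; simp at h3
  have h5 : p = 2 ∨ p = 3 := by
    have := Nat.le_of_dvd (by omega) h4
    have := hp.two_le
    have : p ≠ 4 := by rintro rfl; exact absurd hp (by norm_num)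
    omega
  refine ⟨?_, by omega, h5⟩
  obtain ⟨e, h⟩ : ∃ e : MonoidAlgebra (H8.resField M) G, H9.FrD p B D e := by
    by_cases hc : IsCyclic D
    · obtain ⟨e, h⟩ := H9.exists_abD hB hD (H9.le_centralizer_of_cyc hc)
      exact ⟨e, h.frD_of_cyc hc⟩
    have h6 : Nat.card D = 4 := by
      by_contra h6
      haveI : Fact (Nat.card D).Prime := ⟨by
        have : Nat.card D = 2 ∨ Nat.card D = 3 := by omega
        rcases this with h | h <;> rw [h] <;> norm_num⟩
      exact hc (isCyclic_of_prime_card rfl)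
    obtain rfl : p = 2 := h5.resolve_right (by rintro rfl; omega)
    have hK : IsKleinFour D := ⟨h6, (not_isCyclic_iff_exponent_eq_prime Nat.prime_two h6).1 hc⟩
    obtain ⟨e, h⟩ := H9.exists_abD hB hD fun a ha b hb =>
      congrArg Subtype.val (IsKleinFour.isMulCommutative.is_comm.comm (⟨b, hb⟩ : D) ⟨a, ha⟩)
    exact ⟨e, h.frD_of_klein hK⟩
  rw [H9.isNilpotentBlock_iff, h.max.isNil_iff_of_ab h.ab, ← Subgroup.relIndex_eq_one]
  have h7 := h.card_mul
  have h8 := Nat.pos_of_ne_zero (H9.iidx_ne_zero D e)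
  rw [hl, h1, ← h2] at h7
  exact ⟨hB, show H9.iidx D e = 1 by nlinarith⟩

end Cfsg.Agent.S4648
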