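import Cfsg.Statements.S4649
import Mathlib
import Cfsg.Agent.H9.Nak3

set_option autoImplicit false
open Cfsg

namespace Cfsg.Agent.S4649

/-- A block with cyclic defect group, of a finite group relative to a maximal ideal M of the algebraic integers containing the prime p, is nilpotent if and only if its p-regular rank is 1 (it has a unique irreducible Brauer character). -/
theorem result {G : Type*} [Group G] [Finite G] (p : ℕ) [Fact p.Prime] (M : Ideal Cfsg.AlgInt) (hM : Cfsg.IsPModular p M) (B : Set (Cfsg.IrrCharacter G)) (hB : Cfsg.IsPBlock M B) (P : Subgroup G) (hPD : Cfsg.IsDefectGroup p M B P) (hcyc : IsCyclic P) : Cfsg.IsNilpotentBlock p M B ↔ Cfsg.blockRank p B = 1 := by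
  haveI := hM.2.1
  haveI : H9.PMod M p := ⟨hM⟩
  have hab := H9.le_centralizer_of_cyc hcyc
  obtain ⟨e, h⟩ := H9.exists_abD hB hPD hab
  rw [H9.isNilpotentBlock_iff, and_iff_right hB, h.max.isNil_iff_of_ab hab]
  refine ⟨fun hT => (h.uni hT).rank, fun hl => ?_⟩
  by_cases h1 : P = ⊥
  · intro x _ y hy
    rw [Subgroup.mem_bot.1 (h1 ▸ hy : y ∈ (⊥ : Subgroup G)), one_mul, mul_one]
  · rw [h.rank_of_cyc hcyc h1] at hl
    exact Subgroup.relIndex_eq_one.1 hl

end Cfsg.Agent.S4649
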