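import Cfsg.Statements.S4650
import Mathlib
import Cfsg.Agent.H9.Root

set_option autoImplicit false
open Cfsg

namespace Cfsg.Agent.S4650

/-- Let B be a block of the finite group G relative to a maximal ideal M of the algebraic integers containing the prime p, with a nontrivial commutative defect group P; let c be a block of C_G(P) inducing B and T the stabilizer of c in N_G(P). Then T/C_G(P) acts freely on the non-identity elements of P (an element of T fixing a non-identity element of P under conjugation lies in C_G(P)) if and only if, for every nontrivial subgroup Q of P, the block of C_G(Q) induced by c inside C_G(Q) is a nilpotent block of C_G(Q). -/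
theorem result {G : Type*} [Group G] [Finite G] (p : ℕ) [Fact p.Prime] (M : Ideal Cfsg.AlgInt) (hM : Cfsg.IsPModular p M) (B : Set (Cfsg.IrrCharacter G)) (hB : Cfsg.IsPBlock M B) (P : Subgroup G) (hPD : Cfsg.IsDefectGroup p M B P) (hPab : ∀ x ∈ P, ∀ y ∈ P, x * y = y * x) (hP1 : P ≠ ⊥) (c : Set (Cfsg.IrrCharacter (Subgroup.centralizer (P : Set G)))) (hc : Cfsg.IsInducedBlock M (Subgroup.centralizer (P : Set G)) c B) (T : Subgroup G) (hT : ∀ g : G, g ∈ T ↔ (g ∈ Subgroup.normalizer (P : Set G) ∧ Cfsg.StabilizesBlock (Subgroup.centralizer (P : Set G)) c g)) : (∀ g ∈ T, ∀ x ∈ P, x ≠ 1 → g * x * g⁻¹ = x → g ∈ Subgroup.centralizer (P : Set G)) ↔ ∀ Q : Subgroup G, Q ≤ P → Q ≠ ⊥ → ∀ f : Set (Cfsg.IrrCharacter (Subgroup.centralizer (Q : Set G))), Cfsg.IsInducedBlockIn M (Subgroup.centralizer (Q : Set G)) (Subgroup.centralizer (P : Set G)) c f → Cfsg.IsNilpotentBlock p M f := by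
  haveI := hM.2.1
  haveI : H9.PMod M p := ⟨hM⟩
  have hm := H9.maxPair_of_induced hPD hc
  have hc' := hc.1
  obtain rfl := H9.eq_pstab hc' hT
  have hPC : ∀ Q ≤ P, P ≤ Subgroup.centralizer (Q : Set G) := fun Q hQ x hx y hy =>
    hPab y (hQ hy) x hx
  have loc : ∀ Q ≤ P, ∀ f, H9.SubLE p ⊤ Q f P (H9.eI M c) →
      (H9.IsNil p (⊤ ⊓ Subgroup.centralizer (Q : Set G)) f ↔
        H9.pstab ⊤ P (H9.eI M c) ⊓ Subgroup.centralizer (Q : Set G) ≤
          Subgroup.centralizer (P : Set G)) := by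
    intro Q hQ f hf
    have hp := hm.pairOf hf
    have hC : ⊤ ⊓ Subgroup.centralizer (Q : Set G) ⊓ Subgroup.centralizer (P : Set G) =
        ⊤ ⊓ Subgroup.centralizer (P : Set G) := by
      rw [inf_assoc, inf_eq_right.2 (Subgroup.centralizer_le (SetLike.coe_subset_coe.2 hQ))]
    have hn := hf.nsub hm.pair.1 ((hPC Q hQ).trans (Subgroup.centralizer_le_normalizer _))
    have hPl : P ≤ ⊤ ⊓ Subgroup.centralizer (Q : Set G) := le_inf le_top (hPC Q hQ)
    obtain ⟨D, hD, hPD⟩ := hm.exists_def_ge hf le_rfl hp.1.centralizer_le_pstab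
    rw [inf_eq_left.2 hPl] at hPD
    obtain ⟨t, -, -, h1, -⟩ := hm.exists_conj_def le_top hp hp.1.centralizer_le_pstab hD
    have h2 : P = D := H9.eq_of_le_of_card_le hPD (by
      rw [← H9.card_cg t D, ← h1]; exact Subgroup.card_le_of_le inf_le_left)
    subst h2
    have hm' : H9.MaxPair p (⊤ ⊓ Subgroup.centralizer (Q : Set G)) f P (H9.eI M c) :=
      ⟨hp.1.blk, hD, ⟨hPl.trans Subgroup.le_normalizer, hm.isP, hC ▸ hm.pair.1.blk⟩, hn.2.2.2.2.2⟩
    rw [hm'.isNil_iff_of_ab (hPC P le_rfl)]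
    have : H9.pstab (⊤ ⊓ Subgroup.centralizer (Q : Set G)) P (H9.eI M c) =
        H9.pstab ⊤ P (H9.eI M c) ⊓ Subgroup.centralizer (Q : Set G) := by
      ext x; simp only [H9.mem_pstab, Subgroup.mem_inf]; tauto
    rw [this]
  constructor
  · intro h Q hQ h0 f hf
    obtain ⟨-, hf', hle⟩ := (H9.isInducedBlockIn_centralizer_iff hm.isP hQ (hPC Q hQ)).1 hf
    refine H9.isNilpotentBlock_iff_sub.2 ⟨hf', ?_⟩
    have := (loc Q hQ _ hle).2 fun g hg => by
      obtain ⟨x, hx, hx1⟩ := (Subgroup.bot_or_exists_ne_one Q).resolve_left h0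
      exact h g hg.1 x (hQ hx) hx1 (by rw [← hg.2 x hx]; simp)
    rwa [top_inf_eq] at this
  · intro h g hg x hx hx1 hgx
    have hQ : Subgroup.zpowers x ≤ P := Subgroup.zpowers_le.2 hx
    obtain ⟨f, hf⟩ := H9.exists_subLE hm.pair.1 hQ
    obtain ⟨f, hf', rfl⟩ := H9.exists_eI_of_isPair (hf.isPair_left hm.pair.1)
    have h1 := (H9.isNilpotentBlock_iff_sub.1 (h _ hQ (by simpa using hx1) f
      ((H9.isInducedBlockIn_centralizer_iff hm.isP hQ (hPC _ hQ)).2 ⟨hc', hf', hf⟩))).2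
    refine (loc _ hQ _ hf).1 (by rwa [top_inf_eq]) ⟨hg, ?_⟩
    rw [H8.centralizer_zpowers]
    exact Subgroup.mem_centralizer_singleton_iff.2 (mul_inv_eq_iff_eq_mul.1 hgx)

end Cfsg.Agent.S4650
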