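import Cfsg.Statements.S4651
import Mathlib
import Cfsg.Agent.H8.Chain

set_option autoImplicit false
open Cfsg

namespace Cfsg.Agent.S4651

/-- An alternating-sum identity over chains of p-subgroups (the character-count form behind the chain reformulation of Alperin's weight conjecture, which holds unconditionally for the difference k − l). Let b be a block of the finite group G relative to a maximal ideal M of the algebraic integers containing the prime p. Consider the nonempty chains s = {Q_0 < Q_1 < ⋯ < Q_m} of nontrivial p-subgroups of G in which every member is normal in the largest member; let N_G(s) be the intersection of the normalizers of the members (the stabilizer of the chain), and let b_s be the set of irreducible characters of N_G(s) lying in blocks of N_G(s) that induce b. Then #G · (k(b) − l(b)) equals the sum over all such chains s of (−1)^m · #N_G(s) · (k(b_s) − l(b_s)), where k counts irreducible characters and l is the p-regular rank; equivalently,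 k(b) − l(b) is the alternating sum of k(b_s) − l(b_s) over representatives of the conjugacy classes of such chains. -/
theorem result {G : Type*} [Group G] [Finite G] (p : ℕ) [Fact p.Prime] (M : Ideal Cfsg.AlgInt) (hM : Cfsg.IsPModular p M) (b : Set (Cfsg.IrrCharacter G)) (hb : Cfsg.IsPBlock M b) : (Nat.card G : ℤ) * ((Nat.card b : ℤ) - (Cfsg.blockRank p b : ℤ)) = ∑ᶠ s ∈ {s : Finset (Subgroup G) | s.Nonempty ∧ (∀ Q ∈ s, ∀ R ∈ s, Q ≤ R ∨ R ≤ Q) ∧ (∀ Q ∈ s, Q ≠ ⊥ ∧ IsPGroup p Q) ∧ ∃ T ∈ s, ∀ Q ∈ s, Q ≤ T ∧ T ≤ Subgroup.normalizer ((Q : Subgroup G) : Set G)}, (-1 : ℤ) ^ (s.card - 1) * (Nat.card (((⨅ Q ∈ s, Subgroup.normalizer ((Q : Subgroup G) : Set G) : Subgroup G))) : ℤ) * ((Nat.card {ψ : Cfsg.IrrCharacter (((⨅ Q ∈ s, Subgroup.normalizer ((Q : Subgroup G) : Set G) : Subgroup G))) | ∃ β : Set (Cfsg.IrrCharacter (((⨅ Q ∈ s, Subgroup.normalizer ((Q : Subgroup G) : Set G) : Subgroup G)))), ψ ∈ β ∧ Cfsg.IsInducedBlock M (((⨅ Q ∈ s, Subgroup.normalizer ((Q : Subgroup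 G) : Set G) : Subgroup G))) β b} : ℤ) - (Cfsg.blockRank p {ψ : Cfsg.IrrCharacter (((⨅ Q ∈ s, Subgroup.normalizer ((Q : Subgroup G) : Set G) : Subgroup G))) | ∃ β : Set (Cfsg.IrrCharacter (((⨅ Q ∈ s, Subgroup.normalizer ((Q : Subgroup G) : Set G) : Subgroup G)))), ψ ∈ β ∧ Cfsg.IsInducedBlock M (((⨅ Q ∈ s, Subgroup.normalizer ((Q : Subgroup G) : Set G) : Subgroup G))) β b} : ℤ)) := by
  open H8 H9 in
  classical
  have := hM.2.1
  haveI : H9.PMod M p := ⟨hM⟩
  haveI := Fintype.ofFinite G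
  haveI : Fintype (Subgroup G) := Fintype.ofFinite _
  have hz := eB_mem_Zen (M := M) b
  have h0 := sum_chains_lset hz (Finset.univ.filter fun s => Ch p s) (by simp)
  have hemp : Ch p (∅ : Finset (Subgroup G)) := ⟨by simp, by simp, by simp, by simp⟩
  rw [← Finset.add_sum_erase _ _ (a := ∅) (by simpa using hemp)] at h0
  have e1 : lset M (eB M b) = b := by
    ext χ
    simp only [lset, Set.mem_ofPred_eq, H8.lam_eB (isBlockUnion_of_block hb)]
    split_ifs with h <;> simpa using h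
  have h1 := card_mul_card_lset (p := p) (ι := MonoidHom.id G) Function.injective_id hz
    (z' := eB M b) fun _ => rfl
  have h2 := card_mul_card_lset (p := p) (chN (∅ : Finset (Subgroup G))).subtype_injective hz
    (z' := resSub _ _ (eB M b)) fun _ => rfl
  rw [show (chN (∅ : Finset (Subgroup G))).subtype.range = (MonoidHom.id G).range by
    ext; simp, ← h1, e1] at h2
  rw [h2, Finset.card_empty, pow_zero, one_mul, add_eq_zero_iff_eq_neg,
    ← Finset.sum_neg_distrib] at h0
  rw [finsum_mem_eq_finite_toFinset_sum _ (Set.toFinite _), h0]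
  have hiff : ∀ s : Finset (Subgroup G), s ∈ (Finset.univ.filter fun s => Ch p s).erase ∅ ↔
      s.Nonempty ∧ (∀ Q ∈ s, ∀ R ∈ s, Q ≤ R ∨ R ≤ Q) ∧ (∀ Q ∈ s, Q ≠ ⊥ ∧ IsPGroup p Q) ∧
        ∃ T ∈ s, ∀ Q ∈ s, Q ≤ T ∧ T ≤ Subgroup.normalizer ((Q : Subgroup G) : Set G) := fun s => by
    simp only [Finset.mem_erase, Finset.mem_filter, Finset.mem_univ, true_and,
      ← Finset.nonempty_iff_ne_empty]
    refine and_congr_right fun hs => ⟨fun h => ⟨h.tot, fun Q hQ => ⟨h.ne Q hQ, h.isP Q hQ⟩,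
      _, h.sup_mem hs, fun Q hQ => ⟨Finset.le_sup (f := id) hQ, h.nor Q hQ _ (h.sup_mem hs)⟩⟩,
      fun ⟨h1, h2, T, _, h3⟩ => ⟨h1, fun Q hQ => (h2 Q hQ).1, fun Q hQ => (h2 Q hQ).2,
        fun Q hQ R hR => (h3 R hR).1.trans (h3 Q hQ).2⟩⟩
  refine Finset.sum_congr (Finset.ext fun s => by
    rw [hiff, Set.Finite.mem_toFinset, Set.mem_ofPred_eq]) fun s hs => ?_
  rw [Set.Finite.mem_toFinset, Set.mem_ofPred_eq, ← hiff] at hs
  obtain ⟨hne, hs⟩ := Finset.mem_erase.1 hs
  have hs : Ch p s := (Finset.mem_filter.1 hs).2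
  have hne := Finset.nonempty_iff_ne_empty.2 hne
  have e2 : {ψ : IrrCharacter (chN s) | ∃ β, ψ ∈ β ∧ IsInducedBlock M (chN s) β b} =
      lset M (resSub _ (chN s) (eB M b)) := by
    ext ψ
    refine Iff.trans ?_ (mem_indSet_iff (inducedBlockDefined hM hs.isP_sup
      (fun g hg => mem_chN.2 fun Q hQ => hs.nor Q hQ _ (hs.sup_mem hne) hg)
      (fun g hg => mem_chN.2 fun Q hQ => Subgroup.centralizer_le_normalizer _
        (Subgroup.centralizer_le (show Q ≤ s.sup id from Finset.le_sup (f := id) hQ) hg))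
      (fun g hg => mem_chN.1 hg _ (hs.sup_mem hne)) (isPBlock_blockOf ψ)) hb).symm
    exact ⟨fun ⟨β, h1, h2⟩ => block_eq_blockOf h2.1 h1 ▸ h2, fun h => ⟨_, mem_blockOf_self ψ, h⟩⟩
  obtain ⟨n, hn⟩ := Nat.exists_eq_succ_of_ne_zero hne.card_ne_zero
  rw [← e2, hn, Nat.succ_sub_one, pow_succ]
  ring

end Cfsg.Agent.S4651
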