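import Cfsg.Statements.S4654
import Mathlib
import Cfsg.Agent.H9.Root
import Cfsg.Agent.H6.Induce

set_option autoImplicit false
open Cfsg

namespace Cfsg.Agent.S4654

/-- Fix a prime p and a maximal ideal M of the algebraic integers containing p. Let P be a normal p-subgroup of the finite group G, B a p-block of G and e a p-block of C_G(P) such that (P, e) is a Brauer pair of B (as P is normal, this says that e occurs in the idempotent of B, which is supported on C_G(P)). Let T be the stabilizer of e in G under conjugation. Then the idempotent of e is a block idempotent of T: some block E of T has, at every element of T, the same idempotent coefficient as e (zero off C_G(P)); and the idempotent of B is the sum of the distinct G-conjugates of the idempotent of e: its coefficient at g is the sum over all x in G of the coefficient of e at x⁻¹ g x, divided by the order of T. -/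
theorem result {G : Type*} [Group G] [Fintype G] (p : ℕ) [Fact p.Prime] (M : Ideal Cfsg.AlgInt) (hM : Cfsg.IsPModular p M) (P : Subgroup G) [P.Normal] (hP : IsPGroup p P) (B : Set (Cfsg.IrrCharacter G)) (e : Set (Cfsg.IrrCharacter (Subgroup.centralizer (P : Set G)))) (hBe : Cfsg.IsBrauerPairOf p M B P e) (T : Subgroup G) (hT : ∀ x : G, x ∈ T ↔ Cfsg.StabilizesBlock (Subgroup.centralizer (P : Set G)) e x) : (∃ E : Set (Cfsg.IrrCharacter T), Cfsg.IsPBlock M E ∧ ∀ t : T, Cfsg.blockCoeff E t = Cfsg.subgroupBlockCoeff (Subgroup.centralizer (P : Set G)) e (t : G)) ∧ ∀ g : G, Cfsg.blockCoeff B g = (Nat.card T : ℂ)⁻¹ * ∑ x : G, Cfsg.subgroupBlockCoeff (Subgroup.centralizer (P : Set G)) e (x⁻¹ * g * x) := by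
  haveI := hM.2.1
  haveI : H9.PMod M p := ⟨hM⟩
  classical
  obtain ⟨hB, he, hp⟩ := H9.isBrauerPairOf_iff.1 hBe
  have hN := H9.top_le_normalizer_of_normal P
  have hT' : ∀ x, x ∈ T ↔ H9.cj x (H9.eI M e) = H9.eI M e := fun x => by
    rw [hT, H9.stab_centralizer_iff he (hN trivial)]
  have hee := H9.isBlk_eI he
  have he' := H8.isBlockUnion_of_block he
  have hB' := H8.isBlockUnion_of_block hB
  constructor
  · obtain ⟨E, hE, -, h⟩ := H9.exists_block_of_pair (T := T) hP he
      (fun x hx => (hT' x).2 (hp.1.cj_self hx)) (fun x hx => (hT' x).2 (hee.inv hx))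
      fun x hx => H9.mem_pstab.2 ⟨trivial, hN trivial, (hT' x).1 hx⟩
    exact ⟨E, hE, h⟩
  have hNC := hN.trans (H9.normalizer_le_normalizer_centralizer P)
  have hcg : ∀ x, H9.cg x (Subgroup.centralizer (P : Set G)) = _ := fun x =>
    H9.mem_normalizer_iff_cg.1 (hNC (Subgroup.mem_top x))
  have hBB := H9.isBlk_eB hB
  have hs := H9.supp_centralizer_of_idem hP le_top hN hBB.mem hBB.idem
  have h1 := hp.2
  rw [H9.br, H9.trunc_eq_self hs] at h1
  have h2 := ((H9.isBlk_iff_isPrim hP le_top hN (K := Subgroup.centralizer (P : Set G))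
    inf_le_right le_top).1 hBB).eq_orbitSum le_rfl le_top hNC hNC hee
    (by rw [h1]; exact hee.ne_zero)
  have hf : ∀ x, H9.cj x (H9.fI M e) ∈ H9.fix (Subgroup.centralizer (P : Set G))
      (Subgroup.centralizer (P : Set G)) := fun x => by
    have := H9.cj_mem_fix (H9.fI_mem_fix (M := M) e) x
    rwa [hcg] at this
  have hid : ∀ x, H9.cj x (H9.fI M e) * H9.cj x (H9.fI M e) = H9.cj x (H9.fI M e) := fun x => by
    rw [← map_mul, H9.fI_mul_self he']
  have hred : ∀ x, H8.red M (H9.cj x (H9.fI M e)) = H9.cj x (H9.eI M e) := fun x => by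
    rw [H9.mapRingHom_cj, H9.red_fI]
  have hfT : ∀ t ∈ T, H9.cj t (H9.fI M e) = H9.fI M e := fun t ht =>
    H9.lift_idem_unique (hid t) (H9.fI_mul_self he')
      (H9.fix_comm le_rfl (hf t) (H9.fI_mem_fix e)) (by rw [hred, H9.red_fI, (hT' t).1 ht])
  have hinj : ∀ δ ε : G ⧸ T, H9.cj δ.out (H9.eI M e) = H9.cj ε.out (H9.eI M e) → δ = ε := by
    intro δ ε h
    rw [← δ.out_eq', ← ε.out_eq', QuotientGroup.eq, hT', ← H9.cj_cj, ← h, H9.cj_inv_cj]
  have hblk : ∀ x, H9.IsBlk (Subgroup.centralizer (P : Set G)) (H9.cj x (H9.eI M e)) := fun x => by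
    have := hee.cj x
    rwa [hcg] at this
  have horth : ∀ δ ε : G ⧸ T, δ ≠ ε → H9.cj δ.out (H9.fI M e) * H9.cj ε.out (H9.fI M e) = 0 := by
    intro δ ε h
    refine H9.lift_idem_eq_zero ?_ ?_
    · rw [mul_assoc, ← mul_assoc (H9.cj ε.out _), H9.fix_comm le_rfl (hf ε.out) (hf δ.out),
        ← mul_assoc, ← mul_assoc, hid, mul_assoc, hid]
    · rw [map_mul, hred, hred]
      exact (hblk _).mul_eq_zero le_rfl (hblk _) fun h0 => h (hinj _ _ h0)
  have h3 : H8.fB M B = ∑ δ : G ⧸ T, H9.cj δ.out (H9.fI M e) := by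
    refine H9.lift_idem_unique (H8.fB_mul_self hB') ?_ (H8.Zen_comm (H8.fB_mem_Zen B) _) ?_
    · rw [Finset.sum_mul_sum]
      refine Finset.sum_congr rfl fun δ _ => ?_
      rw [Finset.sum_eq_single δ (fun ε _ h => horth _ _ h.symm) (by simp), hid]
    · rw [H8.red_fB, h2, map_sum]
      simp only [hred]
      symm
      refine Finset.sum_bij (fun δ _ => H9.cj δ.out (H9.eI M e))
        (fun δ _ => H9.mem_cjOrbit.2 ⟨_, trivial, rfl⟩) (fun δ _ ε _ h => hinj δ ε h) ?_
        fun _ _ => rfl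
      intro a ha
      obtain ⟨t, -, rfl⟩ := H9.mem_cjOrbit.1 ha
      obtain ⟨s, hs⟩ := QuotientGroup.mk_out_eq_mul T t
      exact ⟨(t : G ⧸ T), Finset.mem_univ _, by rw [hs, ← H9.cj_cj, (hT' s).1 s.2]⟩
  intro g
  rw [← H9.coeff_fB hB', h3, H9.coeff_sum_apply, H6.sum_eq_card_smul_sum_quotient T, nsmul_eq_mul, ← mul_assoc,
    inv_mul_cancel₀ (Nat.cast_ne_zero.2 Nat.card_pos.ne'), one_mul]
  · push_cast
    exact Finset.sum_congr rfl fun δ _ => by rw [H9.coeff_cj, H9.coeff_fI he']
  · intro x t ht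
    rw [← H9.coeff_fI he', ← H9.coeff_fI he', ← H9.coeff_cj, ← H9.coeff_cj, ← H9.cj_cj, hfT t ht]

end Cfsg.Agent.S4654
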