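import Cfsg.Statements.S4657
import Mathlib
import Cfsg.Agent.H9.Dict2

set_option autoImplicit false
open Cfsg

namespace Cfsg.Agent.S4657

/-- Fix a prime p and a maximal ideal M of the algebraic integers containing p. Every Brauer pair (P, e) of the finite group G is a Brauer pair of exactly one p-block B of G. -/
theorem result {G : Type*} [Group G] [Fintype G] (p : ℕ) [Fact p.Prime] (M : Ideal Cfsg.AlgInt) (hM : Cfsg.IsPModular p M) (P : Subgroup G) (e : Set (Cfsg.IrrCharacter (Subgroup.centralizer (P : Set G)))) (hPe : Cfsg.IsBrauerPair p M P e) : ∃! B : Set (Cfsg.IrrCharacter G), Cfsg.IsBrauerPairOf p M B P e := by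
  haveI := hM.2.1
  haveI : H9.PMod M p := ⟨hM⟩
  obtain ⟨he, hP⟩ := H9.isBrauerPair_iff.1 hPe
  obtain ⟨b, ⟨hb, hb'⟩, hu⟩ := H9.existsUnique_isPairOf (T := ⊤) le_rfl le_top hP
  obtain ⟨B, hB, rfl⟩ := H9.exists_eB hb
  refine ⟨B, H9.isBrauerPairOf_iff.2 ⟨hB, he, hb'⟩, fun C hC => ?_⟩
  have := H9.isBrauerPairOf_iff.1 hC
  exact (H9.eB_inj this.1 hB).1 (hu _ ⟨H9.isBlk_eB this.1, this.2.2⟩)

end Cfsg.Agent.S4657
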