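import Cfsg.Statements.S4658
import Mathlib
import Cfsg.Agent.H9.Dict2

set_option autoImplicit false
open Cfsg

namespace Cfsg.Agent.S4658

/-- Fix a prime p and a maximal ideal M of the algebraic integers containing p. Let (Q, f) ≤ (P, e) be Brauer pairs of the finite group G and B a p-block of G. Then (P, e) is a Brauer pair of B if and only if (Q, f) is. -/
theorem result {G : Type*} [Group G] [Fintype G] (p : ℕ) [Fact p.Prime] (M : Ideal Cfsg.AlgInt) (hM : Cfsg.IsPModular p M) (P Q : Subgroup G) (e : Set (Cfsg.IrrCharacter (Subgroup.centralizer (P : Set G)))) (f : Set (Cfsg.IrrCharacter (Subgroup.centralizer (Q : Set G)))) (hPe : Cfsg.IsBrauerPair p M P e) (hQf : Cfsg.IsBrauerPair p M Q f) (hle : Cfsg.SubpairLE p M Q f P e) (B : Set (Cfsg.IrrCharacter G)) (hB : Cfsg.IsPBlock M B) : Cfsg.IsBrauerPairOf p M B P e ↔ Cfsg.IsBrauerPairOf p M B Q f := by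
  haveI := hM.2.1
  haveI : H9.PMod M p := ⟨hM⟩
  obtain ⟨he, hP⟩ := H9.isBrauerPair_iff.1 hPe
  rw [H9.isBrauerPairOf_iff, H9.isBrauerPairOf_iff,
    (H9.subLE_of_subpairLE hle).1.isPairOf_iff le_rfl hP (H9.eB_mem_fix B) (H9.isBlk_eB hB).idem
      le_top]
  simp [he, hQf.2]

end Cfsg.Agent.S4658
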