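import Cfsg.Statements.S4662
import Mathlib
import Cfsg.Agent.H9.Dict3

set_option autoImplicit false
open Cfsg

namespace Cfsg.Agent.S4662

/-- Fix a prime p and a maximal ideal M of the algebraic integers containing p. Let (P, e) be a maximal Brauer pair of the p-block B of the finite group G, Q ≤ P, and f the p-block of C_G(Q) with (Q, f) ≤ (P, e). Let T be the stabilizer of f in N_G(Q). Then the idempotent of f is a block idempotent of T, and N_P(Q) is contained in a defect group of that block of T; moreover for some x in G the conjugate pair (x Q x⁻¹, conjugate of f) again lies below (P, e) and, with T' the stabilizer of the conjugate of f in N_G(x Q x⁻¹), N_P(x Q x⁻¹) is a defect group of the block of T' whose idempotent is that of the conjugate of f. -/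
theorem result {G : Type*} [Group G] [Fintype G] (p : ℕ) [Fact p.Prime] (M : Ideal Cfsg.AlgInt) (hM : Cfsg.IsPModular p M) (B : Set (Cfsg.IrrCharacter G)) (P Q : Subgroup G) (e : Set (Cfsg.IrrCharacter (Subgroup.centralizer (P : Set G)))) (f : Set (Cfsg.IrrCharacter (Subgroup.centralizer (Q : Set G)))) (hmax : Cfsg.IsMaximalBrauerPair p M B P e) (hQP : Q ≤ P) (hf : Cfsg.IsPBlock M f) (hle : Cfsg.SubpairLE p M Q f P e) (T : Subgroup G) (hT : ∀ y : G, y ∈ T ↔ y ∈ Subgroup.normalizer (Q : Set G) ∧ Cfsg.StabilizesBlock (Subgroup.centralizer (Q : Set G)) f y) : (∃ F : Set (Cfsg.IrrCharacter T), Cfsg.IsPBlock M F ∧ (∀ t : T, Cfsg.blockCoeff F t = Cfsg.subgroupBlockCoeff (Subgroup.centralizer (Q : Set G)) f (t : G)) ∧ ∃ D : Subgroup T, Cfsg.IsDefectGroup p M F D ∧ (P ⊓ Subgroup.normalizer (Q : Set G)).subgroupOf T ≤ D) ∧ ∃ x : G, Cfsg.SubpairLE p M (Q.map (MulAut.conj x).toMonoidHom) (Cfsg.conjBlock Q x f) P e ∧ ∀ (T' : Subgroup G), (∀ y : G, y ∈ T' ↔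 y ∈ Subgroup.normalizer ((Q.map (MulAut.conj x).toMonoidHom) : Set G) ∧ Cfsg.StabilizesBlock (Subgroup.centralizer ((Q.map (MulAut.conj x).toMonoidHom) : Set G)) (Cfsg.conjBlock Q x f) y) → ∃ F' : Set (Cfsg.IrrCharacter T'), Cfsg.IsPBlock M F' ∧ (∀ t : T', Cfsg.blockCoeff F' t = Cfsg.subgroupBlockCoeff (Subgroup.centralizer ((Q.map (MulAut.conj x).toMonoidHom) : Set G)) (Cfsg.conjBlock Q x f) (t : G)) ∧ Cfsg.IsDefectGroup p M F' ((P ⊓ Subgroup.normalizer ((Q.map (MulAut.conj x).toMonoidHom) : Set G)).subgroupOf T') := by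
  haveI := hM.2.1
  haveI : H9.PMod M p := ⟨hM⟩
  obtain ⟨hB, he, hm⟩ := H9.maxPair_iff.1 hmax
  have hle' := (H9.subLE_of_subpairLE hle).1
  have hp := hm.pairOf hle'
  obtain rfl := H9.eq_pstab hf hT
  obtain ⟨D, hD, hPD⟩ := hm.exists_def_ge hle' hp.1.centralizer_le_pstab le_rfl
  obtain ⟨t, -, h1, -, h2⟩ := hm.exists_conj_def le_top hp le_rfl hD
  rw [hle'.inf_pstab hm.pair.1 le_top] at hPD
  refine ⟨?_, t, (H9.subpairLE_iff he).2 ⟨H9.isPBlock_conjBlock t hf, by
      rwa [H9.eI_conjBlock]⟩, fun T' hT' => ?_⟩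
  · obtain ⟨E, hE, h3, h4⟩ := H9.exists_block_of_pair hp.1.isP hf (hp.1.le_pstab le_top)
      (le_trans (by simp) hp.1.centralizer_le_pstab) le_rfl
    exact ⟨E, hE, h4, D.subgroupOf _, (H9.isDefectGroup_subgroupOf hE hD.le).2 (by simpa only [h3] using hD),
      Subgroup.comap_mono hPD⟩
  · have hf' := H9.isPBlock_conjBlock t hf
    obtain rfl := H9.eq_pstab hf' hT'
    rw [H9.cg_pstab, H9.cg_top, h1.inf_pstab hm.pair.1 le_top, ← H9.eI_conjBlock] at h2
    rw [← H9.eI_conjBlock] at h1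
    have hp' := hm.pairOf h1
    obtain ⟨E, hE, h3, h4⟩ := H9.exists_block_of_pair hp'.1.isP hf' (hp'.1.le_pstab le_top)
      (le_trans (by simp) hp'.1.centralizer_le_pstab) le_rfl
    exact ⟨E, hE, h4, (H9.isDefectGroup_subgroupOf hE h2.le).2 (by simpa only [h3] using h2)⟩

end Cfsg.Agent.S4662
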