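import Cfsg.Statements.S4664
import Mathlib
import Cfsg.Agent.H9.Misc

set_option autoImplicit false
open Cfsg

namespace Cfsg.Agent.S4664

/-- Fix a prime p and a maximal ideal M of the algebraic integers containing p, and let B be a p-block of the finite group G. Let m be the p'-part of the order of G and η = exp(2πi/m). Then every coefficient of the idempotent of B lies in the cyclotomic field ℚ(η). -/
theorem result {G : Type*} [Group G] [Fintype G] (p : ℕ) [Fact p.Prime] (M : Ideal Cfsg.AlgInt) (hM : Cfsg.IsPModular p M) (B : Set (Cfsg.IrrCharacter G)) (hB : Cfsg.IsPBlock M B) (g : G) : Cfsg.blockCoeff B g ∈ IntermediateField.adjoin ℚ ({Complex.exp (2 * Real.pi * Complex.I / ((Nat.card G / p ^ (Nat.card G).factorization p : ℕ) : ℂ))} : Set ℂ) := by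
  haveI := hM.2.1
  by_cases hg : p ∣ orderOf g
  · rw [H8.blockCoeff_eq_zero_of_dvd hM (H8.isBlockUnion_of_block hB) hg]
    exact zero_mem _
  have h0 : Nat.card G ≠ 0 := Nat.card_pos.ne'
  have h1 : orderOf g ∣ Nat.card G / p ^ (Nat.card G).factorization p :=
    Nat.dvd_ordCompl_of_dvd_not_dvd (orderOf_dvd_natCard g) hg
  have h2 := (Nat.ordCompl_pos p h0).ne'
  have h3 := Complex.isPrimitiveRoot_exp _ h2
  have : NeZero (Nat.card G / p ^ (Nat.card G).factorization p) := ⟨h2⟩
  rw [blockCoeff, H9.finsum_bs]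
  refine mul_mem (inv_mem (natCast_mem _ _)) (sum_mem fun χ _ => ?_)
  obtain ⟨n, ε, h4, h5, h6⟩ := H6.isCharacter_exists_roots (H8.irr_isChar χ) g
  rw [← H8.irr_inv, ← zpow_neg_one, h6, h4]
  refine mul_mem (natCast_mem _ _) (sum_mem fun i _ => zpow_mem ?_ _)
  obtain ⟨k, hk⟩ := h1
  obtain ⟨j, -, hj⟩ := h3.eq_pow_of_pow_eq_one (ξ := ε i) (by rw [hk, pow_mul, h5, one_pow])
  exact hj ▸ pow_mem (IntermediateField.mem_adjoin_simple_self _ _) j

end Cfsg.Agent.S4664
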