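import Cfsg.Statements.S4665
import Mathlib
import Cfsg.Agent.H9.Contr

set_option autoImplicit false
open Cfsg

namespace Cfsg.Agent.S4665

/-- Fix a prime p, a maximal ideal M of the algebraic integers containing p, and a p-block B of the finite group G, and let p^a be the p-part of the order of G. Let χ be an integer combination of the irreducible characters in B. If the function that agrees with χ on p-regular elements and vanishes on p-singular elements is again an integer combination of the irreducible characters in B, then p^a divides χ(1). -/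
theorem result {G : Type*} [Group G] [Fintype G] (p : ℕ) [Fact p.Prime] (M : Ideal Cfsg.AlgInt) (hM : Cfsg.IsPModular p M) (B : Set (Cfsg.IrrCharacter G)) (hB : Cfsg.IsPBlock M B) (χ : G → ℂ) (hχ : (∃ n : Cfsg.IrrCharacter G → ℤ, ∀ g : G, χ g = ∑ᶠ ψ ∈ B, (n ψ : ℂ) * (ψ : G → ℂ) g)) (h0 : (∃ n : Cfsg.IrrCharacter G → ℤ, ∀ g : G, Cfsg.pRegularPart p χ g = ∑ᶠ ψ ∈ B, (n ψ : ℂ) * (ψ : G → ℂ) g)) : ∃ k : ℤ, χ 1 = (p ^ (Nat.card G).factorization p : ℂ) * k := by
  haveI := hM.2.1
  haveI : H9.PMod M p := ⟨hM⟩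
  classical
  obtain ⟨n, hn⟩ := h0
  have hg : IsGeneralizedCharacter G (pRegularPart p χ) := by
    have : pRegularPart p χ = ∑ ψ ∈ H9.bs B, (n ψ : ℂ) • (ψ : G → ℂ) := by
      funext g; rw [hn, H9.finsum_bs, Finset.sum_apply]; rfl
    rw [this]
    exact H6.isGen_sum _ fun ψ _ => H6.isGen_intCast_smul _ (H6.isGen_of_irr ψ.2)
  obtain ⟨P⟩ : Nonempty (Sylow p G) := inferInstance
  have h1 : ¬ p ∣ orderOf (1 : G) := by simpa using hM.1.one_lt.ne'
  have h2 := H8.div_card_mem_locRing (M := M) (H6.isClassFunction_of_isGen hg)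
    (fun y hy => H9.reg_of_dvd hy) (fun ψ => by
      obtain ⟨m, hm⟩ := H6.classInner_int hg (H6.isGen_of_irr ψ.2)
      rw [hm]; exact intCast_mem _ m) h1 (D := P) (fun x _ => by simp [Subgroup.mem_centralizer_iff])
      P.isPGroup'
  obtain ⟨m, hm⟩ := H6.isGen_degree hg
  rw [hm, P.card_eq_multiplicity, Nat.cast_pow, H9.int_div_pow_mem_iff] at h2
  obtain ⟨k, hk⟩ := h2
  refine ⟨k, ?_⟩
  rw [← H9.reg_of_not (θ := χ) h1, hm, hk]
  push_cast; rfl

end Cfsg.Agent.S4665
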