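import Cfsg.Statements.S4666
import Mathlib
import Cfsg.Agent.H9.Contr

set_option autoImplicit false
open Cfsg

namespace Cfsg.Agent.S4666

/-- Fix a prime p and a maximal ideal M of the algebraic integers containing p, and a p-block B of the finite group G of defect d. For every integer combination χ of the irreducible characters in B, p^d times the function that agrees with χ on p-regular elements and vanishes elsewhere is again an integer combination of the irreducible characters in B. -/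
theorem result {G : Type*} [Group G] [Fintype G] (p : ℕ) [Fact p.Prime] (M : Ideal Cfsg.AlgInt) (hM : Cfsg.IsPModular p M) (B : Set (Cfsg.IrrCharacter G)) (hB : Cfsg.IsPBlock M B) (χ : G → ℂ) (hχ : (∃ n : Cfsg.IrrCharacter G → ℤ, ∀ g : G, χ g = ∑ᶠ ψ ∈ B, (n ψ : ℂ) * (ψ : G → ℂ) g)) : (∃ n : Cfsg.IrrCharacter G → ℤ, ∀ g : G, (p ^ Cfsg.blockDefect p B : ℂ) * Cfsg.pRegularPart p χ g = ∑ᶠ ψ ∈ B, (n ψ : ℂ) * (ψ : G → ℂ) g) := by
  haveI := hM.2.1
  haveI : H9.PMod M p := ⟨hM⟩
  classical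
  obtain ⟨n, hn⟩ := hχ
  have e : χ = ∑ ψ ∈ H9.bs B, (n ψ : ℂ) • (ψ : G → ℂ) := by
    funext g; rw [hn, H9.finsum_bs, Finset.sum_apply]; rfl
  have hg : IsGeneralizedCharacter G χ := by
    rw [e]
    exact H6.isGen_sum _ fun ψ _ => H6.isGen_intCast_smul _ (H6.isGen_of_irr ψ.2)
  have hb : blockPart B χ = χ := by
    rw [e, H8.blockPart_sum]
    exact Finset.sum_congr rfl fun ψ hψ => by
      rw [H8.blockPart_smul, H8.blockPart_of_mem (H9.mem_bs.1 hψ)]
  refine ⟨fun ψ => H9.mZ p B ψ χ, fun g => ?_⟩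
  rw [H9.reg_eq_sum (H8.isBlockUnion_of_block hB) hb, H9.finsum_bs, Finset.sum_apply,
    Finset.mul_sum]
  refine Finset.sum_congr rfl fun ψ hψ => ?_
  rw [H9.mZ_spec (H9.mem_bs.1 hψ) hg, H9.rip_comm hg (H6.isGen_of_irr ψ.2), mul_assoc]
  rfl

end Cfsg.Agent.S4666
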