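import Cfsg.Statements.S4668
import Mathlib
import Cfsg.Agent.H9.Root
import Cfsg.Agent.H1.Coprime2

set_option autoImplicit false
open Cfsg

namespace Cfsg.Agent.S4668

/-- Fix a prime p and a maximal ideal M of the algebraic integers containing p. Let Q₀ < Q₁ < ⋯ < Q_m be a strictly increasing chain of p-subgroups of the finite group G and N the intersection of their normalizers. Then every block idempotent of N is supported on C_G(Q_m): for every p-block E of N, the idempotent coefficient of E vanishes at every element of N outside C_G(Q_m). -/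
theorem result {G : Type*} [Group G] [Fintype G] (p : ℕ) [Fact p.Prime] (M : Ideal Cfsg.AlgInt) (hM : Cfsg.IsPModular p M) (m : ℕ) (Q : Fin (m + 1) → Subgroup G) (hQ : StrictMono Q) (hQp : ∀ i, IsPGroup p (Q i)) (N : Subgroup G) (hN : ∀ g : G, g ∈ N ↔ ∀ i, g ∈ Subgroup.normalizer (Q i : Set G)) (E : Set (Cfsg.IrrCharacter N)) (hE : Cfsg.IsPBlock M E) (n : N) (hn : (n : G) ∉ Subgroup.centralizer (Q (Fin.last m) : Set G)) : Cfsg.blockCoeff E n = 0 := by
  haveI := hM.2.1
  haveI : H9.PMod M p := ⟨hM⟩
  have hEE := H9.isBlk_eI hE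
  have hle : ∀ i, Q i ≤ Q (Fin.last m) := fun i => hQ.monotone (Fin.le_last i)
  have hs := H9.supp_centralizer_of_idem (P := Q (Fin.last m) ⊓ N) ((hQp _).to_le inf_le_left)
    inf_le_right (fun x hx => by
      rw [H9.mem_normalizer_iff_cg, H9.cg_inf, H9.cg_eq_of_mem hx,
        H9.mem_normalizer_iff_cg.1 ((hN x).1 hx _)]) hEE.mem hEE.idem
  have key : H9.Supp (Subgroup.centralizer (Q (Fin.last m) : Set G)) (H9.eI M E) := by
    intro g hg
    by_contra h0
    apply hg
    have hgN := hEE.supp.mem h0
    have hreg := H9.not_dvd_of_idem hEE.mem hEE.idem h0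
    have hC := hs.mem h0
    have hz : ∀ {R : Subgroup G}, g ∈ Subgroup.centralizer (R : Set G) ↔
        Subgroup.zpowers g ≤ Subgroup.centralizer (R : Set G) := Subgroup.zpowers_le.symm
    have : ∀ i, g ∈ Subgroup.centralizer (Q i : Set G) := by
      intro i
      induction i using Fin.induction with
      | zero =>
        refine Subgroup.centralizer_le (SetLike.coe_subset_coe.2 (le_inf (hle 0) fun x hx => ?_)) hC
        exact (hN x).2 fun j => Subgroup.le_normalizer (hQ.monotone (Fin.zero_le j) hx)
      | succ i ih =>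
        have h1 : Q i.castSucc ≤ Q i.succ := (hQ Fin.castSucc_lt_succ).le
        refine hz.2 (H1.p_times_q p (Q i.castSucc) _ (Q i.succ) (hQp _) ?_ (hQp _)
          (Subgroup.le_centralizer_iff.1 (hz.1 ih)) (h1.trans Subgroup.le_normalizer)
          (Subgroup.zpowers_le.2 ((hN g).1 hgN _)) ?_)
        · rw [Nat.card_zpowers, Nat.coprime_comm, Nat.Prime.coprime_iff_not_dvd hM.1]; exact hreg
        · refine le_trans ?_ (Subgroup.le_centralizer_iff.1 (hz.1 hC))
          refine le_inf (inf_le_left.trans (hle _)) fun x hx => (hN x).2 fun j => ?_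
          rcases le_or_gt j i.castSucc with h | h
          · exact Subgroup.centralizer_le_normalizer _
              (Subgroup.centralizer_le (SetLike.coe_subset_coe.2 (hQ.monotone h)) hx.2)
          · exact Subgroup.le_normalizer (hQ.monotone (Fin.castSucc_lt_iff_succ_le.1 h) hx.1)
    exact this _
  refine H9.blockCoeff_eq_zero_of_supp (M := M)
    (K := (Subgroup.centralizer (Q (Fin.last m) : Set G)).subgroupOf N)
    (H8.isBlockUnion_of_block hE) (fun g hg => ?_) hn
  rw [← H9.coeff_em_sub]; exact key g hg

end Cfsg.Agent.S4668
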