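import Cfsg.Statements.S4670
import Mathlib
import Cfsg.Agent.H9.Root

set_option autoImplicit false
open Cfsg

namespace Cfsg.Agent.S4670

/-- Fix a prime p and a maximal ideal M of the algebraic integers containing p. Let P be a p-subgroup of the finite group G and H a subgroup containing N_G(P). For every p-block B of G with defect group P there is exactly one p-block c of H with defect group P whose idempotent agrees with that of B, modulo the local ideal at M, at every element of C_G(P) (their Brauer-map images at P coincide); and every p-block c of H with defect group P arises in this way from exactly one such B. This is the Brauer correspondence over H. -/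
theorem result {G : Type*} [Group G] [Fintype G] (p : ℕ) [Fact p.Prime] (M : Ideal Cfsg.AlgInt) (hM : Cfsg.IsPModular p M) (P H : Subgroup G) (hP : IsPGroup p P) (hH : Subgroup.normalizer (P : Set G) ≤ H) : (∀ B : Set (Cfsg.IrrCharacter G), Cfsg.IsPBlock M B → Cfsg.IsDefectGroup p M B P → ∃! c : Set (Cfsg.IrrCharacter H), Cfsg.IsPBlock M c ∧ Cfsg.IsDefectGroup p M c (P.subgroupOf H) ∧ ∀ x : G, x ∈ Subgroup.centralizer (P : Set G) → Cfsg.MemLocalIdeal M (Cfsg.blockCoeff B x - Cfsg.subgroupBlockCoeff H c x)) ∧ (∀ c : Set (Cfsg.IrrCharacter H), Cfsg.IsPBlock M c → Cfsg.IsDefectGroup p M c (P.subgroupOf H) → ∃! B : Set (Cfsg.IrrCharacter G), Cfsg.IsPBlock M B ∧ Cfsg.IsDefectGroup p M B P ∧ ∀ x : G, x ∈ Subgroup.centralizer (P : Set G) → Cfsg.MemLocalIdeal M (Cfsg.blockCoeff B x - Cfsg.subgroupBlockCoeff H c x)) := by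
  haveI := hM.2.1
  haveI : H9.PMod M p := ⟨hM⟩
  have hPH : P ≤ H := Subgroup.le_normalizer.trans hH
  have hN : ⊤ ⊓ Subgroup.normalizer (P : Set G) = H ⊓ Subgroup.normalizer (P : Set G) := by
    rw [top_inf_eq, inf_eq_right.2 hH]
  have key : ∀ (B : Set (IrrCharacter G)) (c : Set (IrrCharacter H)), IsPBlock M B → IsPBlock M c →
      ((∀ x : G, x ∈ Subgroup.centralizer (P : Set G) →
        MemLocalIdeal M (blockCoeff B x - subgroupBlockCoeff H c x)) ↔
      H9.br P (H8.eB M B) = H9.br P (H9.eI M c)) := by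
    intro B c hB hc
    have h1 : ∀ x, MemLocalIdeal M (blockCoeff B x - subgroupBlockCoeff H c x) ↔
        (H8.eB M B).coeff x = (H9.eI M c).coeff x := fun x => by
      rw [H8.memLocalIdeal_sub_iff (H8.blockCoeff_mem_locRing (H8.isBlockUnion_of_block hB) x)
        (H9.subgroupBlockCoeff_mem (H8.isBlockUnion_of_block hc) x), H8.coeff_eB, H9.coeff_eI]
    simp only [h1]
    constructor
    · intro h
      refine H9.ext_coeff fun g => ?_
      rw [H9.coeff_trunc, H9.coeff_trunc]
      split_ifs with hg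
      exacts [h g hg, rfl]
    · intro h x hx
      rw [← H9.coeff_trunc_of_mem _ hx, ← H9.coeff_trunc_of_mem (H9.eI M c) hx]
      exact congrArg (fun a => a.coeff x) h
  constructor
  · intro B hB hD
    obtain ⟨c, hc, h1, h2⟩ := ((H9.isDefectGroup_iff hB).1 hD).exists_br_eq hPH hN (H9.isBlk_eB hB)
    obtain ⟨c, hc', rfl⟩ := H9.exists_eI hc
    refine ⟨c, ⟨hc', (H9.isDefectGroup_subgroupOf hc' hPH).2 h1, (key B c hB hc').2 h2.symm⟩, ?_⟩
    rintro c' ⟨h3, -, h4⟩
    exact ((H9.eI_inj hc' h3).1 (h1.eq_of_br_eq hc (H9.isBlk_eI h3)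
      (h2.trans ((key B c' hB h3).1 h4)))).symm
  · intro c hc hD
    obtain ⟨B, hB, h1, h2⟩ := ((H9.isDefectGroup_subgroupOf hc hPH).1 hD).exists_br_eq le_top
      hN.symm (H9.isBlk_eI hc)
    obtain ⟨B, hB', rfl⟩ := H9.exists_eB hB
    refine ⟨B, ⟨hB', (H9.isDefectGroup_iff hB').2 h1, (key B c hB' hc).2 h2⟩, ?_⟩
    rintro B' ⟨h3, -, h4⟩
    exact ((H9.eB_inj hB' h3).1 (h1.eq_of_br_eq hB (H9.isBlk_eB h3)
      (h2.trans ((key B' c h3 hc).1 h4).symm))).symm

end Cfsg.Agent.S4670
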