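import Cfsg.Statements.S4673
import Mathlib
import Cfsg.Agent.H9.Dict4

set_option autoImplicit false
open Cfsg

namespace Cfsg.Agent.S4673

/-- Fix a prime p and a maximal ideal M of the algebraic integers containing p. Let N ≤ L be normal subgroups of the finite group G with L/N a p-group, let B be a p-block of G covering the p-block c of N (some member of B has a constituent in c on restriction to N), and suppose that N contains a defect group of B. Then the stabilizer T of c in G satisfies T ∩ L = N. -/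
theorem result {G : Type*} [Group G] [Fintype G] (p : ℕ) [Fact p.Prime] (M : Ideal Cfsg.AlgInt) (hM : Cfsg.IsPModular p M) (N L : Subgroup G) [N.Normal] [L.Normal] [Fintype N] (hNL : N ≤ L) (hLN : ∃ k : ℕ, (N.subgroupOf L).index = p ^ k) (B : Set (Cfsg.IrrCharacter G)) (hB : Cfsg.IsPBlock M B) (c : Set (Cfsg.IrrCharacter N)) (hc : Cfsg.IsPBlock M c) (hcov : (∃ χ ∈ B, ∃ θ ∈ c, Cfsg.classInner (fun n : N => (χ : G → ℂ) n) (θ : N → ℂ) ≠ 0)) (hD : ∃ D : Subgroup G, Cfsg.IsDefectGroup p M B D ∧ D ≤ N) (T : Subgroup G) (hT : ∀ x : G, x ∈ T ↔ Cfsg.StabilizesBlock N c x) : T ⊓ L = N := by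
  haveI := hM.2.1
  haveI : H9.PMod M p := ⟨hM⟩
  have hN' : L ≤ _ := H9.le_normalizer_of_normal' N
  have hcc := H9.isBlk_eI hc
  have hpow := H9.exists_pow_mem_of_relIndex hN' hLN
  obtain ⟨c', hc', hcb⟩ := hcc.exists_prim_above le_rfl hNL hN' hN'
  have hc'' := (H9.isBlk_iff_isPrim_of_pow hNL hpow).2 hc'
  obtain ⟨D, hD, hDN⟩ := hD
  have hBB := H9.isBlk_eB hB
  have h1 : H8.eB M B * c' ≠ 0 := fun h0 => (H9.covers_iff_sub hB hc).1 hcov (by
    rw [← hcb, ← mul_assoc, h0, zero_mul])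
  obtain ⟨E, hE⟩ := hc''.exists_isDef (p := p) le_rfl Subgroup.le_normalizer
  obtain ⟨P, hP, hPE⟩ := hBB.exists_isDef_inf_eq le_top (H9.top_le_normalizer_of_normal L) hc'' h1 hE
  obtain ⟨t, -, rfl⟩ := ((H9.isDefectGroup_iff hB).1 hD).exists_cg_eq hP
  have hEN : E ≤ N := by
    rw [← hPE, ← H9.cg_normal N t]; exact inf_le_left.trans (H9.cg_mono t hDN)
  have hNT : N ≤ T ⊓ L := le_inf (fun x hx =>
    (hT x).2 ((H9.stabilizesBlock_normal_iff hc).2 (hcc.inv hx))) hNL
  have hst : ∀ t ∈ T ⊓ L, H9.cj t (H9.eI M c) = H9.eI M c := fun t ht =>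
    (H9.stabilizesBlock_normal_iff hc).1 ((hT t).1 ht.1)
  obtain ⟨R, hR⟩ := (hcc.of_le hNT hst).exists_isDef (p := p) hNT (inf_le_right.trans hN')
  have h2 := (hR.not_dvd_relIndex hNT (inf_le_right.trans hN') hcc hst).1
  obtain ⟨s, -, hs⟩ := hE.exists_cg_le (hR.le.trans inf_le_right) hR.isP fun h0 => hR.br_ne (by
    rw [← hcb, H9.br_mul hR.isP (fun t ht => hc'.inv (hR.le ht).2) fun t ht => hst t (hR.le ht),
      h0, zero_mul])
  have hRN : R ≤ N := by
    rw [← H9.cg_le_cg (x := s), H9.cg_normal N s]; exact hs.trans hEN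
  rw [sup_eq_right.2 hRN] at h2
  exact le_antisymm (H9.le_of_pow_of_not_dvd le_rfl hNT (inf_le_right.trans hN')
    (fun x hx => hpow x hx.2) h2) hNT

end Cfsg.Agent.S4673
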