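import Cfsg.Statements.S4674
import Mathlib
import Cfsg.Agent.H9.Dict4

set_option autoImplicit false
open Cfsg

namespace Cfsg.Agent.S4674

/-- Fix a prime p and a maximal ideal M of the algebraic integers containing p. Let N be a normal subgroup of the finite group G, Q a p-subgroup of N, H = N_G(Q) and L = H ∩ N = N_N(Q). Let d be a p-block of N with defect group Q and e the p-block of L with defect group Q that induces d inside N (its Brauer correspondent). Then block induction from H to G is a bijection from the p-blocks of H covering e onto the p-blocks of G covering d: every block of H covering e induces exactly one block of G, and that block covers d; and every block of G covering d is induced by exactly one block of H covering e. -/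
theorem result {G : Type*} [Group G] [Fintype G] (p : ℕ) [Fact p.Prime] (M : Ideal Cfsg.AlgInt) (hM : Cfsg.IsPModular p M) (N : Subgroup G) [N.Normal] [Fintype N] (Q : Subgroup G) (hQ : IsPGroup p Q) (hQN : Q ≤ N) [Fintype ↥(Subgroup.normalizer (Q : Set G) ⊓ N)] (d : Set (Cfsg.IrrCharacter N)) (hd : Cfsg.IsPBlock M d) (hdQ : Cfsg.IsDefectGroup p M d (Q.subgroupOf N)) (e : Set (Cfsg.IrrCharacter ↥(Subgroup.normalizer (Q : Set G) ⊓ N))) (he : Cfsg.IsPBlock M e) (heQ : Cfsg.IsDefectGroup p M e (Q.subgroupOf (Subgroup.normalizer (Q : Set G) ⊓ N))) (hed : Cfsg.IsInducedBlockIn M N (Subgroup.normalizer (Q : Set G) ⊓ N) e d) : (∀ c : Set (Cfsg.IrrCharacter ↥(Subgroup.normalizer (Q : Set G))), Cfsg.IsPBlock M c → (∃ ψ ∈ c, ∃ ξ ∈ e, Cfsg.classInner (fun l : ↥(Subgroup.normalizer (Q : Set G) ⊓ N) => (ψ : ↥(Subgroup.normalizer (Q : Set G)) → ℂ) (Subgroup.inclusion inf_le_left l)) (ξ : ↥(Subgroup.normalizer (Q : Set G) ⊓ N) → ℂ) ≠ 0)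 → ∃! B : Set (Cfsg.IrrCharacter G), Cfsg.IsInducedBlock M (Subgroup.normalizer (Q : Set G)) c B ∧ (∃ χ ∈ B, ∃ θ ∈ d, Cfsg.classInner (fun n : N => (χ : G → ℂ) n) (θ : N → ℂ) ≠ 0)) ∧ (∀ B : Set (Cfsg.IrrCharacter G), Cfsg.IsPBlock M B → (∃ χ ∈ B, ∃ θ ∈ d, Cfsg.classInner (fun n : N => (χ : G → ℂ) n) (θ : N → ℂ) ≠ 0) → ∃! c : Set (Cfsg.IrrCharacter ↥(Subgroup.normalizer (Q : Set G))), (Cfsg.IsPBlock M c ∧ ∃ ψ ∈ c, ∃ ξ ∈ e, Cfsg.classInner (fun l : ↥(Subgroup.normalizer (Q : Set G) ⊓ N) => (ψ : ↥(Subgroup.normalizer (Q : Set G)) → ℂ) (Subgroup.inclusion inf_le_left l)) (ξ : ↥(Subgroup.normalizer (Q : Set G) ⊓ N) → ℂ) ≠ 0) ∧ Cfsg.IsInducedBlock M (Subgroup.normalizer (Q : Set G)) c B) := by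
  haveI := hM.2.1
  haveI : H9.PMod M p := ⟨hM⟩
  have hN := H9.top_le_normalizer_of_normal N
  have hd' := (H9.isDefectGroup_subgroupOf hd hQN).1 hdQ
  have he' := (H9.isDefectGroup_subgroupOf he (le_inf Subgroup.le_normalizer hQN)).1 heQ
  have hed' := ((H9.isInducedBlockIn_iff inf_le_right).1 hed).2.2
  have hee := H9.isBlk_eI he
  generalize hE : H9.eI M e = E at he' hed' hee
  rw [inf_comm] at he' hed' hee
  have cov : ∀ c : Set (IrrCharacter (Subgroup.normalizer (Q : Set G))), IsPBlock M c →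
      ((∃ ψ ∈ c, ∃ ξ ∈ e, classInner (fun l : ↥(Subgroup.normalizer (Q : Set G) ⊓ N) =>
        (ψ : ↥(Subgroup.normalizer (Q : Set G)) → ℂ) (Subgroup.inclusion inf_le_left l))
        (ξ : ↥(Subgroup.normalizer (Q : Set G) ⊓ N) → ℂ) ≠ 0) ↔ H9.eI M c * E ≠ 0) :=
    fun c hc => hE ▸ H9.covers_iff_incl inf_le_left hc he
  constructor
  · intro c hc h
    have hcc := H9.isBlk_eI hc
    obtain ⟨B, hB⟩ := H9.exists_isInd le_top Subgroup.le_normalizer hQ
      (inf_le_right.trans (Subgroup.centralizer_le_normalizer _)) hcc (by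
      rw [H9.br, H9.trunc_eq_self (H9.supp_centralizer_of_idem hQ Subgroup.le_normalizer le_rfl
        hcc.mem hcc.idem)]
      exact hcc.ne_zero)
    obtain ⟨B, hB', rfl⟩ := H9.exists_eB hB.right
    refine ⟨B, ⟨H9.isInducedBlock_iff.2 ⟨hc, hB', hB⟩, (H9.covers_iff_sub hB' hd).2
      (H9.hk_covers le_top hQN hQ hed' ((cov c hc).1 h) (by rwa [top_inf_eq]))⟩, ?_⟩
    rintro B' ⟨h1, -⟩
    obtain ⟨-, h2, h3⟩ := H9.isInducedBlock_iff.1 h1
    exact (H9.eB_inj h2 hB').1 (h3.unique hB)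
  · intro B hB h
    obtain ⟨c, h1, h2⟩ := H9.hk_exists le_top hN hd' hed' (H9.isBlk_eB hB)
      ((H9.covers_iff_sub hB hd).1 h)
    have h3 := h1
    rw [top_inf_eq] at h3
    obtain ⟨c, hc, rfl⟩ := H9.exists_eI h3.left
    refine ⟨c, ⟨⟨hc, (cov c hc).2 h2⟩, H9.isInducedBlock_iff.2 ⟨hc, hB, h3⟩⟩, ?_⟩
    rintro c' ⟨⟨hc', -⟩, h4⟩
    exact ((H9.eI_inj hc hc').1 (H9.hk_unique le_top hN hee he' h2 h1
      (by rw [top_inf_eq]; exact (H9.isInducedBlock_iff.1 h4).2.2))).symm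

end Cfsg.Agent.S4674
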