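import Cfsg.Statements.S4679
import Mathlib
import Cfsg.Agent.H9.Dict3

set_option autoImplicit false
open Cfsg

namespace Cfsg.Agent.S4679

/-- Fix a prime p and a maximal ideal M of the algebraic integers containing p, a p-block B of the finite group G with maximal Brauer pair (P, e), its fusion system F on P, a Brauer pair (Q, f) ≤ (P, e), and let T be the stabilizer of f in N_G(Q). Then Q is fully normalized in F if and only if N_P(Q) is a defect group of the block of T whose idempotent is that of f. -/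
theorem result {G : Type*} [Group G] [Fintype G] (p : ℕ) [Fact p.Prime] (M : Ideal Cfsg.AlgInt) (hM : Cfsg.IsPModular p M) (B : Set (Cfsg.IrrCharacter G)) (P : Subgroup G) (e : Set (Cfsg.IrrCharacter (Subgroup.centralizer (P : Set G)))) (hmax : Cfsg.IsMaximalBrauerPair p M B P e) (F : Cfsg.FusionSystem P) (hF : Cfsg.IsBlockFusionSystemOn p M B P e F) (Q : Subgroup G) (f : Set (Cfsg.IrrCharacter (Subgroup.centralizer (Q : Set G)))) (hQP : Q ≤ P) (hf : Cfsg.IsPBlock M f) (hle : Cfsg.SubpairLE p M Q f P e) (T : Subgroup G) (hT : ∀ y : G, y ∈ T ↔ y ∈ Subgroup.normalizer (Q : Set G) ∧ Cfsg.StabilizesBlock (Subgroup.centralizer (Q : Set G)) f y) : F.IsFullyNormalized Q ↔ ∃ F' : Set (Cfsg.IrrCharacter T), Cfsg.IsPBlock M F' ∧ (∀ t : T, Cfsg.blockCoeff F' t = Cfsg.subgroupBlockCoeff (Subgroup.centralizer (Q : Set G)) f (t : G)) ∧ Cfsg.IsDefectGroup p M F' ((P ⊓ Subgroup.normalizer (Q : Set G)).subgroupOf T) := by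
  haveI := hM.2.1
  haveI : H9.PMod M p := ⟨hM⟩
  obtain ⟨hB, he, hm⟩ := H9.maxPair_iff.1 hmax
  have hle' := (H9.subLE_of_subpairLE hle).1
  have hp := hm.pairOf hle'
  obtain rfl := H9.eq_pstab hf hT
  have hC : Subgroup.centralizer (Q : Set G) ≤ H9.pstab ⊤ Q (H9.eI M f) :=
    le_trans (le_inf le_top le_rfl) hp.1.centralizer_le_pstab
  have hN := hle'.inf_normalizer_le_pstab hm.pair.1 le_top
  rw [(H9.isBlockFusionSystemOn_iff.1 hF).2.fn_iff hm hle']
  constructor
  · intro hD
    obtain ⟨E, hE, h3, h4⟩ := H9.exists_block_of_pair hp.1.isP hf (hp.1.le_pstab le_top) hC le_rfl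
    exact ⟨E, hE, h4, (H9.isDefectGroup_subgroupOf hE hN).2 (by simpa only [h3] using hD)⟩
  · rintro ⟨E, hE, h3, h4⟩
    have := (H9.isDefectGroup_subgroupOf hE hN).1 h4
    rwa [(H9.eI_eq_iff_coeff hC (H8.isBlockUnion_of_block hE)
      (H8.isBlockUnion_of_block hf)).2 h3] at this

end Cfsg.Agent.S4679
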