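import Cfsg.Statements.S4681
import Mathlib
import Cfsg.Agent.H9.Dict3

set_option autoImplicit false
open Cfsg

namespace Cfsg.Agent.S4681

/-- Fix a prime p and a maximal ideal M of the algebraic integers containing p. Let B₀ be the principal p-block of the finite group G, P a Sylow p-subgroup and e₀ the principal p-block of C_G(P). Then (P, e₀) is a maximal Brauer pair of B₀, and the fusion system of B₀ on (P, e₀) is the fusion system of G on P: its maps from each subgroup of P are exactly the conjugation maps into P by elements of G. -/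
theorem result {G : Type*} [Group G] [Fintype G] (p : ℕ) [Fact p.Prime] (M : Ideal Cfsg.AlgInt) (hM : Cfsg.IsPModular p M) (S : Sylow p G) : Cfsg.IsMaximalBrauerPair p M (Cfsg.principalBlock M G) (S : Subgroup G) (Cfsg.principalBlock M (Subgroup.centralizer ((S : Subgroup G) : Set G))) ∧ ∀ F : Cfsg.FusionSystem (S : Subgroup G), Cfsg.IsBlockFusionSystemOn p M (Cfsg.principalBlock M G) (S : Subgroup G) (Cfsg.principalBlock M (Subgroup.centralizer ((S : Subgroup G) : Set G))) F → ∀ Q : Subgroup G, F.Hom Q = (Cfsg.groupFusionSystem (S : Subgroup G)).Hom Q := by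
  haveI := hM.2.1
  haveI : H9.PMod M p := ⟨hM⟩
  have hS : IsPGroup p (S : Subgroup G) := S.isPGroup'
  have hp := H9.isPairOf_prin (F := H8.resField M) (N := ⊤) H9.le_normalizer_top hS
  refine ⟨H9.isMaximalBrauerPair_iff.2 ⟨H8.isPBlock_principalBlock, H8.isPBlock_principalBlock,
    ?_, ?_⟩, fun F hF Q => ?_⟩
  · rwa [H9.eB_principal, H9.eI_principal, ← top_inf_eq (Subgroup.centralizer _)]
  · rw [H9.eB_principal, H9.isDef_prin_iff H9.le_normalizer_top]
    exact H18.sylIn_top S
  · have h := (H9.isBlockFusionSystemOn_iff.1 hF).2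
    rw [H9.eI_principal, ← top_inf_eq (Subgroup.centralizer _)] at h
    refine H17.hom_eq_iff.2 fun φ => ?_
    rw [h, H17.mor_group]
    constructor
    · rintro ⟨g, h1, h2⟩
      exact ⟨h1.le, fun x hx => h2 x hx ▸ h1.cg_le (H9.conj_mem_cg.2 hx), g, h2⟩
    · rintro ⟨h1, h2, g, h3⟩
      refine ⟨g, ⟨trivial, _, H9.subLE_prin H9.le_normalizer_top hS h1, ?_⟩, h3⟩
      rw [H9.cj_prin, H9.cg_inf, H9.cg_top, H9.cg_centralizer]
      exact H9.subLE_prin H9.le_normalizer_top hS
        (H9.cg_le_of_conj_mem fun x hx => h3 x hx ▸ h2 x hx)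

end Cfsg.Agent.S4681
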