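import Cfsg.Statements.S4682
import Mathlib
import Cfsg.Agent.H9.Root
import Cfsg.Agent.H5.Basic

set_option autoImplicit false
open Cfsg

namespace Cfsg.Agent.S4682

/-- Fix a prime p and a maximal ideal M of the algebraic integers containing p, a p-block B of the finite group G with maximal Brauer pair (P, e), P abelian, and a Brauer pair (Q, f) ≤ (P, e). Let T_Q be the stabilizer of f in N_G(Q) and T_P the stabilizer of e in N_G(P). Then every element of T_Q is a product of an element of T_P and an element of C_G(Q); and the index of C_G(Q) in T_Q equals the index of T_P ∩ C_G(Q) in T_P ∩ N_G(Q). -/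
theorem result {G : Type*} [Group G] [Fintype G] (p : ℕ) [Fact p.Prime] (M : Ideal Cfsg.AlgInt) (hM : Cfsg.IsPModular p M) (B : Set (Cfsg.IrrCharacter G)) (P : Subgroup G) (e : Set (Cfsg.IrrCharacter (Subgroup.centralizer (P : Set G)))) (hmax : Cfsg.IsMaximalBrauerPair p M B P e) (hab : ∀ x ∈ P, ∀ y ∈ P, x * y = y * x) (Q : Subgroup G) (f : Set (Cfsg.IrrCharacter (Subgroup.centralizer (Q : Set G)))) (hQP : Q ≤ P) (hf : Cfsg.IsPBlock M f) (hle : Cfsg.SubpairLE p M Q f P e) (TQ : Subgroup G) (hTQ : ∀ y : G, y ∈ TQ ↔ y ∈ Subgroup.normalizer (Q : Set G) ∧ Cfsg.StabilizesBlock (Subgroup.centralizer (Q : Set G)) f y) (TP : Subgroup G) (hTP : ∀ y : G, y ∈ TP ↔ y ∈ Subgroup.normalizer (P : Set G) ∧ Cfsg.StabilizesBlock (Subgroup.centralizer (P : Set G)) e y) : (∀ x ∈ TQ, ∃ y ∈ TP, ∃ c ∈ Subgroup.centralizer (Q : Set G), x = y * c) ∧ ((Subgroup.centralizer (Q : Set G)).subgroupOf TQ).index = ((TP ⊓ Subgroup.centralizer (Q : Set G)).subgroupOf (TP ⊓ Subgroup.normalizer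 (Q : Set G))).index := by
  haveI := hM.2.1
  haveI : H9.PMod M p := ⟨hM⟩
  obtain ⟨hB, he, hm⟩ := H9.maxPair_iff.1 hmax
  have hle' := (H9.subLE_of_subpairLE hle).1
  obtain rfl := H9.eq_pstab hf hTQ
  obtain rfl := H9.eq_pstab he hTP
  have hPC : P ≤ Subgroup.centralizer (Q : Set G) := fun x hx y hy => (hab y (hQP hy) x hx)
  have h1 := fun x hx => hm.exists_mul_of_ab hle' hPC (x := x) hx
  refine ⟨fun x hx => ?_, ?_⟩
  · obtain ⟨y, hy, c, hc, h⟩ := h1 x hx
    exact ⟨y, hy.1, c, hc.2, h⟩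
  · have h2 : H9.pstab ⊤ Q (H9.eI M f) = (H9.pstab ⊤ P (H9.eI M e) ⊓
        Subgroup.normalizer (Q : Set G)) ⊔ Subgroup.centralizer (Q : Set G) := by
      refine le_antisymm (fun x hx => ?_) (sup_le (fun x hx => H9.mem_pstab.2 ⟨trivial, hx.2,
        hle'.cj_eq_of_stab hm.pair.1 hx.1 hx.2⟩)
        (le_trans (le_inf le_top le_rfl) (hm.pairOf hle').1.centralizer_le_pstab))
      obtain ⟨y, hy, c, hc, rfl⟩ := h1 x hx
      exact mul_mem (Subgroup.mem_sup_left ⟨hy.1, (H9.mem_pstab.1 hy.2).2.1⟩)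
        (Subgroup.mem_sup_right hc.2)
    change (Subgroup.centralizer (Q : Set G)).relIndex _ = Subgroup.relIndex _ _
    rw [h2, H5.relIndex_sup_of_le_normalizer
      (inf_le_right.trans (H9.normalizer_le_normalizer_centralizer Q)),
      ← Subgroup.inf_relIndex_right, ← Subgroup.inf_relIndex_right (_ ⊓ _)]
    congr 1
    ext x
    simp only [Subgroup.mem_inf]
    have := @Subgroup.centralizer_le_normalizer G _ Q x
    tauto

end Cfsg.Agent.S4682
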