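import Cfsg.Statements.S4683
import Mathlib
import Cfsg.Agent.H9.Subs

set_option autoImplicit false
open Cfsg

namespace Cfsg.Agent.S4683

/-- Fix a prime p and a maximal ideal M of the algebraic integers containing p, a p-block B of the finite group G, a p-element u and a p-block e of C = C_G(u) such that (⟨u⟩, e) is a Brauer pair of B (a Brauer element of B). For χ ∈ B let χ_u be the e-part of the class function c ↦ χ(u c) on C and χ_u' the e-part of c ↦ χ(u⁻¹ c). Then the sum over χ ∈ B and over the p-regular elements s of C of χ_u(s)·χ_u'(s⁻¹) equals the order of C times the p-regular rank of e (the number of irreducible Brauer characters of e). -/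
theorem result {G : Type*} [Group G] [Fintype G] (p : ℕ) [Fact p.Prime] (M : Ideal Cfsg.AlgInt) (hM : Cfsg.IsPModular p M) (B : Set (Cfsg.IrrCharacter G)) (u : G) (hu : ∃ k : ℕ, orderOf u = p ^ k) (e : Set (Cfsg.IrrCharacter (Subgroup.centralizer (Subgroup.zpowers u : Set G)))) (hBe : Cfsg.IsBrauerPairOf p M B (Subgroup.zpowers u) e) : ∑ᶠ χ ∈ B, ∑ᶠ s : Subgroup.centralizer (Subgroup.zpowers u : Set G), Cfsg.pRegularPart p (Cfsg.blockPart e (fun c : Subgroup.centralizer (Subgroup.zpowers u : Set G) => (χ : G → ℂ) (u * c))) s * Cfsg.blockPart e (fun c : Subgroup.centralizer (Subgroup.zpowers u : Set G) => (χ : G → ℂ) (u⁻¹ * c)) s⁻¹ = (Nat.card (Subgroup.centralizer (Subgroup.zpowers u : Set G)) : ℂ) * (Cfsg.blockRank p e : ℂ) := by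
  haveI := hM.2.1
  haveI : H9.PMod M p := ⟨hM⟩
  classical
  have h := H9.Subs.of_induced hu (H8.centralizer_zpowers u)
    ((H9.isInducedBlock_centralizer_iff hBe.1.1).2 hBe)
  have := Fintype.ofFinite (Subgroup.centralizer (Subgroup.zpowers u : Set G))
  rw [← h.sum_contr_self, H9.finsum_bs, Finset.mul_sum]
  refine Finset.sum_congr rfl fun χ _ => ?_
  rw [finsum_eq_sum_of_fintype, H9.contr, H9.rip, H7.ip_def, mul_inv_cancel_left₀ (H7.card_ne_zero' _)]
  refine Finset.sum_congr rfl fun s _ => ?_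
  congr 1
  let U : Subgroup.centralizer (Subgroup.zpowers u : Set G) := ⟨u, h.mem⟩
  have hz : ∀ g, U * g = g * U := fun g =>
    Subtype.ext (H8.mem_centralizer_singleton_iff_commute.1 (h.eq.le g.2)).eq
  have hz' : ∀ g, U⁻¹ * g = g * U⁻¹ := fun g => (Commute.inv_left (hz g)).eq
  obtain ⟨n, hn⟩ := H9.exists_ip_int (H6.isGen_restrict
    (Subgroup.centralizer (Subgroup.zpowers u : Set G)) (H6.isGen_of_irr χ.2))
  have h1 := H9.sec_eq_sum U h.eq.le e (H8.irr_isClassFunction χ)
  have h2 := H9.sec_eq_sum U⁻¹ (fun g hg => H8.mem_centralizer_singleton_iff_commute.2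
    (congrArg Subtype.val (hz' ⟨g, hg⟩))) e (H8.irr_isClassFunction χ)
  refine (congrFun h2 s⁻¹).trans ?_
  rw [h1, Finset.sum_apply, Finset.sum_apply, map_sum]
  refine Finset.sum_congr rfl fun ξ _ => ?_
  simp only [Pi.smul_apply, smul_eq_mul, hn, mul_assoc, ← H8.irr_central_mul ξ hz,
    ← H8.irr_central_mul ξ hz', map_mul, map_intCast, ← H8.irr_inv, mul_inv_rev, hz']

end Cfsg.Agent.S4683
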