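import Cfsg.Statements.S4685
import Mathlib
import Cfsg.Agent.H8.Star4

set_option autoImplicit false
open Cfsg

namespace Cfsg.Agent.S4685

/-- Fix a prime p and a maximal ideal M of the algebraic integers containing p, a p-block B of the finite group G with maximal Brauer pair (P, e) and fusion system F on P. Then for every h the number of irreducible characters of height h in B is divisible by the index of Z(P) ∩ foc(F) in Z(P), where foc(F) is the focal subgroup of F. -/
theorem result {G : Type*} [Group G] [Fintype G] (p : ℕ) [Fact p.Prime] (M : Ideal Cfsg.AlgInt) (hM : Cfsg.IsPModular p M) (B : Set (Cfsg.IrrCharacter G)) (P : Subgroup G) (e : Set (Cfsg.IrrCharacter (Subgroup.centralizer (P : Set G)))) (hmax : Cfsg.IsMaximalBrauerPair p M B P e) (F : Cfsg.FusionSystem P) (hF : Cfsg.IsBlockFusionSystemOn p M B P e F) (h : ℕ) : ((P ⊓ Subgroup.centralizer (P : Set G) ⊓ F.focalSubgroup).subgroupOf (P ⊓ Subgroup.centralizer (P : Set G))).index ∣ Nat.card {χ : Cfsg.IrrCharacter G // χ ∈ B ∧ Cfsg.blockHeight p B (χ : G →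 ℂ) = h} := by
  open H8 H9 in
  classical
  have := hM.2.1
  haveI : H9.PMod M p := ⟨hM⟩
  obtain ⟨hB, he, hm⟩ := maxPair_iff.1 hmax
  have h1 := relIndex_dvd_card hB hm (mem_focal_of_fc hm (isBlockFusionSystemOn_iff.1 hF).2)
    (W := P ⊓ Subgroup.centralizer (P : Set G)) inf_le_left _ (mem_height_of_reg h)
    (fun _ h => h.1) fun u hu χ hχ => contr_ne_zero_of_center hB hm hu.1 hu.2 hχ.1
  rwa [← Subgroup.inf_relIndex_left] at h1

end Cfsg.Agent.S4685
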