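import Cfsg.Statements.S4691
import Mathlib
import Cfsg.Agent.H9.Dict3
import Cfsg.Agent.H4.Frobenius

set_option autoImplicit false
open Cfsg

namespace Cfsg.Agent.S4691

/-- Fix a prime p and a maximal ideal M of the algebraic integers containing p. A finite group G has a normal p-complement if and only if its principal p-block is nilpotent. -/
theorem result {G : Type*} [Group G] [Fintype G] (p : ℕ) [Fact p.Prime] (M : Ideal Cfsg.AlgInt) (hM : Cfsg.IsPModular p M) : Cfsg.HasNormalPComplement p G ↔ Cfsg.IsNilpotentBlock p M (Cfsg.principalBlock M G) := by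
  haveI := hM.2.1
  haveI : H9.PMod M p := ⟨hM⟩
  rw [H9.isNilpotentBlock_iff, and_iff_right H8.isPBlock_principalBlock, H9.eB_principal,
    H4.hasNPC_iff_forall_isPGroup]
  have hc : ∀ x : G, (orderOf x).Coprime p ↔ ¬ p ∣ orderOf x := fun x => by
    rw [Nat.coprime_comm, Nat.Prime.coprime_iff_not_dvd Fact.out]
  constructor
  · intro h Q _ f hf x hx hr
    by_cases hQ : Q = ⊥
    · subst hQ
      rw [Subgroup.mem_centralizer_iff]
      intro y hy
      rw [Subgroup.mem_bot.1 hy]; simp
    · exact h Q hf.1.isP hQ x (H9.mem_pstab.1 hx).2.1 ((hc x).2 hr)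
  · intro h Q hQ _ x hx hr
    refine h Q le_top _ (H9.isPairOf_prin H9.le_normalizer_top hQ) x
      (H9.mem_pstab.2 ⟨trivial, hx, H9.cj_prin_of_mem ?_⟩) ((hc x).1 hr)
    rw [top_inf_eq]
    exact H9.normalizer_le_normalizer_centralizer Q hx

end Cfsg.Agent.S4691
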