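import Cfsg.Statements.S4692
import Mathlib
import Cfsg.Agent.H9.Root
import Cfsg.Agent.H1.Coprime2

set_option autoImplicit false
open Cfsg

namespace Cfsg.Agent.S4692

/-- Fix a prime p and a maximal ideal M of the algebraic integers containing p. Let N be a normal subgroup of p-power index in the finite group G and c a p-block of N stable under conjugation by G, and let B be the p-block of G whose idempotent is that of c (it exists and is unique). Then c is nilpotent as a block of N if and only if B is nilpotent as a block of G. -/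
theorem result {G : Type*} [Group G] [Fintype G] (p : ℕ) [Fact p.Prime] (M : Ideal Cfsg.AlgInt) (hM : Cfsg.IsPModular p M) (N : Subgroup G) [N.Normal] (hN : ∃ k : ℕ, N.index = p ^ k) (c : Set (Cfsg.IrrCharacter N)) (hc : Cfsg.IsPBlock M c) (hst : ∀ x : G, Cfsg.StabilizesBlock N c x) (B : Set (Cfsg.IrrCharacter G)) (hB : Cfsg.IsPBlock M B) (hBc : ∀ g : G, Cfsg.blockCoeff B g = Cfsg.subgroupBlockCoeff N c g) : Cfsg.IsNilpotentBlock p M c ↔ Cfsg.IsNilpotentBlock p M B := by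
  haveI := hM.2.1
  haveI : H9.PMod M p := ⟨hM⟩
  have hN' := H9.top_le_normalizer_of_normal N
  have hpow := H9.exists_pow_mem_of_index hN
  rw [H9.isNilpotentBlock_iff_sub, H9.isNilpotentBlock_iff (B := B), and_iff_right hc, and_iff_right hB,
    (H9.eB_eq_iff_coeff (H8.isBlockUnion_of_block hB) (H8.isBlockUnion_of_block hc)).2 hBc]
  have hst' : ∀ t, H9.cj t (H9.eI M c) = H9.eI M c := fun t =>
    (H9.stabilizesBlock_normal_iff hc).1 (hst t)
  have hcc := H9.isBlk_eI hc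
  generalize H9.eI M c = b at hst' hcc
  have hCle : ∀ Q : Subgroup G, N ⊓ Subgroup.centralizer (Q : Set G) ≤
      ⊤ ⊓ Subgroup.centralizer (Q : Set G) := fun Q => inf_le_inf_right _ le_top
  have hCN : ∀ Q : Subgroup G, ⊤ ⊓ Subgroup.centralizer (Q : Set G) ≤
      Subgroup.normalizer ((N ⊓ Subgroup.centralizer (Q : Set G) : Subgroup G) : Set G) := fun Q =>
    (H9.inf_centralizer_le le_rfl).trans (H9.le_normalizer_inf_centralizer hN')
  have hCp : ∀ Q : Subgroup G, ∀ x ∈ ⊤ ⊓ Subgroup.centralizer (Q : Set G), ∃ k,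
      x ^ p ^ k ∈ N ⊓ Subgroup.centralizer (Q : Set G) := fun Q x hx => by
    obtain ⟨k, hk⟩ := hpow x trivial
    exact ⟨k, hk, pow_mem hx.2 _⟩
  constructor
  · intro hn Q _ f hf x hx hr
    obtain ⟨-, hxQ, hxf⟩ := H9.mem_pstab.1 hx
    have hxN : x ∈ N := by
      obtain ⟨k, hk⟩ := hpow x trivial
      exact H9.mem_of_pElt_of_pReg hk hr
    have hxQ0 : x ∈ Subgroup.normalizer ((Q ⊓ N : Subgroup G) : Set G) := by
      rw [H9.mem_normalizer_iff_cg, H9.cg_inf, H9.cg_normal N, H9.mem_normalizer_iff_cg.1 hxQ]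
    obtain ⟨f₁, h1⟩ := H9.exists_subLE hf.1 (inf_le_left : Q ⊓ N ≤ Q)
    have h2 := h1.cj_eq_of_stab hf.1 hx hxQ0
    have hb : b ∈ H9.fix (⊤ : Subgroup G) ⊤ := ⟨H9.supp_top _, fun t _ => hst' t⟩
    have h3 := (h1.isPairOf_iff le_rfl hf.1 hb hcc.idem le_top).2 hf
    have h4 := (H9.isBlk_iff_isPrim_of_pow (hCle _) (hCp _)).1 h3.1.blk
    obtain ⟨f₀, h5, h6⟩ := H9.exists_prim_le (le_refl _) (H9.fix_mono le_rfl (hCle _) h4.mem)
      h4.idem h4.ne_zero
    have h7 : H9.IsBlk (N ⊓ Subgroup.centralizer ((Q ⊓ N : Subgroup G) : Set G)) (H9.cj x f₀) := by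
      have := h5.cj x
      rwa [H9.mem_normalizer_iff_cg.1 (H9.le_normalizer_inf_centralizer hN' ⟨trivial, hxQ0⟩)]
        at this
    obtain ⟨y, hy, h8⟩ := h4.exists_cj_eq le_rfl (hCle _) (hCN _) (hCN _) h5 h7
      (by rw [h6]; exact h5.ne_zero) (by rw [← h2, ← map_mul, h6]; exact h7.ne_zero)
    have hxC := H9.normalizer_le_normalizer_centralizer _ hxQ0
    have h9 : ∀ n : ℕ, H9.cj (x ^ n) f₀ = H9.cj (y ^ n) f₀ := by
      intro n
      induction n with
      | zero => simp only [pow_zero]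
      | succ n ih =>
        have hm : (y ^ n)⁻¹ * x * y ^ n * x⁻¹ ∈
            N ⊓ Subgroup.centralizer ((Q ⊓ N : Subgroup G) : Set G) := by
          refine ⟨N.mul_mem (by simpa using ‹N.Normal›.conj_mem x hxN (y ^ n)⁻¹) (N.inv_mem hxN), ?_⟩
          have := (Subgroup.mem_normalizer_iff.1 hxC (y ^ n)).1 (pow_mem hy.2 n)
          simpa [mul_assoc] using Subgroup.mul_mem _ (Subgroup.inv_mem _ (Subgroup.pow_mem _ hy.2 n)) this
        rw [pow_succ', ← H9.cj_cj, ih, pow_succ, ← H9.cj_cj, h8, ← h7.inv hm, H9.cj_cj, H9.cj_cj,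
          H9.cj_cj]
        congr 2; group
    obtain ⟨k, hk⟩ := hCp _ y hy
    have h10 : x ∈ H9.cjStab f₀ :=
      H9.mem_of_pElt_of_pReg (k := k) (by rw [H9.mem_cjStab, h9, h5.inv hk]) hr
    have h11 := hn (Q ⊓ N) inf_le_right f₀ ⟨⟨le_top.trans hN', h3.1.isP, h5⟩, by
      rw [← h6, ← mul_assoc, h3.2]⟩ x (H9.mem_pstab.2 ⟨hxN, hxQ0, h10⟩) hr
    refine Subgroup.zpowers_le.1 (H1.le_centralizer_of_stabilizes_chain _ Q (Q ⊓ N)
      (Subgroup.zpowers_le.2 hxQ) (H1.coprime_card_of_isPGroup hf.1.isP ?_) (le_inf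
        (H1.commutator_le_left_of_le_normalizer (Subgroup.zpowers_le.2 hxQ))
        ((Subgroup.commutator_mono le_rfl (Subgroup.zpowers_le.2 hxN)).trans
          (Subgroup.commutator_le_right _ _))) (Subgroup.zpowers_le.2 h11))
    rw [Nat.card_zpowers, Nat.coprime_comm, Nat.Prime.coprime_iff_not_dvd hM.1]; exact hr
  · intro hn Q hQ f hf x hx hr
    obtain ⟨-, hxQ, hxf⟩ := H9.mem_pstab.1 hx
    obtain ⟨h1, h2⟩ := hf.1.blk.isPrim_orbitSum le_rfl (hCle Q) (hCN Q) (hCN Q)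
    generalize ∑ a ∈ H9.cjOrbit (⊤ ⊓ Subgroup.centralizer (Q : Set G)) f, a = g at h1 h2
    have h3 := (H9.isBlk_iff_isPrim_of_pow (hCle _) (hCp _)).2 h1
    have hb : b ∈ H9.fix (⊤ : Subgroup G) ⊤ := ⟨H9.supp_top _, fun t _ => hst' t⟩
    have hbr := H9.fix_mono le_rfl (H9.inf_centralizer_le le_rfl) (H9.br_mem_fix (Q := Q) hb)
    have h4 : H9.br Q b * g = g := h3.mul_eq_of_ne hbr
      (H9.br_idem hf.1.isP (fun t _ => hst' t) hcc.idem) fun h0 => hf.1.blk.ne_zero (by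
        rw [← hf.2, ← h2, ← mul_assoc, h0, zero_mul])
    refine hn Q le_top g ⟨⟨H9.le_normalizer_top, hf.1.isP, h3⟩, h4⟩ x
      (H9.mem_pstab.2 ⟨trivial, hxQ, ?_⟩) hr
    have h5 := h3.cj x
    rw [H9.mem_normalizer_iff_cg.1 (H9.le_normalizer_inf_centralizer
      H9.top_le_normalizer_top ⟨trivial, hxQ⟩)] at h5
    refine H9.IsPrim.eq_of_mul_ne le_rfl h5 h3 fun h0 => hf.1.blk.ne_zero ?_
    have h6 : H9.cj x g * f = f := by rw [← hxf, ← map_mul, h2]
    rw [← h6, ← h2, ← mul_assoc, h0, zero_mul]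

end Cfsg.Agent.S4692
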