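import Cfsg.Statements.S4693
import Mathlib
import Cfsg.Agent.H9.Root

set_option autoImplicit false
open Cfsg

namespace Cfsg.Agent.S4693

/-- Fix a prime p and a maximal ideal M of the algebraic integers containing p, a p-block B of the finite group G with maximal Brauer pair (P, e) and fusion system F on P, and a Brauer pair (Q, f) ≤ (P, e) with Q centric in F. Suppose every element of G normalizes Q and stabilizes f. Then the idempotent of B agrees with that of f modulo M at every element of G, and f is the idempotent of a nilpotent block of Q·C_G(Q): some p-block of Q·C_G(Q) has the idempotent coefficients of f and is nilpotent. -/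
theorem result {G : Type*} [Group G] [Fintype G] (p : ℕ) [Fact p.Prime] (M : Ideal Cfsg.AlgInt) (hM : Cfsg.IsPModular p M) (B : Set (Cfsg.IrrCharacter G)) (P : Subgroup G) (e : Set (Cfsg.IrrCharacter (Subgroup.centralizer (P : Set G)))) (hmax : Cfsg.IsMaximalBrauerPair p M B P e) (F : Cfsg.FusionSystem P) (hF : Cfsg.IsBlockFusionSystemOn p M B P e F) (Q : Subgroup G) (f : Set (Cfsg.IrrCharacter (Subgroup.centralizer (Q : Set G)))) (hQP : Q ≤ P) (hf : Cfsg.IsPBlock M f) (hle : Cfsg.SubpairLE p M Q f P e) (hcen : F.IsCentric Q) (hG : ∀ x : G, x ∈ Subgroup.normalizer (Q : Set G) ∧ Cfsg.StabilizesBlock (Subgroup.centralizer (Q : Set G)) f x) : (∀ g : G, Cfsg.MemLocalIdeal M (Cfsg.blockCoeff B g - Cfsg.subgroupBlockCoeff (Subgroup.centralizer (Q : Set G)) f g)) ∧ ∃ F' : Set (Cfsg.IrrCharacter ↥(Q ⊔ Subgroup.centralizer (Q : Set G))), Cfsg.IsPBlock M F' ∧ (∀ t : ↥(Q ⊔ Subgroup.centralizer (Q : Set G)), Cfsg.blockCoeff F' t = Cfsg.subgroupBlockCoeff (Subgroup.centralizer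 (Q : Set G)) f (t : G)) ∧ Cfsg.IsNilpotentBlock p M F' := by
  haveI := hM.2.1
  haveI : H9.PMod M p := ⟨hM⟩
  obtain ⟨hB, he, hm⟩ := H9.maxPair_iff.1 hmax
  have hle' := (H9.subLE_of_subpairLE hle).1
  have hp := hm.pairOf hle'
  have hT : (⊤ : Subgroup G) ≤ H9.pstab ⊤ Q (H9.eI M f) := fun x _ => (H9.mem_pstab_iff hf).2 (hG x)
  have hN : (⊤ : Subgroup G) ≤ Subgroup.normalizer (Q : Set G) := fun x _ => (hG x).1
  have hD := ((H9.isBlockFusionSystemOn_iff.1 hF).2.centric_iff hm hle').1 hcen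
  constructor
  · have h1 := (H9.isBlk_iff_isPrim hp.1.isP le_top hN le_rfl le_top).2
      (hp.1.isPrim_loc le_top hT)
    have h2 := hp.2
    rw [H9.br, H9.trunc_eq_self (H9.supp_centralizer_of_idem hp.1.isP le_top hN hm.blk.mem
      hm.blk.idem)] at h2
    have h3 := hm.blk.eq_of_mul_ne le_rfl h1 (by rw [h2]; exact h1.ne_zero)
    intro g
    rw [(H9.eB_eq_iff_coeff (H8.isBlockUnion_of_block hB) (H8.isBlockUnion_of_block hf)).1 h3,
      sub_self]
    exact H8.memLocalIdeal_zero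
  · obtain ⟨E, hE, h3, h4⟩ := H9.exists_block_of_pair hp.1.isP hf le_sup_left le_sup_right
      (le_top.trans hT)
    refine ⟨E, hE, h4, H9.isNilpotentBlock_iff_sub.2 ⟨hE, ?_⟩⟩
    have hblk := H9.isBlk_eI hE
    rw [h3] at hblk ⊢
    have hC : (Q ⊔ Subgroup.centralizer (Q : Set G)) ⊓ Subgroup.centralizer (Q : Set G) =
      ⊤ ⊓ Subgroup.centralizer (Q : Set G) := by rw [top_inf_eq, inf_eq_right.2 le_sup_right]
    have hpair : H9.IsPairOf p (Q ⊔ Subgroup.centralizer (Q : Set G)) (H9.eI M f) Q (H9.eI M f) :=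
      ⟨⟨le_sup_left.trans Subgroup.le_normalizer, hp.1.isP, hC ▸ hp.1.blk⟩, by
        rw [hp.1.br_self, hp.1.blk.idem]⟩
    obtain ⟨D, hD', hQD⟩ := hblk.exists_isDef_ge le_rfl Subgroup.le_normalizer le_sup_left hp.1.isP
      hpair.br_ne
    have h5 := (hD'.not_dvd_relIndex (K := ⊤ ⊓ Subgroup.centralizer (Q : Set G))
      (inf_le_right.trans le_sup_right) (by
        rw [top_inf_eq]
        exact (H9.sup_centralizer_le_normalizer Q).trans (H9.normalizer_le_normalizer_centralizer Q))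
      hp.1.blk hblk.mem.2).2
    rw [top_inf_eq] at h5 hD
    have h6 := H9.eq_of_le_of_card_le (inf_le_inf_right _ hQD) (h5.card_eq hD).le
    have hdec : ∀ g ∈ Q ⊔ Subgroup.centralizer (Q : Set G), ∃ s ∈ Q,
        s⁻¹ * g ∈ Subgroup.centralizer (Q : Set G) := fun g hg => by
      haveI : (Subgroup.centralizer (Q : Set G)).Normal := by
        rw [← Subgroup.normalizer_eq_top_iff, eq_top_iff]
        exact hN.trans (H9.normalizer_le_normalizer_centralizer Q)
      have : g ∈ ((Q ⊔ Subgroup.centralizer (Q : Set G) : Subgroup G) : Set G) := hg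
      rw [Subgroup.mul_normal] at this
      obtain ⟨s, hs, c, hc, rfl⟩ := this
      exact ⟨s, hs, by simpa using hc⟩
    have h7 : D = Q := le_antisymm (fun g hg => by
      obtain ⟨s, hs, h⟩ := hdec g (hD'.le hg)
      have : s⁻¹ * g ∈ Q ⊓ Subgroup.centralizer (Q : Set G) :=
        h6 ▸ ⟨D.mul_mem (D.inv_mem (hQD hs)) hg, h⟩
      simpa using Q.mul_mem hs this.1) hQD
    subst h7
    refine (H9.MaxPair.isNil_iff ⟨hblk, hD', hpair⟩).2 fun R g hg => ?_
    obtain ⟨s, hs, h⟩ := hdec g hg.1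
    exact ⟨s, hs, Subgroup.centralizer_le (SetLike.coe_subset_coe.2 hg.le) h⟩

end Cfsg.Agent.S4693
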