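import Cfsg.Statements.S4694
import Mathlib
import Cfsg.Agent.H9.Misc

set_option autoImplicit false
open Cfsg

namespace Cfsg.Agent.S4694

/-- Fix a prime p and a maximal ideal M of the algebraic integers containing p, a p-block B of the finite group G and a Brauer pair (Q, e) of B. Let T be the stabilizer of e in N_G(Q) and suppose that (Q, e) carries a weight: the block of T whose idempotent is that of e contains an irreducible character χ that is constant on the cosets of Q and whose degree has p-part equal to the p-part of the index of Q in T. Then Z(Q) is a defect group of e as a block of C_G(Q), and Q is the largest normal p-subgroup of T: every p-subgroup of T normalized by T lies in Q. -/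
theorem result {G : Type*} [Group G] [Fintype G] (p : ℕ) [Fact p.Prime] (M : Ideal Cfsg.AlgInt) (hM : Cfsg.IsPModular p M) (B : Set (Cfsg.IrrCharacter G)) (Q : Subgroup G) (e : Set (Cfsg.IrrCharacter (Subgroup.centralizer (Q : Set G)))) (hQe : Cfsg.IsBrauerPairOf p M B Q e) (T : Subgroup G) (hT : ∀ y : G, y ∈ T ↔ y ∈ Subgroup.normalizer (Q : Set G) ∧ Cfsg.StabilizesBlock (Subgroup.centralizer (Q : Set G)) e y) (F' : Set (Cfsg.IrrCharacter T)) (hF' : Cfsg.IsPBlock M F') (hF'e : ∀ t : T, Cfsg.blockCoeff F' t = Cfsg.subgroupBlockCoeff (Subgroup.centralizer (Q : Set G)) e (t : G)) (χ : Cfsg.IrrCharacter T) (hχ : χ ∈ F') (hχQ : ∀ q : G, q ∈ Q → ∀ t : T, ∀ t' : T, (t' : G) = q * (t : G) → (χ : T → ℂ) t' = (χ : T → ℂ) t) (hdeg : (Cfsg.charDegree (χ : T → ℂ)).factorization p + (Nat.card Q).factorization p = (Nat.card T).factorization p) : Cfsg.IsDefectGroup p M e ((Q ⊓ Subgroup.centralizer (Q : Set G)).subgroupOf (Subgroup.centralizer (Q : Set G))) ∧ ∀ R : Subgroup G, R ≤ T → IsPGroup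 p R → (∀ t ∈ T, t ∈ Subgroup.normalizer (R : Set G)) → R ≤ Q := by
  haveI := hM.2.1; haveI : H9.PMod M p := ⟨hM⟩
  obtain ⟨-, he, hp, -⟩ := H9.isBrauerPairOf_iff.1 hQe
  have hT' := H9.eq_pstab he hT
  have hQT : Q ≤ T := hT' ▸ hp.le_pstab le_top
  have hCT : Subgroup.centralizer (Q : Set G) ≤ T := hT' ▸ (le_inf le_top le_rfl).trans hp.centralizer_le_pstab
  have hTN : T ≤ Subgroup.normalizer (Q : Set G) := fun x hx => ((hT x).1 hx).1
  have hU := H8.isBlockUnion_of_block hF'
  have h1 := (H9.eI_eq_iff_coeff hCT hU (H8.isBlockUnion_of_block he)).2 hF'e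
  have hn : ∀ {R : Subgroup G}, T ≤ Subgroup.normalizer (R : Set G) → (R.subgroupOf T).Normal := fun h =>
    ⟨fun n hn g => (Subgroup.mem_normalizer_iff.1 (h g.2) n).1 hn⟩
  have := hn hTN
  have hφ := QuotientGroup.mk'_surjective (Q.subgroupOf T)
  obtain ⟨ψ, rfl⟩ := H8.exists_inflIrr_eq _ hφ (χ := χ) fun n hn x =>
    hχQ n (by rwa [QuotientGroup.ker_mk'] at hn) x (n * x) rfl
  have hA := H8.isPBlock_blockOf (M := M) ψ
  have hk : IsPGroup p (QuotientGroup.mk' (Q.subgroupOf T)).ker := by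
    rw [QuotientGroup.ker_mk']; exact H18.isPGroup_subgroupOf hp.isP
  obtain ⟨E, hE⟩ := H9.exists_isDefectGroup (p := p) hA
  obtain rfl : E = ⊥ := by
    have h2 := H8.factorization_card_eq (p := p) (Q.subgroupOf T)
    rw [Nat.card_congr (Subgroup.subgroupOfEquivOfLe hQT).toEquiv] at h2
    have h3 : charDegree (H8.inflIrr _ hφ ψ).1 = charDegree ψ.1 := by simp [charDegree]
    rw [← H8.blockDefect_eq_zero_iff hM hA hE, H9.blockDefect_eq_zero_iff_singleton hA
      (H8.mem_blockOf_self ψ), H8.blockOf_eq_singleton_iff hM, ← Subgroup.index_eq_card]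
    rw [h3] at hdeg
    omega
  have h2 := (H9.isDefectGroup_iff hA).1 hE
  have key : ∀ R ≤ T, (R.subgroupOf T).map (QuotientGroup.mk' (Q.subgroupOf T)) ≤ ⊥ → R ≤ Q :=
    fun R hR h x hx => (QuotientGroup.eq_one_iff (N := Q.subgroupOf T) ⟨x, hR hx⟩).1 (h ⟨_, hx, rfl⟩)
  refine ⟨(H9.isDefectGroup_subgroupOf he inf_le_right).2 ⟨inf_le_right, hp.isP.to_inf_left,
    H9.br_ne_zero_of_le inf_le_left (hp.br_self.symm ▸ hp.blk.ne_zero), fun D hD hDp h => ⟨1, one_mem _, ?_⟩⟩,
    fun R hR hRp h => key R hR ?_⟩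
  · rw [H9.cg_one]
    refine le_inf (key D (hD.trans hCT) ?_) hD
    have := hn (hTN.trans (H9.normalizer_le_normalizer_centralizer Q))
    have h3 : H9.IsBlk ((Subgroup.centralizer (Q : Set G)).subgroupOf T) (H8.eB M F') := by
      refine (H9.isPrim_em T.subtype_injective).1 ?_
      rw [H9.map_subgroupOf_subtype hCT]
      exact (h1.symm ▸ H9.isBlk_eI he : H9.IsBlk _ (H9.eI M F'))
    have h4 : (Subgroup.centralizer (Q : Set G)).subgroupOf T ≤
        Subgroup.centralizer ((QuotientGroup.mk' (Q.subgroupOf T)).ker : Set T) := fun x hx y hy =>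
      Subtype.ext (hx y (by rwa [QuotientGroup.ker_mk'] at hy))
    have h5 := h3.em_of_reg hk le_rfl Subgroup.le_normalizer fun x hx _ => h4 hx
    have h6 := H18.isPGroup_subgroupOf (H := T) hDp
    have h7 : H9.br (D.subgroupOf T) (H8.eB M F') ≠ 0 := by
      rwa [← H9.em_ne_zero T.subtype_injective, H9.em_br T.subtype_injective,
        H9.map_subgroupOf_subtype (hD.trans hCT), show H9.em _ T.subtype (H8.eB M F') = _ from h1]
    have := Subgroup.Normal.map this _ hφ
    have h8 := (H9.isBlk_eB hA).br_mul_ne_of_covers le_top (H9.top_le_normalizer_of_normal _)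
      (Subgroup.map_mono (Subgroup.subgroupOf_mono T hD)) (h6.map _) h5 (by
        rw [H8.Zen_comm (H8.eB_mem_Zen _), (H9.infl_mem_iff_mul hφ hA hU (H8.mem_blockOf_self ψ)).1 hχ]
        exact H8.eB_ne_zero hA) (by
        rw [← H9.em_br' _ h6 fun t _ => H9.cj_eB F' t]
        exact fun h0 => h7 (H9.idem_eq_zero_of_em hk (fun t ht => H9.cj_eq_of_supp_centralizer
          ((h3.supp.trunc _).mono (inf_le_left.trans h4)) ht)
          (H9.br_idem h6 (fun t _ => H9.cj_eB F' t) h3.idem) h0))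
    obtain ⟨t, -, ht⟩ := h2.exists_cg_le le_top (h6.map _) (left_ne_zero_of_mul h8)
    rwa [H9.cg_le_iff, H9.cg_bot] at ht
  · have := Subgroup.Normal.map (hn h) _ hφ
    exact h2.le_of_normal le_rfl (H9.isBlk_eB hA) ((H18.isPGroup_subgroupOf hRp).map _) le_top
      (H9.top_le_normalizer_of_normal _)

end Cfsg.Agent.S4694
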