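import Cfsg.Statements.S4695
import Mathlib
import Cfsg.Agent.H9.Nak3

set_option autoImplicit false
open Cfsg

namespace Cfsg.Agent.S4695

/-- Let p be a prime, M a maximal ideal of the algebraic integers containing p, and B a p-block of the finite group G whose defect group D is cyclic of order p^a with a ≥ 1. Let C = C_G(D), let b be a block of C inducing B, let T be the stabilizer of b in N_G(D) (the elements g of N_G(D) such that the g-conjugate of every member of b is again in b), and let e be the index of C in T (the inertial index of B). Then the p-regular rank of B (the dimension of the span of the restrictions of its members to the p-regular elements, classically the number l(B) of irreducible Brauer characters in B) equals e. -/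
theorem result {G : Type*} [Group G] [Finite G] (p : ℕ) [Fact p.Prime] (M : Ideal Cfsg.AlgInt) (hM : Cfsg.IsPModular p M) (D : Subgroup G) (hD : IsCyclic D) (a : ℕ) (ha : 1 ≤ a) (hDa : Nat.card D = p ^ a) (B : Set (Cfsg.IrrCharacter G)) (hB : Cfsg.IsPBlock M B) (hBD : Cfsg.IsDefectGroup p M B D) (b : Set (Cfsg.IrrCharacter (Subgroup.centralizer (D : Set G)))) (hind : Cfsg.IsInducedBlock M (Subgroup.centralizer (D : Set G)) b B) (T : Subgroup G) (hT : ∀ g : G, g ∈ T ↔ (g ∈ Subgroup.normalizer (D : Set G) ∧ ∀ θ ∈ b, ∀ θ' : Cfsg.IrrCharacter (Subgroup.centralizer (D : Set G)), (∀ h h' : Subgroup.centralizer (D : Set G), (h' : G) = g * h * g⁻¹ → (θ' : Subgroup.centralizer (D : Set G) → ℂ) h' = (θ : Subgroup.centralizer (D : Set G) → ℂ) h) → θ' ∈ b)) (e : ℕ) (he : (Subgroup.centralizer (D : Set G)).relIndex T = e) : Cfsg.blockRank p B = e := by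
  haveI := hM.2.1
  haveI : H9.PMod M p := ⟨hM⟩
  have h := H9.abD_of_induced hBD hind (H9.le_centralizer_of_cyc hD)
  obtain rfl : T = H9.pstab ⊤ D (H9.eI M b) := Subgroup.ext fun g => by
    rw [hT, H9.mem_pstab, and_iff_right (Subgroup.mem_top g)]
    exact and_congr_right fun hg => H9.stab_forall_iff
      (H9.mem_normalizer_iff_cg.1 (H9.normalizer_le_normalizer_centralizer D hg)) hind.1
  rw [← he]
  exact h.rank_of_cyc hD ((Subgroup.one_lt_card_iff_ne_bot D).1
    (hDa ▸ Nat.one_lt_pow (by omega) (Fact.out : p.Prime).one_lt))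

end Cfsg.Agent.S4695
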