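import Cfsg.Statements.S4696
import Mathlib
import Cfsg.Agent.H9.Nak3

set_option autoImplicit false
open Cfsg

namespace Cfsg.Agent.S4696

/-- Let p be a prime, M a maximal ideal of the algebraic integers containing p, and B a p-block of the finite group G whose defect group D is cyclic of order p^a with a ≥ 1. Let C = C_G(D), let b be a block of C inducing B, let T be the stabilizer of b in N_G(D) (the elements g of N_G(D) such that the g-conjugate of every member of b is again in b), and let e be the index of C in T (the inertial index of B). Then e divides p − 1, every irreducible character in B has height zero, and B is the disjoint union of a set X of e characters and a set Y of (p^a − 1)/e characters, the members of Y agreeing on p-regular elements, for which there are signs δ_χ = ±1 (χ ∈ X) and δ₀ = ±1 such that: for every ψ ∈ Y and every p-regular g, δ₀ ψ(g) + Σ_{χ ∈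 X} δ_χ χ(g) = 0; for all χ, χ' ∈ X the integers δ_χ χ(1) and δ_χ' χ'(1) are congruent modulo p^a; and for ψ ∈ Y and χ ∈ X, ψ(1) ≡ −e δ₀ δ_χ χ(1) modulo p^a. -/
theorem result {G : Type*} [Group G] [Finite G] (p : ℕ) [Fact p.Prime] (M : Ideal Cfsg.AlgInt) (hM : Cfsg.IsPModular p M) (D : Subgroup G) (hD : IsCyclic D) (a : ℕ) (ha : 1 ≤ a) (hDa : Nat.card D = p ^ a) (B : Set (Cfsg.IrrCharacter G)) (hB : Cfsg.IsPBlock M B) (hBD : Cfsg.IsDefectGroup p M B D) (b : Set (Cfsg.IrrCharacter (Subgroup.centralizer (D : Set G)))) (hind : Cfsg.IsInducedBlock M (Subgroup.centralizer (D : Set G)) b B) (T : Subgroup G) (hT : ∀ g : G, g ∈ T ↔ (g ∈ Subgroup.normalizer (D : Set G) ∧ ∀ θ ∈ b, ∀ θ' : Cfsg.IrrCharacter (Subgroup.centralizer (D : Set G)), (∀ h h' : Subgroup.centralizer (D : Set G), (h' : G) = g * h * g⁻¹ → (θ' : Subgroup.centralizer (D : Set G) → ℂ) h' = (θ : Subgroup.centralizer (D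 : Set G) → ℂ) h) → θ' ∈ b)) (e : ℕ) (he : (Subgroup.centralizer (D : Set G)).relIndex T = e) : e ∣ p - 1 ∧ (∀ χ ∈ B, Cfsg.blockHeight p B (χ : G → ℂ) = 0) ∧ ∃ X Y : Set (Cfsg.IrrCharacter G), B = X ∪ Y ∧ Disjoint X Y ∧ Nat.card X = e ∧ Nat.card Y = (p ^ a - 1) / e ∧ (∀ ψ ∈ Y, ∀ ψ' ∈ Y, ∀ g : G, ¬ p ∣ orderOf g → (ψ : G → ℂ) g = (ψ' : G → ℂ) g) ∧ ∃ (δ : Cfsg.IrrCharacter G → ℤ) (δ₀ : ℤ), (∀ χ ∈ X, δ χ = 1 ∨ δ χ = -1) ∧ (δ₀ = 1 ∨ δ₀ = -1) ∧ (∀ ψ ∈ Y, ∀ g : G, ¬ p ∣ orderOf g → (δ₀ : ℂ) * (ψ : G → ℂ) g + ∑ᶠ χ ∈ X, (δ χ : ℂ) * (χ : G → ℂ) g = 0) ∧ (∀ χ ∈ X, ∀ χ' ∈ X, δ χ * (Cfsg.charDegree (χ : G → ℂ) : ℤ) ≡ δ χ' * (Cfsg.charDegree (χ' : G → ℂ) : ℤ) [ZMOD (p : ℤ) ^ a]) ∧ (∀ ψ ∈ Y, ∀ χ ∈ X, (Cfsg.charDegree (ψ : G → ℂ) : ℤ) ≡ -((e : ℤ) * δ₀ * δ χ * (Cfsg.charDegree (χ : G → ℂ) : ℤ)) [ZMOD (p : ℤ) ^ a]) := by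
  haveI := hM.2.1
  haveI : H9.PMod M p := ⟨hM⟩
  have hp : p.Prime := Fact.out
  have h := H9.abD_of_induced hBD hind (H9.le_centralizer_of_cyc hD)
  obtain rfl : T = H9.pstab ⊤ D (H9.eI M b) := Subgroup.ext fun g => by
    rw [hT, H9.mem_pstab, and_iff_right (Subgroup.mem_top g)]
    exact and_congr_right fun hg => H9.stab_forall_iff
      (H9.mem_normalizer_iff_cg.1 (H9.normalizer_le_normalizer_centralizer D hg)) hind.1
  change H9.iidx D (H9.eI M b) = e at he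
  have h1 : D ≠ ⊥ := (Subgroup.one_lt_card_iff_ne_bot D).1 (hDa ▸ Nat.one_lt_pow (by omega) hp.one_lt)
  have hF := h.frD_of_cyc hD
  obtain ⟨δ, hδ⟩ := hF.exists_sgD
  obtain ⟨X, ψ, ε, d, hX, -⟩ := hδ.exists_fam h1 (h.le_rank_of_cyc hD h1) (H8.irrOne G)
  obtain ⟨Q, hQ, hQc⟩ := H3.exists_le_card_eq_pow (k := 1) h.max.isP
    (hDa ▸ Nat.pow_le_pow_right hp.pos ha)
  rw [pow_one] at hQc
  have hd : (d : ℂ) * d = 1 := by rcases hX.sd with h2 | h2 <;> simp [h2]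
  have hc : ∀ χ ∈ X, ∀ χ' ∈ X, ε χ * (charDegree (χ : G → ℂ) : ℤ) ≡
      ε χ' * (charDegree (χ' : G → ℂ) : ℤ) [ZMOD (p : ℤ) ^ a] := fun χ hχ χ' hχ' => by
    obtain ⟨k, hk⟩ := H9.pow_dvd_degree (p := p) (H6.isGen_sub (H6.isGen_intCast_smul (ε χ')
      (H6.isGen_of_irr χ'.2)) (H6.isGen_intCast_smul (ε χ) (H6.isGen_of_irr χ.2))) fun y hy =>
        sub_eq_zero.2 (hX.sing_eq hχ' hχ hy)
    simp only [Pi.sub_apply, Pi.smul_apply, smul_eq_mul, H8.irr_one_eq] at hk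
    refine Int.modEq_iff_dvd.2 ((pow_dvd_pow _ ((hp.pow_dvd_iff_le_factorization Nat.card_pos.ne').1
      (hDa ▸ D.card_subgroup_dvd_card))).trans ⟨k, by exact_mod_cast hk⟩)
  refine ⟨?_, fun χ hχ => hX.height h1 hχ, X, Set.range ψ, Set.ext fun χ => hX.mem χ,
    Set.disjoint_right.2 fun _ ⟨j, hj⟩ => hj ▸ hX.notMem j, by simpa [he] using hX.card, ?_, ?_,
    ε, -d, hX.sε, by rcases hX.sd with h2 | h2 <;> simp [h2], ?_, hc, ?_⟩
  · rw [← he, ← hQc]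
    exact hF.iidx_dvd hQ (fun h0 => hp.ne_one (by rw [← hQc, h0, Subgroup.card_bot]))
      (H9.AbD.T_le.trans (H9.normalizer_le_of_cyc hD hQ))
  · rw [Nat.card_range_of_injective hX.inj, hF.card_orb_eq, hDa, he]
  · rintro _ ⟨i, rfl⟩ _ ⟨j, rfl⟩ g hg
    rw [← one_mul ((ψ i).1 g), ← hd, mul_assoc, ← hX.rel i hg, hX.rel j hg, ← mul_assoc, hd, one_mul]
  · rintro _ ⟨i, rfl⟩ g hg
    rw [finsum_mem_coe_finset, hX.rel i hg]
    simp
  · rintro _ ⟨i, rfl⟩ χ hχ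
    have h2 := hX.rel i (H9.not_dvd_orderOf_one (p := p))
    simp only [H8.irr_one_eq] at h2
    have h3 : ∑ χ ∈ X, ε χ * (charDegree (χ : G → ℂ) : ℤ) = d * charDegree (ψ i : G → ℂ) := by
      exact_mod_cast h2
    have h4 := (Int.ModEq.sum (s := X) fun χ' hχ' => hc χ' hχ' χ hχ).mul_left d
    rw [h3, Finset.sum_const, hX.card, he, ← mul_assoc, show d * d = 1 by exact_mod_cast hd] at h4
    convert h4 using 1 <;> ring

end Cfsg.Agent.S4696
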