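import Cfsg.Statements.S4697
import Mathlib
import Cfsg.Agent.H9.KB

set_option autoImplicit false
open Cfsg

namespace Cfsg.Agent.S4697

open Subgroup in
theorem le_of_closure {G : Type*} [Group G] {D K : Subgroup G} {S : Finset D}
    (hS : closure (S : Set D) = ⊤) (h : ∀ s ∈ S, (s : G) ∈ K) : D ≤ K := fun d hd => by
  have : (⟨d, hd⟩ : D) ∈ K.subgroupOf D :=
    (closure_le (K.subgroupOf D)).2 (fun s hs => h s hs) (hS ▸ mem_top _)
  exact this

open Subgroup in
theorem card_sup_le {G : Type*} [Group G] [Finite G] {A B : Subgroup G}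
    (h : ∀ a ∈ A, ∀ b ∈ B, a * b = b * a) : Nat.card (A ⊔ B : Subgroup G) ≤ Nat.card A * Nat.card B := by
  rw [← Nat.card_prod]
  refine Nat.card_le_card_of_surjective
    (fun x : A × B => (⟨x.1 * x.2, mul_mem_sup x.1.2 x.2.2⟩ : (A ⊔ B : Subgroup G))) fun x => ?_
  obtain ⟨u, hu, c, hc, e⟩ := H9.exists_mul_of_mem_sup (H := A) (N := B) (fun a ha => by
    refine centralizer_le_normalizer _ fun b hb => (h a ha b hb).symm) x.2
  exact ⟨(⟨u, hu⟩, ⟨c, hc⟩), Subtype.ext e⟩

open Subgroup in
theorem three {G : Type*} [Group G] [Finite G] {p : ℕ} [hp : Fact p.Prime] {M : Ideal AlgInt}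
    (hM : IsPModular p M) {B : Set (IrrCharacter G)} (hB : IsPBlock M B) {D : Subgroup G}
    (hD : IsDefectGroup p M B D) (hab : ∀ a ∈ D, ∀ b ∈ D, a * b = b * a) {u v w : G} (hu : u ∈ D)
    (hv : v ∈ D) (hw : w ∈ D) (h : D ≤ zpowers u ⊔ (zpowers v ⊔ zpowers w))
    (h1 : orderOf v ≤ orderOf u) (h2 : orderOf w ≤ orderOf u) :
    Nat.card B ^ 3 ≤ Nat.card D ^ 5 := by
  haveI := hM.2.1
  haveI : H9.PMod M p := ⟨hM⟩
  obtain ⟨b, hb, hs, h3, h4⟩ := H9.exists_major hB hD hu fun d hd => hab d hd u hu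
  have hDZ : D ≤ centralizer {u} := fun d hd => mem_centralizer_singleton_iff.2 (hab d hd u hu)
  have h5 := hs.card_le le_rfl fun χ hχ => hs.contr_self_ne_zero_of_major hb hB h4 (H9.mem_bs.1 hχ)
  have := H9.normal_zpowers_of_comm hs.comm
  obtain ⟨A, hA, h6, h7, h8, -⟩ := H9.exists_dom (QuotientGroup.mk'_surjective _)
    hs.isP_ker (H9.mem_centralizer_ker_mk hs.comm) hb h3
  have h9 := H9.card_le_of_sup hA h6 (z := QuotientGroup.mk' _ ⟨v, hDZ hv⟩)
    (y := QuotientGroup.mk' _ ⟨w, hDZ hw⟩) (mem_map_of_mem _ hv) (by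
      rintro _ ⟨d, hd, rfl⟩
      rw [← map_mul, ← map_mul]
      exact congrArg _ (Subtype.ext (hab _ hd _ hv))) (mem_map_of_mem _ hw) (by
      have : D.subgroupOf (centralizer {u}) ≤ zpowers ⟨u, hs.mem⟩ ⊔
          (zpowers ⟨v, hDZ hv⟩ ⊔ zpowers ⟨w, hDZ hw⟩) := by
        rw [← map_le_map_iff_of_injective (centralizer {u}).subtype_injective, Subgroup.map_sup,
          Subgroup.map_sup, MonoidHom.map_zpowers, MonoidHom.map_zpowers, MonoidHom.map_zpowers,
          H9.map_subgroupOf_subtype hDZ]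
        exact h
      refine (map_mono this).trans ?_
      rw [Subgroup.map_sup, Subgroup.map_sup, MonoidHom.map_zpowers, MonoidHom.map_zpowers,
        MonoidHom.map_zpowers, sup_le_iff, zpowers_le]
      refine ⟨?_, le_rfl⟩
      have : QuotientGroup.mk' (zpowers (⟨u, hs.mem⟩ : centralizer {u})) ⟨u, hs.mem⟩ = 1 :=
        (QuotientGroup.eq_one_iff _).2 (mem_zpowers _)
      rw [this]
      exact one_mem _)
  rw [QuotientGroup.ker_mk', Nat.card_zpowers, orderOf_mk,
    Nat.card_congr (subgroupOfEquivOfLe hDZ).toEquiv] at h8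
  rw [H9.card_bs, h4, ← H8.card_defectGroup hM hB hD, h7] at h5
  have h10 : Nat.card D ≤ orderOf u ^ 3 := by
    have a1 := zpowers_le.2 hu
    have a2 := zpowers_le.2 hv
    have a3 := zpowers_le.2 hw
    refine (card_le_of_le h).trans ((card_sup_le fun a ha b hb =>
      hab a (a1 ha) b (sup_le a2 a3 hb)).trans ?_)
    rw [pow_succ', sq, Nat.card_zpowers]
    refine Nat.mul_le_mul_left _ ((card_sup_le fun a ha b hb => hab a (a2 ha) b (a3 hb)).trans ?_)
    rw [Nat.card_zpowers, Nat.card_zpowers]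
    exact Nat.mul_le_mul h1 h2
  have h11 := h5.trans (Nat.mul_le_mul_left _ ((H9.blockRank_le_card A).trans h9))
  generalize Nat.card ((D.subgroupOf (centralizer {u})).map (QuotientGroup.mk'
    (zpowers (⟨u, hs.mem⟩ : centralizer {u})))) = q at h8 h11
  have h12 : q ^ 3 ≤ Nat.card D ^ 2 := by
    refine Nat.le_of_mul_le_mul_left (c := Nat.card D) ?_ Nat.card_pos
    calc Nat.card D * q ^ 3 ≤ orderOf u ^ 3 * q ^ 3 := Nat.mul_le_mul_right _ h10
      _ = _ := by rw [← mul_pow, h8]; ring
  calc Nat.card B ^ 3 ≤ (Nat.card D * q) ^ 3 := Nat.pow_le_pow_left h11 3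
    _ = Nat.card D ^ 3 * q ^ 3 := mul_pow _ _ _
    _ ≤ Nat.card D ^ 3 * Nat.card D ^ 2 := Nat.mul_le_mul_left _ h12
    _ = _ := by ring

/-- Let p be a prime, M a maximal ideal of the algebraic integers containing p, and B a p-block of the finite group G with an abelian defect group D of order p^d. If D has rank 2 (its least number of generators is 2) then B contains at most p^d irreducible characters; if D has rank 3 then the number k of irreducible characters in B satisfies k^3 ≤ p^(5d). -/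
theorem result {G : Type*} [Group G] [Finite G] (p : ℕ) [Fact p.Prime] (M : Ideal Cfsg.AlgInt) (hM : Cfsg.IsPModular p M) (B : Set (Cfsg.IrrCharacter G)) (hB : Cfsg.IsPBlock M B) (D : Subgroup G) (hBD : Cfsg.IsDefectGroup p M B D) (hab : IsMulCommutative D) (d : ℕ) (hDd : Nat.card D = p ^ d) : (Group.rank D = 2 → Nat.card B ≤ p ^ d) ∧ (Group.rank D = 3 → Nat.card B ^ 3 ≤ p ^ (5 * d)) := by
  classical
  haveI := hM.2.1
  haveI : H9.PMod M p := ⟨hM⟩
  have hc : ∀ a ∈ D, ∀ b ∈ D, a * b = b * a := fun a ha b hb =>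
    congrArg Subtype.val (hab.is_comm.comm (⟨a, ha⟩ : D) ⟨b, hb⟩)
  obtain ⟨S, h1, h2⟩ := Group.rank_spec D
  have z := fun x : G => Subgroup.mem_zpowers x
  constructor <;> intro h <;> rw [h] at h1
  · obtain ⟨u, v, -, rfl⟩ := Finset.card_eq_two.1 h1
    rw [← hDd]
    refine H9.card_le_of_sup hB hBD u.2 (fun d hd => hc d hd u u.2) v.2 (le_of_closure h2 ?_)
    simp only [Finset.mem_insert, Finset.mem_singleton, forall_eq_or_imp, forall_eq]
    exact ⟨Subgroup.mem_sup_left (z _), Subgroup.mem_sup_right (z _)⟩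
  · obtain ⟨u, v, w, -, -, -, rfl⟩ := Finset.card_eq_three.1 h1
    rw [mul_comm, pow_mul, ← hDd]
    have key : ∀ a b c : D, ({u, v, w} : Finset D) ⊆ {a, b, c} → orderOf (b : G) ≤ orderOf (a : G) →
        orderOf (c : G) ≤ orderOf (a : G) → Nat.card B ^ 3 ≤ Nat.card D ^ 5 := fun a b c hs h3 h4 => by
      refine three hM hB hBD hc a.2 b.2 c.2 (le_of_closure h2 fun s h => ?_) h3 h4
      have := hs h
      simp only [Finset.mem_insert, Finset.mem_singleton] at this
      rcases this with rfl | rfl | rfl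
      · exact Subgroup.mem_sup_left (z _)
      · exact Subgroup.mem_sup_right (Subgroup.mem_sup_left (z _))
      · exact Subgroup.mem_sup_right (Subgroup.mem_sup_right (z _))
    rcases le_total (orderOf (u : G)) (orderOf (v : G)) with a | a <;>
      rcases le_total (orderOf (u : G)) (orderOf (w : G)) with b | b <;>
      rcases le_total (orderOf (v : G)) (orderOf (w : G)) with c | c
    all_goals first
      | exact key u v w (by intro; simp) (by omega) (by omega)
      | exact key v u w (by intro; simp; tauto) (by omega) (by omega)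
      | exact key w u v (by intro; simp; tauto) (by omega) (by omega)

end Cfsg.Agent.S4697
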