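import Cfsg.Statements.S4705
import Mathlib
import Cfsg.Agent.H9.P1f

set_option autoImplicit false
open Cfsg

namespace Cfsg.Agent.S4705

/-- Let G be a finite group with centre Z and p > 5 a prime such that a Sylow p-subgroup of G has order p and is not normal. If G has a faithful irreducible character of degree p − 2, then p = 2^a + 1 for some a and G is isomorphic to the direct product of SL(2, 2^a) with Z. -/
theorem result {G : Type*} [Group G] [Finite G] (p : ℕ) [Fact p.Prime] (hp : 5 < p) (P : Sylow p G) (hP : Nat.card P = p) (hnn : ¬ (P : Subgroup G).Normal) (ζ : G → ℂ) (hζ : Cfsg.IsIrrCharacter G ζ) (hfaith : ∀ g : G, ζ g = ζ 1 → g = 1) (hdeg : Cfsg.charDegree ζ = p - 2) : ∃ (a : ℕ) (F : Type) (_ : Field F) (_ : Fintype F), p = 2 ^ a + 1 ∧ Fintype.card F = 2 ^ a ∧ Nonempty (G ≃* Matrix.SpecialLinearGroup (Fin 2) F × Subgroup.center G) := by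
  obtain ⟨x, h, hx⟩ := H24.D1.exists_syl1 P hP
  have hp' : p.Prime := Fact.out
  have h7 : 7 ≤ p := by
    have : p ≠ 6 := by rintro rfl; norm_num at hp'
    omega
  exact H9.P1.sl_of_deg h (hx ▸ hnn) h7 ⟨ζ, hζ⟩ hfaith (show charDegree ζ + 2 = p by omega)

end Cfsg.Agent.S4705
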