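import Cfsg.Statements.S4706
import Mathlib
import Cfsg.Agent.H9.P1e
import Cfsg.Agent.S0157
import Cfsg.Agent.S0676
import Cfsg.Agent.S4702
import Cfsg.Agent.H16.PrimeDeg2

set_option autoImplicit false
open Cfsg

namespace Cfsg.Agent.S4706

/-- Let p > 2 be a prime and G a permutation group on p letters whose Sylow p-subgroup P has normalizer of order 2p. Then either P is normal in G, or p − 1 = 2^a for some a and G is isomorphic to SL(2, 2^a). -/
theorem result {α : Type*} [Fintype α] [DecidableEq α] {p : ℕ} [Fact p.Prime] (hp : 2 < p) (hα : Fintype.card α = p) (G : Subgroup (Equiv.Perm α)) (P : Sylow p G) (hN : Nat.card (Subgroup.normalizer ((P : Subgroup G) : Set G)) = 2 * p) : (P : Subgroup G).Normal ∨ ∃ (a : ℕ) (F : Type) (_ : Field F) (_ : Fintype F), p = 2 ^ a + 1 ∧ Fintype.card F = 2 ^ a ∧ Nonempty (G ≃* Matrix.SpecialLinearGroup (Fin 2) F) := by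
  classical
  refine or_iff_not_imp_left.2 fun hn => ?_
  have hp' : p.Prime := Fact.out
  have hα' : Nat.card α = p := by rw [Nat.card_eq_fintype_card, hα]
  have h1 : 2 * p ∣ Nat.card G := hN ▸ Subgroup.card_subgroup_dvd_card _
  obtain ⟨c, hc⟩ := exists_prime_orderOf_dvd_card' p ((Dvd.intro_left 2 rfl).trans h1)
  obtain ⟨e, he⟩ := H16.exists_coord hα' hc
  have : NeZero p := ⟨hp'.ne_zero⟩
  have : MulAction.IsPretransitive G α := ⟨fun a b => by
    obtain ⟨i, rfl⟩ := e.surjective a
    obtain ⟨j, rfl⟩ := e.surjective b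
    exact ⟨c ^ (j - i).val, by rw [H16.coord_pow he]; simp⟩⟩
  obtain ⟨x, h, hx⟩ := H24.D1.exists_syl1 P (H16.card_sylow_prime_deg hα' P)
  have hS : H24.D1.SC p x := ⟨h.ord, by
    rw [hx, ← H16.centralizer_sylow_prime_deg hα' P, ← hx, Subgroup.zpowers_eq_closure,
      Subgroup.centralizer_closure]⟩
  have h2 : H9.P1.ee x = 2 := mul_left_cancel₀ hp'.ne_zero (by
    rw [← hS.card_NN, H24.D1.NN, hx, hN, mul_comm])
  have h3 : 5 ≤ p := by
    by_contra h4
    have h5 : p = 3 := by
      have : p ≠ 4 := by rintro rfl; norm_num at hp'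
      omega
    refine hn (Subgroup.normalizer_eq_top_iff.1 (Subgroup.eq_top_of_le_card _ ?_))
    have h6 := Nat.le_of_dvd Nat.card_pos (Subgroup.card_subgroup_dvd_card G)
    rw [Nat.card_perm, hα', h5] at h6
    rw [hN, h5]
    exact h6
  have h4 : IsSimpleGroup G := H16.simple_of_prime_deg hα' P (by
    rw [h.card_sylow]
    exact lt_of_le_of_ne (Nat.pos_of_ne_zero Subgroup.index_ne_zero_of_finite) fun e =>
      hn (hx ▸ H9.P1.normal_of_index e.symm)) (by
    rw [H9.P1.ee, hS.cent, H24.D1.NN, hx] at h2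
    exact h2 ▸ Nat.prime_two)
  have h5 := S0676.result hα G (fun hs => hn ⟨fun n hn g => by
    rwa [IsSimpleGroup.comm_iff_isSolvable.2 hs g n, mul_inv_cancel_right]⟩) P (by
      rw [hN]; exact even_two_mul p)
  have h6 := (S0157.result (G := G) α (by omega)).2
    (MulAction.isMultiplyPretransitive_of_le (n := 3) (by norm_num) (by omega))
  have h7 : ∀ g : G, p ∣ orderOf g → Nat.card (MulAction.fixedBy α g) = 0 := fun g hg => by
    obtain ⟨e, he⟩ := H16.exists_coord hα' (H9.P1.order_eq hS hg)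
    refine Nat.card_eq_zero.2 (.inl ⟨fun ⟨a, ha⟩ => ?_⟩)
    obtain ⟨i, rfl⟩ := e.surjective a
    simpa using (he i).trans ha
  obtain ⟨a, -, h8, F, _, _, h9⟩ := S4702.result (by omega) (hα ▸ hp'.odd_of_ne_two hp.ne') G h5
    fun g hg => by
      have h8 := H9.P1.e2_sq hS h2 h3 (χ := ⟨_, h6⟩) (by
        simp [charDegree, hα, ← Nat.cast_pred hp'.pos, Nat.sub_add_cancel hp'.pos])
        (fun g hg => by simp only [h7 g hg]; simp) (y := g) fun h8 => by
          rw [h7 g h8] at hg; omega
      have h9 : Nat.card (MulAction.fixedBy α g) ≤ Nat.card (MulAction.fixedBy α (g * g)) :=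
        Nat.card_mono (Set.toFinite _) fun a ha => by
          rw [MulAction.mem_fixedBy] at ha ⊢
          rw [mul_smul, ha, ha]
      simp only at h8
      norm_cast at h8
      have h10 : p ≤ Nat.card (MulAction.fixedBy α g) := by
        by_contra! h10
        simp only [Int.subNatNat_eq_coe] at h8
        zify at hg h9 h10
        push_cast at h8
        nlinarith
      have h11 : MulAction.fixedBy α g = Set.univ :=
        Set.eq_of_subset_of_ncard_le (Set.subset_univ _) (by rwa [Set.ncard_univ, hα'])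
      exact Subtype.ext (Equiv.ext fun a => (h11 ▸ Set.mem_univ a : a ∈ MulAction.fixedBy α g))
  exact ⟨a, F, _, _, hα ▸ h8, h9⟩

end Cfsg.Agent.S4706
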