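import Cfsg.Statements.S4708
import Mathlib
import Cfsg.Agent.H9.Misc

set_option autoImplicit false
open Cfsg

namespace Cfsg.Agent.S4708

/-- Let p be a prime, M a maximal ideal of the algebraic integers containing p, G a finite group and H a normal subgroup. Write λ(X) for the sum of the squares of the degrees of the irreducible characters in the principal p-block of a group X. Then λ(H) ≤ λ(G) ≤ [G : H]·λ(H). -/
theorem result {G : Type*} [Group G] [Finite G] (p : ℕ) [Fact p.Prime] (M : Ideal Cfsg.AlgInt) (hM : Cfsg.IsPModular p M) (H : Subgroup G) [H.Normal] : (∑ᶠ θ ∈ Cfsg.principalBlock M H, Cfsg.charDegree (θ : H → ℂ) ^ 2) ≤ (∑ᶠ χ ∈ Cfsg.principalBlock M G, Cfsg.charDegree (χ : G → ℂ) ^ 2) ∧ (∑ᶠ χ ∈ Cfsg.principalBlock M G, Cfsg.charDegree (χ : G → ℂ) ^ 2) ≤ H.index * ∑ᶠ θ ∈ Cfsg.principalBlock M H, Cfsg.charDegree (θ : H → ℂ) ^ 2 := by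
  classical
  haveI := hM.2.1; haveI : H9.PMod M p := ⟨hM⟩
  have := Fintype.ofFinite H
  have hB := H8.isPBlock_principalBlock (M := M) (G := G)
  have hb := H8.isPBlock_principalBlock (M := M) (G := H)
  have hc : ∀ χ : IrrCharacter G, IsCharacter H fun n : H => χ.1 n := fun χ =>
    H8.char_comp H.subtype (H8.irr_isChar χ)
  choose a ha using fun (χ : IrrCharacter G) (θ : IrrCharacter H) =>
    H7.ip_char_nat (hc χ) (H8.irr_isChar θ)
  have hcov : H8.eB M (principalBlock M G) * H9.eI M (principalBlock M H) ≠ 0 := fun h => by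
    have := congrArg H9.aug h
    rw [map_mul, H9.eB_principal, H9.eI_principal, H9.aug_prin, H9.aug_prin] at this
    simp at this
  have h1 : ∀ χ ∈ H9.bs (principalBlock M G), charDegree χ.1 ^ 2 =
      ∑ θ ∈ H9.bs (principalBlock M H), charDegree θ.1 * (a χ θ * charDegree χ.1) := fun χ hχ => by
    have h2 := (H9.blockPart_eq_self_iff (B := principalBlock M H) (H7.char_cf (hc χ))).2
      fun θ hθ => by
        by_contra h
        have h3 := H8.isPBlock_blockOf (M := M) θ
        obtain ⟨t, -, ht⟩ := (H9.isBlk_eB hB).exists_cj_of_covers le_top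
          (H9.top_le_normalizer_of_normal H) (H9.isBlk_eI hb) (H9.isBlk_eI h3) hcov
          (H9.covers_of_constituent hB (H9.mem_bs.1 hχ) (by rwa [← H7.ip_eq_classInner]))
        rw [H9.eI_principal, H9.cj_prin_of_mem (H9.top_le_normalizer_of_normal H trivial),
          ← H9.eI_principal, H9.eI_inj hb h3] at ht
        exact hθ (ht ▸ H8.mem_blockOf_self θ)
    have h3 := congrFun h2 1
    rw [H9.blockPart_eq_bs, Finset.sum_apply] at h3
    simp only [ha, Pi.smul_apply, OneMemClass.coe_one, H8.irr_one_eq, smul_eq_mul] at h3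
    norm_cast at h3
    rw [sq]
    nth_rw 1 [← h3]
    rw [Finset.sum_mul]
    exact Finset.sum_congr rfl fun _ _ => by ring
  rw [H9.finsum_bs, H9.finsum_bs, Finset.sum_congr rfl h1, Finset.sum_comm, Finset.mul_sum]
  simp only [← Finset.mul_sum, sq]
  refine ⟨Finset.sum_le_sum fun θ hθ => Nat.mul_le_mul_left _ ?_, ?_⟩
  · obtain ⟨χ, hχ, h2⟩ := H9.exists_over_of_covers hB hb hcov (H9.mem_bs.1 hθ)
    rw [← H7.ip_eq_classInner, ha, Nat.cast_ne_zero] at h2
    have h3 := H7.degree_le_of_ip (hc χ) θ.2 (ha χ θ) (H8.irr_one_eq χ) (H8.irr_one_eq θ)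
    refine le_trans ?_ (Finset.single_le_sum (f := fun χ => a χ θ * charDegree χ.1)
      (fun _ _ => Nat.zero_le _) (H9.mem_bs.2 hχ))
    exact ((Nat.le_mul_of_pos_left _ (Nat.pos_of_ne_zero h2)).trans h3).trans
      (Nat.le_mul_of_pos_left _ (Nat.pos_of_ne_zero h2))
  · rw [Finset.mul_sum]
    refine Finset.sum_le_sum fun θ _ => ?_
    have h2 := congrFun (H9.blockPart_univ (H7.ind_cf H.subtype θ.1)) 1
    rw [H9.blockPart_eq_bs, Finset.sum_apply, H7.ind_apply_one H.subtype_injective] at h2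
    simp only [H7.ip_ind_left _ _ (H7.irr_cf (Subtype.prop _)), Subgroup.subtype_apply,
      H7.ip_natCast_comm (ha _ θ), Pi.smul_apply, H8.irr_one_eq, smul_eq_mul, H.range_subtype] at h2
    norm_cast at h2
    rw [mul_left_comm, ← h2]
    exact Nat.mul_le_mul_left _ (Finset.sum_le_sum_of_subset fun χ _ => H9.mem_bs.2 trivial)

end Cfsg.Agent.S4708
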