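import Cfsg.Statements.S4709
import Mathlib
import Cfsg.Agent.H8.Abel

set_option autoImplicit false
open Cfsg

namespace Cfsg.Agent.S4709

/-- Let p be a prime, M a maximal ideal of the algebraic integers containing p, and G a finite group with a nontrivial abelian Sylow p-subgroup P; put N = N_G(P), C = C_G(P). Suppose N/C is cyclic of order m with 1 < m < #P − 1 (C has index m in N and N is generated by C and one element), and C_G(y) ∩ N = C for every non-identity y ∈ P. Put r = (#P − 1)/m. Then there is s ≤ m such that the principal p-block is the disjoint union of a set X of s characters containing the principal character and a set Y of r characters, with integers a_χ ≠ 0 (χ ∈ X), d and a sign δ = ±1, such that: every χ ∈ X takes the value a_χ at every element whose p-part is a non-identity element of P; there is a map ζ from the non-principal linear characters ψ of P onto Y, constant on N-conjugacy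 classes, with ζ_ψ(z) = d + δ·Σ ψ'(y) for every z whose p-part y is a non-identity element of P, the sum running over the N-conjugates ψ' of ψ; (d − δ)^2 + (r − 1) d^2 + Σ_{χ ∈ X} a_χ^2 = m + 1; all members of Y agree on p-regular elements; and (r d − δ) η(g) + Σ_{χ ∈ X} a_χ χ(g) = 0 for every η ∈ Y and every p-regular g. -/
theorem result {G : Type*} [Group G] [Finite G] (p : ℕ) [Fact p.Prime] (M : Ideal Cfsg.AlgInt) (hM : Cfsg.IsPModular p M) (P : Sylow p G) (hab : IsMulCommutative P) (hP1 : Nat.card P ≠ 1) (m : ℕ) (hm1 : 1 < m) (hm2 : m + 1 < Nat.card P) (hCN : (Subgroup.centralizer ((P : Subgroup G) : Set G)).relIndex (Subgroup.normalizer ((P : Subgroup G) : Set G)) = m) (hcyc : ∃ g : G, g ∈ Subgroup.normalizer ((P : Subgroup G) : Set G) ∧ Subgroup.centralizer ((P : Subgroup G) : Set G) ⊔ Subgroup.zpowers g = Subgroup.normalizer ((P : Subgroup G) : Set G)) (hfrob : ∀ y : G, y ∈ (P : Subgroup G)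 → y ≠ 1 → Subgroup.centralizer ({y} : Set G) ⊓ Subgroup.normalizer ((P : Subgroup G) : Set G) = Subgroup.centralizer ((P : Subgroup G) : Set G)) : ∃ (s : ℕ) (X Y : Set (Cfsg.IrrCharacter G)), s ≤ m ∧ Cfsg.principalBlock M G = X ∪ Y ∧ Disjoint X Y ∧ Nat.card X = s ∧ Nat.card Y = (Nat.card P - 1) / m ∧ (∃ χ₁ ∈ X, (χ₁ : G → ℂ) = fun _ => 1) ∧ ∃ (a : Cfsg.IrrCharacter G → ℤ) (d δ : ℤ) (ζ : (↥(P : Subgroup G) →* ℂˣ) → Cfsg.IrrCharacter G), (δ = 1 ∨ δ = -1) ∧ (∀ χ ∈ X, a χ ≠ 0 ∧ ∀ z y : G, Cfsg.IsPPart p z y → y ∈ (P : Subgroup G) → y ≠ 1 → (χ : G → ℂ) z = (a χ : ℂ)) ∧ (∀ ψ : ↥(P : Subgroup G) →* ℂˣ, ψ ≠ 1 → ζ ψ ∈ Y) ∧ (∀ η ∈ Y, ∃ ψ : ↥(P : Subgroup G) →* ℂˣ, ψ ≠ 1 ∧ ζ ψ = η) ∧ (∀ ψ ψ' : ↥(P : Subgroup G) →* ℂˣ, ψ ≠ 1 → (∃ n : G, n ∈ Subgroup.normalizer ((P : Subgroup G) : Set G) ∧ ∀ w w' : ↥(P : Subgroup G), (w' : G) = n * w * n⁻¹ → ψ' w' = ψ w) → ζ ψ' = ζ ψ) ∧ (∀ ψ : ↥(P : Subgroup G) →* ℂˣ, ψ ≠ 1 → ∀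 (z : G) (y : ↥(P : Subgroup G)), Cfsg.IsPPart p z (y : G) → (y : G) ≠ 1 → (ζ ψ : G → ℂ) z = (d : ℂ) + (δ : ℂ) * ∑ᶠ ψ' ∈ {ψ' : ↥(P : Subgroup G) →* ℂˣ | ∃ n : G, n ∈ Subgroup.normalizer ((P : Subgroup G) : Set G) ∧ ∀ w w' : ↥(P : Subgroup G), (w' : G) = n * w * n⁻¹ → ψ' w' = ψ w}, ((ψ' y : ℂˣ) : ℂ)) ∧ ((d - δ) ^ 2 + ((Nat.card P - 1) / m - 1 : ℤ) * d ^ 2 + ∑ᶠ χ ∈ X, a χ ^ 2 = (m : ℤ) + 1) ∧ (∀ η ∈ Y, ∀ η' ∈ Y, ∀ g : G, ¬ p ∣ orderOf g → (η : G → ℂ) g = (η' : G → ℂ) g) ∧ (∀ η ∈ Y, ∀ g : G, ¬ p ∣ orderOf g → ((((Nat.card P - 1) / m : ℕ) : ℂ) * d - δ) * (η : G → ℂ) g + ∑ᶠ χ ∈ X, (a χ : ℂ) * (χ : G → ℂ) g = 0) := by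
  open H8 H9 in classical
  have := hM.2.1
  have := Fintype.ofFinite G
  have := finite_lin (Q := (P : Subgroup G))
  have := Fintype.ofFinite (Quotient (orbS (autP P)))
  have hA : Nat.card (autP P) = m := (card_autP P).trans hCN
  have hr := card_orb hab.1.1 (autP_fpf hfrob)
  rw [hA, Nat.card_eq_fintype_card] at hr
  have hr' : (Nat.card P - 1) / m = Fintype.card (Quotient (orbS (autP P))) := by
    rw [← hr, Nat.add_sub_cancel, Nat.mul_div_cancel _ (by omega)]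
  have hr2 : 1 < Fintype.card (Quotient (orbS (autP P))) := by
    by_contra! h
    nlinarith
  have := Fintype.one_lt_card_iff_nontrivial.1 hr2
  obtain ⟨ε, d, μ, a, h1, h2, h3, h4, h5, h6, h7, h8, h9, -, h10, h11⟩ := syl_struct hab hfrob hM
  have e1 : (d - ε) ^ 2 + ((Nat.card P - 1) / m - 1 : ℤ) * d ^ 2 +
      ∑ᶠ χ ∈ principalBlock M G \ Set.range μ, a χ ^ 2 = (m : ℤ) + 1 := by
    rw [dotProduct, sum_split h2 h3 (fun χ h => by simp [h7 χ h]), hA] at h11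
    rw [← hr]
    simp only [h4, ← sq, Finset.sum_const, Finset.card_univ, nsmul_eq_mul] at h11
    push_cast
    rw [add_sub_cancel_right, Int.mul_ediv_cancel _ (by omega)]
    rcases h1 with rfl | rfl <;> linarith
  have e2 : ∀ i j g, ¬ p ∣ orderOf g → (μ i : G → ℂ) g = (μ j : G → ℂ) g := fun i j g hg =>
    mul_left_cancel₀ (by rcases h1 with rfl | rfl <;> simp) ((h10 i g hg).symm.trans (h10 j g hg))
  refine ⟨_, principalBlock M G \ Set.range μ, Set.range μ, ?_,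
    (Set.sdiff_union_of_subset (Set.range_subset_iff.2 h3)).symm, Set.disjoint_sdiff_left, rfl,
    by rw [hr', Nat.card_range_of_injective h2, Nat.card_eq_fintype_card],
    ⟨irrOne G, ⟨irrOne_mem_principalBlock, fun ⟨i, e⟩ => h5 i e⟩, rfl⟩, a, d, ε,
    fun ψ => if h : ψ = 1 then irrOne G else μ (Quotient.mk _ ⟨ψ, h⟩), h1,
    fun χ hχ => h8 χ hχ.1 fun i e => hχ.2 ⟨i, e⟩, fun ψ h => by simp [h], ?_, fun ψ ψ' h e => ?_,
    fun ψ h z y e hy => by simp only [dif_neg h]; rw [h9 _ z y e hy, orb_finsum_eq hab hfrob h], e1,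
    by rintro _ ⟨i, rfl⟩ _ ⟨j, rfl⟩; exact e2 i j, ?_⟩
  · have e3 : (Nat.card (principalBlock M G \ Set.range μ : Set _) : ℤ) ≤
        ∑ᶠ χ ∈ principalBlock M G \ Set.range μ, a χ ^ 2 := by
      rw [finsum_mem_eq_toFinset_sum, Nat.card_eq_card_toFinset, Finset.card_eq_sum_ones]
      push_cast
      exact Finset.sum_le_sum fun χ hχ => (one_le_sq_iff_one_le_abs _).2 (Int.one_le_abs
        (h8 χ (Set.mem_toFinset.1 hχ).1 fun i e => (Set.mem_toFinset.1 hχ).2 ⟨i, e⟩).1)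
    have e4 : (1 : ℤ) ≤ (Nat.card P - 1) / m - 1 := by
      rw [← hr]
      push_cast
      rw [add_sub_cancel_right, Int.mul_ediv_cancel _ (by omega)]
      omega
    have e5 : 1 ≤ (d - ε) ^ 2 + ((Nat.card P - 1) / m - 1 : ℤ) * d ^ 2 := by
      by_cases h : d = 0
      · rcases h1 with rfl | rfl <;> simp [h]
      · nlinarith [sq_nonneg (d - ε), (one_le_sq_iff_one_le_abs _).2 (Int.one_le_abs h)]
    omega
  · rintro _ ⟨i, rfl⟩
    obtain ⟨ψ, rfl⟩ := Quotient.exists_rep i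
    exact ⟨ψ.1, ψ.2, dif_neg ψ.2⟩
  · obtain ⟨α, rfl⟩ := (Set.ext_iff.1 (orb_set_eq ψ) ψ').1 e
    simp only [dif_neg h, dif_neg (cmp_ne_one h _)]
    exact congrArg μ (Quotient.sound (s := orbS (autP P)) ⟨α, rfl⟩).symm
  · rintro _ ⟨i, rfl⟩ g hg
    have e := h10 i g hg
    rw [sum_split h2 h3 (fun χ h => by simp [h7 χ h])] at e
    simp only [h4, fun j => e2 j i g hg, Finset.sum_const, Finset.card_univ, nsmul_eq_mul] at e
    rw [hr']
    linear_combination e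

end Cfsg.Agent.S4709
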