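import Cfsg.Statements.S4710
import Mathlib
import Cfsg.Agent.H9.Contr

set_option autoImplicit false
open Cfsg

namespace Cfsg.Agent.S4710

/-- Let p be a prime, M a maximal ideal of the algebraic integers containing p, and B a p-block of defect d of the finite group G containing k irreducible characters. If B contains a character of positive height then 2k ≤ p^(2d − 2); and every character in B has height 0 when d ≤ 1 and height at most d − 2 when d ≥ 2. -/
theorem result {G : Type*} [Group G] [Finite G] (p : ℕ) [Fact p.Prime] (M : Ideal Cfsg.AlgInt) (hM : Cfsg.IsPModular p M) (B : Set (Cfsg.IrrCharacter G)) (hB : Cfsg.IsPBlock M B) (d : ℕ) (hd : Cfsg.blockDefect p B = d) : ((∃ χ ∈ B, 0 < Cfsg.blockHeight p B (χ : G → ℂ)) → 2 * Nat.card B ≤ p ^ (2 * d - 2)) ∧ ∀ χ ∈ B, (d ≤ 1 → Cfsg.blockHeight p B (χ : G → ℂ) = 0) ∧ (2 ≤ d → Cfsg.blockHeight p B (χ : G → ℂ) ≤ d - 2) := by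
  haveI := hM.2.1
  haveI : H9.PMod M p := ⟨hM⟩
  classical
  subst hd
  refine ⟨?_, fun χ hχ => ?_⟩
  · rintro ⟨χ, hχ, h⟩
    obtain ⟨ψ, hψ, h0⟩ := H8.exists_height_zero (p := p) hB
    have hd := H9.height_add_two_le hB hχ h.ne'
    have hu := H8.isBlockUnion_of_block hB
    have h1 := H9.four_mul_sum_erase_le (p := p) hu hχ
    have h2 := H9.four_mul_sum_erase_le (p := p) hu hψ
    have hp1 : (1 : ℤ) ≤ p := by exact_mod_cast hM.1.one_le
    have h3 : ∑ ξ ∈ (H9.bs B).filter (fun ξ : IrrCharacter G => blockHeight p B (ξ : G → ℂ) = 0), (p : ℤ) ^ 2 ≤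
        ∑ ξ ∈ (H9.bs B).erase χ, H9.mZ p B χ ξ ^ 2 := by
      refine le_trans (Finset.sum_le_sum fun ξ hξ => ?_) (Finset.sum_le_sum_of_subset_of_nonneg
        (fun ξ hξ => ?_) fun _ _ _ => sq_nonneg _)
      · rw [Finset.mem_filter, H9.mem_bs] at hξ
        exact (pow_le_pow_right₀ hp1 (by omega)).trans (H9.pow_le_mZ_sq hB hχ hξ.1 hξ.2)
      · rw [Finset.mem_filter] at hξ
        exact Finset.mem_erase.2 ⟨fun e => h.ne' (e ▸ hξ.2), hξ.1⟩
    have h4 : ∑ ξ ∈ (H9.bs B).filter (fun ξ : IrrCharacter G => ¬ blockHeight p B (ξ : G → ℂ) = 0), (p : ℤ) ^ 2 ≤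
        ∑ ξ ∈ (H9.bs B).erase ψ, H9.mZ p B ψ ξ ^ 2 := by
      refine le_trans (Finset.sum_le_sum fun ξ hξ => ?_) (Finset.sum_le_sum_of_subset_of_nonneg
        (fun ξ hξ => ?_) fun _ _ _ => sq_nonneg _)
      · rw [Finset.mem_filter, H9.mem_bs] at hξ
        rw [H9.mZ_comm]
        exact (pow_le_pow_right₀ hp1 (by omega)).trans (H9.pow_le_mZ_sq hB hξ.1 hψ h0)
      · rw [Finset.mem_filter] at hξ
        exact Finset.mem_erase.2 ⟨fun e => hξ.2 (e ▸ h0), hξ.1⟩
    have h5 := Finset.sum_filter_add_sum_filter_not (H9.bs B)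
      (fun ξ => blockHeight p B (ξ : G → ℂ) = 0) (fun _ => (p : ℤ) ^ 2)
    rw [Finset.sum_const (s := H9.bs B), H9.card_bs, nsmul_eq_mul] at h5
    have h6 : (p : ℤ) ^ (2 * blockDefect p B) = p ^ (2 * blockDefect p B - 2) * p ^ 2 := by
      rw [← pow_add]; congr 1; omega
    zify
    refine le_of_mul_le_mul_right ?_ (show (0 : ℤ) < p ^ 2 by positivity)
    linarith
  · by_cases h : blockHeight p B (χ : G → ℂ) = 0
    · omega
    · have := H9.height_add_two_le hB hχ h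
      omega

end Cfsg.Agent.S4710
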