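import Cfsg.Statements.S4711
import Mathlib
import Cfsg.Agent.H8.Prin2
import Cfsg.Agent.S0938
import Cfsg.Agent.H5.PLen

set_option autoImplicit false
open Cfsg

namespace Cfsg.Agent.S4711

/-- Let p be a prime, M a maximal ideal of the algebraic integers containing p, G a finite group, P a Sylow p-subgroup and N = N_G(P). Then G has p-length 1 (G = O_{p',p,p'}(G)) if and only if every irreducible character in the principal p-block of G restricts to an irreducible character of N. -/
theorem result {G : Type*} [Group G] [Finite G] (p : ℕ) [Fact p.Prime] (M : Ideal Cfsg.AlgInt) (hM : Cfsg.IsPModular p M) (P : Sylow p G) : Cfsg.PLengthLE p 1 G ↔ ∀ χ ∈ Cfsg.principalBlock M G, Cfsg.IsIrrCharacter ↥(Subgroup.normalizer ((P : Subgroup G) : Set G)) (fun n : ↥(Subgroup.normalizer ((P : Subgroup G) : Set G)) => (χ : G → ℂ) n) := by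
  classical
  haveI := hM.2.1
  have := H2.pPrimeCore_characteristic (p := p) (G := G)
  constructor
  · intro h χ hχ
    have := (H5b.pLengthLE_one_iff_normal P).1 h
    obtain ⟨ψ, hψ, h1⟩ := H6.exists_irr_quotient _ χ.2
      (H8.le_charKer_of_principal hM hχ (pPrimeCore p G) H2.pPrimeCore_coprime)
    rw [h1]
    refine H6.isIrr_comp_of_surjective ((QuotientGroup.mk' _).comp (Subgroup.subtype _))
      (fun q => ?_) hψ
    obtain ⟨g, rfl⟩ := QuotientGroup.mk'_surjective _ q
    have h2 : g ∈ Subgroup.normalizer ((P : Subgroup G) : Set G) ⊔ pPrimeCore p G := by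
      have h3 := Sylow.normalizer_sup_eq_top' P (N := pPrimeCore p G ⊔ P) le_sup_right
      rw [sup_comm (pPrimeCore p G), ← sup_assoc, P.coe_coe.symm,
        sup_of_le_left Subgroup.le_normalizer] at h3
      exact h3 ▸ Subgroup.mem_top g
    obtain ⟨n, hn, k, hk, rfl⟩ := Subgroup.mem_sup_of_normal_right.1 h2
    exact ⟨⟨n, hn⟩, by simp [(QuotientGroup.eq_one_iff k).2 hk]⟩
  intro h
  have := H8.finite_irr (G := G)
  have := Fintype.ofFinite (IrrCharacter G)
  have := Fintype.ofFinite (P : Subgroup G)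
  set K := Subgroup.normalClosure ((P : Subgroup G) : Set G)
  have h1 : ∀ χ ∈ principalBlock M G, ∑ x : (P : Subgroup G), (χ : G → ℂ) x ≠ 0 →
      K ≤ H6.charKer (χ : G → ℂ) := fun χ hχ h1 => by
    have := H6.charKer_normal (H7.irr_cf χ.2)
    refine Subgroup.normalClosure_le_normal fun x hx => (H6.mem_charKer_iff_irr χ.2).2 ?_
    by_contra h2
    have := Fintype.ofFinite ((P : Subgroup G).subgroupOf (Subgroup.normalizer ((P : Subgroup G) : Set G)))
    refine h1 (Eq.trans ?_ (H6.sum_normal_eq_zero ((P : Subgroup G).subgroupOf _) (h χ hχ) fun h3 =>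
      h2 ((H6.mem_charKer_iff_irr (h χ hχ)).1 (h3 (x := ⟨x, Subgroup.le_normalizer hx⟩) hx))))
    exact (Fintype.sum_equiv (Subgroup.subgroupOfEquivOfLe Subgroup.le_normalizer).toEquiv _ _
      fun _ => rfl).symm
  have h2 : ∀ s : G, ¬ p ∣ orderOf s → ∑ χ : IrrCharacter G with χ ∈ principalBlock M G,
      (∑ x : (P : Subgroup G), (χ : G → ℂ) x) * starRingEnd ℂ ((χ : G → ℂ) s) =
      ∑ χ : IrrCharacter G with χ ∈ principalBlock M G,
        (χ : G → ℂ) 1 * starRingEnd ℂ ((χ : G → ℂ) s) := fun s hs => by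
    simp only [Finset.sum_mul]
    rw [Finset.sum_comm, Finset.sum_eq_single_of_mem 1 (Finset.mem_univ _) fun x _ hx => ?_]
    · rfl
    obtain ⟨k, hk⟩ := IsPGroup.iff_orderOf.1 P.2 x
    refine H8.weak_orthogonality hM (H8.isBlockUnion_of_block H8.isPBlock_principalBlock) hs ?_
    rw [Subgroup.orderOf_coe, hk]
    exact dvd_pow_self _ fun h => hx (orderOf_eq_one_iff.1 (by rw [hk, h, pow_zero]))
  obtain ⟨L, _, h3, h4, -⟩ := S0938.result p M hM _ H8.isPBlock_principalBlock _
    (H8.irrOne_mem_principalBlock (G := G))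
  have h5 : ∀ s ∈ K, ¬ p ∣ orderOf s → s ∈ L := fun s hs h5 => by
    have h6 := (h2 s h5).symm.trans ((Finset.sum_congr rfl fun χ hχ => by
      by_cases h6 : ∑ x : (P : Subgroup G), (χ : G → ℂ) x = 0
      · rw [h6, zero_mul, zero_mul]
      · rw [(H6.mem_charKer_iff_irr χ.2).1 (h1 χ (Finset.mem_filter.1 hχ).2 h6 hs)]).trans
        (h2 1 H9.not_dvd_orderOf_one))
    rw [← SetLike.mem_coe, h3]
    intro χ hχ
    have h7 : ∀ ψ : IrrCharacter G, ‖(ψ : G → ℂ) s‖ ≤ charDegree (ψ : G → ℂ) := fun ψ =>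
      H6.isCharacter_norm_le' (H8.irr_isChar ψ) (H8.irr_one_eq ψ) s
    have h8 := congrArg Complex.re h6
    simp only [H8.irr_one_eq, Complex.re_sum, map_natCast, Complex.mul_re, Complex.conj_re, Complex.natCast_im, zero_mul, sub_zero,
      Complex.natCast_re] at h8
    have h9 := (Finset.sum_eq_sum_iff_of_le fun ψ _ => mul_le_mul_of_nonneg_left
      ((Complex.re_le_norm _).trans (h7 ψ)) (Nat.cast_nonneg _)).1 h8 χ (by simpa using hχ)
    rw [mul_right_inj' (Nat.cast_ne_zero.2 (H8.charDegree_irr_ne_zero χ))] at h9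
    rw [H8.irr_one_eq]
    exact Complex.ext h9 (Complex.abs_re_eq_norm.1 (le_antisymm (Complex.abs_re_le_norm _)
      ((h7 χ).trans (h9 ▸ le_abs_self _))))
  refine (H5b.pLengthLE_one_iff_le P).2 (Subgroup.le_normalClosure.trans (H5.le_opMod fun x hx =>
    ⟨(orderOf x).factorization p, H2.le_pPrimeCore ((Nat.Prime.coprime_iff_not_dvd Fact.out).2 h4).symm
      (h5 _ (pow_mem hx _) ?_)⟩))
  rw [orderOf_pow_of_dvd (pow_ne_zero _ (Fact.out : p.Prime).ne_zero) (Nat.ordProj_dvd _ _)]
  exact Nat.not_dvd_ordCompl Fact.out (orderOf_pos x).ne'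

end Cfsg.Agent.S4711
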