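import Cfsg.Statements.S4712
import Mathlib
import Cfsg.Agent.H9.PRat

set_option autoImplicit false
open Cfsg

namespace Cfsg.Agent.S4712

/-- Let p be an odd prime, M a maximal ideal of the algebraic integers containing p, G a finite group of order n with p-part p^a, and B a p-block of G. Call an irreducible character χ p-rational when χ(g^k) = χ(g) for every g and every k coprime to n with k ≡ 1 modulo n/p^a (χ is fixed by the Galois automorphisms fixing the roots of unity of order prime to p). Then the number of p-rational irreducible characters in B is at least the p-regular rank of B (the number of irreducible Brauer characters in B). -/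
theorem result {G : Type*} [Group G] [Finite G] (p : ℕ) [Fact p.Prime] (hodd : p ≠ 2) (M : Ideal Cfsg.AlgInt) (hM : Cfsg.IsPModular p M) (B : Set (Cfsg.IrrCharacter G)) (hB : Cfsg.IsPBlock M B) : Cfsg.blockRank p B ≤ Nat.card {χ : Cfsg.IrrCharacter G // χ ∈ B ∧ ∀ k : ℕ, Nat.Coprime k (Nat.card G) → k ≡ 1 [MOD Nat.card G / p ^ (Nat.card G).factorization p] → ∀ g : G, (χ : G → ℂ) (g ^ k) = (χ : G → ℂ) g} := by
  haveI := hM.2.1; haveI : H9.PMod M p := ⟨hM⟩
  have := Fintype.ofFinite G
  have := H8.finite_irr (G := G)
  obtain ⟨k, h1, h2, h3⟩ := H9.exists_gen_exp (G := G) hodd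
  refine (H9.blockRank_le_fixed (H8.isBlockUnion_of_block hB) h1 h2).trans
    (Nat.card_le_card_of_injective (Subtype.map id fun χ h => ⟨h.1, fun j a b g => ?_⟩)
      (Subtype.map_injective _ Function.injective_id))
  obtain ⟨n, hn⟩ := h3 j a b
  rw [hn]
  clear hn
  induction n with
  | zero => simp
  | succ n ih => rw [pow_succ, pow_mul]; exact (h.2 _).trans ih

end Cfsg.Agent.S4712
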