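import Cfsg.Statements.S4715
import Mathlib
import Cfsg.Agent.H8.Cent

set_option autoImplicit false
open Cfsg

namespace Cfsg.Agent.S4715

/-- Let p be a prime, M a maximal ideal of the algebraic integers containing p, B a p-block of the finite group G with defect group D of order p^d, H = D·C_G(D), b a block of H inducing B, T the stabilizer of b in N_G(D) and e = [T : H] the inertial index of B; let n be the integer with p^n ≤ e < p^(n+1) and p^c the order of the centre of D. Then every irreducible character in B has height h with h + c ≤ n + d. -/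
theorem result {G : Type*} [Group G] [Finite G] (p : ℕ) [Fact p.Prime] (M : Ideal Cfsg.AlgInt) (hM : Cfsg.IsPModular p M) (B : Set (Cfsg.IrrCharacter G)) (hB : Cfsg.IsPBlock M B) (D : Subgroup G) (hBD : Cfsg.IsDefectGroup p M B D) (d : ℕ) (hDd : Nat.card D = p ^ d) (H : Subgroup G) (hH : H = D ⊔ Subgroup.centralizer (D : Set G)) (b : Set (Cfsg.IrrCharacter H)) (hind : Cfsg.IsInducedBlock M H b B) (T : Subgroup G) (hT : ∀ g : G, g ∈ T ↔ (g ∈ Subgroup.normalizer (D : Set G) ∧ ∀ θ ∈ b, ∀ θ' : Cfsg.IrrCharacter H, (∀ h h' : H, (h' : G) = g * h * g⁻¹ → (θ' : H → ℂ) h' = (θ : H → ℂ) h) → θ' ∈ b)) (e : ℕ) (he : H.relIndex T = e) (n : ℕ) (hn : p ^ n ≤ e ∧ e < p ^ (n + 1)) (c : ℕ) (hc : Nat.card (Subgroup.center D) = p ^ c) : ∀ χ ∈ B, Cfsg.blockHeight p B (χ : G → ℂ) + c ≤ n + d := by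
  open H8 H9 in
  classical
  have := hM.2.1
  haveI : H9.PMod M p := ⟨hM⟩
  intro χ hχ
  subst hH
  have hp : p.Prime := Fact.out
  have hD := (H9.isDefectGroup_iff hB).1 hBD
  have hm : MaxPair p ⊤ (eB M B) D (eI M b) := ⟨H9.isBlk_eB hB, hD,
    (isInd_sup_top_iff hD.isP (H9.isBlk_eB hB)).1 (H9.isInducedBlock_iff.1 hind).2.2⟩
  have hT' : T = pstab ⊤ D (eI M b) := by
    ext g
    rw [hT, mem_pstab]
    simp only [Subgroup.mem_top, true_and]
    exact and_congr_right fun hg => stab_forall_iff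
      (mem_normalizer_iff_cg.1 (normalizer_le_normalizer_sup D hg)) hind.1
  have h1 := card_center_mul_le hB hm hχ
  rw [← hT', he, hc, ← card_isDef_eB hB hD, hDd, ← pow_add] at h1
  have h2 := h1.trans_lt (Nat.mul_lt_mul_of_pos_left hn.2 (pow_pos hp.pos d))
  rw [← pow_add, Nat.pow_lt_pow_iff_right hp.one_lt] at h2
  omega

end Cfsg.Agent.S4715
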