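import Cfsg.Statements.S4716
import Mathlib
import Cfsg.Agent.H9.Trace

set_option autoImplicit false
open Cfsg

namespace Cfsg.Agent.S4716

/-- Let p be a prime, M a maximal ideal of the algebraic integers containing p, and B a p-block of defect d of the finite group G all of whose irreducible characters have height zero. Let y be a p-element, C = C_G(y), and b a block of C inducing B and having the same defect d (a major subsection). Then k(B)^2 ≤ p^(2d)·l(b), where k(B) is the number of irreducible characters in B and l(b) the p-regular rank of b (its number of irreducible Brauer characters); in particular (y = 1) k(B)^2 ≤ p^(2d)·l(B). -/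
theorem result {G : Type*} [Group G] [Finite G] (p : ℕ) [Fact p.Prime] (M : Ideal Cfsg.AlgInt) (hM : Cfsg.IsPModular p M) (B : Set (Cfsg.IrrCharacter G)) (hB : Cfsg.IsPBlock M B) (d : ℕ) (hd : Cfsg.blockDefect p B = d) (hh : ∀ χ ∈ B, Cfsg.blockHeight p B (χ : G → ℂ) = 0) (y : G) (hy : ∃ k : ℕ, orderOf y = p ^ k) (b : Set (Cfsg.IrrCharacter ↥(Subgroup.centralizer ({y} : Set G)))) (hind : Cfsg.IsInducedBlock M (Subgroup.centralizer ({y} : Set G)) b B) (hbd : Cfsg.blockDefect p b = d) : Nat.card B ^ 2 ≤ p ^ (2 * d) * Cfsg.blockRank p b := by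
  haveI := hM.2.1
  haveI : H9.PMod M p := ⟨hM⟩
  have h := H9.Subs.of_induced (p := p) hy rfl hind
  have hb : IsPBlock M b := hind.1
  obtain ⟨k, hk⟩ := hy
  have h1 : ∀ χ ∈ H9.bs B, ∀ ψ ∈ H9.bs B, ((H9.resT p k).card : ℝ) ≤
      ∑ t ∈ H9.resT p k, ‖(p : ℂ) ^ blockDefect p b * H9.contr p (y ^ t) b χ ψ‖ ^ 2 := by
    intro χ hχ ψ hψ
    rw [H9.mem_bs] at hχ hψ
    have hf := h.contr_mem_fam hk (H6.isGen_of_irr χ.2) (H6.isGen_of_irr ψ.2)
    have := H9.fam_sum_norm_sq_ge (M := M) (h := 0) hf (by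
      simp only [pow_one]
      exact mul_ne_zero (H9.pow_ne_zero_C _) (h.contr_ne_zero_of_height hb hB hχ hψ (hh χ hχ) (hh ψ hψ)))
      (fun t _ => by
        rw [pow_zero, div_one]
        exact H8.mem_locRing_of_isIntegral M (H9.fam_isIntegral
          (mul_ne_zero (Fact.out : p.Prime).ne_zero (pow_ne_zero _ (Fact.out : p.Prime).ne_zero)) hf t))
    simpa using this
  have h2 := Finset.sum_le_sum fun χ hχ => Finset.sum_le_sum (h1 χ hχ)
  simp only [h.sum_sum_norm_sq, Finset.sum_const, nsmul_eq_mul] at h2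
  rw [← Finset.mul_sum, h.sum_sum_contr_self, H9.card_bs, hbd] at h2
  have h3 : (0 : ℝ) < (H9.resT p k).card := by exact_mod_cast H9.card_resT_pos k
  have h4 : ((Nat.card B : ℝ)) ^ 2 ≤ p ^ (2 * d) * blockRank p b := by
    refine le_of_mul_le_mul_left (a := ((H9.resT p k).card : ℝ)) ?_ h3
    nlinarith
  exact_mod_cast h4

end Cfsg.Agent.S4716
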