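import Cfsg.Statements.S4717
import Mathlib
import Cfsg.Agent.H8.Prin2

set_option autoImplicit false
open Cfsg

namespace Cfsg.Agent.S4717

/-- Let p be a prime, M a maximal ideal of the algebraic integers containing p, and r a natural number; say that a finite group X has deficiency class r when X has no non-principal p-block of defect ≥ r. If G has deficiency class r then so does the centralizer of every p-element of G; conversely, if r > 0 and the centralizer of every element of order p has deficiency class r, then G has deficiency class r. -/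
theorem result {G : Type*} [Group G] [Finite G] (p : ℕ) [Fact p.Prime] (M : Ideal Cfsg.AlgInt) (hM : Cfsg.IsPModular p M) (r : ℕ) : ((∀ B' : Set (Cfsg.IrrCharacter G), Cfsg.IsPBlock M B' → B' ≠ Cfsg.principalBlock M G → Cfsg.blockDefect p B' < r) → ∀ y : G, (∃ k : ℕ, orderOf y = p ^ k) → (∀ B' : Set (Cfsg.IrrCharacter ↥(Subgroup.centralizer ({y} : Set G))), Cfsg.IsPBlock M B' → B' ≠ Cfsg.principalBlock M ↥(Subgroup.centralizer ({y} : Set G)) → Cfsg.blockDefect p B' < r)) ∧ (0 < r → (∀ y : G, orderOf y = p → (∀ B' : Set (Cfsg.IrrCharacter ↥(Subgroup.centralizer ({y} : Set G))), Cfsg.IsPBlock M B' → B' ≠ Cfsg.principalBlock M ↥(Subgroup.centralizer ({y} : Set G)) → Cfsg.blockDefect p B' < r)) → (∀ B' : Set (Cfsg.IrrCharacter G), Cfsg.IsPBlock M B' → B' ≠ Cfsg.principalBlock M G → Cfsg.blockDefect p B' < r)) := by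
  open H8 H9 in
  classical
  have := hM.2.1
  haveI : H9.PMod M p := ⟨hM⟩
  refine ⟨fun h y hy b hb hne => ?_, fun hr h B hB hne => ?_⟩
  · obtain ⟨B, hB⟩ := inducedBlockDefined_centralizer hM hy hb
    exact (blockDefect_le_of_induced hB).trans_lt
      (h B hB.2.1 fun e => hne ((IsInducedBlock.principal_iff hM hB).1 e))
  · by_contra hc
    obtain ⟨P, e, hm⟩ := exists_maxPair (p := p) (H9.isBlk_eB hB)
    have h1 := card_isDef_eB hB hm.isDef
    have : Nontrivial P := Finite.one_lt_card_iff_nontrivial.1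
      (h1 ▸ Nat.one_lt_pow (by omega) (Fact.out : p.Prime).one_lt)
    have := hm.isP.center_nontrivial
    obtain ⟨k, hk, h2⟩ := (hm.isP.to_subgroup (Subgroup.center P)).nontrivial_iff_card.1 this
    obtain ⟨z, hz⟩ := exists_prime_orderOf_dvd_card' p (h2 ▸ dvd_pow_self p hk.ne')
    have h3 := blockDefect_sbk hB hm z.1.2
      fun x hx => congrArg Subtype.val (Subgroup.mem_center_iff.1 z.2 ⟨x, hx⟩)
    refine hc (h3 ▸ h z.1.1 (by rw [Subgroup.orderOf_coe, Subgroup.orderOf_coe, hz]) _ (sbk_spec hm.pair.1 z.1.2).1 fun e => hne ?_)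
    exact (IsInducedBlock.principal_iff hM (sbk_induced hB hm z.1.2)).2 e

end Cfsg.Agent.S4717
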