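import Cfsg.Statements.S4720
import Mathlib
import Cfsg.Agent.H8.Col

set_option autoImplicit false
open Cfsg

namespace Cfsg.Agent.S4720

/-- Let p be a prime, M a maximal ideal of the algebraic integers containing p, P a p-subgroup of the finite group G, N a subgroup with P ≤ N ≤ N_G(P), and U a nonempty subset of P normalized by N such that an element of U and an element of P that are conjugate in G are already conjugate in N, and such that λ(C_G(y)) = w·#C_N(y) for every y ∈ U with one rational number w, where λ(X) denotes the sum of the squares of the degrees of the irreducible characters in the principal p-block of X. For a complex function θ on P and χ in the principal block of G put a_χ(θ) = #P⁻¹ Σ_{y ∈ P} χ(y) θ(y⁻¹). Then for generalized characters θ, η of P with θ vanishing outside U, Σ_χ a_χ(θ)·conj(a_χ(η)) = (w/#P²)·Σ_{y ∈ P} θ(y)·conj(Σ_{x ∈ N} η(x y x⁻¹)) (η extended by zero off P; the conjugates lie in P), the first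 sum over the principal p-block of G. -/
theorem result {G : Type*} [Group G] [Finite G] (p : ℕ) [Fact p.Prime] (M : Ideal Cfsg.AlgInt) (hM : Cfsg.IsPModular p M) (P : Subgroup G) (hP : IsPGroup p P) (N : Subgroup G) (hPN : P ≤ N) (hNN : N ≤ Subgroup.normalizer (P : Set G)) (U : Set G) (hUne : U.Nonempty) (hUP : U ⊆ (P : Set G)) (hUN : ∀ n ∈ N, ∀ u ∈ U, n * u * n⁻¹ ∈ U) (hfus : ∀ u ∈ U, ∀ g : G, g * u * g⁻¹ ∈ (P : Set G) → ∃ n ∈ N, n * u * n⁻¹ = g * u * g⁻¹) (w : ℚ) (hw : ∀ y ∈ U, ((∑ᶠ ψ ∈ Cfsg.principalBlock M ↥(Subgroup.centralizer ({y} : Set G)), Cfsg.charDegree (ψ : ↥(Subgroup.centralizer ({y} : Set G)) → ℂ) ^ 2) : ℚ) = w * Nat.card ↥(N ⊓ Subgroup.centralizer ({y} : Set G))) (θ η : ↥P → ℂ) (hθ : Cfsg.IsGeneralizedCharacter ↥P θ) (hη : Cfsg.IsGeneralizedCharacter ↥P η) (hθU : ∀ y : ↥P, (y : G) ∉ U → θ y = 0) : ∑ᶠ χ ∈ Cfsg.principalBlock M G, ((Nat.card ↥P : ℂ)⁻¹ * ∑ᶠ y : ↥P, (χ : G → ℂ) (y : G) * θ y⁻¹) * (starRingEnd ℂ) ((Nat.card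 ↥P : ℂ)⁻¹ * ∑ᶠ y : ↥P, (χ : G → ℂ) (y : G) * η y⁻¹) = ((w : ℂ) / ((Nat.card ↥P : ℂ) ^ 2)) * ∑ᶠ y : ↥P, θ y * (starRingEnd ℂ) (∑ᶠ x : ↥N, Cfsg.extendByZero P η ((x : G) * (y : G) * (x : G)⁻¹)) := by
  open H8 H9 in
  classical
  have := hM.2.1
  have := Fintype.ofFinite P
  have := Fintype.ofFinite N
  have h1 : ∀ (φ : P → ℂ) (χ : IrrCharacter G), ∑ y : ↥P, (χ : G → ℂ) (y : G) * φ y⁻¹ =
      ∑ y : P, φ y * starRingEnd ℂ ((χ : G → ℂ) y) := fun φ χ => by
    rw [← Equiv.sum_comp (Equiv.inv P)]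
    simp [irr_inv, mul_comm]
  have h2 : ∀ y : P, (y : G) ∈ U → ∑ x : N, extendByZero P η (x * y * (x : G)⁻¹) =
      Nat.card ↥(N ⊓ Subgroup.centralizer {(y : G)}) *
        ∑ z : P, if IsConj (y : G) (z : G) then η z else 0 := fun y hy => by
    have h3 := H6.sum_conj_eq (⟨y, hPN y.2⟩ : N) fun n => extendByZero P η n
    rw [show Subgroup.centralizer {(⟨y, hPN y.2⟩ : N)} =
      (N ⊓ Subgroup.centralizer {(y : G)}).subgroupOf N by
        ext; simp [Subgroup.mem_centralizer_singleton_iff, Subgroup.mem_subgroupOf, Subtype.ext_iff],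
      H2.card_subgroupOf_of_le inf_le_left, nsmul_eq_mul] at h3
    refine h3.trans (congrArg _ ?_)
    rw [← Finset.sum_filter]
    refine (Finset.sum_bij (fun z _ => ⟨z, hPN z.2⟩) (fun z hz => ?_) (fun a _ b _ e => ?_)
      (fun n hn => ?_) fun z _ => (H6.extendByZero_coe _ _ _).symm).symm
    · obtain ⟨g, hg⟩ := isConj_iff.1 (Finset.mem_filter.1 hz).2
      obtain ⟨n, hn, e⟩ := hfus y hy g (hg ▸ z.2)
      exact Finset.mem_filter.2 ⟨Finset.mem_univ _, isConj_iff.2 ⟨⟨n, hn⟩, Subtype.ext (e.trans hg)⟩⟩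
    · exact Subtype.ext (congrArg Subtype.val e :)
    · obtain ⟨g, rfl⟩ := isConj_iff.1 (Finset.mem_filter.1 hn).2
      exact ⟨⟨_, (Subgroup.mem_normalizer_iff.1 (hNN g.2) y).1 y.2⟩,
        Finset.mem_filter.2 ⟨Finset.mem_univ _, isConj_iff.2 ⟨g, rfl⟩⟩, rfl⟩
  have h3 : ∀ y ∈ U, lamP M (Subgroup.centralizer {y}) =
      w * Nat.card ↥(N ⊓ Subgroup.centralizer {y}) := fun y hy => by
    have := hw y hy
    simp only [lamP, irr_one_eq, map_natCast, ← sq, finsum_bs] at this ⊢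
    exact_mod_cast this
  rw [finsum_bs]
  simp only [finsum_eq_sum_of_fintype]
  rw [Finset.mul_sum]
  simp only [h1, map_mul, map_sum (s := (Finset.univ : Finset P)),
    Finset.mul_sum (s := (Finset.univ : Finset P)), Finset.sum_mul, Complex.conj_conj]
  rw [Finset.sum_comm, Finset.sum_congr rfl fun z _ => Finset.sum_comm, Finset.sum_comm]
  refine Finset.sum_congr rfl fun y _ => ?_
  by_cases hy : (y : G) ∈ U
  · simp only [h2 y hy]
    simp only [map_mul, map_sum, map_natCast, Finset.mul_sum, map_inv₀]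
    refine Finset.sum_congr rfl fun z _ => ?_
    have h4 := congrArg (starRingEnd ℂ) (col_principal hM (pElt_of_mem hP y.2) (pElt_of_mem hP z.2))
    simp only [map_sum, map_mul, Complex.conj_conj, h3 y hy] at h4
    refine (Finset.sum_congr rfl (g := fun χ : IrrCharacter G => (Nat.card P : ℂ)⁻¹ ^ 2 * θ y *
      starRingEnd ℂ (η z) * (starRingEnd ℂ ((χ : G → ℂ) y) * (χ : G → ℂ) z))
      fun _ _ => by ring).trans ?_
    rw [← Finset.mul_sum, h4]
    split_ifs <;> simp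
    field_simp
  · simp [hθU y hy]

end Cfsg.Agent.S4720
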