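import Cfsg.Statements.S4721
import Mathlib
import Cfsg.Agent.H8.Three

set_option autoImplicit false
open Cfsg

namespace Cfsg.Agent.S4721

theorem ar1 {x y z u v w : ℤ} (hx : 0 < x) (hy : 0 < y) (hu : u ≠ 0) (h1 : z = 1 + x + y)
    (h2 : w = u + v) (h3 : u ^ 2 * y * z + v ^ 2 * x * z = w ^ 2 * x * y) : False := by
  subst h1 h2
  nlinarith [sq_nonneg (u * y - v * x), mul_pos (sq_pos_of_ne_zero hu) hy, mul_nonneg (sq_nonneg v) hx.le]

theorem arith {x y z : ℕ} {a b c u v w : ℤ} (hx : x ≠ 0) (hy : y ≠ 0) (hz : z ≠ 0)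
    (ha : a = 1 ∨ a = -1) (hb : b = 1 ∨ b = -1) (hc : c = 1 ∨ c = -1) (hu : u ≠ x) (hv : v ≠ y)
    (hw : w ≠ z) (h1 : (1 : ℂ) + a * x + b * y - c * z = 0) (h2 : (1 : ℂ) + a * u + b * v - c * w = 0)
    (h3 : (1 : ℂ) + a * (u * u / x) + b * (v * v / y) - c * (w * w / z) = 0) :
    a + b - c = -1 ∧ IsSquare (z * (x * y)) := by
  have h4 : a * (u - x) ^ 2 * y * z + b * (v - y) ^ 2 * x * z - c * (w - z) ^ 2 * x * y = 0 := by
    have hx' : (x : ℂ) ≠ 0 := by simpa
    have hy' : (y : ℂ) ≠ 0 := by simpa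
    have hz' : (z : ℂ) ≠ 0 := by simpa
    field_simp at h3
    apply Int.cast_injective (α := ℂ)
    push_cast
    linear_combination h3 + x * y * z * (h1 - 2 * h2)
  replace h1 : 1 + a * x + b * y - c * z = 0 := by exact_mod_cast h1
  replace h2 : 1 + a * u + b * v - c * w = 0 := by exact_mod_cast h2
  have hx' : (0 : ℤ) < x := by omega
  have hy' : (0 : ℤ) < y := by omega
  have hz' : (0 : ℤ) < z := by omega
  rw [← sub_ne_zero] at hu hv hw
  have h5 : a + b - c = -1 := by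
    rcases ha with rfl | rfl <;> rcases hb with rfl | rfl <;> rcases hc with rfl | rfl
    · exact (ar1 (z := z) (v := v - y) (w := w - z) hx' hy' hu (by omega) (by omega)
        (by linear_combination h4)).elim
    · omega
    · rfl
    · exact (ar1 (z := y) (v := w - z) (w := v - y) hx' hz' hu (by omega) (by omega)
        (by linear_combination h4)).elim
    · rfl
    · exact (ar1 (z := x) (v := w - z) (w := u - x) hy' hz' hv (by omega) (by omega)
        (by linear_combination h4)).elim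
    · nlinarith [mul_pos (mul_pos (sq_pos_of_ne_zero hu) hy') hz',
        mul_pos (mul_pos (sq_pos_of_ne_zero hv) hx') hz', mul_pos (mul_pos (sq_pos_of_ne_zero hw) hx') hy']
    · rfl
  refine ⟨h5, H8.isSquare_of_mul_sq hw
    (a := (a * x + b * y) * z * (b * (v - y)) - b * y * z * (c * (w - z))) ?_⟩
  push_cast
  generalize (x : ℤ) = x, (y : ℤ) = y, (z : ℤ) = z at *
  rcases ha with rfl | rfl <;> rcases hb with rfl | rfl <;> rcases hc with rfl | rfl <;>
    simp only [Int.reduceNeg, Int.reduceAdd, Int.reduceSub, Int.reduceEq] at h5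
  · obtain rfl : x = y + z - 1 := by omega
    obtain rfl : u = v + w - 1 := by omega
    linear_combination -(z - 1) * z * h4
  · obtain rfl : y = x + z - 1 := by omega
    obtain rfl : v = u + w - 1 := by omega
    linear_combination -(z - 1) * z * h4
  · obtain rfl : z = x + y - 1 := by omega
    obtain rfl : w = u + v - 1 := by omega
    linear_combination -(x + y) * (x + y - 1) * h4

/-- Let p be a prime, M a maximal ideal of the algebraic integers containing p, and G a finite group with a nontrivial abelian Sylow p-subgroup P, N = N_G(P), C = C_G(P), such that N/C is cyclic of order 3, #P > 4, and C_G(y) ∩ N = C for every non-identity y ∈ P. Then the principal p-block is the disjoint union of a set X of exactly 3 characters containing the principal character and a set Y of (#P − 1)/3 characters, with signs a_χ = ±1 (χ ∈ X, a = 1 at the principal character) and δ = ±1 such that every χ ∈ X takes the value a_χ at every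 element whose p-part is a non-identity element of P, and there is a map ζ from the non-principal linear characters of P onto Y, constant on N-conjugacy classes, with ζ_ψ(z) = δ·Σ ψ'(y) over the N-orbit of ψ, for z with p-part y ≠ 1 in P. If moreover G has an involution lying in no proper normal subgroup of G, then exactly two of the three numbers −δ and a_χ (χ ∈ X non-principal) equal −1, and the product of the degrees of the two non-principal members of X and of any member of Y is a perfect square. -/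
theorem result {G : Type*} [Group G] [Finite G] (p : ℕ) [Fact p.Prime] (M : Ideal Cfsg.AlgInt) (hM : Cfsg.IsPModular p M) (P : Sylow p G) (hab : IsMulCommutative P) (hP1 : Nat.card P ≠ 1) (hCN : (Subgroup.centralizer ((P : Subgroup G) : Set G)).relIndex (Subgroup.normalizer ((P : Subgroup G) : Set G)) = 3) (hcyc : ∃ g : G, g ∈ Subgroup.normalizer ((P : Subgroup G) : Set G) ∧ Subgroup.centralizer ((P : Subgroup G) : Set G) ⊔ Subgroup.zpowers g = Subgroup.normalizer ((P : Subgroup G) : Set G)) (hm2 : 3 + 1 < Nat.card P) (hfrob : ∀ y : G, y ∈ (P : Subgroup G) → y ≠ 1 → Subgroup.centralizer ({y} : Set G) ⊓ Subgroup.normalizer ((P : Subgroup G) : Set G) = Subgroup.centralizer ((P : Subgroup G) : Set G)) : ∃ (X Y : Set (Cfsg.IrrCharacter G)), Cfsg.principalBlock M G = X ∪ Y ∧ Disjoint X Y ∧ Nat.card X = 3 ∧ Nat.card Y = (Nat.card P - 1) / 3 ∧ (∃ χ₁ ∈ X, (χ₁ : G → ℂ) = fun _ => 1) ∧ ∃ (a : Cfsg.IrrCharacter G → ℤ) (δ : ℤ) (ζ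 : (↥(P : Subgroup G) →* ℂˣ) → Cfsg.IrrCharacter G), (δ = 1 ∨ δ = -1) ∧ (∀ χ ∈ X, (a χ = 1 ∨ a χ = -1) ∧ ∀ z y : G, Cfsg.IsPPart p z y → y ∈ (P : Subgroup G) → y ≠ 1 → (χ : G → ℂ) z = (a χ : ℂ)) ∧ (∀ ψ : ↥(P : Subgroup G) →* ℂˣ, ψ ≠ 1 → ζ ψ ∈ Y) ∧ (∀ η ∈ Y, ∃ ψ : ↥(P : Subgroup G) →* ℂˣ, ψ ≠ 1 ∧ ζ ψ = η) ∧ (∀ ψ ψ' : ↥(P : Subgroup G) →* ℂˣ, ψ ≠ 1 → (∃ n : G, n ∈ Subgroup.normalizer ((P : Subgroup G) : Set G) ∧ ∀ w w' : ↥(P : Subgroup G), (w' : G) = n * w * n⁻¹ → ψ' w' = ψ w) → ζ ψ' = ζ ψ) ∧ (∀ ψ : ↥(P : Subgroup G) →* ℂˣ, ψ ≠ 1 → ∀ (z : G) (y : ↥(P : Subgroup G)), Cfsg.IsPPart p z (y : G) → (y : G) ≠ 1 → (ζ ψ : G → ℂ) z = (δ : ℂ) * ∑ᶠ ψ' ∈ {ψ' : ↥(P : Subgroup G) →* ℂˣ | ∃ n : G, n ∈ Subgroup.normalizer ((P : Subgroup G) : Set G) ∧ ∀ w w' : ↥(P : Subgroup G), (w' : G) = n * w * n⁻¹ → ψ' w' = ψ w}, ((ψ' y : ℂˣ) : ℂ)) ∧ ((∃ t : G, orderOf t = 2 ∧ ∀ K : Subgroup G, K.Normal → t ∈ K → K = ⊤) → Nat.card {χ : Cfsg.IrrCharacter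 G // χ ∈ X ∧ (χ : G → ℂ) ≠ (fun _ => 1) ∧ a χ = -1} + (if δ = 1 then 1 else 0) = 2 ∧ ∀ η ∈ Y, IsSquare (Cfsg.charDegree (η : G → ℂ) * ∏ᶠ χ ∈ {χ : Cfsg.IrrCharacter G | χ ∈ X ∧ (χ : G → ℂ) ≠ fun _ => 1}, Cfsg.charDegree (χ : G → ℂ))) := by
  open H8 H9 in classical
  have := hM.2.1
  have := Fintype.ofFinite G
  have := finite_lin (Q := (P : Subgroup G))
  have hA : Nat.card (autP P) = 3 := (card_autP P).trans hCN
  have hr := card_orb hab.1.1 (autP_fpf hfrob)
  obtain ⟨ε, a, b, μ, χ₁, χ₂, h1, ha, hb, h2, h3, n1, n2, n3, h4, h5, h6, h7⟩ :=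
    three_struct hab hfrob hA hm2 hM
  set c : IrrCharacter G → ℤ := fun χ => if χ = χ₁ then a else if χ = χ₂ then b else 1 with hc
  have c0 : c (irrOne G) = 1 := by simp [hc, n1.symm, n2.symm]
  have c1 : c χ₁ = a := by simp [hc]
  have c2 : c χ₂ = b := by simp [hc, n3.symm]
  have e0 : ∀ χ : IrrCharacter G, ((χ : G → ℂ) = fun _ => 1) ↔ χ = irrOne G := fun χ =>
    ⟨fun e => Subtype.ext e, fun e => e ▸ rfl⟩
  refine ⟨principalBlock M G \ Set.range μ, Set.range μ,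
    (Set.sdiff_union_of_subset (Set.range_subset_iff.2 h3)).symm, Set.disjoint_sdiff_left,
    by rw [h4, Nat.card_coe_set_eq, Set.ncard_eq_three]; exact ⟨_, _, _, n1.symm, n2.symm, n3, rfl⟩,
    by rw [Nat.card_range_of_injective h2, ← hr, hA]; omega, ⟨irrOne G, by simp [h4], rfl⟩, c, ε,
    fun ψ => if h : ψ = 1 then irrOne G else μ (Quotient.mk _ ⟨ψ, h⟩), h1, ?_,
    fun ψ h => by simp [h], ?_, fun ψ ψ' h e => ?_,
    fun ψ h z y e hy => by simp only [dif_neg h]; rw [h6 _ z y e hy, orb_finsum_eq hab hfrob h],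
    fun ⟨t, ht, hK⟩ => ?_⟩
  · rw [h4]
    rintro _ (rfl | rfl | rfl)
    · simp [c0]
    · exact ⟨c1 ▸ ha, fun z y e hy hy' => c1 ▸ (h5 z y e hy hy').1⟩
    · exact ⟨c2 ▸ hb, fun z y e hy hy' => c2 ▸ (h5 z y e hy hy').2⟩
  · rintro _ ⟨i, rfl⟩
    obtain ⟨ψ, rfl⟩ := Quotient.exists_rep i
    exact ⟨ψ.1, ψ.2, dif_neg ψ.2⟩
  · obtain ⟨α, rfl⟩ := (Set.ext_iff.1 (orb_set_eq ψ) ψ').1 e
    simp only [dif_neg h, dif_neg (cmp_ne_one h _)]
    exact congrArg μ (Quotient.sound (s := orbS (autP P)) ⟨α, rfl⟩).symm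
  choose τ hτ using fun χ : IrrCharacter G =>
    H6.exists_int_of_sq_eq_one (H6.isGen_of_irr χ.2) (g := t) (by rw [← ht, pow_orderOf_eq_one])
  have k : ∀ χ : IrrCharacter G, χ ≠ irrOne G → τ χ ≠ charDegree (χ : G → ℂ) := fun χ h e =>
    h (Subtype.ext (H6.irr_eq_one_of_charKer_eq_top χ.2 (hK _
      (H6.charKer_normal (irr_isClassFunction χ)) ((H6.mem_charKer_iff_irr χ.2).2 (by
        rw [hτ, irr_one_eq, e, Int.cast_natCast])))))
  obtain ⟨ψ, hψ, -, r2, r3⟩ := three_rel hab hfrob hA hm2 hM ht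
  have r1 := fun ψ : {ψ : (P : Subgroup G) →* ℂˣ // ψ ≠ 1} =>
    (h7 ψ _).symm.trans (sum_ip_colW_one hM ψ.1)
  rw [h7 ⟨ψ, hψ⟩] at r2 r3
  simp only [irrOne_apply, mul_one, div_one] at r1 r2 r3
  simp only [hτ, irr_one_eq] at r1 r2 r3
  obtain ⟨k1, k2⟩ := arith (charDegree_irr_ne_zero _) (charDegree_irr_ne_zero _)
    (charDegree_irr_ne_zero _) ha hb h1 (k _ n1) (k _ n2) (k _ fun e =>
      (h4 ▸ Set.mem_insert _ _ : irrOne G ∈ principalBlock M G \ Set.range μ).2 ⟨_, e⟩)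
    (r1 ⟨ψ, hψ⟩) r2 r3
  refine ⟨?_, ?_⟩
  · have : {χ : IrrCharacter G | χ ∈ principalBlock M G \ Set.range μ ∧
        (χ : G → ℂ) ≠ (fun _ => 1) ∧ c χ = -1} = ↑(({χ₁, χ₂} : Finset _).filter (c · = -1)) := by
      ext χ
      simp only [h4, ne_eq, e0]
      aesop
    rw [(Nat.card_coe_set_eq _).trans (congrArg Set.ncard this) |> (show Nat.card {χ : IrrCharacter G //
      χ ∈ principalBlock M G \ Set.range μ ∧ (χ : G → ℂ) ≠ (fun _ => 1) ∧ c χ = -1} = _ from ·),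
      Set.ncard_coe_finset, Finset.card_filter, Finset.sum_pair n3, c1, c2]
    rcases ha with rfl | rfl <;> rcases hb with rfl | rfl <;> rcases h1 with rfl | rfl <;>
      simp at k1 ⊢
  · rintro _ ⟨i, rfl⟩
    obtain ⟨φ, rfl⟩ := Quotient.exists_rep i
    have : {χ : IrrCharacter G | χ ∈ principalBlock M G \ Set.range μ ∧
        (χ : G → ℂ) ≠ fun _ => 1} = {χ₁, χ₂} := by
      ext χ
      simp only [h4, ne_eq, e0]
      aesop
    rw [this, finprod_mem_pair n3]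
    convert k2 using 2
    have := (r1 φ).trans (r1 ⟨ψ, hψ⟩).symm
    rcases h1 with rfl | rfl <;> simpa using this

end Cfsg.Agent.S4721
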