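import Cfsg.Statements.S4722
import Mathlib
import Cfsg.Agent.H8.Col

set_option autoImplicit false
open Cfsg

namespace Cfsg.Agent.S4722

open H8 H9 in
theorem aux {G : Type*} [Group G] [Finite G] (M : Ideal Cfsg.AlgInt) (t : G) (a τ : IrrCharacter G → ℤ)
    (hM : IsPModular 2 M) (hτ : ∀ χ : IrrCharacter G, (χ : G → ℂ) t = τ χ)
    (h1 : ∑ χ ∈ bs (principalBlock M G), (a χ : ℂ) * (χ : G → ℂ) t ^ 2 / (χ : G → ℂ) 1 = 0)
    (h2 : ∑ χ ∈ bs (principalBlock M G), (a χ : ℂ) * (χ : G → ℂ) 1 = 0)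
    (h3 : ∑ χ ∈ bs (principalBlock M G), (a χ : ℂ) * (χ : G → ℂ) t = 0) (h0 : a (irrOne G) ≠ 0)
    (h : ¬ 2 ≤ Nat.card {χ : IrrCharacter G // χ ∈ principalBlock M G ∧ (0 : ℝ) < a χ}) :
    ∃ K : Subgroup G, K.Normal ∧ K ≠ ⊤ ∧ Cfsg.pPrimeCore 2 G ≤ K ∧ t ∈ K := by
  have := hM.2.1
  have := finite_irr (G := G)
  simp only [hτ, irr_one_eq] at h1 h2 h3
  obtain ⟨χ, hχ, h4, h5⟩ := exists_eq_of_one_pos (bs (principalBlock M G)) (fun χ => a χ)
    (fun χ => τ χ) (fun χ => charDegree (χ : G → ℂ))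
    (fun χ => by exact_mod_cast Nat.pos_of_ne_zero (charDegree_irr_ne_zero χ))
    (by exact_mod_cast h1) (by exact_mod_cast h2) (by exact_mod_cast h3)
    (mem_bs.2 irrOne_mem_principalBlock) (by exact_mod_cast h0)
    (by have := (hτ (irrOne G)).symm.trans (irr_one_eq (irrOne G)); exact_mod_cast this)
    fun i hi j hj h4 h5 => congrArg Subtype.val ((Finite.card_le_one_iff_subsingleton.1
      (Nat.lt_succ_iff.1 (not_le.1 h))).elim ⟨i, mem_bs.1 hi, h4⟩ ⟨j, mem_bs.1 hj, h5⟩)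
  refine ⟨H6.charKer (χ : G → ℂ), H6.charKer_normal (irr_isClassFunction χ),
    fun e => h4 (Subtype.ext (H6.irr_eq_one_of_charKer_eq_top χ.2 e)),
    le_charKer_of_principal hM (mem_bs.1 hχ) _ H2.pPrimeCore_coprime,
    (H6.mem_charKer_iff_irr χ.2).2 ?_⟩
  rw [hτ, irr_one_eq]
  exact_mod_cast h5

/-- Let M be a maximal ideal of the algebraic integers containing 2, P a 2-subgroup of the finite group G, U a subset of P, and t an involution of G such that no element of U is inverted by any conjugate of t. Let θ be a generalized character of P vanishing outside U, and for χ in the principal 2-block B₀ put a_χ = #P⁻¹ Σ_{y ∈ P} χ(y) θ(y⁻¹). Then Σ_{χ ∈ B₀} a_χ χ(t)^2/χ(1) = 0, Σ_{χ ∈ B₀} a_χ χ(1) = 0 and Σ_{χ ∈ B₀} a_χ χ(t) = 0. If moreover #P⁻¹ Σ_{y ∈ P} θ(y) ≠ 0, then either at least two of the a_χ have positive real part and at least two have negative real part, or G has a proper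 normal subgroup containing O_2'(G) and t. -/
theorem result {G : Type*} [Group G] [Finite G] (M : Ideal Cfsg.AlgInt) (hM : Cfsg.IsPModular 2 M) (P : Subgroup G) (hP : IsPGroup 2 P) (U : Set G) (hUP : U ⊆ (P : Set G)) (t : G) (ht : orderOf t = 2) (hinv : ∀ u ∈ U, ∀ g : G, (g * t * g⁻¹) * u * (g * t * g⁻¹)⁻¹ ≠ u⁻¹) (θ : ↥P → ℂ) (hθ : Cfsg.IsGeneralizedCharacter ↥P θ) (hθU : ∀ y : ↥P, (y : G) ∉ U → θ y = 0) : (∑ᶠ χ ∈ Cfsg.principalBlock M G, ((Nat.card ↥P : ℂ)⁻¹ * ∑ᶠ y : ↥P, (χ : G → ℂ) (y : G) * θ y⁻¹) * (χ : G → ℂ) t ^ 2 / (χ : G → ℂ) 1 = 0) ∧ (∑ᶠ χ ∈ Cfsg.principalBlock M G, ((Nat.card ↥P : ℂ)⁻¹ * ∑ᶠ y : ↥P, (χ : G → ℂ) (y : G) * θ y⁻¹) * (χ : G → ℂ) 1 = 0) ∧ (∑ᶠ χ ∈ Cfsg.principalBlock M G, ((Nat.card ↥P : ℂ)⁻¹ * ∑ᶠ y : ↥P, (χ : G → ℂ) (y : G) * θ y⁻¹) * (χ : G → ℂ) t = 0) ∧ ((Nat.card ↥P : ℂ)⁻¹ * ∑ᶠ y : ↥P, θ y ≠ 0 → (2 ≤ Nat.card {χ : Cfsg.IrrCharacter G // χ ∈ Cfsg.principalBlock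 M G ∧ 0 < (((Nat.card ↥P : ℂ)⁻¹ * ∑ᶠ y : ↥P, (χ : G → ℂ) (y : G) * θ y⁻¹)).re} ∧ 2 ≤ Nat.card {χ : Cfsg.IrrCharacter G // χ ∈ Cfsg.principalBlock M G ∧ (((Nat.card ↥P : ℂ)⁻¹ * ∑ᶠ y : ↥P, (χ : G → ℂ) (y : G) * θ y⁻¹)).re < 0}) ∨ ∃ K : Subgroup G, K.Normal ∧ K ≠ ⊤ ∧ Cfsg.pPrimeCore 2 G ≤ K ∧ t ∈ K) := by
  open H8 H9 in
  classical
  have := hM.2.1
  have := Fintype.ofFinite P
  have ht2 := H20.inv_eq_self_of_orderOf_two ht
  have key : ∀ F : IrrCharacter G → ℂ, (∀ y ∈ P, y⁻¹ ∈ U →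
      ∑ χ ∈ bs (principalBlock M G), (χ : G → ℂ) y * F χ = 0) → ∑ χ ∈ bs (principalBlock M G),
        ((Nat.card ↥P : ℂ)⁻¹ * ∑ᶠ y : ↥P, (χ : G → ℂ) (y : G) * θ y⁻¹) * F χ = 0 := fun F hF => by
    simp only [finsum_eq_sum_of_fintype, mul_assoc, ← Finset.mul_sum, Finset.sum_mul]
    rw [Finset.sum_comm, Finset.sum_eq_zero, mul_zero]
    intro y _
    by_cases h : (y : G)⁻¹ ∈ U
    · simp only [mul_left_comm _ (θ _), ← Finset.mul_sum, hF y y.2 h, mul_zero]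
    · simp [hθU y⁻¹ h]
  have h1 := key (fun χ => (χ : G → ℂ) t ^ 2 / (χ : G → ℂ) 1) fun y hy hU => by
    have := sum_pair_eq_zero hM ub_principal (s := t) (t := t) (y := y⁻¹) fun a b ha hb e => by
      obtain ⟨g, rfl⟩ := isConj_iff.1 ha
      refine hinv _ hU g ?_
      have h2 := H20.mul_self_of_orderOf_two ht
      rw [← pPart_of_pElt (pElt_of_mem hP (P.inv_mem hy)), ← e, ← pPart_conj, H6.conj_mul_eq_inv
        (H6.mul_self_of_isConj h2 ha) (H6.mul_self_of_isConj h2 hb), pPart_inv]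
    simpa only [irr_inv, Complex.conj_conj, ← sq] using this
  have h2 := key (fun χ => (χ : G → ℂ) 1) fun y hy hU => by
    have := col_principal hM (pElt_of_mem hP hy) (z := 1) ⟨0, by simp⟩
    rw [if_neg fun e => hinv _ hU 1 (by simp [isConj_one_left.1 e])] at this
    simpa only [H6.isCharacter_conj_one (irr_isChar _)] using this
  have h3 := key (fun χ => (χ : G → ℂ) t) fun y hy hU => by
    have := col_principal hM (pElt_of_mem hP hy) (z := t) ⟨1, ht⟩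
    rw [if_neg fun e => ?_] at this
    · simpa only [← irr_inv, ht2] using this
    obtain ⟨g, rfl⟩ := isConj_iff.1 e.symm
    exact hinv _ hU g (by rw [mul_inv_cancel, one_mul, inv_inv, conj_inv, ht2])
  simp only [finsum_bs, mul_div_assoc]
  refine ⟨h1, h2, h3, fun h0 => ?_⟩
  have ha : ∀ χ : IrrCharacter G, ∃ n : ℤ,
      (Nat.card ↥P : ℂ)⁻¹ * ∑ᶠ y : ↥P, (χ : G → ℂ) (y : G) * θ y⁻¹ = n := fun χ => by
    simpa only [finsum_eq_sum_of_fintype, H6.isGen_inv hθ, classInner, Subgroup.subtype_apply] using H6.classInner_int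
      (H6.isGen_of_isCharacter (char_comp P.subtype (irr_isChar χ))) hθ
  choose a ha using ha
  choose τ hτ using fun χ : IrrCharacter G =>
    H6.exists_int_of_sq_eq_one (H6.isGen_of_irr χ.2) (g := t) (by rw [← ht, pow_orderOf_eq_one])
  have h4 : a (irrOne G) ≠ 0 := fun e => h0 (by
    have := ha (irrOne G)
    simp only [e, irrOne_apply, one_mul, finsum_eq_sum_of_fintype, Int.cast_zero] at this ⊢
    rw [← this, ← Equiv.sum_comp (Equiv.inv P)]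
    rfl)
  simp only [ha, Complex.intCast_re, ← mul_div_assoc] at h1 h2 h3 ⊢
  rw [or_iff_not_imp_left, not_and_or]
  rintro (h | h)
  · exact aux M t a τ hM hτ h1 h2 h3 h4 h
  · exact aux M t (fun χ => -a χ) τ hM hτ (by simpa [neg_div] using h1) (by simpa using h2)
      (by simpa using h3) (by simpa using h4) (by simpa using h)

end Cfsg.Agent.S4722
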