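import Cfsg.Statements.S4723
import Mathlib
import Cfsg.Agent.H9.Misc

set_option autoImplicit false
open Cfsg

namespace Cfsg.Agent.S4723

/-- Let p be a prime, M a maximal ideal of the algebraic integers containing p, H a normal subgroup of the finite group G and b a p-block of H. Let T be the stabilizer of b in G. Then b contains a character θ of height zero whose own stabilizer in G (the elements g with θ(g h g⁻¹) = θ(h) for all h ∈ H) has index prime to p in T, i.e. contains a Sylow p-subgroup of T. -/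
theorem result {G : Type*} [Group G] [Finite G] (p : ℕ) [Fact p.Prime] (M : Ideal Cfsg.AlgInt) (hM : Cfsg.IsPModular p M) (H : Subgroup G) [H.Normal] (b : Set (Cfsg.IrrCharacter ↥H)) (hb : Cfsg.IsPBlock M b) (T : Subgroup G) (hT : (∀ g : G, g ∈ T ↔ ∀ θ ∈ b, ∀ θ' : Cfsg.IrrCharacter ↥H, (∀ h h' : ↥H, (h' : G) = g * h * g⁻¹ → (θ' : ↥H → ℂ) h' = (θ : ↥H → ℂ) h) → θ' ∈ b)) : ∃ θ ∈ b, Cfsg.blockHeight p b (θ : ↥H → ℂ) = 0 ∧ ∃ S : Subgroup G, S ≤ T ∧ (∀ g : G, g ∈ S ↔ (g ∈ T ∧ ∀ h h' : ↥H, (h' : G) = g * h * g⁻¹ → (θ : ↥H → ℂ) h' = (θ : ↥H → ℂ) h)) ∧ ¬ p ∣ S.relIndex T := by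
  haveI := hM.2.1; haveI : H9.PMod M p := ⟨hM⟩
  have hT' : ∀ g, g ∈ T ↔ H9.cj g (H9.eI M b) = H9.eI M b := fun g => by
    rw [hT, ← H9.stab_forall_iff (H9.cg_normal H g) hb]
  have he := H9.isBlk_eI hb
  obtain ⟨P, hP, -⟩ := H18.exists_sylIn_ge (IsPGroup.of_bot (p := p)) (bot_le (a := T))
  have hK : P ⊔ H ≤ T := sup_le hP.le fun x hx => (hT' x).2 (he.inv hx)
  have hN : ∀ {L : Subgroup G}, L ≤ Subgroup.normalizer (H : Set G) := fun {_} => H9.le_normalizer_of_normal' H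
  have hpow := fun x hx => H9.exists_pow_mem_of_mem_sup hP.isP hN (x := x) hx
  have h1 := he.of_pow le_sup_right hpow fun t ht => (hT' t).1 (hK ht)
  obtain ⟨B, hB, h2⟩ := H9.exists_eI h1
  obtain ⟨D, hD⟩ := h1.exists_isDef le_rfl Subgroup.le_normalizer
  obtain ⟨h3, h4⟩ := hD.not_dvd_relIndex le_sup_right hN he h1.mem.2
  have h5 := H2.card_sup_mul_card_inf_of_le_normalizer (H := D) hN
  rw [le_antisymm (sup_le hD.le le_sup_right) (H9.le_of_pow_of_not_dvd le_sup_right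
    (sup_le hD.le le_sup_right) hN hpow h3), H9.card_isDef_eI hb h4, H9.card_isDef_eI hB (D := D) (h2 ▸ hD)] at h5
  obtain ⟨χ, hχ, h6⟩ := H8.exists_height_zero (p := p) hB
  have hf := H7.isNE_inclusion_of_normal (le_sup_right : H ≤ P ⊔ H)
  obtain ⟨θ, hθ, h7⟩ := H7.exists_irr_under (Subgroup.inclusion (le_sup_right : H ≤ P ⊔ H)) χ.2
  have := Fintype.ofFinite H
  have h8 := H8.isPBlock_blockOf (M := M) ⟨θ, hθ⟩
  have h9 : (⟨θ, hθ⟩ : IrrCharacter H) ∈ b := by
    rw [(H9.eI_inj hb h8).1 (he.eq_of_mul_ne le_rfl (H9.isBlk_eI h8) (h2 ▸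
      (H9.covers_iff_incl le_sup_right hB h8).1 ⟨χ, hχ, _, H8.mem_blockOf_self _,
        by rwa [← H7.ip_eq_classInner]⟩))]
    exact H8.mem_blockOf_self _
  have h0 := (mul_ne_zero (Subgroup.index_ne_zero_of_finite (H := hf.inertia θ))
    (H8.charDegree_irr_ne_zero ⟨θ, hθ⟩))
  have h10 := (Nat.factorization_le_iff_dvd h0 (H8.charDegree_irr_ne_zero χ)).2
    (hf.degree_dvd_of_under χ.2 hθ h7 (H8.irr_one_eq χ) (H8.irr_one_eq ⟨θ, hθ⟩)) p
  have h11 := H9.defect_add_val (p := p) hχ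
  have h12 := H9.defect_add_val (p := p) h9
  have hp := hM.1
  have h13 := congrArg (Nat.factorization · p) h5
  simp only [Nat.factorization_mul Nat.card_pos.ne' (pow_ne_zero _ hp.ne_zero),
    Nat.factorization_mul (pow_ne_zero _ hp.ne_zero) Nat.card_pos.ne', Finsupp.add_apply,
    Nat.factorization_pow_self hp] at h13
  rw [Nat.factorization_mul (left_ne_zero_of_mul h0) (right_ne_zero_of_mul h0), Finsupp.add_apply] at h10
  have h14 : ¬ p ∣ (hf.inertia θ).index := fun h => by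
    have := hp.factorization_pos_of_dvd (left_ne_zero_of_mul h0) h
    omega
  have h16 : (⊤ : Subgroup (P ⊔ H : Subgroup G)) ≤ hf.inertia θ :=
    H9.le_of_pow_of_not_dvd (hf.range_le_inertia (H7.irr_cf hθ)) le_top
      (have := hf.normal; H9.top_le_normalizer_of_normal _) (fun x _ => by
        obtain ⟨k, hk⟩ := hpow x x.2
        exact ⟨k, ⟨_, hk⟩, rfl⟩) (by rwa [Subgroup.relIndex_top_right])
  have hg := H7.isNE_subtype H
  have h17 : P ≤ T ⊓ hg.inertia θ := le_inf hP.le fun x hx => hg.mem_inertia'.2 fun n => by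
    have h19 := hf.mem_inertia'.1 (h16 (Subgroup.mem_top ⟨x, Subgroup.mem_sup_left hx⟩)) n
    rwa [hg.cj_comp hf (ι := (P ⊔ H).subtype) fun _ => rfl] at h19
  have h18 : blockHeight p b (⟨θ, hθ⟩ : IrrCharacter H).1 = 0 := by omega
  refine ⟨_, h9, h18, T ⊓ hg.inertia θ, inf_le_left, fun g => ?_,
    fun h => hP.not_dvd_relIndex (h.trans (Subgroup.relIndex_dvd_of_le_left _ h17))⟩
  rw [Subgroup.mem_inf, hg.mem_inertia']
  exact and_congr_right fun _ => ⟨fun h k k' h' => hg.cj_eq h' ▸ h k, fun h k => h _ _ (hg.cj_spec g k)⟩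

end Cfsg.Agent.S4723
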