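import Cfsg.Statements.S4725
import Mathlib
import Cfsg.Agent.H9.Misc

set_option autoImplicit false
open Cfsg

namespace Cfsg.Agent.S4725

/-- Let p be a prime, M a maximal ideal of the algebraic integers containing p, H a subgroup of the finite group G, and b a p-block of H inducing the p-block B of G, with b and B of the same defect. Then for every height-zero ζ ∈ b there is a height-zero χ ∈ B whose multiplicity in the character induced from ζ is not divisible by p. -/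
theorem result {G : Type*} [Group G] [Fintype G] (p : ℕ) [Fact p.Prime] (M : Ideal Cfsg.AlgInt) (hM : Cfsg.IsPModular p M) (H : Subgroup G) (b : Set (Cfsg.IrrCharacter ↥H)) (B : Set (Cfsg.IrrCharacter G)) (hind : Cfsg.IsInducedBlock M H b B) (hdef : Cfsg.blockDefect p b = Cfsg.blockDefect p B) (ζ : Cfsg.IrrCharacter ↥H) (hζ : ζ ∈ b) (hζ0 : Cfsg.blockHeight p b (ζ : ↥H → ℂ) = 0) : ∃ χ ∈ B, Cfsg.blockHeight p B (χ : G → ℂ) = 0 ∧ ∃ a : ℕ, Cfsg.classInner (Cfsg.indFun H (ζ : ↥H → ℂ)) (χ : G → ℂ) = (a : ℂ) ∧ ¬ p ∣ a := by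
  classical
  haveI := hM.2.1; haveI : H9.PMod M p := ⟨hM⟩
  have hB := hind.2.1
  have hU := H8.isBlockUnion_of_block hB
  have hc : IsCharacter G (indFun H ζ.1) := H7.ind_subtype H ζ.1 ▸ H7.char_ind _ (H8.irr_isChar ζ)
  choose a ha using H8.classInner_char_irr hc
  have hp0 : p ^ H8.minVal p B ≠ 0 := pow_ne_zero _ hM.1.ne_zero
  have h1 : ∑ χ ∈ H9.bs B, ((a χ * charDegree χ.1 : ℕ) : ℂ) / (p ^ H8.minVal p B : ℕ) =
      H8.omega ζ.1 (H8.up M (H8.resSub _ H (H8.fB M B))) *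
        ((H.index * charDegree ζ.1 : ℕ) / (p ^ H8.minVal p B : ℕ)) := by
    have h2 := H8.blockPart_eq_chiL B (H7.char_cf hc) 1
    rw [← MonoidAlgebra.one_def, mul_one, H8.chiL_indFun H _ (H8.fC_mem_Zen B), H8.chiL_eq_omega,
      H9.blockPart_eq_bs, Finset.sum_apply, ← H8.up_fB hU, H8.irr_one_eq,
      ← H8.mapRingHom_resSub] at h2
    rw [← Finset.sum_div, ← mul_div_assoc, Nat.cast_mul, mul_left_comm]
    refine congrArg (· / _) (Eq.trans (Finset.sum_congr rfl fun χ _ => ?_) h2)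
    rw [Pi.smul_apply, H7.ip_eq_classInner, ha, H8.irr_one_eq, Nat.cast_mul, smul_eq_mul]
  have h2 := H9.defect_add_val (p := p) hζ
  obtain ⟨χ₀, h3, h4⟩ := H8.exists_minVal_eq (p := p) (H8.block_nonempty hB)
  have h5 := H9.defect_add_val (p := p) h3
  rw [(H8.blockHeight_eq_zero_iff h3).2 h4, h4, H8.factorization_card_eq H] at h5
  have h6 : H8.rd M (∑ χ ∈ H9.bs B, ((a χ * charDegree χ.1 : ℕ) : ℂ) / (p ^ H8.minVal p B : ℕ)) ≠ 0 := by
    rw [h1]
    refine H9.rd_mul_ne_zero ?_ (H9.rd_natCast_div_ne_zero (p := p) (mul_ne_zero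
      Subgroup.index_ne_zero_of_finite (H8.charDegree_irr_ne_zero ζ)) hp0 ?_)
    · rw [← H8.lam_red ζ (H8.resSub_mem_Zen_of_mem_Zen H (H8.fB_mem_Zen B))]
      have := (H8.mem_indSet_iff (H8.block_eq_blockOf hind.1 hζ ▸ ⟨B, hind⟩) hB).2
        (H8.block_eq_blockOf hind.1 hζ ▸ hind)
      rwa [H8.indSet, Set.mem_setOf_eq, ← H8.red_fB, ← H8.mapRingHom_resSub] at this
    · rw [Nat.factorization_mul Subgroup.index_ne_zero_of_finite (H8.charDegree_irr_ne_zero ζ),
        Nat.factorization_pow_self hM.1, Finsupp.add_apply]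
      omega
  rw [H8.rd_sum _ _ fun χ hχ => ?_] at h6
  · obtain ⟨χ, hχ, h7⟩ := Finset.exists_ne_zero_of_sum_ne_zero h6
    obtain ⟨h8, h9⟩ := H9.factorization_eq_of_rd_ne_zero (p := p) hp0 h7
    have h10 := H8.minVal_le (p := p) (H9.mem_bs.1 hχ)
    rw [Nat.factorization_mul (left_ne_zero_of_mul h8) (right_ne_zero_of_mul h8),
      Nat.factorization_pow_self hM.1, Finsupp.add_apply] at h9
    refine ⟨χ, H9.mem_bs.1 hχ, (H8.blockHeight_eq_zero_iff (H9.mem_bs.1 hχ)).2 (by omega), a χ, ha χ,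
      fun h => ?_⟩
    have := hM.1.factorization_pos_of_dvd (left_ne_zero_of_mul h8) h
    omega
  · obtain ⟨k, hk⟩ := (pow_dvd_pow p (H8.minVal_le (p := p) (H9.mem_bs.1 hχ))).trans
      (Nat.ordProj_dvd _ p)
    rw [hk, mul_left_comm, Nat.cast_mul, mul_div_cancel_left₀ _ (Nat.cast_ne_zero.2 hp0)]
    exact natCast_mem _ _

end Cfsg.Agent.S4725
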