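import Cfsg.Statements.S4726
import Mathlib
import Cfsg.Agent.H9.Misc

set_option autoImplicit false
open Cfsg

namespace Cfsg.Agent.S4726

/-- Let p be a prime, M a maximal ideal of the algebraic integers containing p, H a subgroup of the finite group G and b a p-block of H with defect group D₀ such that C_G(D₀) ≤ H. Then b induces a block of G, and for every block B of G induced by b there is a defect group D of B with Z(D) ≤ Z(D₀) ≤ D₀ ≤ D (as subgroups of G). In particular, if the defect groups of B are abelian then D₀ is a defect group of B. -/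
theorem result {G : Type*} [Group G] [Finite G] (p : ℕ) [Fact p.Prime] (M : Ideal Cfsg.AlgInt) (hM : Cfsg.IsPModular p M) (H : Subgroup G) (b : Set (Cfsg.IrrCharacter ↥H)) (hb : Cfsg.IsPBlock M b) (D₀ : Subgroup ↥H) (hD₀ : Cfsg.IsDefectGroup p M b D₀) (hC : Subgroup.centralizer ((D₀.map H.subtype : Subgroup G) : Set G) ≤ H) : Cfsg.InducedBlockDefined M H b ∧ ∀ B : Set (Cfsg.IrrCharacter G), Cfsg.IsInducedBlock M H b B → (∃ D : Subgroup G, Cfsg.IsDefectGroup p M B D ∧ (Subgroup.center ↥D).map D.subtype ≤ ((Subgroup.center ↥D₀).map D₀.subtype).map H.subtype ∧ ((Subgroup.center ↥D₀).map D₀.subtype).map H.subtype ≤ D₀.map H.subtype ∧ D₀.map H.subtype ≤ D) ∧ (∀ D : Subgroup G, Cfsg.IsDefectGroup p M B D → IsMulCommutative ↥D → Cfsg.IsDefectGroup p M B (D₀.map H.subtype)) := by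
  haveI := hM.2.1; haveI : H9.PMod M p := ⟨hM⟩
  have h1 := (H9.isDefectGroup_iff_map hb).1 hD₀
  have he := H9.isBlk_eI hb
  have hC' := (inf_le_right (a := ⊤)).trans hC
  refine ⟨?_, fun B hB => ?_⟩
  · obtain ⟨c, hc⟩ := H9.exists_isInd le_top h1.le h1.isP hC' he h1.br_ne
    obtain ⟨B, hB, rfl⟩ := H9.exists_eB hc.right
    exact ⟨B, H9.isInducedBlock_iff.2 ⟨hb, hB, hc⟩⟩
  obtain ⟨-, hB', h3⟩ := H9.isInducedBlock_iff.1 hB
  obtain ⟨f, hf⟩ := H9.exists_isPairOf le_rfl Subgroup.le_normalizer he.mem he.idem h1.le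
    h1.isP h1.br_ne
  have h5 := hf.1.blk
  have h4 := (H9.MaxPair.not_dvd_relIndex ⟨he, h1, hf⟩).2.1
  rw [inf_eq_right.2 hC, ← top_inf_eq (Subgroup.centralizer _)] at h5 h4
  have h6 : H9.IsPairOf p ⊤ (H8.eB M B) _ f := ⟨⟨H9.le_normalizer_top, h1.isP, h5⟩,
    (H9.isInd_iff_br le_top h1.le h1.isP hC' (le_inf hC'
      (inf_le_right.trans (Subgroup.centralizer_le_normalizer _))) le_rfl h3.left h3.right h5 hf.2).1 h3⟩
  obtain ⟨D, e, h7, h8, h9⟩ := h6.exists_def_above le_rfl H9.top_le_normalizer_top h3.right le_top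
  have h10 : D ⊓ Subgroup.centralizer (D₀.map H.subtype : Set G) ≤ D₀.map H.subtype := by
    obtain ⟨E, hE, h11⟩ := H9.MaxPair.exists_def_ge ⟨h3.right, h7, h8⟩ h9 le_rfl h6.1.centralizer_le_pstab
    rw [top_inf_eq] at h11 h4 hE
    exact (h4.eq_of_le inf_le_right h7.isP.to_inf_left (H9.br_ne_zero_of_le h11 hE.br_ne)
      (inf_le_inf_right _ h9.le)).le.trans inf_le_left
  refine ⟨⟨D, (H9.isDefectGroup_iff hB').2 h7, ?_, Subgroup.map_mono (Subgroup.map_subtype_le _), h9.le⟩,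
    fun D' hD' hc => (H9.isDefectGroup_iff hB').2 ?_⟩
  · rintro _ ⟨z, hz, rfl⟩
    have h11 : (z : G) ∈ Subgroup.centralizer (D₀.map H.subtype : Set G) := fun y hy =>
      congrArg Subtype.val (Subgroup.mem_center_iff.1 hz ⟨y, h9.le hy⟩)
    obtain ⟨w, hw, h12⟩ := h10 ⟨z.2, h11⟩
    refine ⟨w, ⟨⟨w, hw⟩, Subgroup.mem_center_iff.2 fun y => Subtype.ext (Subtype.ext ?_), rfl⟩, h12⟩
    have := h11 _ ⟨y, y.2, rfl⟩
    rw [← h12] at this
    exact this
  · obtain ⟨t, -, rfl⟩ := ((H9.isDefectGroup_iff hB').1 hD').exists_cg_eq h7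
    refine (h9.le.antisymm fun x hx => h10 ⟨hx, fun y hy => ?_⟩) ▸ h7
    obtain ⟨x, hx, rfl⟩ := hx
    obtain ⟨y, hy', rfl⟩ := h9.le hy
    rw [← map_mul, ← map_mul]
    exact congrArg (fun z : D' => (MulAut.conj t).toMonoidHom z) (hc.is_comm.comm ⟨y, hy'⟩ ⟨x, hx⟩)

end Cfsg.Agent.S4726
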