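import Cfsg.Statements.S4727
import Mathlib
import Cfsg.Agent.H9.PiKer

set_option autoImplicit false
open Cfsg

namespace Cfsg.Agent.S4727

/-- Let p be a prime, π a set of primes containing p, M a maximal ideal of the algebraic integers containing p, and B a p-block of the finite group G with defect group D; let B₁ be the block of N_G(D) with defect group D that induces B (the Brauer correspondent of B). Suppose every element of O_π'(N_G(D)), the largest normal subgroup of N_G(D) whose order has no prime divisor in π, lies in the kernel of every member of B₁. If y is a p-element whose centralizer C has a normal Hall π'-subgroup (every element of C whose order has no prime divisor in π lies in O_π'(C)), then χ(y x) = χ(y) for every χ ∈ B and every x ∈ C whose order has no prime divisor in π. -/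
theorem result {G : Type*} [Group G] [Finite G] (p : ℕ) [Fact p.Prime] (M : Ideal Cfsg.AlgInt) (hM : Cfsg.IsPModular p M) (π : Set ℕ) (hpπ : p ∈ π) (B : Set (Cfsg.IrrCharacter G)) (hB : Cfsg.IsPBlock M B) (D : Subgroup G) (hBD : Cfsg.IsDefectGroup p M B D) (B₁ : Set (Cfsg.IrrCharacter ↥(Subgroup.normalizer (D : Set G)))) (hB₁ : Cfsg.IsInducedBlock M (Subgroup.normalizer (D : Set G)) B₁ B) (hB₁D : Cfsg.IsDefectGroup p M B₁ (D.subgroupOf (Subgroup.normalizer (D : Set G)))) (hker : ∀ n : ↥(Subgroup.normalizer (D : Set G)), n ∈ Cfsg.piCore {q | q ∉ π} ↥(Subgroup.normalizer (D : Set G)) → n ∈ Cfsg.blockKer B₁) (y : G) (hy : ∃ k : ℕ, orderOf y = p ^ k) (hC : ∀ x : ↥(Subgroup.centralizer ({y} : Set G)), (∀ q : ℕ, q.Prime → q ∣ orderOf x → q ∉ π) → x ∈ Cfsg.piCore {q | q ∉ π} ↥(Subgroup.centralizer ({y} : Set G))) : ∀ χ ∈ B, ∀ x : G, x ∈ Subgroup.centralizer ({y} : Set G) → (∀ q : ℕ, q.Prime → q ∣ orderOf x → q ∉ π) → (χ : G → ℂ) (y * x) = (χ : G → ℂ) y := by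
  haveI := hM.2.1; haveI : H9.PMod M p := ⟨hM⟩
  have hσ : p ∉ {q | q ∉ π} := fun h => h hpπ
  obtain ⟨e, he, h1⟩ := H9.exists_maxPair_ker hσ hBD hB₁
  intro χ hχ x hx h2
  have hU := H8.isBlockUnion_of_block hB
  have h3 := H9.sec_indSet hy hU (H8.blockPart_of_mem hχ) (y := ⟨x, hx⟩) fun h =>
    h2 p Fact.out (by rwa [Subgroup.orderOf_mk] at h) hpπ
  have h4 := H9.sec_indSet hy hU (H8.blockPart_of_mem hχ) (y := 1) H9.not_dvd_orderOf_one
  rw [OneMemClass.coe_one, mul_one] at h4
  rw [← h4, ← h3, H9.sec, H9.blockPart_eq_bs, Finset.sum_apply, Finset.sum_apply]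
  refine Finset.sum_congr rfl fun ξ hξ => ?_
  rw [Pi.smul_apply, Pi.smul_apply]
  refine congrArg _ ?_
  have hb := H8.isPBlock_blockOf (M := M) ξ
  obtain ⟨-, -, h5⟩ := H9.isInducedBlock_iff.1 ((H8.mem_indSet_iff
    (H8.inducedBlockDefined_centralizer hM hy hb) hB).1 (H9.mem_bs.1 hξ))
  have h6 := H8.isPGroup_zpowers hy
  have h7 : ⊤ ⊓ Subgroup.centralizer (Subgroup.zpowers y : Set G) = Subgroup.centralizer {y} := by
    rw [top_inf_eq, H8.centralizer_zpowers]
  have h9 : H9.IsInd ⊤ (⊤ ⊓ Subgroup.centralizer (Subgroup.zpowers y : Set G))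
      (H9.eI M (blockOf M ξ.1)) (H8.eB M B) := by rw [h7]; exact h5
  have h8 := he.avg_down hσ (h1.2 hker) ⟨⟨H9.le_normalizer_top, h6, h9.left⟩,
    (H9.isInd_centralizer_iff le_top h6 h5.right h9.left).1 h9⟩
  rw [H8.centralizer_zpowers] at h8
  exact (H9.avg_piCoreOf_iff hσ hb).1 h8 _ (hC _ (by rwa [Subgroup.orderOf_mk])) ξ
    (H8.mem_blockOf_self ξ)

end Cfsg.Agent.S4727
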