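import Cfsg.Statements.S4728
import Mathlib
import Cfsg.Agent.H9.PiKer

set_option autoImplicit false
open Cfsg

namespace Cfsg.Agent.S4728

/-- Let p be a prime, π a set of primes containing p, M a maximal ideal of the algebraic integers containing p, B a p-block of the finite group G with defect group D, and B₁ the block of N_G(D) with defect group D inducing B. Let D₀ be a p-subgroup, H₀ = D₀·C_G(D₀), and b a block of H₀ inducing B. Write O_π'(X) for the largest normal subgroup of X whose order has no prime divisor in π. Suppose that O_π'(C_G(D₀)) is a normal Hall π'-subgroup of C_G(D₀) (it contains every element of C_G(D₀) whose order has no prime divisor in π) and that every element of it lies in the kernel of every member of b. Then every element of O_π'(N_G(D)) lies in the kernel of every member of B₁. -/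
theorem result {G : Type*} [Group G] [Finite G] (p : ℕ) [Fact p.Prime] (M : Ideal Cfsg.AlgInt) (hM : Cfsg.IsPModular p M) (π : Set ℕ) (hpπ : p ∈ π) (B : Set (Cfsg.IrrCharacter G)) (hB : Cfsg.IsPBlock M B) (D : Subgroup G) (hBD : Cfsg.IsDefectGroup p M B D) (B₁ : Set (Cfsg.IrrCharacter ↥(Subgroup.normalizer (D : Set G)))) (hB₁ : Cfsg.IsInducedBlock M (Subgroup.normalizer (D : Set G)) B₁ B) (hB₁D : Cfsg.IsDefectGroup p M B₁ (D.subgroupOf (Subgroup.normalizer (D : Set G)))) (D₀ : Subgroup G) (hD₀ : IsPGroup p D₀) (H₀ : Subgroup G) (hH₀ : H₀ = D₀ ⊔ Subgroup.centralizer (D₀ : Set G)) (b : Set (Cfsg.IrrCharacter ↥H₀)) (hb : Cfsg.IsInducedBlock M H₀ b B) (hcompl : ∀ x : ↥(Subgroup.centralizer (D₀ : Set G)), (∀ q : ℕ, q.Prime → q ∣ orderOf x → q ∉ π) → x ∈ Cfsg.piCore {q | q ∉ π} ↥(Subgroup.centralizer (D₀ : Set G))) (hkerb : ∀ x : ↥(Subgroup.centralizer (D₀ : Set G)), x ∈ Cfsg.piCore {q | q ∉ π} ↥(Subgroup.centralizer (D₀ : Set G)) → ∀ θ ∈ b, ∀ h : ↥H₀,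 (h : G) = (x : G) → (θ : ↥H₀ → ℂ) h = (θ : ↥H₀ → ℂ) 1) : ∀ n : ↥(Subgroup.normalizer (D : Set G)), n ∈ Cfsg.piCore {q | q ∉ π} ↥(Subgroup.normalizer (D : Set G)) → n ∈ Cfsg.blockKer B₁ := by
  haveI := hM.2.1; haveI : H9.PMod M p := ⟨hM⟩
  have hσ : p ∉ {q | q ∉ π} := fun h => h hpπ
  obtain ⟨e, he, h1⟩ := H9.exists_maxPair_ker hσ hBD hB₁
  subst hH₀
  obtain ⟨h2, -, h3⟩ := H9.isInducedBlock_iff.1 hb
  obtain ⟨ξ, hξ⟩ := H8.block_nonempty h2
  refine h1.1 (he.avg_up hσ ((H9.isInd_sup_top_iff hD₀ he.blk).1 h3) (H9.mem_piCoreOf_of hcompl)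
    ((H9.avg_mul_eI_iff ((Subgroup.map_subtype_le _).trans le_sup_right)
      ((H9.sup_centralizer_le_normalizer _).trans ((H9.normalizer_le_normalizer_centralizer _).trans
        (H2.normalizer_le_normalizer_piCore _))) (H9.not_dvd_card_piCoreOf hσ le_rfl) h2 hξ).2 ?_))
  rintro x ⟨y, hy, h4⟩
  exact hkerb y hy ξ hξ x h4.symm

end Cfsg.Agent.S4728
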