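import Cfsg.Statements.S4729
import Mathlib
import Cfsg.Agent.H8.Real
import Cfsg.Agent.H7.Det
import Cfsg.Agent.FT.Hall

set_option autoImplicit false
open Cfsg

namespace Cfsg.Agent.S4729

open H8 H7 in
theorem dvd_ip {V : Type*} [Group V] [Finite V] {p : ℕ} {M : Ideal AlgInt} [M.IsMaximal]
    (hM : IsPModular p M) (hV : ¬ p ∣ Nat.card V) {η : V → ℂ} (hη : IsCharacter V η)
    (h : ∀ y, rd M (η y) = rd M (η 1)) {ψ : V → ℂ} (hψ : IsIrrCharacter V ψ) (h1 : ψ ≠ 1) {n : ℕ}
    (hn : ip η ψ = n) : p ∣ n := by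
  have := Fintype.ofFinite V
  have h2 : ∀ {η : V → ℂ}, IsCharacter V η → ∀ y, η y ∈ locRing M := fun hη y =>
    mem_locRing_of_isIntegral M (char_isIntegral hη y)
  have h3 : ∀ y, starRingEnd ℂ (ψ y) ∈ locRing M := h2 (char_star (irr_char hψ))
  have h4 : ip (η - η 1 • (1 : V → ℂ)) ψ = n := by
    rw [ip_sub_left, ip_smul_left, ip_irr_ne irr_one hψ h1.symm, hn, mul_zero, sub_zero]
  have h5 : ∀ y, (η - η 1 • (1 : V → ℂ)) y ∈ locRing M := fun y => by
    simpa using sub_mem (h2 hη y) (h2 hη 1)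
  rw [← rd_natCast_eq_zero_iff hM, ← h4, ip_def, rd_mul (inv_natCast_mem_locRing hM hV)
    (sum_mem fun y _ => mul_mem (h5 y) (h3 y)), rd_sum _ _ fun y _ => mul_mem (h5 y) (h3 y),
    Finset.sum_eq_zero, mul_zero]
  intro y _
  refine (rd_mul (h5 y) (h3 y)).trans (mul_eq_zero_of_left ?_ _)
  simp [rd_sub (h2 hη y) (h2 hη 1), h y]

/-- Let p be a prime, M a maximal ideal of the algebraic integers containing p, G a finite perfect group and P a Sylow p-subgroup. If the principal p-block of G contains a faithful irreducible character of degree less than 2p, then the centralizer of P is a p-group. -/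
theorem result {G : Type*} [Group G] [Finite G] (p : ℕ) [Fact p.Prime] (M : Ideal Cfsg.AlgInt) (hM : Cfsg.IsPModular p M) (hperf : commutator G = ⊤) (P : Sylow p G) (χ : Cfsg.IrrCharacter G) (hχ : χ ∈ Cfsg.principalBlock M G) (hfaith : ∀ g : G, (χ : G → ℂ) g = (χ : G → ℂ) 1 → g = 1) (hdeg : Cfsg.charDegree (χ : G → ℂ) < 2 * p) : IsPGroup p ↥(Subgroup.centralizer ((P : Subgroup G) : Set G)) := by
  open H8 H7 in
  classical
  have := hM.2.1
  have := charP_resField hM
  have hp : p.Prime := Fact.out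
  refine FT.PiGrp.isPGroup fun q hq hd => by_contra fun hne => ?_
  obtain ⟨v, hv, e⟩ := FT.exists_elt_of_prime_dvd hq hd
  have hV : ¬ p ∣ Nat.card (Subgroup.zpowers v) := fun h =>
    hne ((Nat.prime_dvd_prime_iff_eq hp hq).1 (by rwa [Nat.card_zpowers, e] at h)).symm
  have hη := H7.char_comp (Subgroup.zpowers v).subtype (irr_isChar χ)
  set η : Subgroup.zpowers v → ℂ := fun x => (χ : G → ℂ) ((Subgroup.zpowers v).subtype x) with hη'
  have h1 : ∀ y, rd M (η y) = rd M (η 1) := fun y => by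
    have h2 := not_dvd_index_centralizer_of_mem P (Subgroup.zpowers_le.2 hv y.2)
    have h3 := (lam_eq_iff _ _).1 ((mem_principalBlock_iff χ).1 hχ) y
    have h4 : ((Subgroup.centralizer ({(y : G)} : Set G)).index : ℂ) * η y =
        centralChar (χ : G → ℂ) y * η 1 := by
      simp [centralChar, hη', div_mul_cancel₀ _ (irr_one_ne_zero χ)]
    have h5 := congrArg (rd M) h4
    rw [rd_mul (natCast_mem _ _) (irr_mem_locRing _ _), rd_mul (centralChar_mem_locRing _ _)
      (irr_mem_locRing _ _), h3] at h5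
    simp only [centralChar, irrOne_apply, mul_one, div_one, rd_natCast] at h5
    exact mul_left_cancel₀ ((CharP.cast_eq_zero_iff _ p _).not.2 h2) h5
  have key : ∀ θ, IsCharacter _ θ → (∀ ψ, IsIrrCharacter (Subgroup.zpowers v) ψ → ψ ≠ 1 → ip θ ψ = 0) →
      ∃ n : ℕ, θ = (n : ℂ) • 1 := fun θ hθ h => by
    obtain ⟨n, hn⟩ := ip_char_nat hθ char_one
    refine ⟨n, (cf_expand (char_cf hθ)).trans ?_⟩
    rw [Finset.sum_eq_single_of_mem 1 (mem_irrSet.2 irr_one) fun ψ h1 h2 => by
      rw [h ψ (mem_irrSet.1 h1) h2, zero_smul], hn]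
  obtain ⟨ψ, hψ, h2, h3⟩ : ∃ ψ, IsIrrCharacter (Subgroup.zpowers v) ψ ∧ ψ ≠ 1 ∧ ip η ψ ≠ 0 := by
    by_contra! h
    obtain ⟨n, hn⟩ := key η hη h
    have := hfaith v ((congrFun hn ⟨v, Subgroup.mem_zpowers v⟩).trans (congrFun hn 1).symm)
    exact hq.one_lt.ne' (by rw [← e, this, orderOf_one])
  have hc : ∀ a b : Subgroup.zpowers v, a * b = b * a := fun a b => mul_comm' a b
  have hl := H6.comm_iff_forall_degree_one.1 hc
  obtain ⟨μ, rfl⟩ := exists_linFun (irr_char hψ) (hl ψ hψ)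
  obtain ⟨m, hm⟩ := ip_char_nat hη (irr_char hψ)
  have h4 := char_sub_smul_irr hη hψ hm (Nat.le_of_dvd (Nat.pos_of_ne_zero fun e => h3 (by simp [hm, e]))
    (dvd_ip hM hV hη h1 hψ h2 hm))
  obtain ⟨d, hd⟩ := char_one_nat h4
  have hd' : d + p = charDegree (χ : G → ℂ) := by
    have : (d : ℂ) + p = charDegree (χ : G → ℂ) := by
      rw [← hd, ← irr_one_eq]; simp [linFun_one_apply, hη']
    exact_mod_cast this
  obtain ⟨n, hn⟩ := key _ h4 fun φ hφ h5 => by
    obtain ⟨k, hk⟩ := ip_char_nat h4 (irr_char hφ)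
    have h6 := degree_le_of_ip h4 hφ hk hd (b := 1) (by rw [hl φ hφ, Nat.cast_one])
    rw [hk, Nat.eq_zero_of_dvd_of_lt (dvd_ip hM hV h4 (fun y => ?_) hφ h5 hk) (by omega), Nat.cast_zero]
    have h7 : ∀ y, rd M ((η - (p : ℂ) • linFun μ) y) = rd M (η y) := fun y => by
      have := mem_locRing_of_isIntegral M (char_isIntegral (irr_char hψ) y)
      rw [Pi.sub_apply, Pi.smul_apply, smul_eq_mul, rd_sub (irr_mem_locRing _ _)
        (mul_mem (natCast_mem _ _) this), rd_mul (natCast_mem _ _) this, rd_natCast,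
        CharP.cast_eq_zero, zero_mul, sub_zero]
    rw [h7, h7, h1]
  have h5 := detHom_comp (Subgroup.zpowers v).subtype (irr_isChar χ)
  rw [← hη', sub_eq_iff_eq_add.1 hn, detHom_add (char_natCast_smul _ char_one)
    (char_natCast_smul _ (char_linFun μ)), detHom_natCast_smul _ char_one, detHom_one,
    detHom_natCast_smul _ (char_linFun μ), detHom_linFun] at h5
  refine h2 (funext fun y => ?_)
  have h6 : μ y ^ p = 1 := by
    have := (DFunLike.congr_fun h5 y).trans (Abelianization.commutator_subset_ker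
      (detHom (χ : G → ℂ)) (hperf.ge (Subgroup.mem_top _)))
    simpa using this
  have h7 : μ y ^ Nat.card (Subgroup.zpowers v) = 1 := by rw [← map_pow, pow_card_eq_one', map_one]
  rw [linFun_apply, (pow_eq_one_iff_of_coprime ((Nat.Prime.coprime_iff_not_dvd hp).2 hV)).1 ⟨h6, h7⟩]
  rfl

end Cfsg.Agent.S4729
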