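import Cfsg.Statements.S4734
import Mathlib
import Cfsg.Agent.H9.PiKer

set_option autoImplicit false
open Cfsg

namespace Cfsg.Agent.S4734

/-- Let p be a prime, π a set of primes containing p, M a maximal ideal of the algebraic integers containing p, B a p-block of the finite group G with defect group D, and B₁ the block of N_G(D) with defect group D inducing B. Write O_π'(X) for the largest normal subgroup of X whose order has no prime divisor in π, and suppose every element of O_π'(N_G(D)) lies in the kernel of every member of B₁. Let G₀ be a subgroup and B₀ a block of G₀ with defect group D₀ such that C_G(D₀) ≤ G₀ and B₀ induces B. Then every element of O_π'(G₀) lies in the kernel of every member of B₀. -/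
theorem result {G : Type*} [Group G] [Finite G] (p : ℕ) [Fact p.Prime] (M : Ideal Cfsg.AlgInt) (hM : Cfsg.IsPModular p M) (π : Set ℕ) (hpπ : p ∈ π) (B : Set (Cfsg.IrrCharacter G)) (hB : Cfsg.IsPBlock M B) (D : Subgroup G) (hBD : Cfsg.IsDefectGroup p M B D) (B₁ : Set (Cfsg.IrrCharacter ↥(Subgroup.normalizer (D : Set G)))) (hB₁ : Cfsg.IsInducedBlock M (Subgroup.normalizer (D : Set G)) B₁ B) (hB₁D : Cfsg.IsDefectGroup p M B₁ (D.subgroupOf (Subgroup.normalizer (D : Set G)))) (hker : ∀ n : ↥(Subgroup.normalizer (D : Set G)), n ∈ Cfsg.piCore {q | q ∉ π} ↥(Subgroup.normalizer (D : Set G)) → n ∈ Cfsg.blockKer B₁) (G₀ : Subgroup G) (B₀ : Set (Cfsg.IrrCharacter ↥G₀)) (hB₀ : Cfsg.IsInducedBlock M G₀ B₀ B) (D₀ : Subgroup ↥G₀) (hD₀ : Cfsg.IsDefectGroup p M B₀ D₀) (hC : Subgroup.centralizer ((D₀.map G₀.subtype : Subgroup G) : Set G) ≤ G₀) : ∀ x : ↥G₀, x ∈ Cfsg.piCore {q | q ∉ π} ↥G₀ → x ∈ Cfsg.blockKer B₀ := by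
  haveI := hM.2.1; haveI : H9.PMod M p := ⟨hM⟩
  have hσ : p ∉ {q | q ∉ π} := fun h => h hpπ
  obtain ⟨e, he, h1⟩ := H9.exists_maxPair_ker hσ hBD hB₁
  obtain ⟨h2, -, h3⟩ := H9.isInducedBlock_iff.1 hB₀
  have h4 := (H9.isDefectGroup_iff_map h2).1 hD₀
  obtain ⟨f, hf⟩ := H9.exists_isPairOf le_rfl Subgroup.le_normalizer h3.left.mem h3.left.idem h4.le
    h4.isP h4.br_ne
  have h5 := hf.1.blk
  rw [inf_eq_right.2 hC, ← top_inf_eq (Subgroup.centralizer _)] at h5
  have h6 : H9.IsPairOf p ⊤ (H8.eB M B) _ f := ⟨⟨H9.le_normalizer_top, h4.isP, h5⟩,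
    (H9.isInd_iff_br le_top h4.le h4.isP (inf_le_right.trans hC) (le_inf (inf_le_right.trans hC)
      (inf_le_right.trans (Subgroup.centralizer_le_normalizer _))) le_rfl h3.left h3.right h5 hf.2).1 h3⟩
  exact (H9.avg_piCoreOf_iff hσ h2).1 ((hf.avg_mul_iff h3.left h4.le (H9.not_dvd_card_piCoreOf hσ le_rfl)
    (Subgroup.map_subtype_le _) (H2.le_normalizer_piCore _)).2 (H9.avg_mul_of_le
      (H9.not_dvd_card_piCoreOf hσ inf_le_left) (H9.piCoreOf_inf_le hC) (he.avg_down hσ (h1.2 hker) h6)))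

end Cfsg.Agent.S4734
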