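import Cfsg.Statements.S4736
import Mathlib
import Cfsg.Agent.H7.PSB

set_option autoImplicit false
open Cfsg

namespace Cfsg.Agent.S4736

/-- Let p be a prime, M a maximal ideal of the algebraic integers containing p, and G a finite p-solvable group with Sylow p-subgroup P. Then P is abelian if and only if every irreducible character in the principal p-block of G has height zero. -/
theorem result {G : Type*} [Group G] [Finite G] (p : ℕ) [Fact p.Prime] (M : Ideal Cfsg.AlgInt) (hM : Cfsg.IsPModular p M) (hsolv : Cfsg.IsPSolvable p G) (P : Sylow p G) : IsMulCommutative P ↔ ∀ χ ∈ Cfsg.principalBlock M G, Cfsg.blockHeight p (Cfsg.principalBlock M G) (χ : G → ℂ) = 0 := by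
  haveI := hM.2.1
  haveI := H2.pPrimeCore_characteristic (p := p) (G := G)
  simp only [H8.blockHeight_principal_eq_zero]
  refine ⟨fun h χ hχ => ?_, fun h => ?_⟩
  · have h1 := ((H7.fong_inv hM hsolv H8.isPBlock_principalBlock H8.irrOne_mem_principalBlock
      H7.irr_one (H7.ip_one_one.trans_ne one_ne_zero) fun _ => rfl).2 _).mpr ⟨P, rfl⟩
    have h2 := H7.height_le hM hsolv H8.isPBlock_principalBlock _ h1 χ hχ
    have : Subgroup.center P = ⊤ := by
      rw [eq_top_iff]; exact fun x _ => Subgroup.mem_center_iff.mpr fun y => h.is_comm.comm y x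
    rw [this, Subgroup.index_top, Nat.factorization_one, Finsupp.zero_apply, Nat.le_zero] at h2
    exact (H8.blockHeight_principal_eq_zero χ).mp h2
  · have hσ := QuotientGroup.mk'_surjective (pPrimeCore p G)
    have h1 : ∀ β, IsIrrCharacter (G ⧸ pPrimeCore p G) β → ¬ p ∣ charDegree β := fun β hβ => by
      have := h (H8.inflIrr _ hσ ⟨β, hβ⟩) ((H7.mem_principal_iff_of_psolv hM hsolv _).mpr
        (H6.le_charKer_inflate _ β))
      erw [H7.deg_comp] at this
      exact this
    haveI := H7.sylow_normal_of_not_dvd _ rfl (H1.isPSolvable_quotient Fact.out hsolv _) h1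
      (P.mapSurjective hσ)
    have h2 := H7.sylow_comm_of_not_dvd (P.mapSurjective hσ) h1
    refine ⟨⟨fun a b => Subtype.ext ?_⟩⟩
    have h3 : (a * b : G) * (b * a : G)⁻¹ ∈ (P : Subgroup G) ⊓ pPrimeCore p G := by
      refine Subgroup.mem_inf.mpr ⟨mul_mem (mul_mem a.2 b.2) (inv_mem (mul_mem b.2 a.2)), ?_⟩
      rw [← QuotientGroup.ker_mk' (pPrimeCore p G), MonoidHom.mem_ker, map_mul,
        map_inv, map_mul, map_mul, h2 _ ⟨a, a.2, rfl⟩ _ ⟨b, b.2, rfl⟩, mul_inv_cancel]
    obtain ⟨k, e⟩ := IsPGroup.iff_card.mp P.isPGroup'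
    rw [Subgroup.inf_eq_bot_of_coprime (e ▸ H2.pPrimeCore_coprime.symm.pow_left _)] at h3
    exact mul_inv_eq_one.mp h3

end Cfsg.Agent.S4736
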