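import Cfsg.Statements.S4955
import Mathlib
import Cfsg.Agent.H7.Gag

set_option autoImplicit false
open Cfsg

namespace Cfsg.Agent.S4955

open Cfsg Cfsg.Agent.H7

/-- Let X be a finite group with an abelian normal Sylow p-subgroup V (a normal p-subgroup of index prime to p in which any two elements commute), and let G be a complement to V in X. Then for every v in V, writing C for the centralizer of v in G, the number k(X) of conjugacy classes of X satisfies k(X) ≤ (order of C)·(order of V) − ((order of G) − k(G)); the statement is written with the subtracted term moved to the left. In particular, if some v in V is centralized by no nonidentity element of G, then k(X) is at most the order of V. -/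
theorem result {X : Type*} [Group X] [Finite X] (p : ℕ) [Fact p.Prime] (V : Subgroup X) [V.Normal] (hVp : IsPGroup p V) (hidx : ¬ p ∣ V.index) (hab : ∀ a ∈ V, ∀ b ∈ V, a * b = b * a) (G : Subgroup X) (hGV : Subgroup.IsComplement' V G) (v : X) (hv : v ∈ V) : Nat.card (ConjClasses X) + Nat.card G ≤ Nat.card ↥(G ⊓ Subgroup.centralizer ({v} : Set X)) * Nat.card V + Nat.card (ConjClasses G) := by
  have h1 := card_classes_add_le V hVp hidx hab hv
  have h2 : Nat.card (ConjClasses (X ⧸ V)) = Nat.card (ConjClasses G) := by
    rw [← H6.card_irr_eq_card_conjClasses, ← H6.card_irr_eq_card_conjClasses]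
    let e := hGV.symm.QuotientMulEquiv
    exact Nat.card_congr ⟨fun χ => ⟨_, H6.isIrr_comp_equiv e.symm χ.2⟩,
      fun χ => ⟨_, H6.isIrr_comp_equiv e χ.2⟩, fun χ => Subtype.ext (by simp),
      fun χ => Subtype.ext (by simp)⟩
  have h3 : V ≤ Subgroup.centralizer {v} := fun a ha =>
    Subgroup.mem_centralizer_singleton_iff.mpr (hab a ha v hv)
  have h4 : Nat.card (Subgroup.centralizer ({v} : Set X)) ≤
      Nat.card ↥(G ⊓ Subgroup.centralizer ({v} : Set X)) * Nat.card V := by
    rw [← Nat.card_prod]
    refine Nat.card_le_card_of_surjective (fun x => ⟨x.2 * x.1, mul_mem (h3 x.2.2) x.1.2.2⟩) ?_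
    rintro ⟨c, hc⟩
    obtain ⟨⟨a, g⟩, rfl⟩ := hGV.2 c
    exact ⟨⟨⟨g, g.2, (mul_mem_cancel_left (h3 a.2)).mp hc⟩, a⟩, rfl⟩
  rw [h2, hGV.symm.index_eq_card] at h1
  omega

end Cfsg.Agent.S4955
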