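import Cfsg.Statements.S4964
import Mathlib
import Cfsg.Agent.H9.Cent
import Cfsg.Agent.H1.Coprime
import Cfsg.Agent.H3.Frattini

set_option autoImplicit false
open Cfsg

namespace Cfsg.Agent.S4964

/-- Let D be a normal p-subgroup of the finite group G, let D′ be its commutator subgroup (normal in G), and fix a maximal ideal M of the algebraic integers containing p. Then (i) two irreducible characters of G ⧸ D′ lie in the same p-block if and only if their inflations to G do, and (ii) every p-block of G contains the inflation of some irreducible character of G ⧸ D′; so inflation induces a bijection between the p-blocks of G ⧸ D′ and the p-blocks of G. -/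
theorem result {G : Type*} [Group G] [Finite G] (p : ℕ) [Fact p.Prime] (M : Ideal Cfsg.AlgInt) (hM : Cfsg.IsPModular p M) (D : Subgroup G) [D.Normal] (hD : IsPGroup p D) : (∀ χ ψ : Cfsg.IrrCharacter (G ⧸ ⁅D, D⁆), Cfsg.SameBlock M (χ : G ⧸ ⁅D, D⁆ → ℂ) (ψ : G ⧸ ⁅D, D⁆ → ℂ) ↔ Cfsg.SameBlock M ((χ : G ⧸ ⁅D, D⁆ → ℂ) ∘ QuotientGroup.mk) ((ψ : G ⧸ ⁅D, D⁆ → ℂ) ∘ QuotientGroup.mk)) ∧ ∀ B : Set (Cfsg.IrrCharacter G), Cfsg.IsPBlock M B → ∃ χ : Cfsg.IrrCharacter (G ⧸ ⁅D, D⁆), ∃ θ ∈ B, (θ : G → ℂ) = (χ : G ⧸ ⁅D, D⁆ → ℂ) ∘ QuotientGroup.mk := by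
  haveI := hM.2.1; haveI : H9.PMod M p := ⟨hM⟩
  have hφ := QuotientGroup.mk'_surjective ⁅D, D⁆
  have hDD : ⁅D, D⁆ ≤ D := Subgroup.commutator_le_left D D
  have hk : IsPGroup p (QuotientGroup.mk' ⁅D, D⁆).ker :=
    (QuotientGroup.ker_mk' ⁅D, D⁆).symm ▸ hD.to_le hDD
  refine ⟨fun χ ψ => ?_, fun B hB => ?_⟩
  · refine (H8.sameBlock_iff χ ψ).trans ((H9.lam_infl_eq_iff hφ hk fun x hx h => ?_).symm.trans
      (H8.sameBlock_iff (H8.inflIrr _ hφ χ) (H8.inflIrr _ hφ ψ)).symm)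
    rw [QuotientGroup.ker_mk']
    haveI := Subgroup.Normal.map ‹D.Normal› _ hφ
    have h1 := (H9.supp_centralizer_of_idem (hD.map (QuotientGroup.mk' ⁅D, D⁆)) le_top
      (H9.top_le_normalizer_of_normal _) (H9.eB_mem_fix _) (H8.eB_mul_self
        (H8.isBlockUnion_of_block (H8.isPBlock_blockOf χ)))).mem h
    refine Subgroup.centralizer_le hDD (H1.le_centralizer_of_commutator_le_frattini (Subgroup.zpowers x) D
      (H9.le_normalizer_of_normal' D) ?_ (le_trans ?_ (H3.commutator_le_map_frattini hD))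
      (Subgroup.mem_zpowers x))
    · obtain ⟨n, hn⟩ := IsPGroup.iff_card.1 (hD.to_subgroup (frattini D))
      rw [hn, Nat.card_zpowers]
      exact ((Nat.Prime.coprime_iff_not_dvd hM.1).2 hx).symm.pow_right n
    · refine Subgroup.commutator_le.2 fun d hd y hy => ?_
      rw [← QuotientGroup.ker_mk' ⁅D, D⁆, MonoidHom.mem_ker, map_commutatorElement,
        commutatorElement_eq_one_iff_mul_comm]
      obtain ⟨n, rfl⟩ := hy
      rw [map_zpow]
      exact zpow_mem h1 n _ ⟨d, hd, rfl⟩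
  · obtain ⟨ψ, h⟩ := H9.exists_infl_mem hφ hk hB
    exact ⟨ψ, _, h, rfl⟩

end Cfsg.Agent.S4964
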