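import Cfsg.Statements.S4966
import Mathlib
-- import your own Cfsg.Agent.* helpers here

set_option autoImplicit false
open Cfsg

namespace Cfsg.Agent.S4966


section
variable {F : Type*} [Field F] {G : Type*} [Group G] {V : Type*} [AddCommGroup V] [Module F V]
  (ρ : Representation F G V)

/-- invariant subspace -/
def Inv (U : Submodule F V) : Prop := ∀ g : G, ∀ u ∈ U, ρ g u ∈ U

/-- invariant form nondegenerate on `U` -/
def Form (U : Submodule F V) (A : LinearMap.BilinForm F V) : Prop :=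
  (∀ g : G, ∀ x ∈ U, ∀ y ∈ U, A (ρ g x) (ρ g y) = A x y) ∧ (∀ x ∈ U, (∀ y ∈ U, A x y = 0) → x = 0)

/-- good pair -/
def Good (p : ℕ) (U W : Submodule F V) : Prop :=
  Disjoint U W ∧ Inv ρ U ∧ Inv ρ W ∧ (∃ A : LinearMap.BilinForm F V, (∀ x : V, A x x = 0) ∧ Form ρ U A) ∧
    (∃ S : LinearMap.BilinForm F V, (∀ x y : V, S x y = S y x) ∧ Form ρ W S) ∧
    (p = 2 → ∀ g : G, ∀ w ∈ W, ρ g w = w)

variable {ρ}

theorem Inv.sup {U W : Submodule F V} (hU : Inv ρ U) (hW : Inv ρ W) : Inv ρ (U ⊔ W) := by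
  intro g x hx
  obtain ⟨u, hu, w, hw, rfl⟩ := Submodule.mem_sup.mp hx
  rw [map_add]
  exact Submodule.add_mem_sup (hU g u hu) (hW g w hw)

theorem Inv.inf {U W : Submodule F V} (hU : Inv ρ U) (hW : Inv ρ W) : Inv ρ (U ⊓ W) :=
  fun g x hx => ⟨hU g x hx.1, hW g x hx.2⟩

theorem inv_bot : Inv ρ ⊥ := fun g x hx => by rw [(Submodule.mem_bot F).mp hx, map_zero]; exact zero_mem _

theorem form_bot (A : LinearMap.BilinForm F V) : Form ρ ⊥ A :=
  ⟨fun g x hx y hy => by rw [(Submodule.mem_bot F).mp hx]; simp, fun x hx _ => (Submodule.mem_bot F).mp hx⟩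

theorem rho_inv (g : G) (x : V) : ρ g (ρ g⁻¹ x) = x := by
  rw [← Module.End.mul_apply, ← map_mul, mul_inv_cancel, map_one, Module.End.one_apply]

theorem maschke [Finite G] [NeZero (Nat.card G : F)] {U : Submodule F V} (hU : Inv ρ U) :
    ∃ Z : Submodule F V, Inv ρ Z ∧ IsCompl U Z := by
  obtain ⟨Z, hZ⟩ := exists_isCompl (⟨U, fun g v hv => hU g v hv⟩ : Subrepresentation ρ)
  refine ⟨Z.toSubmodule, fun g v hv => Z.apply_mem_toSubmodule g hv, ?_, ?_⟩
  · rw [disjoint_iff]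
    exact congrArg Subrepresentation.toSubmodule hZ.inf_eq_bot
  · rw [codisjoint_iff]
    exact congrArg Subrepresentation.toSubmodule hZ.sup_eq_top

theorem form_sup {M Z : Submodule F V} (h : IsCompl M Z) {U U' : Submodule F V} (hU : U ≤ M) (hU' : U' ≤ Z)
    (iU : Inv ρ U) (iU' : Inv ρ U') {A A' : LinearMap.BilinForm F V} (hA : Form ρ U A) (hA' : Form ρ U' A') :
    Form ρ (U ⊔ U') (A.comp (M.projection Z h) (M.projection Z h) +
      A'.comp (Z.projection M h.symm) (Z.projection M h.symm)) := by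
  have key : ∀ x ∈ U, ∀ x' ∈ U', ∀ y ∈ U, ∀ y' ∈ U', (A.comp (M.projection Z h) (M.projection Z h) +
      A'.comp (Z.projection M h.symm) (Z.projection M h.symm)) (x + x') (y + y') = A x y + A' x' y' := by
    intro x hx x' hx' y hy y' hy'
    simp only [LinearMap.add_apply, LinearMap.BilinForm.comp_apply, map_add,
      Submodule.projection_apply_of_mem_left h (hU hx), Submodule.projection_apply_of_mem_left h (hU hy),
      Submodule.projection_apply_of_mem_right h (hU' hx'), Submodule.projection_apply_of_mem_right h (hU' hy'),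
      Submodule.projection_apply_of_mem_left h.symm (hU' hx'), Submodule.projection_apply_of_mem_left h.symm (hU' hy'),
      Submodule.projection_apply_of_mem_right h.symm (hU hx), Submodule.projection_apply_of_mem_right h.symm (hU hy)]
    simp
  constructor
  · intro g a ha b hb
    obtain ⟨x, hx, x', hx', rfl⟩ := Submodule.mem_sup.mp ha
    obtain ⟨y, hy, y', hy', rfl⟩ := Submodule.mem_sup.mp hb
    rw [map_add (ρ g), map_add (ρ g), key _ (iU g x hx) _ (iU' g x' hx') _ (iU g y hy) _ (iU' g y' hy'),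
      key _ hx _ hx' _ hy _ hy', hA.1 g x hx y hy, hA'.1 g x' hx' y' hy']
  · intro a ha h0
    obtain ⟨x, hx, x', hx', rfl⟩ := Submodule.mem_sup.mp ha
    have h1 : x = 0 := hA.2 x hx fun y hy => by
      have := h0 (y + 0) (Submodule.add_mem_sup hy (zero_mem _))
      rw [key _ hx _ hx' _ hy _ (zero_mem _)] at this
      simpa using this
    have h2 : x' = 0 := hA'.2 x' hx' fun y hy => by
      have := h0 (0 + y) (Submodule.add_mem_sup (zero_mem _) hy)
      rw [key _ hx _ hx' _ (zero_mem _) _ hy] at this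
      simpa using this
    rw [h1, h2, add_zero]

theorem Good.sup {p : ℕ} {U W U' W' Z : Submodule F V} (h : IsCompl (U ⊔ W) Z) (hU' : U' ≤ Z) (hW' : W' ≤ Z)
    (h1 : Good ρ p U W) (h2 : Good ρ p U' W') : Good ρ p (U ⊔ U') (W ⊔ W') := by
  obtain ⟨d1, iU, iW, ⟨A, a1, a2⟩, ⟨S, s1, s2⟩, t1⟩ := h1
  obtain ⟨d2, iU', iW', ⟨A', a1', a2'⟩, ⟨S', s1', s2'⟩, t2⟩ := h2
  refine ⟨?_, iU.sup iU', iW.sup iW', ⟨_, ?_, form_sup h le_sup_left hU' iU iU' a2 a2'⟩,
    ⟨_, ?_, form_sup h le_sup_right hW' iW iW' s2 s2'⟩, ?_⟩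
  · rw [Submodule.disjoint_def]
    intro a ha hb
    obtain ⟨x, hx, x', hx', rfl⟩ := Submodule.mem_sup.mp ha
    obtain ⟨y, hy, y', hy', hxy⟩ := Submodule.mem_sup.mp hb
    have e1 : x - y = y' - x' := by linear_combination (norm := abel1) -hxy
    have e2 : x - y = 0 := Submodule.disjoint_def.mp h.disjoint _
      (sub_mem (Submodule.mem_sup_left hx) (Submodule.mem_sup_right hy)) (e1 ▸ sub_mem (hW' hy') (hU' hx'))
    have e3 : y' = x' := sub_eq_zero.mp (e1 ▸ e2)
    have e4 : x = y := sub_eq_zero.mp e2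
    rw [Submodule.disjoint_def.mp d1 x hx (e4 ▸ hy), Submodule.disjoint_def.mp d2 x' hx' (e3 ▸ hy'), add_zero]
  · intro x; simp [a1, a1']
  · intro x y
    simp only [LinearMap.add_apply, LinearMap.BilinForm.comp_apply]
    rw [s1, s1']
  · intro hp g a ha
    obtain ⟨x, hx, x', hx', rfl⟩ := Submodule.mem_sup.mp ha
    rw [map_add, t1 hp g x hx, t2 hp g x' hx']

theorem exists_T [FiniteDimensional F V] {U : Submodule F V} (iU : Inv ρ U) {A : LinearMap.BilinForm F V}
    (hA : Form ρ U A) (B : LinearMap.BilinForm F V) (hBinv : ∀ g : G, ∀ x y : V, B (ρ g x) (ρ g y) = B x y) :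
    ∃ T : V →ₗ[F] V, (∀ v, T v ∈ U) ∧ (∀ v, ∀ u ∈ U, A (T v) u = B v u) ∧ ∀ g v, T (ρ g v) = ρ g (T v) := by
  have hnd : (A.restrict U).Nondegenerate := by
    apply LinearMap.BilinForm.Nondegenerate.ofSeparatingLeft
    intro x hx
    exact Subtype.ext (hA.2 x x.2 fun y hy => hx ⟨y, hy⟩)
  let T : V →ₗ[F] V := U.subtype ∘ₗ ((A.restrict U).toDual hnd).symm.toLinearMap ∘ₗ U.dualRestrict ∘ₗ B
  have h1 : ∀ v, T v ∈ U := fun v => SetLike.coe_mem _
  have h2 : ∀ v, ∀ u ∈ U, A (T v) u = B v u := by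
    intro v u hu
    exact LinearMap.BilinForm.apply_toDual_symm_apply (hB := hnd) (U.dualRestrict (B v)) ⟨u, hu⟩
  refine ⟨T, h1, h2, fun g v => ?_⟩
  rw [← sub_eq_zero]
  apply hA.2 _ (sub_mem (h1 _) (iU g _ (h1 _)))
  intro y hy
  rw [map_sub, LinearMap.sub_apply, h2 _ _ hy, ← rho_inv (ρ := ρ) g y, hA.1 g _ (h1 _) _ (iU _ _ hy),
    h2 _ _ (iU _ _ hy), hBinv, sub_self]

theorem exists_form [Finite F] [FiniteDimensional F V] {p : ℕ} {U W Z : Submodule F V} (h : IsCompl (U ⊔ W) Z)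
    (hg : Good ρ p U W) (iZ : Inv ρ Z) (hZ : Z ≠ ⊥) (B : LinearMap.BilinForm F V) (hB : B.Nondegenerate)
    (hBinv : ∀ g : G, ∀ x y : V, B (ρ g x) (ρ g y) = B x y) :
    ∃ β : LinearMap.BilinForm F V, (∀ g : G, ∀ x y : V, β (ρ g x) (ρ g y) = β x y) ∧
      ∃ x ∈ Z, ∃ y ∈ Z, β x y ≠ 0 := by
  by_contra hcon
  push Not at hcon
  obtain ⟨d1, iU, iW, ⟨A, -, a2⟩, ⟨S, -, s2⟩, -⟩ := hg
  obtain ⟨T₁, a, b, c⟩ := exists_T iU a2 B hBinv
  obtain ⟨T₂, a', b', c'⟩ := exists_T iW s2 B hBinv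
  haveI : Finite V := Module.finite_of_finite F
  haveI : Finite (V →ₗ[F] V) := Finite.of_injective _ DFunLike.coe_injective
  let E := {f : V →ₗ[F] V // (∀ g v, f (ρ g v) = ρ g (f v)) ∧ ∀ m ∈ U ⊔ W, f m = 0}
  let Φ : E → E := fun f => ⟨(T₁ + T₂) ∘ₗ f.1, fun g v => by simp [f.2.1, c, c'], fun m hm => by simp [f.2.2 m hm]⟩
  have hinj : Function.Injective Φ := by
    intro f₁ f₂ hf
    have hf' : ∀ v, T₁ ((f₁.1 - f₂.1) v) + T₂ ((f₁.1 - f₂.1) v) = 0 := by
      intro v
      have := congrArg (fun f : E => f.1 v) hf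
      simp only [Φ, LinearMap.comp_apply, LinearMap.add_apply] at this
      simp only [LinearMap.sub_apply, map_sub]
      linear_combination (norm := abel1) this
    have hz := hcon (B.comp (f₁.1 - f₂.1) LinearMap.id) (fun g x y => by
      simp only [LinearMap.BilinForm.comp_apply, LinearMap.sub_apply, LinearMap.id_apply, f₁.2.1, f₂.2.1]
      rw [← map_sub, hBinv])
    apply Subtype.ext
    rw [← sub_eq_zero]
    ext v
    obtain ⟨m, hm, z, hz', rfl⟩ := Submodule.mem_sup.mp (h.sup_eq_top ▸ Submodule.mem_top (x := v))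
    have e0 : (f₁.1 - f₂.1) m = 0 := by simp [f₁.2.2 m hm, f₂.2.2 m hm]
    rw [map_add, e0, zero_add, LinearMap.zero_apply]
    have e1 : T₁ ((f₁.1 - f₂.1) z) = 0 := Submodule.disjoint_def.mp d1 _ (a _) (by
      rw [eq_neg_of_add_eq_zero_left (hf' z)]; exact neg_mem (a' _))
    have e2 : T₂ ((f₁.1 - f₂.1) z) = 0 := by have := hf' z; rwa [e1, zero_add] at this
    apply hB.1
    intro y
    obtain ⟨m', hm', z', hz'', rfl⟩ := Submodule.mem_sup.mp (h.sup_eq_top ▸ Submodule.mem_top (x := y))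
    obtain ⟨u, hu, w, hw, rfl⟩ := Submodule.mem_sup.mp hm'
    rw [map_add, map_add, ← b _ _ hu, ← b' _ _ hw, e1, e2]
    simpa using hz z hz' z' hz''
  have hsurj := Finite.injective_iff_surjective.mp hinj
  obtain ⟨f, hf⟩ := hsurj ⟨Z.projection (U ⊔ W) h.symm, fun g v => by
      obtain ⟨m, hm, z, hz', rfl⟩ := Submodule.mem_sup.mp (h.sup_eq_top ▸ Submodule.mem_top (x := v))
      simp only [map_add, Submodule.projection_apply_of_mem_left h.symm hz',
        Submodule.projection_apply_of_mem_left h.symm (iZ g z hz'), Submodule.projection_apply_of_mem_right h.symm hm,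
        Submodule.projection_apply_of_mem_right h.symm ((iU.sup iW) g m hm), map_zero],
    fun m hm => Submodule.projection_apply_of_mem_right h.symm hm⟩
  apply hZ
  rw [eq_bot_iff]
  intro z hz
  have := congrArg (fun f : E => f.1 z) hf
  simp only [Φ, LinearMap.comp_apply, LinearMap.add_apply, Submodule.projection_apply_of_mem_left h.symm hz] at this
  exact Submodule.disjoint_def.mp h.disjoint z (this ▸ Submodule.add_mem_sup (a _) (a' _)) hz

theorem exists_irr [Finite G] [NeZero (Nat.card G : F)] [FiniteDimensional F V] {Z : Submodule F V} (iZ : Inv ρ Z)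
    (N : Submodule F V) (hN : ¬ Z ≤ N) :
    ∃ X ≤ Z, Inv ρ X ∧ ¬ X ≤ N ∧ ∀ Y ≤ X, Inv ρ Y → Y = ⊥ ∨ Y = X := by
  obtain ⟨X, ⟨h1, h2, h3⟩, hmin⟩ := (wellFounded_lt (α := Submodule F V)).has_min
    {X | X ≤ Z ∧ Inv ρ X ∧ ¬ X ≤ N} ⟨Z, le_rfl, iZ, hN⟩
  refine ⟨X, h1, h2, h3, fun Y hY iY => ?_⟩
  by_contra hc
  push Not at hc
  obtain ⟨Q, iQ, hQ⟩ := maschke iY
  have e1 : Y ≤ N := by
    by_contra h
    exact hmin Y ⟨hY.trans h1, iY, h⟩ (lt_of_le_of_ne hY hc.2)
  have e2 : Q ⊓ X ≤ N := by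
    by_contra h
    refine hmin (Q ⊓ X) ⟨inf_le_right.trans h1, iQ.inf h2, h⟩ (lt_of_le_of_ne inf_le_right fun h' => hc.1 ?_)
    exact hQ.disjoint.eq_bot_of_le (hY.trans (h' ▸ inf_le_left))
  apply h3
  rw [← top_inf_eq X, ← hQ.sup_eq_top, sup_inf_assoc_of_le _ hY]
  exact sup_le e1 e2

theorem form_of_irr {X : Submodule F V} (iX : Inv ρ X) (hirr : ∀ Y ≤ X, Inv ρ Y → Y = ⊥ ∨ Y = X)
    {Y : Submodule F V} (iY : Inv ρ Y) (β : LinearMap.BilinForm F V)
    (hβ : ∀ g : G, ∀ x y : V, β (ρ g x) (ρ g y) = β x y) (hne : ∃ x ∈ X, ∃ y ∈ Y, β x y ≠ 0) :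
    ∀ x ∈ X, (∀ y ∈ Y, β x y = 0) → x = 0 := by
  let K : Submodule F V :=
    { carrier := {x | x ∈ X ∧ ∀ y ∈ Y, β x y = 0}
      add_mem' := fun {a b} ha hb => ⟨add_mem ha.1 hb.1, fun y hy => by simp [ha.2 y hy, hb.2 y hy]⟩
      zero_mem' := ⟨zero_mem _, fun y _ => by simp⟩
      smul_mem' := fun c a ha => ⟨X.smul_mem c ha.1, fun y hy => by simp [ha.2 y hy]⟩ }
  have iK : Inv ρ K := fun g x hx => ⟨iX g x hx.1, fun y hy => by
    rw [← rho_inv (ρ := ρ) g y, hβ]; exact hx.2 _ (iY _ _ hy)⟩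
  rcases hirr K (fun x hx => hx.1) iK with h | h
  · intro x hx h0
    have : x ∈ K := ⟨hx, h0⟩
    rwa [h] at this
  · obtain ⟨x, hx, y, hy, hxy⟩ := hne
    rw [← h] at hx
    exact absurd (hx.2 y hy) hxy

theorem exists_good [Finite G] [NeZero (Nat.card G : F)] [FiniteDimensional F V] (p : ℕ) [CharP F p]
    {Z : Submodule F V} (iZ : Inv ρ Z) (β : LinearMap.BilinForm F V)
    (hβ : ∀ g : G, ∀ x y : V, β (ρ g x) (ρ g y) = β x y) (hne : ∃ x ∈ Z, ∃ y ∈ Z, β x y ≠ 0) :
    ∃ U W : Submodule F V, U ≤ Z ∧ W ≤ Z ∧ Good ρ p U W ∧ U ⊔ W ≠ ⊥ := by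
  obtain ⟨x₀, hx₀, y₀, hy₀, h0⟩ := hne
  obtain ⟨X, hXZ, iX, hX, irX⟩ := exists_irr iZ (LinearMap.ker (β.flip y₀)) (fun h => h0 (h hx₀))
  obtain ⟨x₁, hx₁, h1⟩ := SetLike.not_le_iff_exists.mp hX
  obtain ⟨Y, hYZ, iY, hY, irY⟩ := exists_irr iZ (LinearMap.ker (β x₁)) (fun h => h1 (h hy₀))
  obtain ⟨y₁, hy₁, h2⟩ := SetLike.not_le_iff_exists.mp hY
  have hX0 : X ≠ ⊥ := by rintro rfl; exact hX bot_le
  have l1 := form_of_irr iX irX iY β hβ ⟨x₁, hx₁, y₁, hy₁, h2⟩
  have l2 := form_of_irr iY irY iX β.flip (fun g x y => hβ g y x) ⟨y₁, hy₁, x₁, hx₁, h2⟩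
  by_cases hd : Disjoint Y X
  · obtain ⟨Q, hYQ, hQ⟩ := hd.exists_isCompl
    let π := X.projection Q hQ.symm
    let C : LinearMap.BilinForm F V := β.comp π (LinearMap.id - π)
    have key : ∀ x ∈ X, ∀ y ∈ Y, ∀ x' ∈ X, ∀ y' ∈ Y, (C - C.flip) (x + y) (x' + y') = β x y' - β x' y := by
      intro x hx y hy x' hx' y' hy'
      have e1 : π (x + y) = x := by
        rw [map_add, Submodule.projection_apply_of_mem_left _ hx, Submodule.projection_apply_of_mem_right _ (hYQ hy),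
          add_zero]
      have e2 : π (x' + y') = x' := by
        rw [map_add, Submodule.projection_apply_of_mem_left _ hx', Submodule.projection_apply_of_mem_right _ (hYQ hy'),
          add_zero]
      change β (π (x + y)) (x' + y' - π (x' + y')) - β (π (x' + y')) (x + y - π (x + y)) = _
      rw [e1, e2, add_sub_cancel_left, add_sub_cancel_left]
    refine ⟨X ⊔ Y, ⊥, sup_le hXZ hYZ, bot_le, ⟨disjoint_bot_right, iX.sup iY, inv_bot, ⟨C - C.flip, fun x => ?_, ?_, ?_⟩,
      ⟨0, fun _ _ => rfl, form_bot _⟩, fun _ g w hw => by rw [(Submodule.mem_bot F).mp hw, map_zero]⟩, ?_⟩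
    · exact sub_self (C x x)
    · intro g a ha b hb
      obtain ⟨x, hx, x', hx', rfl⟩ := Submodule.mem_sup.mp ha
      obtain ⟨y, hy, y', hy', rfl⟩ := Submodule.mem_sup.mp hb
      rw [map_add (ρ g), map_add (ρ g), key _ (iX g x hx) _ (iY g x' hx') _ (iX g y hy) _ (iY g y' hy'),
        key _ hx _ hx' _ hy _ hy', hβ, hβ]
    · intro a ha h
      obtain ⟨x, hx, x', hx', rfl⟩ := Submodule.mem_sup.mp ha
      have e1 : x = 0 := l1 x hx fun y hy => by
        have := h (0 + y) (Submodule.add_mem_sup (zero_mem _) hy)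
        rw [key _ hx _ hx' _ (zero_mem _) _ hy] at this
        simpa using this
      have e2 : x' = 0 := l2 x' hx' fun y hy => by
        have := h (y + 0) (Submodule.add_mem_sup hy (zero_mem _))
        rw [key _ hx _ hx' _ hy _ (zero_mem _)] at this
        simpa using this
      rw [e1, e2, add_zero]
    · intro h
      exact hX0 (eq_bot_iff.mpr (h ▸ le_sup_of_le_left le_sup_left))
  · have hXY : Y = X := by
      rcases irX (Y ⊓ X) inf_le_right (iY.inf iX) with h | h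
      · exact absurd (disjoint_iff.mpr h) hd
      rcases irY (Y ⊓ X) inf_le_left (iY.inf iX) with h' | h'
      · exact absurd (disjoint_iff.mpr h') hd
      rw [← h', h]
    subst hXY
    by_cases hs : ∃ x ∈ Y, ∃ y ∈ Y, (β - β.flip) x y ≠ 0
    · have hβ' : ∀ g : G, ∀ x y : V, (β - β.flip) (ρ g x) (ρ g y) = (β - β.flip) x y := by
        intro g x y
        change β _ _ - β _ _ = β _ _ - β _ _
        rw [hβ, hβ]
      exact ⟨Y, ⊥, hYZ, bot_le, ⟨disjoint_bot_right, iY, inv_bot, ⟨β - β.flip, fun x => sub_self (β x x),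
        fun g x _ y _ => hβ' g x y, form_of_irr iY irY iY _ hβ' hs⟩,
        ⟨0, fun _ _ => rfl, form_bot _⟩, fun _ g w hw => by rw [(Submodule.mem_bot F).mp hw, map_zero]⟩,
        by rwa [sup_bot_eq]⟩
    · push Not at hs
      have hs' : ∀ x ∈ Y, ∀ y ∈ Y, β x y = β y x := fun x hx y hy => sub_eq_zero.mp (hs x hx y hy)
      obtain ⟨Q, hQ⟩ := Y.exists_isCompl
      let π := Y.projection Q hQ
      have hform : Form ρ Y (β.comp π π) := by
        constructor
        · intro g x hx y hy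
          simp only [LinearMap.BilinForm.comp_apply, π, Submodule.projection_apply_of_mem_left _ hx,
            Submodule.projection_apply_of_mem_left _ hy, Submodule.projection_apply_of_mem_left _ (iY g x hx),
            Submodule.projection_apply_of_mem_left _ (iY g y hy), hβ]
        · intro x hx h
          apply l1 x hx
          intro y hy
          have := h y hy
          simpa only [LinearMap.BilinForm.comp_apply, π, Submodule.projection_apply_of_mem_left _ hx,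
            Submodule.projection_apply_of_mem_left _ hy] using this
      by_cases halt : ∀ x ∈ Y, β x x = 0
      · exact ⟨Y, ⊥, hYZ, bot_le, ⟨disjoint_bot_right, iY, inv_bot, ⟨β.comp π π,
          fun x => halt _ (Submodule.projection_apply_mem hQ x), hform⟩,
          ⟨0, fun _ _ => rfl, form_bot _⟩, fun _ g w hw => by rw [(Submodule.mem_bot F).mp hw, map_zero]⟩,
          by rwa [sup_bot_eq]⟩
      · refine ⟨⊥, Y, bot_le, hYZ, ⟨disjoint_bot_left, inv_bot, iY, ⟨0, fun _ => rfl, form_bot _⟩,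
          ⟨β.comp π π, fun x y => hs' _ (Submodule.projection_apply_mem hQ x) _ (Submodule.projection_apply_mem hQ y),
            hform⟩, ?_⟩, by rwa [bot_sup_eq]⟩
        rintro rfl g w hw
        have h2 : ∀ a : F, a + a = 0 := fun a => CharTwo.add_self_eq_zero a
        let K : Submodule F V :=
          { carrier := {x | x ∈ Y ∧ β x x = 0}
            add_mem' := fun {a b} ha hb => ⟨add_mem ha.1 hb.1, by
              simp only [map_add, LinearMap.add_apply, ha.2, hb.2, hs' b hb.1 a ha.1]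
              linear_combination h2 (β a b)⟩
            zero_mem' := ⟨zero_mem _, by simp⟩
            smul_mem' := fun c a ha => ⟨Y.smul_mem c ha.1, by simp [ha.2]⟩ }
        have iK : Inv ρ K := fun g x hx => ⟨iY g x hx.1, by rw [hβ]; exact hx.2⟩
        rcases irY K (fun x hx => hx.1) iK with h | h
        · have : ρ g w - w ∈ K := ⟨sub_mem (iY g w hw) hw, by
            simp only [map_sub, LinearMap.sub_apply, hβ, hs' w hw _ (iY g w hw)]
            linear_combination h2 (β w w) - h2 (β (ρ g w) w)⟩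
          rw [h] at this
          exact sub_eq_zero.mp this
        · exact absurd (fun x hx => (show x ∈ K from h ▸ hx).2) halt

end


/-- Let F be a finite field of characteristic p, G a finite group of order prime to p, and V a finite-dimensional representation of G over F carrying a nondegenerate G-invariant bilinear form (equivalently, V is self-dual). Then V is the direct sum of two G-invariant subspaces U and W such that U carries a G-invariant alternating bilinear form that is nondegenerate on U and W carries a G-invariant symmetric bilinear form that is nondegenerate on W; moreover when p = 2 the decomposition can be chosen with G acting trivially on W. -/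
theorem result {F : Type*} [Field F] [Fintype F] (p : ℕ) [Fact p.Prime] [CharP F p] {G : Type*} [Group G] [Finite G] (hcop : ¬ p ∣ Nat.card G) {V : Type*} [AddCommGroup V] [Module F V] [FiniteDimensional F V] (ρ : Representation F G V) (B : LinearMap.BilinForm F V) (hB : B.Nondegenerate) (hBinv : ∀ g : G, ∀ x y : V, B (ρ g x) (ρ g y) = B x y) : ∃ U W : Submodule F V, IsCompl U W ∧ (∀ g : G, ∀ u ∈ U, ρ g u ∈ U) ∧ (∀ g : G, ∀ w ∈ W, ρ g w ∈ W) ∧ (∃ A : LinearMap.BilinForm F V, (∀ x : V, A x x = 0) ∧ (∀ g : G, ∀ x ∈ U, ∀ y ∈ U, A (ρ g x) (ρ g y) = A x y) ∧ (∀ x ∈ U, (∀ y ∈ U, A x y = 0) → x = 0)) ∧ (∃ S : LinearMap.BilinForm F V, (∀ x y : V, S x y = S y x) ∧ (∀ g : G, ∀ x ∈ W, ∀ y ∈ W, S (ρ g x) (ρ g y) = S x y) ∧ (∀ x ∈ W, (∀ y ∈ W, S x y = 0) → x = 0)) ∧ (p = 2 → ∀ g : G, ∀ w ∈ W, ρ g w = w) := by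
  haveI : NeZero (Nat.card G : F) := ⟨by rwa [Ne, CharP.cast_eq_zero_iff F p]⟩
  obtain ⟨M, ⟨U, W, hg, rfl⟩, hmax⟩ := (wellFounded_gt (α := Submodule F V)).has_min
    {M | ∃ U W, Good ρ p U W ∧ U ⊔ W = M} ⟨_, ⊥, ⊥, ⟨disjoint_bot_left, inv_bot, inv_bot,
      ⟨0, fun _ => rfl, form_bot _⟩, ⟨0, fun _ _ => rfl, form_bot _⟩,
      fun _ g w hw => by rw [(Submodule.mem_bot F).mp hw, map_zero]⟩, rfl⟩
  obtain ⟨Z, iZ, hZ⟩ := maschke (hg.2.1.sup hg.2.2.1)
  have hZ0 : Z = ⊥ := by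
    by_contra h
    obtain ⟨β, hβ, hne⟩ := exists_form hZ hg iZ h B hB hBinv
    obtain ⟨U', W', hU', hW', hg', hne'⟩ := exists_good p iZ β hβ hne
    refine hmax _ ⟨_, _, Good.sup hZ hU' hW' hg hg', rfl⟩ (lt_of_le_of_ne (sup_le_sup le_sup_left le_sup_left) ?_)
    intro heq
    apply hne'
    exact eq_bot_iff.mpr (hZ.disjoint (heq ▸ sup_le_sup le_sup_right le_sup_right) (sup_le hU' hW'))
  subst hZ0
  obtain ⟨d1, iU, iW, ⟨A, a1, a2, a3⟩, ⟨S, s1, s2, s3⟩, t1⟩ := hg
  exact ⟨U, W, ⟨d1, codisjoint_iff.mpr (by simpa using hZ.sup_eq_top)⟩, iU, iW, ⟨A, a1, a2, a3⟩, ⟨S, s1, s2, s3⟩, t1⟩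

end Cfsg.Agent.S4966
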