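import Cfsg.Statements.S4967
import Mathlib
-- import your own Cfsg.Agent.* helpers here

set_option autoImplicit false
open Cfsg

namespace Cfsg.Agent.S4967


universe u v w in
theorem exists_field {F : Type u} [Field F] {H : Type v} [CommGroup H] {V : Type w} [AddCommGroup V] [Module F V]
    [Nontrivial V] (ρ : Representation F H V)
    (hirr : ∀ U : Submodule F V, (∀ h : H, ∀ u ∈ U, ρ h u ∈ U) → U = ⊥ ∨ U = ⊤) :
    ∃ (K : Type (max u v)) (_ : Field K) (_ : Algebra F K) (e : V ≃ₗ[F] K) (χ : H →* K),
      (∀ h x, e (ρ h x) = χ h * e x) ∧ Algebra.adjoin F (Set.range χ) = ⊤ := by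
  have hs : ρ.IsIrreducible := by
    have : Nontrivial (Subrepresentation ρ) := ⟨⊥, ⊤, fun h => by
      have := congrArg Subrepresentation.toSubmodule h
      exact bot_ne_top (α := Submodule F V) this⟩
    refine ⟨fun U => ?_⟩
    rcases hirr U.toSubmodule (fun h u hu => U.apply_mem_toSubmodule h hu) with h | h
    · left; exact Subrepresentation.toSubmodule_injective h
    · right; exact Subrepresentation.toSubmodule_injective h
  obtain ⟨I, hI, ⟨e⟩⟩ := isSimpleModule_iff_quot_maximal.mp
    ((Representation.irreducible_iff_isSimpleModule_asModule ρ).mp hs)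
  letI : Field (MonoidAlgebra F H ⧸ I) := Ideal.Quotient.field I
  refine ⟨MonoidAlgebra F H ⧸ I, inferInstance, inferInstance,
    ρ.asModuleEquiv.symm.trans (e.restrictScalars F),
    (Ideal.Quotient.mk I).toMonoidHom.comp (MonoidAlgebra.of F H), ?_, ?_⟩
  · intro h x
    simp only [LinearEquiv.trans_apply, LinearEquiv.restrictScalars_apply]
    rw [Representation.asModuleEquiv_symm_map_rho, map_smul]
    rfl
  · rw [eq_top_iff]
    rintro x -
    obtain ⟨a, rfl⟩ := Ideal.Quotient.mk_surjective x
    induction a using MonoidAlgebra.induction_on with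
    | of h => exact Algebra.subset_adjoin ⟨h, rfl⟩
    | add a b ha hb => rw [map_add]; exact add_mem ha hb
    | smul c a ha =>
      have : Ideal.Quotient.mk I (c • a) = c • Ideal.Quotient.mk I a := rfl
      rw [this]; exact Subalgebra.smul_mem _ ha c

theorem field_case {F : Type*} [Field F] [Fintype F] {H : Type*} [CommGroup H] [Finite H] {K : Type*} [Field K]
    [Algebra F K] [FiniteDimensional F K] (χ : H →* K) (hχ : Function.Injective χ)
    (hadj : Algebra.adjoin F (Set.range χ) = ⊤) (h2 : 2 ≤ Module.finrank F K) :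
    (∃ B : LinearMap.BilinForm F K, B.Nondegenerate ∧ ∀ h : H, ∀ x y : K, B (χ h * x) (χ h * y) = B x y) ↔
      (Even (Module.finrank F K) ∧ Nat.card H ∣ Fintype.card F ^ (Module.finrank F K / 2) + 1) := by
  haveI : Finite K := Module.finite_of_finite F
  have hfrob : ∀ (i : ℕ) (x : K), (FiniteField.frobeniusAlgHom F K ^ i) x = x ^ (Fintype.card F ^ i) := by
    intro i x
    rw [AlgHom.coe_pow, FiniteField.coe_frobeniusAlgHom, pow_iterate]
  constructor
  · rintro ⟨B, hB, hinv⟩
    have hex : ∀ a : K, ∃ a' : K, ∀ x y, B (a * x) y = B x (a' * y) := by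
      intro a
      have ha : a ∈ Algebra.adjoin F (Set.range χ) := hadj ▸ Algebra.mem_top
      induction ha using Algebra.adjoin_induction with
      | mem x hx =>
        obtain ⟨h, rfl⟩ := hx
        refine ⟨χ h⁻¹, fun x y => ?_⟩
        rw [← hinv h x, ← mul_assoc, ← map_mul, mul_inv_cancel, map_one, one_mul]
      | algebraMap c => exact ⟨algebraMap F K c, fun x y => by simp [← Algebra.smul_def]⟩
      | add a b _ _ ha hb =>
        obtain ⟨a', ha⟩ := ha
        obtain ⟨b', hb⟩ := hb
        exact ⟨a' + b', fun x y => by simp [add_mul, ha, hb]⟩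
      | mul a b _ _ ha hb =>
        obtain ⟨a', ha⟩ := ha
        obtain ⟨b', hb⟩ := hb
        exact ⟨b' * a', fun x y => by rw [mul_assoc, ha, hb, mul_assoc]⟩
    choose s hs using hex
    have huniq : ∀ a a' : K, (∀ x y, B (a * x) y = B x (a' * y)) → s a = a' := by
      intro a a' h
      have : s a - a' = 0 := hB.2 _ fun x => by
        rw [map_sub, ← mul_one (s a), ← hs, h, mul_one, sub_self]
      exact sub_eq_zero.mp this
    let σ : K →ₐ[F] K :=
      { toFun := s
        map_one' := huniq _ _ (by simp)
        map_mul' := fun a b => huniq _ _ fun x y => by rw [mul_assoc, hs, hs, ← mul_assoc, mul_comm (s b)]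
        map_zero' := huniq _ _ (by simp)
        map_add' := fun a b => huniq _ _ fun x y => by simp [add_mul, hs]
        commutes' := fun c => huniq _ _ fun x y => by simp [← Algebra.smul_def] }
    have hσ : ∀ h, σ (χ h) = χ h⁻¹ := fun h => huniq _ _ fun x y => by
      rw [← hinv h x, ← mul_assoc, ← map_mul, mul_inv_cancel, map_one, one_mul]
    have hσ2 : σ ^ 2 = 1 := by
      apply AlgHom.ext_of_adjoin_eq_top hadj
      rintro _ ⟨h, rfl⟩
      simp [pow_two, hσ]
    obtain ⟨⟨i, hi⟩, hiσ⟩ := (FiniteField.bijective_frobeniusAlgHom_pow F K).2 σ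
    simp only at hiσ
    have hi0 : i ≠ 0 := by
      rintro rfl
      rw [pow_zero] at hiσ
      have hbot : Algebra.adjoin F (Set.range χ) ≤ ⊥ := by
        rw [Algebra.adjoin_le_iff]
        rintro _ ⟨h, rfl⟩
        have h1 : χ h = χ h⁻¹ := by rw [← hσ, ← hiσ]; rfl
        have h3 : χ h * χ h = 1 := by nth_rw 2 [h1]; rw [← map_mul, mul_inv_cancel, map_one]
        rcases mul_self_eq_one_iff.mp h3 with h4 | h4
        · rw [h4]; exact one_mem (⊥ : Subalgebra F K)
        · rw [h4]; exact neg_mem (one_mem (⊥ : Subalgebra F K))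
      have : (⊥ : Subalgebra F K) = ⊤ := le_antisymm le_top (hadj ▸ hbot)
      rw [Subalgebra.bot_eq_top_iff_finrank_eq_one] at this
      omega
    have hdvd : Module.finrank F K ∣ i * 2 := by
      rw [← FiniteField.orderOf_frobeniusAlgHom, orderOf_dvd_iff_pow_eq_one, pow_mul, hiσ, hσ2]
    have hn : Module.finrank F K = i * 2 := by
      obtain ⟨c, hc⟩ := hdvd
      have hc1 : c = 1 := by
        rcases c with _ | _ | c
        · omega
        · rfl
        · nlinarith
      rw [hc, hc1, mul_one]
    refine ⟨⟨i, by omega⟩, ?_⟩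
    rw [hn, Nat.mul_div_cancel _ (by norm_num)]
    haveI : IsCyclic H := isCyclic_of_injective_ringHom χ hχ
    rw [← IsCyclic.exponent_eq_card]
    apply Monoid.exponent_dvd_of_forall_pow_eq_one
    intro h
    apply hχ
    rw [map_pow, pow_succ, ← hfrob, hiσ, hσ, ← map_mul, inv_mul_cancel]
  · rintro ⟨⟨m, hm⟩, hdvd⟩
    rw [hm, show (m + m) / 2 = m by omega] at hdvd
    let σ : K →ₐ[F] K := FiniteField.frobeniusAlgHom F K ^ m
    have hσb : Function.Bijective σ := (Finite.injective_iff_bijective).mp σ.toRingHom.injective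
    have ht := traceForm_nondegenerate F K
    refine ⟨(Algebra.traceForm F K).comp LinearMap.id σ.toLinearMap, ⟨fun x hx => ?_, fun y hy => ?_⟩, ?_⟩
    · apply ht.1
      intro y
      obtain ⟨y, rfl⟩ := hσb.2 y
      exact hx y
    · have : σ y = 0 := ht.2 _ fun x => hy x
      exact hσb.1 (by rw [this, map_zero])
    · intro h x y
      have h1 : χ h * σ (χ h) = 1 := by
        rw [hfrob, ← pow_succ', ← map_pow, ← map_one χ]
        congr 1
        exact orderOf_dvd_iff_pow_eq_one.mp ((orderOf_dvd_natCard h).trans hdvd)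
      change Algebra.trace F K (χ h * x * σ (χ h * y)) = Algebra.trace F K (x * σ y)
      rw [map_mul σ]
      congr 1
      linear_combination (x * σ y) * h1


/-- Let F be a finite field with r elements and of characteristic p, H a finite abelian group of order prime to p, and V a faithful irreducible representation of H over F of dimension n (faithful: distinct elements act differently; irreducible: the only H-invariant subspaces are 0 and V). Call V self-dual when it carries a nondegenerate H-invariant bilinear form. If n = 1 and V is self-dual then H has order at most 2. If n ≥ 2 then V is self-dual if and only if n is even and the order of H divides r^(n/2) + 1. -/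
theorem result {F : Type*} [Field F] [Fintype F] (p : ℕ) [Fact p.Prime] [CharP F p] {H : Type*} [CommGroup H] [Finite H] (hcop : ¬ p ∣ Nat.card H) {V : Type*} [AddCommGroup V] [Module F V] [FiniteDimensional F V] (ρ : Representation F H V) (hfaith : Function.Injective ρ) (hirr : ∀ U : Submodule F V, (∀ h : H, ∀ u ∈ U, ρ h u ∈ U) → U = ⊥ ∨ U = ⊤) : (Module.finrank F V = 1 → (∃ B : LinearMap.BilinForm F V, B.Nondegenerate ∧ ∀ h : H, ∀ x y : V, B (ρ h x) (ρ h y) = B x y) → Nat.card H ≤ 2) ∧ (2 ≤ Module.finrank F V → ((∃ B : LinearMap.BilinForm F V, B.Nondegenerate ∧ ∀ h : H, ∀ x y : V, B (ρ h x) (ρ h y) = B x y) ↔ (Even (Module.finrank F V) ∧ Nat.card H ∣ Fintype.card F ^ (Module.finrank F V / 2) + 1))) := by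
  have key : 1 ≤ Module.finrank F V → ∃ (K : Type _) (_ : Field K) (_ : Algebra F K) (e : V ≃ₗ[F] K) (χ : H →* K),
      (∀ h x, e (ρ h x) = χ h * e x) ∧ Algebra.adjoin F (Set.range χ) = ⊤ ∧ Function.Injective χ := by
    intro h1
    haveI : Nontrivial V := Module.nontrivial_of_finrank_pos (R := F) h1
    obtain ⟨K, _, _, e, χ, he, hadj⟩ := exists_field ρ hirr
    refine ⟨K, _, _, e, χ, he, hadj, fun a b hab => hfaith ?_⟩
    ext x
    apply e.injective
    rw [he, he, hab]
  constructor
  · rintro h1 ⟨B, hB, hinv⟩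
    obtain ⟨v, hv0, hv⟩ := finrank_eq_one_iff'.mp h1
    have hBv : B v v ≠ 0 := by
      intro h
      apply hv0
      apply hB.1
      intro y
      obtain ⟨c, rfl⟩ := hv y
      simp [h]
    have hall : ∀ h : H, ρ h = 1 ∨ ρ h = -1 := by
      intro h
      obtain ⟨c, hc⟩ := hv (ρ h v)
      have h2 := hinv h v v
      rw [← hc] at h2
      simp only [map_smul, LinearMap.smul_apply, smul_eq_mul] at h2
      have h3 : c * c = 1 := mul_right_cancel₀ hBv (by linear_combination h2)
      rcases mul_self_eq_one_iff.mp h3 with rfl | rfl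
      · left; ext y; obtain ⟨d, rfl⟩ := hv y; simp [← hc]
      · right; ext y; obtain ⟨d, rfl⟩ := hv y; simp [← hc]
    classical
    have : Nat.card H ≤ Nat.card ({1, -1} : Finset (Module.End F V)) :=
      Nat.card_le_card_of_injective (fun h => ⟨ρ h, by simpa using hall h⟩)
        (fun a b hab => hfaith (congrArg Subtype.val hab))
    refine this.trans ?_
    rw [Nat.card_eq_fintype_card, Fintype.card_coe]
    exact Finset.card_le_two
  · intro h2
    obtain ⟨K, _, _, e, χ, he, hadj, hχ⟩ := key (by omega)
    haveI : FiniteDimensional F K := e.finiteDimensional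
    rw [e.finrank_eq] at h2 ⊢
    rw [← field_case χ hχ hadj h2]
    constructor
    · rintro ⟨B, hB, hinv⟩
      refine ⟨LinearMap.BilinForm.congr e B, hB.congr e, fun h x y => ?_⟩
      obtain ⟨x, rfl⟩ := e.surjective x
      obtain ⟨y, rfl⟩ := e.surjective y
      rw [← he, ← he]
      simp [hinv]
    · rintro ⟨B, hB, hinv⟩
      refine ⟨LinearMap.BilinForm.congr e.symm B, hB.congr e.symm, fun h x y => ?_⟩
      simp [he, hinv]

end Cfsg.Agent.S4967
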