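import Cfsg.Statements.S5015
import Mathlib
import Cfsg.Agent.H19.RankOne

set_option autoImplicit false
open Cfsg

namespace Cfsg.Agent.S5015

open Cfsg.Agent.H19


/-- Let a group Y act doubly transitively on a set Ω with at least three points, and suppose that the stabilizer of a point α contains a nilpotent subgroup A, normalized by that stabilizer, which acts regularly on the points other than α. Then for any y in Y moving α, the subgroups A and y A y⁻¹ are the unipotent subgroups of a rank one group, and the normal closure of A in Y (the subgroup generated by all conjugates of A) is generated by A and y A y⁻¹ alone. -/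
theorem result {Y Ω : Type*} [Group Y] [MulAction Y Ω]
    (h2 : MulAction.IsMultiplyPretransitive Y Ω 2) (hΩ : 3 ≤ ENat.card Ω) (α : Ω) (A : Subgroup Y)
    (hA : A ≤ MulAction.stabilizer Y α) (hAn : ∀ y ∈ MulAction.stabilizer Y α, Cfsg.conjBy A y = A)
    (hnil : Group.IsNilpotent A) (hreg : ∀ β γ : Ω, β ≠ α → γ ≠ α → ∃! a : Y, a ∈ A ∧ a • β = γ)
    (y : Y) (hy : y ∉ MulAction.stabilizer Y α) :
    Cfsg.IsRankOnePair A (Cfsg.conjBy A y) ∧ Subgroup.normalClosure (A : Set Y) = A ⊔ Cfsg.conjBy A y := by
  -- the conjugate `g A g⁻¹` only depends on `g • α`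
  have hcj : ∀ g g' : Y, g • α = g' • α → cj g A = cj g' A := by
    intro g g' e
    rw [cj_eq_cj_iff]
    apply hAn
    rw [MulAction.mem_stabilizer_iff, mul_smul, e, inv_smul_smul]
  have hyα : y • α ≠ α := hy
  have hAfix : ∀ a ∈ A, a • α = α := fun a ha => hA ha
  have hfree : ∀ a ∈ A, ∀ β, β ≠ α → a • β = β → a = 1 := by
    intro a ha β hβ e
    exact (hreg β β hβ hβ).unique ⟨ha, e⟩ ⟨A.one_mem, one_smul _ _⟩
  have hmove : ∀ a ∈ A, ∀ β, β ≠ α → a • β ≠ α := by
    intro a ha β hβ e
    apply hβ
    rw [← hAfix a ha] at e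
    exact smul_left_cancel a e
  -- a third point
  have h3 : ∃ γ, γ ≠ α ∧ γ ≠ y • α := by
    by_contra hc
    push Not at hc
    have : ENat.card Ω ≤ ENat.card (Fin 2) := by
      classical
      refine ENat.card_le_card_of_injective (f := fun γ => if γ = α then 0 else 1) ?_
      intro γ δ e
      by_cases h1 : γ = α <;> by_cases h2 : δ = α
      · rw [h1, h2]
      · simp [h1, h2] at e
      · simp [h1, h2] at e
      · rw [hc γ h1, hc δ h2]
    have := hΩ.trans this
    simp at this
    exact absurd this (by decide)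
  have hyinv : y⁻¹ • α ≠ α := by
    intro e; apply hyα
    conv_lhs => rw [← e]
    simp
  have hne : A ≠ cj y A := by
    intro e
    obtain ⟨γ, h1, h2⟩ := h3
    obtain ⟨a, ⟨ha, e1⟩, -⟩ := hreg (y • α) γ hyα h1
    have ha' := ha
    rw [e, mem_cj] at ha'
    have := hAfix _ ha'
    rw [mul_smul, mul_smul, e1, inv_smul_eq_iff] at this
    exact h2 this
  have hpair : IsRankOnePair A (cj y A) := by
    refine RO.mk' hne hnil (cj_isNilpotent hnil) ?_ ?_
    · intro a ha ha1
      have n1 : y⁻¹ • a • y • α ≠ α := by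
        intro e
        rw [inv_smul_eq_iff] at e
        exact ha1 (hfree a ha _ hyα e)
      obtain ⟨a', ⟨ha', e⟩, -⟩ := hreg (y⁻¹ • α) (y⁻¹ • a • y • α) hyinv n1
      refine ⟨y * a' * y⁻¹, conj_mem_cj y ha', ?_, ?_⟩
      · intro e1
        have : a' = 1 := by simpa using e1
        rw [this, one_smul] at e
        exact hmove a ha _ hyα (smul_left_cancel _ e).symm
      · rw [cj_cj]
        apply hcj
        rw [mul_smul, mul_smul, e, mul_smul]; simp
    · intro b hb hb1
      obtain ⟨a', ha', rfl⟩ := exists_of_mem_cj hb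
      have ha1 : a' ≠ 1 := by rintro rfl; simp at hb1
      have n1 : (y * a' * y⁻¹) • α ≠ α := by
        intro e
        rw [mul_smul, mul_smul, ← eq_inv_smul_iff] at e
        exact ha1 (hfree a' ha' _ hyinv e)
      obtain ⟨a, ⟨ha, e⟩, -⟩ := hreg (y • α) _ hyα n1
      refine ⟨a, ha, ?_, ?_⟩
      · rintro rfl
        rw [one_smul, mul_smul, mul_smul] at e
        exact hmove a' ha' _ hyinv (smul_left_cancel _ e).symm
      · rw [cj_cj]
        apply hcj
        rw [← e, mul_smul]
  refine ⟨hpair, le_antisymm ?_ ?_⟩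
  · rw [Subgroup.normalClosure, Subgroup.closure_le]
    intro x hx
    obtain ⟨a, ha, hc⟩ := Group.mem_conjugatesOfSet_iff.1 hx
    obtain ⟨g, rfl⟩ := isConj_iff.1 hc
    have hm : g * a * g⁻¹ ∈ cj g A := conj_mem_cj g ha
    by_cases hg : g • α = α
    · rw [hcj g 1 (by simpa using hg), cj_one] at hm
      exact Subgroup.mem_sup_left hm
    · obtain ⟨a', ⟨ha', e⟩, -⟩ := hreg (y • α) _ hyα hg
      rw [hcj g (a' * y) (by rw [mul_smul, e]), cj_mul] at hm
      exact cj_le_of_le le_sup_right (Subgroup.mem_sup_left ha') hm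
  · apply sup_le Subgroup.le_normalClosure
    intro x hx
    obtain ⟨a, ha, rfl⟩ := exists_of_mem_cj hx
    exact Subgroup.normalClosure_normal.conj_mem _ (Subgroup.subset_normalClosure ha) y

end Cfsg.Agent.S5015
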