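import Cfsg.Statements.S5017
import Mathlib
import Cfsg.Agent.H19.RankOne

set_option autoImplicit false
open Cfsg

namespace Cfsg.Agent.S5017

open Cfsg.Agent.H19


/-- Let X be a rank one group with unipotent subgroups A and B and N a normal subgroup of X. Then either X = N A or N lies in the centre of X. Consequently a perfect rank one group is quasisimple. -/
theorem result {X : Type*} [Group X] {A B : Subgroup X} (h : Cfsg.IsRankOneGroup X A B) :
    (∀ N : Subgroup X, N.Normal → N ⊔ A = ⊤ ∨ N ≤ Subgroup.center X) ∧
    (Group.IsPerfect X → Cfsg.IsQuasisimple X) := by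
  obtain ⟨hsup, h⟩ := h
  have key : ∀ N : Subgroup X, N.Normal → N ⊔ A = ⊤ ∨ N ≤ Subgroup.center X := by
    intro N hN
    rcases RO.normal_cases h (N := N) (hsup ▸ le_top) (fun x _ => cj_of_normal x N) with e | e
    · left
      rw [eq_top_iff, ← hsup]
      exact sup_le le_sup_right e
    · right
      intro n hn
      rw [Subgroup.mem_center_iff]
      intro g
      exact (e n hn g (hsup ▸ Subgroup.mem_top g)).symm
  refine ⟨key, fun hp => ⟨hp, ?_⟩⟩
  have hZ : Subgroup.center X ≠ ⊤ := by
    intro e
    exact RO.not_comm h fun a _ b _ => (Subgroup.mem_center_iff.1 (e ▸ Subgroup.mem_top b) a)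
  haveI : Nontrivial (X ⧸ Subgroup.center X) := QuotientGroup.nontrivial_iff.2 hZ
  refine ⟨fun N hN => ?_⟩
  rcases key (N.comap (QuotientGroup.mk' _)) inferInstance with e | e
  · right
    set M := N.comap (QuotientGroup.mk' (Subgroup.center X)) with hM
    have hnil : Group.IsNilpotent (X ⧸ M) := by
      haveI := h.nilpotent_left
      refine Group.nilpotent_of_surjective ((QuotientGroup.mk' M).comp A.subtype) ?_
      intro y
      obtain ⟨x, rfl⟩ := QuotientGroup.mk'_surjective M y
      obtain ⟨n, hn, a, ha, rfl⟩ := mem_sup_of_norm (N := M) (A := A)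
        (fun a _ => cj_of_normal a M) (x := x) (e ▸ Subgroup.mem_top x)
      refine ⟨⟨a, ha⟩, ?_⟩
      have : QuotientGroup.mk' M n = 1 := by simpa using hn
      simp only [MonoidHom.comp_apply, Subgroup.coe_subtype, map_mul, this, one_mul]
    have hsub : Subsingleton (X ⧸ M) := by
      by_contra hns
      rw [not_subsingleton_iff_nontrivial] at hns
      exact Group.IsPerfect.not_isNilpotent (X ⧸ M) hnil
    have hMtop : M = ⊤ := by
      rw [eq_top_iff]; intro x _
      rw [← QuotientGroup.eq_one_iff]; exact Subsingleton.elim _ _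
    rw [eq_top_iff]
    intro y _
    obtain ⟨x, rfl⟩ := QuotientGroup.mk'_surjective _ y
    have : x ∈ M := hMtop ▸ Subgroup.mem_top x
    exact this
  · left
    rw [Subgroup.eq_bot_iff_forall]
    intro y hy
    obtain ⟨x, rfl⟩ := QuotientGroup.mk'_surjective _ y
    simpa using e hy

end Cfsg.Agent.S5017
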