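import Cfsg.Statements.S5018
import Mathlib
import Cfsg.Agent.H19.RankOne

set_option autoImplicit false
open Cfsg

namespace Cfsg.Agent.S5018

open Cfsg.Agent.H19


/-- A rank one group is not nilpotent, and its second centre equals its centre. -/
theorem result {X : Type*} [Group X] {A B : Subgroup X} (h : Cfsg.IsRankOneGroup X A B) :
    Subgroup.upperCentralSeries X 2 = Subgroup.center X ∧ ¬ Group.IsNilpotent X := by
  obtain ⟨hsup, h⟩ := h
  constructor
  · apply le_antisymm
    · rcases RO.normal_cases h (N := Subgroup.upperCentralSeries X 2) (hsup ▸ le_top)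
        (fun x _ => cj_of_normal x _) with e | e
      · exfalso
        obtain ⟨w, hw, e1, -⟩ := RO.ex_swap h
        have hw' : w ∈ Subgroup.upperCentralSeries X 2 ⊔ A :=
          (sup_le le_sup_right e : A ⊔ B ≤ _) hw
        obtain ⟨m, hm, a, ha, rfl⟩ := mem_sup_of_norm (fun a _ => cj_of_normal a _) hw'
        rw [cj_mul, cj_of_mem ha] at e1
        obtain ⟨b, hb, hb1⟩ := exists_ne_one_of_ne_bot (RO.ne_bot_right h)
        apply hb1
        apply RO.eq_one (RO.symm h) hb
        have hb' := hb
        rw [← e1] at hb'
        obtain ⟨a', ha', rfl⟩ := exists_of_mem_cj hb'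
        have hz := Subgroup.mem_upperCentralSeries_succ_iff.1 hm a'
        rw [Subgroup.upperCentralSeries_one, Subgroup.mem_center_iff, commutatorElement_def] at hz
        rw [show m * a' * m⁻¹ = (m * a' * m⁻¹ * a'⁻¹) * a' by group, cj_mul, cj_of_mem ha']
        exact cj_eq_self_of_forall_commute fun a _ => (hz a).symm
      · intro n hn
        rw [Subgroup.mem_center_iff]
        intro g
        exact (e n hn g (hsup ▸ Subgroup.mem_top g)).symm
    · rw [← Subgroup.upperCentralSeries_one]
      exact Subgroup.upperCentralSeries_mono X (by norm_num)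
  · intro hn
    exact RO.not_le_nilpotent h (R := ⊤) le_top le_top inferInstance

end Cfsg.Agent.S5018
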