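import Cfsg.Statements.S5020
import Mathlib
import Cfsg.Agent.H19.SpecialP
import Cfsg.Agent.S5017
import Cfsg.Agent.H2.Quasisimple

set_option autoImplicit false
open Cfsg

namespace Cfsg.Agent.S5020

open Cfsg.Agent.H19

theorem small {X : Type*} [Group X] {A B : Subgroup X} (h : Cfsg.IsRankOneGroup X A B)
    (hs : Cfsg.IsSpecialRankOnePair A B) (hab : Cfsg.HasAbelianUnipotents A B)
    {p : ℕ} [hp : Fact p.Prime] (hA : Nat.card A = p) :
    Nonempty (X ≃* Matrix.SpecialLinearGroup (Fin 2) (ZMod p)) ∨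
    Nonempty (X ≃* Matrix.ProjectiveSpecialLinearGroup (Fin 2) (ZMod p)) := by
  obtain ⟨a, ha, ha1⟩ := exists_ne_one_of_ne_bot (RO.ne_bot_left h.2)
  obtain ⟨b, hb, hb1, e⟩ := RO.ex_b h.2 ha ha1
  have hB : Nat.card B = p := by
    obtain ⟨w, -, e1, -⟩ := RO.ex_swap h.2
    rw [← e1, ← hA]
    exact Nat.card_congr (cjEquiv w A).toEquiv.symm
  have key : ∀ {A : Subgroup X}, Nat.card A = p → ∀ a ∈ A, a ≠ 1 → A ≤ Subgroup.zpowers a := by
    intro A hA a ha ha1 x hx
    have := mem_zpowers_of_prime_card (G := A) hA (g := ⟨a, ha⟩) (g' := ⟨x, hx⟩)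
      (fun e => ha1 (congrArg Subtype.val e))
    obtain ⟨n, hn⟩ := this
    exact ⟨n, congrArg Subtype.val hn⟩
  have htop : Subgroup.closure ({a, b} : Set X) = ⊤ := by
    rw [eq_top_iff, ← h.1]
    exact sup_le ((key hA a ha ha1).trans (Subgroup.zpowers_le.2 (Subgroup.subset_closure (by simp))))
      ((key hB b hb hb1).trans (Subgroup.zpowers_le.2 (Subgroup.subset_closure (by simp))))
  have hp' : ∀ a ∈ A, a ^ p = 1 := fun a ha => by
    have := pow_card_eq_one' (G := A) (x := ⟨a, ha⟩)
    rw [hA] at this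
    exact congrArg Subtype.val this
  have := RO.closure_pair_equiv hs (comm_self_iff.2 hab.1) hp' ha ha1 hb hb1 e
  rw [htop] at this
  exact this.imp (fun ⟨e⟩ => ⟨Subgroup.topEquiv.symm.trans e⟩) fun ⟨e⟩ => ⟨Subgroup.topEquiv.symm.trans e⟩

/-- Let X be a special rank one group with abelian unipotent subgroups A and B, and H = N(A) ∩ N(B) its diagonal subgroup. Then either A has at most three elements and X is isomorphic to SL₂(2), SL₂(3) or PSL₂(3); or X = X' A with the commutator subgroup X' quasisimple and the commutator subgroup ⁅A, H⁆ having more than three elements. -/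
theorem result {X : Type*} [Group X] {A B : Subgroup X} (h : Cfsg.IsRankOneGroup X A B)
    (hs : Cfsg.IsSpecialRankOnePair A B) (hab : Cfsg.HasAbelianUnipotents A B) :
    (ENat.card A ≤ 3 ∧ (Nonempty (X ≃* Matrix.SpecialLinearGroup (Fin 2) (ZMod 2)) ∨
        Nonempty (X ≃* Matrix.SpecialLinearGroup (Fin 2) (ZMod 3)) ∨
        Nonempty (X ≃* Matrix.ProjectiveSpecialLinearGroup (Fin 2) (ZMod 3)))) ∨
    (commutator X ⊔ A = ⊤ ∧ Cfsg.IsQuasisimple (commutator X) ∧
      3 < ENat.card ↥(⁅A, Cfsg.rankOneDiagonal A B⁆ : Subgroup X)) := by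
  by_cases h3 : 3 < ENat.card A
  · right
    have hp : commutator X = ⊤ := by
      have := RO.le_commutator_sup hs (comm_self_iff.2 hab.1) h3
      rw [h.1] at this
      exact eq_top_iff.2 this
    refine ⟨by rw [hp, top_sup_eq], ?_, ?_⟩
    · rw [hp]; exact H2.isQuasisimple_of_equiv Subgroup.topEquiv.symm ((S5017.result h).2 ⟨hp⟩)
    · refine h3.trans_le (ENat.card_le_card_of_injective
        (f := Subgroup.inclusion (RO.le_commutator_diag hs (comm_self_iff.2 hab.1) h3))
        (Subgroup.inclusion_injective _))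
  · left
    push Not at h3
    refine ⟨h3, ?_⟩
    have hfin : Finite A := by
      by_contra hc
      rw [not_finite_iff_infinite] at hc
      simp at h3
    rw [ENat.card_eq_coe_natCard] at h3
    have h3' : Nat.card A ≤ 3 := by exact_mod_cast h3
    have h1 : 1 < Nat.card A := by
      rw [Finite.one_lt_card_iff_nontrivial, Subgroup.nontrivial_iff_ne_bot]
      exact RO.ne_bot_left h.2
    have : Fact (Nat.Prime 3) := ⟨by norm_num⟩
    rcases (by omega : Nat.card A = 2 ∨ Nat.card A = 3) with e | e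
    · left
      rcases small h hs hab e with e | ⟨⟨e⟩⟩
      · exact e
      · have hc : Subgroup.center (Matrix.SpecialLinearGroup (Fin 2) (ZMod 2)) = ⊥ := by
          rw [Subgroup.eq_bot_iff_forall]
          intro g hg
          rcases St.mem_center_iff.1 hg with rfl | rfl
          · rfl
          · decide
        exact ⟨e.trans ((QuotientGroup.quotientMulEquivOfEq hc).trans QuotientGroup.quotientBot)⟩
    · exact Or.inr (small h hs hab e)

end Cfsg.Agent.S5020
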