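import Cfsg.Statements.S5023
import Mathlib
import Cfsg.Agent.H19.QuadMod

set_option autoImplicit false
open Cfsg

namespace Cfsg.Agent.S5023

open Cfsg.Agent.H19


/-- Let X be a rank one group with unipotent subgroups A and B that acts faithfully on an abelian group V (written additively) with A acting quadratically: a' • (a • v − v) = a • v − v for all a, a' in A and v in V. Then A is either torsion-free or an elementary abelian p-group for some prime p. -/
theorem result {X : Type*} [Group X] {A B : Subgroup X} (h : Cfsg.IsRankOneGroup X A B)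
    {V : Type*} [AddCommGroup V] [DistribMulAction X V] (hf : ∀ x : X, (∀ v : V, x • v = v) → x = 1)
    (hq : ∀ a ∈ A, ∀ a' ∈ A, ∀ v : V, a' • (a • v - v) = a • v - v) :
    (∀ a ∈ A, a ≠ 1 → ¬ IsOfFinOrder a) ∨ ∃ p : ℕ, p.Prime ∧ Cfsg.IsElementaryAbelian p A := by
  have hA : Comm A A := by
    intro a ha a' ha'
    rw [← mul_inv_eq_one]
    apply hf
    intro v
    have key : ∀ a ∈ A, ∀ a' ∈ A, ∀ v : V, (a * a') • v = a • v + a' • v - v := by
      intro a ha a' ha' v
      have := hq a' ha' a ha v
      rw [smul_sub] at this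
      rw [mul_smul, eq_add_of_sub_eq this]; abel
    rw [mul_smul, key a ha a' ha', add_comm, ← key a' ha' a ha, smul_inv_smul]
  have hX : ∃ x y : X, ∃ n : V, y • (x • n - n) ≠ x • n - n := by
    by_contra hc
    push Not at hc
    apply RO.not_comm h.2
    intro a _ b _
    rw [← mul_inv_eq_one]
    apply hf
    intro v
    have key : ∀ a a' : X, ∀ v : V, (a * a') • v = a • v + a' • v - v := by
      intro a a' v
      have := hc a' a v
      rw [smul_sub] at this
      rw [mul_smul, eq_add_of_sub_eq this]; abel
    rw [mul_smul, key a b, add_comm, ← key b a, smul_inv_smul]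
  have hs := special_of_quadOn h.1 h.2 (quadOn_of hq) hX
  rcases RO.special_exponent hs hA with ⟨p, hp, hA'⟩ | h2
  · exact Or.inr ⟨p, hp, comm_self_iff.1 hA, hA'⟩
  · exact Or.inl h2.1

end Cfsg.Agent.S5023
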