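import Cfsg.Statements.S5024
import Mathlib
import Cfsg.Agent.H19.Root1

set_option autoImplicit false
open Cfsg

namespace Cfsg.Agent.S5024

open Cfsg.Agent.H19


/-- Let S be a set of abstract root subgroups of G, A and C members of S, B a rank one partner of A in S and D a rank one partner of C in S. If the rank one group ⟨A, B⟩ is contained in ⟨C, D⟩ then the two coincide, and C and D are conjugates of A inside ⟨A, B⟩. -/
theorem result {G : Type*} [Group G] {S : Set (Subgroup G)} (hS : Cfsg.IsRootSubgroupSet S)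
    {A B C D : Subgroup G} (hA : A ∈ S) (hC : C ∈ S) (hB : B ∈ Cfsg.rankOnePartners S A) (hD : D ∈ Cfsg.rankOnePartners S C)
    (hle : A ⊔ B ≤ C ⊔ D) : A ⊔ B = C ⊔ D ∧ C ∈ Cfsg.unipotentSubgroups A B ∧ D ∈ Cfsg.unipotentSubgroups A B := by
  have hW := wr_of_root hS
  have hAB : IsRankOnePair A B := hB.2
  have hCD : IsRankOnePair C D := hD.2
  have h1 := hW.le_unip hA hC hD.1 hCD (le_sup_left.trans hle)
  have h2 := hW.le_unip hB.1 hC hD.1 hCD (le_sup_right.trans hle)
  have h1' := h1.resolve_right fun h => RO.not_comm hAB (h.mono le_rfl (le_sup_right.trans hle))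
  have h2' := h2.resolve_right fun h => RO.not_comm hAB (h.mono le_rfl (le_sup_left.trans hle)).symm
  refine ⟨RO.sup_of_unip hCD h1' h2' hAB.ne, ?_, ?_⟩
  · rw [RO.unip_of_unip hCD h1' h2' hAB.ne]; exact RO.left_mem_unip
  · rw [RO.unip_of_unip hCD h1' h2' hAB.ne]; exact RO.right_mem_unip hCD

end Cfsg.Agent.S5024
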