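import Cfsg.Statements.S5026
import Mathlib
import Cfsg.Agent.H19.Root1

set_option autoImplicit false
open Cfsg

namespace Cfsg.Agent.S5026

open Cfsg.Agent.H19

theorem mem_cent_iff {G : Type*} [Group G] {S : Set (Subgroup G)} {C : Subgroup G} {a : G} :
    C ∈ Cfsg.centralizingMembers S (Subgroup.zpowers a) ↔ C ∈ S ∧ ∀ c ∈ C, c * a = a * c := by
  refine and_congr_right fun _ => ⟨fun h c hc => (h hc a (Subgroup.mem_zpowers a)).symm, fun h c hc => ?_⟩
  rintro _ ⟨n, rfl⟩
  exact ((show Commute c a from h c hc).zpow_right n).symm.eq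

theorem key {G : Type*} [Group G] {S : Set (Subgroup G)} (hS : Cfsg.IsRootSubgroupSet S) (hdeg : Cfsg.IsDegenerateRootSet S)
    {a b : G} (ha : a ∈ Cfsg.rootElements S) (hb : b ∈ Cfsg.rootElements S) (hab : a * b = b * a) (hab1 : a * b ≠ 1)
    {C : Subgroup G} (hC : C ∈ S) (h : ∀ c ∈ C, c * (a * b) = (a * b) * c) : ∀ c ∈ C, c * a = a * c := by
  obtain ⟨ha1, A, hA, haA⟩ := ha
  obtain ⟨hb1, B, hB, hbB⟩ := hb
  rcases Root.cases hS hA hC with h1 | h1 | h1
  · exact fun c hc => (h1 a haA c hc).symm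
  · exfalso
    have e : cj b C = cj a⁻¹ C := by
      rw [cj_eq_cj_iff, inv_inv]
      exact cj_eq_self_of_forall_commute fun c hc => (h c hc).symm
    obtain ⟨-, -, h3⟩ := (wr_of_root hS).unip_of_cj h1 hB hC hbB (A.inv_mem haA) (by simpa using ha1) e
    have := RO.unip_eq_of_commute h1 RO.left_mem_unip h3 haA ha1 hbB hb1 hab
    subst this
    exact hab1 (RO.eq_one_of_commute h1 (A.mul_mem haA hbB) fun c hc => (h c hc).symm)
  · exact absurd (cc_iff.2 h1) (hdeg A hA C hC)

/-- Let S be a degenerate set of abstract root subgroups of G (a set of abstract transvection groups) and let a, b be commuting non-identity elements of members of S with a b ≠ 1. Then the members of S centralizing a b are exactly those centralizing both a and b. -/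
theorem result {G : Type*} [Group G] {S : Set (Subgroup G)} (hS : Cfsg.IsRootSubgroupSet S) (hdeg : Cfsg.IsDegenerateRootSet S)
    {a b : G} (ha : a ∈ Cfsg.rootElements S) (hb : b ∈ Cfsg.rootElements S) (hab : a * b = b * a) (hab1 : a * b ≠ 1) :
    Cfsg.centralizingMembers S (Subgroup.zpowers (a * b)) =
      Cfsg.centralizingMembers S (Subgroup.zpowers a) ∩ Cfsg.centralizingMembers S (Subgroup.zpowers b) := by
  ext C
  simp only [Set.mem_inter_iff, mem_cent_iff]
  constructor
  · rintro ⟨hC, h⟩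
    exact ⟨⟨hC, key hS hdeg ha hb hab hab1 hC h⟩, hC,
      key hS hdeg hb ha hab.symm (hab ▸ hab1) hC (hab ▸ h)⟩
  · rintro ⟨⟨hC, h1⟩, -, h2⟩
    refine ⟨hC, fun c hc => ?_⟩
    rw [← mul_assoc, h1 c hc, mul_assoc, h2 c hc, mul_assoc]

end Cfsg.Agent.S5026
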