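import Cfsg.Statements.S5027
import Mathlib
import Cfsg.Agent.H19.Root1

set_option autoImplicit false
open Cfsg

namespace Cfsg.Agent.S5027

open Cfsg.Agent.H19


/-- Let S be a set of abstract root subgroups of G such that every member of S has a rank one partner in S (the graph of rank one pairs on S has no isolated vertex). Then the second centre of G equals its centre. -/
theorem result {G : Type*} [Group G] {S : Set (Subgroup G)} (hS : Cfsg.IsRootSubgroupSet S)
    (hF : ∀ A ∈ S, ¬ Cfsg.IsIsolatedIn (Cfsg.FAdj S) S A) : Subgroup.upperCentralSeries G 2 = Subgroup.center G := by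
  apply le_antisymm
  · intro z hz
    have hz' : ∀ y : G, z * y * z⁻¹ * y⁻¹ ∈ Subgroup.center G := by
      intro y
      have := (Subgroup.mem_upperCentralSeries_succ_iff (n := 1)).1 hz y
      rwa [Subgroup.upperCentralSeries_one] at this
    have h1 : ∀ A ∈ S, A ≤ Subgroup.centralizer {z} := by
      intro A hA a ha
      obtain ⟨B, hB, hAB⟩ := (Root.ni_iff hA).1 (hF A hA)
      rw [Subgroup.mem_centralizer_singleton_iff]
      by_cases ha1 : a = 1
      · simp [ha1]
      have hc := Subgroup.mem_center_iff.1 (hz' a)
      have := Root.central hS hAB hB (fun x _ => (hc x).symm) (fun x _ => (hc x).symm) ha ha1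
        (Root.cj_mem hS hA z) (by simpa using conj_mem_cj z ha)
      calc a * z = (z * a * z⁻¹ * a⁻¹) * (a * z) := by rw [this, one_mul]
        _ = _ := by group
    have h2 : (⊤ : Subgroup G) ≤ Subgroup.centralizer {z} := by
      rw [← hS.generates]; exact iSup₂_le h1
    rw [Subgroup.mem_center_iff]
    intro g
    exact Subgroup.mem_centralizer_singleton_iff.1 (h2 (Subgroup.mem_top g))
  · rw [← Subgroup.upperCentralSeries_one]
    exact Subgroup.upperCentralSeries_mono G (by norm_num)

end Cfsg.Agent.S5027
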