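import Cfsg.Statements.S5029
import Mathlib
import Cfsg.Agent.H19.Root3

set_option autoImplicit false
open Cfsg

namespace Cfsg.Agent.S5029

open Cfsg.Agent.H19

open scoped commutatorElement

/-- Let S be a set of abstract root subgroups of G, A ∈ S having a rank one partner in S, and B ∈ S with C = ⁅A, B⁆ ∈ S. Then the members of S contained in AC are the conjugates of A by elements of B together with C, they partition AC, the members of S inside AC partition AC so that A is a line partner of C, and for every non-identity a ∈ A the map b ↦ a⁻¹ b⁻¹ a b is an isomorphism from B onto C. -/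
theorem result {G : Type*} [Group G] {S : Set (Subgroup G)} (hS : Cfsg.IsRootSubgroupSet S)
    {A B : Subgroup G} (hA : ¬ Cfsg.IsIsolatedIn (Cfsg.FAdj S) S A) (hAS : A ∈ S) (hB : B ∈ S) (hC : ⁅A, B⁆ ∈ S) :
    Cfsg.membersIn S (A ⊔ ⁅A, B⁆) = (fun b : G => Cfsg.conjBy A b) '' (B : Set G) ∪ {⁅A, B⁆} ∧
    Cfsg.IsSubgroupPartition (A ⊔ ⁅A, B⁆) (Cfsg.membersIn S (A ⊔ ⁅A, B⁆)) ∧
    A ∈ Cfsg.linePartners S ⁅A, B⁆ ∧
    ∀ a ∈ A, a ≠ 1 → ∃ φ : ↥B ≃* ↥⁅A, B⁆, ∀ b : ↥B, (φ b : G) = a⁻¹ * (b : G)⁻¹ * a * b := by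
  have h := Root.cc_of_mem hS hAS hB hC
  have hNI := (Root.ni_iff hAS).1 hA
  have hmem : ∀ M, M ∈ Cfsg.membersIn S (A ⊔ ⁅A, B⁆) ↔ (∃ b ∈ B, M = cj b A) ∨ M = ⁅A, B⁆ := by
    intro M
    constructor
    · intro hM; exact (Root.cc_members hS hAS hNI h hM.1 hM.2).symm
    · rintro (⟨b, hb, rfl⟩ | rfl)
      · exact ⟨Root.cj_mem hS hAS b, by rw [← Root.cj_sup_cc h hb]; exact le_sup_left⟩
      · exact ⟨hC, le_sup_right⟩
  have hpart : Cfsg.IsSubgroupPartition (A ⊔ ⁅A, B⁆) (Cfsg.membersIn S (A ⊔ ⁅A, B⁆)) := by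
    refine ⟨fun C hC => hC.2, fun x hx hx1 => ?_, fun C hC D hD hne => ?_⟩
    · obtain ⟨M, hM, hle, hxM⟩ := (Root.line_of_cc hS hAS h).cover x hx hx1
      exact ⟨M, ⟨hM, hle⟩, hxM⟩
    · by_contra hc
      obtain ⟨a, ha, ha1⟩ := exists_ne_one_of_ne_bot hc
      rcases (hmem C).1 hC with ⟨b, -, rfl⟩ | rfl
      · exact hne (Root.ti hS (hNI.cj hS b) hD.1 ha.1 ha1 ha.2)
      rcases (hmem D).1 hD with ⟨b, -, rfl⟩ | rfl
      · exact hne (Root.ti hS (hNI.cj hS b) hC.1 ha.2 ha1 ha.1).symm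
      · exact hne rfl
  refine ⟨?_, hpart, ⟨⟨hAS, (Root.cc_ne hS hAS h).symm, comm_iff.1 h.commA⟩, ?_⟩, ?_⟩
  · ext M
    rw [hmem]
    simp only [Set.mem_union, Set.mem_image, SetLike.mem_coe, Set.mem_singleton_iff, conjBy_eq]
    exact or_congr_left ⟨fun ⟨b, hb, e⟩ => ⟨b, hb, e.symm⟩, fun ⟨b, hb, e⟩ => ⟨b, hb, e.symm⟩⟩
  · rw [sup_comm]; exact hpart
  · intro a ha ha1
    have ha' : a⁻¹ ∈ A := A.inv_mem ha
    have ha1' : a⁻¹ ≠ 1 := by simpa using ha1
    let φ : ↥B →* ↥⁅A, B⁆ := MonoidHom.mk' (fun b => ⟨⁅a⁻¹, (b : G)⁻¹⁆,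
      Subgroup.commutator_mem_commutator ha' (B.inv_mem b.2)⟩) (by
        intro b b'
        apply Subtype.ext
        simp only [Subgroup.coe_mul, mul_inv_rev]
        rw [Root.comm hS hB _ (B.inv_mem b'.2) _ (B.inv_mem b.2)]
        exact comm_mul_right (h.commB _ (Subgroup.commutator_mem_commutator ha' (B.inv_mem b'.2)) _
          (B.inv_mem b.2)))
    have hφ : Function.Bijective φ := by
      constructor
      · rw [injective_iff_map_eq_one]
        intro b hb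
        have h1 : ⁅a⁻¹, (b : G)⁻¹⁆ = 1 := congrArg Subtype.val hb
        have := Root.cc_inj hS hAS hNI h ha' ha1' (B.inv_mem b.2)
          (commutatorElement_eq_one_iff_mul_comm.1 h1)
        exact Subtype.ext (by simpa using this)
      · rintro ⟨c, hc⟩
        obtain ⟨b, hb, rfl⟩ := h.surjB _ ha' ha1' c hc
        exact ⟨⟨b⁻¹, B.inv_mem hb⟩, Subtype.ext (by simp [φ])⟩
    exact ⟨MulEquiv.ofBijective φ hφ, fun b => by simp [φ, commutatorElement_def]⟩

end Cfsg.Agent.S5029
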