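import Cfsg.Statements.S5030
import Mathlib
import Cfsg.Agent.H19.Root2

set_option autoImplicit false
open Cfsg

namespace Cfsg.Agent.S5030

open Cfsg.Agent.H19


/-- Let S be a set of abstract root subgroups of G and A, B, C ∈ S with ⁅A, B⁆ ∈ S and ⁅B, C⁆ ∈ S, where A and C are different and commute. For a non-identity b ∈ B put X = ⟨A, b⁻¹ C b⟩ and Y = ⟨b⁻¹ A b, C⟩ and R = ⟨A, B, C⟩. Then X and Y are either both abelian or both nilpotent of class exactly two; X and Y commute elementwise; XY is normal in R with R = (XY) B; and R is nilpotent. -/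
theorem result {G : Type*} [Group G] {S : Set (Subgroup G)} (hS : Cfsg.IsRootSubgroupSet S)
    {A B C : Subgroup G} (hA : A ∈ S) (hB : B ∈ S) (hC : C ∈ S) (hAB : ⁅A, B⁆ ∈ S) (hBC : ⁅B, C⁆ ∈ S)
    (hAC : C ∈ Cfsg.commutingPartners S A)
    {b : G} (hb : b ∈ B) (hb1 : b ≠ 1) :
    ((IsMulCommutative ↥(A ⊔ Cfsg.conjBy C b⁻¹) ∧ IsMulCommutative ↥(Cfsg.conjBy A b⁻¹ ⊔ C)) ∨
      ((¬ IsMulCommutative ↥(A ⊔ Cfsg.conjBy C b⁻¹) ∧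
          ⁅⁅A ⊔ Cfsg.conjBy C b⁻¹, A ⊔ Cfsg.conjBy C b⁻¹⁆, A ⊔ Cfsg.conjBy C b⁻¹⁆ = ⊥) ∧
        (¬ IsMulCommutative ↥(Cfsg.conjBy A b⁻¹ ⊔ C) ∧
          ⁅⁅Cfsg.conjBy A b⁻¹ ⊔ C, Cfsg.conjBy A b⁻¹ ⊔ C⁆, Cfsg.conjBy A b⁻¹ ⊔ C⁆ = ⊥))) ∧
    ⁅A ⊔ Cfsg.conjBy C b⁻¹, Cfsg.conjBy A b⁻¹ ⊔ C⁆ = ⊥ ∧
    (∀ r ∈ A ⊔ B ⊔ C, Cfsg.conjBy ((A ⊔ Cfsg.conjBy C b⁻¹) ⊔ (Cfsg.conjBy A b⁻¹ ⊔ C)) r =
      (A ⊔ Cfsg.conjBy C b⁻¹) ⊔ (Cfsg.conjBy A b⁻¹ ⊔ C)) ∧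
    ((A ⊔ Cfsg.conjBy C b⁻¹) ⊔ (Cfsg.conjBy A b⁻¹ ⊔ C)) ⊔ B = A ⊔ B ⊔ C ∧
    Group.IsNilpotent ↥(A ⊔ B ⊔ C) := by
  have h1 := Root.cc_of_mem hS hA hB hAB
  have h2 := Root.cc_of_mem hS hB hC hBC
  have h3 : Comm A C := comm_iff.2 hAC.2.2
  have hb' : b⁻¹ ∈ B := B.inv_mem hb
  have hb1' : b⁻¹ ≠ 1 := by simpa using hb1
  simp only [conjBy_eq]
  refine ⟨?_, comm_iff.1 (Root.nilp_comm hS hA hB hC h1 h2 h3 hb'), ?_, ?_,
    Root.nilp_nilpotent hS hA hB hC h1 h2 h3⟩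
  · have e1 : IsMulCommutative ↥(A ⊔ cj b⁻¹ C) ↔ Comm A (cj b⁻¹ C) := by
      rw [← comm_self_iff]
      exact ⟨fun h => h.mono le_sup_left le_sup_right, fun h => ((Root.comm hS hA).sup_right h).sup_left
        (h.symm.sup_right (Root.comm hS (Root.cj_mem hS hC _)))⟩
    have e2 : IsMulCommutative ↥(cj b⁻¹ A ⊔ C) ↔ Comm (cj b⁻¹ A) C := by
      rw [← comm_self_iff]
      exact ⟨fun h => h.mono le_sup_left le_sup_right, fun h =>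
        ((Root.comm hS (Root.cj_mem hS hA _)).sup_right h).sup_left (h.symm.sup_right (Root.comm hS hC))⟩
    have e3 : Comm (cj b⁻¹ A) C ↔ Comm A (cj b⁻¹ C) := by
      rw [Root.nilp_comm_iff h1 h2 h3 hb' hb1', ← Root.nilp_comm_iff h1 h2 h3 hb hb1,
        ← comm_cj_iff (g := b), cj_cj_inv]
    by_cases h : Comm A (cj b⁻¹ C)
    · exact Or.inl ⟨e1.2 h, e2.2 (e3.2 h)⟩
    · refine Or.inr ⟨⟨fun h' => h (e1.1 h'), comm_iff.1 (Root.nilp_class_two hS hA hB hC h1 h2 h3 hb')⟩,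
        fun h' => h (e3.1 (e2.1 h')), ?_⟩
      rw [sup_comm]
      exact comm_iff.1 (Root.nilp_class_two hS hC hB hA h2.symm h1.symm h3.symm hb')
  · intro r hr
    rw [Root.nilp_sup h1 h2 hb' hb1']
    exact Root.nilp_norm h1 h2 hr
  · apply le_antisymm
    · have hA' : A ≤ A ⊔ B ⊔ C := le_sup_of_le_left le_sup_left
      have hB' : B ≤ A ⊔ B ⊔ C := le_sup_of_le_left le_sup_right
      exact sup_le (sup_le (sup_le hA' (cj_le_of_le le_sup_right (hB' hb')))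
        (sup_le (cj_le_of_le hA' (hB' hb')) le_sup_right)) hB'
    · exact sup_le (sup_le (le_sup_of_le_left (le_sup_of_le_left le_sup_left)) le_sup_right)
        (le_sup_of_le_left (le_sup_of_le_right le_sup_right))

end Cfsg.Agent.S5030
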