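import Cfsg.Statements.S5031
import Mathlib
import Cfsg.Agent.H19.Root2

set_option autoImplicit false
open Cfsg

namespace Cfsg.Agent.S5031

open Cfsg.Agent.H19


/-- Let S be a set of abstract root subgroups of G and let A, B ∈ S lie in different connected components of the graph of rank one pairs on S, each component having more than one member. Then B is not a line partner of A. -/
theorem result {G : Type*} [Group G] {S : Set (Subgroup G)} (hS : Cfsg.IsRootSubgroupSet S)
    {A B : Subgroup G} (hA : A ∈ S) (hB : B ∈ S)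
    (hne : Cfsg.componentOf (Cfsg.FAdj S) S A ≠ Cfsg.componentOf (Cfsg.FAdj S) S B)
    (hA2 : ∃ A' ∈ Cfsg.componentOf (Cfsg.FAdj S) S A, A' ≠ A) (hB2 : ∃ B' ∈ Cfsg.componentOf (Cfsg.FAdj S) S B, B' ≠ B) :
    B ∉ Cfsg.linePartners S A := by
  rintro ⟨⟨-, hBA, hc⟩, -, hcov, hdis⟩
  have hc' : Comm A B := comm_iff.2 hc
  obtain ⟨A', hA', hA'1⟩ := hA2
  obtain ⟨B', hB', hB'1⟩ := hB2
  obtain ⟨C, hC, hAC⟩ := Root.Conn.ni hA'.2 hA'1.symm
  obtain ⟨D, hD, hBD⟩ := Root.Conn.ni hB'.2 hB'1.symm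
  have hnc : ¬ Root.Conn S A B := by
    intro h
    apply hne
    ext E
    exact and_congr_right fun _ => ⟨fun h' => h.symm.trans h', fun h' => h.trans h'⟩
  obtain ⟨a, ha, ha1⟩ := exists_ne_one_of_ne_bot (hS.ne_bot A hA)
  obtain ⟨b, hb, hb1⟩ := exists_ne_one_of_ne_bot (hS.ne_bot B hB)
  have hab : a * b ≠ 1 := by
    intro e
    have : a ∈ B := by rw [eq_inv_of_mul_eq_one_left e]; exact B.inv_mem hb
    exact hBA (Root.ti hS ⟨C, hC, hAC⟩ hB ha ha1 this).symm
  obtain ⟨E, ⟨hE, hEle⟩, habE⟩ := hcov (a * b)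
    (Subgroup.mul_mem _ (Subgroup.mem_sup_left ha) (Subgroup.mem_sup_right hb)) hab
  have hEA : Comm E A := ((Root.comm hS hA).sup_left hc'.symm).mono hEle le_rfl
  have hEB : Comm E B := (hc'.sup_left (Root.comm hS hB)).mono hEle le_rfl
  have h1 := Root.ro_or_ro hS hE hC hB hAC hEB ha ha1 (by
    have := Subgroup.mul_mem _ (Subgroup.mem_sup_left habE : a * b ∈ E ⊔ B)
      (Subgroup.mem_sup_right (B.inv_mem hb))
    simpa using this)
  have h2 := Root.ro_or_ro hS hE hD hA hBD hEA hb hb1 (by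
    have := Subgroup.mul_mem _ (Subgroup.mem_sup_right (A.inv_mem ha))
      (Subgroup.mem_sup_left habE : a * b ∈ E ⊔ A)
    simpa using this)
  apply hnc
  rcases h1 with h1 | h1
  · rcases h2 with h2 | h2
    · exact (((Root.Conn.of_ro hA hC hAC).trans (Root.Conn.of_ro hC hE (RO.symm h1))).trans
        (Root.Conn.of_ro hE hD h2)).trans (Root.Conn.of_ro hD hB (RO.symm hBD))
    · exact (Root.Conn.of_ro hA hD h2).trans (Root.Conn.of_ro hD hB (RO.symm hBD))
  · exact (Root.Conn.of_ro hA hC hAC).trans (Root.Conn.of_ro hC hB (RO.symm h1))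

end Cfsg.Agent.S5031
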