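import Cfsg.Statements.S5033
import Mathlib
import Cfsg.Agent.H19.Root4
import Cfsg.Agent.H2.Quasisimple

set_option autoImplicit false
open Cfsg

namespace Cfsg.Agent.S5033

open Cfsg.Agent.H19


/-- Quasisimplicity criterion for groups generated by abstract root subgroups. Let S be a set of abstract root subgroups of G with more than one member such that: the graph of rank one pairs on S is connected; no two different members of S have the same set of commuting members of S; if S is degenerate then every member of S has more than three elements; and every rank one pair in S is special. Then for every A ∈ S one has G = G' A with A ∩ G' ≠ 1, and the commutator subgroup G' is quasisimple. Moreover G is perfect if S is non-degenerate, or if some rank one pair A, B in S generates a perfect group. -/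
theorem result {G : Type*} [Group G] {S : Set (Subgroup G)} (hS : Cfsg.IsRootSubgroupSet S) (h2 : ∃ A ∈ S, ∃ B ∈ S, A ≠ B)
    (h1 : Cfsg.IsConnectedFamily (Cfsg.FAdj S) S)
    (h2' : ∀ A ∈ S, ∀ C ∈ S, A ≠ C → Cfsg.centralizingMembers S A ≠ Cfsg.centralizingMembers S C)
    (h3 : Cfsg.IsDegenerateRootSet S → ∀ A ∈ S, 3 < ENat.card A)
    (h4 : ∀ A ∈ S, ∀ B ∈ Cfsg.rankOnePartners S A, Cfsg.IsSpecialRankOnePair A B) :
    (∀ A ∈ S, commutator G ⊔ A = ⊤ ∧ A ⊓ commutator G ≠ ⊥) ∧ Cfsg.IsQuasisimple ↥(commutator G) ∧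
    (Cfsg.IsNondegenerateRootSet S → commutator G = ⊤) ∧
    ((∃ A ∈ S, ∃ B ∈ Cfsg.rankOnePartners S A, Group.IsPerfect ↥(A ⊔ B)) → commutator G = ⊤) := by
  have hN := Root.allNI_of_conn h1 h2
  obtain ⟨A₀, hA₀, -⟩ := id h2
  have hcl := Root.class_of_conn hS h1 hA₀
  have hcm : ∀ {A M : Subgroup G}, M ∈ Cfsg.centralizingMembers S A ↔ M ∈ S ∧ Comm M A :=
    and_congr_right fun _ => comm_iff_le.symm
  have hnd : ¬ Cfsg.IsDegenerateRootSet S → Cfsg.IsNondegenerateRootSet S := by
    intro h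
    simp only [Cfsg.IsDegenerateRootSet, not_forall, not_not] at h
    obtain ⟨P, hP, Q, hQ, h⟩ := h
    obtain ⟨B, hB, hAB⟩ := hN A₀ hA₀
    have h' := cc_iff.1 h
    exact ⟨⟨P, hP, _, h'.mem, (Root.cc_ne hS hP h').symm, comm_iff.1 h'.commA.symm⟩,
      ⟨A₀, hA₀, B, hB, hAB⟩, P, hP, Q, hQ, h⟩
  -- a normal subgroup containing the commutator of two non-commuting members is everything
  have key : ∀ (N : Subgroup G) [N.Normal], ∀ C ∈ S, ∀ D ∈ S, ¬ Comm C D → ⁅C, D⁆ ≤ N → N = ⊤ := by
    intro N _ C hC D hD hnc hle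
    rcases Root.cases hS hC hD with h | h | h
    · exact absurd h hnc
    · by_cases hdeg : Cfsg.IsDegenerateRootSet S
      · refine Root.eq_top_of_le hcl hC ((le_sup_left : C ≤ C ⊔ D).trans ?_)
        exact ((RO.le_commutator_sup (h4 C hC D ⟨hD, h⟩) (Root.comm hS hC) (h3 hdeg C hC)).trans
          (commutator_sup_sup_le (Root.comm hS hC) (Root.comm hS hD))).trans hle
      · obtain ⟨E, hL⟩ := Root.ex_line hcl (hnd hdeg) hC
        obtain ⟨E₀, -, h0, -, -, -, h5⟩ := Root.line_struct hS hN hL hD h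
        refine Root.eq_top_of_le hcl h0.mem ?_
        have hmap : ∀ {A B : Subgroup G}, ⁅A, B⁆ ≤ N ↔
            Comm (A.map (QuotientGroup.mk' N)) (B.map (QuotientGroup.mk' N)) := by
          intro A B
          rw [comm_iff, ← Subgroup.map_commutator, Subgroup.map_eq_bot_iff, QuotientGroup.ker_mk']
        obtain ⟨c, hc, hc1⟩ := exists_ne_one_of_ne_bot (hS.ne_bot C hC)
        obtain ⟨d, hd, -, e⟩ := RO.ex_b h hc hc1
        have e' := congrArg (Subgroup.map (QuotientGroup.mk' N)) e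
        rw [map_cj, map_cj, (hmap.1 hle).cj_eq (Subgroup.mem_map_of_mem _ hc),
          (hmap.1 hle).symm.cj_eq (Subgroup.mem_map_of_mem _ hd)] at e'
        rw [hmap, ← e', ← hmap]
        exact h5.comm.symm.commutator_le
    · exact Root.eq_top_of_le hcl h.mem hle
  have hperf : commutator G = ⊤ := by
    obtain ⟨B, hB, hAB⟩ := hN A₀ hA₀
    exact key _ A₀ hA₀ B hB (RO.not_comm hAB) (Subgroup.commutator_mono le_top le_top)
  have hq : Cfsg.IsQuasisimple G := by
    refine H2.isQuasisimple_iff.2 ⟨hperf, ?_, fun N hNn => ?_⟩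
    · obtain ⟨a, -, ha1⟩ := exists_ne_one_of_ne_bot (hS.ne_bot A₀ hA₀)
      exact ⟨a, 1, ha1⟩
    by_cases hn : ∀ n ∈ N, ∀ A ∈ S, cj n A = A
    · right
      have : Comm N ⊤ := by
        rw [← hS.generates]
        refine Comm.symm (comm_iff_le.2 (iSup₂_le fun A hA => comm_iff_le.1 ?_))
        obtain ⟨B, hB, hAB⟩ := hN A hA
        exact ((RO.comm_of_norm hAB (fun a _ => cj_of_normal a N) (fun a _ => cj_of_normal a N)
          (fun n hn' => hn n hn' A hA) (fun n hn' => hn n hn' B hB)).mono le_rfl le_sup_left).symm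
      intro n hn'
      exact Subgroup.mem_center_iff.2 fun g => (this n hn' g trivial).symm
    · left
      push Not at hn
      obtain ⟨n, hn, A, hA, hne⟩ := hn
      have key2 : ∀ n ∈ N, ∀ A ∈ S, ∀ D ∈ S, Comm D A → ¬ Comm D (cj n A) → N = ⊤ := by
        intro n hn A hA D hD hc hnc
        refine key N D hD _ (Root.cj_mem hS hA n) hnc (Subgroup.commutator_le.2 fun d hd x hx => ?_)
        obtain ⟨a, ha, rfl⟩ := exists_of_mem_cj hx
        have e : d * (n * a * n⁻¹) * d⁻¹ * (n * a * n⁻¹)⁻¹ =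
            (d * n * d⁻¹) * (a * (d * n⁻¹ * d⁻¹) * a⁻¹) * (a * n * a⁻¹) * n⁻¹ := by
          calc _ = (d * n * d⁻¹) * ((d * a) * n⁻¹ * d⁻¹ * a⁻¹) * (a * n * a⁻¹) * n⁻¹ := by group
            _ = _ := by rw [hc d hd a ha]; group
        show d * (n * a * n⁻¹) * d⁻¹ * (n * a * n⁻¹)⁻¹ ∈ N
        rw [e]
        exact N.mul_mem (N.mul_mem (N.mul_mem (hNn.conj_mem _ hn _) (hNn.conj_mem _
          (hNn.conj_mem _ (N.inv_mem hn) _) _)) (hNn.conj_mem _ hn _)) (N.inv_mem hn)
      by_contra hNt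
      refine h2' A hA _ (Root.cj_mem hS hA n) hne.symm (Set.ext fun D => ?_)
      rw [hcm, hcm]
      refine and_congr_right fun hD => ⟨fun h => ?_, fun h => ?_⟩
      · by_contra h'; exact hNt (key2 n hn A hA D hD h h')
      · by_contra h'
        exact hNt (key2 n⁻¹ (N.inv_mem hn) _ (Root.cj_mem hS hA n) D hD h (by rwa [cj_inv_cj]))
  refine ⟨fun A hA => ?_, ?_, fun _ => hperf, fun _ => hperf⟩
  · rw [hperf]; exact ⟨top_sup_eq _, by simpa using hS.ne_bot A hA⟩
  · rw [hperf]; exact H2.isQuasisimple_of_equiv Subgroup.topEquiv.symm hq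

end Cfsg.Agent.S5033
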