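import Cfsg.Statements.S5034
import Mathlib
import Cfsg.Agent.H19.Root4

set_option autoImplicit false
open Cfsg

namespace Cfsg.Agent.S5034

open Cfsg.Agent.H19


/-- Let S be a non-degenerate class of abstract root subgroups of G, A ∈ S and B a rank one partner of A. Then some line partner C of A has ⁅B, C⁆ ∈ S, and the rank one pair A, B is special. -/
theorem result {G : Type*} [Group G] {S : Set (Subgroup G)} (hS : Cfsg.IsRootSubgroupClass S) (hnd : Cfsg.IsNondegenerateRootSet S)
    {A B : Subgroup G} (hA : A ∈ S) (hB : B ∈ Cfsg.rankOnePartners S A) :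
    (∃ C ∈ Cfsg.linePartners S A, C ∈ Cfsg.commutatorPartners S B) ∧ Cfsg.IsSpecialRankOnePair A B := by
  have hN := Root.allNI_of_nondeg hS hnd
  obtain ⟨E, hL⟩ := Root.ex_line hS hnd hA
  refine ⟨?_, Root.special_of_line hS.1 hN hL hB.1 hB.2⟩
  obtain ⟨E₀, hE₀, h0, -, -, -, h4⟩ := Root.line_struct hS.1 hN hL hB.1 hB.2
  exact ⟨E₀, Root.mem_of_line hS.1 hN h4, hE₀, h0.symm.mem⟩

end Cfsg.Agent.S5034
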