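import Cfsg.Statements.S5035
import Mathlib
import Cfsg.Agent.H19.Root2

set_option autoImplicit false
open Cfsg

namespace Cfsg.Agent.S5035

open Cfsg.Agent.H19


/-- Let S be a set of abstract root subgroups of G whose graph of rank one pairs is connected, and f a homomorphism from G onto a group H. Then either the images of the members of S form a set of abstract root subgroups of H whose graph of rank one pairs is again connected, or H equals the image of a member of S. -/
theorem result {G H : Type*} [Group G] [Group H] {S : Set (Subgroup G)} (hS : Cfsg.IsRootSubgroupSet S)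
    (hc : Cfsg.IsConnectedFamily (Cfsg.FAdj S) S) (f : G →* H) (hf : Function.Surjective f) :
    (Cfsg.IsRootSubgroupSet ((fun A : Subgroup G => A.map f) '' S) ∧
      Cfsg.IsConnectedFamily (Cfsg.FAdj ((fun A : Subgroup G => A.map f) '' S)) ((fun A : Subgroup G => A.map f) '' S)) ∨
    ∃ A ∈ S, A.map f = ⊤ := by
  by_cases htop : ∃ A ∈ S, A.map f = ⊤
  · exact Or.inr htop
  left
  push Not at htop
  have hgen : (⨆ A ∈ (fun A : Subgroup G => A.map f) '' S, A) = ⊤ := by
    rw [iSup_image, eq_top_iff, ← Subgroup.map_top_of_surjective f hf, ← hS.generates,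
      Subgroup.map_iSup]
    refine iSup_mono fun A => ?_
    rw [Subgroup.map_iSup]
  have hinj : ∀ A ∈ S, ∀ a ∈ A, f a = 1 → a = 1 := by
    intro A hA a ha hfa
    by_contra ha1
    apply htop A hA
    have key : ∀ B, Root.Conn S A B → B.map f = A.map f ∧ ∃ b ∈ B, b ≠ 1 ∧ f b = 1 := by
      intro B h
      induction h with
      | refl => exact ⟨rfl, a, ha, ha1, hfa⟩
      | @tail B C _ h ih =>
        obtain ⟨e, b, hb, hb1, hfb⟩ := ih
        obtain ⟨w, -, e1, -⟩ := RO.ex_swap h.2.2
        refine ⟨?_, w * b * w⁻¹, e1 ▸ conj_mem_cj w hb, by simpa [mul_eq_one_iff_eq_inv] using hb1,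
          by simp [hfb]⟩
        obtain ⟨c, hc, -, e2⟩ := RO.ex_b h.2.2 hb hb1
        have e3 := congrArg (Subgroup.map f) e2
        rw [map_cj, map_cj, hfb, cj_one, cj_eq_iff, cj_of_mem
          (Subgroup.inv_mem _ (Subgroup.mem_map_of_mem f hc))] at e3
        rw [← e3, e]
    rw [eq_top_iff, ← hgen]
    refine iSup₂_le ?_
    rintro _ ⟨B, hB, rfl⟩
    exact (key B (hc A hA B hB)).1.le
  have hro : ∀ A ∈ S, ∀ B ∈ S, IsRankOnePair A B →
      A.map f = B.map f ∨ IsRankOnePair (A.map f) (B.map f) := by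
    intro A hA B hB h
    by_cases e : A.map f = B.map f
    · exact Or.inl e
    · exact Or.inr (RO.map h f e (hinj A hA) (hinj B hB))
  have hcomm : ∀ {A B : Subgroup G}, Comm A B → Comm (A.map f) (B.map f) := by
    intro A B h
    rw [comm_iff] at h ⊢
    rw [← Subgroup.map_commutator, h, Subgroup.map_bot]
  refine ⟨⟨?_, ?_, hgen, ?_, ?_⟩, ?_⟩
  · rintro _ ⟨A, hA, rfl⟩
    exact comm_self_iff.1 (hcomm (Root.comm hS hA))
  · rintro _ ⟨A, hA, rfl⟩ e
    obtain ⟨a, ha, ha1⟩ := exists_ne_one_of_ne_bot (hS.ne_bot A hA)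
    have : f a ∈ A.map f := Subgroup.mem_map_of_mem f ha
    simp only [e] at this
    exact ha1 (hinj A hA a ha (Subgroup.mem_bot.1 this))
  · rintro _ ⟨A, hA, rfl⟩ g
    obtain ⟨g, rfl⟩ := hf g
    exact ⟨cj g A, Root.cj_mem hS hA g, map_cj f g A⟩
  · rintro _ ⟨A, hA, rfl⟩ _ ⟨B, hB, rfl⟩
    rcases Root.cases hS hA hB with h | h | h
    · exact Or.inl (comm_iff.1 (hcomm h))
    · rcases hro A hA B hB h with e | e
      · left
        simp only [e]
        exact comm_iff.1 (hcomm (Root.comm hS hB))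
      · exact Or.inr (Or.inl e)
    · refine Or.inr (Or.inr (cc_iff.2 ⟨⟨_, h.mem, Subgroup.map_commutator _ _ _⟩, ?_, ?_, ?_, ?_⟩))
      · rw [← Subgroup.map_commutator]; exact hcomm h.commA
      · rw [← Subgroup.map_commutator]; exact hcomm h.commB
      · rw [← Subgroup.map_commutator]
        rintro _ ⟨a, ha, rfl⟩ ha1 _ ⟨c, hc, rfl⟩
        obtain ⟨b, hb, rfl⟩ := h.surjB a ha (by rintro rfl; simp at ha1) c hc
        exact ⟨f b, Subgroup.mem_map_of_mem f hb, map_commutatorElement f a b⟩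
      · rw [← Subgroup.map_commutator]
        rintro _ ⟨b, hb, rfl⟩ hb1 _ ⟨c, hc, rfl⟩
        obtain ⟨a, ha, rfl⟩ := h.surjA b hb (by rintro rfl; simp at hb1) c hc
        exact ⟨f a, Subgroup.mem_map_of_mem f ha, map_commutatorElement f a b⟩
  · rintro _ ⟨A, hA, rfl⟩ _ ⟨B, hB, rfl⟩
    have h := hc A hA B hB
    clear hB
    induction h with
    | refl => exact .refl
    | tail _ h ih =>
      rcases hro _ h.1 _ h.2.1 h.2.2 with e | e
      · simp only [← e]; exact ih
      · exact .tail ih ⟨⟨_, h.1, rfl⟩, ⟨_, h.2.1, rfl⟩, e⟩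

end Cfsg.Agent.S5035
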