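import Cfsg.Statements.S5036
import Mathlib
import Cfsg.Agent.H19.Root3

set_option autoImplicit false
open Cfsg

namespace Cfsg.Agent.S5036

open Cfsg.Agent.H19

open scoped commutatorElement

theorem cent_iff {G : Type*} [Group G] {S : Set (Subgroup G)} (hS : Cfsg.IsRootSubgroupSet S)
    {A C D : Subgroup G} (hAC : Comm A C) (hDC : CC S D C) (hDA : Comm A D) {x : G} :
    x ∈ A ↔ x ∈ A ⊔ C ∧ ∀ d ∈ D, d * x = x * d := by
  constructor
  · intro hx; exact ⟨Subgroup.mem_sup_left hx, fun d hd => (hDA x hx d hd).symm⟩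
  · rintro ⟨hx, h⟩
    obtain ⟨a, ha, c, hc, rfl⟩ := hAC.mem_sup hx
    have : c = 1 := Root.cc_eq_one_right hS hDC hc fun d hd => by
      have h1 := h d hd
      rw [← mul_assoc, ← hDA a ha d hd, mul_assoc, mul_assoc, mul_right_inj] at h1
      exact h1
    simpa [this] using ha

theorem cent_iff' {G : Type*} [Group G] {S : Set (Subgroup G)} (hS : Cfsg.IsRootSubgroupSet S)
    {A C D : Subgroup G} (hAC : Comm A C) (hDC : CC S D C) (hDA : Comm A D) {g x : G}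
    (hg : cj g (A ⊔ C) = A ⊔ C) :
    x ∈ cj g A ↔ x ∈ A ⊔ C ∧ ∀ d ∈ cj g D, d * x = x * d := by
  rw [mem_cj, cent_iff hS hAC hDC hDA, ← mem_cj, hg]
  refine and_congr_right fun _ => ⟨fun h d hd => ?_, fun h d hd => ?_⟩
  · have := h _ (mem_cj.1 hd)
    calc d * x = g * (g⁻¹ * d * g * (g⁻¹ * x * g)) * g⁻¹ := by group
      _ = _ := by rw [this]; group
  · have := h _ (conj_mem_cj g hd)
    calc d * (g⁻¹ * x * g) = g⁻¹ * (g * d * g⁻¹ * x) * g := by group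
      _ = _ := by rw [this]; group

/-- Let S be a set of abstract root subgroups of G, A, B ∈ S with C = ⁅A, B⁆ ∈ S, and D ∈ S with ⁅D, C⁆ = A. Put X = ⟨B, D⟩ and N = AC. Then B, D form a rank one pair; the conjugates of A under X are the conjugates of C under X, namely the conjugates of A by elements of B together with C, equally the conjugates of C by elements of D together with A, and they partition N; and the centralizer of N in X is central in X. -/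
theorem result {G : Type*} [Group G] {S : Set (Subgroup G)} (hS : Cfsg.IsRootSubgroupSet S)
    {A B D : Subgroup G} (hA : A ∈ S) (hB : B ∈ S) (hC : ⁅A, B⁆ ∈ S) (hD : D ∈ S) (hDC : ⁅D, ⁅A, B⁆⁆ = A) :
    Cfsg.IsRankOnePair B D ∧
    {E | ∃ x ∈ B ⊔ D, E = Cfsg.conjBy A x} = {E | ∃ x ∈ B ⊔ D, E = Cfsg.conjBy ⁅A, B⁆ x} ∧
    {E | ∃ x ∈ B ⊔ D, E = Cfsg.conjBy A x} = (fun b : G => Cfsg.conjBy A b) '' (B : Set G) ∪ {⁅A, B⁆} ∧
    {E | ∃ x ∈ B ⊔ D, E = Cfsg.conjBy A x} = (fun d : G => Cfsg.conjBy ⁅A, B⁆ d) '' (D : Set G) ∪ {A} ∧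
    Cfsg.IsSubgroupPartition (A ⊔ ⁅A, B⁆) {E | ∃ x ∈ B ⊔ D, E = Cfsg.conjBy A x} ∧
    ∀ x ∈ (B ⊔ D) ⊓ Subgroup.centralizer ((A ⊔ ⁅A, B⁆ : Subgroup G) : Set G), ∀ y ∈ B ⊔ D, x * y = y * x := by
  have hAB := Root.cc_of_mem hS hA hB hC
  set C := ⁅A, B⁆ with hCdef
  have hD' := Root.cc_of_mem hS hD hC (hDC.symm ▸ hA)
  have hro := Root.ro_of_cc_cc hS hA hB hD hAB hD' hDC
  have hAC : Comm A C := hAB.commA.symm
  have hAD : Comm A D := by have := hD'.commA; rwa [hDC] at this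
  have hCD : ⁅C, D⁆ = A := by rw [Subgroup.commutator_comm, hDC]
  have hNb : ∀ b ∈ B, cj b (A ⊔ C) = A ⊔ C := fun b hb => Root.cj_line_cc hAB hb
  have hNd : ∀ d ∈ D, cj d (C ⊔ A) = C ⊔ A := fun d hd => by
    have := Root.cj_line_cc hD'.symm hd
    rwa [hCD] at this
  have key : ∀ b ∈ B, ∀ d ∈ D, cj d B = cj b D → cj b A = cj d C := by
    intro b hb d hd e
    ext x
    rw [cent_iff' hS hAC hD' hAD (hNb b hb), cent_iff' hS hAC.symm hAB.symm hAB.commB (hNd d hd), e,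
      sup_comm]
  have hT : ∀ M : Subgroup G, ((∃ b ∈ B, M = cj b A) ∨ M = C) ↔ ((∃ d ∈ D, M = cj d C) ∨ M = A) := by
    intro M
    constructor
    · rintro (⟨b, hb, rfl⟩ | rfl)
      · by_cases hb1 : b = 1
        · right; rw [hb1, cj_one]
        · obtain ⟨d, hd, -, e⟩ := RO.ex_b hro hb hb1
          exact Or.inl ⟨d, hd, key b hb d hd e⟩
      · exact Or.inl ⟨1, D.one_mem, (cj_one _).symm⟩
    · rintro (⟨d, hd, rfl⟩ | rfl)
      · by_cases hd1 : d = 1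
        · right; rw [hd1, cj_one]
        · obtain ⟨b, hb, -, e⟩ := RO.ex_a hro hd hd1
          exact Or.inl ⟨b, hb, (key b hb d hd e).symm⟩
      · exact Or.inl ⟨1, B.one_mem, (cj_one _).symm⟩
  have hinv : ∀ x ∈ B ⊔ D, ∀ M : Subgroup G, ((∃ b ∈ B, M = cj b A) ∨ M = C) →
      ((∃ b ∈ B, cj x M = cj b A) ∨ cj x M = C) := by
    intro x hx
    refine sup_induction (p := fun x => ∀ M : Subgroup G, ((∃ b ∈ B, M = cj b A) ∨ M = C) →
      ((∃ b ∈ B, cj x M = cj b A) ∨ cj x M = C)) ?_ ?_ ?_ hx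
    · rintro b hb M (⟨b', hb', rfl⟩ | rfl)
      · exact Or.inl ⟨b * b', B.mul_mem hb hb', cj_cj _ _ _⟩
      · exact Or.inr (hAB.commB.symm.cj_eq hb)
    · intro d hd M hM
      rw [hT] at hM ⊢
      rcases hM with ⟨d', hd', rfl⟩ | rfl
      · exact Or.inl ⟨d * d', D.mul_mem hd hd', cj_cj _ _ _⟩
      · exact Or.inr (hAD.symm.cj_eq hd)
    · intro x y hx hy M hM
      rw [cj_mul]; exact hx _ (hy M hM)
  obtain ⟨w, hw, hwA⟩ : ∃ w ∈ B ⊔ D, cj w A = C := by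
    obtain ⟨b, hb, hb1⟩ := exists_ne_one_of_ne_bot (hS.ne_bot B hB)
    obtain ⟨d, hd, -, e⟩ := RO.ex_b hro hb hb1
    refine ⟨d⁻¹ * b, Subgroup.mul_mem _ (Subgroup.mem_sup_right (D.inv_mem hd))
      (Subgroup.mem_sup_left hb), ?_⟩
    rw [cj_mul, key b hb d hd e, cj_inv_cj]
  have hX : ∀ M : Subgroup G, (∃ x ∈ B ⊔ D, M = cj x A) ↔ ((∃ b ∈ B, M = cj b A) ∨ M = C) := by
    intro M
    constructor
    · rintro ⟨x, hx, rfl⟩
      exact hinv x hx A (Or.inl ⟨1, B.one_mem, (cj_one _).symm⟩)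
    · rintro (⟨b, hb, rfl⟩ | rfl)
      · exact ⟨b, Subgroup.mem_sup_left hb, rfl⟩
      · exact ⟨w, hw, hwA.symm⟩
  refine ⟨hro, ?_, ?_, ?_, ⟨?_, ?_, ?_⟩, ?_⟩
  · ext M
    simp only [Set.mem_setOf_eq, conjBy_eq]
    constructor
    · rintro ⟨x, hx, rfl⟩
      exact ⟨x * w⁻¹, Subgroup.mul_mem _ hx (Subgroup.inv_mem _ hw), by rw [cj_mul, ← hwA, cj_inv_cj]⟩
    · rintro ⟨x, hx, rfl⟩
      exact ⟨x * w, Subgroup.mul_mem _ hx hw, by rw [cj_mul, hwA]⟩
  · ext M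
    simp only [Set.mem_setOf_eq, conjBy_eq, Set.mem_union, Set.mem_image, SetLike.mem_coe,
      Set.mem_singleton_iff, hX]
    exact or_congr_left ⟨fun ⟨b, hb, e⟩ => ⟨b, hb, e.symm⟩, fun ⟨b, hb, e⟩ => ⟨b, hb, e.symm⟩⟩
  · ext M
    simp only [Set.mem_setOf_eq, conjBy_eq, Set.mem_union, Set.mem_image, SetLike.mem_coe,
      Set.mem_singleton_iff, hX, hT]
    exact or_congr_left ⟨fun ⟨b, hb, e⟩ => ⟨b, hb, e.symm⟩, fun ⟨b, hb, e⟩ => ⟨b, hb, e.symm⟩⟩
  · intro M hM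
    rcases (hX M).1 hM with ⟨b, hb, rfl⟩ | rfl
    · rw [← hNb b hb]; exact cj_mono b le_sup_left
    · exact le_sup_right
  · intro x hx _
    rcases Root.cc_cover hAB hx with h | ⟨b, hb, h⟩
    · exact ⟨C, (hX C).2 (Or.inr rfl), h⟩
    · exact ⟨_, (hX _).2 (Or.inl ⟨b, hb, rfl⟩), h⟩
  · intro M hM M' hM' hne
    by_contra hc
    obtain ⟨x, hx, hx1⟩ := exists_ne_one_of_ne_bot hc
    have h1 : ∀ b ∈ B, x ∈ cj b A → x ∈ C → False := by
      intro b hb h1 h2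
      have e : cj b C = C := hAB.commB.symm.cj_eq hb
      rw [← e] at h2
      have := Root.cc_inf hS hAB (mem_cj.1 h1) (mem_cj.1 h2)
      exact hx1 (by simpa [mul_eq_one_iff_eq_inv, inv_mul_eq_iff_eq_mul] using this)
    rcases (hX M).1 hM with ⟨b, hb, rfl⟩ | rfl <;> rcases (hX M').1 hM' with ⟨b', hb', rfl⟩ | rfl
    · exact hne (by rw [Root.cj_inf_cj_cc hS hB ⟨D, hD, hro⟩ hAB hb hb' hx.1 hx.2 hx1])
    · exact h1 b hb hx.1 hx.2
    · exact h1 b' hb' hx.2 hx.1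
    · exact hne rfl
  · have hN : ∀ x ∈ B ⊔ D, cj x (A ⊔ C) = A ⊔ C := fun x hx =>
      cj_eq_self_of_mem_sup hNb (fun d hd => by rw [sup_comm]; exact hNd d hd) hx
    rcases RO.normal_cases hro (N := (B ⊔ D) ⊓ Subgroup.centralizer ((A ⊔ C : Subgroup G) : Set G))
      inf_le_left (fun x hx => by
        rw [cj_inf, cj_of_mem hx]
        congr 1
        have key : ∀ x ∈ B ⊔ D, cj x (Subgroup.centralizer ((A ⊔ C : Subgroup G) : Set G)) ≤
            Subgroup.centralizer ((A ⊔ C : Subgroup G) : Set G) := by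
          intro x hx
          have := (comm_iff_le.2 (le_refl (Subgroup.centralizer ((A ⊔ C : Subgroup G) : Set G)))).cj x
          rw [hN x hx] at this
          exact comm_iff_le.1 this
        apply le_antisymm (key x hx)
        have := cj_mono x (key x⁻¹ (Subgroup.inv_mem _ hx))
        rwa [cj_cj_inv] at this) with h | h
    · exfalso
      refine Root.cc_not_comm hS hD' (Comm.mono (Comm.sup_left ?_ hAB.commB.symm) h le_rfl)
      exact (comm_iff_le.2 inf_le_right).mono le_rfl le_sup_right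
    · exact h

end Cfsg.Agent.S5036
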