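import Cfsg.Statements.S5037
import Mathlib
import Cfsg.Agent.H19.Root3

set_option autoImplicit false
open Cfsg

namespace Cfsg.Agent.S5037

open Cfsg.Agent.H19


/-- Let S be a class of abstract root subgroups of G that is either degenerate or non-degenerate (so either the commutator case never occurs, or all three cases occur), and A ≠ C members of S. If every member of S commuting with A commutes with C, then A and C have the same commuting members of S; and if every rank one partner of A is a rank one partner of C, then A and C commute and have the same rank one partners. -/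
theorem result {G : Type*} [Group G] {S : Set (Subgroup G)} (hS : Cfsg.IsRootSubgroupClass S)
    (hdn : Cfsg.IsDegenerateRootSet S ∨ Cfsg.IsNondegenerateRootSet S)
    {A C : Subgroup G} (hA : A ∈ S) (hC : C ∈ S) (hAC : A ≠ C) :
    (Cfsg.centralizingMembers S A ⊆ Cfsg.centralizingMembers S C →
      Cfsg.centralizingMembers S A = Cfsg.centralizingMembers S C) ∧
    (Cfsg.rankOnePartners S A ⊆ Cfsg.rankOnePartners S C →
      ⁅A, C⁆ = ⊥ ∧ Cfsg.rankOnePartners S A = Cfsg.rankOnePartners S C) := by
  have hcm : ∀ {A M : Subgroup G}, M ∈ Cfsg.centralizingMembers S A ↔ M ∈ S ∧ Comm M A :=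
    and_congr_right fun _ => comm_iff_le.symm
  by_cases hNI : Root.NI S A
  · have hN := Root.allNI_of_class hS hA hNI
    constructor
    · intro h
      have h' : ∀ M ∈ S, Comm M A → Comm M C := fun M hM hc => (hcm.1 (h (hcm.2 ⟨hM, hc⟩))).2
      obtain ⟨D, hD, hCD⟩ := hN C hC
      obtain ⟨g, e1, e2⟩ := Root.triangle_swap (Root.ro_of_cent_le hS.1 hA hD h' hC hCD) hCD
        (h' A hA (Root.comm hS.1 hA))
      refine Set.Subset.antisymm h fun M hM => ?_
      obtain ⟨hM, hc⟩ := hcm.1 hM
      have := (h' _ (Root.cj_mem hS.1 hM g) (e2 ▸ hc.cj g))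
      rw [← e1, comm_cj_iff] at this
      exact hcm.2 ⟨hM, this⟩
    · intro h
      have hc : Comm A C := by
        rcases Root.cases hS.1 hA hC with h1 | h1 | h1
        · exact h1
        · exact absurd rfl (h ⟨hC, h1⟩).2.ne
        · exfalso
          obtain ⟨P, hP, h2, h3, h4⟩ := Root.ex_cc_eq hS.1 hN (Root.line_of_cc hS.1 hC h1.symm).symm
          have := Root.ro_of_cc_cc hS.1 hC hA hP h1.symm h2.symm
            (by rw [Subgroup.commutator_comm, h3])
          exact RO.not_comm (h ⟨hP, this⟩).2 h4.comm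
      refine ⟨comm_iff.1 hc, Set.Subset.antisymm h fun M hM => ?_⟩
      obtain ⟨D, hD, hAD⟩ := hNI
      obtain ⟨g, e1, e2⟩ := Root.triangle_swap hAD (h ⟨hD, hAD⟩).2 hc
      have := (h ⟨Root.cj_mem hS.1 hM.1 g, e2 ▸ RO.cj_pair hM.2 g⟩).2
      rw [← e1, RO.cj_pair_iff] at this
      exact ⟨hM.1, this⟩
  · have hno : ∀ P ∈ S, ∀ Q ∈ S, ¬ IsRankOnePair P Q := fun P hP Q hQ h =>
      hNI (Root.allNI_of_class hS hP ⟨Q, hQ, h⟩ A hA)
    have hdeg : Cfsg.IsDegenerateRootSet S := hdn.resolve_right fun h => by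
      obtain ⟨P, hP, Q, hQ, h⟩ := h.2.1
      exact hno P hP Q hQ h
    have hall : ∀ P ∈ S, ∀ Q ∈ S, Comm P Q := fun P hP Q hQ =>
      ((Root.cases hS.1 hP hQ).resolve_right fun h => h.elim (hno P hP Q hQ)
        fun h => hdeg P hP Q hQ (cc_iff.2 h))
    constructor
    · intro h
      exact Set.Subset.antisymm h fun M hM => hcm.2 ⟨hM.1, hall M hM.1 A hA⟩
    · intro h
      exact ⟨comm_iff.1 (hall A hA C hC), Set.Subset.antisymm h fun M hM =>
        absurd hM.2 (hno C hC M hM.1)⟩

end Cfsg.Agent.S5037
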