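import Cfsg.Statements.S5040
import Mathlib
import Cfsg.Agent.H19.Root3

set_option autoImplicit false
open Cfsg

namespace Cfsg.Agent.S5040

open Cfsg.Agent.H19


/-- Let S be a non-degenerate class of abstract root subgroups of G and Δ a weak TI-subset of S. Then the members of Δ commute with one another elementwise. -/
theorem result {G : Type*} [Group G] {S : Set (Subgroup G)} (hS : Cfsg.IsRootSubgroupClass S) (hnd : Cfsg.IsNondegenerateRootSet S)
    {Δ : Set (Subgroup G)} (hΔ : Cfsg.IsWeakTISubset S Δ) : Cfsg.IsAbelianFamily Δ := by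
  obtain ⟨hsub, ⟨A₀, hA₀, -⟩, hne, hTI⟩ := hΔ
  have hN := Root.allNI_of_nondeg hS hnd
  let N : Subgroup G :=
    { carrier := {g | ∀ M, M ∈ Δ ↔ cj g M ∈ Δ}
      one_mem' := fun M => by simp
      mul_mem' := fun {x y} hx hy M => by rw [cj_mul, ← hx, ← hy]
      inv_mem' := fun {x} hx M => by rw [hx (cj x⁻¹ M), cj_cj_inv] }
  have hmem : ∀ A ∈ Δ, ∀ P ∈ S, Comm P A → P ≤ N := by
    intro A hA P hP hc p hp
    by_cases hp1 : p = 1
    · rw [hp1]; exact N.one_mem
    rcases hTI p ⟨hp1, P, hP, hp⟩ with h | h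
    · intro M
      constructor
      · intro hM; rw [← h]; exact ⟨M, hM, rfl⟩
      · intro hM
        rw [← h] at hM
        obtain ⟨M', hM', e⟩ := hM
        rwa [← cj_injective p e]
    · exact absurd hA (Set.disjoint_left.1 h ⟨A, hA, hc.cj_eq hp⟩)
  have hno : ∀ A ∈ Δ, ∀ B ∈ Δ, ¬ IsRankOnePair A B := by
    intro A hA B hB h
    have htop := Root.eq_top_of_lines hS hnd (hsub hA) (hsub hB) h (H := N)
      (fun E hL => hmem A hA E hL.memE hL.comm.symm) (hmem B hB B (hsub hB) (Root.comm hS.1 (hsub hB)))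
    refine hne (Set.Subset.antisymm hsub fun M hM => ?_)
    obtain ⟨g, rfl⟩ := hS.2.2 A (hsub hA) M hM
    exact ((htop ▸ Subgroup.mem_top g : g ∈ N) A).1 hA
  intro A hA C hC
  rcases Root.cases hS.1 (hsub hA) (hsub hC) with h | h | h
  · exact h
  · exact absurd h (hno A hA C hC)
  · exfalso
    obtain ⟨P, hP, h2, h3, h4⟩ := Root.ex_cc_eq hS.1 hN (Root.line_of_cc hS.1 (hsub hA) h).symm
    have h5 := Root.ro_of_cc_cc hS.1 (hsub hA) (hsub hC) hP h h2.symm
      (by rw [Subgroup.commutator_comm, h3])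
    obtain ⟨p, hp, hp1⟩ := exists_ne_one_of_ne_bot (hS.1.ne_bot P hP)
    exact hno C hC _ ((hmem A hA P hP h4.comm.symm hp C).1 hC) (RO.pair_cj (RO.symm h5) hp hp1)

end Cfsg.Agent.S5040
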