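import Cfsg.Statements.S5041
import Mathlib
import Cfsg.Agent.H19.Root3

set_option autoImplicit false
open Cfsg

namespace Cfsg.Agent.S5041

open Cfsg.Agent.H19


/-- Let S be a non-degenerate class of abstract root subgroups of G. Then the graph on S joining A to its line partners, and the commuting graph on S, are both connected. -/
theorem result {G : Type*} [Group G] {S : Set (Subgroup G)} (hS : Cfsg.IsRootSubgroupClass S) (hnd : Cfsg.IsNondegenerateRootSet S) :
    Cfsg.IsConnectedFamily (Cfsg.EAdj S S) S ∧ Cfsg.IsConnectedFamily (Cfsg.DAdj S) S := by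
  have hN := Root.allNI_of_nondeg hS hnd
  constructor
  · intro A hA B hB
    exact Relation.ReflTransGen.mono (r := Line S)
      (fun P Q h => ⟨h.memA, h.memE, Root.mem_of_line hS.1 hN h⟩) _ _ (Root.line_path hS hnd hA hB)
  · intro A hA B hB
    exact Relation.ReflTransGen.mono (r := Line S)
      (fun P Q h => ⟨h.memA, h.memE, h.ne.symm, comm_iff.1 h.comm⟩) _ _ (Root.line_path hS hnd hA hB)

end Cfsg.Agent.S5041
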