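import Cfsg.Statements.S5044
import Mathlib
import Cfsg.Agent.H3.RI5

set_option autoImplicit false
open Cfsg

namespace Cfsg.Agent.S5044

/-- Let G be a finite group generated by a set D of root involutions (a conjugation-invariant set of involutions any two of which commute, have product of odd order, or have product of order 4 whose square lies in D), and suppose some product of two different commuting members of D lies again in D. Then either the commuting graph of D is connected, or the quotient of G by the preimage of the centre of G/O₂(G) is isomorphic to L₂(q), Sz(q) or U₃(q) for a power q > 2 of 2. -/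
theorem result {G : Type*} [Group G] [Finite G] {D : Set G} (hD : Cfsg.IsRootInvolutionSet D)
    (hDD : (D ∩ Cfsg.commutingProducts D).Nonempty) :
    Cfsg.IsConnectedSet (Cfsg.CommAdj D) D ∨
    (∃ (F : Type) (_ : Field F) (_ : Fintype F), CharP F 2 ∧ 4 ≤ Fintype.card F ∧
      Nonempty (G ⧸ Cfsg.twoZCore G ≃* Matrix.ProjectiveSpecialLinearGroup (Fin 2) F)) ∨
    Cfsg.Lie.IsoSuzuki (G ⧸ Cfsg.twoZCore G) ∨
    (∃ (F : Type) (_ : Field F) (_ : Fintype F) (q : ℕ), CharP F 2 ∧ Fintype.card F = q ^ 2 ∧ 4 ≤ q ∧
      Nonempty (G ⧸ Cfsg.twoZCore G ≃* Cfsg.PSU 3 F q)) := by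
  open Cfsg.Agent.H3 in
  open scoped commutatorElement in
  · by_cases n : Cfsg.IsConnectedSet (Cfsg.CommAdj D) D
    · exact Or.inl n
    right
    rcases Rt.disc_bender hD (Rt.dd_of hDD) n with ⟨F, _, _, ⟨m, h1, h2⟩, e⟩ | h | ⟨F, _, _, m, h1, h2, h3⟩
    · exact Or.inl ⟨F, _, _, H13.charP_two_of_card (by rw [Nat.card_eq_fintype_card, h2]),
        h2 ▸ Nat.pow_le_pow_right (n := 2) two_pos h1, e⟩
    · exact Or.inr (Or.inl h)
    · exact Or.inr (Or.inr ⟨F, _, _, _, H13.charP_two_of_card (by rw [Nat.card_eq_fintype_card, h2, ← pow_mul]), h2,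
        Nat.pow_le_pow_right (n := 2) two_pos h1, h3⟩)

end Cfsg.Agent.S5044
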