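import Cfsg.Statements.S5045
import Mathlib
import Cfsg.Agent.H3.RI3

set_option autoImplicit false
open Cfsg

namespace Cfsg.Agent.S5045

/-- Let G be a finite group generated by a set D of root involutions, and W the set of members of D whose product with every other member of D has even order or is trivial (the isolated vertices of the odd-order-product graph on D). Then W is conjugation-invariant and generates a normal 2-subgroup of G meeting D in exactly W; the commutator of two members of D lying in different connected components of that graph, each with more than one member, lies in the subgroup generated by W; and for a in such a component, every member of D commuting with a, different from a and with product with a in D, lies in that component or in W. -/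
theorem result {G : Type*} [Group G] [Finite G] {D : Set G} (hD : Cfsg.IsRootInvolutionSet D) :
    (∀ w ∈ {w | Cfsg.IsIsolatedElem (Cfsg.OddAdj D) D w}, ∀ g : G, g * w * g⁻¹ ∈ {w | Cfsg.IsIsolatedElem (Cfsg.OddAdj D) D w}) ∧
    (Subgroup.closure {w | Cfsg.IsIsolatedElem (Cfsg.OddAdj D) D w}).Normal ∧
    IsPGroup 2 ↥(Subgroup.closure {w | Cfsg.IsIsolatedElem (Cfsg.OddAdj D) D w}) ∧
    (Subgroup.closure {w | Cfsg.IsIsolatedElem (Cfsg.OddAdj D) D w} : Set G) ∩ D = {w | Cfsg.IsIsolatedElem (Cfsg.OddAdj D) D w} ∧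
    (∀ a ∈ D, ∀ b ∈ D, (∃ a' ∈ Cfsg.elemComponentOf (Cfsg.OddAdj D) D a, a' ≠ a) →
      (∃ b' ∈ Cfsg.elemComponentOf (Cfsg.OddAdj D) D b, b' ≠ b) →
      Cfsg.elemComponentOf (Cfsg.OddAdj D) D a ≠ Cfsg.elemComponentOf (Cfsg.OddAdj D) D b →
        a * b * a⁻¹ * b⁻¹ ∈ Subgroup.closure {w | Cfsg.IsIsolatedElem (Cfsg.OddAdj D) D w}) ∧
    (∀ a ∈ D, (∃ a' ∈ Cfsg.elemComponentOf (Cfsg.OddAdj D) D a, a' ≠ a) →
      Cfsg.productPartners D a ⊆ Cfsg.elemComponentOf (Cfsg.OddAdj D) D a ∪ {w | Cfsg.IsIsolatedElem (Cfsg.OddAdj D) D w}) := by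
  open Cfsg.Agent.H3 in
  open scoped commutatorElement in
  · have h := Rt.RI.of hD
    have t : ∀ g : G, g ∈ Subgroup.closure D := fun g => hD.2 ▸ Subgroup.mem_top g
    rw [Rt.iso_eq]
    refine ⟨fun w hw g => h.iso_cj (t g) hw, ⟨fun w hw g => h.iso_norm (t g) hw⟩, h.iso_pgroup, ?_, ?_, ?_⟩
    · exact Set.Subset.antisymm (fun d hd => h.iso_inter hd.2 hd.1) fun d hd => ⟨Subgroup.subset_closure hd, hd.1⟩
    · rintro a ha b hb ⟨a', ra, na⟩ ⟨b', rb, nb⟩ ne
      obtain ⟨a1, ha1, n1⟩ := Rt.FR.nb ra.2 na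
      obtain ⟨b1, hb1, n2⟩ := Rt.FR.nb rb.2 nb
      rw [Rt.iv (h.s2 ha), Rt.iv (h.s2 hb)]
      by_cases c : a * b = b * a
      · rw [c, mul_assoc b, h.s2 ha, mul_one, h.s2 hb]; exact one_mem _
      refine Subgroup.subset_closure (h.cm_iso ha hb ha1 hb1 n1 n2 (fun r => ne ?_) c)
      ext x
      exact ⟨fun m => ⟨m.1, (Rt.FR.symm r).trans m.2⟩, fun m => ⟨m.1, r.trans m.2⟩⟩
    · rintro a ha ⟨a', ra, na⟩ e he
      obtain ⟨a1, ha1, n1⟩ := Rt.FR.nb ra.2 na
      exact (h.X_comp ha ha1 n1 he.1.1 he.1.2.1 he.2).imp (fun r => ⟨he.1.1, r⟩) id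

end Cfsg.Agent.S5045
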