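import Cfsg.Statements.S5046
import Mathlib
import Cfsg.Agent.H3.RI3

set_option autoImplicit false
open Cfsg

namespace Cfsg.Agent.S5046

/-- Let G be a finite group generated by a set D of root involutions whose odd-order-product graph is connected, and d ∈ D. Then the members e of D with the same commuting members as d are exactly those for which the union of the commuting members of d and the members whose product with d has order 4 equals the corresponding union for e. -/
theorem result {G : Type*} [Group G] [Finite G] {D : Set G} (hD : Cfsg.IsRootInvolutionSet D)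
    (hc : Cfsg.IsConnectedSet (Cfsg.OddAdj D) D) {d : G} (hd : d ∈ D) :
    Cfsg.sameCommutingClass D d =
      {e | e ∈ D ∧ Cfsg.commutingMembers D d ∪ Cfsg.fourPartners D d = Cfsg.commutingMembers D e ∪ Cfsg.fourPartners D e} := by
  open Cfsg.Agent.H3 in
  open scoped commutatorElement in
  · have h := Rt.RI.of hD
    have cl := h.cls_of_conn hc
    have key : ∀ u ∈ D, ∀ x, x ∈ Cfsg.commutingMembers D u ∪ Cfsg.fourPartners D u ↔ x ∈ D ∧ ¬ Rt.Adj u x := by
      intro u hu x
      constructor
      · rintro (m | m)
        · exact ⟨m.1, h.nadj hu m.1 m.2.symm⟩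
        · exact ⟨m.1, ((h.four_iff hu m.1).1 m.2).1⟩
      · rintro ⟨m, n⟩
        by_cases c : u * x = x * u
        · exact Or.inl ⟨m, c.symm⟩
        · exact Or.inr ⟨m, (h.four_iff hu m).2 ⟨n, c⟩⟩
    ext e
    constructor
    · rintro ⟨he, s⟩
      refine ⟨he, Set.ext fun x => ?_⟩
      have l1 : ∀ x ∈ D, x * e = e * x → x * d = d * x := fun x hx c => ((Set.ext_iff.1 s x).2 ⟨hx, c⟩).2
      have l2 : ∀ x ∈ D, x * d = d * x → x * e = e * x := fun x hx c => ((Set.ext_iff.1 s x).1 ⟨hx, c⟩).2
      rw [key d hd, key e he]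
      exact and_congr_right fun hx => not_congr ⟨h.SA_of_C he hd l2 l1 hx, h.SA_of_C hd he l1 l2 hx⟩
    · rintro ⟨he, s⟩
      have sa : Rt.SA D d e := fun x hx => by
        have := Set.ext_iff.1 s x
        rw [key d hd, key e he] at this
        tauto
      exact ⟨he, Set.ext fun x => ⟨fun m => ⟨m.1, h.C_of_SA cl hd he sa m.1 m.2⟩,
        fun m => ⟨m.1, h.C_of_SA cl he hd sa.symm m.1 m.2⟩⟩⟩

end Cfsg.Agent.S5046
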