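import Cfsg.Statements.S5047
import Mathlib
import Cfsg.Agent.H3.RI3

set_option autoImplicit false
open Cfsg

namespace Cfsg.Agent.S5047

/-- Let G be a finite group generated by a set D of root involutions whose odd-order-product graph is connected, a ∈ D, and b a member of D different from a, commuting with a, with ab ∈ D, but not having the same commuting members as a. Then some member x of D with bx of order 4 has ax of order 3. -/
theorem result {G : Type*} [Group G] [Finite G] {D : Set G} (hD : Cfsg.IsRootInvolutionSet D)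
    (hc : Cfsg.IsConnectedSet (Cfsg.OddAdj D) D) {a b : G} (ha : a ∈ D) (hb : b ∈ Cfsg.productPartners D a)
    (hbE : b ∉ Cfsg.sameCommutingClass D a) : ∃ x ∈ Cfsg.fourPartners D b, orderOf (a * x) = 3 := by
  open Cfsg.Agent.H3 in
  open scoped commutatorElement in
  · have h := Rt.RI.of hD
    have cl := h.cls_of_conn hc
    obtain ⟨f, hf, x, hx, -, n, -, e, p, ne⟩ := h.three cl ha hb.1.1 hb.1.2.1 hb.2 fun sa => hbE
      ⟨hb.1.1, Set.ext fun x => ⟨fun m => ⟨m.1, h.C_of_SA cl ha hb.1.1 sa m.1 m.2⟩,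
        fun m => ⟨m.1, h.C_of_SA cl hb.1.1 ha sa.symm m.1 m.2⟩⟩⟩
    haveI : Fact (Nat.Prime 3) := ⟨Nat.prime_three⟩
    refine ⟨x, ⟨hx, (h.four_iff hb.1.1 hx).2 ⟨fun j => n j.symm, fun c => h.ne1 hf ?_⟩⟩, orderOf_eq_prime p fun j => ne ?_⟩
    · rw [← e, mul_assoc x, c, ← mul_assoc, h.s2 hx, one_mul, h.s2 hb.1.1]
    · rw [← Rt.iv (h.s2 ha)]; exact inv_eq_of_mul_eq_one_right j

end Cfsg.Agent.S5047
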