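import Cfsg.Statements.S5048
import Mathlib
import Cfsg.Agent.H3.RI3

set_option autoImplicit false
open Cfsg

namespace Cfsg.Agent.S5048

/-- Let G be a finite group generated by a set D of root involutions whose odd-order-product graph is connected, with some product of two different commuting members of D again in D. Then the largest solvable normal subgroup of G is the preimage of the centre of G/O₂(G), and the quotient of G by it is a simple group. -/
theorem result {G : Type*} [Group G] [Finite G] {D : Set G} (hD : Cfsg.IsRootInvolutionSet D)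
    (hc : Cfsg.IsConnectedSet (Cfsg.OddAdj D) D) (hDD : (D ∩ Cfsg.commutingProducts D).Nonempty) :
    Cfsg.solvableRadical G = Cfsg.twoZCore G ∧ IsSimpleGroup (G ⧸ Cfsg.twoZCore G) := by
  open Cfsg.Agent.H3 in
  open scoped commutatorElement in
  · have h := Rt.RI.of hD
    have cl := h.cls_of_conn hc
    have dd := Rt.dd_of hDD
    obtain ⟨b, hb, c, hc', -, m⟩ := id dd
    obtain ⟨x, hx, n⟩ := Rt.FR.nb (hc b hb c hc') (fun e => h.ne1 m (by rw [e, h.s2 hb]))
    exact ⟨Rt.rad_eq hD cl dd (Rt.twoZ_ne_top hD hb hx n), Rt.simple_quot hD cl dd hb hx n⟩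

end Cfsg.Agent.S5048
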