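import Cfsg.Statements.S5049
import Mathlib
import Cfsg.Agent.H3.RI3

set_option autoImplicit false
open Cfsg

namespace Cfsg.Agent.S5049

/-- Let G be a finite group generated by a set D of odd transpositions (root involutions with no product of order 4), Q = O₂(G), and for a ∈ D let Q_a be the commutator subgroup of Q with a. Then every member of D commuting with a centralizes Q_a; and for b ∈ D with ab of odd order greater than 1, the centralizer of ab in Q is the intersection of the centralizers of a and b in Q. -/
theorem result {G : Type*} [Group G] [Finite G] {D : Set G} (hD : Cfsg.IsOddTranspositionSet D) {a : G} (ha : a ∈ D) :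
    (∀ e ∈ Cfsg.commutingMembers D a, ∀ q ∈ ⁅Cfsg.pCore 2 G, Subgroup.zpowers a⁆, e * q = q * e) ∧
    (∀ b ∈ Cfsg.oddPartners D a,
      Cfsg.pCore 2 G ⊓ Subgroup.centralizer {a * b} = Cfsg.pCore 2 G ⊓ Subgroup.centralizer {a} ⊓ Subgroup.centralizer {b}) := by
  open Cfsg.Agent.H3 in
  open scoped commutatorElement in
  · have h := Rt.RI.of hD.1
    have a2 := h.s2 ha
    constructor
    · intro e he q hq
      have : ⁅Cfsg.pCore 2 G, Subgroup.zpowers a⁆ ≤ Subgroup.centralizer {e} := by
        rw [Subgroup.commutator_le]
        intro g hg z hz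
        have : z ∈ Subgroup.closure ({a, a} : Set G) := by
          rw [Set.pair_eq_singleton, ← Subgroup.zpowers_eq_closure]; exact hz
        obtain ⟨i, rfl | rfl⟩ := Rt.dih_mem a2 a2 this
        · simp [a2]
        · rw [a2, one_zpow, one_mul, commutatorElement_def, Rt.iv a2, Subgroup.mem_centralizer_singleton_iff,
            mul_assoc, ← he.2, ← mul_assoc, ← Rt.odd_core hD ha he.1 he.2 hg, mul_assoc]
      exact (Subgroup.mem_centralizer_singleton_iff.1 (this hq)).symm
    · intro b hb
      have b2 := h.s2 hb.1
      refine le_antisymm (fun q hq => ?_) fun q hq => ⟨hq.1.1, ?_⟩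
      · have c := Subgroup.mem_centralizer_singleton_iff.1 hq.2
        have c1 := Rt.odd_core hD ha ha rfl hq.1
        have c2 := Rt.odd_core hD hb.1 hb.1 rfl hq.1
        have ma := hD.1.3 a ha q
        have mb := hD.1.3 b hb.1 q
        have e : (q * a * q⁻¹) * (q * b * q⁻¹) = a * b := by
          rw [show (q * a * q⁻¹) * (q * b * q⁻¹) = q * (a * b) * q⁻¹ by group, c, mul_inv_cancel_right]
        have key : a = q * a * q⁻¹ ∧ b = q * b * q⁻¹ := by
          generalize q * a * q⁻¹ = a' at *
          generalize q * b * q⁻¹ = b' at *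
          have a3 := h.s2 ma
          have b3 := h.s2 mb
          have e1 : a * a' = b * b' := by
            rw [show a * a' = a * (a' * b') * b' by apply Rt.W; simp only [mul_assoc, Rt.r2 b3], e]
            apply Rt.W; simp only [mul_assoc, Rt.r2 a2]
          have z1 : a * a' = 1 := by
            by_contra z1
            refine h.lemN (z := a * a') ha hb.1 (by rwa [Rt.r2 a2]) z1 ?_ ?_ ?_ ⟨hb.2.1.symm, hb.2.2⟩
            · apply Rt.W; simp only [mul_assoc, Rt.rc c1.symm, Rt.r2 a2, Rt.r2 a3, one_mul]
            · apply Rt.W; simp only [mul_assoc, Rt.rc c1.symm]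
            · rw [e1]; apply Rt.W; simp only [mul_assoc, Rt.rc c2.symm]
          exact ⟨by rw [← Rt.iv a2]; exact inv_eq_of_mul_eq_one_right z1,
            by rw [← Rt.iv b2]; exact inv_eq_of_mul_eq_one_right (e1 ▸ z1)⟩
        exact ⟨⟨hq.1, Subgroup.mem_centralizer_singleton_iff.2 (mul_inv_eq_iff_eq_mul.1 key.1.symm)⟩,
          Subgroup.mem_centralizer_singleton_iff.2 (mul_inv_eq_iff_eq_mul.1 key.2.symm)⟩
      · have c1 := Subgroup.mem_centralizer_singleton_iff.1 hq.1.2
        have c2 := Subgroup.mem_centralizer_singleton_iff.1 hq.2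
        exact Subgroup.mem_centralizer_singleton_iff.2 (by rw [← mul_assoc, c1, mul_assoc, c2, mul_assoc])

end Cfsg.Agent.S5049
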