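import Cfsg.Statements.S5052
import Mathlib
import Cfsg.Agent.H3.RI10

set_option autoImplicit false
open Cfsg

namespace Cfsg.Agent.S5052

/-- Let G be a finite group with O₂(G) = 1 and trivial centre, generated by a class D of odd transpositions whose commuting graph is connected, with some product of two different commuting members again in D. Then for each d ∈ D the members of D with the same commuting members as d, together with 1, form a subgroup E(d); and for every x ∈ D with dx of odd order greater than 1, the subgroup generated by E(d) and x is isomorphic to L₂(q) where q is the order of E(d). -/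
theorem result {G : Type*} [Group G] [Finite G] {D : Set G} (hD : Cfsg.IsOddTranspositionSet D) (hcl : Cfsg.IsRootInvolutionClass D)
    (hO : Cfsg.pCore 2 G = ⊥) (hZ : Subgroup.center G = ⊥) (hDD : (D ∩ Cfsg.commutingProducts D).Nonempty)
    (hc : Cfsg.IsConnectedSet (Cfsg.CommAdj D) D) {d : G} (hd : d ∈ D) :
    (Cfsg.sameCommutingSubgroup D d : Set G) = Cfsg.sameCommutingClass D d ∪ {1} ∧
    ∀ x ∈ Cfsg.oddPartners D d, ∃ (F : Type) (_ : Field F) (_ : Fintype F),
      Fintype.card F = Nat.card ↥(Cfsg.sameCommutingSubgroup D d) ∧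
      Nonempty (↥(Subgroup.closure (Cfsg.sameCommutingClass D d ∪ {x})) ≃* Matrix.ProjectiveSpecialLinearGroup (Fin 2) F) := by
  open Cfsg.Agent.H3 in
  open scoped commutatorElement in
  ·   have h := Rt.OT.of hD
      obtain ⟨y, hy, n⟩ : ∃ y ∈ D, Rt.Adj d y := by
        by_contra k
        push Not at k
        have : d ∈ Subgroup.center G := Subgroup.mem_center_iff.2
          (Rt.cen_of_gen hD.1.2 fun s hs => (h.cm _ hd _ hs (k s hs)).symm)
        rw [hZ, Subgroup.mem_bot] at this
        exact h.ne1 hd this
      have L : ∀ x ∈ D, Rt.Adj d x → Rt.Gl D d x := fun x hx n =>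
        ⟨h, hD.1.2, Rt.cls_of hcl, Rt.dd_of hDD, hO, hd, hx, n⟩
      unfold Cfsg.sameCommutingSubgroup
      rw [h.EE_eq hd]
      exact ⟨(L y hy n).coe_cl, fun x hx => (L x hx.1 ⟨hx.2.1.symm, hx.2.2⟩).final hZ (hc x hx.1 d hd)⟩

end Cfsg.Agent.S5052
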