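import Cfsg.Statements.S5053
import Mathlib
import Cfsg.Agent.H3.RI6

set_option autoImplicit false
open Cfsg

namespace Cfsg.Agent.S5053

/-- Let G be a finite group generated by a non-degenerate conjugacy class D of root involutions (some two different members commute, some two have product of odd order, some two have product of order 4) and T a weak TI-subset of D: a subset with more than one element, different from D, whose conjugate by any member of D equals T or is disjoint from it. Then T generates an abelian subgroup. -/
theorem result {G : Type*} [Group G] [Finite G] {D : Set G} (hD : Cfsg.IsNondegenerateRootInvolutionSet D)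
    (hcl : Cfsg.IsRootInvolutionClass D)     {T : Set G} (hT : Cfsg.IsWeakTISubsetOfElements D T) : IsMulCommutative ↥(Subgroup.closure T) := by
  open Cfsg.Agent.H3 in
  open scoped commutatorElement in
  · have h := Rt.RI.of hD.1
    have key := h.wti (Rt.cls_of hcl) (Rt.hv_of hD) hT.1 (fun le => hT.2.2.1 (Set.Subset.antisymm hT.1 le))
      fun d hd t ht m s => by
        rcases hT.2.2.2 d hd with e | e
        · constructor
          · intro hs; rw [← e]; exact ⟨s, hs, rfl⟩
          · intro hs; rw [← e] at hs
            obtain ⟨s', hs', e'⟩ := hs
            have : s' = s := by simpa using e'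
            exact this ▸ hs'
        · exact absurd m (Set.disjoint_left.1 e ⟨t, ht, rfl⟩)
    exact ⟨⟨fun a b => Subtype.ext (Subgroup.closure_induction₂ (p := fun x y _ _ => x * y = y * x)
      (fun x y hx hy => key x hx y hy) (by simp) (by simp)
      (fun x y z _ _ _ h1 h2 => (Commute.mul_left h1 h2).eq) (fun x y z _ _ _ h1 h2 => (Commute.mul_right h1 h2).eq)
      (fun x y _ _ h1 => (Commute.inv_left h1).eq) (fun x y _ _ h1 => (Commute.inv_right h1).eq) a.2 b.2)⟩⟩

end Cfsg.Agent.S5053
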