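import Cfsg.Statements.S5054
import Mathlib
import Cfsg.Agent.H3.RI6

set_option autoImplicit false
open Cfsg

namespace Cfsg.Agent.S5054

/-- Let G be a finite group generated by a non-degenerate conjugacy class D of root involutions. Then for every d ∈ D and every x ∈ D with dx of odd order greater than 1, G is generated by x together with the members of D different from d that commute with d and have product with d in D; and the graph on D joining two different commuting members whose product lies in D is connected. -/
theorem result {G : Type*} [Group G] [Finite G] {D : Set G} (hD : Cfsg.IsNondegenerateRootInvolutionSet D)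
    (hcl : Cfsg.IsRootInvolutionClass D) :
    (∀ d ∈ D, ∀ x ∈ Cfsg.oddPartners D d, Subgroup.closure (Cfsg.productPartners D d ∪ {x}) = ⊤) ∧
    Cfsg.IsConnectedSet (Cfsg.ProdAdj D) D := by
  open Cfsg.Agent.H3 in
  open scoped commutatorElement in
  · have h := Rt.RI.of hD.1
    have cl := Rt.cls_of hcl
    have v := Rt.hv_of hD
    refine ⟨fun d hd x hx => ?_, fun a ha b hb => h.er_conn cl v ha hb⟩
    rw [eq_top_iff, ← hD.1.2, Subgroup.closure_le]
    exact h.X_gen cl v hd hx.1 ⟨hx.2.1.symm, hx.2.2⟩ (Subgroup.subset_closure (Or.inr rfl)) fun e he c m =>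
      Subgroup.subset_closure (Or.inl ⟨⟨he, c, fun j => h.ne1 m (by rw [j, h.s2 hd])⟩, m⟩)

end Cfsg.Agent.S5054
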