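import Cfsg.Statements.S5059
import Mathlib
import Cfsg.Agent.H3.Quad4

set_option autoImplicit false
universe u
open Cfsg

namespace Cfsg.Agent.S5059

/-- Let k be a field of characteristic not 2 with k not of order 3, M a finite-dimensional k-vector space and G ≤ GL(M) such that (G, M) is a quadratic pair (M irreducible for G, and G generated by its quadratically acting elements σ whose scalar family 1 + c(σ − 1), c ∈ k, lies in G). Write 𝒬_d for the quadratic elements of G of minimal commutator rank, E(σ) for the subgroup generated by the members of 𝒬_d with the same fixed space and commutator space as σ, and Σ for the set of these subgroups. Then for σ ∈ 𝒬_d the subgroup E(σ) consists exactly of those members together with the identity, it is abelian, and if k has prime characteristic p every element of E(σ) has order dividing p. -/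
theorem result {k : Type u} [Field k] (hk2 : ringChar k ≠ 2) (hk3 : Nat.card k ≠ 3)
    {M : Type u} [AddCommGroup M] [Module k M] [FiniteDimensional k M]
    {G : Subgroup (LinearMap.GeneralLinearGroup k M)} (hG : Cfsg.IsQuadraticPair G)
    {σ : LinearMap.GeneralLinearGroup k M} (hσ : σ ∈ Cfsg.minimalQuadraticElements G) :
    (Cfsg.sameActionSubgroup G σ : Set (LinearMap.GeneralLinearGroup k M)) = Cfsg.sameActionClass G σ ∪ {1} ∧
    IsMulCommutative ↥(Cfsg.sameActionSubgroup G σ) ∧
    (∀ p : ℕ, p.Prime → ringChar k = p → ∀ x ∈ Cfsg.sameActionSubgroup G σ, x ^ p = 1) := by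
  open Cfsg.Agent.H3 in
  open scoped commutatorElement in
  · open Qd in
    have h := mem_min.1 hσ
    refine ⟨?_, ?_, fun p _ hp x hx => ?_⟩
    · ext x
      rw [SetLike.mem_coe, same_eq h, mem_EE h.sq, Set.mem_union, mem_class h, Set.mem_singleton_iff]
      refine ⟨fun e => (eq_or_ne x 1).symm.imp (fun e' => ⟨e, e'⟩) id, ?_⟩
      rintro (e | rfl)
      exacts [e.1, by simpa using Ee.zero]
    · rw [same_eq h]; exact H19.comm_self_iff.1 (EE_comm h.sq)
    · rw [same_eq h, mem_EE h.sq] at hx
      have e := hx.mul h.sq hx
      have : ∀ n : ℕ, (x ^ n).1 = 1 + (n : k) • (x.1 - 1) := fun n => by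
        induction n with
        | zero => simp
        | succ n ih =>
          rw [pow_succ, Units.val_mul, ih, Nat.cast_succ, add_smul, one_smul, add_mul, smul_mul_assoc,
            show (x.1 - 1) * x.1 = x.1 - 1 by linear_combination (norm := noncomm_ring) e]
          simp only [one_mul]; abel
      exact Units.ext (by rw [this, ← hp, ringChar.Nat.cast_ringChar]; simp)

end Cfsg.Agent.S5059
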