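import Cfsg.Statements.S5060
import Mathlib
import Cfsg.Agent.H3.Dick3

set_option autoImplicit false
open Cfsg

namespace Cfsg.Agent.S5060

/-- Let k ⊆ K be fields with the characteristic of k not 2 and k not of order 3, and let α ∈ K be a non-zero element algebraic over k. Then the subgroup of SL₂(K) generated by the upper unitriangular matrices with entry c and the lower unitriangular matrices with entry cα, c ranging over k, is exactly the group of matrices of SL₂(K) with all entries in k(α). -/
theorem result {k K : Type*} [Field k] [Field K] [Algebra k K] (hk2 : ringChar k ≠ 2) (hk3 : Nat.card k ≠ 3)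
    (α : K) (hα : IsAlgebraic k α) (hα0 : α ≠ 0) :
    (Subgroup.closure ({g : Matrix.SpecialLinearGroup (Fin 2) K | ∃ c : k, (g : Matrix (Fin 2) (Fin 2) K) = !![1, algebraMap k K c; 0, 1]} ∪
        {g : Matrix.SpecialLinearGroup (Fin 2) K | ∃ c : k, (g : Matrix (Fin 2) (Fin 2) K) = !![1, 0; algebraMap k K c * α, 1]}) :
      Set (Matrix.SpecialLinearGroup (Fin 2) K)) =
    {g : Matrix.SpecialLinearGroup (Fin 2) K | ∀ i j : Fin 2, (g : Matrix (Fin 2) (Fin 2) K) i j ∈ IntermediateField.adjoin k ({α} : Set K)} := by
  open Cfsg.Agent.H3 in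
  open scoped commutatorElement in
  · open Cfsg.Agent.H3.Dk Polynomial in
    have hi : IsIntegral k α := hα.isIntegral
    have hf := minpoly.irreducible hi
    have := Fact.mk hf
    have hX : ¬ minpoly k α ∣ X := fun ⟨q, e⟩ => hα0 (by
      have := congrArg (aeval α) e
      rwa [aeval_X, map_mul, minpoly.aeval, zero_mul] at this)
    let φ : AdjoinRoot (minpoly k α) →+* K := AdjoinRoot.lift (algebraMap k K) α (minpoly.aeval k α)
    have hφ : ∀ p, φ (AdjoinRoot.mk _ p) = aeval α p := fun p => AdjoinRoot.lift_mk _ _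
    have hs := surj (Ring.two_ne_zero hk2) hk3 hf hX
    have hadj : ∀ z : K, z ∈ IntermediateField.adjoin k ({α} : Set K) ↔ ∃ p : k[X], aeval α p = z := fun z => by
      rw [← IntermediateField.mem_toSubalgebra, IntermediateField.adjoin_simple_toSubalgebra_of_isAlgebraic hα,
        Algebra.adjoin_singleton_eq_range_aeval]
      rfl
    ext g
    constructor
    · intro hg
      have : g ∈ (mp φ).range := by
        refine (Subgroup.closure_le _).2 ?_ hg
        rintro x (⟨c, e⟩ | ⟨c, e⟩)
        · exact ⟨uu (AdjoinRoot.mk _ (C c)), by rw [mp_uu, hφ, aeval_C]; exact Subtype.ext e.symm⟩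
        · exact ⟨ll (AdjoinRoot.mk _ (C c * X)), by
            rw [mp_ll, hφ, map_mul, aeval_C, aeval_X]; exact Subtype.ext e.symm⟩
      obtain ⟨y, rfl⟩ := this
      intro i j
      obtain ⟨p, e⟩ := AdjoinRoot.mk_surjective (y.1 i j)
      exact (hadj _).2 ⟨p, by rw [← hφ, e]; rfl⟩
    · intro hg
      choose p hp using fun i j => (hadj _).1 (hg i j)
      let y : Matrix.SpecialLinearGroup (Fin 2) (AdjoinRoot (minpoly k α)) :=
        ⟨Matrix.of fun i j => AdjoinRoot.mk _ (p i j), φ.injective (by
          rw [Matrix.det_fin_two, map_sub, map_mul, map_mul, map_one]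
          simp only [Matrix.of_apply, hφ, hp]
          exact det2 g)⟩
      have hy : mp φ y = g := by
        ext i j
        exact (hφ _).trans (hp i j)
      obtain ⟨a, ha, e⟩ := Subgroup.mem_map.1 (hs ▸ Subgroup.mem_top y)
      rw [← hy, ← e]
      refine HH_induction (p := fun a => mp φ (red _ a) ∈ Subgroup.closure _) (by simp) ?_ ?_ ha
      · intro c a h
        rw [map_mul, map_mul]
        refine mul_mem (Subgroup.subset_closure (Or.inl ⟨c, ?_⟩)) h
        rw [mp_uu, mp_uu, hφ, aeval_C]; rfl
      · intro c a h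
        rw [map_mul, map_mul]
        refine mul_mem (Subgroup.subset_closure (Or.inr ⟨c, ?_⟩)) h
        rw [mp_ll, mp_ll, hφ, map_mul, aeval_C, aeval_X]; rfl

end Cfsg.Agent.S5060
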