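import Cfsg.Statements.S5064
import Mathlib
import Cfsg.Agent.H3.Quad4

set_option autoImplicit false
universe u
open Cfsg

namespace Cfsg.Agent.S5064

/-- Let k be a field of characteristic not 2 with k not of order 3, M a finite-dimensional k-vector space and G ≤ GL(M) such that (G, M) is a quadratic pair (M irreducible for G, and G generated by its quadratically acting elements σ whose scalar family 1 + c(σ − 1), c ∈ k, lies in G). Write 𝒬_d for the quadratic elements of G of minimal commutator rank, E(σ) for the subgroup generated by the members of 𝒬_d with the same fixed space and commutator space as σ, and Σ for the set of these subgroups. If σ, τ ∈ 𝒬_d and the subgroup H generated by their two scalar families does not act unipotently on M, then H is isomorphic to SL₂ over a simple algebraic extension k(λ) of k. -/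
theorem result {k : Type u} [Field k] (hk2 : ringChar k ≠ 2) (hk3 : Nat.card k ≠ 3)
    {M : Type u} [AddCommGroup M] [Module k M] [FiniteDimensional k M]
    {G : Subgroup (LinearMap.GeneralLinearGroup k M)} (hG : Cfsg.IsQuadraticPair G)
    {σ τ : LinearMap.GeneralLinearGroup k M} (hσ : σ ∈ Cfsg.minimalQuadraticElements G) (hτ : τ ∈ Cfsg.minimalQuadraticElements G)
    (hH : ¬ Cfsg.IsUnipotentOn (Subgroup.closure (Cfsg.scalarFamily σ ∪ Cfsg.scalarFamily τ))) :
    ∃ (K : Type u) (_ : Field K) (_ : Algebra k K) (lam : K), IsAlgebraic k lam ∧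
      IntermediateField.adjoin k ({lam} : Set K) = ⊤ ∧
      Nonempty (↥(Subgroup.closure (Cfsg.scalarFamily σ ∪ Cfsg.scalarFamily τ)) ≃* Matrix.SpecialLinearGroup (Fin 2) K) := by
  open Cfsg.Agent.H3 in
  open scoped commutatorElement in
  · open Qd Dk Polynomial in
    have hα := mem_min.1 hσ
    have hβ := mem_min.1 hτ
    have s1 : ∀ ρ : (Module.End k M)ˣ, Qm G (ρ.1 - 1) → scalarFamily ρ ⊆ EE G (ρ.1 - 1) := by
      rintro ρ h x ⟨c, e⟩
      exact (mem_EE h.sq).2 (by simpa [e] using (Ee.refl h.fam).smul c)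
    have h : (σ.1 - 1) * (τ.1 - 1) * (σ.1 - 1) ≠ 0 := fun h => hH (un_iff.2 ((nil_un hk2 hk3 hα hβ h).mono
      ((Subgroup.closure_le _).2 (Set.union_subset (fun x hx => Subgroup.mem_sup_left (s1 σ hα hx))
        fun x hx => Subgroup.mem_sup_right (s1 τ hβ hx)))))
    obtain ⟨α, eα⟩ : ∃ α, σ.1 - 1 = α := ⟨_, rfl⟩
    obtain ⟨β, eβ⟩ : ∃ β, τ.1 - 1 = β := ⟨_, rfl⟩
    rw [eα] at h hα
    rw [eβ] at h hβ
    obtain ⟨f, a, b, hf, hX, e, e1, -, -⟩ := split hk2 hk3 hα hβ.sq hβ.fam h
    have c1 := comm_aeval (k := k) (gam_left (β := β) hα.sq)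
    have c2 := comm_aeval (k := k) (gam_right (α := α) hβ.sq)
    have e2 : aeval (α * β + β * α) f * β = 0 := by
      rw [← c2]
      refine (op_inj hk2 hk3 hα hβ h).1 _ ?_
      rw [c2, ← mul_assoc, c1, e1, zero_mul]
    obtain ⟨γ, hγ⟩ : ∃ γ, γ = α * β + β * α := ⟨_, rfl⟩
    rw [← hγ] at e1 e2 c1 c2
    have e3 : aeval γ (f * X) = 0 := by
      rw [map_mul, aeval_X]
      nth_rw 2 [hγ]
      rw [mul_add, ← mul_assoc, ← mul_assoc, e1, e2]; simp
    have b1 : aeval γ (b * X) * α = α := by
      rw [← sub_eq_of_eq_add' e.symm, map_sub, map_mul, sub_mul, mul_assoc, e1]; simp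
    have b2 : aeval γ (b * X) * β = β := by
      rw [← sub_eq_of_eq_add' e.symm, map_sub, map_mul, sub_mul, mul_assoc, e2]; simp
    have := Fact.mk hf
    let κ : AdjoinRoot f → Module.End k M := fun z => aeval γ ((AdjoinRoot.mk_surjective z).choose * (b * X))
    have hκ : ∀ p, κ (AdjoinRoot.mk f p) = aeval γ (p * (b * X)) := fun p => by
      obtain ⟨q, hq⟩ := AdjoinRoot.mk_eq_mk.1 (AdjoinRoot.mk_surjective (AdjoinRoot.mk f p)).choose_spec
      rw [← sub_eq_zero, ← map_sub, ← sub_mul, hq, show f * q * (b * X) = q * b * (f * X) by ring, map_mul,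
        e3, mul_zero]
    have c1' := comm_aeval' (k := k) (gam_left (β := β) hα.sq) b
    have c2' := comm_aeval' (k := k) (gam_right (α := α) hβ.sq) b
    rw [← hγ] at c1' c2'
    have g1 : aeval γ b * (α * (β * α)) = α := by
      rw [map_mul, aeval_X, mul_assoc] at b1
      nth_rw 2 [hγ] at b1
      simpa [add_mul, mul_assoc, hα.sq] using b1
    have g2 : aeval γ b * (β * (α * β)) = β := by
      rw [map_mul, aeval_X, mul_assoc] at b2
      nth_rw 2 [hγ] at b2
      simpa [add_mul, mul_assoc, hβ.sq] using b2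
    have o : Opp α (aeval γ b * β) := ⟨hα.sq, by simp only [mul_assoc, c2', hβ.sq, mul_zero],
      by simp only [mul_assoc, c1', g1], by simp only [mul_assoc, c1', c2', g2]⟩
    obtain ⟨φ, hφ, p1, p2⟩ := o.exists_SL2 (k := k) hα.ne κ (fun z w => by
        obtain ⟨p, rfl⟩ := AdjoinRoot.mk_surjective z
        obtain ⟨q, rfl⟩ := AdjoinRoot.mk_surjective w
        rw [← map_add, hκ, hκ, hκ, add_mul, map_add])
      (fun z w => by
        obtain ⟨p, rfl⟩ := AdjoinRoot.mk_surjective z
        obtain ⟨q, rfl⟩ := AdjoinRoot.mk_surjective w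
        rw [← map_mul, hκ, hκ, hκ, ← map_mul, ← sub_eq_zero, ← map_sub,
          show p * q * (b * X) - p * (b * X) * (q * (b * X)) = p * q * a * b * (f * X) by
            linear_combination (-p * q * b * X) * e, map_mul, e3, mul_zero])
      (by
        rw [← map_one (AdjoinRoot.mk f), hκ, one_mul, map_mul, aeval_X, c1', mul_assoc, ← mul_add, hγ])
      (fun z => c1 _) (fun z => by rw [mul_assoc, c2, ← mul_assoc, ← map_mul, mul_comm b, map_mul, mul_assoc])
    have q1 : ∀ c : k, (φ (uu (AdjoinRoot.mk f (C c)))).1 = 1 + c • (σ.1 - 1) := fun c => by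
      rw [p1, hκ, map_mul, mul_assoc, b1, aeval_C, ← Algebra.smul_def, eα]
    have q2 : ∀ c : k, (φ (ll (AdjoinRoot.mk f (C c * X)))).1 = 1 + c • (τ.1 - 1) := fun c => by
      rw [p2, hκ, ← mul_assoc, ← map_mul, show C c * X * (b * X) * b = C c * (b * X * (b * X)) by ring,
        map_mul, map_mul, mul_assoc, mul_assoc, b2, b2, aeval_C, ← Algebra.smul_def, eβ]
    have hr : φ.range = Subgroup.closure (scalarFamily σ ∪ scalarFamily τ) := by
      refine le_antisymm ?_ ((Subgroup.closure_le _).2 ?_)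
      · rintro _ ⟨y, rfl⟩
        obtain ⟨g, hg, rfl⟩ := Subgroup.mem_map.1 (surj (Ring.two_ne_zero hk2) hk3 hf hX ▸ Subgroup.mem_top y)
        refine HH_induction (p := fun g => φ (red f g) ∈ Subgroup.closure _) (by simp) ?_ ?_ hg
        · intro c g h
          rw [map_mul, map_mul, mp_uu]
          exact mul_mem (Subgroup.subset_closure (Or.inl ⟨c, q1 c⟩)) h
        · intro c g h
          rw [map_mul, map_mul, mp_ll]
          exact mul_mem (Subgroup.subset_closure (Or.inr ⟨c, q2 c⟩)) h
      · rintro x (⟨c, e⟩ | ⟨c, e⟩)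
        exacts [⟨_, Units.ext ((q1 c).trans e.symm)⟩, ⟨_, Units.ext ((q2 c).trans e.symm)⟩]
    refine ⟨AdjoinRoot f, inferInstance, inferInstance, AdjoinRoot.root f,
      AdjoinRoot.isAlgebraic_root hf.ne_zero, ?_, ⟨((MonoidHom.ofInjective hφ).trans (MulEquiv.subgroupCongr hr)).symm⟩⟩
    exact IntermediateField.adjoin_eq_top_of_algebra _ _ AdjoinRoot.adjoinRoot_eq_top

end Cfsg.Agent.S5064
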