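import Cfsg.Statements.S5065
import Mathlib
import Cfsg.Agent.H3.Quad4

set_option autoImplicit false
universe u
open Cfsg

namespace Cfsg.Agent.S5065

/-- Let k be a field of characteristic not 2 with k not of order 3, M a finite-dimensional k-vector space and G ≤ GL(M) such that (G, M) is a quadratic pair (M irreducible for G, and G generated by its quadratically acting elements σ whose scalar family 1 + c(σ − 1), c ∈ k, lies in G). Write 𝒬_d for the quadratic elements of G of minimal commutator rank, E(σ) for the subgroup generated by the members of 𝒬_d with the same fixed space and commutator space as σ, and Σ for the set of these subgroups. For σ, τ ∈ 𝒬_d put A = E(σ), B = E(τ) and X = ⟨A, B⟩. Then either X acts unipotently on M, or A and B are the unipotent subgroups of a special rank one group X; in the latter case X contains exactly one central involution acting as −1 on the commutator space [M, X] and trivially on the fixed space C_M(X), and M is the direct sum of C_M(X) and [M, X]. -/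
theorem result {k : Type u} [Field k] (hk2 : ringChar k ≠ 2) (hk3 : Nat.card k ≠ 3)
    {M : Type u} [AddCommGroup M] [Module k M] [FiniteDimensional k M]
    {G : Subgroup (LinearMap.GeneralLinearGroup k M)} (hG : Cfsg.IsQuadraticPair G)
    {σ τ : LinearMap.GeneralLinearGroup k M} (hσ : σ ∈ Cfsg.minimalQuadraticElements G) (hτ : τ ∈ Cfsg.minimalQuadraticElements G) :
    Cfsg.IsUnipotentOn (Cfsg.sameActionSubgroup G σ ⊔ Cfsg.sameActionSubgroup G τ) ∨
    (Cfsg.IsSpecialRankOnePair (Cfsg.sameActionSubgroup G σ) (Cfsg.sameActionSubgroup G τ) ∧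
      (∃! i : LinearMap.GeneralLinearGroup k M, i ∈ Cfsg.sameActionSubgroup G σ ⊔ Cfsg.sameActionSubgroup G τ ∧ i ≠ 1 ∧ i * i = 1 ∧
        (∀ x ∈ Cfsg.sameActionSubgroup G σ ⊔ Cfsg.sameActionSubgroup G τ, i * x = x * i) ∧
        (∀ m ∈ Cfsg.commutatorSubmodule (Cfsg.sameActionSubgroup G σ ⊔ Cfsg.sameActionSubgroup G τ), (i : M →ₗ[k] M) m = -m) ∧
        (∀ m ∈ Cfsg.fixedSubmodule (Cfsg.sameActionSubgroup G σ ⊔ Cfsg.sameActionSubgroup G τ), (i : M →ₗ[k] M) m = m)) ∧
      IsCompl (Cfsg.fixedSubmodule (Cfsg.sameActionSubgroup G σ ⊔ Cfsg.sameActionSubgroup G τ))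
        (Cfsg.commutatorSubmodule (Cfsg.sameActionSubgroup G σ ⊔ Cfsg.sameActionSubgroup G τ))) := by
  open Cfsg.Agent.H3 in
  open scoped commutatorElement in
  · open Qd in
    have hα := mem_min.1 hσ
    have hβ := mem_min.1 hτ
    rw [same_eq hα, same_eq hβ]
    generalize σ.1 - 1 = α at hα
    generalize τ.1 - 1 = β at hβ
    by_cases h : α * β * α = 0
    · exact Or.inl (un_iff.2 (nil_un hk2 hk3 hα hβ h))
    refine Or.inr ⟨op_special hk2 hk3 hα hβ h, ?_⟩
    obtain ⟨β, hβ, o, e⟩ := op_opp hk2 hk3 hα hβ h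
    rw [← e, o.fixed hα.toQ hβ.toQ, o.comm hα.toQ hβ.toQ]
    have hc : IsCompl (LinearMap.ker (α * β + β * α)) (LinearMap.range (α * β + β * α)) :=
      (LinearMap.IsIdempotentElem.isCompl o.idem).symm
    refine ⟨?_, hc⟩
    obtain ⟨w, hw, -, -, e⟩ := o.exists_w (k := k) (H := EE G α ⊔ EE G β)
      (((Ee.refl hα.fam).in hα.sq).mono le_sup_left) (((Ee.refl hβ.fam).neg.in hβ.sq).mono le_sup_right)
    have f1 : ∀ m ∈ LinearMap.range (α * β + β * α), (w * w).1 m = -m := by
      rintro _ ⟨m, rfl⟩
      rw [e, ← Module.End.mul_apply, sub_mul, mul_assoc, o.idem, two_mul, one_mul, sub_add_cancel_left]; rfl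
    have f2 : ∀ m ∈ LinearMap.ker (α * β + β * α), (w * w).1 m = m := fun m hm => by
      rw [e, LinearMap.sub_apply, Module.End.mul_apply, LinearMap.mem_ker.1 hm]; simp
    refine ⟨w * w, ⟨mul_mem hw hw, fun h1 => hα.ne ?_, Units.ext ?_, fun x hx => Units.ext ?_, f1, f2⟩, ?_⟩
    · rw [h1, Units.val_one, eq_comm, sub_eq_self] at e
      have := congrArg (fun x => (2 : k)⁻¹ • (x * α)) e
      simpa [two_mul, add_mul, mul_assoc, hα.sq, o.e1', ← two_smul k α, smul_smul,
        Ring.two_ne_zero hk2] using this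
    · rw [Units.val_mul, e, Units.val_one]; linear_combination (norm := noncomm_ring) 4 * o.idem
    · obtain ⟨c1, c2⟩ := sup_le_corner o hx
      rw [Units.val_mul (w * w), Units.val_mul x, e]
      linear_combination (norm := noncomm_ring) 2 * c2 - 2 * c1
    · rintro i ⟨-, -, -, -, g1, g2⟩
      refine Units.ext (LinearMap.ext fun m => ?_)
      obtain ⟨a, ha, b, hb, rfl⟩ := Submodule.mem_sup.1 (hc.sup_eq_top ▸ Submodule.mem_top (x := m))
      rw [map_add, map_add, g1 b hb, g2 a ha, f1 b hb, f2 a ha]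

end Cfsg.Agent.S5065
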