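import Cfsg.Statements.S5066
import Mathlib
import Cfsg.Agent.H3.Quad4

set_option autoImplicit false
universe u
open Cfsg

namespace Cfsg.Agent.S5066

/-- Let k be a field of characteristic not 2 with k not of order 3, M a finite-dimensional k-vector space and G ≤ GL(M) such that (G, M) is a quadratic pair (M irreducible for G, and G generated by its quadratically acting elements σ whose scalar family 1 + c(σ − 1), c ∈ k, lies in G). Write 𝒬_d for the quadratic elements of G of minimal commutator rank, E(σ) for the subgroup generated by the members of 𝒬_d with the same fixed space and commutator space as σ, and Σ for the set of these subgroups. Let E, F ∈ Σ generate a subgroup that is nilpotent of class exactly two. Then D = ⁅E, F⁆ belongs to Σ, equals the subgroup generated by the commutators of e with F, and also of E with f, for every non-identity e ∈ E, f ∈ F, and ⟨E, F⟩ lies in U(D), the set of elements g of G normalizing D with (g − 1)M inside the fixed space of D, (g − 1) mapping that fixed space into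 the commutator space of D, and g acting trivially on the commutator space of D. -/
theorem result {k : Type u} [Field k] (hk2 : ringChar k ≠ 2) (hk3 : Nat.card k ≠ 3)
    {M : Type u} [AddCommGroup M] [Module k M] [FiniteDimensional k M]
    {G : Subgroup (LinearMap.GeneralLinearGroup k M)} (hG : Cfsg.IsQuadraticPair G)
    {E F : Subgroup (LinearMap.GeneralLinearGroup k M)} (hE : E ∈ Cfsg.quadraticRootSubgroups G) (hF : F ∈ Cfsg.quadraticRootSubgroups G)
    (h2 : ⁅E ⊔ F, E ⊔ F⁆ ≠ ⊥ ∧ ⁅⁅E ⊔ F, E ⊔ F⁆, E ⊔ F⁆ = ⊥) :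
    ⁅E, F⁆ ∈ Cfsg.quadraticRootSubgroups G ∧
    (∀ e ∈ E, e ≠ 1 → Subgroup.closure ((fun f : LinearMap.GeneralLinearGroup k M => e * f * e⁻¹ * f⁻¹) '' (F : Set (LinearMap.GeneralLinearGroup k M))) = ⁅E, F⁆) ∧
    (∀ f ∈ F, f ≠ 1 → Subgroup.closure ((fun e : LinearMap.GeneralLinearGroup k M => e * f * e⁻¹ * f⁻¹) '' (E : Set (LinearMap.GeneralLinearGroup k M))) = ⁅E, F⁆) ∧
    ((E ⊔ F : Subgroup (LinearMap.GeneralLinearGroup k M)) : Set (LinearMap.GeneralLinearGroup k M)) ⊆ Cfsg.quadraticUnipotentCore G ⁅E, F⁆ := by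
  open Cfsg.Agent.H3 in
  open scoped commutatorElement in
  · open Qd in
    obtain ⟨α, hα, rfl⟩ := mem_roots.1 hE
    obtain ⟨β, hβ, rfl⟩ := mem_roots.1 hF
    have hN := (noFix_of_irr hG.1).noUn
    rcases trich hk2 hk3 hα hβ with h1 | h1 | h1
    · exact absurd ((Subgroup.isNilpotent_iff_lowerCentralSeries _).2 ⟨2, h2.2⟩)
        (H19.RO.not_le_nilpotent (op_ro hk2 hk3 hα hβ h1) le_sup_left le_sup_right)
    · exact absurd (H19.comm_iff.1 (((EE_comm hα.sq).sup_right h1).sup_left
        (h1.symm.sup_right (EE_comm hβ.sq)))) h2.1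
    · have := H19.cc_iff.2 (h1.cc hk2 hk3 hN (mem_roots.2 ⟨_, h1.qm hk2 hk3, rfl⟩))
      exact ⟨this.1, this.2.2.1, this.2.2.2, h1.core hk2 hk3 hN⟩

end Cfsg.Agent.S5066
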