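import Cfsg.Statements.S5067
import Mathlib
import Cfsg.Agent.H3.Dick1

set_option autoImplicit false
open Cfsg

namespace Cfsg.Agent.S5067

section
open Cfsg.Agent.H3
open scoped commutatorElement

theorem aux {P : Type*} [Group P] [Group.IsNilpotent P] (hna : ¬ IsMulCommutative P) {E : Subgroup P}
    (hE : IsMulCommutative E) :
    Group.nilpotencyClass (Subgroup.normalClosure (E : Set P)) < Group.nilpotencyClass P := by
  set N := Subgroup.normalClosure (E : Set P) with hN
  have h1 : N ≤ E ⊔ commutator P := by
    have : (E ⊔ commutator P).Normal := Subgroup.Normal.of_commutator_le _ le_sup_right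
    exact Subgroup.normalClosure_le_normal (fun x hx => Subgroup.mem_sup_left hx)
  let L := (⊤ : Subgroup P).lowerCentralSeries 2
  have h2 : ⁅N, N⁆ ≤ L := by
    let q := QuotientGroup.mk' L
    have c1 : ∀ A : Subgroup P, H19.Comm ((commutator P).map q) (A.map q) := by
      rintro A _ ⟨a, ha, rfl⟩ _ ⟨b, -, rfl⟩
      rw [← commutatorElement_eq_one_iff_mul_comm, ← map_commutatorElement]
      exact (QuotientGroup.eq_one_iff _).2 (Subgroup.commutator_mem_commutator ha (Subgroup.mem_top b))
    have c2 : H19.Comm (E.map q) (E.map q) := by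
      rintro _ ⟨a, ha, rfl⟩ _ ⟨b, hb, rfl⟩
      rw [← map_mul, ← map_mul, H19.comm_self_iff.2 hE a ha b hb]
    have c3 := (c2.sup_right (c1 E).symm).sup_left ((c1 E).sup_right (c1 _))
    rw [← Subgroup.map_sup] at c3
    refine Subgroup.commutator_le.2 fun a ha b hb => (QuotientGroup.eq_one_iff _).1 ?_
    change q _ = 1
    rw [map_commutatorElement, commutatorElement_eq_one_iff_mul_comm]
    exact c3 _ ⟨a, h1 ha, rfl⟩ _ ⟨b, h1 hb, rfl⟩
  have h3 : ∀ i, N.lowerCentralSeries (i + 1) ≤ (⊤ : Subgroup P).lowerCentralSeries (i + 2) := fun i => by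
    induction i with
    | zero => exact h2
    | succ i ih => exact Subgroup.commutator_mono ih le_top
  obtain ⟨c, hc⟩ : ∃ c, Group.nilpotencyClass P = c + 2 := by
    refine ⟨Group.nilpotencyClass P - 2, ?_⟩
    have : ¬ Group.nilpotencyClass P ≤ 1 := fun h => hna (by
      rw [← Subgroup.lowerCentralSeries_eq_bot_iff_nilpotencyClass_le,
        Subgroup.top_lowerCentralSeries_one] at h
      exact ⟨⟨fun a b => commutatorElement_eq_one_iff_mul_comm.1 (Subgroup.mem_bot.1
        (h ▸ Subgroup.commutator_mem_commutator (Subgroup.mem_top a) (Subgroup.mem_top b)))⟩⟩)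
    omega
  rw [hc, Nat.lt_succ_iff, ← Subgroup.lowerCentralSeries_eq_bot_iff_nilpotencyClass_le,
    ← Subgroup.map_subtype_inj, Subgroup.map_bot, Subgroup.top_subtype_lowerCentralSeries, eq_bot_iff,
    ← Subgroup.lowerCentralSeries_nilpotencyClass, hc]
  exact h3 c

end

/-- Let P be a non-abelian nilpotent p-group (every element of p-power order; P possibly infinite) generated by two abelian subgroups E and F. Then the normal closure of E in P, and likewise that of F, has nilpotency class strictly smaller than that of P. -/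
theorem result {P : Type*} [Group P] {p : ℕ} [Fact p.Prime] (hP : IsPGroup p P) [Group.IsNilpotent P]
    (hna : ¬ IsMulCommutative P) {E F : Subgroup P} (hE : IsMulCommutative ↥E) (hF : IsMulCommutative ↥F) (hgen : E ⊔ F = ⊤) :
    Group.nilpotencyClass ↥(Subgroup.normalClosure (E : Set P)) < Group.nilpotencyClass P ∧
    Group.nilpotencyClass ↥(Subgroup.normalClosure (F : Set P)) < Group.nilpotencyClass P := by
  open Cfsg.Agent.H3 in
  open scoped commutatorElement in
  · exact ⟨aux hna hE, aux hna hF⟩

end Cfsg.Agent.S5067
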