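import Cfsg.Statements.S5069
import Mathlib
import Cfsg.Agent.H3.Quad6

set_option autoImplicit false
universe u
open Cfsg

namespace Cfsg.Agent.S5069

/-- Let k be a field of characteristic not 2 with k not of order 3, M a finite-dimensional k-vector space and G ≤ GL(M) such that (G, M) is a quadratic pair (M irreducible for G, and G generated by its quadratically acting elements σ whose scalar family 1 + c(σ − 1), c ∈ k, lies in G). Write 𝒬_d for the quadratic elements of G of minimal commutator rank, E(σ) for the subgroup generated by the members of 𝒬_d with the same fixed space and commutator space as σ, and Σ for the set of these subgroups. Then Σ is a disjoint union of finitely many parts Σ₁, …, Σ_r such that the subgroups G_i generated by the Σ_i commute pairwise, each G_i is quasisimple, and inside G_i the members of Σ_i form a class of abstract root subgroups in which every rank one pair A, B contains subgroups A₀ ≤ A,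 B₀ ≤ B generating an image of SL₂(k₁) with central kernel on unitriangular subgroups for some field k₁ with at least four elements. -/
theorem result {k : Type u} [Field k] (hk2 : ringChar k ≠ 2) (hk3 : Nat.card k ≠ 3)
    {M : Type u} [AddCommGroup M] [Module k M] [FiniteDimensional k M]
    {G : Subgroup (LinearMap.GeneralLinearGroup k M)} (hG : Cfsg.IsQuadraticPair G) :
    ∃ (r : ℕ) (part : Fin r → Set (Subgroup (LinearMap.GeneralLinearGroup k M))),
      (⋃ i, part i) = Cfsg.quadraticRootSubgroups G ∧ (∀ i j, i ≠ j → Disjoint (part i) (part j)) ∧ (∀ i, (part i).Nonempty) ∧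
      (∀ i j, i ≠ j → ⁅(⨆ A ∈ part i, A), (⨆ A ∈ part j, A)⁆ = ⊥) ∧
      (∀ i, Cfsg.IsQuasisimple ↥(⨆ A ∈ part i, A) ∧
        Cfsg.IsRootSubgroupClass ((fun A : Subgroup (LinearMap.GeneralLinearGroup k M) => A.subgroupOf (⨆ B ∈ part i, B)) '' (part i)) ∧
        ∀ A ∈ part i, ∀ B ∈ Cfsg.rankOnePartners (part i) A, ∃ A₀ B₀ : Subgroup (LinearMap.GeneralLinearGroup k M), A₀ ≤ A ∧ B₀ ≤ B ∧
          ∃ (k₁ : Type u) (_ : Field k₁), 3 < ENat.card k₁ ∧ Cfsg.IsPSL2PairOver k₁ A₀ B₀) := by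
  open Cfsg.Agent.H3 in
  open scoped commutatorElement in
  · open Qd in
    have hN := (noFix_of_irr hG.1).noUn
    obtain ⟨r, a, b1, b2, b3⟩ := exists_reps hk2 hk3 hN
    refine ⟨r, fun i => Cp G (a i), Set.Subset.antisymm (Set.iUnion_subset fun i _ h => Cp_sub h) fun A hA => ?_,
      fun i j h => Set.disjoint_left.2 ?_, fun i => ⟨_, a i, b1 i, .refl, rfl⟩,
      fun i j h => H19.comm_iff.1 (GG_comm hk2 hk3 hN (b2 i j h)), fun i => ⟨GG_qs hk2 hk3 hN (b1 i),
        ⟨rootSet hk2 hk3 hN (fun _ => Cp_sub) (fun A hA g hg => cj_Cp hk2 hk3 hN hA (GG_le_G0 hg))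
          fun α β h hα => ⟨_, h.qm hk2 hk3, ((mem_Cp hk2 hk3 hN h.qa).1 hα).trans (h.cn hk2 hk3 hN), rfl⟩,
          ⟨_, _, ⟨a i, b1 i, .refl, rfl⟩, rfl⟩, ?_⟩, ?_⟩⟩
    · obtain ⟨β, hβ, rfl⟩ := mem_roots.1 hA
      obtain ⟨i, hi⟩ := b3 β hβ
      exact Set.mem_iUnion.2 ⟨i, β, hβ, hi, rfl⟩
    · rintro _ ⟨β, hβ, h1, rfl⟩ h4
      exact b2 i j h (h1.trans (Cn.symm hk2 hk3 ((mem_Cp hk2 hk3 hN hβ).1 h4)))
    · rintro _ ⟨_, ⟨β, hβ, h1, rfl⟩, rfl⟩ _ ⟨_, ⟨γ, hγ, h4, rfl⟩, rfl⟩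
      obtain ⟨g, hg, e⟩ := Cn.ex_cj hk2 hk3 ((Cn.symm hk2 hk3 h1).trans h4)
      rw [GG, ← Cp_eq hk2 hk3 h1] at hg
      exact ⟨⟨g, hg⟩, by rw [H19.conjBy_eq, H19.cj_subgroupOf, e]⟩
    · rintro _ ⟨α, hα, -, rfl⟩ _ ⟨⟨β, hβ, -, rfl⟩, h⟩
      obtain ⟨A₀, B₀, a, b, c⟩ := adj_psl2 hk2 hk3 ⟨hα, hβ, (ro_iff hk2 hk3 hα hβ).1 h⟩
      exact ⟨A₀, B₀, a, b, k, inferInstance, card_gt hk2 hk3, c⟩

end Cfsg.Agent.S5069
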