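import Cfsg.Statements.S5073
import Mathlib
import Cfsg.Agent.H3.Quad4

set_option autoImplicit false
universe u
open Cfsg

namespace Cfsg.Agent.S5073

/-- Let k be a field of characteristic not 2 with k not of order 3, M a finite-dimensional k-vector space and G ≤ GL(M) such that (G, M) is a quadratic pair (M irreducible for G, and G generated by its quadratically acting elements σ whose scalar family 1 + c(σ − 1), c ∈ k, lies in G). Write 𝒬_d for the quadratic elements of G of minimal commutator rank, E(σ) for the subgroup generated by the members of 𝒬_d with the same fixed space and commutator space as σ, and Σ for the set of these subgroups. Let E, F ∈ Σ. If some non-identity element of E commutes with some non-identity element of F, or some non-identity element of E normalizes F, then E and F commute elementwise. -/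
theorem result {k : Type u} [Field k] (hk2 : ringChar k ≠ 2) (hk3 : Nat.card k ≠ 3)
    {M : Type u} [AddCommGroup M] [Module k M] [FiniteDimensional k M]
    {G : Subgroup (LinearMap.GeneralLinearGroup k M)} (hG : Cfsg.IsQuadraticPair G)
    {E F : Subgroup (LinearMap.GeneralLinearGroup k M)} (hE : E ∈ Cfsg.quadraticRootSubgroups G) (hF : F ∈ Cfsg.quadraticRootSubgroups G)
    (h : (∃ e ∈ E, e ≠ 1 ∧ ∃ f ∈ F, f ≠ 1 ∧ e * f = f * e) ∨ E ⊓ Subgroup.normalizer (F : Set (LinearMap.GeneralLinearGroup k M)) ≠ ⊥) :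
    ⁅E, F⁆ = ⊥ := by
  open Cfsg.Agent.H3 in
  open scoped commutatorElement in
  · open Qd in
    obtain ⟨α, hα, rfl⟩ := mem_roots.1 hE
    obtain ⟨β, hβ, rfl⟩ := mem_roots.1 hF
    have h' : (∃ e ∈ EE G α, e ≠ 1 ∧ ∃ f ∈ EE G β, f ≠ 1 ∧ e * f = f * e) ∨
        ∃ e ∈ EE G α, e ≠ 1 ∧ H19.cj e (EE G β) = EE G β := h.imp id fun h => by
      obtain ⟨e, he, e1⟩ := H19.exists_ne_one_of_ne_bot h
      exact ⟨e, he.1, e1, H19.cj_eq_self_iff.2 he.2⟩
    rcases trich hk2 hk3 hα hβ with h1 | h1 | h1
    · have r := op_ro hk2 hk3 hα hβ h1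
      rcases h' with ⟨e, he, e1, f, hf, f1, h⟩ | ⟨e, he, e1, h⟩
      exacts [absurd h (H19.RO.not_commute r he e1 hf f1), absurd (H19.RO.eq_one r he h) e1]
    · exact H19.comm_iff.1 h1
    · rcases h' with ⟨e, he, e1, f, hf, f1, h⟩ | ⟨e, he, e1, h⟩
      · exact absurd (commutatorElement_eq_one_iff_mul_comm.2 h) (h1.comm_ne hk2 hk3 he e1 hf f1)
      · have hx := (mem_EE hα.sq).1 he
        have hf := un_mem_EE (Ee.refl hβ.fam) hβ.sq
        have h2 := h1.of_ee hk2 hk3 hx (fun e => e1 (Units.ext (sub_eq_zero.1 e))) (Ee.refl hβ.fam) hβ.ne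
        have h3 : ⁅e, un β hβ.sq⁆ ∈ EE G β := mul_mem (h ▸ H19.conj_mem_cj e hf) (inv_mem hf)
        rw [mem_EE hβ.sq, nil_comm_val hk2 hk3 hα hβ h1.nil he hf, add_sub_cancel_left, un_val,
          add_sub_cancel_left] at h3
        have u := h2.mem_UU hk2 hk3 (Ee.refl h2.qa.fam)
        exact absurd (by rw [(h3.symm hβ h2.ne).left u.2.1, (h3.symm hβ h2.ne).right u.1, sub_zero]) h2.ne

end Cfsg.Agent.S5073
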