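import Cfsg.Statements.S5087
import Mathlib
import Cfsg.Agent.H17.Normal

set_option autoImplicit false
open Cfsg

namespace Cfsg.Agent.S5087

open Cfsg.Agent.H17 Cfsg.FusionSystem
open scoped commutatorElement


/-- In a saturated fusion system over a finite p-group S, a subgroup Q is normal in the system if and only if every subgroup P that equals S or is essential contains Q and every element of Aut_F(P) maps Q onto itself. -/
theorem result {Ω : Type*} [Group Ω] {S : Subgroup Ω} [Finite S] (p : ℕ) [Fact p.Prime] (hS : IsPGroup p S) (F : Cfsg.FusionSystem S) (hF : F.IsSaturated p) (Q : Subgroup Ω) : F.IsNormal Q ↔ ∀ P : Subgroup Ω, (P = S ∨ F.IsEssential p P) → (Q ≤ P ∧ ∀ α ∈ F.autGroup P, (Q.subgroupOf P).map α.toMonoidHom = Q.subgroupOf P) := by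
  constructor
  · intro h P hP
    have hQP := normal_le_cr hS h (ess_centric hP) (ess_radical hS hF hP)
    refine ⟨hQP, fun α hα => ?_⟩
    obtain ⟨σ, hσ⟩ := exists_perm_of_aut α
    rw [← img_eq_map_aut hσ hQP]
    exact wc_img_eq (normal_wc h) ((mem_autGroup (ess_le hP) hσ).1 hα) hQP
  · intro h
    refine normal_of_ess hS hF fun R hR => ⟨(h R hR).1, fun σ hσ => ?_⟩
    obtain ⟨α, hα, hασ⟩ := hσ
    exact (img_eq_map_aut hασ (h R hR).1).2 ((h R hR).2 α hα)

end Cfsg.Agent.S5087
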