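import Cfsg.Statements.S5088
import Mathlib
import Cfsg.Agent.H17.Chain

set_option autoImplicit false
open Cfsg

namespace Cfsg.Agent.S5088

open Cfsg.Agent.H17 Cfsg.FusionSystem
open scoped commutatorElement


/-- In a saturated fusion system over a finite p-group, a subgroup Q is normal in the system if and only if there is a chain of subgroups 1 = Q₀ ≤ Q₁ ≤ ⋯ ≤ Qₙ = Q such that each Qᵢ with i ≥ 1 is strongly closed in the system and [Q, Qᵢ] ≤ Qᵢ₋₁. -/
theorem result {Ω : Type*} [Group Ω] {S : Subgroup Ω} [Finite S] (p : ℕ) [Fact p.Prime] (hS : IsPGroup p S) (F : Cfsg.FusionSystem S) (hF : F.IsSaturated p) (Q : Subgroup Ω) : F.IsNormal Q ↔ ∃ (n : ℕ) (Qs : Fin (n + 1) → Subgroup Ω), Qs 0 = ⊥ ∧ Qs (Fin.last n) = Q ∧ Monotone Qs ∧ ∀ i : Fin n, F.StronglyClosed (Qs i.succ) ∧ ⁅Q, Qs i.succ⁆ ≤ Qs (Fin.castSucc i) := by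
  constructor
  · intro h
    haveI := finite_of_le h.1
    obtain ⟨n, hn⟩ := exists_ucs_eq (hS.to_le h.1)
    refine ⟨n, fun i => ucs Q i, ucs_zero, hn, fun i j hij => ucs_mono hij, fun i =>
      ⟨normal_sc (normal_of_char h ucs_le ucs_char), ?_⟩⟩
    rw [Subgroup.commutator_comm]
    exact commutator_ucs_le
  · rintro ⟨n, Qs, h0, hn, -, h⟩
    have hsc : ∀ i, F.StronglyClosed (Qs i) := fun i => by
      induction i using Fin.cases with
      | zero => rw [h0]; exact sc_bot F
      | succ i => exact (h i).1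
    refine normal_of_chain hS hF (hn ▸ hsc _) (fun i => if hi : i < n + 1 then Qs ⟨i, hi⟩ else Q) n
      (by simpa using h0) (by rw [dif_pos n.lt_succ_self]; exact hn.ge) ?_ ?_
    · intro i hi
      rw [dif_pos (Nat.lt_succ_of_le hi)]
      exact hsc _
    · intro i hi x hx y hy
      rw [dif_pos (Nat.succ_lt_succ hi)] at hy
      rw [dif_pos (Nat.lt_succ_of_lt hi)]
      have := Subgroup.inv_mem _ ((h ⟨i, hi⟩).2 (Subgroup.commutator_mem_commutator hx (Subgroup.inv_mem _ hy)))
      simpa [commutatorElement_def, mul_assoc] using this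

end Cfsg.Agent.S5088
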