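import Cfsg.Statements.S5089
import Mathlib
import Cfsg.Agent.H17.Chain

set_option autoImplicit false
open Cfsg

namespace Cfsg.Agent.S5089

open Cfsg.Agent.H17 Cfsg.FusionSystem
open scoped commutatorElement


/-- A saturated fusion system over a finite p-group has a nontrivial subgroup that is normal in the system (O_p(F) ≠ 1) if and only if some nontrivial abelian subgroup is strongly closed in the system. -/
theorem result {Ω : Type*} [Group Ω] {S : Subgroup Ω} [Finite S] (p : ℕ) [Fact p.Prime] (hS : IsPGroup p S) (F : Cfsg.FusionSystem S) (hF : F.IsSaturated p) : F.core ≠ ⊥ ↔ ∃ Q : Subgroup Ω, Q ≠ ⊥ ∧ IsMulCommutative Q ∧ F.StronglyClosed Q := by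
  constructor
  · intro h
    haveI := finite_of_le (core_le F)
    refine ⟨ucs F.core 1, ?_, ⟨⟨fun x y => Subtype.ext ?_⟩⟩,
      normal_sc (normal_of_char (normal_core F) ucs_le ucs_char)⟩
    · rw [ucs_one]
      exact centralizerIn_self_ne_bot (hS.to_le (core_le F)) h
    · exact (mem_ucs_one.1 y.2).2 x (ucs_le x.2)
  · rintro ⟨Q, h0, hc, hQ⟩ h
    refine h0 (eq_bot_iff.2 (h ▸ le_core (normal_of_sc_comm hS hF hQ fun x hx y hy => ?_)))
    exact congrArg Subtype.val (hc.is_comm.comm (⟨x, hx⟩ : Q) ⟨y, hy⟩)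

end Cfsg.Agent.S5089
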