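import Cfsg.Statements.S5093
import Mathlib
import Cfsg.Agent.H17.Foc

set_option autoImplicit false
open Cfsg

namespace Cfsg.Agent.S5093

open Cfsg.Agent.H17
open Cfsg.FusionSystem hiding inv_mem
open scoped commutatorElement


/-- Hyperfocal subgroup Theorem: for a finite group G with Sylow p-subgroup S, the hyperfocal subgroup of the fusion system of G on S equals S ∩ O^p(G), where O^p(G) is the subgroup generated by the elements of order prime to p. -/
theorem result {G : Type*} [Group G] [Finite G] (p : ℕ) [Fact p.Prime] (S : Sylow p G) : (Cfsg.groupFusionSystem (S : Subgroup G)).hyperfocalSubgroup p = (S : Subgroup G) ⊓ Cfsg.pResidual p G := by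
  refine le_antisymm (hyp_le_of_ppr fun P hP σ hσ h x hx => ?_)
    (group_hyp S.isPGroup' S.not_dvd_index fun Q hQ _ g hg hN x hx => ?_)
  · refine ⟨(S : Subgroup G).mul_mem ((S : Subgroup G).inv_mem (hP hx)) ((AutF.mor hP hσ).mem hx), ?_⟩
    obtain ⟨-, -, g, hg⟩ := mor_group.1 (AutF.mor hP hσ)
    obtain ⟨k, hk⟩ := H4.isPGroup_quotient_pResidual p (QuotientGroup.mk g : G ⧸ pResidual p G)
    rw [← QuotientGroup.mk_pow, QuotientGroup.eq_one_iff] at hk
    refine (h.mem_of_pow (W := TrivMod P (pResidual p G)) Fix_le_TrivMod (k := k)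
      ⟨pow_mem (AutF_le_Stab hσ) _, fun y hy => ?_⟩).2 x hx
    obtain ⟨α, -, hα⟩ := AutF_le_Stab hσ
    rw [← pow_apply_of_aut hα _ ⟨y, hy⟩,
      pow_apply_of_aut (σ := cj g) (fun x => (hα x).trans (hg x x.2)) _ ⟨y, hy⟩, ← map_pow, cj_apply]
    have := (pResidual p G).mul_mem ((H4.pResidual_normal p).conj_mem' _ hk y) ((pResidual p G).inv_mem hk)
    simpa [mul_assoc] using this
  · refine mem_hyp_of_ppr (σ := cj g) hQ ?_ ⟨_, hg, by rw [← map_pow, pow_orderOf_eq_one]; simp⟩ hx
    exact (mor_group.2 ⟨hQ, fun y hy => hQ (conj_mem_of_mem_normalizer hN hy), g, fun _ _ => rfl⟩).mem_AutF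
      (mem_normalizer_iff_img.1 hN)

end Cfsg.Agent.S5093
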