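import Cfsg.Statements.S5094
import Mathlib
import Cfsg.Agent.H8.ZStar2

set_option autoImplicit false
open Cfsg

namespace Cfsg.Agent.S5094

/-- Glauberman's Z*-Theorem in fusion language: for a finite group G with Sylow 2-subgroup S, the centre of the fusion system of G on S is the set of elements of S whose image in G/O(G) is central, O(G) being the largest normal subgroup of odd order. -/
theorem result {G : Type*} [Group G] [Finite G] (S : Sylow 2 G) : (Cfsg.groupFusionSystem (S : Subgroup G)).center = (S : Subgroup G) ⊓ (Subgroup.center (G ⧸ Cfsg.oddCore G)).comap (QuotientGroup.mk' (Cfsg.oddCore G)) := by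
  refine le_antisymm (sSup_le fun Q hQ x hx => ⟨hQ.1 hx, (H8.mem_comap_center_iff _).2
    (H8.zstar_elt S (hQ.1 hx) fun g hg => ?_)⟩) (le_sSup ⟨inf_le_left, ?_⟩)
  · obtain ⟨ψ, -, h1, h2⟩ := hQ.2 (Subgroup.zpowers x) (Cfsg.conjHom _ g)
      ⟨Subgroup.zpowers_le.2 (hQ.1 hx), by
        rintro ⟨_, k, rfl⟩
        change g * x ^ k * g⁻¹ ∈ _
        rw [← conj_zpow]
        exact zpow_mem hg k, g, fun _ => rfl⟩
    exact (h1 ⟨x, Subgroup.mem_zpowers x⟩).symm.trans (h2 ⟨x, hx⟩)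
  · rintro P φ ⟨hP, hφ, g, hg⟩
    set Z := (S : Subgroup G) ⊓ (Subgroup.center (G ⧸ Cfsg.oddCore G)).comap
      (QuotientGroup.mk' (Cfsg.oddCore G))
    have hle : P ⊔ Z ≤ S := sup_le hP inf_le_left
    have h1 : ∀ a : P, g * a * g⁻¹ * (φ a)⁻¹ ∈ Cfsg.oddCore G := fun a => by simp [hg]
    have h2 : ∀ a ∈ Z, g * a * g⁻¹ * a⁻¹ ∈ Cfsg.oddCore G := fun a ha =>
      (H8.mem_comap_center_iff _).1 ha.2 g
    have h3 : P ⊔ Z ≤ ((S : Subgroup G) ⊔ Cfsg.oddCore G).comap (MulAut.conj g).toMonoidHom :=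
      sup_le (fun a ha => Subgroup.mem_sup_left (show g * a * g⁻¹ ∈ _ from hg ⟨a, ha⟩ ▸ hφ ⟨a, ha⟩)) fun a ha => by
        rw [sup_comm]
        simpa using Subgroup.mul_mem_sup (h2 a ha) ha.1
    have h4 : ∀ a ∈ P ⊔ Z, ∃ s ∈ (S : Subgroup G), g * a * g⁻¹ * s⁻¹ ∈ Cfsg.oddCore G := by
      intro a ha
      have := h3 ha
      rw [Subgroup.mem_comap, sup_comm, ← SetLike.mem_coe, Subgroup.normal_mul] at this
      obtain ⟨o, ho, s, hs, e⟩ := this
      exact ⟨s, hs, by rwa [show g * a * g⁻¹ = o * s from e.symm, mul_inv_cancel_right]⟩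
    obtain ⟨o, -, h5⟩ := H8.exists_conj_eq_of_mod S _ H2.pPrimeCore_coprime (S.2.to_le hle) g h4
    refine ⟨Cfsg.conjHom _ (o * g), ⟨hle, fun a => ?_, o * g, fun _ => rfl⟩,
      fun a => h5 a (Subgroup.mem_sup_left a.2) _ (hφ a) (h1 a),
      fun a => h5 a (Subgroup.mem_sup_right a.2) _ a.2.1 (h2 a a.2)⟩
    obtain ⟨s, hs, e⟩ := h4 a a.2
    exact show o * g * a * (o * g)⁻¹ ∈ _ from (h5 a a.2 s hs e).symm ▸ hs

end Cfsg.Agent.S5094
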