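import Cfsg.Statements.S5097
import Mathlib
import Cfsg.Agent.H17.KNorm

set_option autoImplicit false
open Cfsg

namespace Cfsg.Agent.S5097

open Cfsg.Agent.H17 Cfsg.FusionSystem
open scoped commutatorElement


/-- For any fusion system over a subgroup S and any Q ≤ S, the maps of the centralizer system C_F(Q) — those maps between subgroups of C_S(Q) that extend to the subgroup generated with Q fixing Q elementwise — form a fusion system over C_S(Q). -/
theorem result {Ω : Type*} [Group Ω] {S : Subgroup Ω} (F : Cfsg.FusionSystem S) (Q : Subgroup Ω) (hQ : Q ≤ S) : ∃ E : Cfsg.FusionSystem (Cfsg.FusionSystem.centralizerIn S Q), F.IsCentralizerSystem Q E := by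
  obtain ⟨E, hE⟩ := exists_centralizerSystem F hQ rfl
  exact ⟨E, centralizerSystem_iff.2 hE⟩

end Cfsg.Agent.S5097
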