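import Cfsg.Statements.S5105
import Mathlib
import Cfsg.Agent.H18.Realized
import Cfsg.Agent.H18.Average

set_option autoImplicit false
open Cfsg

namespace Cfsg.Agent.S5105

/-- Model Theorem, rigidity: if G is a model of a constrained fusion system over a finite p-group S (through ι : S → G), then every automorphism of G fixing ι(S) elementwise is conjugation by ι(z) for some z in the centre of S. -/
theorem result {Ω : Type*} [Group Ω] {S : Subgroup Ω} [Finite S] (p : ℕ) [Fact p.Prime] (hS : IsPGroup p S) (F : Cfsg.FusionSystem S) (hF : F.IsConstrained p) {G : Type*} [Group G] (ι : S →* G) (hG : F.IsModel p G ι) (ψ : G ≃* G) (hψ : ∀ x : S, ψ (ι x) = ι x) : ∃ z : S, z ∈ Subgroup.center S ∧ ∀ g : G, ψ g = ι z * g * (ι z)⁻¹ := by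
  have := hG.1
  have hT := H18.model_sylIn hG
  have hR := H18.pCore_le_of_sylIn hT
  have hfix : ∀ t ∈ ι.range, ψ t = t := by
    rintro _ ⟨x, rfl⟩; exact hψ x
  obtain ⟨T, hT'⟩ := hG.2.2.1
  obtain ⟨z, hz, h⟩ := H18.exists_conj_of_fix (Subgroup.centralizer (pCore p G : Set G)) ι.range
    (fun a ha b hb => (Subgroup.mem_centralizer_iff.1 hb a (hG.2.2.2 ha)))
    (by
      obtain ⟨n, hn⟩ := ((H17.isPGroup_pCore p G).to_le hG.2.2.2).exists_card_eq
      rw [hn, ← hT']
      exact Nat.Coprime.pow_left n ((Nat.Prime.coprime_iff_not_dvd Fact.out).2 T.not_dvd_index))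
    ψ.toMonoidHom (fun g => by
      have h1 := H17.inv_mul_mem_centralizer (P := pCore p G) (a := ψ g) (b := g) fun q hq => by
        rw [← hfix _ (hR ((pCore_normal p G).conj_mem q hq g)), map_mul, map_mul, map_inv, hfix q (hR hq)]
      have h2 := (Subgroup.normal_centralizer (H := pCore p G)).conj_mem _ h1 g
      simpa [mul_assoc] using h2) hfix
  obtain ⟨x, rfl⟩ := hR (hG.2.2.2 hz)
  refine ⟨x, Subgroup.mem_center_iff.2 fun y => hG.2.1.1 ?_, h⟩
  have := h (ι y)
  rw [MulEquiv.coe_toMonoidHom, hψ, eq_mul_inv_iff_mul_eq] at this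
  rw [map_mul, map_mul, this]

end Cfsg.Agent.S5105
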