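import Cfsg.Statements.S5106
import Mathlib
import Cfsg.Agent.H17.Chain

set_option autoImplicit false
open Cfsg

namespace Cfsg.Agent.S5106

open Cfsg.Agent.H17 Cfsg.FusionSystem
open scoped commutatorElement


/-- In a saturated fusion system over a finite p-group S, a subgroup R ≤ S is normal in the system if and only if every map of the system whose source is a subgroup of R is the restriction of an element of Aut_F(R). -/
theorem result {Ω : Type*} [Group Ω] {S : Subgroup Ω} [Finite S] (p : ℕ) [Fact p.Prime] (hS : IsPGroup p S) (F : Cfsg.FusionSystem S) (hF : F.IsSaturated p) (R : Subgroup Ω) (hRS : R ≤ S) : F.IsNormal R ↔ ∀ (P : Subgroup Ω) (hPR : P ≤ R) (φ : P →* Ω), φ ∈ F.Hom P → ∃ α ∈ F.autGroup R, ∀ x : P, ((α (Subgroup.inclusion hPR x) : R) : Ω) = φ x := by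
  constructor
  · intro h P hPR φ hφ
    obtain ⟨g, hg, h1, h2⟩ := (normal_iff.1 h).2 P _ (mor_extF hφ)
    obtain ⟨α, hα, h3⟩ := (hg.mono le_sup_right).exists_aut h2
    exact ⟨α, hα, fun x => by rw [h3, ← extF_coe φ x, ← h1 x x.2]; rfl⟩
  · intro h
    refine normal_of_ext hS hF hRS fun P f hP hf => ?_
    obtain ⟨α, hα, h1⟩ := h P hP _ hf.toHom_mem
    obtain ⟨σ, hσ⟩ := exists_perm_of_aut α
    exact ⟨σ, (mem_autGroup hRS hσ).1 hα, img_of_aut hσ, fun x hx =>
      (hσ ⟨x, hP hx⟩).symm.trans (h1 ⟨x, hx⟩)⟩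

end Cfsg.Agent.S5106
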