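import Cfsg.Statements.S5107
import Mathlib
import Cfsg.Agent.H18.Solv

set_option autoImplicit false
open Cfsg

namespace Cfsg.Agent.S5107

open Cfsg.FusionSystem Cfsg.Agent.H17 Cfsg.Agent.H18

/-- If a Sylow p-subgroup S of a finite group G has nilpotency class at most two and its centre is strongly closed in S with respect to G, then every map of the fusion system of G on S is conjugation by an element of N_G(S), and S is the largest subgroup normal in that fusion system. -/
theorem result {G : Type*} [Group G] [Finite G] (p : ℕ) [Fact p.Prime] (S : Sylow p G) (hcl : ⁅(S : Subgroup G), (S : Subgroup G)⁆ ≤ (S : Subgroup G) ⊓ Subgroup.centralizer ((S : Subgroup G) : Set G)) (hZ : Cfsg.IsStronglyClosed ((S : Subgroup G) ⊓ Subgroup.centralizer ((S : Subgroup G) : Set G)) (S : Subgroup G)) : (∀ (P : Subgroup G) (φ : P →* G), φ ∈ (Cfsg.groupFusionSystem (S : Subgroup G)).Hom P → ∃ g ∈ Subgroup.normalizer ((S : Subgroup G) : Set G), ∀ x : P, φ x = g * (x : G) * g⁻¹) ∧ (Cfsg.groupFusionSystem (S : Subgroup G)).core = S := by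
  have hF := groupFusionSystem_saturated S
  have h1 : (groupFusionSystem (S : Subgroup G)).StronglyClosed
      ((S : Subgroup G) ⊓ Subgroup.centralizer ((S : Subgroup G) : Set G)) := by
    refine stronglyClosed_iff.2 ⟨hZ.1, fun R f hf x hx h => ?_⟩
    obtain ⟨-, h2, g, hg⟩ := mor_group.1 hf
    rw [hg x hx]
    exact hZ.2 x h g (hg x hx ▸ h2 x hx)
  have h2 : (groupFusionSystem (S : Subgroup G)).IsNormal S := by
    refine normal_of_chain S.isPGroup' hF (sc_top _) (fun i => if i = 0 then ⊥ else if i = 1 then
      (S : Subgroup G) ⊓ Subgroup.centralizer ((S : Subgroup G) : Set G) else S) 2 rfl le_rfl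
      (fun i hi => ?_) fun i hi x hx y hy => ?_
    · interval_cases i
      · exact sc_bot _
      · exact h1
      · exact sc_top _
    · interval_cases i
      · have := hy.2 x hx
        simp [this]
      · refine hcl ?_
        have := Subgroup.commutator_mem_commutator (Subgroup.inv_mem _ hy) hx
        rwa [commutatorElement_def, inv_inv, mul_assoc, mul_assoc, ← mul_assoc x] at this
  refine ⟨fun P φ hφ => ?_, le_antisymm (core_le _) (le_core h2)⟩
  obtain ⟨f, h3, h4, h5⟩ := (normal_iff.1 h2).2 P _ (mor_extF hφ)
  obtain ⟨-, -, g, hg⟩ := mor_group.1 h3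
  refine ⟨g, mem_normalizer_iff_img.2 ((img_congr fun x hx => ?_).trans h5), fun x => ?_⟩
  · exact (hg x (le_sup_right (a := P) hx)).symm
  · rw [← hg x (le_sup_left (a := P) x.2), h4 x x.2, extF_coe]

end Cfsg.Agent.S5107
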