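import Cfsg.Statements.S5110
import Mathlib
import Cfsg.Agent.H17.HSat

set_option autoImplicit false
open Cfsg

namespace Cfsg.Agent.S5110

open Cfsg.Agent.H17
open Cfsg.FusionSystem hiding inv_mem
open scoped commutatorElement


/-- Saturation criterion: let F be a fusion system over a finite p-group S and H a family of subgroups of S closed under conjugacy in F, such that every conjugacy class inside H contains a fully automized receptive member, F is the smallest fusion system over S containing all its maps with source in H, and every centric subgroup outside H is conjugate in F to some P for which Aut_S(P) ∩ O_p(Aut_F(P)) is not contained in Inn(P). Then F is saturated. -/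
theorem result {Ω : Type*} [Group Ω] {S : Subgroup Ω} [Finite S] (p : ℕ) [Fact p.Prime] (hS : IsPGroup p S) (F : Cfsg.FusionSystem S) (ℋ : Set (Subgroup Ω)) (hℋS : ∀ P ∈ ℋ, P ≤ S) (hℋconj : ∀ P ∈ ℋ, ∀ Q, F.IsConj P Q → Q ∈ ℋ) (hsat : ∀ P ∈ ℋ, ∃ Q, F.IsConj P Q ∧ F.IsFullyAutomized p Q ∧ F.IsReceptive Q) (hgen : ∀ E : Cfsg.FusionSystem S, (∀ P ∈ ℋ, F.Hom P ⊆ E.Hom P) → F ≤ E) (hstar : ∀ P : Subgroup Ω, F.IsCentric P → P ∉ ℋ → ∃ Q, F.IsConj P Q ∧ ¬ (Cfsg.autInducedBy S Q ⊓ (Cfsg.pCore p ↥(F.autGroup Q)).map (F.autGroup Q).subtype ≤ Cfsg.Inn Q)) : F.IsSaturated p := by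
  have key : ∀ Q, ¬ (Cfsg.autInducedBy S Q ⊓ (Cfsg.pCore p ↥(F.autGroup Q)).map (F.autGroup Q).subtype ≤ Cfsg.Inn Q) →
      ¬ NK S (OpF F p Q) ≤ Q := fun Q h1 h2 => h1 (by
    rw [← lift_le_lift, lift_inf, lift_inn]
    change AutS S Q ⊓ OpF F p Q ≤ _
    rw [← AutS_NK Fix_le_OpF]
    exact AutS_mono h2)
  have hSH : S ∈ ℋ := by
    by_contra h
    obtain ⟨Q, h1, h2⟩ := hstar S (centric_top F) h
    have : Q = S := eq_of_le_of_card_le (isConj_le_right h1) (isConj_card h1).ge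
    subst this
    exact h2 (by rw [inn_eq]; exact inf_le_left)
  obtain ⟨E, hE⟩ := exists_gen F le_rfl (fun R σ => R ∈ ℋ ∧ Mor F R σ) (fun _ _ h => h.2)
    (fun _ _ h x hx _ => h.2.mem hx) (fun R σ h => Cmp.single ⟨hℋconj _ h.1 _ h.2.isConj, h.2.inv⟩)
    (fun t ht => Cmp.single ⟨hSH, mor_cj F le_rfl ht⟩)
  have hFE := fs_le_iff.1 (hgen E fun P hP => hom_subset_iff.2 fun f hf => by
    obtain ⟨σ, h1, h2⟩ := hf.exists_perm
    exact (hE _ _).2 ⟨hf.le, (Cmp.single (B := fun R σ => R ∈ ℋ ∧ Mor F R σ) ⟨hP, h1⟩).congr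
      fun x hx => (h2 x hx).symm⟩)
  refine saturated_of_family' hS (fun P => P ∈ ℋ) (fun P τ h1 h2 => hℋconj _ h1 _ h2.isConj) hsat
    (fun P f hf => ((hE _ _).1 (hFE _ _ hf)).2) fun P h1 h2 => ?_
  obtain ⟨Q, h3, h4⟩ := hstar P h1 h2
  exact ⟨Q, h3, key Q h4⟩

end Cfsg.Agent.S5110
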