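import Cfsg.Statements.S5112
import Mathlib
import Cfsg.Agent.H18.Super

set_option autoImplicit false
open Cfsg

namespace Cfsg.Agent.S5112

open Cfsg.Agent.H18

/-- If S is a dihedral or generalized quaternion 2-group of order at least 16, then in every saturated fusion system over S (at the prime 2) the automorphism group Aut_F(S) consists of the inner automorphisms of S. -/
theorem result {Ω : Type*} [Group Ω] {S : Subgroup Ω} [Finite S] (n : ℕ) (hn : 4 ≤ n) (hshape : Nonempty (S ≃* DihedralGroup (2 ^ (n - 1))) ∨ Nonempty (S ≃* QuaternionGroup (2 ^ (n - 2)))) (F : Cfsg.FusionSystem S) (hF : F.IsSaturated 2) : F.autGroup S = Cfsg.Inn S := by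
  haveI : Fact (Nat.Prime 2) := ⟨Nat.prime_two⟩
  obtain ⟨m, rfl⟩ : ∃ m, n = m + 1 := ⟨n - 1, by omega⟩
  obtain ⟨G, _, _, S', F', j, k, hi, -⟩ := H3.exists_iso_big F
  have e := hi.toPIso.equiv
  obtain ⟨a, b, h⟩ : ∃ a b, H3.MC S' a b m := by
    rcases hshape with ⟨⟨f⟩⟩ | ⟨⟨f⟩⟩
    · obtain ⟨a, b, h⟩ := H3.exists_mcd_of_iso (m := m) (by omega) (e.symm.trans f)
      exact ⟨a, b, h.toMC⟩
    · obtain ⟨a, b, h⟩ := H3.exists_mcq_of_iso (m := m) (by omega) (e.symm.trans f)
      exact ⟨a, b, h.toMC⟩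
  have hS : IsPGroup 2 S := h.pGrp.isPGroup.of_equiv e.symm
  have hA : IsPGroup 2 (MulAut S) := by
    refine isPGroup_aut_of_sAut (sAut_of_amb fun G _ _ Q A f hA hA' => ?_)
    have h' := ((h.coe.map (f := Q.subtype.comp (e.symm.trans f).toMonoidHom)
      (Q.subtype_injective.comp (e.symm.trans f).injective)))
    rw [← Subgroup.map_map, Subgroup.map_top_of_surjective _ (e.symm.trans f).surjective,
      FT.map_subtype_top] at h'
    rw [H3.sres_two]
    exact h'.cents hA (hA.trans (h'.nrm_le (by omega)))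
      (Nat.coprime_two_right.1 ((FT.p'grp_iff_coprime Nat.prime_two).1 hA'))
  obtain ⟨-, R, hR⟩ := H17.sat_fa_of_fn hS hF (H17.fn_top F)
  have h1 : (R : Subgroup (F.autGroup S)) = ⊤ :=
    (R.is_maximal' ((hA.to_subgroup _).to_subgroup ⊤) le_top).symm
  rw [H17.inn_eq]
  exact le_antisymm (Subgroup.subgroupOf_eq_top.1 (hR.symm.trans h1))
    (H17.autInducedBy_le_autGroup F le_rfl le_rfl)

end Cfsg.Agent.S5112
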