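import Cfsg.Statements.S5119
import Mathlib
import Cfsg.Agent.H17.Inv

set_option autoImplicit false
open Cfsg

namespace Cfsg.Agent.S5119

open Cfsg.Agent.H17
open Cfsg.FusionSystem hiding inv_mem
open scoped commutatorElement


/-- Let F be a saturated fusion system over a finite p-group S and E a subsystem of F over a subgroup T that is strongly closed in F. Then E is invariant in F (invariance under Aut_F(T) plus the Frattini condition) if and only if the strong invariance condition holds: for P ≤ Q ≤ T, every map φ of E from P into Q and every map ψ of F with source Q, the transported map ψ φ ψ⁻¹ on ψ(P) is a map of E. -/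
theorem result {Ω : Type*} [Group Ω] {S : Subgroup Ω} [Finite S] (p : ℕ) [Fact p.Prime] (hS : IsPGroup p S) (F : Cfsg.FusionSystem S) (hF : F.IsSaturated p) {T : Subgroup Ω} (E : Cfsg.FusionSystem T) (hE : E.IsSubsystemOf F) (hT : F.StronglyClosed T) : E.IsInvariantIn F ↔ ∀ (P Q : Subgroup Ω) (hPQ : P ≤ Q) (_ : Q ≤ T) (φ : P →* Ω) (_ : φ ∈ E.Hom P) (hφQ : ∀ x : P, φ x ∈ Q) (ψ : Q →* Ω) (_ : ψ ∈ F.Hom Q), ∃ χ ∈ E.Hom ((P.subgroupOf Q).map ψ), ∀ (x : P) (hx : ψ (Subgroup.inclusion hPQ x) ∈ (P.subgroupOf Q).map ψ), χ ⟨ψ (Subgroup.inclusion hPQ x), hx⟩ = ψ ⟨φ x, hφQ x⟩ := by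
  constructor
  · intro h P Q hPQ hQ φ hφ hφQ ψ hψ
    obtain ⟨τ, hτ, e⟩ := (mor_extF hψ).exists_perm
    have e' : ∀ x : Q, ψ x = τ x := fun x => by rw [e x x.2, extF_coe]
    have h1 := inv_sInv h Q τ hQ hτ P _ hPQ (mor_extF hφ) fun x hx => by
      rw [extF_of_mem φ hx]; exact hφQ _
    have e1 := img_eq_map_subgroupOf ψ e' hPQ
    obtain ⟨χ, hχ, h2⟩ := (mor_img_iff (hτ.homOn.mono hPQ) e1.symm (k := τ ∘ extF φ)).2 (e1 ▸ h1)
    refine ⟨χ, hχ, fun x hx => ?_⟩
    simp only [e']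
    simpa [extF_coe] using h2 x (by rwa [e'] at hx)
  · intro h
    refine invariant_of_sInv hS hF hE hT fun Q τ hQ hτ P f hP hf h1 => ?_
    obtain ⟨χ, hχ, h2⟩ := h P Q hP hQ _ hf.toHom_mem (fun x => h1 x x.2) _ hτ.toHom_mem
    have e1 := img_eq_map_subgroupOf hτ.homOn.toHom (f := τ) (fun _ => rfl) hP
    refine (mor_img_iff (hτ.homOn.mono hP) rfl (k := τ ∘ f)).1 ?_
    rw [e1]
    exact ⟨χ, hχ, fun x hx => h2 x hx⟩

end Cfsg.Agent.S5119
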