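import Cfsg.Statements.S5121
import Mathlib
import Cfsg.Agent.H17.GrpN

set_option autoImplicit false
open Cfsg

namespace Cfsg.Agent.S5121

open Cfsg.Agent.H17
open Cfsg.FusionSystem hiding inv_mem
open scoped commutatorElement


/-- Let G be a finite group with Sylow p-subgroup S and C_G(O_p(G)) ≤ O_p(G). For every subgroup T ≤ S and every normal subsystem E over T of the fusion system of G on S there is exactly one normal subgroup H of G containing T as a Sylow p-subgroup whose fusion system on T is E. -/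
theorem result {G : Type*} [Group G] [Finite G] (p : ℕ) [Fact p.Prime] (S : Sylow p G) (hG : Subgroup.centralizer ((Cfsg.pCore p G : Subgroup G) : Set G) ≤ Cfsg.pCore p G) (T : Subgroup G) (hTS : T ≤ S) (E : Cfsg.FusionSystem T) (hE : E.IsNormalIn (Cfsg.groupFusionSystem (S : Subgroup G)) p) : ∃ H : Subgroup G, (∃ hTH : T ≤ H, H.Normal ∧ (∃ R : Sylow p H, (R : Subgroup H) = T.subgroupOf H) ∧ ∀ P : Subgroup G, E.Hom P = (Cfsg.fusionSystemOfSubgroup H T hTH).Hom P) ∧ ∀ H' : Subgroup G, (∃ hTH' : T ≤ H', H'.Normal ∧ (∃ R : Sylow p H', (R : Subgroup H') = T.subgroupOf H') ∧ ∀ P : Subgroup G, E.Hom P = (Cfsg.fusionSystemOfSubgroup H' T hTH').Hom P) → H' = H := by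
  have hS := H18.sylIn_top S
  have hQ := H18.pCore_le_of_sylIn hS
  obtain ⟨H, h1, h2, h3, h4⟩ := exists_group_of_normalIn hS hQ hG hE
  refine ⟨H, ⟨h1, h2, (h3 ▸ hS.inf_normal : H18.SylIn p T H).exists_sylow, fun P => by rw [h4]⟩,
    fun K ⟨k1, k2, k3, k4⟩ => ?_⟩
  have k5 : (S : Subgroup G) ⊓ K = T := ((H18.sylIn_iff_sylow k1).2 k3).max _ inf_le_right
    (hS.isP.to_le inf_le_left) (le_inf hTS k1)
  have k6 := (fs_ext' k4).symm.trans h4
  exact le_antisymm (le_of_grp_eq hS hQ hG k5 h3 k6) (le_of_grp_eq hS hQ hG h3 k5 k6.symm)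

end Cfsg.Agent.S5121
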