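import Cfsg.Statements.S5122
import Mathlib
import Cfsg.Agent.H18.GroupSat

set_option autoImplicit false
open Cfsg

namespace Cfsg.Agent.S5122

/-- Let G be a finite group with Sylow p-subgroup S. Every subgroup P of S has a G-conjugate Q ≤ S such that N_S(Q) is a Sylow p-subgroup of N_G(Q); and for any Q ≤ S with that property, C_S(Q) is a Sylow p-subgroup of C_G(Q) and the automorphisms of Q induced by N_S(Q) form a Sylow p-subgroup of those induced by N_G(Q). -/
theorem result {G : Type*} [Group G] [Finite G] (p : ℕ) [Fact p.Prime] (S : Sylow p G) : (∀ P : Subgroup G, P ≤ S → ∃ g : G, P.map (MulAut.conj g).toMonoidHom ≤ S ∧ (∃ R : Sylow p ↥(Subgroup.normalizer ((P.map (MulAut.conj g).toMonoidHom : Subgroup G) : Set G)), (R : Subgroup ↥(Subgroup.normalizer ((P.map (MulAut.conj g).toMonoidHom : Subgroup G) : Set G))) = (Cfsg.FusionSystem.normalizerIn (S : Subgroup G) (P.map (MulAut.conj g).toMonoidHom)).subgroupOf (Subgroup.normalizer ((P.map (MulAut.conj g).toMonoidHom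 : Subgroup G) : Set G)))) ∧ ∀ Q : Subgroup G, Q ≤ S → (∃ R : Sylow p ↥(Subgroup.normalizer (Q : Set G)), (R : Subgroup ↥(Subgroup.normalizer (Q : Set G))) = (Cfsg.FusionSystem.normalizerIn (S : Subgroup G) Q).subgroupOf (Subgroup.normalizer (Q : Set G))) → (∃ R : Sylow p ↥(Subgroup.centralizer (Q : Set G)), (R : Subgroup ↥(Subgroup.centralizer (Q : Set G))) = (Cfsg.FusionSystem.centralizerIn (S : Subgroup G) Q).subgroupOf (Subgroup.centralizer (Q : Set G))) ∧ (∃ R : Sylow p ↥(Cfsg.autInducedBy ⊤ Q), (R : Subgroup ↥(Cfsg.autInducedBy ⊤ Q)) = (Cfsg.autInducedBy (S : Subgroup G) Q).subgroupOf (Cfsg.autInducedBy ⊤ Q)) := by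
  have : Finite (⊤ : Subgroup G) := inferInstance
  refine ⟨fun P hP => ?_, fun Q hQ h => ?_⟩
  · obtain ⟨g, -, h1, -, h3⟩ := (H18.sylIn_top S).exists_conj_sylIn_normalizer hP
    rw [top_inf_eq] at h3
    exact ⟨g, h1, h3.exists_sylow⟩
  · have h1 := (H18.sylIn_iff_sylow (R := (S : Subgroup G) ⊓ Subgroup.normalizer (Q : Set G)) inf_le_right).2 h
    rw [← top_inf_eq (Subgroup.normalizer (Q : Set G))] at h1
    rw [top_inf_eq] at h1
    have h2 : H18.SylIn p ((S : Subgroup G) ⊓ Subgroup.normalizer (Q : Set G))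
        (⊤ ⊓ Subgroup.normalizer (Q : Set G)) := by rwa [top_inf_eq]
    refine ⟨?_, h2.sylIn_autInducedBy.exists_sylow⟩
    have h3 := h2.sylIn_centralizer
    rw [top_inf_eq] at h3
    exact h3.exists_sylow

end Cfsg.Agent.S5122
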