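import Cfsg.Statements.S5123
import Mathlib
import Cfsg.Agent.H18.GroupSat

set_option autoImplicit false
open Cfsg

namespace Cfsg.Agent.S5123

/-- Let G be a finite group with Sylow p-subgroup S, P, Q ≤ S and g ∈ G with gPg⁻¹ = Q, and suppose N_S(Q) is a Sylow p-subgroup of N_G(Q). Let N be the set of x ∈ N_S(P) with gxg⁻¹ ∈ N_S(Q)C_G(Q). Then some h ∈ C_G(Q) satisfies (hg)N(hg)⁻¹ ≤ S. -/
theorem result {G : Type*} [Group G] [Finite G] (p : ℕ) [Fact p.Prime] (S : Sylow p G) (P Q : Subgroup G) (hP : P ≤ S) (hQ : Q ≤ S) (g : G) (hg : P.map (MulAut.conj g).toMonoidHom = Q) (hN : (∃ R : Sylow p ↥(Subgroup.normalizer (Q : Set G)), (R : Subgroup ↥(Subgroup.normalizer (Q : Set G))) = (Cfsg.FusionSystem.normalizerIn (S : Subgroup G) Q).subgroupOf (Subgroup.normalizer (Q : Set G)))) : ∃ h ∈ Subgroup.centralizer (Q : Set G), ((Cfsg.FusionSystem.normalizerIn (S : Subgroup G) P) ⊓ (Cfsg.FusionSystem.normalizerIn (S : Subgroup G) Q ⊔ Subgroup.centralizer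 (Q : Set G)).comap (MulAut.conj g).toMonoidHom).map (MulAut.conj (h * g)).toMonoidHom ≤ S := by
  have h1 := (H18.sylIn_iff_sylow (R := (S : Subgroup G) ⊓ Subgroup.normalizer (Q : Set G)) inf_le_right).2 hN
  have h2 : H18.SylIn p ((S : Subgroup G) ⊓ Subgroup.normalizer (Q : Set G))
      (⊤ ⊓ Subgroup.normalizer (Q : Set G)) := by rwa [top_inf_eq]
  obtain ⟨c, hc, h⟩ := h2.sylIn_centralizer.exists_centralizer_conj_le le_top S.isPGroup'
    (N := H18.cj g ((Cfsg.FusionSystem.normalizerIn (S : Subgroup G) P) ⊓ (Cfsg.FusionSystem.normalizerIn (S : Subgroup G) Q ⊔ Subgroup.centralizer (Q : Set G)).comap (MulAut.conj g).toMonoidHom))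
    (H18.isPGroup_cj g (S.isPGroup'.to_le (inf_le_left.trans inf_le_left))) (by
      rw [top_inf_eq, Subgroup.map_le_iff_le_comap]
      exact inf_le_right)
  rw [H18.cj_cj] at h
  exact ⟨c, hc.2, h.trans inf_le_left⟩

end Cfsg.Agent.S5123
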