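import Cfsg.Statements.S5130
import Cfsg.Agent.H17.Prod
-- import your own Cfsg.Agent.* helpers here

set_option autoImplicit false
open Cfsg

namespace Cfsg.Agent.S5130

open Cfsg.Agent.H17 Cfsg.FusionSystem

section
variable {Ω : Type*} [Group Ω] {S T : Subgroup Ω} {F : FusionSystem S} {p : ℕ}
  [Finite S] [Fact p.Prime] (hS : IsPGroup p S) (hF : F.IsSaturated p)
include hS hF

theorem full_sat (hT : F.StronglyClosed T)
    (hc : ∀ s ∈ S, ∃ t ∈ T, ∀ x ∈ T, s * x * s⁻¹ = t * x * t⁻¹) {E : FusionSystem T}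
    (hE : ∀ P f, P ≤ T → (Mor E P f ↔ Mor F P f)) : E.IsSaturated p := by
  intro P hP
  haveI := finite_of_le hT.1
  obtain ⟨Q, h1, h2⟩ := exists_fn_conj F (hP.trans hT.1)
  obtain ⟨f, hf, rfl⟩ := isConj_iff.1 h1
  have hQ := sc_img_le hT hf hP
  refine ⟨_, ((hE _ _ hP).2 hf).isConj, (fullyAutomized_iff (hS.to_le hT.1)).2 ⟨hQ, ?_⟩,
    receptive_iff.2 ⟨hQ, fun P' g hg e => ?_⟩⟩
  · have e1 : AutF E (img f P) = AutF F (img f P) := Subgroup.ext fun σ => by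
      rw [mem_AutF hQ, mem_AutF h2.1, hE _ _ hQ]
    have e2 : AutS T (img f P) = AutS S (img f P) := le_antisymm (AutS_mono hT.1) fun σ hσ => by
      obtain ⟨s, hs, -, h⟩ := mem_AutS.1 hσ
      obtain ⟨t, ht, h'⟩ := hc s hs
      exact mem_AutS_of_Stab (AutS_le_Stab hσ) ht fun x hx => (h x hx).trans (h' x (hQ hx))
    rw [e1, e2]
    exact sat_not_dvd hS hF h2
  · obtain ⟨k, hk, h⟩ := (receptive_iff.1 (sat_rec_of_fn hS hF h2)).2 P' g ((hE _ _ hg.le).1 hg) e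
    exact ⟨k, (hE _ _ Next_le).2 (hk.mono fun a ⟨a1, a2, b, b1, b2⟩ =>
      ⟨hT.1 a1, a2, b, hT.1 b1, b2⟩), h⟩

theorem ext_sc (hT : F.StronglyClosed T) {Q : Subgroup Ω} {τ : Equiv.Perm Ω} (hτ : Mor F Q τ)
    (h1 : T ≤ centralizerIn S Q) (h2 : T ≤ centralizerIn S (img τ Q)) :
    ∃ ρ : Equiv.Perm Ω, Mor F (Q ⊔ T) ρ ∧ ∀ x ∈ Q, ρ x = τ x := by
  obtain ⟨Q', a1, a2⟩ := exists_fc_conj F hτ.img_le
  obtain ⟨χ, hχ, rfl⟩ := isConj_iff_perm.1 a1
  obtain ⟨α, hα, a3⟩ := sat_ext_centralizer hS hF hχ a2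
  obtain ⟨β, hβ, a4⟩ := sat_ext_centralizer hS hF (hτ.mul_img hχ)
    (by rw [hτ.homOn.img_mul]; exact a2)
  replace hα := hα.mono (sup_le_sup_left h2 _)
  replace hβ := hβ.mono (sup_le_sup_left h1 _)
  refine ⟨α⁻¹ * β, hβ.mul hα.inv (img_le_iff.1 ?_), fun x hx => ?_⟩
  · rw [hβ.homOn.img_sup, hα.homOn.img_sup, sc_img_eq hT hβ le_sup_right,
      sc_img_eq hT hα le_sup_right, img_congr a4, img_congr a3, hτ.homOn.img_mul]
  · rw [Equiv.Perm.mul_apply, a4 x hx, Equiv.Perm.mul_apply, ← a3 _ (mem_img_of_mem τ hx)]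
    simp

end


/-- Let F be a saturated fusion system over a finite p-group S that is the direct product of two subgroups S₁ and S₂, each strongly closed in F. Let R be the full subsystem of F over S₁ (all maps of F between subgroups of S₁) and R′ the subsystem over S₁ of those maps that extend to the subgroup generated with S₂ fixing S₂ elementwise. Then R and R′ are saturated, R′ is normal in F and in R, and R is weakly normal in F. -/
theorem result {Ω : Type*} [Group Ω] {S : Subgroup Ω} [Finite S] (p : ℕ) [Fact p.Prime] (hS : IsPGroup p S) (F : Cfsg.FusionSystem S) (hF : F.IsSaturated p) (S₁ S₂ : Subgroup Ω) (hprod : Cfsg.IsInternalDirectProduct S₁ S₂ S) (h₁ : F.StronglyClosed S₁) (h₂ : F.StronglyClosed S₂) (R R' : Cfsg.FusionSystem S₁) (hR : ∀ P : Subgroup Ω, P ≤ S₁ → R.Hom P = F.Hom P) (hR' : ∀ P : Subgroup Ω, P ≤ S₁ → R'.Hom P = F.centralizerHom S₂ P) : R.IsSaturated p ∧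 R'.IsSaturated p ∧ R'.IsNormalIn F p ∧ R'.IsNormalIn R p ∧ R.IsWeaklyNormalIn F p := by
  obtain ⟨l1, l2, hc, -, hsup⟩ := hprod
  haveI := finite_of_le l1
  have hS₁ := hS.to_le l1
  have dec : ∀ s ∈ S, ∃ a ∈ S₁, ∃ b ∈ S₂, a * b = s := fun s hs =>
    (mem_sup_of_comm hc).1 (hsup ▸ hs)
  have cj' : ∀ s ∈ S, ∃ t ∈ S₁, ∀ x ∈ S₁, s * x * s⁻¹ = t * x * t⁻¹ := fun s hs => by
    obtain ⟨a, ha, b, hb, rfl⟩ := dec s hs
    exact ⟨a, ha, fun x hx => by rw [mul_assoc a, ← hc x hx b hb]; group⟩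
  have c2 : ∀ {P : Subgroup Ω}, P ≤ S₁ → S₂ ≤ centralizerIn S P := fun hP b hb =>
    ⟨l2 hb, fun x hx => hc x (hP hx) b hb⟩
  have c1 : S₁ ≤ centralizerIn S S₂ := fun a ha => ⟨l1 ha, fun x hx => (hc a ha x hx).symm⟩
  have mR : ∀ P f, P ≤ S₁ → (Mor R P f ↔ Mor F P f) := fun P f hP => hom_eq_iff.1 (hR P hP) f
  have mR' : ∀ P f, P ≤ S₁ → (Mor R' P f ↔ CMor F S₂ P f) := fun P f hP =>
    hom_eq_centralizerHom.1 (hR' P hP) f
  have sR : R.IsSubsystemOf F := subsystem_iff.2 fun P f hf => (mR P f hf.le).1 hf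
  have sR' : R'.IsSubsystemOf F := subsystem_iff.2 fun P f hf => ((mR' P f hf.le).1 hf).mor
  have satR := full_sat hS hF h₁ cj' mR
  have satR' : R'.IsSaturated p := by
    obtain ⟨C, hC⟩ := exists_centralizerSystem F l2 rfl
    haveI : Finite (centralizerIn S S₂) := finite_of_le centralizerIn_le
    exact full_sat (hS.to_le centralizerIn_le)
      (centralizerSystem_saturated hS hF (sat_fc_of_fn hS hF (fn_of_sc h₂)) rfl hC)
      (sc_of_subsystem (subsystem_iff.2 fun P f hf => ((hC P f).1 hf).mor) h₁ c1)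
      (fun s hs => cj' s hs.1) fun P f hP => (mR' P f hP).trans (hC P f).symm
  have inv' : SInv R' F := fun Q τ hQ hτ P f hP hf hfQ => by
    have a0 := sc_img_le h₁ hτ hQ
    obtain ⟨ρ, hρ, e⟩ := ext_sc hS hF h₂ hτ (c2 hQ) (c2 a0)
    obtain ⟨-, g, hg, e1, e2⟩ := (mR' P f hf.le).1 hf
    have a1 : img τ P ≤ S₁ := (img_mono τ hP).trans a0
    have hρ' := hρ.mono (sup_le_sup_right hP S₂)
    have a2 : img ρ (P ⊔ S₂) = img τ P ⊔ S₂ := by
      rw [hρ'.homOn.img_sup, sc_img_eq h₂ hρ le_sup_right, img_congr fun x hx => e x (hP hx)]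
    have a3 : ∀ x ∈ P ⊔ S₂, g x ∈ Q ⊔ S₂ := img_le_iff.1 (by
      rw [hg.homOn.img_sup, img_eq_self_of_eq e2, img_congr e1]
      exact sup_le_sup_right (img_le_iff.2 hfQ) _)
    refine (mR' _ _ a1).2 ⟨a1.trans c1, ρ ∘ g ∘ ⇑(ρ⁻¹), ?_, fun y hy => ?_, fun y hy => ?_⟩
    · rw [← a2]
      have b : ∀ x ∈ img ρ (P ⊔ S₂), ρ⁻¹ x ∈ P ⊔ S₂ := fun x hx => hρ'.homOn.perm_mem_img.1 hx
      exact (hρ'.inv.comp hg b).comp hρ fun x hx => a3 _ (b x hx)
    · obtain ⟨x, hx, rfl⟩ := (hτ.mem_img hP).1 hy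
      have b1 : ρ⁻¹ (τ x) = x := by rw [← e x (hP hx)]; simp
      have b2 : τ⁻¹ (τ x) = x := by simp
      simp only [Function.comp]
      rw [b1, b2, e1 x hx, e _ (hfQ x hx)]
    · have b : ρ⁻¹ y ∈ S₂ := (hρ.homOn.mono le_sup_right).perm_mem_img.1
        (by rwa [sc_img_eq h₂ hρ le_sup_right])
      simp only [Function.comp]
      rw [e2 _ b]
      simp
  refine ⟨satR, satR', normalIn_iff.2 ⟨⟨satR', hF, invariant_of_sInv hS hF sR' h₁ inv'⟩,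
    fun σ hσ => ?_⟩, normalIn_iff.2 ⟨⟨satR', satR, invariant_of_sInv hS₁ satR
      (subsystem_iff.2 fun P f hf => (mR P f hf.le).2 (hf.of_sub sR')) (sc_top R)
      fun Q τ hQ hτ => inv' Q τ hQ (hτ.of_sub sR)⟩, fun σ hσ => ⟨σ, ?_, fun _ _ => rfl,
        fun c hc => mul_mem (inv_mem hc.1) (Stab.apply_mem (AutF_le_Stab hσ) hc.1)⟩⟩,
    satR, hF, invariant_of_sInv hS hF sR h₁ fun Q τ hQ hτ P f hP hf hfQ => ?_⟩
  · obtain ⟨-, g, hg, e1, e2⟩ := (mR' _ _ le_rfl).1 (AutF.mor le_rfl hσ)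
    rw [hsup] at hg
    obtain ⟨τ, hτ, e3⟩ := hg.exists_AutF hg.img_eq_top
    rw [show S₁ ⊔ centralizerIn S S₁ = S from le_antisymm (sup_le l1 centralizerIn_le)
      (hsup.ge.trans (sup_le_sup_left (c2 le_rfl) _))]
    refine ⟨τ, hτ, fun x hx => (e3 x (l1 hx)).trans (e1 x hx), fun c hc' => ?_⟩
    obtain ⟨a, ha, b, hb, rfl⟩ := dec c hc'.1
    have b1 : a⁻¹ * g a ∈ S₁ := mul_mem (inv_mem ha) (sc_mem h₁ hg (l1 ha) ha)
    rw [e3 _ hc'.1, hg.homOn.map_mul (l1 ha) (l2 hb), e2 b hb, mul_inv_rev, mul_assoc,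
      ← mul_assoc a⁻¹, hc _ b1 b hb, inv_mul_cancel_left]
    exact b1
  · rw [sup_eq_left.2 centralizerIn_le]
    exact ((mR _ _ le_rfl).2 ((AutF.mor le_rfl hσ).of_sub sR')).mem_AutF (AutF.img_eq hσ)
  · have hτ' := hτ.mono hP
    have b : ∀ x ∈ img τ P, τ⁻¹ x ∈ P := fun x hx => hτ'.homOn.perm_mem_img.1 hx
    exact (mR _ _ (sc_img_le h₁ hτ' (hP.trans hQ))).2
      ((hτ'.inv.comp (hf.of_sub sR) b).comp hτ fun x hx => hfQ _ (b x hx))


end Cfsg.Agent.S5130
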