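import Cfsg.Statements.S5139
import Mathlib
import Cfsg.Agent.H18.Solv
import Cfsg.Agent.S5093

set_option autoImplicit false
open Cfsg

namespace Cfsg.Agent.S5139

open Cfsg.FusionSystem Cfsg.Agent.H17 Cfsg.Agent.H18

/-- Let G be a finite group with Sylow p-subgroup S and O^p(G) the subgroup generated by the elements of order prime to p. Then the p-residual subsystem of the fusion system of G on S — the saturated subsystem of p-power index over the hyperfocal subgroup — is the fusion system of O^p(G) on S ∩ O^p(G): its maps are exactly the conjugation maps by elements of O^p(G) between subgroups of S ∩ O^p(G). -/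
theorem result {G : Type*} [Group G] [Finite G] (p : ℕ) [Fact p.Prime] (S : Sylow p G) (E : Cfsg.FusionSystem ((Cfsg.groupFusionSystem (S : Subgroup G)).hyperfocalSubgroup p)) (hE : (Cfsg.groupFusionSystem (S : Subgroup G)).IsPResidual p E) : ∃ h : (S : Subgroup G) ⊓ Cfsg.pResidual p G ≤ Cfsg.pResidual p G, ∀ P : Subgroup G, E.Hom P = (Cfsg.fusionSystemOfSubgroup (Cfsg.pResidual p G) ((S : Subgroup G) ⊓ Cfsg.pResidual p G) h).Hom P := by
  have hp : p.Prime := Fact.out
  have h0 := S5093.result p S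
  haveI := H4.pResidual_normal (G := G) p
  have h1 := group_isNormalIn (sylIn_top S) (pResidual p G)
  have h2 : (fusionSystemOfSubgroup (pResidual p G) ((S : Subgroup G) ⊓ pResidual p G)
      inf_le_right).HasPPowerIndexIn (groupFusionSystem (S : Subgroup G)) p := by
    refine ppow_iff.2 ⟨nml_sub h1, h0.le, fun P hP σ hσ ⟨n, hn, hσn⟩ => ?_⟩
    obtain ⟨-, -, g, hg⟩ := mor_group.1 (AutF.mor (hP.trans inf_le_left) hσ)
    have hσP := AutF_le_Stab hσ
    have key : ∀ m : ℕ, ∀ x ∈ P, (σ ^ m) x = g ^ m * x * (g ^ m)⁻¹ := by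
      intro m
      induction m with
      | zero => simp
      | succ m ih =>
        intro x hx
        rw [pow_succ', Equiv.Perm.mul_apply, hg _ (Stab.apply_mem (Subgroup.pow_mem _ hσP m) hx),
          ih x hx, pow_succ']
        group
    obtain ⟨a, b, hb, e⟩ := Nat.exists_eq_pow_mul_and_not_dvd (orderOf_pos g).ne' p hp.ne_one
    obtain ⟨m, m1, m2⟩ := Nat.chineseRemainder (Nat.Coprime.pow_left a hn.symm) 0 1
    refine Mor.mem_AutF ((mor_ofSubgroup _).2 ⟨hP, fun x hx => hP (Stab.apply_mem hσP hx), g ^ m, ?_,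
      fun x hx => ?_⟩) (AutF.img_eq hσ)
    · obtain ⟨c, rfl⟩ := (Nat.modEq_zero_iff_dvd.1 m1)
      refine H4.mem_pResidual (Nat.Coprime.coprime_dvd_left (orderOf_dvd_of_pow_eq_one (n := b) ?_)
        ((Nat.Prime.coprime_iff_not_dvd hp).2 hb).symm)
      rw [← pow_mul, show p ^ a * c * b = p ^ a * b * c by ring, ← e, pow_mul, pow_orderOf_eq_one,
        one_pow]
    · rw [← key m x hx, pow_apply_of_modEq hσn hσP m2 x hx]
  exact ⟨inf_le_right, fun P => le_antisymm
    (sub_of_ppow S.isPGroup' (hyp_le _) hE.1 hE.2.1 h2 h0.le P)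
    (sub_of_ppow S.isPGroup' inf_le_left (nml_sat h1) (nml_sub h1) hE.2 h0.ge P)⟩

end Cfsg.Agent.S5139
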