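import Cfsg.Statements.S5147
import Mathlib
import Cfsg.Agent.H17.GrpN2

set_option autoImplicit false
open Cfsg

namespace Cfsg.Agent.S5147

open Cfsg.Agent.H17
open Cfsg.FusionSystem hiding inv_mem
open scoped commutatorElement


/-- Let G be a finite group with Sylow 2-subgroup S whose 2-fusion system on S is constrained, and L a component of G (a subnormal quasisimple subgroup). Then the 2-fusion system of L/Z(L) on the image of S ∩ L is constrained. -/
theorem result {G : Type*} [Group G] [Finite G] (S : Sylow 2 G) (hF : (Cfsg.groupFusionSystem (S : Subgroup G)).IsConstrained 2) (L : Subgroup G) (hL : Cfsg.IsComponent L) : (Cfsg.groupFusionSystem (((S : Subgroup G).subgroupOf L).map (QuotientGroup.mk' (Subgroup.center L)))).IsConstrained 2 := by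
  have hS := H18.sylIn_top S
  have h1 := constrained_of_isSubnormal hS hF hL.1
  have h2 : H18.SylIn 2 ((S : Subgroup G).subgroupOf L) ⊤ := H18.sylIn_top_iff.2 (by
    simpa using (subn_of_isSubnormal hS hL.1).1.exists_sylow)
  have h3 := fac_iff.1 (H18.group_isFactorSystem h2 (Subgroup.center L))
  have h4 : (groupFusionSystem ((S : Subgroup G).subgroupOf L)).IsCentral
      ((S : Subgroup G).subgroupOf L ⊓ Subgroup.center L) := by
    rw [H18.groupFusionSystem_eq]
    exact H18.grp_isCentral inf_le_left fun g _ x hx => (Subgroup.mem_center_iff.1 hx.2 g).symm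
  exact (h3.surj_of_normal (central_normal h4)).constrained h2.isP (by rw [h3.ker]; exact h4) h1

end Cfsg.Agent.S5147
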