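import Cfsg.Statements.S5156
import Mathlib
import Cfsg.Agent.H18.Solv

set_option autoImplicit false
universe u
open Cfsg

namespace Cfsg.Agent.S5156

open Cfsg.FusionSystem Cfsg.Agent.H17 Cfsg.Agent.H18

/-- A saturated fusion system over a finite p-group has a terminating alternating chain of p'-residual and p-residual subsystems (the chain reaches the trivial system — the notion of solvability adapted to fusion systems of p-solvable groups) if and only if it is constrained and its models are p-solvable (a model is a finite group realizing the system on a Sylow p-subgroup with self-centralizing largest normal p-subgroup; it exists and is unique up to isomorphism for constrained systems). -/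
theorem result {Ω : Type u} [Group Ω] {S : Subgroup Ω} [Finite S] (p : ℕ) [Fact p.Prime] (hS : IsPGroup p S) (F : Cfsg.FusionSystem S) (hF : F.IsSaturated p) : F.HasTerminatingResidualSeries p ↔ (F.IsConstrained p ∧ ∀ (G : Type u) [Group G] (ι : S →* G), F.IsModel p G ι → Cfsg.IsPSolvable p G) := by
  constructor
  · intro h
    obtain ⟨h1, h2⟩ := solv_of_terminating h inferInstance inferInstance hS hF
    exact ⟨h1.constrained hS hF, fun G _ ι hG => model_pSolvable hS hG (normal_core F)
      (h2 _ (core_le F)) fun σ _ _ h => mem_Fix.2 fun x hx => h x hx hx⟩
  · rintro ⟨h1, h2⟩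
    obtain ⟨G, _, ι, hG⟩ := exists_model hS h1
    haveI := hG.1
    obtain ⟨U, k, e⟩ := model_iso hG
    exact terminating_of_solv _ S F rfl hS hF (e.sCh_group (h2 G ι hG)) (e.autSolv_group (h2 G ι hG))

end Cfsg.Agent.S5156
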