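import Cfsg.Statements.S5160
import Mathlib
import Cfsg.Agent.H17.Gen
import Cfsg.Agent.H18.GroupSat

set_option autoImplicit false
open Cfsg

namespace Cfsg.Agent.S5160

open Cfsg.Agent.H17
open Cfsg.FusionSystem hiding inv_mem
open scoped commutatorElement


/-- Let G be a finite group with nontrivial Sylow p-subgroup S and F its fusion system on S. Suppose (a) no nontrivial proper subgroup of S is strongly closed in F, and (b) the automorphisms of S induced by G are generated by those induced, for R running over the fully normalized radical centric subgroups of F, by the subgroup of N_G(R) generated by its elements of p-power order. Then F is simple. -/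
theorem result {G : Type*} [Group G] [Finite G] (p : ℕ) [Fact p.Prime] (S : Sylow p G) (hS1 : (S : Subgroup G) ≠ ⊥) (ha : ∀ T : Subgroup G, (Cfsg.groupFusionSystem (S : Subgroup G)).StronglyClosed T → T = ⊥ ∨ T = (S : Subgroup G)) (hb : Cfsg.autInducedBy ⊤ (S : Subgroup G) = ⨆ (R : Subgroup G) (_ : (Cfsg.groupFusionSystem (S : Subgroup G)).IsFullyNormalized R ∧ (Cfsg.groupFusionSystem (S : Subgroup G)).IsRadical p R ∧ (Cfsg.groupFusionSystem (S : Subgroup G)).IsCentric R), Cfsg.autInducedBy (Subgroup.closure {g : G | g ∈ Subgroup.normalizer (R : Set G) ∧ ∃ k : ℕ, orderOf g = p ^ k}) (S : Subgroup G)) : (Cfsg.groupFusionSystem (S : Subgroup G)).IsSimple p := by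
  have hS : IsPGroup p (S : Subgroup G) := S.2
  have hF := Cfsg.Agent.H18.groupFusionSystem_saturated (p := p) S
  refine ⟨hF, hS1, fun T E hE => ?_⟩
  have hI := hE.1.2.2
  rcases ha T (inv_sc hI) with h | rfl
  · exact Or.inl h
  refine Or.inr ⟨rfl, fun P => ?_⟩
  rw [eq_of_frat (inv_sub hI) (inv_frat hI) fun σ hσ => ?_]
  have h1 : σ ∈ AutS ⊤ (S : Subgroup G) := by
    obtain ⟨-, -, g, hg⟩ := mor_group.1 (AutF.mor le_rfl hσ)
    exact mem_AutS_of_Stab (AutF_le_Stab hσ) (Subgroup.mem_top g) hg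
  have h2 : autInducedBy ⊤ (S : Subgroup G) ≤ E.autGroup S := by
    rw [hb]
    refine iSup₂_le fun R hR => lift_le_lift.1 fun τ hτ => ?_
    obtain ⟨g, h3, h4, h5⟩ := mem_AutS.1 hτ
    have h6 : Subgroup.closure {g : G | g ∈ Subgroup.normalizer (R : Set G) ∧ ∃ k : ℕ, orderOf g = p ^ k} ≤
        (AutF E R).comap cj := (Subgroup.closure_le _).2 fun g ⟨h6, k, h7⟩ =>
      mem_AutF_of_pmod hS hF (inv_sInv hI) hR.1.1 ((mor_group.2 ⟨hR.1.1, fun x hx =>
        hR.1.1 (conj_mem_of_mem_normalizer h6 hx), g, fun _ _ => rfl⟩).mem_AutF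
          (mem_normalizer_iff_img.1 h6)) (k := k) (by rw [← map_pow, ← h7, pow_orderOf_eq_one, map_one]; exact one_mem _)
    have h7 : Mor (groupFusionSystem (S : Subgroup G)) S (cj g) := mor_group.2 ⟨le_rfl, fun x hx =>
      conj_mem_of_mem_normalizer h4 hx, g, fun _ _ => rfl⟩
    exact mem_of_eqOn Fix_le_AutF ((mor_up hS hF hE.1.1 (inv_sub hI) h7 R hR.1.1 hR.1.1 hR.2.2
      (AutF.mor hR.1.1 (h6 h3))).mem_AutF (mem_normalizer_iff_img.1 h4)) h5
  exact lift_mono h2 h1

end Cfsg.Agent.S5160
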