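import Cfsg.Statements.S5164
import Mathlib
import Cfsg.Agent.H17.Alt2

set_option autoImplicit false
open Cfsg

namespace Cfsg.Agent.S5164

open Cfsg.Agent.H17
open Cfsg.FusionSystem hiding inv_mem
open scoped commutatorElement


/-- For n ≥ 6 and a prime p, a nontrivial Sylow p-subgroup of the alternating group of degree n is abelian if and only if n < p². -/
theorem result (n p : ℕ) (hn : 6 ≤ n) [Fact p.Prime] (S : Sylow p (alternatingGroup (Fin n))) (hS : (S : Subgroup (alternatingGroup (Fin n))) ≠ ⊥) : IsMulCommutative S ↔ n < p ^ 2 := by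
  have h0 := (Fact.out : p.Prime).two_le
  constructor
  · intro hc
    by_contra! hnp
    have h1 : p ≤ n / p := (Nat.le_div_iff_mul_le (by omega)).2 (sq p ▸ hnp)
    obtain ⟨e⟩ : Nonempty ((ZMod p ⊕ Fin (n / p - p)) × ZMod p ⊕ Fin (n % p) ≃ Fin n) :=
      Fintype.card_eq.1 (by simp [h1, Nat.div_add_mod'])
    obtain ⟨l, h2, h3⟩ := exists_third' (I := ZMod p ⊕ Fin (n / p - p)) (by
      rw [Fintype.card_sum, ZMod.card, Fintype.card_fin, Nat.add_sub_cancel' h1]
      rcases h0.eq_or_lt with rfl | h <;> omega) (.inl 0) (.inl 1)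
    have k0 := ta_pow (R := Fin (n % p)) (u := (1 : ZMod p)) (v := 0) (c := (0 : Fin (n / p - p) → _))
    have k : ta (Fin (n % p)) 1 0 (0 : Fin (n / p - p) → _) = dlt p _ (Equiv.Perm.sumCongr (Equiv.addRight 1) 1) :=
      om_ext' (by simp [dlt_eq]) (by simp [dlt_eq]) fun _ => rfl
    have k1 : ta (Fin (n % p)) (1 : ZMod p) 0 (0 : Fin (n / p - p) → _) ∈ alternatingGroup _ := by
      rw [k, ← map_pow, ← map_one (dlt p _), dlt_eq, dlt_eq] at k0
      rw [k, Equiv.Perm.mem_alternatingGroup, sign_dlt, ← map_pow, (wr_inj k0).1, map_one]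
    have k2 := tl_sub_mem (R := Fin (n % p)) (.inl 0) l (1 : ZMod p)
    have k3 := isPGroup_sup_zpowers (P := Ev _ p _) (isPGroup_trl.to_le inf_le_left) (pEl_of_pow k0) wr_mem_normalizer_Ev
    obtain ⟨g, -, hg⟩ := (H18.sylIn_top S).exists_conj_mem le_top
      ((H18.isPGroup_subgroupOf (H := alternatingGroup _) k3).map e.altCongrHom.toMonoidHom)
    have k4 := hc.is_comm.comm ⟨_, hg _ ⟨⟨_, k1⟩, Subgroup.mem_sup_right (Subgroup.mem_zpowers _), rfl⟩⟩
      ⟨_, hg _ ⟨⟨_, k2.2⟩, Subgroup.mem_sup_left k2, rfl⟩⟩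
    simp only [Subtype.ext_iff (p := (· ∈ (S : Subgroup (alternatingGroup (Fin n))))), Subgroup.coe_mul, conj_mul, mul_left_inj, mul_right_inj,
      ← map_mul] at k4
    simpa [h2.symm, h3.symm] using Equiv.congr_fun (congrArg Subtype.val (e.altCongrHom.injective k4)) (.inl (.inl 0, 0))
  · intro hnp
    obtain ⟨e⟩ := nonempty_equiv_om p (Fin n)
    obtain ⟨T, h1, -, h3⟩ := exists_sylow_le_Wt (I := Fin (Fintype.card (Fin n) / p)) (R := Fin (Fintype.card (Fin n) % p))
      (p := p) (by simpa using Nat.mod_lt _ (by omega))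
    obtain ⟨g, -, hg⟩ := h1.exists_conj_mem le_top ((S.2.map (alternatingGroup _).subtype).map e.permCongrHom.toMonoidHom)
    have k : ∀ x : S, ∃ b, g * e.permCongrHom x.1.1 * g⁻¹ = tl _ b := fun x => by
      have k := hg _ ⟨_, ⟨_, x.2, rfl⟩, rfl⟩
      obtain ⟨σ, b, k1⟩ := h3 k
      obtain rfl : σ = 1 := (PEl.of_wr (k1 ▸ pEl_of_mem h1.isP k)).eq_one_of_pow (by
        rw [Nat.card_eq_fintype_card, Fintype.card_perm, Nat.coprime_comm, (Fact.out : p.Prime).coprime_iff_not_dvd,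
          (Fact.out : p.Prime).dvd_factorial]
        simpa using (Nat.div_lt_iff_lt_mul (by omega)).2 (sq p ▸ hnp)) pow_card_eq_one'
      exact ⟨b, k1⟩
    refine ⟨⟨fun x y => Subtype.ext (Subtype.ext (e.permCongrHom.injective ((MulAut.conj g).injective ?_)))⟩⟩
    obtain ⟨b, hb⟩ := k x
    obtain ⟨c, hc⟩ := k y
    simp only [Subgroup.coe_mul, map_mul, MulAut.conj_apply, hb, hc, ← tl_add, add_comm b]

end Cfsg.Agent.S5164
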