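import Cfsg.Statements.S5165
import Mathlib
import Cfsg.Agent.H17.Alt2

set_option autoImplicit false
open Cfsg

namespace Cfsg.Agent.S5165

open Cfsg.Agent.H17
open Cfsg.FusionSystem hiding inv_mem
open scoped commutatorElement


/-- For n ≥ 6, a prime p with p² ≤ n, and n congruent to 0 or 1 modulo p, the p-fusion system of the alternating group of degree n on a Sylow p-subgroup is simple. -/
theorem result (n p : ℕ) (hn : 6 ≤ n) [Fact p.Prime] (hnp : p ^ 2 ≤ n) (hb : n % p ≤ 1) (S : Sylow p (alternatingGroup (Fin n))) : (Cfsg.groupFusionSystem (S : Subgroup (alternatingGroup (Fin n)))).IsSimple p := by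
  have h0 := (Fact.out : p.Prime).two_le
  have h1 : p ≤ n / p := (Nat.le_div_iff_mul_le (by omega)).2 (sq p ▸ hnp)
  haveI := Fin.subsingleton_iff_le_one.2 hb
  obtain ⟨e⟩ : Nonempty ((ZMod p ⊕ Fin (n / p - p)) × ZMod p ⊕ Fin (n % p) ≃ Fin n) :=
    Fintype.card_eq.1 (by simp [h1, Nat.div_add_mod'])
  obtain ⟨Q⟩ : Nonempty (Sylow p (alternatingGroup ((ZMod p ⊕ Fin (n / p - p)) × ZMod p ⊕ Fin (n % p)))) := inferInstance
  refine simple_equiv e.altCongrHom (H18.sylIn_top Q) (H18.sylIn_top S) (simple_alt ?_ (H18.sylIn_top Q))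
  rw [Fintype.card_fin, Nat.add_sub_cancel' h1]
  rcases h0.eq_or_lt with rfl | h <;> omega

end Cfsg.Agent.S5165
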