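import Cfsg.Statements.S5171
import Mathlib
import Cfsg.Agent.H17.LinSU

set_option autoImplicit false
open Cfsg

namespace Cfsg.Agent.S5171

open Cfsg.Agent.H17
open Cfsg.FusionSystem hiding inv_mem
open scoped commutatorElement


/-- For a finite field K of characteristic p and m ≥ 2, excluding the case m = 2 with K of two elements, the p-fusion system of the projective symplectic group PSp_{2m}(K) on a Sylow p-subgroup is simple. -/
theorem result {K : Type*} [Field K] [Fintype K] (p : ℕ) [Fact p.Prime] [CharP K p] (m : ℕ) (hm : 2 ≤ m) (hex : m = 2 → 3 ≤ Fintype.card K) (S : Sylow p (Cfsg.PSp m K)) : (Cfsg.groupFusionSystem (S : Subgroup (Cfsg.PSp m K))).IsSimple p := by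
  haveI : Nonempty (Fin m) := ⟨⟨0, by omega⟩⟩
  haveI : Finite ((Fin m ⊕ Fin m → K) ≃ₗ[K] (Fin m ⊕ Fin m → K)) := Finite.of_injective _ DFunLike.coe_injective
  obtain ⟨Q⟩ : Nonempty (Sylow p (H10.isomGroup (H10.spBilin (Fin m) K))) := inferInstance
  refine simple_quot' _ ?_ (fun _ hS => simple_equiv H10.spEquiv.symm (H18.sylIn_top Q) hS
    (simple_sp H10.spBilin_isAlt H10.spBilin_nondegenerate ?_ ?_ (H18.sylIn_top Q))) S
  · rw [H10.card_center_sp]
    intro h
    have h1 := (CharP.cast_eq_zero_iff K p _).2 (h.trans (Nat.gcd_dvd_right _ _))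
    rw [Nat.cast_pred Fintype.card_pos, FiniteField.cast_card_eq_zero] at h1
    simp at h1
  · rw [H10.finrank_sp_space, Fintype.card_fin]; omega
  · rw [H10.finrank_sp_space, Fintype.card_fin, Nat.card_eq_fintype_card]; omega

end Cfsg.Agent.S5171
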