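import Cfsg.Statements.S5172
import Mathlib
import Cfsg.Agent.H17.LinSU

set_option autoImplicit false
open Cfsg

namespace Cfsg.Agent.S5172

open Cfsg.Agent.H17
open Cfsg.FusionSystem hiding inv_mem
open scoped commutatorElement


/-- For a finite field K with q² elements of characteristic p and n ≥ 4, the p-fusion system of the projective special unitary group PSU_n(q) (realised over K) on a Sylow p-subgroup is simple. -/
theorem result {K : Type*} [Field K] [Fintype K] (p q : ℕ) [Fact p.Prime] [CharP K p] (hK : Fintype.card K = q ^ 2) (n : ℕ) (hn : 4 ≤ n) (S : Sylow p (Cfsg.PSU n K q)) : (Cfsg.groupFusionSystem (S : Subgroup (Cfsg.PSU n K q))).IsSimple p := by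
  have hc := H11.qConj_conjQ hK
  have hH := hc.isHerm (Fin n)
  have hB := H11.hermB_sep (σ := H11.conjQ hK) (Fin n)
  haveI : Finite ((Fin n → K) ≃ₗ[K] (Fin n → K)) := Finite.of_injective _ DFunLike.coe_injective
  obtain ⟨Q⟩ : Nonempty (Sylow p (H11.SIsom (H11.hermB (Fin n) (H11.conjQ hK)))) := inferInstance
  refine simple_quot' _ ?_ (fun _ hS => simple_equiv (H11.suEquiv hc n).symm (H18.sylIn_top Q) hS
    (simple_su hH hB (by simpa using hn) (H18.sylIn_top Q))) S
  rw [H11.card_center_equiv (H11.suEquiv hc n), hH.card_center_sisom hc hB (by simp; omega)]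
  intro h
  have h1 := (CharP.cast_eq_zero_iff K p _).2 (h.trans (Nat.gcd_dvd_right _ _))
  have h2 := FiniteField.cast_card_eq_zero K
  rw [hK, Nat.cast_pow, pow_eq_zero_iff two_ne_zero] at h2
  simp [h2] at h1

end Cfsg.Agent.S5172
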