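import Cfsg.Statements.S5311
import Mathlib
import Cfsg.Agent.H17.Layer

set_option autoImplicit false
open Cfsg

namespace Cfsg.Agent.S5311

open Cfsg.Agent.H17
open Cfsg.FusionSystem hiding inv_mem
open scoped commutatorElement


/-- The layer of a saturated fusion system F over a finite p-group S is characteristic in F: for every automorphism α of S that is an automorphism of F (α and its inverse are morphisms from F to F) and every layer E of F over T, α carries T onto T and, for every map φ of E with source P, the map induced by α on α(P) (that is, α ∘ φ ∘ α⁻¹) is a map of E. -/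
theorem result {Ω : Type*} [Group Ω] {S : Subgroup Ω} [Finite S] (p : ℕ) [Fact p.Prime] (hS : IsPGroup p S) (F : Cfsg.FusionSystem S) (hF : F.IsSaturated p)
    (α : ↥S ≃* ↥S) (hα : F.IsMorphism F (S.subtype.comp α.toMonoidHom))
    (hα' : F.IsMorphism F (S.subtype.comp α.symm.toMonoidHom))
    {T : Subgroup Ω} (E : Cfsg.FusionSystem T) (hE : E.IsLayerOf F p) :
    Cfsg.FusionSystem.imageAlong (S.subtype.comp α.toMonoidHom) T = T ∧
      ∀ (P : Subgroup Ω) (φ : ↥P →* Ω), φ ∈ E.Hom P →
        ∀ φ' : ↥(Cfsg.FusionSystem.imageAlong (S.subtype.comp α.toMonoidHom) P) →* Ω,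
          Cfsg.FusionSystem.InducedAlong (S.subtype.comp α.toMonoidHom) φ φ' →
            φ' ∈ E.Hom (Cfsg.FusionSystem.imageAlong (S.subtype.comp α.toMonoidHom) P) := by
  set a := extF (S.subtype.comp α.toMonoidHom) with ha
  set k := extF (S.subtype.comp α.symm.toMonoidHom) with hk
  have h1 : Morph F F a := morph_iff.1 hα
  have h2 : Morph F F k := morph_iff.1 hα'
  have e1 : ∀ x ∈ S, k (a x) = x := fun x hx => by
    rw [ha, extF_of_mem _ hx, hk]; exact (extF_coe _ (α ⟨x, hx⟩)).trans (by simp)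
  have e2 : ∀ x ∈ S, a (k x) = x := fun x hx => by
    rw [hk, extF_of_mem _ hx, ha]; exact (extF_coe _ (α.symm ⟨x, hx⟩)).trans (by simp)
  have e : H18.Iso F F a k := ⟨⟨h1.hom, h2.hom, h1.mem, h2.mem, e1, e2⟩,
    fun P f hf => h1.mor hf fun x hx => by simp [e1 x (hf.le hx)],
    fun P f hf => h2.mor hf fun x hx => by simp [e2 x (hf.le hx)]⟩
  have hT := nml_le hE.1
  obtain ⟨E₁, h3⟩ := (e.restrict hT).exists_iso E
  obtain ⟨E₂, h4⟩ := (e.symm.restrict hT).exists_iso E
  have h5 := layer_sub_iso hS e hE hE h3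
  have h6 := iso_sub h3 h4.symm (layer_sub_iso hS e.symm hE hE h4)
  refine ⟨(imageAlong_eq hT).trans (eq_of_sub_sub h6 h5), fun P φ hφ φ' h => ?_⟩
  have h7 := mor_extF hφ
  have h8 := (h7.le.trans hT)
  have h9 := (inducedAlong_iff (fun x => (extF_coe φ x).symm) (fun x => (extF_coe φ' x).symm) h8
    (fun x hx => hT (h7.mem hx)) fun x hx => by
      rw [imageAlong_eq h8]; exact mem_img_of_mem _ hx).1 h
  have h10 := (h3.mor_of h7 h9).of_sub h6
  rw [ha, ← imageAlong_eq h8] at h10
  exact (mem_hom_iff _).2 h10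

end Cfsg.Agent.S5311
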