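import Cfsg.Statements.S5363
import Mathlib
import Cfsg.Agent.H19.Tr1

set_option autoImplicit false
open Cfsg

namespace Cfsg.Agent.S5363

open Cfsg.Agent.H19

theorem pal {G : Type*} [Group G] {D : Set G} (hconj : ∀ g : G, ∀ d ∈ D, g * d * g⁻¹ ∈ D) {a b : G}
    (ha : a ∈ D) (hb : b ∈ D) (a2 : a * a = 1) (b2 : b * b = 1) (m : ℕ) :
    b * (a * b) ^ m ∈ D ∧ b * (a * b) ^ (m + 1) ∈ D := by
  induction m with
  | zero =>
    refine ⟨by simpa using hb, ?_⟩
    have := hconj b a ha
    rw [inv_of_sq b2] at this
    simpa [mul_assoc] using this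
  | succ m ih =>
    refine ⟨ih.2, ?_⟩
    have := hconj (b * a) _ ih.1
    rw [mul_inv_rev, inv_of_sq b2, inv_of_sq a2] at this
    have e : b * (a * b) ^ (m + 1 + 1) = b * a * (b * (a * b) ^ m) * (a * b) := by
      rw [pow_succ, pow_succ']; simp only [mul_assoc]
    rwa [e]

/-- Let D be a conjugation-invariant set of involutions of a finite group G. Then every product of two members of D has odd order or order 2 if and only if, for every a in D and every b in D different from a and commuting with a, the members of D commuting with a b are exactly those commuting with both a and b. -/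
theorem result {G : Type*} [Group G] [Finite G] {D : Set G} (hinv : ∀ d ∈ D, orderOf d = 2) (hconj : ∀ g : G, ∀ d ∈ D, g * d * g⁻¹ ∈ D) : (∀ a ∈ D, ∀ b ∈ D, Odd (orderOf (a * b)) ∨ orderOf (a * b) = 2) ↔ ∀ a ∈ D, ∀ b ∈ D, b ≠ a → Commute a b → {y : G | y ∈ D ∧ Commute (a * b) y} = {y : G | y ∈ D ∧ Commute a y} ∩ {y : G | y ∈ D ∧ Commute b y} := by
  have sq : ∀ d ∈ D, d * d = 1 := fun d hd => by
    have := pow_orderOf_eq_one d; rwa [hinv d hd, pow_two] at this
  constructor
  · intro h a ha b hb ne c
    ext y
    simp only [Set.mem_ofPred_eq, Set.mem_inter_iff]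
    constructor
    · rintro ⟨hy, k⟩
      have key : ∀ a ∈ D, ∀ b ∈ D, b ≠ a → Commute a b → Commute (a * b) y → Commute a y := by
        intro a ha b hb ne c k
        by_contra n
        have o1 : Odd (orderOf (a * y)) := by
          rcases h a ha y hy with o | o
          · exact o
          · exact absurd ((commute_iff_sq (sq a ha) (sq y hy)).2 (by rw [← o]; exact pow_orderOf_eq_one _)) n
        have ct : Commute (a * y) (a * b) := ((Commute.refl a).mul_right c).mul_left k.symm
        have e : b * y = a * y * (a * b) := by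
          rw [mul_assoc a y, ← k.eq, ← mul_assoc, ← mul_assoc, sq a ha, one_mul]
        have t2 : (a * b) ^ 2 = 1 := (commute_iff_sq (sq a ha) (sq b hb)).1 c
        rcases h b hb y hy with o | o
        · have h1 : (b * y) ^ (orderOf (b * y) * orderOf (a * y)) = 1 := by
            rw [pow_mul, pow_orderOf_eq_one, one_pow]
          obtain ⟨r, hr⟩ := o.mul o1
          rw [e, ct.mul_pow, mul_comm (orderOf _), pow_mul, pow_orderOf_eq_one, one_pow, one_mul,
            mul_comm (orderOf _), ← e, hr, pow_succ, pow_mul, t2, one_pow, one_mul] at h1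
          apply ne
          have : a * (a * b) = a := by rw [h1, mul_one]
          rwa [← mul_assoc, sq a ha, one_mul] at this
        · have h1 : (b * y) ^ 2 = 1 := by rw [← o]; exact pow_orderOf_eq_one _
          rw [e, ct.mul_pow, t2, mul_one] at h1
          exact n ((commute_iff_sq (sq a ha) (sq y hy)).2 h1)
      exact ⟨⟨hy, key a ha b hb ne c k⟩, hy, key b hb a ha ne.symm c.symm (c.eq ▸ k)⟩
    · rintro ⟨⟨hy, k1⟩, -, k2⟩
      exact ⟨hy, k1.mul_left k2⟩
  · intro h a ha b hb
    rcases Nat.even_or_odd (orderOf (a * b)) with ⟨k, hk⟩ | o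
    · right
      have pos := orderOf_pos (a * b)
      obtain ⟨m, rfl⟩ : ∃ m, k = m + 1 := ⟨k - 1, by omega⟩
      have hc := (pal hconj ha hb (sq a ha) (sq b hb) m).1
      set c := b * (a * b) ^ m with hcd
      have e : a * c = (a * b) ^ (m + 1) := by rw [hcd, pow_succ', mul_assoc]
      have z2 : (a * c) ^ 2 = 1 := by
        rw [e, ← pow_mul, mul_two, ← hk, pow_orderOf_eq_one]
      have ac : Commute a c := (commute_iff_sq (sq a ha) (sq c hc)).2 z2
      have ne : c ≠ a := by
        intro r
        have : (a * b) ^ (m + 1) = 1 := by rw [← e, r, sq a ha]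
        have := Nat.le_of_dvd (Nat.succ_pos _) (orderOf_dvd_of_pow_eq_one this)
        omega
      have zb : Commute (a * c) b := by
        have c1 : Commute (a * c) (a * b) := by rw [e]; exact (Commute.refl _).pow_left _
        have c2 : Commute (a * c) a := (Commute.refl a).mul_left ac.symm
        have := c2.mul_right c1
        rwa [← mul_assoc a a b, sq a ha, one_mul] at this
      have : b ∈ {y : G | y ∈ D ∧ Commute (a * c) y} := ⟨hb, zb⟩
      rw [h a ha c hc ne ac] at this
      have h2 := orderOf_dvd_of_pow_eq_one ((commute_iff_sq (sq a ha) (sq b hb)).1 this.1.2)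
      have := Nat.le_of_dvd two_pos h2
      omega
    · exact Or.inl o

end Cfsg.Agent.S5363
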