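import Cfsg.Statements.S5364
import Mathlib
import Cfsg.Agent.H19.Tr1

set_option autoImplicit false
open Cfsg

namespace Cfsg.Agent.S5364

open Cfsg.Agent.H19


/-- Let D be a conjugation-invariant set of involutions of a finite group G and t an involution in the centre of G such that d t does not lie in D for any d in D. If the images of the members of D in G modulo the subgroup generated by t satisfy the 3-transposition order conditions (each has order 2 and any two have product of order at most 3), then so do the members of D. -/
theorem result {G : Type*} [Group G] [Finite G] {D : Set G} (hinv : ∀ d ∈ D, orderOf d = 2) (hconj : ∀ g : G, ∀ d ∈ D, g * d * g⁻¹ ∈ D) (t : G) (ht : orderOf t = 2) (htZ : t ∈ Subgroup.center G) (hDt : ∀ d ∈ D, d * t ∉ D) [(Subgroup.zpowers t).Normal] (himg : Cfsg.IsThreeTranspositionSet ((QuotientGroup.mk : G → G ⧸ Subgroup.zpowers t) '' D)) : Cfsg.IsThreeTranspositionSet D := by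
  have sq : ∀ d ∈ D, d * d = 1 := fun d hd => by
    have := pow_orderOf_eq_one d; rwa [hinv d hd, pow_two] at this
  have t2 : t * t = 1 := by have := pow_orderOf_eq_one t; rwa [ht, pow_two] at this
  have mz : ∀ x ∈ Subgroup.zpowers t, x = 1 ∨ x = t := by
    intro x hx
    classical
    rw [mem_zpowers_iff_mem_range_orderOf, ht] at hx
    obtain ⟨k, hk, rfl⟩ := Finset.mem_image.1 hx
    have := Finset.mem_range.1 hk
    interval_cases k <;> simp
  have ct : ∀ g, t * g = g * t := fun g => (Subgroup.mem_center_iff.1 htZ g).symm
  refine ⟨hinv, fun a ha b hb => ?_⟩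
  have j1 : a * b * a ∈ D := by have := hconj a b hb; rwa [inv_of_sq (sq a ha)] at this
  have j2 : b * a * b ∈ D := by have := hconj b a ha; rwa [inv_of_sq (sq b hb)] at this
  rcases himg.2 _ ⟨a, ha, rfl⟩ _ ⟨b, hb, rfl⟩ with h | h
  · rw [← QuotientGroup.mk_mul, ← QuotientGroup.mk_pow, QuotientGroup.eq_one_iff] at h
    rcases mz _ h with h | h
    · exact Or.inl h
    · exfalso
      apply hDt b hb
      rw [← ct, ← h, pow_two]
      have : a * b * (a * b) * b = a * b * a * (b * b) := by simp only [mul_assoc]
      rwa [this, sq b hb, mul_one]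
  · rw [← QuotientGroup.mk_mul, ← QuotientGroup.mk_pow, QuotientGroup.eq_one_iff] at h
    rcases mz _ h with h | h
    · exact Or.inr h
    · exfalso
      apply hDt _ j2
      rw [← ct, ← h]
      have : (a * b) ^ 3 * (b * a * b) = a * b * a * (b * (a * (b * b) * a) * b) := by
        simp only [pow_succ, pow_zero, one_mul, mul_assoc]
      rwa [this, sq b hb, mul_one, sq a ha, mul_one, sq b hb, mul_one]

end Cfsg.Agent.S5364
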