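import Cfsg.Statements.S5387
import Mathlib
import Cfsg.Agent.S2088
import Cfsg.Agent.H17.Mul1
-- import your own Cfsg.Agent.* helpers here

set_option autoImplicit false
open Cfsg

namespace Cfsg.Agent.S5387

open Subgroup

theorem aux {L M Q : Type*} [Group L] [Finite L] [Group M] [Finite M] [Group Q] {σ : L →* Q}
    (hs : Function.Surjective σ) (hk : Nat.card σ.ker = 4) {τ : M →* Q} (hτ : Nat.card τ.ker ≤ 4)
    (ht : Function.Surjective τ) (f : M →* L) (hf : Function.Surjective f) : Nonempty (M ≃* L) := by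
  refine ⟨MulEquiv.ofBijective f (hf.bijective_of_nat_card_le ?_)⟩
  rw [← σ.ker.card_mul_index, ← τ.ker.card_mul_index, index_ker, index_ker,
    MonoidHom.range_eq_top.2 hs, MonoidHom.range_eq_top.2 ht, hk]
  exact Nat.mul_le_mul_right _ hτ

theorem surj {P L : Type*} [Group P] [Group L] (h : commutator L = ⊤) {f : P →* L}
    (hf : Function.Surjective f) : Function.Surjective (f.comp (commutator P).subtype) := by
  have : (commutator P).map f = ⊤ := by
    rw [commutator_def, map_commutator, map_top_of_surjective _ hf, ← commutator_def, h]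
  intro g
  obtain ⟨a, ha, e⟩ := this.ge (mem_top g)
  exact ⟨⟨a, ha⟩, e⟩

/-- Up to isomorphism there is at most one quasisimple group whose centre is elementary abelian of order 4 and whose central quotient is isomorphic to the projective special linear group of dimension 3 over the field with four elements: any two such groups are isomorphic. -/
theorem result {L₁ L₂ : Type*} [Group L₁] [Finite L₁] [Group L₂] [Finite L₂] (F : Type) [Field F] [Fintype F] (hF : Fintype.card F = 4) (h₁ : Cfsg.IsQuasisimple L₁) (h₂ : Cfsg.IsQuasisimple L₂) (hc₁ : Nat.card (Subgroup.center L₁) = 4) (hc₂ : Nat.card (Subgroup.center L₂) = 4) (he₁ : ∀ x ∈ Subgroup.center L₁, x * x = 1) (he₂ : ∀ x ∈ Subgroup.center L₂, x * x = 1) (e₁ : L₁ ⧸ Subgroup.center L₁ ≃* Matrix.ProjectiveSpecialLinearGroup (Fin 3) F) (e₂ : L₂ ⧸ Subgroup.center L₂ ≃* Matrix.ProjectiveSpecialLinearGroup (Fin 3) F) : Nonempty (L₁ ≃* L₂) := by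
  let σ₁ := e₁.toMonoidHom.comp (QuotientGroup.mk' _)
  let σ₂ := e₂.toMonoidHom.comp (QuotientGroup.mk' _)
  have s₁ : Function.Surjective σ₁ := e₁.surjective.comp (QuotientGroup.mk'_surjective _)
  have s₂ : Function.Surjective σ₂ := e₂.surjective.comp (QuotientGroup.mk'_surjective _)
  have k₁ : σ₁.ker = center L₁ := by ext x; simp [σ₁, MonoidHom.mem_ker]
  have k₂ : σ₂.ker = center L₂ := by ext x; simp [σ₂, MonoidHom.mem_ker]
  have p₁ := h₁.1.commutator_eq_top
  have p₂ := h₂.1.commutator_eq_top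
  let P := (σ₁.comp (MonoidHom.fst L₁ L₂)).eqLocus (σ₂.comp (MonoidHom.snd L₁ L₂))
  let f₁ := (MonoidHom.fst L₁ L₂).comp P.subtype
  let f₂ := (MonoidHom.snd L₁ L₂).comp P.subtype
  have t₁ : Function.Surjective f₁ := fun a => let ⟨b, h⟩ := s₂ (σ₁ a); ⟨⟨(a, b), h.symm⟩, rfl⟩
  have t₂ : Function.Surjective f₂ := fun b => let ⟨a, h⟩ := s₁ (σ₂ b); ⟨⟨(a, b), h⟩, rfl⟩
  have m : ∀ z ∈ (σ₁.comp f₁).ker, z.1.1 ∈ center L₁ ∧ z.1.2 ∈ center L₂ := fun z hz =>
    ⟨k₁ ▸ hz, k₂ ▸ (z.2.symm.trans hz :)⟩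
  have st := H17.stem_commutator (π := σ₁.comp f₁) (s₁.comp t₁) (fun z hz => mem_center_iff.2 fun g =>
    Subtype.ext (Prod.ext (mem_center_iff.1 (m z hz).1 _) (mem_center_iff.1 (m z hz).2 _))) (by
      rw [commutator_def, ← map_top_of_surjective _ s₁, ← map_commutator, ← commutator_def, p₁])
  obtain ⟨p, hp⟩ := H27.schur_onto_ker (S2088.result hF) st
  have sq : ∀ z : ((σ₁.comp f₁).comp (commutator P).subtype).ker, z * z = 1 := fun z =>
    Subtype.ext (Subtype.ext (Subtype.ext (Prod.ext (he₁ _ (m _ z.2).1) (he₂ _ (m _ z.2).2))))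
  have c : Nat.card ((σ₁.comp f₁).comp (commutator P).subtype).ker ≤ 4 := by
    refine (Nat.card_le_card_of_surjective (fun i : Fin 2 × Fin 2 =>
      p (Multiplicative.ofAdd (0, (i.1.1 : ZMod 4), (i.2.1 : ZMod 4)))) fun z => ?_).trans (by simp)
    obtain ⟨a, rfl⟩ := hp z
    obtain ⟨i, b, e⟩ := (by decide : ∀ a : Multiplicative (ZMod 3 × ZMod 4 × ZMod 4), ∃ i : Fin 2 × Fin 2,
      ∃ b, a = Multiplicative.ofAdd (0, (i.1.1 : ZMod 4), (i.2.1 : ZMod 4)) * (b * b)) a
    exact ⟨i, by rw [e, map_mul, map_mul, sq, mul_one]⟩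
  obtain ⟨a⟩ := aux s₁ (k₁ ▸ hc₁) c st.1 _ (surj p₁ t₁)
  obtain ⟨b⟩ := aux s₂ (k₂ ▸ hc₂) c st.1 _ (surj p₂ t₂)
  exact ⟨a.symm.trans b⟩

end Cfsg.Agent.S5387
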