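import Cfsg.Statements.S5389
import Cfsg.Agent.H25.Sw4
import Cfsg.Agent.H25.Om2

set_option autoImplicit false
set_option maxRecDepth 100000
open Cfsg

namespace Cfsg.Agent.S5389
open Cfsg.Agent.H25 Cfsg.Agent.H25.Sw Cfsg.Agent.H25.CenB Cfsg.Agent.H25.Leech Cfsg.Spor
open Cfsg.Agent.H25.Om2 (Om o bas)
open Cfsg.Agent.S5388 (ι)
open scoped commutatorElement

noncomputable abbrev C := Subgroup.centralizer ({x 6} : Set S)

theorem lift {c : CA} (h : π c ∈ C) : (c : Co0) ∈ Subgroup.centralizer {t} := by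
  rw [Subgroup.mem_centralizer_singleton_iff, x, ← map_mul, ← map_mul] at h
  obtain ⟨z, hz, e⟩ := (QuotientGroup.mk'_eq_mk' _).1 h
  have e1 : (c : Co0) * y 6 * z = y 6 * c := congrArg Subtype.val e
  rw [show (y 6 : Co0) = t from subL_coe (memA 6 (by norm_num))] at e1
  have t2 : t * t = 1 := by simpa using rel (u := [6, 6]) (v := []) (by decide +kernel)
  have c2 : t * z = z * t := comm hz (memA 6 (by norm_num))
  have e2 : (z : Co0) * z = 1 := by
    have e3 : t = c * (t * z) * (c : Co0)⁻¹ := by rw [← mul_assoc, e1, mul_inv_cancel_right]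
    have e4 : (c : Co0) * (t * z) * (c : Co0)⁻¹ * (c * (t * z) * (c : Co0)⁻¹) = 1 := by rw [← e3, t2]
    rw [conj_mul, conj_eq_one_iff, mul_assoc, ← mul_assoc (z : Co0), ← c2, ← mul_assoc, ← mul_assoc, t2,
      one_mul] at e4
    exact e4
  obtain ⟨a, ha, n, hn, e5⟩ := Subgroup.mem_sup_of_normal_right.1 hz
  have a3 : a ^ 3 = 1 := congrArg Subtype.val (cardA ▸ pow_card_eq_one' (x := (⟨a, ha⟩ : A)) :)
  have hc : (z : Co0) ∈ Subgroup.center Co0 := by
    have : (z : Co0) = z ^ 3 := by rw [pow_succ, pow_two, e2, one_mul]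
    have e6 : a * n = z := e5
    rw [this, ← e6, Commute.mul_pow (Subgroup.mem_center_iff.1 hn a), a3, one_mul]
    exact pow_mem hn 3
  rw [tt] at e1 ⊢
  refine S5388.lift (Subgroup.mem_centralizer_singleton_iff.2 ?_)
  rw [← map_mul, ← map_mul, ← e1, map_mul mk1 _ z.1, show mk1 z.1 = 1 from (QuotientGroup.eq_one_iff _).2 hc,
    mul_one]

theorem ub : Nat.card C ≤ 128 * Nat.card Om := by
  have h := QuotientGroup.card_preimage_mk Z (C : Set S)
  have h2 : Nat.card (C.comap π) ≤ 240 * 82944 := by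
    rw [← Subgroup.card_map_of_injective CA.subtype_injective]
    refine le_trans (Subgroup.card_le_of_le ?_) ubT
    rintro _ ⟨d, hd, rfl⟩
    exact ⟨d.2, lift hd⟩
  rw [show Nat.card (C.comap π) = _ from h] at h2
  have : 6 * Nat.card C ≤ _ := (Nat.mul_le_mul_right _ cardZ).trans h2
  rw [Om2.card]
  omega

theorem memC : ∀ a < 9, x a ∈ C := fun a ha => Subgroup.mem_centralizer_singleton_iff.2 (by
  simpa using eqS (u := [a, 6]) (v := [6, a]) (by simp; omega) (by simp; omega)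
    (rels (n := 9) (f := fun a => [a, 6]) (g := fun a => [6, a]) (by decide +kernel) a ha))

noncomputable abbrev xc : ℕ → C := CenB.subL C x

theorem coe {u : List ℕ} (h : ∀ a ∈ u, a < 9) : (ev xc u : C) = ev x u :=
  (map_ev C.subtype _ u).trans (ev_congr fun a ha => subL_coe (memC a (h a ha)))

theorem eqC {u v : List ℕ} (hu : ∀ a ∈ u, a < 9) (hv : ∀ a ∈ v, a < 9) (h : ev (l0 M0) u = ev (l0 M0) v) :
    ev xc u = ev xc v := Subtype.ext (by
  rw [coe hu, coe hv, eqS (fun a ha => (hu a ha).trans (by norm_num)) (fun a ha => (hv a ha).trans (by norm_num)) h])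

theorem hB6 : IsBase I2.G0 T6.N (fun i => pt (v6 i)) B6 := ⟨by decide +kernel, fun y hy => I2.htb.2 y fun b hb => by
  obtain ⟨b', h1, h2⟩ := (by decide +kernel : ∀ b ∈ I2.B, ∃ b' ∈ B6, v6 b' = vc2 b) b hb
  have := hy b' h1
  simp only [h2] at this
  exact this⟩

theorem evk {u : List ℕ} (h : ∀ a ∈ u, a < 7) : ι (ev k6 u) = ev (l0 M0) u :=
  (map_ev ι k6 u).trans (ev_congr fun a ha => ι_k (h a ha))

theorem heq (u v : List ℕ) (hu : ∀ a ∈ u, a < 7) (hv : ∀ a ∈ v, a < 7) (h : eqv T6 B6 u v = true) :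
    ev xc u = ev xc v := eqC (fun a ha => (hu a ha).trans (by norm_num)) (fun a ha => (hv a ha).trans (by norm_num))
  (by rw [← evk hu, ← evk hv, h6.eqv hB6 hu hv h])

theorem back {u v : List ℕ} (hu : ∀ a ∈ u, a < 7) (hv : ∀ a ∈ v, a < 7) (h : ev xc u = ev xc v) :
    ev k6 u = ev k6 v := by
  obtain ⟨z, hz, e⟩ := quo (u := u) (v := v) (fun a ha => (hu a ha).trans (by norm_num))
    (fun a ha => (hv a ha).trans (by norm_num)) (by
      rw [← coe fun a ha => (hu a ha).trans (by norm_num), ← coe fun a ha => (hv a ha).trans (by norm_num), h])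
  rw [ev_append, ← evk hu, ← evk hv, ← inv_mul_eq_iff_eq_mul, ← map_inv, ← map_mul] at e
  have h1 : (prepL M0 fun ts => allL (fun z => band (smallW 19 z)
    (bor z.isEmpty (Nat.beq (actW ts z cU) cU).not)) Zw) = true := by decide +kernel
  rw [prepL_eq] at h1
  have h2 := allL_sound h1 z hz
  obtain ⟨a1, a2⟩ := actW_spec hM (band_l h2) ptU.1
  have h3 : (ev (l0 M0) z)⁻¹ • pt cU = pt cU := by
    rw [← e, ← map_inv, ptU.2]
    exact (((ev k6 v)⁻¹ * ev k6 u)⁻¹).2.2
  have h4 := band_r h2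
  rw [← ptU.1.inj a1 (h3.symm.trans a2), Nat.beq_refl, bor_eq] at h4
  obtain rfl : z = [] := by simpa using h4
  exact (inv_mul_eq_one.1 (Subgroup.inclusion_injective _ (e.trans (map_one ι).symm))).symm

theorem hne (u v : List ℕ) (hu : ∀ a ∈ u, a < 7) (hv : ∀ a ∈ v, a < 7) (h : neqv T6 B6 u v = true) :
    ev xc u ≠ ev xc v := fun e => h6.neqv v6_spec.2 hB6.1 hu hv h (back hu hv e)

theorem hi : Function.Injective fun i : Fin 128 => (⟨_, bw_mem xc i 7⟩ : Lc (2 ^ 7 - 1) xc) := fun i j e =>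
  enum_inj h6 v6_spec.2 en6 (Subtype.ext (back (bw_lt i 7) (bw_lt j 7) (congrArg Subtype.val e)))

theorem zc (c : C) : c * xc 6 = xc 6 * c := Subtype.ext (by
  rw [Subgroup.coe_mul, Subgroup.coe_mul, subL_coe (memC 6 (by norm_num))]
  exact Subgroup.mem_centralizer_singleton_iff.1 c.2)

noncomputable abbrev N : Subgroup C := Subgroup.zpowers (xc 6)
instance : N.Normal := ⟨by
  rintro _ ⟨k, rfl⟩ c
  rw [← conj_zpow, zc, mul_inv_cancel_right]
  exact ⟨k, rfl⟩⟩

def Ω := C ⧸ N
noncomputable abbrev ρ : C →* C ⧸ N := QuotientGroup.mk' N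
noncomputable instance : MulAction C Ω := MulAction.compHom (C ⧸ N) (MulAut.conj.comp ρ)
noncomputable def q (i : ℕ) : List ℕ := bw (gd 0 sg i) 7
noncomputable def pq (i : ℕ) : Ω := ρ (ev xc (q i))

theorem key {a i j e : ℕ} (h : ev xc (q i ++ [a]) = ev xc (a :: q j ++ pw [6] e)) : (xc a)⁻¹ • pq i = pq j := by
  show MulAut.conj (ρ (xc a)⁻¹) (ρ (ev xc (q i))) = ρ (ev xc (q j))
  rw [MulAut.conj_apply, ← map_inv, ← map_mul, ← map_mul, inv_inv, mul_assoc,
    show ev xc (q i) * xc a = xc a * (ev xc (q j) * xc 6 ^ e) by simpa [ev_append, ev_pw] using h,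
    inv_mul_cancel_left]
  exact QuotientGroup.mk_mul_of_mem _ (pow_mem (Subgroup.mem_zpowers _) e)

theorem r78 : ∀ m < 54, ev (l0 M0) (q (m % 27) ++ [7 + m / 27]) =
    ev (l0 M0) ((7 + m / 27) :: q (TP.tgt (m % 27) (7 + m / 27)) ++ pw [6] (gd 0 cr m)) :=
  rels (by decide +kernel)

theorem hP : AM TP xc pq := fun i hi a ha => by
  refine ⟨(by decide +kernel : ∀ i < 27, ∀ a < 9, TP.tgt i a < 27) i hi a ha, ?_⟩
  by_cases h : a < 7
  · obtain ⟨e, -, h1, h2, h3⟩ := (by decide +kernel : ∀ i < 27, ∀ a < 7, ∃ e < 2, (∀ b ∈ q i ++ [a], b < 7) ∧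
      (∀ b ∈ a :: q (TP.tgt i a) ++ pw [6] e, b < 7) ∧
      eqv T6 B6 (q i ++ [a]) (a :: q (TP.tgt i a) ++ pw [6] e) = true) i hi a h
    exact key (heq _ _ h1 h2 h3)
  · obtain ⟨m, hm, rfl, rfl⟩ : ∃ m < 54, m % 27 = i ∧ 7 + m / 27 = a := by
      have : i < 27 := hi
      have : a < 9 := ha
      exact ⟨27 * (a - 7) + i, by omega, by omega, by omega⟩
    obtain ⟨h1, h2⟩ := (by decide +kernel : ∀ m < 54, (∀ b ∈ q (m % 27) ++ [7 + m / 27], b < 9) ∧
      ∀ b ∈ (7 + m / 27) :: q (TP.tgt (m % 27) (7 + m / 27)) ++ pw [6] (gd 0 cr m), b < 9) m hm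
    exact key (eqC h1 h2 (r78 m hm))

theorem pq_inj : ∀ i < 27, ∀ j < 27, pq i = pq j → i = j := fun i h1 j h2 e => by
  have hs : ∀ i < 27, gd 0 sg i < 64 ∧ bw (gd 0 sg i + 64) 7 = 6 :: q i := by decide +kernel
  have a := (hs i h1).1
  have b := (hs j h2).1
  rcases (H29.mem_zp2 (by simpa using heq [6, 6] [] (by simp) (by simp) (by decide +kernel))).1
    (QuotientGroup.eq.1 e) with h | h
  · exact (by decide +kernel : ∀ i < 27, ∀ j < 27, gd 0 sg i = gd 0 sg j → i = j) i h1 j h2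
      (congrArg Fin.val (@hi ⟨_, a.trans (by norm_num)⟩ ⟨_, b.trans (by norm_num)⟩ (Subtype.ext (inv_mul_eq_one.1 h))))
  · have := congrArg Fin.val (@hi ⟨gd 0 sg i + 64, by omega⟩ ⟨_, b.trans (by norm_num)⟩ (Subtype.ext (by
      show ev xc (bw (gd 0 sg i + 64) 7) = ev xc (q j)
      rw [(hs i h1).2, ev_cons, ← zc, ← h, mul_inv_cancel_left])))
    simp only at this
    omega

theorem vmS : VM VS bas (o VS.rows) := Om2.vm ⟨rfl, rfl, rfl⟩ (by decide +kernel) (by decide +kernel)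
theorem o1 : ∀ a < 7, o VS.rows a = 1 := fun a ha => by
  simpa using vmS.chk2 _ _ ((by decide +kernel : ∀ a < 7, VS.chk2 [a] [] = true) a ha)

theorem memO : ∀ a < TP.G, o VS.rows a ∈ Om := fun a ha => by
  by_cases h : a < 7
  · rw [o1 a h]; exact Om.one_mem
  obtain ⟨u, -, v, -, e⟩ := (by decide +kernel : ∀ a < 9, ¬ a < 7 → ∃ u < 13, ∃ v < 13,
    VS.chk2 [a, v, u] [u, v] = true) a ha h
  have e := vmS.chk2 _ _ e
  simp only [ev_cons, ev_nil, mul_one] at e
  rw [show o VS.rows a = ⁅o VS.rows u, o VS.rows v⁆ by rw [commutatorElement_def, ← e]; group]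
  exact Subgroup.commutator_mem_commutator (Subgroup.mem_top _) (Subgroup.mem_top _)

noncomputable abbrev sp : ℕ → Om := CenB.subL Om (o VS.rows)
theorem amS : AM TP sp fun i => vdec VS.n VS.w bas (gd 0 cp i) := CenB.AM.sub
  (vmS.am (by decide +kernel) (rng_all (VT.amOK_rng (show VS.amOK TP (gd 0 cp) 0 0 27 = true by decide +kernel)))) memO

theorem tb : Lc (2 ^ 9 - 1) sp = ⊤ ∧
    IsBase Om TP.N (fun i => vdec VS.n VS.w bas (gd 0 cp i)) (chS.map OL.b).reverse :=
  base_of_chain (ls := chS) amS (fun i hi j hj e => (by decide +kernel : ∀ i < 27, ∀ j < 27,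
    VS.red (gd 0 cp i) = VS.red (gd 0 cp j) → i = j) i hi j hj (red_eq vmS.ok vmS.bs e)) (by decide +kernel)
    (Om2.card.trans_le (by decide +kernel))

theorem hom : ∃ f : C →* Om, Function.Surjective f ∧ f.ker = Lc (2 ^ 7 - 1) xc ∧ Nat.card f.ker = 128 ∧
    ∀ a < TP.G, f (xc a) = sp a :=
  hom_of_am hP pq_inj amS tb.2 tb.1 (by decide)
    (fun a ha => Subtype.ext ((subL_coe (memO a (ha.trans (by decide)))).trans (o1 a ha)))
    (by simpa using Nat.card_le_card_of_injective _ hi) ub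

/-- A simple section of the automorphism group of the Leech lattice satisfying the Suzuki-sporadic-type hypothesis (the group so obtained is the sporadic Suzuki group; that identification is not part of this statement): there is a subgroup A of order 3 of that automorphism group such that the centralizer of A modulo the subgroup generated by A and the centre of the automorphism group is a non-abelian simple group satisfying the large extraspecial hypothesis of minus type in dimension 6 — an involution whose centralizer has extraspecial generalized Fitting subgroup of order 2^7 with quotient the commutator subgroup of the isometry group of the elliptic quadratic form in dimension 6 over the field with two elements, the involution not weakly closed in that extraspecial group. -/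
theorem result : ∃ A : Subgroup ↥Cfsg.Co0, Nat.card A = 3 ∧ ∃ (hn : ((A ⊔ Subgroup.center ↥Cfsg.Co0).subgroupOf (Subgroup.centralizer (A : Set ↥Cfsg.Co0))).Normal), ∃ (S : Type) (_ : Group S) (_ : Finite S), Nonempty (S ≃* ↥(Subgroup.centralizer (A : Set ↥Cfsg.Co0)) ⧸ (A ⊔ Subgroup.center ↥Cfsg.Co0).subgroupOf (Subgroup.centralizer (A : Set ↥Cfsg.Co0))) ∧ IsSimpleGroup S ∧ ¬ IsMulCommutative S ∧ ∃ z : S, orderOf z = 2 ∧ ∃ (Q : Subgroup (Subgroup.centralizer ({z} : Set S))) (_ : Q.Normal), Cfsg.generalizedFittingSubgroup (Subgroup.centralizer ({z} : Set S)) = Q ∧ Cfsg.IsExtraspecial 2 Q ∧ Nat.card Q = 2 ^ 7 ∧ Nonempty ((Subgroup.centralizer ({z} : Set S)) ⧸ Q ≃* Cfsg.Omega (ZMod 2) (Cfsg.quadFormMinus 2 (ZMod 2) 1 1)) ∧ ∃ g : S, (∃ hq : g * z * g⁻¹ ∈ Subgroup.centralizer ({z} : Set S), (⟨g * z * g⁻¹, hq⟩ : Subgroup.centralizer ({z} : Set S)) ∈ Q) ∧ g * z * g⁻¹ ≠ z := by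
  obtain ⟨f, hf, e, hc, -⟩ := hom
  have hE : H29.ES f.ker (xc 6) := e ▸ es_of (by norm_num) heq hne hi (e ▸ hc).le es6
  have n1 := neS (u := [7, 0]) (v := [0, 7]) (od'.2.1 0 (by norm_num)) (by decide +kernel)
  have n2 := neS (u := [7, 0]) (v := [0, 6, 7]) (od'.2.1 0 (by norm_num)) (by decide +kernel)
  have c1 : ∀ a < 9, (xc a : S) = x a := fun a ha => subL_coe (memC a ha)
  have cj : x 11 * x 6 * (x 11)⁻¹ = xc 0 := by
    have := eqS (by simp) (by simp) (rel (u := [11, 6]) (v := [10, 0, 11]) (by decide +kernel))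
    rw [ev_cons _ 10, show x 10 = 1 by simpa using xZ (u := [10]) (by simp), one_mul] at this
    rw [mul_inv_eq_iff_eq_mul, c1 0 (by norm_num)]
    simpa using this
  have m0 : xc 0 ∈ f.ker := e ▸ mem_Lc xc (by decide)
  refine ⟨A, cardA, hn, S, inferInstance, inferInstance, ⟨MulEquiv.refl _⟩, simple,
    fun h => n1 (by simpa using h.is_comm.comm (x 7) (x 0)), x 6, ?_, f.ker, inferInstance,
    fstar_eq (s := xc 7) hf hE (by rw [Om2.card]; norm_num) m0 (fun h => n1 ?_) (fun h => n2 ?_),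
    hE.isExtraspecial, hc, ⟨QuotientGroup.quotientKerEquivOfSurjective f hf⟩, x 11, ⟨cj ▸ (xc 0).2, ?_⟩,
    fun h => hne [0] [6] (by simp) (by simp) (by decide +kernel) ?_⟩
  · rw [← c1 6 (by norm_num), Subgroup.orderOf_coe, hE.ord]
  · rw [← coe (by simp), ← coe (by simp)]
    simpa using congrArg Subtype.val h
  · rw [← coe (by simp), ← coe (by simp)]
    simpa using congrArg Subtype.val h
  · rwa [show (⟨_, _⟩ : C) = xc 0 from Subtype.ext cj]
  · simpa using Subtype.ext (cj.symm.trans (h.trans (c1 6 (by norm_num)).symm))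

end Cfsg.Agent.S5389
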