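import Cfsg.Statements.S5392
import Mathlib
import Cfsg.Agent.H25.Co2

set_option autoImplicit false
open Cfsg

namespace Cfsg.Agent.S5392
open H25.Leech

/-- The Leech lattice modulo twice itself is a faithful irreducible module for the first Conway group: an automorphism of the rank-24 lattice built from the length-24 code that moves every lattice vector only by twice a lattice vector lies in the centre of the automorphism group (the centre consists of ±1, which act trivially there, so the kernel is exactly the centre), and an additive subgroup lying between twice the lattice and the lattice that is invariant under all lattice automorphisms is one of the two. -/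
theorem result : (∀ g : ↥Cfsg.Co0, (∀ v : ↥Cfsg.leechLattice, ∃ w : ↥Cfsg.leechLattice, ((g • v : ↥Cfsg.leechLattice) : Cfsg.GolayPt → ℤ) - (v : Cfsg.GolayPt → ℤ) = 2 • (w : Cfsg.GolayPt → ℤ)) → g ∈ Subgroup.center ↥Cfsg.Co0) ∧ ∀ M : AddSubgroup (Cfsg.GolayPt → ℤ), (∀ v ∈ Cfsg.leechLattice, (2 : ℤ) • v ∈ M) → M ≤ Cfsg.leechLattice → (∀ g : ↥Cfsg.Co0, ∀ v : ↥Cfsg.leechLattice, (v : Cfsg.GolayPt → ℤ) ∈ M → ((g • v : ↥Cfsg.leechLattice) : Cfsg.GolayPt → ℤ) ∈ M) → (∀ x ∈ M, ∃ w ∈ Cfsg.leechLattice, x = (2 : ℤ) • w) ∨ M = Cfsg.leechLattice := by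
  constructor
  · intro g hg
    have key : ∀ v : L, sqNorm v.1 = 32 → g • v = v ∨ g • v = -v := fun v hv => by
      obtain ⟨w, e⟩ := hg v
      rcases short (g • v).2 v.2 (by rw [g_sq, hv]; norm_num) (by rw [hv]; norm_num) ⟨w.1, w.2, e⟩
        with h | h | h
      · exact Or.inl (Subtype.ext h)
      · exact Or.inr (Subtype.ext h)
      · rw [hv] at h; omega
    have main : ∀ g : Co0, (∀ v : L, sqNorm v.1 = 32 → g • v = v ∨ g • v = -v) → g • U = U → g = 1 :=
      fun g key hU => by
        have step : ∀ u v : L, g • u = u → sqNorm v.1 = 32 → dt u v ≠ 0 → g • v = v := fun u v hu hv h =>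
          (key v hv).resolve_right fun e => h (by
            have := dt_fix hu v
            rw [e, show dt u (-v) = -dt u v from dot_neg _ _] at this; omega)
        refine co_ext fun v => L_induction (K := (hom g).eqLocus (AddMonoidHom.id L)) (fun v hv => ?_) v
        by_cases h : dt U v = 0
        · obtain ⟨k, a, rfl⟩ := pair32 sqU sqU' sqU hv (by simp) dUU' h
          refine step (k • A) _ (step U _ hU ((g_sq _ _).trans sqA) (by rw [dt_fix a, dUA]; norm_num)) hv ?_
          rw [show dt (k • A) (k • U') = _ from g_dot k A U', dot_comm, show dotInt U'.1 A.1 = _ from dU'A]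
          norm_num
        · exact step U v hU hv h
    rcases key U sqU with h | h
    · rw [main g key h]; exact Subgroup.one_mem _
    · have := main (neg1 * g) (fun v hv => by
        rw [mul_smul, neg1_smul, neg_eq_iff_eq_neg, neg_inj]; exact (key v hv).symm)
        (by rw [mul_smul, neg1_smul, h, neg_neg])
      rw [eq_inv_of_mul_eq_one_right this]
      exact Subgroup.inv_mem _ neg1_central
  · intro M h2 hM hg
    by_cases h : ∀ x ∈ M, ∃ w ∈ leechLattice, x = (2 : ℤ) • w
    · exact Or.inl h
    right
    push Not at h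
    obtain ⟨x, hx, hx'⟩ := h
    obtain ⟨y, z, e, h⟩ := short_cases ⟨x, hM hx⟩
    have e : x = y.1 + (2 : ℤ) • z.1 := by rw [two_smul]; exact congrArg Subtype.val e
    have hy : y.1 ∈ M := by
      rw [eq_sub_of_add_eq e.symm]; exact M.sub_mem hx (h2 _ z.2)
    have k32 : ∀ y : L, y.1 ∈ M → sqNorm y.1 = 32 → M = leechLattice := fun y hy h =>
      le_antisymm hM (closure_min.ge.trans ((AddSubgroup.closure_le _).2 fun v hv => by
        obtain ⟨g, e⟩ := trans32 (y := ⟨v, hv.1⟩) h hv.2
        have := hg g y hy
        rwa [e] at this))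
    rcases h with rfl | h | h | h
    · exact absurd (by simpa using e) (hx' _ z.2)
    · exact k32 y hy h
    · obtain ⟨a, e1⟩ := trans48 h sqW
      obtain ⟨b, e2⟩ := trans48 h sqW'
      exact k32 (W + W') (M.add_mem (e1 ▸ hg a y hy) (e2 ▸ hg b y hy)) (by decide +kernel)
    · obtain ⟨c1, c2, -⟩ := root_dot (j := 16) (by decide)
      rw [show da 16 = 0 by decide +kernel] at c1
      rw [show db 16 = 16 by decide +kernel] at c2
      have n := sqR (j := 16) (by norm_num)
      obtain ⟨a, e1⟩ := trans64 (y := U + U') h (by decide +kernel)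
      obtain ⟨b, e2⟩ := trans64 (y := U + R 16) h (by rw [sq_add', sqU, n, c1]; rfl)
      refine k32 (U + U' - (U + R 16)) (M.sub_mem (e1 ▸ hg a y hy) (e2 ▸ hg b y hy)) ?_
      rw [add_sub_add_left_eq_sub, AddSubgroup.coe_sub, sq_sub, sqU', n, show dotInt _ _ = _ from c2]; rfl

end Cfsg.Agent.S5392
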