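import Cfsg.Statements.S5395
import Mathlib
import Cfsg.Agent.H29.ES

set_option autoImplicit false
open Cfsg

namespace Cfsg.Agent.S5395

/-- For a finite extraspecial 2-group E, an automorphism of E that induces the identity on E modulo its centre is inner (so these automorphisms form exactly the inner automorphism group, an elementary abelian 2-group of order |E|/2). -/
theorem result {E : Type*} [Group E] [Finite E] (hE : Cfsg.IsExtraspecial 2 E) (φ : E ≃* E) (hφ : ∀ x : E, φ x * x⁻¹ ∈ Subgroup.center E) : ∃ g : E, ∀ x : E, φ x = g * x * g⁻¹ := by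
  obtain ⟨z, h⟩ := H29.es_of_isExtraspecial (Q := (⊤ : Subgroup E)) (by
    obtain ⟨⟨h1, h2, h3⟩, h4⟩ := hE
    have inj := Subgroup.map_injective (⊤ : Subgroup E).subtype_injective
    refine ⟨⟨h1.to_subgroup _, inj ?_, inj ?_⟩, ?_⟩
    · rw [H3.map_frattini_top, H22.map_center_subtype, top_inf_eq, H22.C_top, h2]
    · rw [Subgroup.map_subtype_commutator, H22.map_center_subtype, top_inf_eq, H22.C_top, ← h3]; rfl
    · rw [H22.card_center_eq, top_inf_eq, H22.C_top, h4])
  obtain ⟨g, -, hg⟩ := h.exists_inner (f := φ) (fun a _ b _ => map_mul φ a b) fun x _ =>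
    (h.cen _ trivial (H22.C_top (G := E) ▸ hφ x)).imp mul_inv_eq_one.1 fun e => by
      rw [h.comm_z trivial]; exact mul_inv_eq_iff_eq_mul.1 e
  exact ⟨g, fun x => hg x trivial⟩

end Cfsg.Agent.S5395
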