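import Cfsg.Statements.S5396
import Mathlib
import Cfsg.Agent.H3.XM

set_option autoImplicit false
open Cfsg

namespace Cfsg.Agent.S5396

/-- For every n ≥ 1 there exist finite extraspecial 2-groups of order 2^(2n+1) whose 2-rank (the largest rank of an elementary abelian subgroup) is n, and ones whose 2-rank is n + 1 (so for each such order there are two non-isomorphic extraspecial 2-groups, told apart by their 2-rank). -/
theorem result (n : ℕ) (hn : 1 ≤ n) : ∀ r ∈ ({n, n + 1} : Set ℕ), ∃ (E : Type) (_ : Group E) (_ : Finite E), Cfsg.IsExtraspecial 2 E ∧ Nat.card E = 2 ^ (2 * n + 1) ∧ sSup {k : ℕ | ∃ A : Subgroup E, Cfsg.IsElementaryAbelian 2 A ∧ Nat.card A = 2 ^ k} = r := by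
  open Cfsg.Agent.H3 in
  open scoped commutatorElement in
  · rintro r (rfl | rfl)
    · obtain ⟨m, rfl⟩ : ∃ m, r = m + 1 := ⟨r - 1, by omega⟩
      have := rank_xs (bM_nd m).xs hn (bM_card m)
      rw [if_neg (bM_dl m)] at this
      exact ⟨_, _, inferInstance, this⟩
    · have := rank_xs (bP_nd n).xs hn (bP_card n)
      rw [if_pos (bP_dl n)] at this
      exact ⟨_, _, inferInstance, this⟩

end Cfsg.Agent.S5396
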