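import Cfsg.Statements.S5406
import Mathlib
import Cfsg.Agent.L1.Mon

set_option autoImplicit false
open Cfsg

namespace Cfsg.Agent.S5406
open L1Mon L1ES H25.Leech

/-- Let G be a finite group of Monster type at the involution z with Q the extraspecial normal subgroup of order 2^25 of C = C_G(z) (so C/Q is identified with the first Conway group with Q modulo its centre the Leech lattice modulo 2, and z is not weakly closed in Q). Then C acts transitively by conjugation on the conjugates of z that lie in Q and differ from z. -/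
theorem result {G : Type*} [Group G] [Finite G] (z : G) (Q : Subgroup (Subgroup.centralizer ({z} : Set G))) [Q.Normal] (hM : Cfsg.IsOfMonsterType z Q) (s t : G) (hsQ : ∃ hsc : s ∈ Subgroup.centralizer ({z} : Set G), (⟨s, hsc⟩ : Subgroup.centralizer ({z} : Set G)) ∈ Q) (htQ : ∃ htc : t ∈ Subgroup.centralizer ({z} : Set G), (⟨t, htc⟩ : Subgroup.centralizer ({z} : Set G)) ∈ Q) (hs : IsConj z s) (ht : IsConj z t) (hs1 : s ≠ z) (ht1 : t ≠ z) : ∃ h ∈ Subgroup.centralizer ({z} : Set G), h * s * h⁻¹ = t := by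
  obtain ⟨h0, e, ψ, hψ⟩ := hM
  have h := bridge h0 hψ
  obtain ⟨v, hv, a⟩ := (h.four_iff (setting_ex h0)).1 ⟨hs, hs1, mem_map_iff.2 hsQ⟩
  obtain ⟨w, hw, b⟩ := (h.four_iff (setting_ex h0)).1 ⟨ht, ht1, mem_map_iff.2 htQ⟩
  obtain ⟨k, rfl⟩ := trans64 hv hw
  obtain ⟨c, -, hc⟩ := h.conjC a b (h.ne a (by simp [hv])).1 hs1
  exact ⟨c.1, c.2, hc⟩

end Cfsg.Agent.S5406
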