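import Cfsg.Statements.S5408
import Mathlib
import Cfsg.Agent.L1.Mon

set_option autoImplicit false
open Cfsg

namespace Cfsg.Agent.S5408
open L1Mon L1ES H25.Leech

/-- Let G be a finite group of Monster type at the involution z with Q the extraspecial normal subgroup of order 2^25 of C = C_G(z) (so C/Q is identified with the first Conway group with Q modulo its centre the Leech lattice modulo 2, and z is not weakly closed in Q). Then Q is of plus type: it contains an elementary abelian subgroup of order 2^13. -/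
theorem result {G : Type*} [Group G] [Finite G] (z : G) (Q : Subgroup (Subgroup.centralizer ({z} : Set G))) [Q.Normal] (hM : Cfsg.IsOfMonsterType z Q) : ∃ E : Subgroup Q, Cfsg.IsElementaryAbelian 2 E ∧ Nat.card E = 2 ^ 13 := by
  obtain ⟨h0, e, ψ, hψ⟩ := hM
  have h := bridge h0 hψ
  obtain ⟨g, a, b⟩ := setting_ex h0
  have p := h.pr a b
  have c := (h.main p).1
  generalize Subgroup.map (MulAut.conj g).toMonoidHom _ = R at p c
  let ι : Q →* G := (Cz z).subtype.comp Q.subtype
  have hι : Function.Injective ι := (Cz z).subtype_injective.comp Q.subtype_injective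
  have m : ∀ q : Q, ι q ∈ Q.map (Cz z).subtype := fun q => ⟨q.1, q.2, rfl⟩
  refine ⟨R.comap ι, ⟨⟨⟨fun x y => Subtype.ext (hι ?_)⟩⟩, fun x hx => hι ?_⟩, ?_⟩
  · exact p.cm h.toES ⟨m _, x.2⟩ ⟨m _, y.2⟩
  · rw [pow_two]; exact p.sq h.toES ⟨m _, hx⟩
  · rw [← c, ← Subgroup.card_map_of_injective hι, Subgroup.map_comap_eq]
    have : ι.range = Q.map (Cz z).subtype := by
      ext x
      exact ⟨by rintro ⟨q, rfl⟩; exact m q, by rintro ⟨q, hq, rfl⟩; exact ⟨⟨q, hq⟩, rfl⟩⟩
    rw [this]

end Cfsg.Agent.S5408
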