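import Cfsg.Statements.S5411
import Mathlib
import Cfsg.Agent.L1.Mon

set_option autoImplicit false
open Cfsg

namespace Cfsg.Agent.S5411
open L1Mon L1ES H25.Leech

/-- Let G be a finite group of Monster type at the involution z with Q the extraspecial normal subgroup of order 2^25 of C = C_G(z) (so C/Q is identified with the first Conway group with Q modulo its centre the Leech lattice modulo 2, and z is not weakly closed in Q). Then C acts transitively by conjugation on the involutions of Q that are not conjugate to z in G. -/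
theorem result {G : Type*} [Group G] [Finite G] (z : G) (Q : Subgroup (Subgroup.centralizer ({z} : Set G))) [Q.Normal] (hM : Cfsg.IsOfMonsterType z Q) (s t : G) (hsQ : ∃ hsc : s ∈ Subgroup.centralizer ({z} : Set G), (⟨s, hsc⟩ : Subgroup.centralizer ({z} : Set G)) ∈ Q) (htQ : ∃ htc : t ∈ Subgroup.centralizer ({z} : Set G), (⟨t, htc⟩ : Subgroup.centralizer ({z} : Set G)) ∈ Q) (hs2 : orderOf s = 2) (ht2 : orderOf t = 2) (hs : ¬ IsConj z s) (ht : ¬ IsConj z t) : ∃ h ∈ Subgroup.centralizer ({z} : Set G), h * s * h⁻¹ = t := by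
  obtain ⟨h0, e, ψ, hψ⟩ := hM
  have h := bridge h0 hψ
  have key : ∀ s : G, s ∈ Q.map (Cz z).subtype → orderOf s = 2 → ¬ IsConj z s →
      ∃ y : L, RpOf ψ y s ∧ sqNorm y.1 = 32 := fun s a b c => by
    obtain ⟨y, d, e⟩ := h.types a (by rintro rfl; simp at b) (by rintro rfl; exact c (IsConj.refl _))
      (by rw [← pow_two, ← b, pow_orderOf_eq_one])
    exact ⟨y, d, e.resolve_right fun e => c ((h.four_iff (setting_ex h0)).2 ⟨y, e, d⟩).1⟩
  obtain ⟨v, a, hv⟩ := key s (mem_map_iff.2 hsQ) hs2 hs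
  obtain ⟨w, b, hw⟩ := key t (mem_map_iff.2 htQ) ht2 ht
  obtain ⟨k, rfl⟩ := trans32 hv hw
  obtain ⟨c, -, hc⟩ := h.conjC a b (h.ne a (by simp [hv])).1 (h.ne a (by simp [hv])).2
  exact ⟨c.1, c.2, hc⟩

end Cfsg.Agent.S5411
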