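import Cfsg.Statements.S5412
import Mathlib
import Cfsg.Agent.L1.Mon3

set_option autoImplicit false
open Cfsg

namespace Cfsg.Agent.S5412
open L1Mon L1ES H25.Leech

/-- Let G be a finite group of Monster type at the involution z with Q the extraspecial normal subgroup of order 2^25 of C = C_G(z) (so C/Q is identified with the first Conway group with Q modulo its centre the Leech lattice modulo 2, and z is not weakly closed in Q). Let t be an involution of Q not conjugate to z in G. Then the centralizer of t modulo the subgroup generated by t is a group of Baby Monster type (an involution whose centralizer D has generalized Fitting subgroup R extraspecial of order 2^23 with D/R identified with the second Conway group acting on R modulo its centre as on the vectors of the Leech lattice modulo 2 orthogonal to a short vector, modulo that vector; the involution not weakly closed in R). -/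
theorem result {G : Type*} [Group G] [Finite G] (z : G) (Q : Subgroup (Subgroup.centralizer ({z} : Set G))) [Q.Normal] (hM : Cfsg.IsOfMonsterType z Q) (t : G) (htQ : ∃ htc : t ∈ Subgroup.centralizer ({z} : Set G), (⟨t, htc⟩ : Subgroup.centralizer ({z} : Set G)) ∈ Q) (ht2 : orderOf t = 2) (ht : ¬ IsConj z t) [hn : ((Subgroup.zpowers t).subgroupOf (Subgroup.centralizer ({t} : Set G))).Normal] : Cfsg.IsOfBabyMonsterType (↥(Subgroup.centralizer ({t} : Set G)) ⧸ (Subgroup.zpowers t).subgroupOf (Subgroup.centralizer ({t} : Set G))) := by
  obtain ⟨h0, e, ψ, hψ⟩ := hM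
  have h := bridge h0 hψ
  have tt : t * t = 1 := by rw [← pow_two, ← ht2, pow_orderOf_eq_one]
  obtain ⟨y, d, hy⟩ := h.types (mem_map_iff.2 htQ) (by rintro rfl; simp at ht2)
    (by rintro rfl; exact ht (IsConj.refl _)) tt
  have hy := hy.resolve_right fun e => ht ((h.four_iff (setting_ex h0)).2 ⟨y, e, d⟩).1
  obtain ⟨g, rfl⟩ := trans32 sqU hy
  refine (h.twist g).baby (setting_ex h0) d tt (QuotientGroup.mk' _) (QuotientGroup.mk'_surjective _) fun x => ?_
  rw [QuotientGroup.mk'_apply, QuotientGroup.eq_one_iff, Subgroup.mem_subgroupOf, H29.mem_zp2 tt]

end Cfsg.Agent.S5412
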