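import Cfsg.Statements.S5423
import Cfsg.Agent.H13.Hs
-- import your own Cfsg.Agent.* helpers here

set_option autoImplicit false
open Cfsg

namespace Cfsg.Agent.S5423

open Matrix Subgroup H13 H13.Hs

def R {n : ℕ} (h : H n) (x : ZMod 2 × W n) : ZMod 2 × W n := (x.1 + x.2 ⬝ᵥ h.u, x.2 ᵥ* h.A.1)

theorem R_mul {n : ℕ} (h k : H n) (x : ZMod 2 × W n) : R (h * k) x = R k (R h x) := by
  simp [R, Hs.mul_def, dotProduct_mulVec, add_assoc]

theorem R_one {n : ℕ} {h : H n} (a : h.A = 1) (b : h.u = 0) (x : ZMod 2 × W n) : R h x = x := by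
  simp [R, a, b]

def RE {n : ℕ} (h : H n) : ZMod 2 × W n ≃+ ZMod 2 × W n where
  toFun := R h
  invFun := R h⁻¹
  left_inv x := by rw [← R_mul, mul_inv_cancel, R_one rfl rfl]
  right_inv x := by rw [← R_mul, inv_mul_cancel, R_one rfl rfl]
  map_add' x y := by simp [R, add_vecMul]; ring

theorem exists_R {n : ℕ} (α : ZMod 2 × W n →+ ZMod 2 × W n) (h : Function.Injective α)
    (h1 : α (1, 0) = (1, 0)) : ∃ k : H n, ∀ x, R k x = α x := by
  let f := α.toZModLinearMap 2
  let f1 := (LinearMap.fst _ _ _).comp (f.comp (LinearMap.inr _ _ _))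
  let f2 := (LinearMap.snd _ _ _).comp (f.comp (LinearMap.inr _ _ _))
  have e : ∀ c : ZMod 2, α (c, 0) = (c, 0) := fun c => by
    have := f.map_smul c (1, 0)
    simpa [f, h1] using this
  have e2 : ∀ v, v ᵥ* (LinearMap.toMatrix' f2)ᵀ = f2 v := fun v => by
    rw [vecMul_transpose, ← toLin'_apply, toLin'_toMatrix']
  obtain ⟨A, hA⟩ := (vecMul_injective_iff_isUnit (A := (LinearMap.toMatrix' f2)ᵀ)).1 fun a b hab => by
    have h2 : f2 (a - b) = 0 := by rw [map_sub, ← e2, ← e2]; exact sub_eq_zero.2 hab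
    have h3 : α (0, a - b) = α (f1 (a - b), 0) := (e _).symm ▸ Prod.ext rfl h2
    exact sub_eq_zero.1 (congrArg Prod.snd (h h3))
  refine ⟨⟨A, fun i => f1 (Pi.single i 1), 0, 0⟩, fun x => ?_⟩
  rw [show x = (x.1, 0) + (0, x.2) by simp, map_add, e]
  refine Prod.ext ?_ (by simp [R, hA, e2, f2, f])
  have : x.2 ⬝ᵥ (fun i => f1 (Pi.single i 1)) = f1 x.2 := by
    rw [f1.pi_apply_eq_sum_univ]
    exact Finset.sum_congr rfl fun i _ => congrArg (x.2 i * f1 ·) (funext fun j => by
      simp [Pi.single_apply, eq_comm])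
  simpa [R, f1, f] using this


/-- Let G be a finite group that is the split extension of an elementary abelian normal subgroup U of order 2^(n+1), n ≥ 1, by its full automorphism group: U has a complement M in G whose conjugation action on U is faithful and realizes every automorphism of U. Let Z be a subgroup of U of order 2 and Q the largest normal 2-subgroup of the centralizer C of Z. Then Q is extraspecial of order 2^(2n+1) with an elementary abelian subgroup of order 2^(n+1) (plus type), Q is a large extraspecial 2-subgroup of G, and C is the split extension of Q by the general linear group of degree n over the field with two elements. -/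
theorem result {G : Type*} [Group G] [Finite G] (n : ℕ) (hn : 1 ≤ n) (U M : Subgroup G) [U.Normal] (hU : Cfsg.IsElementaryAbelian 2 U) (hUcard : Nat.card ↥U = 2 ^ (n + 1)) (hUM : U ⊓ M = ⊥) (hUM' : U ⊔ M = ⊤) (hfaith : ∀ m ∈ M, (∀ u ∈ U, m * u * m⁻¹ = u) → m = 1) (hfull : ∀ φ : ↥U ≃* ↥U, ∃ m ∈ M, ∀ u : ↥U, ((φ u : ↥U) : G) = m * u * m⁻¹) (Z : Subgroup G) (hZU : Z ≤ U) (hZ : Nat.card ↥Z = 2) (Q : Subgroup G) (hQ : Q = (Cfsg.pCore 2 ↥(Subgroup.centralizer (Z : Set G))).map (Subgroup.centralizer (Z : Set G)).subtype) : Cfsg.IsExtraspecial 2 ↥Q ∧ Nat.card ↥Q = 2 ^ (2 * n + 1) ∧ (∃ E : Subgroup G, E ≤ Q ∧ Cfsg.IsElementaryAbelian 2 E ∧ Nat.card ↥E = 2 ^ (n + 1)) ∧ Cfsg.IsLargeExtraspecial Q ∧ ∃ K : Subgroup G, K ≤ Subgroup.centralizer (Z : Set G) ∧ Q ⊓ K = ⊥ ∧ Q ⊔ K = Subgroup.centralizer (Z : Set G) ∧ Nonempty (↥K ≃* Matrix.GeneralLinearGroup (Fin n) (ZMod 2)) := by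
  obtain ⟨z, hzo⟩ := exists_prime_orderOf_dvd_card' (G := Z) 2 hZ.symm.dvd
  have hZz : Z = zpowers z.1 := (eq_of_le_of_card_ge (zpowers_le.2 z.2)
    (by rw [Nat.card_zpowers, orderOf_coe, hzo, hZ])).symm
  have hz1 : (⟨z.1, hZU z.2⟩ : U) ≠ 1 := fun e => by
    have e' := congrArg Subtype.val e
    rw [show z = 1 from Subtype.ext e', orderOf_one] at hzo; omega
  obtain ⟨β, hβ⟩ : ∃ β : Multiplicative (ZMod 2 × W n) ≃* U, (β (.ofAdd (1, 0))).1 = z.1 := by
    letI : CommGroup U := { (inferInstance : Group U) with mul_comm := hU.1.is_comm.comm }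
    letI : Module (ZMod 2) (Additive U) := AddCommGroup.zmodModule
      (fun x => congrArg Additive.ofMul (Subtype.ext (hU.2 _ x.toMul.2) : x.toMul ^ 2 = 1))
    obtain ⟨A, hA⟩ := H1.exists_equiv_field (K := ZMod 2) (V := ZMod 2 × W n) (V' := Additive U)
      (by rw [Nat.card_congr Additive.toMul, hUcard]; simp; ring) (v := (1, 0))
      (w := .ofMul ⟨z.1, hZU z.2⟩) (by simp) hz1
    exact ⟨AddEquiv.toMultiplicativeLeft A.toAddEquiv, congrArg (fun x => x.toMul.1) hA⟩
  let b : ZMod 2 × W n → G := fun x => β (.ofAdd x)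
  have badd : ∀ x y, b (x + y) = b x * b y := fun x y => congrArg Subtype.val (map_mul β _ _)
  have binj : Function.Injective b := fun x y e => β.injective (Subtype.ext e)
  have bsurj : ∀ u ∈ U, ∃ x, b x = u := fun u hu => ⟨(β.symm ⟨u, hu⟩).toAdd, by simp [b]⟩
  have b0 : b 0 = 1 := congrArg Subtype.val (map_one β)
  have hm : ∀ h : H n, ∃ m ∈ M, ∀ x, b x * m = m * b (R h x) := fun h => by
    obtain ⟨m, hm, e⟩ := hfull (β.symm.trans ((AddEquiv.toMultiplicative (RE h).symm).trans β))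
    refine ⟨m, hm, fun x => ?_⟩
    refine Eq.trans ?_ (mul_inv_eq_iff_eq_mul.1 (e (β (.ofAdd (RE h x)))).symm).symm
    simp [b]
  choose m hmM hm using hm
  have uniq : ∀ h, ∀ k ∈ M, (∀ x, b x * k = k * b (R h x)) → m h = k := fun h k hk e =>
    mul_inv_eq_one.1 (hfaith _ (mul_mem (hmM h) (inv_mem hk)) fun u hu => by
      obtain ⟨x, rfl⟩ := bsurj u hu
      calc _ = m h * k⁻¹ * (b x * k) * (m h)⁻¹ := by group
        _ = b x * m h * (m h)⁻¹ := by rw [e, hm]; group
        _ = _ := by group)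
  let θ : H n →* G := MonoidHom.mk' (fun h => m h * b (h.c, h.v)) fun h k => by
    rw [uniq (h * k) _ (mul_mem (hmM h) (hmM k)) fun x => by
      rw [← mul_assoc, hm, mul_assoc, hm, R_mul, mul_assoc], mul_assoc, mul_assoc, ← mul_assoc (b _),
      hm, mul_assoc, ← badd]
    simp [R, Hs.mul_def, add_right_comm]
  have hθι : ∀ c v, θ ⟨1, 0, v, c⟩ = b (c, v) := fun c v => by
    change m _ * _ = _
    rw [uniq _ 1 (one_mem _) fun x => by rw [R_one rfl rfl, mul_one, one_mul], one_mul]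
  have hθ : Function.Injective θ := (injective_iff_map_eq_one θ).2 fun h e => by
    change m h * b _ = 1 at e
    have h1 : m h = 1 := hUM.le ⟨eq_inv_of_mul_eq_one_left e ▸ U.inv_mem (β _).2, hmM h⟩
    rw [h1, one_mul, ← b0] at e
    have h2 := binj e
    have h3 : ∀ w, R h (0, w) = (0, w) := fun w => binj (by simpa [h1] using (hm h (0, w)).symm)
    refine H.ext (Units.ext (Matrix.ext fun i j => ?_)) (funext fun i => ?_)
      (congrArg Prod.snd h2) (congrArg Prod.fst h2)
    · simpa [R, one_def, one_apply, Pi.single_apply, eq_comm] using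
        congrFun (congrArg Prod.snd (h3 (Pi.single i 1))) j
    · simpa [R, one_def] using congrArg Prod.fst (h3 (Pi.single i 1))
  have hz : θ z0 = z.1 := (hθι _ _).trans hβ
  have hC : centralizer (Z : Set G) = centralizer {θ z0} := by
    rw [hz, ← H1.centralizer_zpowers, ← hZz]
  obtain ⟨h0, h1, h2, h3, h4⟩ := core hn θ hθ hC (by
    rw [hC]
    refine le_antisymm ?_ fun g hg => ?_
    · rintro _ ⟨x, rfl⟩
      rw [mem_centralizer_singleton_iff, ← map_mul, ← map_mul]
      simp [Hs.mul_def, z0, add_comm]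
    obtain ⟨k, hk, u, hu, rfl⟩ := mem_sup_of_normal_right.1 ((sup_comm U M ▸ hUM').ge (mem_top g))
    obtain ⟨y, rfl⟩ := bsurj u hu
    choose α hα using fun x => bsurj _ (Normal.conj_mem ‹U.Normal› _ (β (.ofAdd x)).2 k⁻¹)
    obtain ⟨h, e⟩ := exists_R (AddMonoidHom.mk' α fun x y => binj (by
      rw [badd, hα, hα, hα]; change _ * b _ * _ = _ * b _ * _ * (_ * b _ * _); rw [badd]; group))
      (fun x y e => binj (by
        have : b (α x) = b (α y) := congrArg b e
        rwa [hα, hα, mul_left_inj, mul_right_inj] at this)) (binj (by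
        have := mem_centralizer_singleton_iff.1 hg
        change b (α _) = _
        rw [hα, hβ, inv_inv, mul_assoc, inv_mul_eq_iff_eq_mul]
        rw [hz, ← hβ] at this
        change _ * b _ = b _ * _ at this
        rw [mul_assoc, ← badd, add_comm, badd, ← mul_assoc, ← mul_assoc, mul_left_inj] at this
        exact hβ ▸ this.symm))
    refine ⟨⟨h.A, h.u, y.2, y.1⟩, congrArg (· * b y) (uniq _ k hk fun x => ?_)⟩
    change _ = k * b (R h x)
    rw [e]
    change _ = k * b (α x)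
    rw [hα]; simp [b, mul_assoc]) hQ
  refine ⟨h1.isExtraspecial, h2, h3, h1.large fun K hK hN => h1.lx.large_of
    (b := θ ⟨1, 0, Pi.single ⟨0, hn⟩ 1, 0⟩) (h0 ▸ ⟨_, rfl, rfl⟩)
    (by rw [hθι, ← sq]; exact hU.2 _ (β _).2) (fun e => ?_) (H22.le_pCoreOf (Q := U) (fun u hu => ?_)
      le_normalizer_of_normal (IsPGroup.of_card hUcard) (hz ▸ hZU z.2)) hK hN, h4⟩
  · rcases (H29.mem_zp2 h1.zz).1 e with e | e
    · simpa [one_def] using congrFun (congrArg H.v (hθ (e.trans (map_one θ).symm))) ⟨0, hn⟩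
    · simpa [z0] using congrFun (congrArg H.v (hθ e)) ⟨0, hn⟩
  · rw [hθι, mem_centralizer_singleton_iff]
    exact congrArg Subtype.val (hU.1.is_comm.comm ⟨u, hu⟩ (β _))


end Cfsg.Agent.S5423
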