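import Cfsg.Statements.S5424
import Cfsg.Agent.H13.Hs
-- import your own Cfsg.Agent.* helpers here

set_option autoImplicit false
open Cfsg

namespace Cfsg.Agent.S5424

open Matrix Subgroup H13 H13.Hs
open scoped MatrixGroups

variable {n : ℕ}

def mat (x : H n) : Matrix (Fin (n + 2)) (Fin (n + 2)) (ZMod 2) :=
  Matrix.of (Fin.cons (Fin.cons 1 (Fin.cons x.c x.v)) (Fin.cons (Fin.cons 0 (Fin.cons 1 0))
    fun i => Fin.cons 0 (Fin.cons (x.u i) (x.A.1 i))))

theorem ind (f : Fin (n + 2) → Prop) (a : f 0) (b : f 1) (c : ∀ i : Fin n, f i.succ.succ) (i) : f i :=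
  Fin.cases a (fun j => Fin.cases b c j) i

theorem c1 {α : Type*} (a b : α) (f : Fin n → α) :
    (Fin.cons a (Fin.cons b f : Fin (n + 1) → α) : Fin (n + 2) → α) 1 = b := rfl

def matH : H n →* Matrix (Fin (n + 2)) (Fin (n + 2)) (ZMod 2) where
  toFun := mat
  map_one' := by
    ext i j
    induction i using ind <;> induction j using ind <;>
      simp [mat, c1, one_def, one_apply, Fin.ext_iff]
  map_mul' x y := by
    ext i j
    induction i using ind <;> induction j using ind <;>
      simp [mat, c1, Hs.mul_def, mul_apply, Fin.sum_univ_succ, mulVec, vecMul, dotProduct] <;> ring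

def θ : H n →* SL(n + 2, ZMod 2) := MonoidHom.mk' (fun x => ⟨matH x,
  (by decide : ∀ a b : ZMod 2, a * b = 1 → a = 1) _ (matH x⁻¹).det (by
    rw [← det_mul, ← map_mul, mul_inv_cancel, map_one, det_one])⟩) fun _ _ => Subtype.ext (map_mul _ _ _)

theorem inj : Function.Injective (θ : H n →* _) := fun x y h => by
  have h1 := fun i j => congrFun (congrFun (congrArg Subtype.val h) i) j
  exact H.ext (Units.ext (Matrix.ext fun i j => h1 i.succ.succ j.succ.succ))
    (funext fun i => h1 i.succ.succ 1) (funext fun i => h1 0 i.succ.succ) (h1 0 1)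

theorem θz : (θ (z0 : H n)).1 = transvection 0 1 1 := by
  change mat _ = _
  ext i j
  induction i using ind <;> induction j using ind <;>
    simp [mat, c1, z0, transvection, one_apply, single_apply, Fin.ext_iff]

theorem range : (θ : H n →* _).range = centralizer {θ z0} := by
  refine le_antisymm ?_ fun g hg => ?_
  · rintro _ ⟨x, rfl⟩
    rw [mem_centralizer_singleton_iff, ← map_mul, ← map_mul]
    simp [Hs.mul_def, z0, add_comm]
  have key : ∀ g ∈ centralizer {θ (z0 : H n)}, (∀ i : Fin (n + 1), g.1 i.succ 0 = 0) ∧ g.1 0 0 = g.1 1 1 ∧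
      ∀ j : Fin n, g.1 1 j.succ.succ = 0 := fun g hg => by
    have h0 := mem_centralizer_singleton_iff.1 hg
    have h : g.1 * (θ z0).1 = (θ z0).1 * g.1 := congrArg Subtype.val h0
    rw [θz, transvection, mul_add, add_mul,
      mul_one, one_mul, add_right_inj] at h
    refine ⟨fun i => ?_, ?_, fun j => ?_⟩
    · simpa [(Fin.succ_ne_zero i)] using congrFun (congrFun h i.succ) 1
    · simpa using congrFun (congrFun h 0) 1
    · simpa [Fin.ext_iff] using (congrFun (congrFun h 0) j.succ.succ).symm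
  obtain ⟨a1, a2, a3⟩ := key g hg
  obtain ⟨b1, b2, b3⟩ := key g⁻¹ (inv_mem hg)
  have h0 : g⁻¹.1 * g.1 = 1 := congrArg Subtype.val (inv_mul_cancel g)
  have h1 := fun i j => congrFun (congrFun h0 i) j
  generalize g⁻¹.1 = M at *
  have h2 : g.1 0 0 = 1 := (by decide : ∀ a b : ZMod 2, a * b = 1 → b = 1) (M 0 0) _ (by
    have := h1 0 0
    rw [mul_apply, Fin.sum_univ_succ] at this
    simpa [a1] using this)
  have h3 : (M.submatrix (fun i : Fin n => i.succ.succ) fun i : Fin n => i.succ.succ) *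
      (g.1.submatrix (fun i : Fin n => i.succ.succ) fun i : Fin n => i.succ.succ) = 1 := by
    ext i j
    have := h1 i.succ.succ j.succ.succ
    rw [mul_apply, Fin.sum_univ_succ, Fin.sum_univ_succ, b1] at this
    simpa [a3, mul_apply, one_apply] using this
  refine ⟨⟨⟨_, _, mul_eq_one_comm.1 h3, h3⟩, fun i => g.1 i.succ.succ 1, fun i => g.1 0 i.succ.succ,
    g.1 0 1⟩, Subtype.ext ?_⟩
  change mat _ = _
  ext i j
  have : g.1 1 0 = 0 := a1 0
  induction i using ind <;> induction j using ind <;> simp [mat, c1, a1, ← a2, a3, h2, this]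


/-- Let G be the special linear group of degree n + 2 over the field with two elements, n ≥ 2, let z be a transvection, and let Q be the largest normal 2-subgroup of the centralizer C of z. Then Q is extraspecial of order 2^(2n+1) with an elementary abelian subgroup of order 2^(n+1) (plus type), Q is a large extraspecial 2-subgroup of G, and C is the split extension of Q by the special linear group of degree n over the field with two elements. -/
theorem result (n : ℕ) (hn : 2 ≤ n) (z : Matrix.SpecialLinearGroup (Fin (n + 2)) (ZMod 2)) (hz : (z : Matrix (Fin (n + 2)) (Fin (n + 2)) (ZMod 2)) = Matrix.transvection 0 1 1) (Q : Subgroup (Matrix.SpecialLinearGroup (Fin (n + 2)) (ZMod 2))) (hQ : Q = (Cfsg.pCore 2 ↥(Subgroup.centralizer ({z} : Set (Matrix.SpecialLinearGroup (Fin (n + 2)) (ZMod 2))))).map (Subgroup.centralizer ({z} : Set (Matrix.SpecialLinearGroup (Fin (n + 2)) (ZMod 2)))).subtype) : Cfsg.IsExtraspecial 2 ↥Q ∧ Nat.card ↥Q = 2 ^ (2 * n + 1) ∧ (∃ E : Subgroup (Matrix.SpecialLinearGroup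 (Fin (n + 2)) (ZMod 2)), E ≤ Q ∧ Cfsg.IsElementaryAbelian 2 E ∧ Nat.card ↥E = 2 ^ (n + 1)) ∧ Cfsg.IsLargeExtraspecial Q ∧ ∃ K : Subgroup (Matrix.SpecialLinearGroup (Fin (n + 2)) (ZMod 2)), K ≤ Subgroup.centralizer ({z} : Set (Matrix.SpecialLinearGroup (Fin (n + 2)) (ZMod 2))) ∧ Q ⊓ K = ⊥ ∧ Q ⊔ K = Subgroup.centralizer ({z} : Set (Matrix.SpecialLinearGroup (Fin (n + 2)) (ZMod 2))) ∧ Nonempty (↥K ≃* Matrix.SpecialLinearGroup (Fin n) (ZMod 2)) := by
  obtain rfl : z = θ z0 := Subtype.ext (hz.trans θz.symm)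
  obtain ⟨h0, h1, h2, h3, K, k1, k2, k3, ⟨k4⟩⟩ := core (by omega) θ inj rfl range hQ
  refine ⟨h1.isExtraspecial, h2, h3, ?_, K, k1, k2, k3, ⟨k4.trans (MulEquiv.ofBijective
    SpecialLinearGroup.toGL ⟨SpecialLinearGroup.toGL_injective, fun A => ⟨⟨A.1,
      (by decide : ∀ a : ZMod 2, a ≠ 0 → a = 1) _ (isUnits_det_units A).ne_zero⟩, Units.ext rfl⟩⟩).symm⟩⟩
  let i : Fin n := ⟨0, by omega⟩
  let g : SL(n + 2, ZMod 2) := ⟨transvection 1 i.succ.succ 1, det_transvection_of_ne _ _ (by
    simp [Fin.ext_iff]) _⟩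
  have e : g * θ z0 * g⁻¹ = θ ⟨1, 0, Pi.single i 1, 1⟩ := by
    rw [mul_inv_eq_iff_eq_mul]
    refine Subtype.ext ?_
    have : (θ ⟨1, 0, Pi.single i 1, 1⟩).1 = 1 + single 0 1 1 + single 0 i.succ.succ 1 := by
      change mat _ = _
      ext a b
      induction a using ind <;> induction b using ind <;>
        simp [mat, c1, one_apply, single_apply, Pi.single_apply, Fin.ext_iff, eq_comm]
    change g.1 * (θ z0).1 = (θ _).1 * g.1
    rw [θz, this]
    simp only [g, transvection, mul_add, add_mul, mul_one, one_mul, single_mul_single_same]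
    rw [single_mul_single_of_ne (h := Fin.succ_ne_zero _),
      single_mul_single_of_ne (h := by simp [Fin.ext_iff])]
    have := CharTwo.add_self_eq_zero (single (0 : Fin (n + 2)) i.succ.succ (1 : ZMod 2))
    linear_combination (norm := abel1) -this
  have ht : g * θ z0 * g⁻¹ ∈ Q := by rw [e, h0]; exact ⟨_, rfl, rfl⟩
  have hne : g * θ z0 * g⁻¹ ≠ θ z0 := fun h => by
    simpa [z0] using congrFun (congrArg H.v (inj (e.symm.trans h))) i
  exact h1.large_of_conj ht hne (h1.sym (by
    rw [h2]; exact Nat.pow_lt_pow_right (a := 2) (m := 3) one_lt_two (by omega)) ht hne)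


end Cfsg.Agent.S5424
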