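import Cfsg.Statements.S5426
import Cfsg.Agent.H24.Lx2
-- import your own Cfsg.Agent.* helpers here

set_option autoImplicit false
open Cfsg

namespace Cfsg.Agent.S5426

/-- Let Q be a large extraspecial 2-subgroup of the finite group G (extraspecial; centralizer equal to its centre; normal in the centralizer of its centre; normalizing no non-trivial subgroup of odd order) with centre generated by z, and let M be the normal closure of z in G. Then one of the following holds: Q is normal in G; or M is abelian and the generalized Fitting subgroup of G is its largest normal 2-subgroup; or M is the generalized Fitting subgroup of G and is a non-abelian simple group; or M is the generalized Fitting subgroup of G and is the direct product of a non-abelian simple subgroup L and its conjugate u L u⁻¹ by some u in Q (the two meet trivially and commute elementwise), with z = z₁ (u z₁ u⁻¹) for some z₁ in L whose centralizer in L is a Sylow 2-subgroup of L with Frattini subgroup inside the subgroup generated by z₁, and Q is not the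 largest normal 2-subgroup of the centralizer of z. -/
theorem result {G : Type*} [Group G] [Finite G] (Q : Subgroup G) (hQ : Cfsg.IsLargeExtraspecial Q) (z : G) (hz : ((Subgroup.center ↥Q).map Q.subtype) = Subgroup.zpowers z) (M : Subgroup G) (hM : M = Subgroup.normalClosure ({z} : Set G)) : Q.Normal ∨ (IsMulCommutative ↥M ∧ Cfsg.generalizedFittingSubgroup G = Cfsg.pCore 2 G) ∨ (M = Cfsg.generalizedFittingSubgroup G ∧ IsSimpleGroup ↥M ∧ ¬ IsMulCommutative ↥M) ∨ (M = Cfsg.generalizedFittingSubgroup G ∧ ∃ (L : Subgroup G) (u : G), u ∈ Q ∧ IsSimpleGroup ↥L ∧ ¬ IsMulCommutative ↥L ∧ L ⊓ (L).map (MulAut.conj u).toMonoidHom = ⊥ ∧ (∀ x ∈ L, ∀ y ∈ (L).map (MulAut.conj u).toMonoidHom, x * y = y * x) ∧ L ⊔ (L).map (MulAut.conj u).toMonoidHom = M ∧ ∃ z₁ ∈ L, z = z₁ * (u * z₁ * u⁻¹) ∧ (∃ R : Sylow 2 ↥L, (R : Subgroup ↥L) = (Subgroup.centralizer ({z₁} : Set G)).subgroupOf L ∧ (frattini ↥(R : Subgroup ↥L)).map ((L.subtype).comp (R : Subgroup ↥L).subtype) ≤ Subgroup.zpowers z₁) ∧ Q ≠ (Cfsg.pCore 2 ↥(Subgroup.centralizer ({z} : Set G))).map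 (Subgroup.centralizer ({z} : Set G)).subtype) := by
  have h := H24.Lx.st_of hQ hz
  subst hM
  right
  by_cases h2 : Cfsg.pCore 2 G = ⊥
  · right
    obtain ⟨hF, hE, hne, hM⟩ := h.layer_eq h2
    have hex : ∃ L : Subgroup G, Cfsg.IsComponent L := by
      by_contra hc
      exact hne (H2.layer_eq_bot_iff.2 fun K hK => hc ⟨K, hK⟩)
    obtain ⟨L, hL⟩ := hex
    obtain ⟨-, hs, hc⟩ := H24.Lx.simple_of hF hL
    by_cases hn : ∀ u ∈ Q, H24.Lx.cj u L = L
    · left
      have e := H24.Lx.case3 h hL hn
      refine ⟨hM.trans hE.symm, ?_⟩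
      rw [hM, e]
      exact ⟨hs, hc⟩
    · right
      push Not at hn
      obtain ⟨u, hu, hne'⟩ := hn
      obtain ⟨a, b, c, d⟩ := H24.Lx.case4 h h2 hL hu hne'
      exact ⟨hM.trans hE.symm, L, u, hu, hs, hc, a, b, c.trans hM.symm, d⟩
  · left
    exact h.case2 h2

end Cfsg.Agent.S5426
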