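import Cfsg.Statements.S5427
import Mathlib
import Cfsg.Agent.L1.LgS

set_option autoImplicit false
open Cfsg

namespace Cfsg.Agent.S5427
open Cfsg.Agent.H22 Cfsg.Agent.H29 Subgroup

/-- Let z be an involution of the finite group G whose centralizer C has generalized Fitting subgroup Q, an extraspecial 2-group of width at least 2 (order 2^(2w+1), w ≥ 2). Let K be a subgroup of G such that the subgroup U generated by the K-conjugates of z is abelian and C is generated by the C-conjugates of U. Suppose that either some K-conjugate of z other than z lies in Q, or some element u of U ∩ Q outside the subgroup generated by z has z in the largest normal 2-subgroup of its centralizer. Then G is simple and Q is a large extraspecial 2-subgroup of G. -/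
theorem result {G : Type*} [Group G] [Finite G] (z : G) (hz : orderOf z = 2) (Q : Subgroup G) (hQC : Q ≤ Subgroup.centralizer ({z} : Set G)) (hF : (Cfsg.generalizedFittingSubgroup ↥(Subgroup.centralizer ({z} : Set G))).map (Subgroup.centralizer ({z} : Set G)).subtype = Q) (hQ : Cfsg.IsExtraspecial 2 ↥Q) (w : ℕ) (hw : 2 ≤ w) (hcard : Nat.card ↥Q = 2 ^ (2 * w + 1)) (K U : Subgroup G) (hU : U = Subgroup.closure {x : G | ∃ k ∈ K, x = k * z * k⁻¹}) (hUab : IsMulCommutative ↥U) (hgen : Subgroup.closure {x : G | ∃ c ∈ Subgroup.centralizer ({z} : Set G), ∃ u ∈ U, x = c * u * c⁻¹} = Subgroup.centralizer ({z} : Set G)) (h3 : (∃ k ∈ K, k * z * k⁻¹ ∈ Q ∧ k * z * k⁻¹ ≠ z) ∨ ∃ u ∈ U ⊓ Q, u ∉ Subgroup.zpowers z ∧ (∃ hz' : z ∈ Subgroup.centralizer ({u} : Set G), (⟨z, hz'⟩ : ↥(Subgroup.centralizer ({u} : Set G))) ∈ Cfsg.pCore 2 ↥(Subgroup.centralizer ({u} : Set G)))) : IsSimpleGroup G ∧ Cfsg.IsLargeExtraspecial Q := by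
  have h := (le_of_genFitting hz hF hQ).1
  have c8 : 2 ^ 5 ≤ Nat.card Q := by rw [hcard]; exact Nat.pow_le_pow_right two_pos (by omega)
  have hL : IsLargeExtraspecial Q := by
    rcases h3 with ⟨k, -, a, b⟩ | ⟨u, hu, a, b, c⟩
    · exact h.large_of_conj a b (h.sym (by omega) a b)
    · refine h.large fun K hK hN => h.lx.large_of hu.2 ?_ a ⟨_, c, rfl⟩ hK hN
      have m := hu.1
      clear hu a c b
      subst hU
      induction m using closure_induction with
      | mem x hx => obtain ⟨k, -, rfl⟩ := hx; rw [conj_mul, h.zz]; simp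
      | one => simp
      | mul x y hx hy a b =>
        have : y * x = x * y := congrArg Subtype.val (hUab.1.1 ⟨y, hy⟩ ⟨x, hx⟩)
        rw [mul_assoc, ← mul_assoc y, this, mul_assoc, b, mul_one, a]
      | inv x hx a => rw [← mul_inv_rev, a, inv_one]
  refine ⟨L1Lg.simple h hL fun N hN zN => ?_, hL⟩
  rw [← hgen, closure_le]
  rintro _ ⟨c, -, u, hu, rfl⟩
  refine hN.conj_mem _ ?_ c
  rw [hU] at hu
  refine (closure_le N).2 ?_ hu
  rintro _ ⟨k, -, rfl⟩
  exact hN.conj_mem _ zN k

end Cfsg.Agent.S5427
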