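import Cfsg.Statements.S5428
import Mathlib
import Cfsg.Agent.H29.Sing
import Cfsg.Agent.L1.ES

set_option autoImplicit false
open Cfsg

namespace Cfsg.Agent.S5428
open Cfsg.Agent.H22 Cfsg.Agent.H29 Subgroup

theorem split {K : Type*} [Group K] [Finite K] {z : K} (zz : z * z = 1) (z1 : z ≠ 1) (zc : z ∈ center K)
    (h4 : ¬ 4 ∣ Nat.card K) : oddCore K ⊔ zpowers z = ⊤ := by
  haveI : (zpowers z).Normal := ⟨fun n hn g => by
    rwa [mem_center_iff.1 (zpowers_le.2 zc hn) g, mul_inv_cancel_right]⟩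
  have c := card_zp2 zz z1
  have e := (zpowers z).card_mul_index
  rw [c] at e
  have o : (zpowers z).index.Coprime 2 := by
    rw [Nat.coprime_two_right, ← Nat.not_even_iff_odd]
    rintro ⟨k, hk⟩
    exact h4 ⟨k, by omega⟩
  obtain ⟨H, hH⟩ := exists_right_complement'_of_coprime (N := zpowers z) (by rw [c]; exact o.symm)
  haveI := normal_of_index_eq_two (hH.index_eq_card.trans c)
  have : H ≤ oddCore K := le_sSup ⟨inferInstance, hH.symm.index_eq_card ▸ o⟩
  rw [eq_top_iff, ← hH.sup_eq_top, sup_comm]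
  exact sup_le_sup_right this _

/-- Let z be an involution of the finite group G whose centralizer C has generalized Fitting subgroup Q extraspecial (as a 2-group), let A be a subgroup of C of odd order, and let R be the centralizer of A in Q; suppose R has order at least 32, the largest normal subgroup of odd order of the centralizer of the subgroup generated by A and R lies in A, the order of that centralizer is not divisible by 4, and g is an element of G with g z g⁻¹ in R but outside the centre Z of Q. Let M be the subgroup generated by A and the centralizer of A (A is normal in it). Then: the centralizer in M of the subgroup generated by R and A, joined with A, equals the subgroup generated by A and Z; the image of R in M/A is a large extraspecial 2-subgroup of M/A; and g z g⁻¹ is conjugate to z inside the subgroup generated by R and the centralizer of A in g Q g⁻¹. -/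
theorem result {G : Type*} [Group G] [Finite G] (z : G) (hz : orderOf z = 2) (Q : Subgroup G) (hQC : Q ≤ Subgroup.centralizer ({z} : Set G)) (hF : (Cfsg.generalizedFittingSubgroup ↥(Subgroup.centralizer ({z} : Set G))).map (Subgroup.centralizer ({z} : Set G)).subtype = Q) (hQ : Cfsg.IsExtraspecial 2 ↥Q) (A : Subgroup G) (hA : A ≤ Subgroup.centralizer ({z} : Set G)) (hAodd : Odd (Nat.card ↥A)) (R : Subgroup G) (hR : R = Q ⊓ Subgroup.centralizer (A : Set G)) (hR32 : 32 ≤ Nat.card ↥R) (hO : (Cfsg.oddCore ↥(Subgroup.centralizer ((A ⊔ R : Subgroup G) : Set G))).map (Subgroup.centralizer ((A ⊔ R : Subgroup G) : Set G)).subtype ≤ A) (h4 : ¬ 4 ∣ Nat.card ↥(Subgroup.centralizer ((A ⊔ R : Subgroup G) : Set G))) (g : G) (hgR : g * z * g⁻¹ ∈ R) (hgZ : g * z * g⁻¹ ∉ ((Subgroup.center ↥Q).map Q.subtype)) (M : Subgroup G) (hM : M = Subgroup.centralizer (A : Set G) ⊔ A) [hn : (A.subgroupOf M).Normal] : (M ⊓ Subgroup.centralizer ((R ⊔ A : Subgroup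 G) : Set G)) ⊔ A = A ⊔ ((Subgroup.center ↥Q).map Q.subtype) ∧ Cfsg.IsLargeExtraspecial ((R.subgroupOf M).map (QuotientGroup.mk' (A.subgroupOf M))) ∧ ∃ x ∈ R ⊔ ((Q).map (MulAut.conj g).toMonoidHom ⊓ Subgroup.centralizer (A : Set G)), x * (g * z * g⁻¹) * x⁻¹ = z := by
  have h := (le_of_genFitting hz hF hQ).1
  rw [h.map_center] at hgZ ⊢
  set s := g * z * g⁻¹ with hs
  have RQ : R ≤ Q := hR ▸ inf_le_left
  have RA : R ≤ C[A] := hR ▸ inf_le_right
  have zA : z ∈ C[A] := mem_C.2 fun a ha => mem_C1.1 (hA ha)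
  have zR : z ∈ R := hR ▸ ⟨h.mem, zA⟩
  have c8 : 32 ≤ Nat.card Q := hR32.trans (card_le_of_le RQ)
  have sz : s ≠ z := fun e => hgZ (e ▸ mem_zpowers z)
  have zQ' : z ∈ cj g Q := h.sym (by omega) (RQ hgR) sz
  have h' := h.cj g
  rw [← hs] at h'
  have eR : ES R z := hR ▸ ((h.toES.coprime (hA.trans h.nrm) hAodd).2.2.2.resolve_left fun e => by
    rw [hR, e, h.toSP.card_z] at hR32; omega)
  have As : A ≤ centralizer {s} := fun a ha => mem_C1.2 (mem_C.1 (RA hgR) a ha)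
  have nz : z ∉ zpowers s := by rw [mem_zp2 h'.zz]; rintro (e | e); exacts [h.ne e, sz e.symm]
  have eR' : ES (cj g Q ⊓ C[A]) s := (h'.toES.coprime (As.trans h'.nrm) hAodd).2.2.2.resolve_left fun e =>
    nz (e ▸ ⟨zQ', zA⟩)
  obtain ⟨u, hu, eu⟩ := eR.toSP.exists_conj le_rfl hgR (eR.not_mem_C' hgR hgZ)
  obtain ⟨v, hv, ev⟩ := eR'.toSP.exists_conj le_rfl ⟨zQ', zA⟩ (eR'.not_mem_C' ⟨zQ', zA⟩ nz)
  have zs : z * s = s * z := (h.toSP.comm_z (RQ hgR)).symm
  have zK : z ∈ C[A ⊔ R] := by rw [C_sup]; exact ⟨zA, eR.toSP.z_mem_C⟩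
  have K : C[A ⊔ R] ≤ A ⊔ zpowers z := by
    have := split (K := C[A ⊔ R]) (z := ⟨z, zK⟩) (Subtype.ext h.zz) (fun e => h.ne (congrArg Subtype.val e))
      (mem_center_iff.2 fun x => Subtype.ext (mem_C.1 x.2 z (mem_sup_right zR)).symm) h4
    have := congrArg (map C[A ⊔ R].subtype) this
    rw [← MonoidHom.range_eq_map, range_subtype, Subgroup.map_sup, MonoidHom.map_zpowers] at this
    rw [← this]
    exact sup_le_sup_right hO _
  have CM : C[A] ≤ M := hM ▸ le_sup_left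
  refine ⟨le_antisymm (sup_le (inf_le_right.trans (sup_comm R A ▸ K)) le_sup_left)
    (sup_le le_sup_right (le_sup_of_le_left (zpowers_le.2 ⟨CM zA, sup_comm R A ▸ zK⟩))), ?_,
    v⁻¹ * u, mul_mem (mem_sup_right (inv_mem hv)) (mem_sup_left hu), ?_⟩
  swap
  · calc v⁻¹ * u * s * (v⁻¹ * u)⁻¹ = v⁻¹ * (u * s * u⁻¹) * v := by group
      _ = z := by rw [eu, ← zs, ← ev]; group
  generalize hπ : QuotientGroup.mk' (A.subgroupOf M) = π
  have πk : ∀ x, π x = 1 ↔ x.1 ∈ A := fun x => by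
    rw [← hπ, QuotientGroup.mk'_apply, QuotientGroup.eq_one_iff, mem_subgroupOf]
  have πs : ∀ y, ∃ x : M, x.1 ∈ C[A] ∧ π x = y := fun y => by
    obtain ⟨x, rfl⟩ := (hπ ▸ QuotientGroup.mk'_surjective _ : Function.Surjective π) y
    obtain ⟨c, hc, a, ha, e⟩ := (mem_sup_of_le_N (C_le_N A)).1 (hM.le x.2)
    refine ⟨⟨c, CM hc⟩, hc, ?_⟩
    rw [← inv_mul_eq_one, ← map_inv, ← map_mul, πk]
    show c⁻¹ * x.1 ∈ A
    rwa [← e, inv_mul_cancel_left]
  have two : ∀ a ∈ A, a ^ 2 ^ 2 = 1 → a = 1 := fun a ha e => by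
    have d1 := orderOf_dvd_of_pow_eq_one e
    have d2 : orderOf a ∣ Nat.card A := orderOf_dvd_natCard A ha
    have := Nat.dvd_gcd d1 d2
    rwa [((Nat.coprime_two_left.2 hAodd).pow_left 2).gcd_eq_one, Nat.dvd_one, orderOf_eq_one_iff] at this
  have inj : ∀ x ∈ R.subgroupOf M, π x = 1 → x = 1 := fun x hx e =>
    Subtype.ext (two _ ((πk x).1 e) (eR.toSP.pow_four hx))
  let z' : M := ⟨z, CM zA⟩
  have e0 : ES (R.subgroupOf M) z' := by
    refine ⟨⟨fun e => h.ne (congrArg Subtype.val e), Subtype.ext h.zz, zR, fun x hx => ?_, fun x hx c e => ?_⟩,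
      fun x hx c => ?_, fun c => eR.nab fun x hx => mem_C.2 fun y hy => ?_⟩
    · exact (eR.sq _ hx).imp Subtype.ext Subtype.ext
    · exact (eR.cen _ hx (mem_C.2 fun y hy => congrArg Subtype.val (mem_C.1 c ⟨y, CM (RA hy)⟩ hy))).imp
        Subtype.ext Subtype.ext
    · exact (eR.cen _ hx (mem_C.2 fun y hy => congrArg Subtype.val (mem_C.1 c ⟨y, CM (RA hy)⟩ hy))).imp
        Subtype.ext Subtype.ext
    · exact congrArg Subtype.val (mem_C.1 (c (show (⟨x, CM (RA hx)⟩ : M) ∈ R.subgroupOf M from hx)) ⟨y, CM (RA hy)⟩ hy)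
  have e1 := e0.map π inj
  set S := (R.subgroupOf M).map π with hS
  have Cz : ∀ x : M, x.1 ∈ C[A] → π x * π z' = π z' * π x → x.1 ∈ N[R] := fun x hx e => by
    have : π (x * z' * x⁻¹ * z'⁻¹) = 1 := by simp only [map_mul, map_inv, e]; group
    have a := (πk _).1 this
    have b : x.1 * z * x.1⁻¹ * z⁻¹ = 1 := two _ a (by
      have c := mem_C.1 zA _ a
      have : (x.1 * z * x.1⁻¹ * z⁻¹) * (x.1 * z * x.1⁻¹ * z⁻¹) = 1 := by
        calc _ = (x.1 * z * x.1⁻¹ * z⁻¹) * (z * (x.1 * z * x.1⁻¹ * z⁻¹) * z⁻¹) := by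
              rw [← show (x.1 * z * x.1⁻¹ * z⁻¹) * z = z * (x.1 * z * x.1⁻¹ * z⁻¹) from c]; group
          _ = x.1 * z * x.1⁻¹ * (x.1 * z * x.1⁻¹) * (z * z)⁻¹ := by group
          _ = x.1 * (z * z) * x.1⁻¹ * (z * z)⁻¹ := by group
          _ = 1 := by rw [h.zz]; group
      show (x.1 * z * x.1⁻¹ * z⁻¹) ^ 2 ^ 2 = 1
      rw [pow_two 2, pow_mul, pow_two (x.1 * z * x.1⁻¹ * z⁻¹), this, one_pow])
    rw [hR]
    exact mem_N_inf (h.nrm (mem_C1'.2 (mul_inv_eq_one.1 b))) (C_le_N A |>.trans (N_le_N_C A) hx)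
  have le : LE S (π z') := by
    refine ⟨e1, fun x hx => ?_, fun x hx => ?_⟩
    · obtain ⟨x, xC, rfl⟩ := πs x
      refine mem_N_of_cj_le (cj_le_iff'.2 ?_)
      rintro _ ⟨y, hy, rfl⟩
      exact ⟨x * y * x⁻¹, conj_mem_of_N (H := R) (Cz x xC (mem_C1.1 hx)) hy, by simp⟩
    · obtain ⟨x, xC, rfl⟩ := πs x
      have n := Cz x xC (mem_C.1 hx _ e1.mem).symm
      have : x.1 ∈ C[A ⊔ R] := by
        rw [C_sup]
        refine ⟨xC, mem_C.2 fun y hy => ?_⟩
        let y' : M := ⟨y, CM (RA hy)⟩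
        have := inj (x * y' * x⁻¹ * y'⁻¹) (R.mul_mem (conj_mem_of_N n hy) (inv_mem hy)) (by
          simp only [map_mul, map_inv, ← mem_C.1 hx _ ⟨y', hy, rfl⟩]; group)
        rw [mul_inv_eq_one, mul_inv_eq_iff_eq_mul] at this
        exact (congrArg Subtype.val this).symm
      obtain ⟨a, ha, c, hc, e⟩ := (mem_sup_of_le_N' (zpowers_le.2 (C_le_N A zA))).1 (K this)
      have cR : c ∈ R := zpowers_le.2 zR hc
      refine ⟨⟨c, CM (RA cR)⟩, cR, ?_⟩
      rw [eq_comm, ← mul_inv_eq_one, ← map_inv, ← map_mul, πk]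
      show x.1 * c⁻¹ ∈ A
      rwa [← e, mul_inv_cancel_right]
  have cR : 8 < Nat.card S := by
    have c2 := L1ES.card_map_mul π (R.subgroupOf M)
    rw [Nat.card_congr (subgroupOfEquivOfLe (RA.trans CM)).toEquiv, ← hS,
      (eq_bot_iff_forall (R.subgroupOf M ⊓ π.ker)).2 fun x hx => inj x hx.1 hx.2, card_bot] at c2
    omega
  have m : z * s ∈ R := mul_mem zR hgR
  have e : π ⟨v, CM hv.2⟩ * π z' * (π ⟨v, CM hv.2⟩)⁻¹ = π ⟨z * s, CM (RA m)⟩ := by
    rw [← map_inv, ← map_mul, ← map_mul]; exact congrArg π (Subtype.ext ev)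
  have a1 : π ⟨v, CM hv.2⟩ * π z' * (π ⟨v, CM hv.2⟩)⁻¹ ∈ S := e ▸ ⟨_, m, rfl⟩
  have a2 : π ⟨v, CM hv.2⟩ * π z' * (π ⟨v, CM hv.2⟩)⁻¹ ≠ π z' := fun b => by
    have := b.symm.trans e
    rw [← inv_mul_eq_one, ← map_inv, ← map_mul] at this
    have := congrArg Subtype.val (inj _ (mul_mem (inv_mem zR) m) this)
    exact h'.ne (by simpa [z'] using this)
  exact le.large_of_conj a1 a2 (le.sym cR a1 a2)

end Cfsg.Agent.S5428
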