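import Cfsg.Statements.S5429
import Mathlib
import Cfsg.Agent.H29.Large
import Cfsg.Agent.L1.ES

set_option autoImplicit false
open Cfsg

namespace Cfsg.Agent.S5429
open Cfsg.Agent.H22 Cfsg.Agent.H29 Subgroup

theorem fuse {G : Type*} [Group G] {Q : Subgroup G} {z t s : G} (h : ES Q z) (ht : t ∈ Q) (hs : s ∈ Q)
    (tt : t * t = 1) (h1 : s ∉ zpowers z) (h2 : s * t ∉ zpowers z) :
    ∃ u ∈ Q ⊓ centralizer {t}, u * s * u⁻¹ = s * z :=
  h.toSP.exists_conj inf_le_left hs fun c => (h.cent_cent' ht hs c).elim h1 h2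

/-- Let z be an involution of the finite group G with centralizer C whose generalized Fitting subgroup Q is extraspecial of width at least 3 (order 2^(2w+1), w ≥ 3); let g be an element of G with g z g⁻¹ in Q but outside the centre Z of Q, and t an involution lying in both Q and g Q g⁻¹ that is not conjugate to z; write P for the centralizer of t in Q and suppose that the elements of C acting trivially by conjugation on P modulo the subgroup generated by t and z are exactly the elements of Q. Then the image of P in the centralizer of t modulo the subgroup generated by t is a large extraspecial 2-subgroup there, and g z g⁻¹ is conjugate to z inside the subgroup generated by P and the centralizer of t in g Q g⁻¹. -/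
theorem result {G : Type*} [Group G] [Finite G] (z : G) (hz : orderOf z = 2) (Q : Subgroup G) (hQC : Q ≤ Subgroup.centralizer ({z} : Set G)) (hF : (Cfsg.generalizedFittingSubgroup ↥(Subgroup.centralizer ({z} : Set G))).map (Subgroup.centralizer ({z} : Set G)).subtype = Q) (hQ : Cfsg.IsExtraspecial 2 ↥Q) (w : ℕ) (hw : 3 ≤ w) (hcard : Nat.card ↥Q = 2 ^ (2 * w + 1)) (g : G) (hgQ : g * z * g⁻¹ ∈ Q) (hgZ : g * z * g⁻¹ ∉ ((Subgroup.center ↥Q).map Q.subtype)) (t : G) (ht : orderOf t = 2) (htQ : t ∈ Q ⊓ (Q).map (MulAut.conj g).toMonoidHom) (htz : ¬ IsConj z t) (P : Subgroup G) (hP : P = Q ⊓ Subgroup.centralizer ({t} : Set G)) (hCP : ∀ c ∈ Subgroup.centralizer ({z} : Set G), (∀ x ∈ P, ∃ y ∈ Subgroup.closure ({t, z} : Set G), c * x * c⁻¹ = x * y) ↔ c ∈ Q) [hn : ((Subgroup.zpowers t).subgroupOf (Subgroup.centralizer ({t} : Set G))).Normal] : Cfsg.IsLargeExtraspecial ((P.subgroupOf (Subgroup.centralizer ({t} : Set G))).map (QuotientGroup.mk' ((Subgroup.zpowers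 t).subgroupOf (Subgroup.centralizer ({t} : Set G))))) ∧ ∃ x ∈ P ⊔ ((Q).map (MulAut.conj g).toMonoidHom ⊓ Subgroup.centralizer ({t} : Set G)), x * (g * z * g⁻¹) * x⁻¹ = z := by
  have h := (le_of_genFitting hz hF hQ).1
  rw [h.map_center] at hgZ
  set s := g * z * g⁻¹ with hs
  have tt : t * t = 1 := by rw [← pow_two, ← ht, pow_orderOf_eq_one]
  have t1 : t ≠ 1 := by rintro rfl; simp at ht
  have tz : t ≠ z := by rintro rfl; exact htz (IsConj.refl _)
  have tQ := htQ.1
  have c8 : 2 ^ 7 ≤ Nat.card Q := by rw [hcard]; exact Nat.pow_le_pow_right two_pos (by omega)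
  have sz : s ≠ z := fun e => hgZ (e ▸ mem_zpowers z)
  have zR : z ∈ cj g Q := h.sym (by omega) hgQ sz
  have h' := h.cj g
  rw [← hs] at h'
  have cs : IsConj z s := isConj_iff.2 ⟨g, rfl⟩
  obtain ⟨q, -, hq⟩ := h.toSP.exists_conj le_rfl tQ (h.toSP.not_mem_C tQ tt t1 tz)
  have ntz : ¬ IsConj z (t * z) := fun c => htz (c.trans (isConj_iff.2 ⟨q, hq⟩).symm)
  have zt : z * t = t * z := (h.toSP.comm_z tQ).symm
  have i2 : ∀ {a b : G}, a * t = b → a = b * t := fun e => by rw [← e, mul_assoc, tt, mul_one]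
  obtain ⟨u, hu, eu⟩ := fuse h.toES tQ hgQ tt hgZ (by
    rw [mem_zp2 h.zz]
    rintro (e | e)
    · exact htz ((show s = t by simpa using i2 e) ▸ cs)
    · exact ntz (zt ▸ i2 e ▸ cs))
  obtain ⟨q', -, hq'⟩ := h.toSP.exists_conj le_rfl hgQ (h.toES.not_mem_C' hgQ hgZ)
  obtain ⟨v, hv, ev⟩ := fuse h'.toES htQ.2 zR tt (by
    rw [mem_zp2 h'.zz]; rintro (e | e); exacts [h.ne e, sz e.symm]) (by
    rw [mem_zp2 h'.zz]
    rintro (e | e)
    · exact tz (by simpa using (i2 e).symm)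
    · refine htz (cs.trans (isConj_iff.2 ⟨q', ?_⟩))
      rw [hq', ← e, zt, mul_assoc, h.zz, mul_one])
  have zs : z * s = s * z := (h.toSP.comm_z hgQ).symm
  refine ⟨?_, v⁻¹ * u, mul_mem (mem_sup_right (inv_mem hv)) (mem_sup_left (hP ▸ hu)), ?_⟩
  swap
  · calc v⁻¹ * u * s * (v⁻¹ * u)⁻¹ = v⁻¹ * (u * s * u⁻¹) * v := by group
      _ = z := by rw [eu, ← zs, ← ev]; group
  generalize hπ : QuotientGroup.mk' ((zpowers t).subgroupOf (centralizer {t})) = π
  have πs : Function.Surjective π := hπ ▸ QuotientGroup.mk'_surjective _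
  have πk : ∀ x, π x = 1 ↔ x.1 = 1 ∨ x.1 = t := fun x => by
    rw [← hπ, QuotientGroup.mk'_apply, QuotientGroup.eq_one_iff, mem_subgroupOf, mem_zp2 tt]
  have πe : ∀ m n, π m = π n ↔ n.1 = m.1 ∨ n.1 = m.1 * t := fun m n => by
    rw [← inv_mul_eq_one, ← map_inv, ← map_mul, πk]
    exact or_congr (inv_mul_eq_one.trans eq_comm) inv_mul_eq_iff_eq_mul
  set R := (P.subgroupOf (centralizer {t})).map π with hR
  have mR : ∀ x, π x ∈ R ↔ x.1 ∈ Q := fun x => by
    refine ⟨?_, fun b => ⟨x, mem_subgroupOf.2 (hP ▸ ⟨b, x.2⟩), rfl⟩⟩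
    rintro ⟨y, b, e⟩
    have b : y.1 ∈ Q := (hP ▸ mem_subgroupOf.1 b : y.1 ∈ Q ⊓ _).1
    rcases (πe _ _).1 e with e | e <;> rw [e]
    exacts [b, mul_mem b tQ]
  let z' : centralizer ({t} : Set G) := ⟨z, mem_C1.2 zt⟩
  have Cz : ∀ x, π x * π z' = π z' * π x → x.1 * z = z * x.1 := fun x e => by
    have : π z' = π (x * z' * x⁻¹) := by rw [map_mul, map_mul, e, map_inv, mul_inv_cancel_right]
    rcases (πe _ _).1 this with e | e
    · exact mul_inv_eq_iff_eq_mul.1 e
    · exact (ntz (isConj_iff.2 ⟨x.1, e.trans zt⟩)).elim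
  have zz : π z' * π z' = 1 := by rw [← map_mul, πk]; exact Or.inl h.zz
  have z1 : π z' ≠ 1 := fun e => ((πk _).1 e).elim h.ne tz.symm
  have cen : ∀ x ∈ R, x ∈ C[R] → x = 1 ∨ x = π z' := fun x hx c => by
    obtain ⟨x, rfl⟩ := πs x
    have xQ := (mR x).1 hx
    have := h.toES.cent_cent' tQ xQ (mem_C.2 fun y hy => by
      have := mem_C.1 c (π ⟨y, hy.2⟩) ((mR _).2 hy.1)
      rw [← map_mul, ← map_mul, πe] at this
      rcases this with b | b
      · exact b.symm
      · by_contra n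
        have := h.toSP.conj_of_ne xQ hy.1 (Ne.symm n)
        rw [mul_inv_eq_iff_eq_mul, show x.1 * y = y * x.1 * t from b, mul_assoc, mul_assoc, mul_left_cancel_iff,
          ← h.toSP.comm_z xQ, mul_left_cancel_iff] at this
        exact tz this)
    rw [πk, eq_comm (b := π z'), πe]
    rw [mem_zp2 h.zz, mem_zp2 h.zz] at this
    rcases this with (e | e) | e | e
    · exact Or.inl (Or.inl e)
    · exact Or.inr (Or.inl e)
    · exact Or.inl (Or.inr (by simpa using i2 e))
    · exact Or.inr (Or.inr (i2 e))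
  have cR : 8 < Nat.card R := by
    have c1 := h.toSP.card_le le_rfl tQ
    have c2 := L1ES.card_map_mul π (P.subgroupOf (centralizer {t}))
    rw [Nat.card_congr (subgroupOfEquivOfLe (hP ▸ inf_le_right)).toEquiv, ← hR] at c2
    have c3 : Nat.card ↥(P.subgroupOf (centralizer {t}) ⊓ π.ker) ≤ 2 := by
      refine (card_le_of_le inf_le_right).trans ?_
      rw [← hπ, QuotientGroup.ker_mk', Nat.card_congr (subgroupOfEquivOfLe (zpowers_le.2 (mem_C1.2 rfl))).toEquiv,
        card_zp2 tt t1]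
    rw [← hP, ← c2] at c1
    nlinarith
  have le : LE R (π z') := by
    refine ⟨⟨⟨z1, zz, (mR _).2 h.mem, fun x hx => ?_, fun x hx c _ => cen x hx c⟩, cen, fun c => ?_⟩, fun x hx => ?_,
      fun x hx => ?_⟩
    · obtain ⟨x, rfl⟩ := πs x
      rw [← map_mul]
      rcases h.sq _ ((mR x).1 hx) with e | e
      · exact Or.inl ((πk _).2 (Or.inl e))
      · exact Or.inr (congrArg π (Subtype.ext e))
    · have := card_le_of_le (show R ≤ zpowers (π z') from fun x hx => (mem_zp2 zz).2 (cen x hx (c hx)))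
      rw [card_zp2 zz z1] at this
      omega
    · obtain ⟨x, rfl⟩ := πs x
      have n := h.nrm (mem_C1.2 (Cz x (mem_C1.1 hx)))
      refine mem_normalizer_iff.2 fun y => ?_
      obtain ⟨y, rfl⟩ := πs y
      rw [← map_inv, ← map_mul, ← map_mul, mR, mR]
      exact mem_normalizer_iff.1 n y.1
    · obtain ⟨x, rfl⟩ := πs x
      refine (mR x).2 ((hCP _ (mem_C1.2 (Cz x (mem_C.1 hx _ ((mR _).2 h.mem)).symm))).1 fun y hy => ?_)
      have hy : y ∈ Q ⊓ centralizer {t} := hP ▸ hy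
      have : π ⟨y, hy.2⟩ = π (x * ⟨y, hy.2⟩ * x⁻¹) := by
        rw [map_mul, map_mul, ← mem_C.1 hx _ ((mR _).2 hy.1), map_inv, mul_inv_cancel_right]
      rcases (πe _ _).1 this with e | e
      · exact ⟨1, one_mem _, by rw [mul_one]; exact e⟩
      · exact ⟨t, subset_closure (by simp), e⟩
  have st : s * t = t * s := (h'.toSP.comm_z htQ.2).symm
  have e : π ⟨v, hv.2⟩ * π z' * (π ⟨v, hv.2⟩)⁻¹ = π ⟨z * s, mul_mem z'.2 (mem_C1.2 st)⟩ := by
    rw [← map_inv, ← map_mul, ← map_mul]; exact congrArg π (Subtype.ext ev)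
  have a1 : π ⟨v, hv.2⟩ * π z' * (π ⟨v, hv.2⟩)⁻¹ ∈ R := e ▸ (mR _).2 (mul_mem h.mem hgQ)
  have a2 : π ⟨v, hv.2⟩ * π z' * (π ⟨v, hv.2⟩)⁻¹ ≠ π z' := fun b => by
    rcases (πe _ _).1 (b.symm.trans e) with b | b
    · exact h'.ne (by simpa [z'] using b)
    · exact htz ((show s = t by simpa [z'] using b) ▸ cs)
  exact le.large_of_conj a1 a2 (le.sym cR a1 a2)

end Cfsg.Agent.S5429
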