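import Cfsg.Statements.S5431
import Mathlib
import Cfsg.Agent.H29.Pair

set_option autoImplicit false
open Cfsg

namespace Cfsg.Agent.S5431

open Cfsg.Agent.H22 Subgroup
open scoped commutatorElement

/-- Let Q be a large extraspecial 2-subgroup of the finite group G (extraspecial; centralizer equal to its centre; normal in the centralizer of its centre; normalizing no non-trivial subgroup of odd order) with centre generated by z, an involution, of width w ≥ 2 (order 2^(2w+1)); let g be an element outside the centralizer H of z with g z g⁻¹ in Q; write V for the subgroup generated by z and g z g⁻¹, X for the subgroup generated by Q and g Q g⁻¹, R for the subgroup generated by the centralizer of z in g Q g⁻¹ and the centralizer of g z g⁻¹ in Q, and E for the intersection of Q and g Q g⁻¹. Then V is the centre of R, E lies in the second centre of R, R is nilpotent of class at most 3, E and R/E are elementary abelian, R/E is the direct product of the images of the centralizer of g z g⁻¹ in Q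 and of the centralizer of z in g Q g⁻¹ (R is their product and they meet in E), and the commutator subgroup of X and E lies in V. -/
theorem result {G : Type*} [Group G] [Finite G] (Q : Subgroup G) (hQ : Cfsg.IsLargeExtraspecial Q) (z : G) (hz : ((Subgroup.center ↥Q).map Q.subtype) = Subgroup.zpowers z) (hz2 : orderOf z = 2) (w : ℕ) (hw : 2 ≤ w) (hcard : Nat.card ↥Q = 2 ^ (2 * w + 1)) (g : G) (hgH : g ∉ Subgroup.centralizer ({z} : Set G)) (hgQ : g * z * g⁻¹ ∈ Q) (V X R E : Subgroup G) (hV : V = Subgroup.closure ({z, g * z * g⁻¹} : Set G)) (hX : X = Q ⊔ (Q).map (MulAut.conj g).toMonoidHom) (hR : R = ((Q).map (MulAut.conj g).toMonoidHom ⊓ Subgroup.centralizer ({z} : Set G)) ⊔ (Q ⊓ Subgroup.centralizer ({g * z * g⁻¹} : Set G))) (hE : E = Q ⊓ (Q).map (MulAut.conj g).toMonoidHom) : (Subgroup.center ↥R).map R.subtype = V ∧ E ≤ (Subgroup.upperCentralSeries ↥R 2).map R.subtype ∧ Subgroup.upperCentralSeries ↥R 3 = ⊤ ∧ Cfsg.IsElementaryAbelian 2 E ∧ (∀ x ∈ R, ∀ y ∈ R, x * y * x⁻¹ * y⁻¹ ∈ E ∧ x ^ 2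 ∈ E) ∧ ((Q).map (MulAut.conj g).toMonoidHom ⊓ Subgroup.centralizer ({z} : Set G)) ⊓ (Q ⊓ Subgroup.centralizer ({g * z * g⁻¹} : Set G)) = E ∧ ⁅X, E⁆ ≤ V := by
  have H := (H29.le_of_isLarge' hQ hz).pr (by
    rw [hcard]; exact Nat.pow_lt_pow_right (a := 2) (m := 3) one_lt_two (by omega)) hgQ fun e => hgH (H29.mem_C1'.2 e)
  rw [H29.closure_pair'] at hV
  have h1 : (center R).map R.subtype = V := by rw [map_center_subtype, hR, hV]; exact H.center_R
  have h2 : ⁅X, E⁆ ≤ V := by rw [hX, hE, hV]; exact H.comm_X_E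
  have h3 : ⁅R, R⁆ ≤ E := by rw [hR, hE]; exact H.comm_R
  have h4 : R ≤ X := by rw [hR, hX]; exact H.R_le_X
  have h5 : ∀ x : R, (x : G) ∈ E → x ∈ Subgroup.upperCentralSeries R 2 := fun x hx => by
    refine Subgroup.mem_upperCentralSeries_succ_iff.2 fun y => ?_
    rw [Subgroup.upperCentralSeries_one]
    have := h2 (commutator_mem_commutator (h4 y.2) hx)
    rw [← h1, ← inv_mem_iff, commutatorElement_inv] at this
    obtain ⟨c, hc, e⟩ := this
    exact (Subtype.ext e : c = ⁅x, y⁆) ▸ hc
  have h6 : E ≤ R := by rw [hR, hE]; exact H.E_eq.ge.trans (inf_le_left.trans le_sup_left)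
  refine ⟨h1, fun x hx => ⟨⟨x, h6 hx⟩, h5 _ hx, rfl⟩, eq_top_iff.2 fun x _ => Subgroup.mem_upperCentralSeries_succ_iff.2
    fun y => h5 _ (h3 (commutator_mem_commutator x.2 y.2)), hE ▸ H.elemAb_E, fun x hx y hy =>
    ⟨h3 (commutator_mem_commutator hx hy), hE ▸ H.sq_R (hR ▸ hx)⟩, hE ▸ H.E_eq, h2⟩

end Cfsg.Agent.S5431
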