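import Cfsg.Statements.S5434
import Mathlib
import Cfsg.Agent.H29.Sing

set_option autoImplicit false
open Cfsg

namespace Cfsg.Agent.S5434

open Cfsg.Agent.H22 Subgroup

/-- Let Q be a large extraspecial 2-subgroup of the finite group G (extraspecial; centralizer equal to its centre; normal in the centralizer of its centre; normalizing no non-trivial subgroup of odd order), and A a non-trivial subgroup of odd order of the normalizer of Q. Then Q is the central product of the centralizer of A in Q and the commutator subgroup [Q, A] (they generate Q and commute elementwise), [Q, A] is extraspecial, and the centralizer of A in Q is either the centre of Q or extraspecial. -/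
theorem result {G : Type*} [Group G] [Finite G] (Q : Subgroup G) (hQ : Cfsg.IsLargeExtraspecial Q) (A : Subgroup G) (hA : A ≤ Subgroup.normalizer (Q : Set G)) (hAodd : Odd (Nat.card ↥A)) (hA1 : A ≠ ⊥) : (Q ⊓ Subgroup.centralizer (A : Set G)) ⊔ ⁅Q, A⁆ = Q ∧ (∀ x ∈ Q ⊓ Subgroup.centralizer (A : Set G), ∀ y ∈ ⁅Q, A⁆, x * y = y * x) ∧ Cfsg.IsExtraspecial 2 ↥⁅Q, A⁆ ∧ (Q ⊓ Subgroup.centralizer (A : Set G) = ((Subgroup.center ↥Q).map Q.subtype) ∨ Cfsg.IsExtraspecial 2 ↥(Q ⊓ Subgroup.centralizer (A : Set G))) := by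
  obtain ⟨z, h⟩ := H29.le_of_isLarge hQ.1 hQ.2.1 hQ.2.2.1
  rw [h.map_center]
  obtain ⟨h1, h2, h3, h4⟩ := h.toES.coprime hA hAodd
  refine ⟨sup_comm _ _ |>.trans h1, fun x hx y hy => (mem_C.1 (h2 hx) y hy).symm, (h3.resolve_left fun e => hA1 ?_).isExtraspecial,
    h4.imp id fun e => e.isExtraspecial⟩
  exact pgrp_eq_bot_of_coprime (h.pgrp.to_le ((le_C_iff_comm'.2 e).trans h.cenle)) (Nat.coprime_two_right.2 hAodd)

end Cfsg.Agent.S5434
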