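import Cfsg.Statements.S5435
import Mathlib
import Cfsg.Agent.H29.TT
import Cfsg.Agent.H29.ES
import Cfsg.Agent.H3.Two
import Cfsg.Agent.S0215

set_option autoImplicit false
open Cfsg

namespace Cfsg.Agent.S5435
open Cfsg.Agent.H22 Cfsg.Agent.H29 Subgroup

/-- Let L be a finite non-abelian simple group with an involution z whose centralizer R is a Sylow 2-subgroup of L whose Frattini subgroup is the subgroup generated by z. Then R is dihedral of order 8. -/
theorem result {L : Type*} [Group L] [Finite L] [IsSimpleGroup L] (hL : ¬ IsMulCommutative L) (z : L) (hz : orderOf z = 2) (R : Sylow 2 L) (hR : (R : Subgroup L) = Subgroup.centralizer ({z} : Set L)) (hΦ : (frattini ↥(R : Subgroup L)).map (R : Subgroup L).subtype = Subgroup.zpowers z) : Nonempty (↥(R : Subgroup L) ≃* DihedralGroup 4) := by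
  haveI : Fact (Nat.Prime 2) := ⟨Nat.prime_two⟩
  have zz : z * z = 1 := by rw [← pow_two, ← hz, pow_orderOf_eq_one]
  have z1 : z ≠ 1 := by rintro rfl; simp at hz
  have zR : z ∈ (R : Subgroup L) := hR ▸ mem_C1.2 rfl
  have sq : ∀ x ∈ (R : Subgroup L), x * x = 1 ∨ x * x = z := fun x hx => by
    rw [← mem_zp2 zz, ← hΦ, ← pow_two]; exact H3.pow_mem_map_frattini R.isPGroup' hx
  obtain ⟨r, rR, hr⟩ : ∃ r ∈ (R : Subgroup L), r * r = z := by
    by_contra c
    push Not at c
    have : frattini (R : Subgroup L) = ⊥ := by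
      rw [H3.frattini_eq_of_two R.isPGroup', eq_bot_iff, closure_le]
      rintro _ ⟨x, rfl⟩
      exact Subtype.ext (by simpa [pow_two] using (sq _ x.2).resolve_right (c _ x.2))
    rw [this, Subgroup.map_bot, eq_comm, zpowers_eq_bot] at hΦ
    exact z1 hΦ
  have nR : ∀ g : L, g * r * g⁻¹ ∈ (R : Subgroup L) → g ∈ (R : Subgroup L) := fun g hg => by
    have := sq _ hg
    rw [conj_mul, hr] at this
    exact hR ▸ mem_C1'.2 (this.resolve_left (by simpa using z1))
  have n2 : ∀ M : Subgroup L, M.Normal → M.index ≠ 2 := fun M hM e => by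
    rcases hM.eq_bot_or_eq_top with rfl | rfl
    · rw [index_bot] at e
      haveI := isCyclic_of_prime_card (p := 2) e
      exact hL inferInstance
    · simp at e
  have sp : SP (R : Subgroup L) z := by
    refine ⟨z1, zz, zR, sq, fun t tR tC tt => ?_⟩
    by_contra c
    rw [← mem_zp2 zz, ← hΦ] at c
    obtain ⟨M, hM⟩ := H3.exists_index_p_not_mem (p := 2) (frattini (R : Subgroup L)) (H3.commutator_le_frattini R.isPGroup')
      (H3.pow_mem_frattini R.isPGroup') (x := ⟨t, tR⟩) fun e => c ⟨_, e, rfl⟩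
    have od : ¬ 2 ∣ (R : Subgroup L).index := R.not_dvd_index
    obtain ⟨g, a, b⟩ := tt_extremal (H := R) (K := M.map (R : Subgroup L).subtype) (P := R) (x := t)
      (Nat.odd_iff.2 (by omega)) (map_subtype_le _)
      (by rw [relIndex, subgroupOf, comap_map_eq_self_of_injective (subtype_injective _)]; exact hM.2.2) tt
      (fun M a b => absurd b (n2 M a)) R.isPGroup' fun x hx => mem_C1.2 (mem_C.1 tC x hx)
    have gR := nR g⁻¹ (by simpa using mem_cj.1 (b rR))
    rw [mem_C.1 tC _ gR, inv_mul_cancel_right] at a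
    obtain ⟨y, hy, e⟩ := a
    exact hM.2.1 ((Subtype.ext e : y = ⟨t, tR⟩) ▸ hy)
  obtain ⟨g, sR, sz⟩ : ∃ g : L, g * z * g⁻¹ ∈ (R : Subgroup L) ∧ g * z * g⁻¹ ≠ z := by
    by_contra c
    push Not at c
    obtain ⟨N, hN, o, h⟩ := S0215.result R z hz zR c
    rcases hN.eq_bot_or_eq_top with rfl | rfl
    · have : z ∈ center L := mem_center_iff.2 fun g => by
        have := mem_bot.1 (h g)
        rw [mul_inv_eq_one, mul_inv_eq_iff_eq_mul] at this
        exact this.symm
      rcases (inferInstance : (center L).Normal).eq_bot_or_eq_top with e | e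
      · exact z1 (mem_bot.1 (e ▸ this))
      · exact hL (center_eq_top_iff.1 e)
    · rw [card_top] at o
      exact (Nat.not_even_iff_odd.2 o) (even_iff_two_dvd.2 (hz ▸ orderOf_dvd_natCard z))
  have sp' := sp.cj g
  have eC : cj g R = centralizer {g * z * g⁻¹} := by rw [hR, cj_centralizer_singleton]
  rw [eC] at sp'
  generalize g * z * g⁻¹ = s at *
  have A2 : ∀ x ∈ (R : Subgroup L) ⊓ centralizer {s}, x * x = 1 := fun x hx =>
    (sq x hx.1).elim id fun e => (sp'.sq x hx.2).resolve_right fun e' => sz (e'.symm.trans e)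
  have sC := sp.not_mem_C sR sp'.zz sp'.ne sz
  have es : ES (R : Subgroup L) z := ⟨sp, fun x hx c => sp.om x hx c (A2 x ⟨hx, mem_C1.2 (mem_C.1 c s sR).symm⟩),
    fun c => sC (c sR)⟩
  have c1 := sp.card_le le_rfl sR
  have c2 := (es.card_perp (A := R ⊓ centralizer {s}) inf_le_left ⟨zR, mem_C1.2 (sp.comm_z sR).symm⟩).1
  have c3 : (R : Subgroup L) ⊓ centralizer {s} ≤ (R : Subgroup L) ⊓ C[(R : Subgroup L) ⊓ centralizer {s}] := fun x hx =>
    ⟨hx.1, mem_C.2 fun y hy => by
      have i := fun x hx => inv_eq_of_mul_eq_one_right (A2 x hx)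
      rw [← i _ (mul_mem hy hx), mul_inv_rev, i _ hx, i _ hy]⟩
  have c4 := card_le_of_le c3
  have c5 : Nat.card (R : Subgroup L) ≤ 8 := by
    have : 0 < Nat.card ↥((R : Subgroup L) ⊓ centralizer {s}) := Nat.card_pos
    nlinarith
  have rs : s * r ≠ r * s := fun e => z1 (hr ▸ A2 r ⟨rR, mem_C1.2 e.symm⟩)
  have cj := sp.conj_of_ne sR rR rs
  have ri : r * z = r⁻¹ := eq_inv_of_mul_eq_one_right (by rw [← mul_assoc, hr, zz])
  have o4 : orderOf r = 2 ^ 2 := orderOf_eq_prime_pow (by simpa [pow_two, hr] using z1) (sp.pow_four rR)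
  have nm : s ∉ zpowers r := by
    rintro ⟨k, rfl⟩
    exact rs ((Commute.refl r).zpow_left k)
  have le : zpowers r ⊔ zpowers s ≤ R := sup_le (zpowers_le.2 rR) (zpowers_le.2 sR)
  have := pgrp_mul_card_le (p := 2) (R.isPGroup'.to_le le)
    (lt_of_le_of_ne le_sup_left fun e => nm (e ▸ mem_sup_right (mem_zpowers s)) : zpowers r < zpowers r ⊔ zpowers s)
  rw [Nat.card_zpowers, o4] at this
  have mc : H3.MCD (R : Subgroup L) r s 2 := ⟨⟨le_rfl, o4, nm, eq_of_le_of_card_ge le (by omega),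
    by rw [pow_two, sp'.zz]; exact one_mem _, Or.inl (cj.trans ri)⟩, cj.trans ri, by rw [pow_two, sp'.zz]⟩
  exact mc.iso

end Cfsg.Agent.S5435
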