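import Cfsg.Statements.S5436
import Mathlib
import Cfsg.Agent.L1.LgS
import Cfsg.Agent.H3.Extra

set_option autoImplicit false
open Cfsg

namespace Cfsg.Agent.S5436
open Cfsg.Agent.H22 Cfsg.Agent.H29 Subgroup

/-- Let z be an involution of the finite group G with centralizer H whose generalized Fitting subgroup Q is extraspecial of width at least 2 (order 2^(2w+1), w ≥ 2); suppose some conjugate of z other than z lies in Q, H/Q is a non-abelian simple group, H acts irreducibly by conjugation on Q modulo the subgroup generated by z (the only H-invariant subgroups of Q containing z are that subgroup and Q), and Q is not the subgroup generated by the conjugates of z lying in H. Then G is simple. -/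
theorem result {G : Type*} [Group G] [Finite G] (z : G) (hz : orderOf z = 2) (Q : Subgroup (Subgroup.centralizer ({z} : Set G))) [Q.Normal] (hF : Cfsg.generalizedFittingSubgroup ↥(Subgroup.centralizer ({z} : Set G)) = Q) (hQ : Cfsg.IsExtraspecial 2 ↥Q) (w : ℕ) (hw : 2 ≤ w) (hcard : Nat.card ↥Q = 2 ^ (2 * w + 1)) (hnwc : ∃ g : G, (∃ hq : g * z * g⁻¹ ∈ Subgroup.centralizer ({z} : Set G), (⟨g * z * g⁻¹, hq⟩ : Subgroup.centralizer ({z} : Set G)) ∈ Q) ∧ g * z * g⁻¹ ≠ z) (hsimp : IsSimpleGroup (↥(Subgroup.centralizer ({z} : Set G)) ⧸ Q)) (hna : ¬ IsMulCommutative (↥(Subgroup.centralizer ({z} : Set G)) ⧸ Q)) (hirr : ∀ W : Subgroup (Subgroup.centralizer ({z} : Set G)), W.Normal → W ≤ Q → (W = Q ∨ ∀ x ∈ W, (x : G) ∈ Subgroup.zpowers z)) (hwcl : Subgroup.closure {x : Subgroup.centralizer ({z} : Set G) | IsConj z (x : G)} ≠ Q) : IsSimpleGroup G := by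
  have h := (le_of_genFitting hz (Q := Q.map (centralizer {z}).subtype) (by rw [hF])
    (H3.isExtraspecial_of_equiv hQ (equivMapOfInjective _ _ (subtype_injective _)))).1
  have c8 : 2 ^ 5 ≤ Nat.card (Q.map (centralizer {z}).subtype) := by
    rw [card_map_of_injective (subtype_injective _), hcard]; exact Nat.pow_le_pow_right two_pos (by omega)
  obtain ⟨g, ⟨m, a⟩, b⟩ := hnwc
  have a' : g * z * g⁻¹ ∈ Q.map (centralizer {z}).subtype := ⟨_, a, rfl⟩
  refine L1Lg.simple h (h.large_of_conj a' b (h.sym (by omega) a' b)) fun N hN zN => ?_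
  set W := closure {x : centralizer ({z} : Set G) | IsConj z (x : G)} with hW
  have nW : W.Normal := ⟨fun x hx c => by
    induction hx using closure_induction with
    | mem x hx => exact subset_closure (IsConj.trans hx (isConj_iff.2 ⟨c.1, rfl⟩))
    | one => simpa using one_mem W
    | mul x y _ _ a b => rw [← conj_mul]; exact mul_mem a b
    | inv x _ a => rw [← conj_inv]; exact inv_mem a⟩
  have QW : Q ≤ W := by
    rcases hirr (W ⊓ Q) inferInstance inf_le_right with e | e
    · exact e ▸ inf_le_left
    · have := e _ ⟨subset_closure (isConj_iff.2 ⟨g, rfl⟩), a⟩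
      rcases (mem_zp2 h.zz).1 this with e | e
      · exact absurd e (h.cj g).ne
      · exact absurd e b
  have : W = ⊤ := by
    rcases (nW.map _ (QuotientGroup.mk'_surjective Q)).eq_bot_or_eq_top with e | e
    · rw [Subgroup.map_eq_bot_iff, QuotientGroup.ker_mk'] at e
      exact absurd (le_antisymm e QW) hwcl
    · have := congrArg (comap (QuotientGroup.mk' Q)) e
      rwa [comap_map_eq, QuotientGroup.ker_mk', sup_eq_left.2 QW, comap_top] at this
  intro x hx
  have : W ≤ N.subgroupOf _ := (closure_le _).2 fun y hy => by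
    obtain ⟨c, e⟩ := isConj_iff.1 hy
    exact mem_subgroupOf.2 (e ▸ hN.conj_mem _ zN c)
  exact this (show (⟨x, hx⟩ : centralizer ({z} : Set G)) ∈ W from ‹W = ⊤› ▸ mem_top _)

end Cfsg.Agent.S5436
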