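import Cfsg.Statements.S5437
import Mathlib
import Cfsg.Agent.H29.UF

set_option autoImplicit false
open Cfsg

namespace Cfsg.Agent.S5437

open Cfsg.Agent.H22

/-- Let I be a set of involutions of the finite group G closed under conjugation, and H a subgroup of G. The following are equivalent: (1) for every member x of I lying in H, the conjugates of x lying in H form a single H-class and the centralizer of x lies in H; (2) for every g outside H, no member of I lies in both H and g H g⁻¹; (3) every member of I lying in H fixes exactly one coset in the action of G on the cosets of H. -/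
theorem result {G : Type*} [Group G] [Finite G] (I : Set G) (hI : ∀ x ∈ I, orderOf x = 2) (hIc : ∀ g : G, ∀ x ∈ I, g * x * g⁻¹ ∈ I) (H : Subgroup G) : ((∀ x ∈ I, x ∈ H → (∀ g : G, g * x * g⁻¹ ∈ H → ∃ h ∈ H, h * x * h⁻¹ = g * x * g⁻¹) ∧ Subgroup.centralizer ({x} : Set G) ≤ H) ↔ (∀ g : G, g ∉ H → ∀ x ∈ I, ¬ (x ∈ H ∧ x ∈ (H : Subgroup G).map (MulAut.conj g).toMonoidHom))) ∧ ((∀ g : G, g ∉ H → ∀ x ∈ I, ¬ (x ∈ H ∧ x ∈ (H : Subgroup G).map (MulAut.conj g).toMonoidHom)) ↔ ∀ x ∈ I, x ∈ H → ∃! c : G ⧸ H, x • c = c) := by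
  have key : (∀ g : G, g ∉ H → ∀ x ∈ I, ¬ (x ∈ H ∧ x ∈ (H : Subgroup G).map (MulAut.conj g).toMonoidHom)) ↔
      ∀ x ∈ I, x ∈ H → H29.UF H x :=
    ⟨fun h x hx hxH => ⟨hxH, fun g hg => by
      by_contra hn
      exact h g⁻¹ (by simpa using hn) x hx ⟨hxH, mem_cj.2 (by simpa using hg)⟩⟩,
     fun h g hg x hx h1 => hg ((h x hx h1.1).fix' (mem_cj.1 h1.2))⟩
  rw [key]
  refine ⟨⟨fun h x hx hxH => ⟨hxH, fun g hg => ?_⟩, fun h x hx hxH =>
    ⟨fun g hg => ⟨g, (h x hx hxH).fix g hg, rfl⟩, (h x hx hxH).C_le⟩⟩,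
    fun h x hx hxH => (h x hx hxH).existsUnique, fun h x hx hxH => H29.uf_of_existsUnique hxH (h x hx hxH)⟩
  obtain ⟨a, ha, e⟩ := (h x hx hxH).1 g hg
  have : a⁻¹ * g ∈ H := (h x hx hxH).2 (H29.mem_C1'.2 (by
    calc _ = a⁻¹ * (g * x * g⁻¹) * a := by group
      _ = _ := by rw [← e]; group))
  simpa using mul_mem ha this

end Cfsg.Agent.S5437
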