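import Cfsg.Statements.S5438
import Mathlib
import Cfsg.Agent.H29.UF

set_option autoImplicit false
open Cfsg

namespace Cfsg.Agent.S5438

open Cfsg.Agent.H22

/-- Let z be a 2-central involution of the finite group G (an involution central in some Sylow 2-subgroup) and H a subgroup containing z such that the coset H is the only coset of H fixed by z (in the action of G on the cosets of H). Then H has odd index in G, and for every 2-element x of H the conjugates of x lying in H form a single H-class. -/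
theorem result {G : Type*} [Group G] [Finite G] (z : G) (hz : Cfsg.IsTwoCentralInvolution z) (H : Subgroup G) (hzH : z ∈ H) (hfix : ∀ g : G, g⁻¹ * z * g ∈ H → g ∈ H) : Odd H.index ∧ ∀ x ∈ H, (∃ k : ℕ, orderOf x = 2 ^ k) → ∀ g : G, g * x * g⁻¹ ∈ H → ∃ h ∈ H, h * x * h⁻¹ = g * x * g⁻¹ := by
  have h : H29.UF H z := ⟨hzH, fun g hg => by simpa using hfix g⁻¹ (by simpa using hg)⟩
  obtain ⟨h2, S, -, hS⟩ := hz
  have hS' : (S : Subgroup G) ≤ Subgroup.centralizer {z} := fun x hx => H29.mem_C1.2 (hS x hx)
  refine ⟨?_, fun x hx ⟨k, hk⟩ g hg => ?_⟩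
  · have := not_dvd_relIndex_of_syl_le (H18.sylIn_top S) (hS'.trans h.C_le)
    rw [Subgroup.relIndex_top_right] at this
    exact Nat.not_even_iff_odd.1 fun h => this (even_iff_two_dvd.1 h)
  · obtain ⟨c, hc, h1⟩ := h.control (p := 2) (k := 1) (by rw [pow_one, ← h2, pow_orderOf_eq_one])
      (H18.sylIn_top S) hS' (pgrp_zpowers (k := k) (by rw [← hk, pow_orderOf_eq_one]))
      (Subgroup.zpowers_le.2 hx) (g := g) (by rw [cj_zpowers]; exact Subgroup.zpowers_le.2 hg)
    rw [C_zpowers] at hc
    refine ⟨_, h1, ?_⟩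
    calc _ = g * (c * x * c⁻¹) * g⁻¹ := by group
      _ = _ := by rw [H29.mem_C1'.1 hc]

end Cfsg.Agent.S5438
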