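import Cfsg.Statements.S5439
import Mathlib
import Cfsg.Agent.H29.UF

set_option autoImplicit false
open Cfsg

namespace Cfsg.Agent.S5439

open Cfsg.Agent.H22

/-- Let I and J be two different conjugacy classes of involutions of the finite group G and H a subgroup such that every member of I ∪ J fixes exactly one coset in the action on the cosets of H, and such that for every a in I ∩ H and every b in (I ∪ J) ∩ H different from a and commuting with it, the centralizer of a b lies in H. Then H = G. -/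
theorem result {G : Type*} [Group G] [Finite G] (I J : Set G) (a₀ b₀ : G) (ha₀ : orderOf a₀ = 2) (hb₀ : orderOf b₀ = 2) (hI : I = {x | IsConj a₀ x}) (hJ : J = {x | IsConj b₀ x}) (hIJ : I ≠ J) (H : Subgroup G) (hfix : ∀ x ∈ I ∪ J, ∃! c : G ⧸ H, x • c = c) (hcent : ∀ a ∈ I, a ∈ H → ∀ b ∈ I ∪ J, b ∈ H → a ≠ b → a * b = b * a → Subgroup.centralizer ({a * b} : Set G) ≤ H) : H = ⊤ := by
  by_contra hH
  obtain ⟨g, hg⟩ : ∃ g, g ∉ H := by
    by_contra h
    exact hH (eq_top_iff.2 fun g _ => by_contra fun hg => h ⟨g, hg⟩)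
  have hcj : ∀ {x y : G}, x ∈ I ∪ J → IsConj x y → y ∈ I ∪ J := fun hx h => by
    subst hI hJ
    exact hx.imp (fun h1 => IsConj.trans h1 h) (fun h1 => IsConj.trans h1 h)
  have hin : ∀ x ∈ I ∪ J, ∃ y ∈ H, IsConj x y := fun x hx => by
    obtain ⟨c, hc⟩ := (hfix x hx).exists
    obtain ⟨k, rfl⟩ := QuotientGroup.mk_surjective c
    exact ⟨_, H29.smul_mk_eq_iff.1 hc, isConj_iff.2 ⟨k⁻¹, by simp⟩⟩
  have ha0 : a₀ ∈ I ∪ J := .inl (hI ▸ IsConj.refl _)
  have hb0 : b₀ ∈ I ∪ J := .inr (hJ ▸ IsConj.refl _)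
  obtain ⟨a, haH, ha⟩ := hin a₀ ha0
  obtain ⟨b', hbH, hb'⟩ := hin b₀ hb0
  have ua := H29.uf_of_existsUnique haH (hfix a (hcj ha0 ha))
  have ub := H29.uf_of_existsUnique hbH (hfix b' (hcj hb0 hb'))
  set b := g * b' * g⁻¹ with hbd
  have hb : IsConj b₀ b := hb'.trans (isConj_iff.2 ⟨g, rfl⟩)
  have hbH : b ∉ H := fun h => hg (ub.fix g h)
  have a2 := H20.mul_self_of_orderOf_two ((H20.orderOf_eq_of_isConj ha).symm.trans ha₀)
  have b2 := H20.mul_self_of_orderOf_two ((H20.orderOf_eq_of_isConj hb).symm.trans hb₀)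
  have he : Even (orderOf (a * b)) := Nat.not_odd_iff_even.1 fun h => hIJ (by
    have := ha.trans ((H20.isConj_of_odd_orderOf_mul a2 b2 h).trans hb.symm)
    subst hI hJ
    exact Set.ext fun x => ⟨fun h => this.symm.trans h, fun h => this.trans h⟩)
  obtain ⟨h3, h4, h5⟩ := H20.half_pow_spec a2 b2 he
  have h6 : a * (a * b) ^ (orderOf (a * b) / 2) ∈ I ∪ J := by
    rcases H20.mul_half_pow_isConj a2 b2 (orderOf (a * b) / 2) with ⟨k, hk⟩ | ⟨k, hk⟩
    · exact hcj (hcj ha0 ha) (isConj_iff.2 ⟨_, hk⟩)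
    · exact hcj (hcj hb0 hb) (isConj_iff.2 ⟨_, hk⟩)
  generalize (a * b) ^ (orderOf (a * b) / 2) = w at *
  have h7 := hcent a (hI ▸ ha) haH _ h6 (mul_mem haH (ua.of_comm h4.eq))
    (fun h => H20.ne_one_of_orderOf_two h3 (by simpa using h.symm)) (by rw [mul_assoc, h4.eq])
  rw [← mul_assoc, a2, one_mul] at h7
  exact hbH (h7 (H29.mem_C1.2 h5.eq.symm))

end Cfsg.Agent.S5439
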