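import Cfsg.Statements.S5514
import Mathlib
import Cfsg.Agent.H7.Oc2

set_option autoImplicit false
open Cfsg

namespace Cfsg.Agent.S5514

/-- The commutator subgroup of the isometry group of a non-degenerate 7-dimensional quadratic form over the field with three elements, modulo its (trivial) centre — the simple group Ω(7, 3) — has exactly seven conjugacy classes of subgroups of order 3. -/
theorem result : ∃ Y : Fin 7 → Subgroup (Cfsg.POmega (ZMod 3) (Cfsg.quadFormOdd 3 (ZMod 3))), (∀ i, Nat.card (Y i) = 3) ∧ (∀ i j, (∃ g : Cfsg.POmega (ZMod 3) (Cfsg.quadFormOdd 3 (ZMod 3)), (Y i).map (MulAut.conj g).toMonoidHom = Y j) → i = j) ∧ (∀ X : Subgroup (Cfsg.POmega (ZMod 3) (Cfsg.quadFormOdd 3 (ZMod 3))), Nat.card X = 3 → ∃ i, ∃ g : Cfsg.POmega (ZMod 3) (Cfsg.quadFormOdd 3 (ZMod 3)), X.map (MulAut.conj g).toMonoidHom = Y i) := by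
  have hF : Fintype.card (ZMod 3) = 3 := ZMod.card 3
  obtain ⟨φ, h⟩ := H28.fm3 hF
  have hc : Nat.card (Cfsg.POmega (ZMod 3) (Cfsg.quadFormOdd 3 (ZMod 3))) = 4585351680 := by
    have h1 := S0292.result hF (by decide) 3 le_rfl
    simp [Finset.prod_range_succ] at h1
    omega
  have : Finite (Cfsg.POmega (ZMod 3) (Cfsg.quadFormOdd 3 (ZMod 3))) :=
    Nat.finite_of_card_ne_zero (by omega)
  have q := H11.isQuad_odd 3 (ZMod 3)
  have h2 := H11.two_ne_zero_of_odd_card (F := ZMod 3) (by rw [hF]; decide)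
  have hB := H11.bOdd_sep 3 h2
  have hZ := q.center_commutator_eq_bot hB (q.nonExc_of_two_ne_zero hB h2) (by simp)
    (Or.inr (q.negI_notMem_of_odd hB ⟨3, by simp⟩))
  obtain ⟨_, g, pt, H⟩ := H28.md_om h (n := 7)
    ((Equiv.sumCongr finOneEquiv.symm finSumFinEquiv).trans finSumFinEquiv)
    (Q := Cfsg.quadFormOdd 3 (ZMod 3)) (QM := H28.O7.QM) (fun v => by
      have e : H28.matE φ ((Equiv.sumCongr finOneEquiv.symm (finSumFinEquiv (m := 3) (n := 3))).trans
          (finSumFinEquiv (m := 1) (n := 6))) (H28.ent H28.O7.QM) =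
          Matrix.fromBlocks 1 0 0 (Matrix.fromBlocks 0 1 0 0) := by
        ext i j
        rcases i with i | i | i <;> rcases j with j | j | j <;> fin_cases i <;> fin_cases j <;>
          first | exact h.zero | exact h.one
      rw [e, Matrix.fromBlocks_mulVec]
      simp [Cfsg.quadFormOdd, dotProduct, Matrix.fromBlocks_mulVec, sq])
    (eq_bot_iff.2 fun z hz => by
      have := (H11.mem_center_equiv (H11.omegaEquiv q) z).1 hz
      rw [hZ, Subgroup.mem_bot] at this
      exact Subgroup.mem_bot.2 ((H11.omegaEquiv q).map_eq_one_iff.1 this))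
    H28.O7.hm (by decide) H28.O7.hAm H28.O7.hInj hc
  exact H7.Oc7.classes H

end Cfsg.Agent.S5514
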