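import Cfsg.Statements.S5515
import Mathlib
import Cfsg.Agent.H11.Tri4
import Cfsg.Agent.H2.Components

set_option autoImplicit false
open Cfsg

namespace Cfsg.Agent.S5515

/-- Let G and G′ be finite groups whose generalized Fitting subgroups are isomorphic to PΩ⁺(8, 3) (the commutator subgroup of the isometry group of the hyperbolic quadratic form in dimension 8 over the field with three elements, modulo its centre) with quotients isomorphic to the symmetric group of degree 3. Then G and G′ are isomorphic. -/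
theorem result {G G' : Type*} [Group G] [Finite G] [Group G'] [Finite G'] (hF : Nonempty (↥(Cfsg.generalizedFittingSubgroup G) ≃* Cfsg.POmega (ZMod 3) (Cfsg.quadFormPlus 4 (ZMod 3)))) (hF' : Nonempty (↥(Cfsg.generalizedFittingSubgroup G') ≃* Cfsg.POmega (ZMod 3) (Cfsg.quadFormPlus 4 (ZMod 3)))) [hn : (Cfsg.generalizedFittingSubgroup G).Normal] [hn' : (Cfsg.generalizedFittingSubgroup G').Normal] (hq : Nonempty (G ⧸ Cfsg.generalizedFittingSubgroup G ≃* Equiv.Perm (Fin 3))) (hq' : Nonempty (G' ⧸ Cfsg.generalizedFittingSubgroup G' ≃* Equiv.Perm (Fin 3))) : Nonempty (G ≃* G') := by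
  obtain ⟨e⟩ := hF
  obtain ⟨e'⟩ := hF'
  obtain ⟨q⟩ := hq
  obtain ⟨q'⟩ := hq'
  have hX := ((H11.isQuad_plus 4 (ZMod 3)).triBar (H11.bPlus_sep _ _) (by simp)).inj
  obtain ⟨S, ⟨f⟩, hS⟩ := H11.exists_out_sub e hX H2.centralizer_generalizedFitting_le
  obtain ⟨S', ⟨f'⟩, hS'⟩ := H11.exists_out_sub e' hX H2.centralizer_generalizedFitting_le
  obtain ⟨o⟩ := (H11.out_plus_four (F := ZMod 3)).2 (by decide)
  have : Unique (RingAut (ZMod 3)) := ⟨⟨1⟩, fun ρ => RingEquiv.toRingHom_injective (Subsingleton.elim _ _)⟩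
  obtain ⟨k⟩ := H11.nonempty_comap_equiv _ (QuotientGroup.mk'_surjective _)
    (o.trans MulEquiv.prodUnique) (S := S) (S' := S')
    (by rw [hS, Subgroup.index, Nat.card_congr q.toEquiv, Nat.card_perm]; simp [Nat.factorial])
    (by rw [hS', Subgroup.index, Nat.card_congr q'.toEquiv, Nat.card_perm]; simp [Nat.factorial])
  exact ⟨f.trans (k.trans f'.symm)⟩

end Cfsg.Agent.S5515
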