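import Cfsg.Statements.S5520
import Mathlib
import Cfsg.Agent.H28.Su6

set_option autoImplicit false
open Cfsg

namespace Cfsg.Agent.S5520

/-- In the special unitary group of dimension 6 over the field with four elements (determinant-one matrices preserving the standard Hermitian form), the subgroups K whose centre has order 3 with K modulo its centre isomorphic to the projective special unitary group of dimension 4 over the field with nine elements fall into exactly three conjugacy classes. -/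
theorem result (F : Type) [Field F] [Fintype F] (hF : Fintype.card F = 4) (F9 : Type) [Field F9] [Fintype F9] (hF9 : Fintype.card F9 = 9) : ∃ K₁ K₂ K₃ : Subgroup ↥(Cfsg.SU 6 F 2), (∀ K ∈ [K₁, K₂, K₃], Nat.card ↥(Subgroup.center ↥K) = 3 ∧ Nonempty (↥K ⧸ Subgroup.center ↥K ≃* Cfsg.PSU 4 F9 3)) ∧ (¬ ∃ g : ↥(Cfsg.SU 6 F 2), K₁.map (MulAut.conj g).toMonoidHom = K₂) ∧ (¬ ∃ g : ↥(Cfsg.SU 6 F 2), K₁.map (MulAut.conj g).toMonoidHom = K₃) ∧ (¬ ∃ g : ↥(Cfsg.SU 6 F 2), K₂.map (MulAut.conj g).toMonoidHom = K₃) ∧ ∀ K : Subgroup ↥(Cfsg.SU 6 F 2), Nat.card ↥(Subgroup.center ↥K) = 3 → Nonempty (↥K ⧸ Subgroup.center ↥K ≃* Cfsg.PSU 4 F9 3) → ∃ g : ↥(Cfsg.SU 6 F 2), K.map (MulAut.conj g).toMonoidHom = K₁ ∨ K.map (MulAut.conj g).toMonoidHom = K₂ ∨ K.map (MulAut.conj g).toMonoidHom = K₃ := by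
  obtain ⟨φ, h⟩ := H28.fm4 hF
  obtain ⟨hc, ⟨ψ⟩⟩ := H28.Su.exists_psi h hF9
  have hc' := (Nat.card_congr ψ.toEquiv).symm.trans hc
  refine ⟨H28.Su.Lt h 0, H28.Su.Lt h 1, H28.Su.Lt h 2, fun K hK => ?_,
    fun ⟨_, e⟩ => absurd (H28.Su.nonconj h hF hc' e) (by decide),
    fun ⟨_, e⟩ => absurd (H28.Su.nonconj h hF hc' e) (by decide),
    fun ⟨_, e⟩ => absurd (H28.Su.nonconj h hF hc' e) (by decide), fun K h1 h2 => ?_⟩
  · simp only [List.mem_cons, List.not_mem_nil, or_false] at hK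
    rcases hK with rfl | rfl | rfl <;> exact H28.Su.tc_Lt h ψ _
  · obtain ⟨g, t, e⟩ := H28.Su.conj_Lt h ψ hF K ⟨h1, h2⟩
    refine ⟨g, ?_⟩
    rcases (by decide : ∀ t : ZMod 3, t = 0 ∨ t = 1 ∨ t = 2) t with rfl | rfl | rfl
    exacts [Or.inl e, Or.inr (Or.inl e), Or.inr (Or.inr e)]

end Cfsg.Agent.S5520
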