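import Mathlib
-- Template for statement S5541 (row 5541; see /opt/grader/pristine/manifest.json for weights).
-- Copy to Cfsg/Agent/S5541.lean and replace the sorry. The statement below is byte-identical to the frozen
-- statement Cfsg.CfsgFrozen.S5541 (Cfsg/Statements/S5541.lean; the theorem Cfsg.mon19_norton_pair_trilinear_criterion);
-- the grader kernel-checks Cfsg.Agent.S5541.result against that frozen type. Keep the theorem IN THIS FILE
-- (a `result` declared elsewhere and merely imported here is not credited); helpers may live anywhere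
-- under Cfsg/Agent/.
import Cfsg.Statements.S5541
-- import your own Cfsg.Agent.* helpers here

set_option autoImplicit false
open Cfsg

namespace Cfsg.Agent.S5541

/-- Let ρ be a representation of a group H on a finite-dimensional real vector space U whose only ρ-invariant subspaces are the zero subspace and U, and suppose U carries a non-zero ρ-invariant symmetric bilinear form. Then the following are equivalent: (1) there is a non-zero ρ-equivariant commutative bilinear product on U of which every ρ-equivariant bilinear product is a scalar multiple; (2) there is a non-zero ρ-invariant trilinear form on U that is symmetric under all permutations of its arguments and of which every ρ-invariant trilinear form is a scalar multiple. -/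
theorem result {H : Type*} [Group H] {U : Type*} [AddCommGroup U] [Module ℝ U] [FiniteDimensional ℝ U] (ρ : Representation ℝ H U) (hirr : ∀ W : Submodule ℝ U, (∀ g : H, W.map (ρ g) ≤ W) → W = ⊥ ∨ W = ⊤) (B : LinearMap.BilinForm ℝ U) (hB0 : B ≠ 0) (hBs : ∀ u v, B u v = B v u) (hBi : ∀ (g : H) (u v : U), B (ρ g u) (ρ g v) = B u v) : (∃ m : U →ₗ[ℝ] U →ₗ[ℝ] U, m ≠ 0 ∧ (∀ u v, m u v = m v u) ∧ (∀ (g : H) (u v : U), m (ρ g u) (ρ g v) = ρ g (m u v)) ∧ ∀ m' : U →ₗ[ℝ] U →ₗ[ℝ] U, (∀ (g : H) (u v : U), m' (ρ g u) (ρ g v) = ρ g (m' u v)) → ∃ c : ℝ, m' = c • m) ↔ (∃ t : U →ₗ[ℝ] U →ₗ[ℝ] U →ₗ[ℝ] ℝ, t ≠ 0 ∧ (∀ u v w, t u v w = t v u w ∧ t u v w = t u w v) ∧ (∀ (g : H) (u v w : U), t (ρ g u) (ρ g v) (ρ g w) = t u v w) ∧ ∀ t' : U →ₗ[ℝ] U →ₗ[ℝ] U →ₗ[ℝ] ℝ, (∀ (g : H) (u v w : U), t' (ρ g u) (ρ g v) (ρ g w) = t' u v w) → ∃ c : ℝ, t' = c • t) := by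
  open Cfsg in
  · have hN : B.Nondegenerate := by
      refine LinearMap.BilinForm.nondegenerate_iff_ker_eq_bot.2 ((hirr _ ?_).resolve_right (by simpa using hB0))
      rintro g _ ⟨u, hu, rfl⟩
      exact LinearMap.ext fun v => by rw [← ρ.self_inv_apply g v, hBi, LinearMap.mem_ker.1 hu]; rfl
    have ext : ∀ u v, (∀ w, B u w = B v w) → u = v := fun u v h => (B.toDual hN).injective (LinearMap.ext h)
    have sur : ∀ t : U →ₗ[ℝ] U →ₗ[ℝ] U →ₗ[ℝ] ℝ, ∃ m : U →ₗ[ℝ] U →ₗ[ℝ] U, ∀ u v w, B (m u v) w = t u v w := fun t =>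
      ⟨t.compr₂ (B.toDual hN).symm.toLinearMap, fun u v w => by simp⟩
    have inv : ∀ (m : U →ₗ[ℝ] U →ₗ[ℝ] U) (t : U →ₗ[ℝ] U →ₗ[ℝ] U →ₗ[ℝ] ℝ), (∀ u v w, B (m u v) w = t u v w) →
        ((∀ (g : H) (u v : U), m (ρ g u) (ρ g v) = ρ g (m u v)) ↔ ∀ (g : H) (u v w : U), t (ρ g u) (ρ g v) (ρ g w) = t u v w) :=
      fun m t h => ⟨fun hm g u v w => by rw [← h, hm, hBi, h], fun ht g u v => ext _ _ fun w => by
        rw [← ρ.self_inv_apply g w, h, ht, hBi, h]⟩
    constructor
    · rintro ⟨m, h0, hs, hi, hu⟩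
      have ht : ∀ u v w, B (m u v) w = m.compr₂ B u v w := fun _ _ _ => rfl
      generalize m.compr₂ B = t at ht
      have h1 : ∀ t' : U →ₗ[ℝ] U →ₗ[ℝ] U →ₗ[ℝ] ℝ, (∀ (g : H) (u v w : U), t' (ρ g u) (ρ g v) (ρ g w) = t' u v w) → ∃ c : ℝ, t' = c • t :=
        fun t' h => by
          obtain ⟨m', hm'⟩ := sur t'
          obtain ⟨c, rfl⟩ := hu m' ((inv _ _ hm').2 h)
          exact ⟨c, by ext u v w; simp [← hm', ht]⟩
      have h2 : t ≠ 0 := fun e => h0 (by ext u v; exact ext _ _ fun w => by simp [ht, e])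
      have h3 : ∀ u v w, t u v w = t v u w := fun u v w => by rw [← ht, hs, ht]
      have h4 := (inv _ _ ht).1 hi
      obtain ⟨c, hc⟩ := h1 (LinearMap.lflip.toLinearMap ∘ₗ t) fun g u v w => h4 g u w v
      have h5 : ∀ u v w, t u w v = c * t u v w := fun u v w => by simpa using LinearMap.congr_fun₂ (LinearMap.congr_fun hc u) v w
      refine ⟨t, h2, fun u v w => ⟨h3 u v w, by_contra fun hn => h2 ?_⟩, h4, h1⟩
      have h6 : c ≠ 1 := fun e => hn (by rw [h5 u v w, e, one_mul])
      ext x y z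
      have h7 : (c - 1) * ((c + 1) * t x y z) = 0 := by linear_combination -(h5 x z y) - c * h5 x y z
      have h8 : (c - 1) * ((c ^ 2 + c + 1) * t x y z) = 0 := by
        linear_combination -(h3 x y z) - h5 y z x - c * h3 y z x - c * h5 z x y - c ^ 2 * h3 z x y - c ^ 2 * h5 x y z
      simp only [mul_eq_zero (a := c - 1), sub_eq_zero, h6, false_or] at h7 h8
      simp only [LinearMap.zero_apply]
      linear_combination h8 - c * h7
    · rintro ⟨t, h0, hs, hi, hu⟩
      obtain ⟨m, hm⟩ := sur t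
      refine ⟨m, fun e => h0 (by ext u v w; simp [← hm, e]), fun u v => ext _ _ fun w => by rw [hm, hm, (hs u v w).1], (inv _ _ hm).2 hi,
        fun m' h => ?_⟩
      obtain ⟨c, hc⟩ := hu (m'.compr₂ B) ((inv m' _ fun _ _ _ => rfl).1 h)
      exact ⟨c, by ext u v; exact ext _ _ fun w => by simpa [hm] using LinearMap.congr_fun₂ (LinearMap.congr_fun hc u) v w⟩

end Cfsg.Agent.S5541
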