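import Mathlib
import Cfsg.Agent.H28.Maj
-- Template for statement S5543 (row 5543; see /opt/grader/pristine/manifest.json for weights).
-- Copy to Cfsg/Agent/S5543.lean and replace the sorry. The statement below is byte-identical to the frozen
-- statement Cfsg.CfsgFrozen.S5543 (Cfsg/Statements/S5543.lean; the theorem Cfsg.maj19_elementary_abelian_group_of_pairwise_two_a_majorana_involutions);
-- the grader kernel-checks Cfsg.Agent.S5543.result against that frozen type. Keep the theorem IN THIS FILE
-- (a `result` declared elsewhere and merely imported here is not credited); helpers may live anywhere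
-- under Cfsg/Agent/.
import Cfsg.Statements.S5543
-- import your own Cfsg.Agent.* helpers here

set_option autoImplicit false
open Cfsg

namespace Cfsg.Agent.S5543

/-- Let V be a finite-dimensional real vector space with a commutative bilinear product and a positive-definite symmetric bilinear form that associates with the product and satisfies the Norton inequality (the Majorana setting of the definitions). Let X be a group of linear automorphisms of V in which every element squares to the identity, and suppose every non-identity element x of X is a Majorana involution with an axial vector a(x) of squared length 1, such that for any two distinct non-identity x, y the product a(x) ∘ a(y) equals (1/8)(a(x) + a(y) − a(xy)) (the dihedral subalgebra of type 2A whose third axis belongs to the involution xy). Then X has order at most 4. -/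
theorem result {V : Type*} [AddCommGroup V] [Module ℝ V] [FiniteDimensional ℝ V] (mul : V →ₗ[ℝ] V →ₗ[ℝ] V) (B : LinearMap.BilinForm ℝ V) (hV : Cfsg.Axial.IsMajoranaAmbient mul B) (X : Subgroup (V ≃ₗ[ℝ] V)) (hX : ∀ x ∈ X, x * x = 1) (ax : (V ≃ₗ[ℝ] V) → V) (hax : ∀ x ∈ X, x ≠ 1 → Cfsg.Axial.IsMajoranaPair mul B x (ax x)) (h1 : ∀ x ∈ X, x ≠ 1 → B (ax x) (ax x) = 1) (h2A : ∀ x ∈ X, ∀ y ∈ X, x ≠ 1 → y ≠ 1 → x ≠ y → mul (ax x) (ax y) = (1 / 8 : ℝ) • (ax x + ax y - ax (x * y))) : Nat.card ↥X ≤ 4 := by
  open Cfsg.Agent.H28.Maj in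
  · by_contra! h
    haveI : Finite X := Nat.finite_of_card_ne_zero (by omega)
    classical
    have ex : ∀ s : Finset X, s.card ≤ 4 → ∃ x, x ∉ s := fun s hs => by_contra fun hn => by
      haveI := Fintype.ofFinite X
      rw [(Finset.eq_univ_iff_forall (s := s)).2 (by simpa using hn), Finset.card_univ, ← Nat.card_eq_fintype_card] at hs; omega
    obtain ⟨x, hx⟩ := ex {1} (by simp)
    obtain ⟨y, hy⟩ := ex {1, x} (Finset.card_le_two.trans (by norm_num))
    obtain ⟨z, hz⟩ := ex {1, x, y, x * y} Finset.card_le_four
    simp only [Finset.mem_insert, Finset.mem_singleton, not_or] at hx hy hz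
    have s : ∀ g : X, g * g = 1 := fun g => Subtype.ext (hX g g.2)
    have s' : ∀ g k : X, g * (g * k) = k := fun g k => by rw [← mul_assoc, s, one_mul]
    have c : ∀ g k : X, g * k = k * g := fun g k => by
      rw [← inv_eq_of_mul_eq_one_right (s (g * k)), mul_inv_rev, inv_eq_of_mul_eq_one_right (s g), inv_eq_of_mul_eq_one_right (s k)]
    have c' : ∀ g k l : X, g * (k * l) = k * (g * l) := fun g k l => by rw [← mul_assoc, c g, mul_assoc]
    have n : ∀ {g k : X}, g ≠ k → g * k ≠ 1 := fun {g k} hn e => hn (mul_left_cancel (a := g) (by rw [s, e]))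
    have n' : ∀ {g k l : X}, g * k ≠ l → k ≠ g * l := fun {g k l} hn e => hn (by rw [e, s'])
    have p : ∀ g k : X, g ≠ 1 → k ≠ 1 → g ≠ k → mul (ax g) (ax k) = (1 / 8 : ℝ) • (ax g + ax k - ax (g * k : X)) := fun g k h1 h2 h3 =>
      h2A g g.2 k k.2 (by simpa using h1) (by simpa using h2) (by simpa using h3)
    have β : ∀ k : X, k ≠ 1 → k ≠ x → mul (ax x) (ax k - ax (x * k : X)) = (1 / 4 : ℝ) • (ax k - ax (x * k : X)) := fun k h1 h2 => by
      rw [map_sub, p x k hx h1 h2.symm, p x _ hx (n h2.symm) (by simpa using h1), s']; module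
    have H := hax x x.2 (by simpa using hx)
    have yz : y ≠ z := Ne.symm hz.2.2.1
    have yzx : y * z ≠ x := fun e => hz.2.2.2 (by rw [← e, c, s'])
    have e := f44 hV H (h1 x x.2 (by simpa using hx)) (β y hy.1 hy.2) (β z hz.1 hz.2.1)
    have e1 : mul (ax y - ax (x * y : X)) (ax z - ax (x * z : X)) = (-1 / 4 : ℝ) • (ax (y * z : X) - ax (x * (y * z) : X)) := by
      simp only [map_sub, LinearMap.sub_apply]
      rw [p y z hy.1 hz.1 yz, p y _ hy.1 (n (Ne.symm hz.2.1)) (n' (Ne.symm hz.2.2.2)), p _ z (n (Ne.symm hy.2)) hz.1 (Ne.symm hz.2.2.2),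
        p _ _ (n (Ne.symm hy.2)) (n (Ne.symm hz.2.1)) (by simpa using yz), c' y x, mul_assoc x y z, mul_assoc x y, c' y x, s']
      module
    have e2 := β _ (n yz) yzx
    rw [e1, map_smul, e2] at e
    have e3 := congrArg (B (ax x)) e
    rw [map_smul, map_smul, orth hV H (by norm_num) e2, map_smul, h1 x x.2 (by simpa using hx)] at e3
    rw [show B (ax y - ax (x * y : X)) (ax z - ax (x * z : X)) / 4 = 0 by simpa using e3.symm, zero_smul, smul_eq_zero, smul_eq_zero,
      sub_eq_zero] at e
    have e4 := uniq (hax _ (y * z).2 fun e => n yz (Subtype.ext e)) ((e.resolve_left (by norm_num)).resolve_left (by norm_num) ▸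
      hax _ (x * (y * z)).2 fun e => n yzx.symm (Subtype.ext e))
    exact hx (by simpa using Subtype.ext e4)

end Cfsg.Agent.S5543
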