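import Mathlib
import Cfsg.Agent.H28.Maj
-- Template for statement S5545 (row 5545; see /opt/grader/pristine/manifest.json for weights).
-- Copy to Cfsg/Agent/S5545.lean and replace the sorry. The statement below is byte-identical to the frozen
-- statement Cfsg.CfsgFrozen.S5545 (Cfsg/Statements/S5545.lean; the theorem Cfsg.maj19_commuting_majorana_involutions_two_a_or_two_b);
-- the grader kernel-checks Cfsg.Agent.S5545.result against that frozen type. Keep the theorem IN THIS FILE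
-- (a `result` declared elsewhere and merely imported here is not credited); helpers may live anywhere
-- under Cfsg/Agent/.
import Cfsg.Statements.S5545
-- import your own Cfsg.Agent.* helpers here

set_option autoImplicit false
open Cfsg

namespace Cfsg.Agent.S5545

/-- Let V be a finite-dimensional real vector space with a commutative bilinear product and a positive-definite symmetric bilinear form that associates with the product and satisfies the Norton inequality (the Majorana setting of the definitions). Let μ₀, μ₁ be commuting Majorana involutions with distinct axial vectors a₀ ≠ a₁ of squared length 1, each involution having no other axial vector. Then either a₀ and a₁ are orthogonal with a₀ ∘ a₁ = 0 (type 2B), or their inner product is 1/8 and, with a₂ = a₀ + a₁ − 8 a₀ ∘ a₁, the vector a₂ is an idempotent and a₀ ∘ a₂ = (1/8)(a₀ + a₂ − a₁), a₁ ∘ a₂ = (1/8)(a₁ + a₂ − a₀) (type 2A: the three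 idempotents span a subalgebra with aᵢ ∘ aⱼ = (1/8)(aᵢ + aⱼ − aₖ)). -/
theorem result {V : Type*} [AddCommGroup V] [Module ℝ V] [FiniteDimensional ℝ V] (mul : V →ₗ[ℝ] V →ₗ[ℝ] V) (B : LinearMap.BilinForm ℝ V) (hV : Cfsg.Axial.IsMajoranaAmbient mul B) (μ₀ μ₁ : V ≃ₗ[ℝ] V) (a₀ a₁ : V) (h₀ : Cfsg.Axial.IsMajoranaPair mul B μ₀ a₀) (h₁ : Cfsg.Axial.IsMajoranaPair mul B μ₁ a₁) (hu₀ : ∀ a : V, Cfsg.Axial.IsMajoranaPair mul B μ₀ a → a = a₀) (hu₁ : ∀ a : V, Cfsg.Axial.IsMajoranaPair mul B μ₁ a → a = a₁) (hn₀ : B a₀ a₀ = 1) (hn₁ : B a₁ a₁ = 1) (hc : μ₀ * μ₁ = μ₁ * μ₀) (hne : a₀ ≠ a₁) : (B a₀ a₁ = 0 ∧ mul a₀ a₁ = 0) ∨ (B a₀ a₁ = 1 / 8 ∧ mul (a₀ + a₁ - (8 : ℝ) • mul a₀ a₁) (a₀ + a₁ - (8 : ℝ) • mul a₀ a₁) = a₀ + a₁ - (8 : ℝ) • mul a₀ a₁ ∧ mul a₀ (a₀ + a₁ - (8 : ℝ) • mul a₀ a₁) = (1 / 8 : ℝ) • (a₀ + (a₀ + a₁ - (8 : ℝ) • mul a₀ a₁) - a₁) ∧ mul a₁ (a₀ + a₁ - (8 : ℝ) • mul a₀ a₁) = (1 / 8 : ℝ) • (a₁ + (a₀ + a₁ - (8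 : ℝ) • mul a₀ a₁) - a₀)) := by
  open Cfsg.Agent.H28.Maj in
  · have f1 : μ₀ a₁ = a₁ := hu₁ _ (by simpa [hc] using conj h₁ μ₀ h₀.1 h₀.2.1)
    have f0 : μ₁ a₀ = a₀ := hu₀ _ (by simpa [← hc] using conj h₀ μ₁ h₁.1 h₁.2.1)
    obtain ⟨s, hs⟩ : ∃ s, mul a₀ a₁ = s + (1 / 32 : ℝ) • (a₀ + a₁) := ⟨_, (sub_add_cancel _ _).symm⟩
    have hs' : mul a₁ a₀ = s + (1 / 32 : ℝ) • (a₁ + a₀) := by rw [hV.1, hs, add_comm a₀]
    have i0 := idem h₀
    have i1 := idem h₁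
    obtain ⟨l, hl⟩ : ∃ l, B a₀ a₁ = l := ⟨_, rfl⟩
    have p0 := mul_s hV h₀ hn₀ f1 hl hs hs
    have p1 := mul_s hV h₁ hn₁ f0 ((hV.2.1 _ _).trans hl) hs' hs'
    have q0 : mul a₀ a₀ = (15 / 16 : ℝ) • a₀ + (1 / 32 : ℝ) • (a₀ + a₀) := by rw [i0]; module
    have q1 : mul a₁ a₁ = (15 / 16 : ℝ) • a₁ + (1 / 32 : ℝ) • (a₁ + a₁) := by rw [i1]; module
    obtain ⟨Q, X⟩ := core hV h₀ hn₀ i1 i1 hn₁ hn₁ hl hl hn₁ hs hs q1 q0 q0 p0 p1 p1
    rw [hl]
    by_cases h : l = 1 / 8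
    · subst h
      refine Or.inr ⟨rfl, ?_, ?_, ?_⟩ <;>
        simp only [hs, map_add, map_sub, map_smul, LinearMap.add_apply, LinearMap.sub_apply, LinearMap.smul_apply, i0, i1, hs', p0, p1,
          hV.1 s a₀, hV.1 s a₁, Q] <;> module
    · rw [map_smul, hs] at X
      have e : mul a₀ a₁ = l • a₀ := by
        have e : (4 / 3 * (1 - 8 * l)) • mul a₀ a₁ = (4 / 3 * (1 - 8 * l) * l) • a₀ := by
          linear_combination (norm := module) (4 / 3 * (1 - 8 * l)) • hs + X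
        rw [mul_smul _ l] at e
        exact smul_right_injective V (mul_ne_zero (by norm_num) fun e => h (by linarith)) e
      have e2 := hV.2.2.2.1 a₀ a₁ a₁
      rw [i1, e, map_smul, LinearMap.smul_apply, hl, smul_eq_mul] at e2
      have e3 : l = 0 := by_contra fun h0 => hne (eq_of_inner hV hn₀ hn₁ (hl ▸ (mul_left_cancel₀ h0 (by linarith) : 1 = l).le))
      exact Or.inl ⟨e3, by rw [e, e3, zero_smul]⟩

end Cfsg.Agent.S5545
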