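import Cfsg.Statements.S5546
import Mathlib
import Cfsg.Agent.H25.Co

set_option autoImplicit false
open Cfsg

namespace Cfsg.Agent.S5546

open scoped commutatorElement

open H25 H25.Leech MulAction

/-- reduction modulo 13 -/
def red (v : L) : GolayPt → ZMod 13 := fun i => (v.1 i : ZMod 13)

/-- the matrix modulo 13 -/
def mat (g : Co0) : Matrix GolayPt GolayPt (ZMod 13) := Matrix.of fun j i => 5 * red (g • e8 i) j

theorem mat_red (g : Co0) (v : L) : (mat g).mulVec (red v) = red (g • v) := by
  funext j
  have := congrArg (fun x : ℤ => 5 * (x : ZMod 13)) (eight_g g v j)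
  push_cast at this
  rw [← mul_assoc, show (5 * 8 : ZMod 13) = 1 by decide, one_mul, Finset.mul_sum] at this
  rw [red, this]
  simp only [Matrix.mulVec, dotProduct, mat, red, Matrix.of_apply]
  exact Finset.sum_congr rfl fun i _ => by ring

/-- the representation modulo 13 -/
def rep : Co0 →* Matrix GolayPt GolayPt (ZMod 13) where
  toFun := mat
  map_one' := by
    ext j i
    simp only [mat, red, Matrix.of_apply, one_smul, e8_val, Matrix.one_apply]
    split_ifs <;> decide
  map_mul' g h := by
    ext j i
    have := congrFun (mat_red g (h • e8 i)) j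
    rw [mat, Matrix.of_apply, mul_smul, ← this, Matrix.mul_apply, Matrix.mulVec, dotProduct,
      Finset.mul_sum]
    exact Finset.sum_congr rfl fun k _ => by simp only [mat, Matrix.of_apply]; ring

instance : Fact (Nat.Prime 13) := ⟨by norm_num⟩

/-- the representation of the stabiliser -/
noncomputable def rho : Representation (ZMod 13) C2 (GolayPt → ZMod 13) :=
  (Matrix.toLinAlgEquiv'.toMulEquiv.toMonoidHom.comp rep).comp C2.subtype

theorem rho_red (g : C2) (v : L) : rho g (red v) = red (g.1 • v) := mat_red g.1 v

theorem inv (g : C2) : (ZMod 13 ∙ red U) ≤ (ZMod 13 ∙ red U).comap (rho g) := by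
  rw [Submodule.span_singleton_le_iff_mem, Submodule.mem_comap, rho_red, show g.1 • U = U from g.2]
  exact Submodule.mem_span_singleton_self _

theorem rk : Module.finrank (ZMod 13) ((GolayPt → ZMod 13) ⧸ (ZMod 13 ∙ red U)) = 23 := by
  have := Submodule.finrank_quotient_add_finrank (ZMod 13 ∙ red U)
  rw [finrank_span_singleton (by decide +kernel), Module.finrank_fintype_fun_eq_card,
    show Fintype.card GolayPt = 24 by decide +kernel] at this
  omega

theorem inj : Function.Injective (rho.quotient _ inv).asGroupHom := by
  haveI := simple_C2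
  rw [← MonoidHom.ker_eq_bot_iff]
  refine (IsSimpleGroup.eq_bot_or_eq_top_of_normal _ inferInstance).resolve_right fun h => ?_
  have hc := H14.compl_mem_gcode (H14.o0_mem.1 : H14.o0 ∈ H14.GCode)
  have val : ∀ (x : L) i, (mon 1 ⟨_, hc⟩ • x).1 i = if i ∈ H14.o0 then x.1 i else -x.1 i := fun x i => by
    have := mon_apply 1 ⟨_, hc⟩ x i
    by_cases h : i ∈ H14.o0 <;> simpa [h] using this
  have m : mon 1 ⟨_, hc⟩ ∈ C2 := Subtype.ext (funext fun i => by
    show (mon 1 ⟨_, hc⟩ • U).1 i = _
    rw [val]
    revert i
    decide +kernel)
  have e := congrArg (fun f : (_ →ₗ[ZMod 13] _)ˣ => f.1 (Submodule.Quotient.mk (red (e8 (some 4)))))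
    (h.ge (Subgroup.mem_top ⟨_, m⟩))
  simp only [Representation.asGroupHom_apply, Representation.quotient_apply, Submodule.mapQ_apply,
    Units.val_one, Module.End.one_apply, Submodule.Quotient.eq, rho_red] at e
  obtain ⟨c, e⟩ := Submodule.mem_span_singleton.1 e
  have := congrFun e (some 4)
  simp only [Pi.smul_apply, Pi.sub_apply, red, val] at this
  rw [show U.1 (some 4) = 0 by decide +kernel, if_neg (by decide +kernel), e8_val, if_pos rfl] at this
  simp only [Int.cast_zero, smul_zero] at this
  exact absurd this (by decide)

/-- The second Conway group (the stabilizer in the Leech lattice automorphism group of the short vector fixed in the definitions) is isomorphic to a subgroup of the general linear group of degree 23 over the field with 13 elements: there is an injective homomorphism into it. -/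
theorem result : ∃ f : ↥Cfsg.Spor.Co2 →* GL (Fin 23) (ZMod 13), Function.Injective f := by
  exact ⟨((Matrix.GeneralLinearGroup.toLin' (Module.finBasisOfFinrankEq _ _ rk)).symm.toMonoidHom.comp
    (rho.quotient _ inv).asGroupHom).comp eqC2.symm.toMonoidHom,
    fun a b h => eqC2.symm.injective (inj ((Matrix.GeneralLinearGroup.toLin'
      (Module.finBasisOfFinrankEq _ _ rk)).symm.injective h))⟩

end Cfsg.Agent.S5546
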