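import Cfsg.Statements.S5548
import Cfsg.Agent.L1.Sub

set_option autoImplicit false
open Cfsg

namespace Cfsg.Agent.S5548

open Cfsg.Agent.H14 MulAction Finset
open scoped Pointwise symmDiff

/-- For the automorphism group of the length-24 binary Golay code of the definitions (the Mathieu group of degree 24) acting on binary words of length 24 by permuting coordinates, the only invariant subspaces of the space of all words are: zero, the span of the all-ones word, the code itself, the even-weight words, and the whole space. (So the permutation module has a unique composition series.) -/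
theorem result (W : Submodule (ZMod 2) (Cfsg.GolayPt → ZMod 2)) (hW : ∀ σ ∈ Cfsg.M24, ∀ w ∈ W, (fun p => w (σ.symm p)) ∈ W) : W = ⊥ ∨ W = Submodule.span (ZMod 2) {fun _ => (1 : ZMod 2)} ∨ W = Cfsg.golayCode ∨ (W : Set (Cfsg.GolayPt → ZMod 2)) = {w | ∑ p, w p = 0} ∨ W = ⊤ := by
  by_cases hle : W ≤ golayCode
  · rcases sub_code hW hle with h | h | h <;> simp [h]
  obtain ⟨v, hv, hv'⟩ := SetLike.not_le_iff_exists.mp hle
  have key : ∀ w : GolayPt → ZMod 2, ∑ p, w p = 0 → w ∈ W := fun w hw =>
    even_le (fun a b hab => (invF_supports hW).pair (support_mem_gcode.not.mpr hv')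
      ⟨v, hv, rfl⟩ hab) hw
  by_cases h : ∀ w ∈ W, ∑ p, w p = 0
  · exact Or.inr (Or.inr (Or.inr (Or.inl (Set.ext fun w => ⟨h w, key w⟩))))
  push Not at h
  obtain ⟨u, hu, h1⟩ := h
  refine Or.inr (Or.inr (Or.inr (Or.inr (eq_top_iff.mpr fun w _ => ?_))))
  rcases zmod2_cases (∑ p, w p) with h | h
  · exact key w h
  · have := W.add_mem (key (w - u) (by
      simp only [Pi.sub_apply, sum_sub_distrib, h, (zmod2_cases _).resolve_left h1, sub_self])) hu
    simpa using this

end Cfsg.Agent.S5548
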