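import Cfsg.Statements.S5549
import Cfsg.Agent.L1.Sub

set_option autoImplicit false
open Cfsg

namespace Cfsg.Agent.S5549

open Cfsg.Agent.H14 MulAction Finset
open scoped Pointwise symmDiff

/-- the number of octads and 16-sets that meet `t` evenly. -/
noncomputable def N (t : Finset GolayPt) : ℕ :=
  {s | s ∈ GCode ∧ ((s.card = 8 ∨ s.card = 16) ∧ Even (s ∩ t).card)}.ncard

theorem N_smul (g : M24) (t : Finset GolayPt) : N (g • t) = N t :=
  ncard_smul_congr g fun y => by rw [m24_smul_gcode, H14.card_inter_smul, card_smul_finset]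

theorem N_set (m : ℕ) : N (gC.set m) = cntLt2 64 64 fun n => force (cw n) fun c =>
    band (bor (Nat.beq (pop24 c) 8) (Nat.beq (pop24 c) 16))
      (Nat.beq (Nat.mod (pop24 (Nat.land c m)) 2) 0) :=
  ncard_gcode (p := fun c => force c fun c =>
    band (bor (Nat.beq (pop24 c) 8) (Nat.beq (pop24 c) 16))
      (Nat.beq (Nat.mod (pop24 (Nat.land c m)) 2) 0)) fun c _ => by
    rw [force_eq, band_iff, bor_iff, nbeq_iff, nbeq_iff, nbeq_iff, card_inter_gset, card_gset,
      Nat.even_iff]
    rfl

theorem N_card {t : Finset GolayPt} : (t.card = 0 → N t = 1518) ∧ (t.card = 2 → N t = 814) ∧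
    (t.card = 4 → N t = 750) := by
  have key : ∀ m n, pop24 m ≤ 5 → N (gC.set m) = n → t.card = pop24 m → N t = n :=
    fun m n h1 h2 h3 => by
      obtain ⟨g, rfl⟩ := m24_finset (s := gC.set m) (t := t) (by rwa [card_gset])
        (by rw [card_gset, h3])
      rw [N_smul, h2]
  exact ⟨key 0 _ (by decide +kernel) ((N_set _).trans (by decide +kernel)),
    key 3 _ (by decide +kernel) ((N_set _).trans (by decide +kernel)),
    key 15 _ (by decide +kernel) ((N_set _).trans (by decide +kernel))⟩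

theorem even_iff_cast {n : ℕ} : Even n ↔ (n : ZMod 2) = 0 := ZMod.natCast_eq_zero_iff_even.symm

theorem exists_rep (f : golayCode →ₗ[ZMod 2] ZMod 2) : ∃ t : Finset GolayPt, t.card ≤ 4 ∧
    ∀ c : golayCode, f c = ((support₂ (c : GolayPt → ZMod 2) ∩ t).card : ZMod 2) := by
  obtain ⟨F, hF⟩ := f.exists_extend
  obtain ⟨t, ht, hc⟩ := exists_small (support₂ fun p => F (Pi.single p 1))
  obtain ⟨u, rfl⟩ := support₂_surj t
  refine ⟨_, ht, fun c => ?_⟩
  rw [← support₂_add, support_mem_gcode] at hc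
  have h1 := even_iff_cast.mp (gcode_inter_even (support_mem_gcode.mpr c.2)
    (support_mem_gcode.mpr hc))
  rw [← sum_mul_eq_card] at h1 ⊢
  have h2 : f c = ∑ p, (c : GolayPt → ZMod 2) p * F (Pi.single p 1) := by
    rw [← hF, LinearMap.comp_apply, LinearMap.pi_apply_eq_sum_univ]
    refine sum_congr rfl fun p _ => ?_
    congr 2
    ext q
    simp [Pi.single_apply, eq_comm]
  simp only [Pi.add_apply, mul_add, sum_add_distrib] at h1
  rw [h2, ← add_eq_zero_iff_eq_neg.mp h1 |>.trans (ZMod.neg_eq_self_mod_two _)]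

theorem common {α β : Type*} [DecidableEq α] [Fintype β] (h4 : 4 ≤ Fintype.card β)
    (P : β → Finset α) (h2 : ∀ b, (P b).card = 2)
    (h : ∀ a b, a ≠ b → (P a ∆ P b).card = 2) : ∃ z, ∀ b, z ∈ P b := by
  classical
  have hi : ∀ a b, a ≠ b → (P a ∩ P b).card = 1 := fun a b hab => by
    have := card_symmDiff_add (P a) (P b)
    rw [h a b hab, h2, h2] at this
    omega
  have hm : ∀ a b, a ≠ b → ∃ x ∈ P a, x ∈ P b := fun a b hab => by
    obtain ⟨x, hx⟩ := card_pos.mp (by rw [hi a b hab]; norm_num : 0 < (P a ∩ P b).card)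
    exact ⟨x, mem_inter.mp hx⟩
  have hn : ∀ a b, a ≠ b → P a ≠ P b := fun a b hab e => by
    have := hi a b hab
    rw [e, inter_self, h2] at this
    omega
  have pr : ∀ b x y, x ≠ y → x ∈ P b → y ∈ P b → P b = {x, y} := fun b x y hxy hx hy =>
    (eq_of_subset_of_card_le (by simp [insert_subset_iff, hx, hy])
      (by rw [h2, card_pair hxy])).symm
  obtain ⟨a, b, hab⟩ := Fintype.exists_pair_of_one_lt_card (α := β) (by omega)
  obtain ⟨z, za, zb⟩ := hm a b hab
  refine ⟨z, fun c => ?_⟩
  by_contra hc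
  have ca : c ≠ a := fun e => hc (e ▸ za)
  have cb : c ≠ b := fun e => hc (e ▸ zb)
  obtain ⟨u, uc, ua⟩ := hm c a ca
  obtain ⟨v, vc, vb⟩ := hm c b cb
  have zu : z ≠ u := fun e => hc (e ▸ uc)
  have zv : z ≠ v := fun e => hc (e ▸ vc)
  have ea := pr a z u zu za ua
  have eb := pr b z v zv zb vb
  have uv : u ≠ v := fun e => hn a b hab (by rw [ea, eb, e])
  have ec := pr c u v uv uc vc
  obtain ⟨d, -, hd⟩ := exists_mem_notMem_of_card_lt_card (s := {a, b, c}) (t := univ)
    (lt_of_le_of_lt card_le_three (by rw [card_univ]; omega))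
  simp only [mem_insert, mem_singleton, not_or] at hd
  obtain ⟨x, xd, xa⟩ := hm d a hd.1
  obtain ⟨y, yd, yb⟩ := hm d b hd.2.1
  obtain ⟨w, wd, wc⟩ := hm d c hd.2.2
  rw [ea] at xa; rw [eb] at yb; rw [ec] at wc
  simp only [mem_insert, mem_singleton] at xa yb wc
  have k1 : z ∈ P d → u ∈ P d → False := fun h1 h2 => hn d a hd.1 (ea ▸ pr d z u zu h1 h2)
  have k2 : z ∈ P d → v ∈ P d → False := fun h1 h2 => hn d b hd.2.1 (eb ▸ pr d z v zv h1 h2)
  have k3 : u ∈ P d → v ∈ P d → False := fun h1 h2 => hn d c hd.2.2 (ec ▸ pr d u v uv h1 h2)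
  rcases xa with rfl | rfl <;> rcases yb with rfl | rfl <;> rcases wc with rfl | rfl <;> tauto

theorem cast_pair (w : GolayPt → ZMod 2) {a b : GolayPt} (h : a ≠ b) :
    ((support₂ w ∩ {a, b}).card : ZMod 2) = w a + w b := by
  obtain ⟨u, hu⟩ := support₂_surj ({a, b} : Finset GolayPt)
  have h1 : ∀ p, p ∈ ({a, b} : Finset GolayPt) → u p = 1 := fun p hp =>
    (zmod2_cases _).resolve_left (mem_support₂.mp (hu ▸ hp))
  rw [← hu, ← sum_mul_eq_card, ← sum_subset (subset_univ {a, b}) (fun p _ hp => by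
    rw [← hu, mem_support₂, not_not] at hp
    rw [hp, mul_zero]), sum_pair h, h1 a (by simp), h1 b (by simp), mul_one, mul_one]

theorem support_add_one (w : GolayPt → ZMod 2) :
    support₂ (w + fun _ => (1 : ZMod 2)) = (support₂ w)ᶜ := by
  rw [support₂_add, support_one, ← top_eq_univ, symmDiff_top, hnot_eq_compl]

theorem N_eq (t : Finset GolayPt) : N t = Nat.card {c : golayCode //
    ((support₂ c.1).card = 8 ∨ (support₂ c.1).card = 16) ∧ Even (support₂ c.1 ∩ t).card} :=
  (Nat.card_congr (Equiv.ofBijective (fun c => ⟨support₂ c.1.1, support_mem_gcode.mpr c.1.2, c.2⟩)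
    ⟨fun _ _ e => Subtype.ext (Subtype.ext (support₂_injective (congrArg Subtype.val e))), by
      rintro ⟨_, ⟨w, hw, rfl⟩, h⟩
      exact ⟨⟨⟨w, hw⟩, h⟩, rfl⟩⟩)).symm

/-- Let X be a group of linear automorphisms of the length-24 binary Golay code of the definitions that fix the all-ones word, containing the coordinate-permutation action of every element of the code's automorphism group (the Mathieu group of degree 24), and such that every element of X sends each codeword into its orbit under that Mathieu group up to adding the all-ones word (X has the same orbits as the Mathieu group on the code modulo the all-ones word). Then every element of X agrees, modulo the all-ones word, with the action of a single element of the Mathieu group: X induces exactly the Mathieu group on the code modulo the all-ones word. -/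
theorem result (X : Subgroup (↥Cfsg.golayCode ≃ₗ[ZMod 2] ↥Cfsg.golayCode)) (h1 : ∀ x ∈ X, ∀ e : ↥Cfsg.golayCode, (e : (Cfsg.GolayPt → ZMod 2)) = (fun _ => (1 : ZMod 2)) → x e = e) (hM : ∀ σ ∈ Cfsg.M24, ∃ x ∈ X, ∀ c : ↥Cfsg.golayCode, ((x c : ↥Cfsg.golayCode) : (Cfsg.GolayPt → ZMod 2)) = fun p => (c : (Cfsg.GolayPt → ZMod 2)) (σ.symm p)) (horb : ∀ x ∈ X, ∀ c : ↥Cfsg.golayCode, ∃ σ ∈ Cfsg.M24, ((x c : ↥Cfsg.golayCode) : (Cfsg.GolayPt → ZMod 2)) = (fun p => (c : (Cfsg.GolayPt → ZMod 2)) (σ.symm p)) ∨ ((x c : ↥Cfsg.golayCode) : (Cfsg.GolayPt → ZMod 2)) = (fun p => (c : (Cfsg.GolayPt → ZMod 2)) (σ.symm p)) + fun _ => (1 : ZMod 2)) (x : ↥Cfsg.golayCode ≃ₗ[ZMod 2] ↥Cfsg.golayCode) (hx : x ∈ X) : ∃ σ ∈ Cfsg.M24, ∀ c : ↥Cfsg.golayCode, ((x c : ↥Cfsg.golayCode) : (Cfsg.GolayPt → ZMod 2)) = (fun p => (c : (Cfsg.GolayPt → ZMod 2)) (σ.symm p)) ∨ ((x c : ↥Cfsg.golayCode) : (Cfsg.GolayPt → ZMod 2)) = (fun p => (c : (Cfsg.GolayPt → ZMod 2)) (σ.symm p)) + fun _ => (1 : ZMod 2) := by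
  have one : (fun _ => (1 : ZMod 2)) ∈ golayCode :=
    support_mem_gcode.mp (support_one ▸ univ_mem_gcode)
  have key : ∀ (a b : GolayPt) (t : Finset GolayPt), a ≠ b → t.card ≤ 4 →
      (∀ c : golayCode, (x c).1 a + (x c).1 b = (support₂ c.1 ∩ t).card) → t.card = 2 := by
    intro a b t hab ht h
    have he : Even t.card := by
      have := h ⟨_, one⟩
      rw [h1 x hx _ rfl, support_one, univ_inter] at this
      exact even_iff_cast.mpr (this.symm.trans rfl)
    have hN : N t = 814 := by
      rw [← N_card.2.1 (card_pair hab), N_eq, N_eq]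
      refine Nat.card_congr (x.toEquiv.subtypeEquiv fun c => and_congr ?_ ?_)
      · obtain ⟨σ, -, e | e⟩ := horb x hx c
        · show _ ↔ (support₂ (x c).1).card = 8 ∨ (support₂ (x c).1).card = 16
          rw [e, support_act, card_smul_finset]
        · show _ ↔ (support₂ (x c).1).card = 8 ∨ (support₂ (x c).1).card = 16
          have := card_le_univ (support₂ c.1)
          rw [e, support_add_one, support_act, card_compl, card_smul_finset, card_golayPt] at *
          omega
      · rw [even_iff_cast, even_iff_cast, cast_pair _ hab, ← h]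
        rfl
    obtain ⟨k0, -, k4⟩ := N_card (t := t)
    obtain ⟨k, hk⟩ := he
    omega
  have hP : ∀ b : ZMod 23, ∃ t : Finset GolayPt, t.card ≤ 4 ∧
      ∀ c : golayCode, (x c).1 none + (x c).1 (some b) = (support₂ c.1 ∩ t).card := fun b =>
    exists_rep
      { toFun := fun c => (x c).1 none + (x c).1 (some b)
        map_add' := fun c d => by simp [add_add_add_comm]
        map_smul' := fun r c => by simp [mul_add] }
  choose P h4 hP using hP
  have h2 : ∀ b, (P b).card = 2 := fun b => key _ _ _ (by simp) (h4 b) (hP b)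
  have h3 : ∀ a b, a ≠ b → (P a ∆ P b).card = 2 := fun a b hab => by
    refine key (some a) (some b) _ (by simpa using hab) (by
      have := card_symmDiff_add (P a) (P b)
      rw [h2, h2] at this
      omega) fun c => ?_
    have e := congrArg (Nat.cast : ℕ → ZMod 2)
      (card_symmDiff_add (support₂ c.1 ∩ P a) (support₂ c.1 ∩ P b))
    rw [show (support₂ c.1 ∩ P a) ∆ (support₂ c.1 ∩ P b) = support₂ c.1 ∩ P a ∆ P b from
      (inf_symmDiff_distrib_left _ _ _).symm] at e
    push_cast at e
    rw [← hP, ← hP] at e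
    have z2 : (2 : ZMod 2) = 0 := rfl
    linear_combination -e + ((((support₂ c.1 ∩ P a) ∩ (support₂ c.1 ∩ P b)).card : ZMod 2) -
      (x c).1 none) * z2
  obtain ⟨z, hz⟩ := common (by simp) P h2 h3
  have hy : ∀ b, ∃ y, z ≠ y ∧ P b = {z, y} := fun b => by
    obtain ⟨u, v, huv, e⟩ := card_eq_two.mp (h2 b)
    have := hz b
    rw [e, mem_insert, mem_singleton] at this
    rcases this with rfl | rfl
    · exact ⟨v, huv, e⟩
    · exact ⟨u, huv.symm, e.trans (pair_comm _ _)⟩
  choose y hy1 hy2 using hy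
  have hi : Function.Injective (fun p : GolayPt => p.elim z y) := by
    rintro (_ | a) (_ | b) e
    · rfl
    · exact absurd e (hy1 b)
    · exact absurd e.symm (hy1 a)
    · by_contra hab
      have := h3 a b fun e => hab (by rw [e])
      rw [hy2, hy2, show y a = y b from e] at this
      simp at this
  have fin : ∀ c : golayCode, (x c).1 = (fun p : GolayPt => c.1 (p.elim z y)) ∨
      (x c).1 = (fun p : GolayPt => c.1 (p.elim z y)) + fun _ => (1 : ZMod 2) := fun c => by
    have e : ∀ p : GolayPt, (x c).1 p = c.1 (p.elim z y) + ((x c).1 none - c.1 z) := by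
      rintro (_ | b)
      · simp
      · have := hP b c
        rw [hy2, cast_pair _ (hy1 b)] at this
        have z2 : (2 : ZMod 2) = 0 := rfl
        show _ = c.1 (y b) + _
        linear_combination this + (c.1 z - (x c).1 none) * z2
    rcases zmod2_cases ((x c).1 none - c.1 z) with h | h
    · exact Or.inl (funext fun p => by rw [e, h, add_zero])
    · exact Or.inr (funext fun p => by rw [e, h]; rfl)
  refine ⟨(Equiv.ofBijective _ hi.bijective_of_finite).symm, mem_M24_of_forall ?_, fin⟩
  rintro _ ⟨w, hw, rfl⟩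
  rw [← support_act, support_mem_gcode]
  rcases fin ⟨w, hw⟩ with e | e
  · exact e ▸ (x ⟨w, hw⟩).2
  · have := golayCode.sub_mem (x ⟨w, hw⟩).2 one
    rwa [e, add_sub_cancel_right] at this

end Cfsg.Agent.S5549
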