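import Cfsg.Statements.S5553
import Mathlib
import Cfsg.Agent.H25.Leech

set_option autoImplicit false
open Cfsg

namespace Cfsg.Agent.S5553
open H25.Leech
attribute [-simp] Fintype.sum_option Fintype.prod_option

theorem index_mul (A : AddSubgroup V) (h8 : ∀ y : V, (8 : ℤ) • y ∈ A) :
    {x : V | x ∈ A ∧ ∀ i, 0 ≤ x i ∧ x i < 8}.ncard * A.index = 8 ^ 24 := by
  let π : V →+ (GolayPt → ZMod 8) := (Int.castAddHom (ZMod 8)).compLeft GolayPt
  have hs : Function.Surjective π := fun y => ⟨fun i => (y i).val, funext fun i => by simp [π]⟩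
  have hk : ∀ x y : V, π x = π y → x - y ∈ A := fun x y h => by
    have : ∀ i, (8 : ℤ) ∣ x i - y i := fun i =>
      (ZMod.intCast_eq_intCast_iff_dvd_sub _ _ 8).1 (congrFun h i).symm
    choose z hz using this
    rw [show x - y = (8 : ℤ) • z from funext hz]
    exact h8 z
  have hc : A = (A.map π).comap π := by
    rw [AddSubgroup.comap_map_eq, left_eq_sup]
    intro x hx
    simpa using hk x 0 (by rw [map_zero]; exact hx)
  have h1 : {x : V | x ∈ A ∧ ∀ i, 0 ≤ x i ∧ x i < 8}.ncard = Nat.card (A.map π) := by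
    rw [← SetLike.coe_sort_coe, Nat.card_coe_set_eq]
    refine Set.ncard_congr (fun x _ => π x) (fun x hx => ⟨x, hx.1, rfl⟩) (fun x y hx hy h => ?_) ?_
    · funext i
      have := (ZMod.intCast_eq_intCast_iff_dvd_sub _ _ 8).1 (congrFun h i)
      have := hx.2 i
      have := hy.2 i
      omega
    · rintro _ ⟨x, hx, rfl⟩
      have e : π (fun i => x i % 8) = π x := funext fun i => ZMod.intCast_mod (x i) 8
      refine ⟨fun i => x i % 8, ⟨?_, fun i => by dsimp only; omega⟩, e⟩
      simpa using A.add_mem (hk _ _ e) hx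
  have h2 := (A.map π).card_mul_index
  rw [← h1, Nat.card_fun, Nat.card_zmod, Nat.card_eq_fintype_card, card24] at h2
  rw [← h2]
  conv_lhs => rw [hc, AddSubgroup.index_comap_of_surjective _ hs, ← hc]

def B : AddSubgroup V where
  carrier := {x | ∃ c : ℤ, ∀ i, (4 : ℤ) ∣ x i - 2 * c}
  zero_mem' := ⟨0, by simp⟩
  add_mem' := by
    rintro x y ⟨c, h⟩ ⟨d, h'⟩
    exact ⟨c + d, fun i => by have := h i; have := h' i; simp only [Pi.add_apply]; omega⟩
  neg_mem' := by
    rintro x ⟨c, h⟩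
    exact ⟨c, fun i => by have := h i; simp only [Pi.neg_apply]; omega⟩

theorem cntB : {x : V | x ∈ L ⊓ B ∧ ∀ i, 0 ≤ x i ∧ x i < 8}.ncard = 2 ^ 24 := by
  have h1 : (LSet 4352 (fun _ => 0) 0).ncard = 2 ^ 23 := by rw [ncard_LSet]; decide +kernel
  have h2 : (LSet 17408 (fun _ => 0) 0).ncard = 2 ^ 23 := by rw [ncard_LSet]; decide +kernel
  have b1 : ∀ d < 17, (4352 : ℕ).testBit d ↔ d = 8 ∨ d = 12 := by decide
  have b2 : ∀ d < 17, (17408 : ℕ).testBit d ↔ d = 10 ∨ d = 14 := by decide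
  have e : {x : V | x ∈ L ⊓ B ∧ ∀ i, 0 ≤ x i ∧ x i < 8} =
      LSet 4352 (fun _ => 0) 0 ∪ LSet 17408 (fun _ => 0) 0 := by
    ext x
    constructor
    · rintro ⟨⟨a, c, h⟩, b⟩
      by_cases hc : c % 2 = 0
      · refine Or.inl ⟨a, fun i => ?_, by simp⟩
        have := h i; have := b i
        exact ⟨(x i + 8).toNat, by omega, (b1 _ (by omega)).2 (by omega), by omega⟩
      · refine Or.inr ⟨a, fun i => ?_, by simp⟩
        have := h i; have := b i
        exact ⟨(x i + 8).toNat, by omega, (b2 _ (by omega)).2 (by omega), by omega⟩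
    · rintro (⟨a, b, -⟩ | ⟨a, b, -⟩)
      · refine ⟨⟨a, 0, fun i => ?_⟩, fun i => ?_⟩ <;> obtain ⟨d, h1, h2, h3⟩ := b i <;>
          have := (b1 d h1).1 h2 <;> omega
      · refine ⟨⟨a, 1, fun i => ?_⟩, fun i => ?_⟩ <;> obtain ⟨d, h1, h2, h3⟩ := b i <;>
          have := (b2 d h1).1 h2 <;> omega
  rw [e, Set.ncard_union_eq _ (LSet_finite _ _ _) (LSet_finite _ _ _), h1, h2]
  · norm_num
  · rw [Set.disjoint_left]
    rintro x ⟨-, a, -⟩ ⟨-, b, -⟩
    obtain ⟨d, h1, h2, h3⟩ := a none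
    obtain ⟨d', h1', h2', h3'⟩ := b none
    have := (b1 d h1).1 h2
    have := (b2 d' h1').1 h2'
    omega

/-- The Leech lattice of the definitions has an additive subgroup A containing twice the lattice, of index 2^12 in the lattice, all of whose vectors have squared length divisible by 32: the invariant quadratic form 'squared length over 16 modulo 2' on the lattice modulo twice the lattice (a 24-dimensional space over the field with two elements) vanishes on a 12-dimensional subspace, so it is of plus type. -/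
theorem result : ∃ A : AddSubgroup (Cfsg.GolayPt → ℤ), A ≤ Cfsg.leechLattice ∧ (∀ v ∈ Cfsg.leechLattice, (2 : ℤ) • v ∈ A) ∧ (A.addSubgroupOf Cfsg.leechLattice).index = 2 ^ 12 ∧ ∀ v ∈ A, (32 : ℤ) ∣ Cfsg.sqNorm v := by
  refine ⟨L ⊓ B, inf_le_left, fun v hv => ⟨L.zsmul_mem hv _, ?_⟩, ?_, ?_⟩
  · obtain ⟨m, C, -, h, -⟩ := mem_iff.1 hv
    exact ⟨m, fun i => by have := h i; simp only [Pi.smul_apply, smul_eq_mul]; omega⟩
  · have h1 := index_mul (L ⊓ B) fun y => ⟨eight_mem y, 0, fun i => by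
      simp only [Pi.smul_apply, smul_eq_mul]; omega⟩
    have h2 := AddSubgroup.relIndex_mul_index (inf_le_left : L ⊓ B ≤ L)
    rw [cntB] at h1
    rw [index_L] at h2
    show (L ⊓ B).relIndex L = _
    generalize (L ⊓ B).relIndex L = a at h2
    generalize (L ⊓ B).index = b at h1 h2
    norm_num at h1 h2 ⊢
    omega
  · rintro v ⟨hv, c, hc⟩
    obtain ⟨m, hm, C, -, h1, h2⟩ := (mem_iff.1 hv).norm
    have hm0 : m = 0 := by have := hc none; have := h1 none; omega
    subst hm0
    by_cases h : c % 2 = 0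
    · have : (32 : ℤ) ∣ ∑ i, (v i ^ 2 - 4 * v i) := Finset.dvd_sum fun i _ => by
        obtain ⟨y, hy⟩ : (4 : ℤ) ∣ v i := by have := hc i; omega
        obtain ⟨k, hk⟩ := Int.even_mul_pred_self y
        exact ⟨k, by rw [hy]; linarith⟩
      rw [Finset.sum_sub_distrib, ← Finset.mul_sum] at this
      unfold sqNorm; omega
    · have : (32 : ℤ) ∣ ∑ i, (v i ^ 2 - 4) := Finset.dvd_sum fun i _ => by
        obtain ⟨y, hy⟩ : (4 : ℤ) ∣ v i - 2 := by have := hc i; omega
        obtain ⟨k, hk⟩ := Int.even_mul_succ_self y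
        exact ⟨k, by rw [show v i = 4 * y + 2 by omega]; linarith⟩
      rw [Finset.sum_sub_distrib, Finset.sum_const, Finset.card_univ, card24] at this
      unfold sqNorm; simp at this; omega

end Cfsg.Agent.S5553
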