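import Cfsg.Statements.S5594
import Mathlib
import Cfsg.Agent.H25.Leech3
import Cfsg.Agent.H14.M24b

set_option autoImplicit false
open Cfsg

namespace Cfsg.Agent.S5594
open H25.Leech

/-- The automorphism group of the Leech lattice contains the negation map, and the subgroup of order 2 it generates has no complement: the automorphism group is a non-split extension of its quotient by that subgroup (it is not the direct product of a group of order 2 with the first Conway group). -/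
theorem result :
    ∃ n : ↥Cfsg.Co0, (∀ v : ↥Cfsg.leechLattice, ((n • v : ↥Cfsg.leechLattice) : Cfsg.GolayPt → ℤ) = -(v : Cfsg.GolayPt → ℤ)) ∧
    ∀ K : Subgroup ↥Cfsg.Co0, ¬ (Subgroup.zpowers n).IsComplement' K := by
  refine ⟨neg1, fun v => rfl, fun K hK => ?_⟩
  have ho : orderOf neg1 = 2 := orderOf_eq_prime (by rw [pow_two, neg1_sq]) neg1_ne
  have hi : K.index = 2 := by rw [hK.index_eq_card, Nat.card_zpowers, ho]
  have hd := H14.d0_mem
  have hd' : H14.d0ᶜ ∈ dodecads := ⟨H14.compl_mem_gcode hd.1, by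
    rw [Finset.card_compl, card24, hd.2]⟩
  obtain ⟨g, hg⟩ := H14.m24_dodecad hd hd'
  have e1 : mon 1 ⟨_, hd.1⟩ * mon 1 ⟨_, hd'.1⟩ = neg1 := co_ext8 fun i => by
    rw [mul_smul, mon_e8', g_zsmul, mon_e8', neg1_smul]
    by_cases h : i ∈ H14.d0 <;> simp [h]
  have e2 : mon g ⟨∅, H14.empty_mem_gcode⟩ * mon 1 ⟨_, hd.1⟩ =
      mon 1 ⟨_, hd'.1⟩ * mon g ⟨∅, H14.empty_mem_gcode⟩ := co_ext8 fun i => by
    rw [mul_smul, mul_smul, mon_e8', mon_e8', g_zsmul, g_zsmul, mon_e8', mon_e8']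
    have : g.1 i ∈ H14.d0ᶜ ↔ i ∈ H14.d0 := by
      rw [← hg]; exact Finset.smul_mem_smul_finset_iff g
    by_cases h : i ∈ H14.d0 <;> simp [h, this]
  have h1 := Subgroup.mul_mem_iff_of_index_two hi (a := mon g ⟨∅, H14.empty_mem_gcode⟩)
    (b := mon 1 ⟨_, hd.1⟩)
  rw [e2, Subgroup.mul_mem_iff_of_index_two hi] at h1
  have h2 : neg1 ∈ K := by rw [← e1, Subgroup.mul_mem_iff_of_index_two hi]; tauto
  exact neg1_ne (Subgroup.mem_bot.1 (hK.disjoint.le_bot ⟨Subgroup.mem_zpowers _, h2⟩))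

end Cfsg.Agent.S5594
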