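import Cfsg.Statements.S5599
import Cfsg.Agent.L1.Fix

set_option autoImplicit false
open scoped Pointwise
open Cfsg

namespace Cfsg.Agent.S5599

open Cfsg.Agent.H14 MulAction
open scoped Pointwise

/-- In the automorphism group of the length-24 code, the two-point Mathieu group (permutations of the code's group fixing the extra point and the residue 0) has index 2 in the setwise stabiliser of that pair of points, and an element of the code's group interchanging the two points normalises the two-point group and induces on it, by conjugation, an automorphism that is not inner. -/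
theorem result (g : Equiv.Perm Cfsg.GolayPt) (hg : g ∈ Cfsg.M24) (h₁ : g none = some 0) (h₂ : g (some 0) = none) : Cfsg.Spor.M22.relIndex (Cfsg.M24 ⊓ MulAction.stabilizer (Equiv.Perm Cfsg.GolayPt) ({none, some 0} : Finset Cfsg.GolayPt)) = 2 ∧ (∀ x ∈ Cfsg.Spor.M22, g * x * g⁻¹ ∈ Cfsg.Spor.M22) ∧ ¬ ∃ h ∈ Cfsg.Spor.M22, ∀ x ∈ Cfsg.Spor.M22, g * x * g⁻¹ = h * x * h⁻¹ := by
  have hP : gC.set 0x800001 = {none, some 0} := by decide
  have hle : Spor.M22 ≤ M24 ⊓ stabilizer (Equiv.Perm GolayPt) ({none, some 0} : Finset GolayPt) :=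
    fun x hx => ⟨hx.1.1, smul_finset_of_fix fun p hp => by
      simp only [Finset.mem_insert, Finset.mem_singleton] at hp
      rcases hp with rfl | rfl
      exacts [hx.1.2, hx.2]⟩
  refine ⟨?_, fun x hx => ⟨⟨M24.mul_mem (M24.mul_mem hg hx.1.1) (M24.inv_mem hg), ?_⟩, ?_⟩, ?_⟩
  · have h1 := (Spor.M22.subgroupOf (M24 ⊓ stabilizer (Equiv.Perm GolayPt)
      ({none, some 0} : Finset GolayPt))).card_mul_index
    rw [Nat.card_congr (Subgroup.subgroupOfEquivOfLe hle).toEquiv, card_M22,
      ← Nat.card_congr (subEquiv (K := SP2.K) inf_le_left fun g =>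
        ⟨fun h => ⟨g.2, hP ▸ h⟩, fun h => (hP ▸ h.2 : (g : Equiv.Perm GolayPt) ∈
          stabilizer _ (gC.set 0x800001))⟩).toEquiv, SP2.card_eq] at h1
    exact Nat.eq_of_mul_eq_mul_left (by norm_num) (h1.trans (by rfl : _ = 443520 * 2))
  · show g (x (g⁻¹ none)) = none
    rw [Equiv.Perm.inv_eq_iff_eq.mpr h₂.symm, show x (some 0) = some 0 from hx.2, h₂]
  · show g (x (g⁻¹ (some 0))) = some 0
    rw [Equiv.Perm.inv_eq_iff_eq.mpr h₁.symm, show x none = none from hx.1.2, h₁]
  · rintro ⟨h, hh, e⟩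
    have := eq_one_of_sep S22s (L := [0xb8eb44413279da152e3371844b1580, 0xbb4b45bd30922cc99e2e51aa118880,
    0xbac319ca904a98db39e81186429ea0, 0xbda349aab07a5666c9c13b08510d00,
    0xbd9cb94e247d425a0ce849990509a0])
      (U := 0x5f81d4) (by decide +kernel) (c := (⟨h, hh.1.1⟩ : M24)⁻¹ * ⟨g, hg⟩) fun x hx =>
        Subtype.ext (by
          have := e x ⟨⟨x.2, hx.1⟩, hx.2⟩
          show h⁻¹ * g * x * (h⁻¹ * g)⁻¹ = x
          calc _ = h⁻¹ * (g * x * g⁻¹) * h := by group
            _ = _ := by rw [this]; group)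
    rw [inv_mul_eq_one] at this
    obtain rfl : h = g := congrArg Subtype.val this
    have h3 : h none = none := hh.1.2
    rw [h₁] at h3
    cases h3

end Cfsg.Agent.S5599
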