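import Cfsg.Statements.S5600
import Cfsg.Agent.L1.Fix

set_option autoImplicit false
open scoped Pointwise
open Cfsg

namespace Cfsg.Agent.S5600

open Cfsg.Agent.H14 MulAction
open scoped Pointwise

theorem le1 : 16 * 720 ≤ Nat.card (stabilizer M24 (gC.set 0x80002f)) :=
  A24.le_card (fun _ => mem_stab_set)
    (lv := [(1, [0xd4cf5a5c8846645369661c5205c65]), (2, [0x24943b22d93ab3858ca7a06b15c25]), (0,
    [0xba48da2dc6545167c8f36541018825]), (4, [0xb9c92b25d54466fa316a6c06628820]), (3,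
    [0xbd8cf3b1d0a45b24254b9d46428820]), (5, [0x2a695835d34464c32acf3aee418820])])
    (by decide +kernel)

theorem le2 : 3 * 720 ≤ Nat.card (stabilizer M24 (gC.set 0x80001f)) :=
  A24.le_card (fun _ => mem_stab_set)
    (lv := [(0, [0xb976831e53ca296a293aa8c020c57]), (1, [0xba0b35cad57b527a31d151a0308880]), (2,
    [0x1ad257499431e768c2a86bd5711020]), (5, [0x1b9335c95179cada4115b199720820,
    0xb951459a117b5c79a93564ac320820]), (3, [0x1a90b9c9c73458da593583ca4b8820])])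
    (by decide +kernel)

theorem aux {E : Finset GolayPt} (hE : E.card = 6) (S : CSub A24) (k : M24)
    (h : ∀ g, g ∈ S.K ↔ ∀ p ∈ k • E, g • p = p)
    (hle : S.ord * 720 ≤ Nat.card (stabilizer M24 (k • E))) :
    (∀ σ : Equiv.Perm E, ∃ g ∈ M24, ∀ p : E, g p = σ p) ∧
      Nat.card {g : Equiv.Perm GolayPt // g ∈ M24 ∧ ∀ p ∈ E, g p = p} = S.ord ∧
      Nat.card (stabilizer M24 E) = S.ord * 720 := by
  have h1 : ∀ g : M24, (∀ p ∈ E, g • p = p) ↔ k * g * k⁻¹ ∈ S.K := fun g => by rw [h, fix_conj_iff]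
  have h2 : Nat.card (S.K.comap (MulAut.conj k).toMonoidHom) = S.ord :=
    (Nat.card_congr (conjEquiv k fun _ => Iff.rfl).toEquiv).trans S.card_eq
  have h3 : ∀ g, g ∈ S.K.comap (MulAut.conj k).toMonoidHom ↔ g ∈ stabilizer M24 E ∧
      ∀ p ∈ E, g • p = p := fun g =>
    ⟨fun hg => ⟨smul_finset_of_fix ((h1 g).mpr hg), (h1 g).mpr hg⟩, fun hg => (h1 g).mp hg.2⟩
  rw [← Nat.card_congr (stabilizerEquivStabilizer (g := k) (a := E) rfl).toEquiv] at hle
  have h4 := induces_all (fun g hg x hx => smul_mem_of_stab hg hx) h3 (by rw [h2, hE]; exact hle)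
  refine ⟨fun σ => ?_, (card_perm_subtype k h1).trans S.card_eq, ?_⟩
  · obtain ⟨g, -, hg⟩ := h4 σ
    exact ⟨g, g.2, hg⟩
  · rw [card_of_induces_all (fun g hg x hx => smul_mem_of_stab hg hx) h3 h4, h2, hE]; rfl

/-- Although the group of the length-24 code is only 5-transitive on the 24 points, it induces the full symmetric group on every 6-element subset: every permutation of a 6-set E is the restriction of an element of the group mapping E to itself. The pointwise stabiliser of E has order 16 when E lies in an octad and order 3 otherwise; in the latter case the setwise stabiliser of E has order 2160. -/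
theorem result (E : Finset Cfsg.GolayPt) (hE : E.card = 6) : (∀ σ : Equiv.Perm ↥E, ∃ g ∈ Cfsg.M24, ∀ p : ↥E, g p = σ p) ∧ ((∃ o ∈ Cfsg.octads, E ⊆ o) → Nat.card {g : Equiv.Perm Cfsg.GolayPt // g ∈ Cfsg.M24 ∧ ∀ p ∈ E, g p = p} = 16) ∧ ((¬ ∃ o ∈ Cfsg.octads, E ⊆ o) → Nat.card {g : Equiv.Perm Cfsg.GolayPt // g ∈ Cfsg.M24 ∧ ∀ p ∈ E, g p = p} = 3 ∧ Nat.card ↥(MulAction.stabilizer Cfsg.M24 E) = 2160) := by
  obtain ⟨k, e | e⟩ := six_cases hE
  · obtain ⟨h1, h2, -⟩ := aux hE S18 k (fun g => e ▸ mem_S18') (e ▸ le1)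
    refine ⟨h1, fun _ => h2, fun h => absurd ?_ h⟩
    rw [← smul_inOct k, e]
    exact ⟨o0, o0_mem, by decide⟩
  · obtain ⟨h1, h2, h3⟩ := aux hE S6n k (fun g => e ▸ mem_S6n) (e ▸ le2)
    refine ⟨h1, fun h => absurd h ?_, fun _ => ⟨h2, h3⟩⟩
    rw [← smul_inOct k, e, ← inOct_iff (by norm_num)]
    decide +kernel

end Cfsg.Agent.S5600
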