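import Cfsg.Statements.S5601
import Cfsg.Agent.L1.Fix

set_option autoImplicit false
open scoped Pointwise
open Cfsg

namespace Cfsg.Agent.S5601

open Cfsg.Agent.H14 MulAction
open scoped Pointwise

theorem ncard_fix (g : M24) : {p : GolayPt | ∀ x ∈ Subgroup.zpowers g,
    ((x : M24) : Equiv.Perm GolayPt) p = p}.ncard = (fixP g).card := by
  rw [← Set.ncard_coe_finset]
  congr 1
  ext p
  rw [Finset.mem_coe, mem_fixP]
  exact ⟨fun h => h g (Subgroup.mem_zpowers g), fun h x hx =>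
    (Subgroup.zpowers_le (H := stabilizer M24 p)).mpr h hx⟩

theorem exists_gen {X : Subgroup M24} (h : Nat.card X = 3) :
    ∃ g, orderOf g = 3 ∧ X = Subgroup.zpowers g := by
  have := Fact.mk Nat.prime_three
  obtain ⟨g, hg⟩ := (Subgroup.isCyclic_iff_exists_zpowers_eq_top X).mp (isCyclic_of_prime_card h)
  exact ⟨g, by rw [← Nat.card_zpowers, hg, h], hg.symm⟩

theorem conj_zpowers (k g : M24) :
    MulAut.conj k • Subgroup.zpowers g = Subgroup.zpowers (k * g * k⁻¹) :=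
  MonoidHom.map_zpowers _ g

/-- The group of the length-24 code has exactly two conjugacy classes of subgroups of order 3: a subgroup of order 3 fixes either exactly 6 of the 24 points or none of them, both cases occur, and two subgroups of order 3 with the same number of fixed points are conjugate. -/
theorem result : (∀ X : Subgroup ↥Cfsg.M24, Nat.card X = 3 → {p : Cfsg.GolayPt | ∀ x ∈ X, ((x : ↥Cfsg.M24) : Equiv.Perm Cfsg.GolayPt) p = p}.ncard = 6 ∨ {p : Cfsg.GolayPt | ∀ x ∈ X, ((x : ↥Cfsg.M24) : Equiv.Perm Cfsg.GolayPt) p = p}.ncard = 0) ∧ (∃ X : Subgroup ↥Cfsg.M24, Nat.card X = 3 ∧ {p : Cfsg.GolayPt | ∀ x ∈ X, ((x : ↥Cfsg.M24) : Equiv.Perm Cfsg.GolayPt) p = p}.ncard = 6) ∧ (∃ X : Subgroup ↥Cfsg.M24, Nat.card X = 3 ∧ {p : Cfsg.GolayPt | ∀ x ∈ X, ((x : ↥Cfsg.M24) : Equiv.Perm Cfsg.GolayPt) p = p}.ncard = 0) ∧ ∀ X Y : Subgroup ↥Cfsg.M24, Nat.card X = 3 → Nat.card Y = 3 → {p : Cfsg.GolayPt | ∀ x ∈ X, ((x :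 ↥Cfsg.M24) : Equiv.Perm Cfsg.GolayPt) p = p}.ncard = {p : Cfsg.GolayPt | ∀ x ∈ Y, ((x : ↥Cfsg.M24) : Equiv.Perm Cfsg.GolayPt) p = p}.ncard → ∃ k : ↥Cfsg.M24, MulAut.conj k • X = Y := by
  refine ⟨fun X hX => ?_, ⟨Subgroup.zpowers (A24.el x3a), ?_, ?_⟩,
    ⟨Subgroup.zpowers (A24.el x3b), ?_, ?_⟩, fun X Y hX hY h => ?_⟩
  · obtain ⟨g, hg, rfl⟩ := exists_gen hX
    rw [ncard_fix]
    exact three_fix hg
  · rw [Nat.card_zpowers, orderOf_x3a]
  · rw [ncard_fix, card_fixP_x3a]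
  · rw [Nat.card_zpowers, orderOf_x3b]
  · rw [ncard_fix, fixP_x3b, Finset.card_empty]
  · obtain ⟨g, hg, rfl⟩ := exists_gen hX
    obtain ⟨g', hg', rfl⟩ := exists_gen hY
    rw [ncard_fix, ncard_fix] at h
    have key : ∀ x : M24, (∃ k : M24, k * g * k⁻¹ = x) → (∃ k : M24, k * g' * k⁻¹ = x) →
        ∃ k : M24, MulAut.conj k • Subgroup.zpowers g = Subgroup.zpowers g' := by
      rintro x ⟨a, ha⟩ ⟨b, hb⟩
      refine ⟨b⁻¹ * a, (conj_zpowers _ _).trans (congrArg _ ?_)⟩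
      calc _ = b⁻¹ * (a * g * a⁻¹) * b := by group
        _ = _ := by rw [ha, ← hb]; group
    rcases three_fix hg with h1 | h1
    · exact key _ (three_conj_A hg (by omega)) (three_conj_A hg' (by omega))
    · exact key _ (three_conj_B hg (by omega)) (three_conj_B hg' (by omega))

end Cfsg.Agent.S5601
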