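import Cfsg.Statements.S5604
import Cfsg.Agent.L1.Fix

set_option autoImplicit false
open scoped Pointwise
open Cfsg

namespace Cfsg.Agent.S5604

open Cfsg.Agent.H14 MulAction
open scoped Pointwise

/-- a cyclic group of order 7. -/
noncomputable def P : CSub A24 :=
  CSub.cyc A24 0x73e75b1c70214cca494d4262b106e0 7
    [(1, [0x8adf623430a0d4c9a0e934855bb8a0])] (by decide +kernel)

/-- the normaliser. -/
noncomputable def R : CSub A24 :=
  STs.stab m3 compat_m3 0x11001 513
    [(0, [0x33865091ac8a9e0bdab3a2ce24c910]), (2, [0x1b5463ae2c4849043e76ad1d215ca0]), (1,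
    [0xb50952c6c945f03cc94b56e6708a0]), (4, [0xbc92655a2c3b9706cea47d0a818820])]
    126 (V_m3 (by decide +kernel)) (by decide +kernel)

theorem ok_x : A24.ok 0x73e75b1c70214cca494d4262b106e0 := A24_ok (by decide +kernel)

/-- the centraliser. -/
noncomputable def C : CSub A24 :=
  R.stab (cjL [0x292d37a0505c52ca9e466a8740ddc0, 0x1d08f59af0a8a4cb350a49c3371620,
    0x73e75b1c70214cca494d4262b106e0]) (compat_cjL _) 0x73e75b1c70214cca494d4262b106e0 4
    [(0, [0x55564a0d009caec7c4a1138f669930]), (1, [0x15564a25d0984ec799b2522f62c460]), (4,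
    [0xbc92655a2c3b9706cea47d0a818820])]
    42 ok_x (by decide +kernel)

theorem norm_P : Subgroup.normalizer (P.K : Set M24) = R.K := by
  refine le_antisymm (fun n hn => ?_) (P.le_normalizer R (by decide +kernel))
  have h1 := G24.smul_eq_of_norm P mT compat_mT V_T0 (fuel := 3796) (by decide +kernel)
    (n := n) trivial hn
  exact ⟨h1, STs.smul_eq_of_norm P m3 compat_m3 (V_m3 (by decide +kernel)) (fuel := 513)
    (by decide +kernel) h1 hn⟩

theorem cent_P : Subgroup.centralizer (P.K : Set M24) = C.K := by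
  have h : Subgroup.centralizer (P.K : Set M24) = stabilizer M24 (Cj.mk (A24.el 0x73e75b1c70214cca494d4262b106e0)) := by
    rw [Cj.stabilizer_mk, ← Subgroup.centralizer_closure {_}, ← Subgroup.zpowers_eq_closure]; rfl
  exact le_antisymm (le_inf (norm_P ▸ Subgroup.centralizer_le_normalizer _) h.le)
    (inf_le_right.trans h.ge)

/-- For a subgroup S of order 7 of the group of the length-24 code (a Sylow 7-subgroup): the normaliser of S has order 126, the centraliser of S has order 42 and is non-abelian, and the whole normaliser leaves some trio invariant. (These are the orders of a Frobenius group of order 21 times a symmetric group of degree 3; the isomorphism type itself is not asserted here.) -/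
theorem result (S : Subgroup ↥Cfsg.M24) (hS : Nat.card S = 7) : Nat.card ↥(Subgroup.normalizer (S : Set ↥Cfsg.M24)) = 126 ∧ Nat.card ↥(Subgroup.centralizer (S : Set ↥Cfsg.M24)) = 42 ∧ (∃ x ∈ Subgroup.centralizer (S : Set ↥Cfsg.M24), ∃ y ∈ Subgroup.centralizer (S : Set ↥Cfsg.M24), x * y ≠ y * x) ∧ ∃ T ∈ Cfsg.trios, ∀ n ∈ Subgroup.normalizer (S : Set ↥Cfsg.M24), ((n : ↥Cfsg.M24) : Equiv.Perm Cfsg.GolayPt) • T = T := by
  have := Fact.mk (by norm_num : Nat.Prime 7)
  obtain ⟨k, -, hk⟩ := exists_conj_mem_of_pgroup (p := 7) (by norm_num) (K := ⊤) (P := P.K) (Q := S)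
    le_top le_top (IsPGroup.of_card (n := 1) hS) (n := 34974720)
    (by rw [P.card_eq, Subgroup.card_top, card_M24]; rfl) (by norm_num)
  have e : S.map (MulAut.conj k).toMonoidHom = P.K :=
    Subgroup.eq_of_le_of_card_ge (by rintro _ ⟨x, hx, rfl⟩; exact hk x hx) (by
      rw [P.card_eq, Subgroup.card_map_of_injective (MulAut.conj k).injective, hS]; rfl)
  have hN : ∀ g, g ∈ Subgroup.normalizer (S : Set M24) ↔ k * g * k⁻¹ ∈ R.K := fun g => by
    rw [← norm_P, ← e, ← Subgroup.map_equiv_normalizer_eq]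
    exact (Subgroup.mem_map_iff_mem (f := (MulAut.conj k).toMonoidHom)
      (MulAut.conj k).injective).symm
  have hC : ∀ g, g ∈ Subgroup.centralizer (S : Set M24) ↔ k * g * k⁻¹ ∈ C.K := fun g => by
    rw [← cent_P, ← e, Subgroup.mem_centralizer_iff, Subgroup.mem_centralizer_iff]
    refine ⟨?_, fun h x hx => (MulAut.conj k).injective ?_⟩
    · rintro h _ ⟨x, hx, rfl⟩
      exact ((map_mul (MulAut.conj k) _ _).symm.trans (congrArg _ (h x hx))).trans
        (map_mul (MulAut.conj k) _ _)
    · rw [map_mul, map_mul]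
      exact h _ ⟨x, hx, rfl⟩
  have oa : A24.ok 0x2a24a3904c6c6b04bed45cc660ddc0 := A24_ok (by decide +kernel)
  have ob : A24.ok 0x43e75b5d202362ca044570ccb548f0 := A24_ok (by decide +kernel)
  refine ⟨(Nat.card_congr (conjEquiv k hN).toEquiv).trans R.card_eq,
    (Nat.card_congr (conjEquiv k hC).toEquiv).trans C.card_eq,
    ⟨k⁻¹ * A24.el _ * k, (hC _).mpr (by
      simpa [mul_assoc] using (C.test_iff _ oa).mp (by decide +kernel)),
    k⁻¹ * A24.el _ * k, (hC _).mpr (by
      simpa [mul_assoc] using (C.test_iff _ ob).mp (by decide +kernel)), fun h => ?_⟩,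
    k⁻¹ • T0, (m24_smul_trios _).mpr T0_mem, fun n hn => ?_⟩
  · refine absurd ((A24.commute_iff oa ob).mp ?_) (by decide +kernel)
    apply mul_right_cancel (b := k)
    simpa [mul_assoc] using h
  · have h : (k * n * k⁻¹) • T0 = T0 := ((hN n).mp hn).1
    rw [← m24_smul_sets]
    rwa [mul_smul, mul_smul, ← eq_inv_smul_iff] at h

end Cfsg.Agent.S5604
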