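import Cfsg.Statements.S5607
import Cfsg.Agent.L1.Fix

set_option autoImplicit false
open scoped Pointwise
open Cfsg

namespace Cfsg.Agent.S5607

open Cfsg.Agent.H14 MulAction
open scoped Pointwise

/-- For a fixed-point-free involution t of the group of the length-24 code: its centraliser in that group has order 7680, is transitive on the 24 points, and is contained, together with t, in the stabiliser of some sextet. -/
theorem result (t : Equiv.Perm Cfsg.GolayPt) (ht : t ∈ Cfsg.M24) (h₂ : orderOf t = 2) (h₀ : ∀ p, t p ≠ p) : Nat.card {c : Equiv.Perm Cfsg.GolayPt // c ∈ Cfsg.M24 ∧ c * t = t * c} = 7680 ∧ (∀ p q : Cfsg.GolayPt, ∃ c ∈ Cfsg.M24, c * t = t * c ∧ c p = q) ∧ ∃ S ∈ Cfsg.sextets, t • S = S ∧ ∀ c ∈ Cfsg.M24, c * t = t * c → c • S = S := by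
  obtain ⟨k, e⟩ := inv_conj_B (orderOf_mk ht h₂) h₀
  have key : ∀ c : M24, (c : Equiv.Perm GolayPt) * t = t * c ↔ k * c * k⁻¹ ∈ C2B.K := fun c => by
    rw [C2B_K, Subgroup.mem_centralizer_singleton_iff, ← e, ← MulAut.conj_apply,
      ← MulAut.conj_apply, ← map_mul, ← map_mul, (MulAut.conj k).injective.eq_iff, Subtype.ext_iff]
    rfl
  refine ⟨(card_perm_subtype k key).trans C2B.card_eq, fun p q => ?_,
    k⁻¹ • X0, (m24_smul_sextets _).mpr X0_mem, ?_, fun c hc h => ?_⟩
  · have h : ∀ r : GolayPt, r ∈ orbit C2B.K (gC.pt 0) := fun r => by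
      have := (C2B.mem_orbit_iff A24.toModel A24.compat_self (c := 0) (fuel := 25) (U := 0xffffff)
        (by decide : 0 < 24) (by decide +kernel) (gC.idx_lt r)).mpr (by revert r; decide)
      exact gC.pt_idx r ▸ this
    obtain ⟨c, hc, e'⟩ := exists_smul_of_mem_orbit (h (k • p)) (h (k • q))
    refine ⟨_, (k⁻¹ * c * k).2, (key _).mpr (by simpa [mul_assoc] using hc), ?_⟩
    show (k⁻¹ * c * k) • p = q
    rw [mul_smul, mul_smul, e', inv_smul_smul]
  · have := smul_X0_of_comm (c := A24.el t0) rfl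
    show (⟨t, ht⟩ : M24) • k⁻¹ • X0 = _
    rwa [← e, mul_smul, mul_smul, ← eq_inv_smul_iff] at this
  · have := smul_X0_of_comm
      (Subgroup.mem_centralizer_singleton_iff.mp ((key ⟨c, hc⟩).mp h))
    show (⟨c, hc⟩ : M24) • k⁻¹ • X0 = _
    rwa [mul_smul, mul_smul, ← eq_inv_smul_iff] at this

end Cfsg.Agent.S5607
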