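import Cfsg.Statements.S5608
import Cfsg.Agent.L1.Fix

set_option autoImplicit false
open scoped Pointwise
open Cfsg

namespace Cfsg.Agent.S5608

open Cfsg.Agent.H14 MulAction
open scoped Pointwise

/-- a cyclic group of order 3. -/
noncomputable def PA : CSub A24 :=
  CSub.cyc A24 0x2d1ec9c82625d365c10d3a9d51c440 3
    [(1, [0x730969c84aa9514599a93c2ef18620])] (by decide +kernel)

/-- a cyclic group of order 3. -/
noncomputable def PB : CSub A24 :=
  CSub.cyc A24 0x8a6f2042b45cd562218d088ef30cae 3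
    [(0, [0xab230752f2201097b6ca28c2b118f3])] (by decide +kernel)

/-- If an element of order 3 and an involution of the group of the length-24 code commute, then either the element of order 3 has exactly 6 fixed points and the involution exactly 8, or both are fixed-point-free. -/
theorem result (x s : Equiv.Perm Cfsg.GolayPt) (hx : x ∈ Cfsg.M24) (hs : s ∈ Cfsg.M24) (h₃ : orderOf x = 3) (h₂ : orderOf s = 2) (hc : Commute x s) : ((Finset.univ.filter fun p => x p = p).card = 6 ∧ (Finset.univ.filter fun p => s p = p).card = 8) ∨ ((Finset.univ.filter fun p => x p = p).card = 0 ∧ (Finset.univ.filter fun p => s p = p).card = 0) := by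
  have hc' : ∀ k y : M24, k * ⟨s, hs⟩ * k⁻¹ = y → k * ⟨x, hx⟩ * k⁻¹ ∈ Subgroup.centralizer {y} := by
    rintro k _ rfl
    rw [Subgroup.mem_centralizer_singleton_iff, ← MulAut.conj_apply,
      ← MulAut.conj_apply, ← map_mul, ← map_mul, (MulAut.conj k).injective.eq_iff, Subtype.ext_iff]
    exact hc
  show ((fixP ⟨x, hx⟩).card = 6 ∧ (fixP ⟨s, hs⟩).card = 8) ∨
    ((fixP ⟨x, hx⟩).card = 0 ∧ (fixP ⟨s, hs⟩).card = 0)
  rcases inv_conj (orderOf_mk hs h₂) with ⟨k, e⟩ | ⟨k, e⟩
  · obtain ⟨u, -, r, hr, e'⟩ := C2A.cover_prime G24 PA le_top (n := 7168) (by norm_num)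
      (lv := [(1, [0xbdab49ca307b9ac5a928398a418820, 0x2d1ec9c82625d365c10d3a9d51c440,
      0x730969c84aa9514599a93c2ef18620])])
      (cert := assocL [(0x2d1ec9c82625d365c10d3a9d51c440, 0x62e1444931235d77ccaa0d862a9807),
    (0x730969c84aa9514599a93c2ef18620, 0x74c96954c3816917b577431420a407)])
      (reps := [x3a]) (by decide +kernel) (hc' k _ e) ((orderOf_conj' _ _).trans (orderOf_mk hx h₃))
    obtain rfl := List.mem_singleton.mp hr
    refine Or.inl ⟨?_, ?_⟩
    · rw [← card_fixP_conj k, ← card_fixP_conj u, e', card_fixP_x3a]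
    · rw [← card_fixP_conj k, e, fixP_z0, o0_mem.2]
  · obtain ⟨u, -, r, hr, e'⟩ := C2B.cover_prime G24 PB le_top (n := 2560) (by norm_num)
      (lv := [(0, [0xbdab49ca307b9ac5a928398a418820, 0x8a6f2042b45cd562218d088ef30cae,
      0xab230752f2201097b6ca28c2b118f3])])
      (cert := assocL [(0x8a6f2042b45cd562218d088ef30cae, 0xa46cb4aaee099f321cb59206d64040),
    (0xab230752f2201097b6ca28c2b118f3, 0xa16ee32acb6a4f323e351b24144040)])
      (reps := [x3b]) (by decide +kernel) (hc' k _ e) ((orderOf_conj' _ _).trans (orderOf_mk hx h₃))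
    obtain rfl := List.mem_singleton.mp hr
    refine Or.inr ⟨?_, ?_⟩
    · rw [← card_fixP_conj k, ← card_fixP_conj u, e', fixP_x3b, Finset.card_empty]
    · rw [← card_fixP_conj k, e, fixP_t0, Finset.card_empty]

end Cfsg.Agent.S5608
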