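import Cfsg.Statements.S5609
import Cfsg.Agent.H14.M24c

set_option autoImplicit false
open scoped Pointwise
open Cfsg

namespace Cfsg.Agent.S5609

open Cfsg.Agent.H14 MulAction
open scoped Pointwise

theorem oct {m : ℕ} (h : isOct m = true) : gC.set m ∈ octads := (isOct_iff.mp h).2

theorem dj {a b : ℕ} (h : band (Nat.ble a 16777215) (Nat.beq (Nat.land a b) 0) = true) :
    Disjoint (gC.set a) (gC.set b) := by
  rw [band_iff, nble_iff, nbeq_iff] at h
  exact (gC.set_disjoint_iff (Nat.lt_succ_of_le h.1)).mpr h.2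

theorem four {o o' : Finset GolayPt} (ho : o ∈ octads) (ho' : o' ∈ octads)
    (h : (o ∩ o').card = 4) : ∃ p ∈ octads, Disjoint o p ∧ Disjoint p o' := by
  obtain ⟨g, rfl, rfl⟩ := m24_octad_pair (o₁ := gC.set 0x82402f) (o₂ := gC.set 0xc75001)
    (oct (by decide +kernel)) (oct (by decide +kernel)) ho ho'
    (by rw [h, card_inter_gset]; decide +kernel)
  exact ⟨g • gC.set 0x3886c0, (m24_smul_octads g).mpr (oct (by decide +kernel)),
    (disjoint_smul_finset g).mpr (dj (by decide +kernel)),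
    (disjoint_smul_finset g).mpr (dj (by decide +kernel))⟩

theorem two {o o' : Finset GolayPt} (ho : o ∈ octads) (ho' : o' ∈ octads)
    (h : (o ∩ o').card = 2) :
    (∃ p ∈ octads, ∃ q ∈ octads, Disjoint o p ∧ Disjoint p q ∧ Disjoint q o') ∧
      ∀ p ∈ octads, Disjoint o p → ¬ Disjoint p o' := by
  obtain ⟨g, rfl, rfl⟩ := m24_octad_pair (o₁ := gC.set 0x82402f) (o₂ := gC.set 0x49f002)
    (oct (by decide +kernel)) (oct (by decide +kernel)) ho ho'
    (by rw [h, card_inter_gset]; decide +kernel)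
  refine ⟨⟨g • gC.set 0x6920d0, (m24_smul_octads g).mpr (oct (by decide +kernel)),
    g • gC.set 0x860721, (m24_smul_octads g).mpr (oct (by decide +kernel)),
    (disjoint_smul_finset g).mpr (dj (by decide +kernel)),
    (disjoint_smul_finset g).mpr (dj (by decide +kernel)),
    (disjoint_smul_finset g).mpr (dj (by decide +kernel))⟩, fun p hp h1 h2 => ?_⟩
  obtain ⟨p, rfl⟩ := MulAction.surjective g p
  rw [disjoint_smul_finset] at h1 h2
  rw [m24_smul_octads, mem_octads, mem_gcode_iff] at hp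
  obtain ⟨⟨m, hm, rfl⟩, h8⟩ := hp
  have := forall_cw (p := fun m => force m fun m => bnot (band (Nat.beq (pop24 m) 8)
    (band (Nat.beq (Nat.land m 0x82402f) 0) (Nat.beq (Nat.land m 0x49f002) 0))))
    (by decide +kernel) hm
  rw [force_eq, bnot_iff, band_iff, band_iff, nbeq_iff, nbeq_iff, nbeq_iff] at this
  exact this ⟨card_gset m ▸ h8, (gC.set_disjoint_iff hm.1).mp h1.symm,
    (gC.set_disjoint_iff hm.1).mp h2⟩

theorem adj {o o' : octads} : (blockGraph octads).Adj o o' ↔ Disjoint o.1 o'.1 :=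
  ⟨fun h => h.2.elim id fun h => h.symm,
    fun h => ⟨fun e => octad_ne_of_disjoint o.2 h (congrArg Subtype.val e), Or.inl h⟩⟩

theorem walk (o o' : octads) (hne : o ≠ o') :
    ((o.1 ∩ o'.1).card = 0 ∧ ∃ w : (blockGraph octads).Walk o o', w.length = 1) ∨
    ((o.1 ∩ o'.1).card = 4 ∧ ∃ w : (blockGraph octads).Walk o o', w.length = 2) ∨
    ((o.1 ∩ o'.1).card = 2 ∧ ∃ w : (blockGraph octads).Walk o o', w.length = 3) := by
  rcases octad_inter o.2 o'.2 (fun e => hne (Subtype.ext e)) with h | h | h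
  · exact Or.inl ⟨h, .cons (adj.mpr (Finset.disjoint_iff_inter_eq_empty.mpr
      (Finset.card_eq_zero.mp h))) .nil, rfl⟩
  · obtain ⟨p, hp, q, hq, h1, h2, h3⟩ := (two o.2 o'.2 h).1
    exact Or.inr (Or.inr ⟨h, .cons (v := ⟨p, hp⟩) (adj.mpr h1) (.cons (v := ⟨q, hq⟩) (adj.mpr h2)
      (.cons (adj.mpr h3) .nil)), rfl⟩)
  · obtain ⟨p, hp, h1, h2⟩ := four o.2 o'.2 h
    exact Or.inr (Or.inl ⟨h, .cons (v := ⟨p, hp⟩) (adj.mpr h1) (.cons (adj.mpr h2) .nil), rfl⟩)

/-- In the graph on the 759 octads of the length-24 code in which two octads are adjacent when they are disjoint, the graph is connected (of diameter 3) and two distinct octads are at distance 1, 2 or 3 exactly when they meet in 0, 4 or 2 points respectively. -/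
theorem result (o o' : Finset Cfsg.GolayPt) (ho : o ∈ Cfsg.octads) (ho' : o' ∈ Cfsg.octads) (hne : o ≠ o') : (Cfsg.blockGraph Cfsg.octads).Connected ∧ ((Cfsg.blockGraph Cfsg.octads).dist ⟨o, ho⟩ ⟨o', ho'⟩ = 1 ↔ (o ∩ o').card = 0) ∧ ((Cfsg.blockGraph Cfsg.octads).dist ⟨o, ho⟩ ⟨o', ho'⟩ = 2 ↔ (o ∩ o').card = 4) ∧ ((Cfsg.blockGraph Cfsg.octads).dist ⟨o, ho⟩ ⟨o', ho'⟩ = 3 ↔ (o ∩ o').card = 2) := by
  have hc : (blockGraph octads).Connected := by
    have : Nonempty octads := ⟨⟨o, ho⟩⟩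
    refine ⟨fun u v => ?_⟩
    by_cases h : u = v
    · rw [h]
    · rcases walk u v h with ⟨-, w, -⟩ | ⟨-, w, -⟩ | ⟨-, w, -⟩ <;> exact ⟨w⟩
  have hn : (⟨o, ho⟩ : octads) ≠ ⟨o', ho'⟩ := fun e => hne (congrArg Subtype.val e)
  have h0 := hc.dist_eq_zero_iff.not.mpr hn
  have h1 : (blockGraph octads).dist ⟨o, ho⟩ ⟨o', ho'⟩ = 1 ↔ (o ∩ o').card = 0 := by
    rw [SimpleGraph.dist_eq_one_iff_adj, adj, Finset.disjoint_iff_inter_eq_empty,
      Finset.card_eq_zero]
  have h2 : (blockGraph octads).dist ⟨o, ho⟩ ⟨o', ho'⟩ = 2 → (o ∩ o').card ≠ 2 := fun h e => by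
    obtain ⟨w, hw⟩ := (hc ⟨o, ho⟩ ⟨o', ho'⟩).exists_walk_length_eq_dist
    rw [h] at hw
    have a1 := w.adj_getVert_succ (i := 0) (by omega)
    have a2 := w.adj_getVert_succ (i := 1) (by omega)
    rw [w.getVert_zero] at a1
    rw [show 1 + 1 = w.length by omega, w.getVert_length] at a2
    exact (two ho ho' e).2 _ (w.getVert 1).2 (adj.mp a1) (adj.mp a2)
  refine ⟨hc, h1, ?_⟩
  rcases walk _ _ hn with ⟨h, w, hw⟩ | ⟨h, w, hw⟩ | ⟨h, w, hw⟩ <;>
  · have := hw ▸ SimpleGraph.dist_le w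
    dsimp only at h
    omega

end Cfsg.Agent.S5609
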