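import Cfsg.Statements.S5613
import Mathlib
import Cfsg.Agent.H14.M24c

set_option autoImplicit false
open scoped Pointwise
open Cfsg

namespace Cfsg.Agent.S5613

/-- In the group of the length-24 code, the joint stabiliser of two octads has order 10752, 1152 or 720 according as the octads meet in 0, 4 or 2 points. -/
theorem result (o o' : Finset Cfsg.GolayPt) (ho : o ∈ Cfsg.octads) (ho' : o' ∈ Cfsg.octads) : ((o ∩ o').card = 0 → Nat.card ↥(MulAction.stabilizer Cfsg.M24 o ⊓ MulAction.stabilizer Cfsg.M24 o') = 10752) ∧ ((o ∩ o').card = 4 → Nat.card ↥(MulAction.stabilizer Cfsg.M24 o ⊓ MulAction.stabilizer Cfsg.M24 o') = 1152) ∧ ((o ∩ o').card = 2 → Nat.card ↥(MulAction.stabilizer Cfsg.M24 o ⊓ MulAction.stabilizer Cfsg.M24 o') = 720) := by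
  have key : ∀ (m n : ℕ), H14.isOct m = true →
      Nat.card ↥(MulAction.stabilizer M24 H14.o0 ⊓ MulAction.stabilizer M24 (H14.gC.set m)) = n →
      (o ∩ o').card = H14.pop24 (Nat.land 0x82402f m) →
      Nat.card ↥(MulAction.stabilizer M24 o ⊓ MulAction.stabilizer M24 o') = n := by
    intro m n hm hn e
    obtain ⟨g, rfl, rfl⟩ := H14.m24_octad_pair H14.o0_mem (H14.isOct_iff.mp hm).2 ho ho'
      ((H14.card_inter_gset _ _).trans e.symm)
    rw [← hn]
    exact (Nat.card_congr (H14.stabEquiv2 g _ _).toEquiv).symm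
  exact ⟨fun e => key _ _ (by decide +kernel) H14.SOO0.card_eq (e.trans (by decide +kernel)),
    fun e => key _ _ (by decide +kernel) H14.SOO4.card_eq (e.trans (by decide +kernel)),
    fun e => key _ _ (by decide +kernel) H14.SOO2.card_eq (e.trans (by decide +kernel))⟩

end Cfsg.Agent.S5613
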