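import Cfsg.Statements.S5614
import Cfsg.Agent.L1.Iso

set_option autoImplicit false
open scoped Pointwise
open Cfsg

namespace Cfsg.Agent.S5614

open Cfsg.Agent.H14 MulAction
open scoped Pointwise

/-- In the group of the length-24 code, the joint stabiliser of two octads meeting in exactly two points is isomorphic to the symmetric group of degree 6. -/
theorem result (o o' : Finset Cfsg.GolayPt) (ho : o ∈ Cfsg.octads) (ho' : o' ∈ Cfsg.octads) (h₂ : (o ∩ o').card = 2) : Nonempty (↥(MulAction.stabilizer Cfsg.M24 o ⊓ MulAction.stabilizer Cfsg.M24 o') ≃* Equiv.Perm (Fin 6)) := by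
  obtain ⟨k, rfl, rfl⟩ := m24_octad_pair o0_mem (isOct_iff.mp (by decide +kernel :
    isOct 0x49f002 = true)).2 ho ho' (((card_inter_gset 0x82402f 0x49f002).trans
      (by decide +kernel)).trans h₂.symm)
  obtain ⟨e⟩ := iso_perm (K := SOO2.K) (S := gC.set 0x82002d) (n := 6)
    (SOO2.smul_mem_mask (by decide +kernel))
    (fun g hg h => SOO2.eq_one_of_mask (lv :=
      [(0, [0xbb24a99c4fb05b0a22ab490a600dd1]), (2, [0xbb0896a8b0786d3354f442c72145c0]), (3,
      [0x8c2469a4af605b652ce4aa074b89c0]), (5, [0x8b1667a4b383acd3c948a92f418820]), (17,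
      [0x8bd6464aedb0613aa548398b4189c0])]) (by decide +kernel) hg h)
    ((gC.card_set _).trans (by decide +kernel)) SOO2.card_eq.ge
  exact ⟨(stabEquiv2 k o0 (gC.set 0x49f002)).symm.trans e⟩

end Cfsg.Agent.S5614
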