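import Cfsg.Statements.S5615
import Cfsg.Agent.H14.M24e
import Cfsg.Agent.L1.Iso

set_option autoImplicit false
open scoped Pointwise
open Cfsg

namespace Cfsg.Agent.S5615

open Cfsg.Agent.H14 MulAction
open scoped Pointwise

/-- the trios through `o0`. -/
def F : Set (Finset (Finset GolayPt)) := {T | T ∈ trios ∧ o0 ∈ T}

theorem q (c : ℕ) (h : mT.V c) : bor (Nat.beq (get 24 c 0) 0x82402f)
    (bor (Nat.beq (get 24 c 1) 0x82402f) (Nat.beq (get 24 c 2) 0x82402f)) = true ↔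
    o0 ∈ mT.dec c := by
  have e : ∀ j, Nat.beq (get 24 c j) 0x82402f = true ↔ o0 = gC.set (get 24 c j) := fun j => by
    rw [nbeq_iff, o0, gC.set_eq_iff (by decide) (get_lt 24 _ _), eq_comm]
  rw [mT_dec, bor_iff, bor_iff, e, e, e]
  simp

theorem ncard_F : F.ncard = 15 :=
  ncard_of_orbit mT compat_mT V_T0 orbit_T0 q (fuel := 3796) (by decide +kernel)

theorem smul_F {g : M24} (hg : g ∈ SOs.K) {T : Finset (Finset GolayPt)} (h : T ∈ F) : g • T ∈ F :=
  ⟨(m24_smul_trios g).mpr h.1, (mem_of_stab (show g • o0 = o0 from hg)).mpr h.2⟩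

theorem mem_F {c : ℕ} (h : band (isTrio c) (Nat.beq (get 24 c 0) 0x82402f) = true) :
    mT.V c ∧ mT.dec c ∈ F := by
  rw [band_iff] at h
  exact ⟨(isTrio_spec h.1).1, (isTrio_spec h.1).2,
    (q c (isTrio_spec h.1).1).mp (bor_iff.mpr (Or.inl h.2))⟩

/-- the stabiliser of `o0` and `T0`. -/
noncomputable def SOT : CSub A24 :=
  SOs.stab mT compat_mT 0x7898100527c082402f 16
    [(0, [0x8d68b99848205acb1d2a84aef71403]), (4, [0x2a5468506c90668391f65d44dbba20]), (1,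
      [0xbbd959c9c858cf4b352654044884a0]), (2, [0x8d18fa99cab5db35a60891c6411420]), (3,
      [0x1b2b3a1a2a794f65c1096c9c4b8820, 0x752b662a267dd135c8ed4c06428820])]
    21504 V_T0 (by decide +kernel)

theorem orb0 : orbit SOs.K T0 = F :=
  SOs.orbit_eq SOT rfl (orbit_subset_of_inv (mem_F (by decide +kernel)).2 fun _ hg _ => smul_F hg)
    (Set.toFinite _) (by rw [ncard_F]; decide +kernel)

theorem orb1 : orbit SOT.K (mT.dec 0x742a4009959082402f) = F \ {T0} := by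
  have h := mem_F (c := 0x742a4009959082402f) (by decide +kernel)
  refine orbit_eq_of_ncard (orbit_subset_of_inv ⟨h.2, fun e => ?_⟩ fun g hg T hT =>
    ⟨smul_F hg.1 hT.1, fun e => hT.2 ?_⟩) (Set.toFinite _) ?_
  · exact absurd ((mT.h_iff _ _ h.1 V_T0).mpr e) (by decide +kernel)
  · exact smul_left_cancel g (e.trans (show g • T0 = T0 from hg.2).symm)
  · rw [SOT.orbit_ncard mT compat_mT (fuel := 16) (n := 14) h.1 (by decide +kernel),
      Set.ncard_sdiff_singleton_of_mem (a := T0) (mem_F (c := 0x7898100527c082402f) (by decide +kernel)).2,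
      ncard_F]

theorem two {T T' : Finset (Finset GolayPt)} (h : T ∈ F) (h' : T' ∈ F) (hne : T ≠ T') :
    (T, T') ∈ orbit SOs.K (T0, mT.dec 0x742a4009959082402f) :=
  trans_two (Q := fun x y => y ∈ F ∧ x ≠ y) (orb0 ▸ h)
    (fun y hy => by
      have : y ∈ F \ {T0} := ⟨hy.1, hy.2.symm⟩
      rwa [← orb1] at this)
    (fun g hg x y hy => ⟨smul_F hg hy.1, fun e => hy.2 (smul_left_cancel g e)⟩) ⟨h', hne⟩

theorem ker {g : M24} (hg : g ∈ SOs.K) : (∀ T ∈ F, g • T = T) ↔ ∀ p ∈ o0, g • p = p := by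
  rw [← mem_S18]
  constructor
  · intro h
    have key : ∀ p ∈ ([(0x7898100527c082402f, [0x899b3524b55819421e50b3dc8b8c22]), (0x742a4009959082402f,
      [0x2a1b03d2eb305ea95a6c254698804e]), (0x6c071011b8c082402f,
      [0x1918f5a852a1515998e96c2f670411]), (0x5d144020ab9082402f, [0x899a9852e450ec89316f9d40770445,
      0x1c0e86bdd54c4925518bb4c46b9401, 0x2b1e4a1c12b05159b6064aaeb10dd1])] : List (ℕ × List ℕ)),
        band (isTrio p.1) (Nat.beq (get 24 p.1 0) 0x82402f) = true := by decide +kernel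
    exact SOs.mem_of_chain S18 mT compat_mT (fuel := 16) (fun p hp => (mem_F (key p hp)).1)
      (by decide +kernel) hg fun p hp => h _ (mem_F (key p hp)).2
  · intro h T hT
    obtain ⟨c, hc, h1, rfl⟩ := SOs.orbit_forall mT compat_mT (fuel := 16) V_T0
      (p := fun c => allL S18.gens fun T => Nat.beq (mT.h (mT.fn T c)) (mT.h c))
      (by decide +kernel) T (orb0 ▸ hT)
    exact S18.le_iff.mpr (fun T hT => (compat_mT.mem_stabilizer_iff (S18.gens_ok T hT) hc).mpr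
      (allL_iff.mp h1 T hT)) h

/-- An octad of the length-24 code lies in exactly 15 trios; the stabiliser of the octad in the code's group acts doubly transitively on these 15 trios, and the kernel of this action is the pointwise stabiliser of the octad. -/
theorem result (o : Finset Cfsg.GolayPt) (ho : o ∈ Cfsg.octads) : {T : Finset (Finset Cfsg.GolayPt) | T ∈ Cfsg.trios ∧ o ∈ T}.ncard = 15 ∧ (∀ T₁ T₂ T₁' T₂' : Finset (Finset Cfsg.GolayPt), T₁ ∈ Cfsg.trios → T₂ ∈ Cfsg.trios → T₁' ∈ Cfsg.trios → T₂' ∈ Cfsg.trios → o ∈ T₁ → o ∈ T₂ → o ∈ T₁' → o ∈ T₂' → T₁ ≠ T₂ → T₁' ≠ T₂' → ∃ g ∈ Cfsg.M24, g • o = o ∧ g • T₁ = T₁' ∧ g • T₂ = T₂') ∧ ∀ g ∈ Cfsg.M24, g • o = o → ((∀ T ∈ Cfsg.trios, o ∈ T → g • T = T) ↔ ∀ p ∈ o, g p = p) := by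
  obtain ⟨k, rfl⟩ := m24_octad o0_mem ho
  have hF : ∀ T : Finset (Finset GolayPt), k • T ∈ trios ∧ k • o0 ∈ k • T ↔ T ∈ F := fun T => by
    rw [m24_smul_trios, Finset.smul_mem_smul_finset_iff]; rfl
  refine ⟨(ncard_smul_congr k hF).trans ncard_F, ?_, fun g hg h => ?_⟩
  · intro T₁ T₂ T₃ T₄ a1 a2 a3 a4 b1 b2 b3 b4 n1 n2
    obtain ⟨T₁, rfl⟩ := MulAction.surjective k T₁
    obtain ⟨T₂, rfl⟩ := MulAction.surjective k T₂
    obtain ⟨T₃, rfl⟩ := MulAction.surjective k T₃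
    obtain ⟨T₄, rfl⟩ := MulAction.surjective k T₄
    obtain ⟨g, hg, e⟩ := exists_smul_of_mem_orbit
      (two ((hF _).mp ⟨a1, b1⟩) ((hF _).mp ⟨a2, b2⟩) fun e => n1 (by rw [e]))
      (two ((hF _).mp ⟨a3, b3⟩) ((hF _).mp ⟨a4, b4⟩) fun e => n2 (by rw [e]))
    refine ⟨(k * g * k⁻¹ : M24), Subtype.prop _, conj_mem_stabilizer hg, ?_, ?_⟩
    · exact (conj_smul_smul k g T₁).trans (congrArg (fun x => k • x.1) e)
    · exact (conj_smul_smul k g T₂).trans (congrArg (fun x => k • x.2) e)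
  · obtain ⟨g, rfl⟩ : ∃ g' : M24, (k * g' * k⁻¹ : M24) = g := ⟨k⁻¹ * ⟨g, hg⟩ * k, by
      simp [mul_assoc]⟩
    have := ker ((conj_fix_iff k g o0).mp h)
    constructor
    · intro h1 p hp
      obtain ⟨p, hp', rfl⟩ := Finset.mem_smul_finset.mp hp
      exact (conj_fix_iff k g p).mpr (this.mp (fun T hT =>
        (conj_fix_iff k g T).mp (h1 _ ((hF T).mpr hT).1 ((hF T).mpr hT).2)) p hp')
    · intro h1 T a b
      obtain ⟨T, rfl⟩ := MulAction.surjective k T
      exact (conj_fix_iff k g T).mpr (this.mpr (fun p hp =>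
        (conj_fix_iff k g p).mp (h1 _ (Finset.smul_mem_smul_finset hp))) T ((hF T).mp ⟨a, b⟩))

end Cfsg.Agent.S5615
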