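import Cfsg.Statements.S5618
import Cfsg.Agent.L1.Iso

set_option autoImplicit false
open scoped Pointwise
open Cfsg

namespace Cfsg.Agent.S5618

open Cfsg.Agent.H14 MulAction
open scoped Pointwise

theorem fix {d : Finset GolayPt} (hd : d ∈ dodecads) {C : Finset GolayPt} (h : C ⊆ d)
    (h6 : C.card = 6) {g : M24} (hg : g ∈ stabilizer M24 d) (hf : ∀ p ∈ C, g • p = p) : g = 1 := by
  let e := (C.equivFinOfCardEq h6).symm
  exact m12_sharp hd ⟨fun i => e i.castSucc, fun i j hij =>
    Fin.castSucc_injective _ (e.injective (Subtype.ext hij))⟩ (fun i => h (e _).2) hg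
    fun i => hf _ (e _).2

/-- For a dodecad d of the length-24 code and a hexad C on it (a 6-point intersection of d with an octad): the joint stabiliser of d and C in the code's group is isomorphic to the symmetric group of degree 6, and it acts faithfully both on the six points of C and on the six points of d outside C. -/
theorem result (d : Finset Cfsg.GolayPt) (hd : d ∈ Cfsg.dodecads) (C : Finset Cfsg.GolayPt) (hC : C ∈ Cfsg.hexadsOn d) : Nonempty (↥(MulAction.stabilizer Cfsg.M24 d ⊓ MulAction.stabilizer Cfsg.M24 C) ≃* Equiv.Perm (Fin 6)) ∧ (∀ g ∈ MulAction.stabilizer Cfsg.M24 d ⊓ MulAction.stabilizer Cfsg.M24 C, (∀ p ∈ C, ((g : ↥Cfsg.M24) : Equiv.Perm Cfsg.GolayPt) p = p) → g = 1) ∧ ∀ g ∈ MulAction.stabilizer Cfsg.M24 d ⊓ MulAction.stabilizer Cfsg.M24 C, (∀ p ∈ d \ C, ((g : ↥Cfsg.M24) : Equiv.Perm Cfsg.GolayPt) p = p) → g = 1 := by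
  obtain ⟨h6, o, ho, rfl⟩ := hC
  have hsub : o ∩ d ⊆ d := Finset.inter_subset_right
  refine ⟨iso_perm (K := stabilizer M24 d ⊓ stabilizer M24 (o ∩ d)) (S := o ∩ d) (fun g hg x hx => smul_mem_of_stab hg.2 hx)
    (fun g hg h => fix hd hsub h6 hg.1 h) h6 ?_, fun g hg h => fix hd hsub h6 hg.1 h,
    fun g hg h => fix hd Finset.sdiff_subset
      (by rw [Finset.card_sdiff_of_subset hsub, h6, (mem_dodecads.mp hd).2]) hg.1 h⟩
  have h1 := card_le_of_orbit_subset (K := stabilizer M24 d) (x := o)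
    (Y := {y | y ∈ octads ∧ (d ∩ y).card = 6}) (fun y hy => by
      obtain ⟨g, hg, rfl⟩ := mem_orbit_sub.mp hy
      exact ⟨(m24_smul_octads g).mpr ho,
        (card_inter_of_stab hg o).trans (Finset.inter_comm o d ▸ h6)⟩) (Set.toFinite _)
  rw [(invDec_dodecad_octads hd).count (6, 132) (by simp), card_stab_dodecad hd] at h1
  have h2 := Subgroup.card_le_of_le (show stabilizer M24 d ⊓ stabilizer M24 o ≤
    stabilizer M24 d ⊓ stabilizer M24 (o ∩ d) from fun g hg => ⟨hg.1, by
      show g • (o ∩ d) = o ∩ d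
      rw [Finset.smul_finset_inter, show g • o = o from hg.2, show g • d = d from hg.1]⟩)
  rw [show Nat.factorial 6 = 720 from rfl]
  omega

end Cfsg.Agent.S5618
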