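import Cfsg.Statements.S5619
import Cfsg.Agent.L1.Iso

set_option autoImplicit false
open scoped Pointwise
open Cfsg

namespace Cfsg.Agent.S5619

open Cfsg.Agent.H14 MulAction
open scoped Pointwise

/-- the normal subgroup of order 9. -/
noncomputable def N : CSub A24 := CSub.small A24 [0xbd9d52b1449d20859cd288ded48820, 0x5ddd59a4e87d186b4483534b280820]
    [0xbdab49ca307b9ac5a928398a418820, 0xb2eb42b4e99b870bc584521e690820,
    0x5deb478d4c2ba49b1e068926868820, 0xb2dd57c2262d124ba90d3ca6360820,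
    0x5ddd59a4e87d186b4483534b280820, 0xbd9d52b1449d20859cd288ded48820,
    0x5de8e29a329d503b29a93c1ec20820, 0xbda8e7a0ed2d4925c46c5267030820,
    0xb2e8e991437d4cdb9e508b0a940820]
    9 (by decide +kernel)

/-- the elements of a subgroup of order 8. -/
def tab : List ℕ := [0xbdab49ca307b9ac5a928398a418820, 0x752f68c2683ac8cabe4928d4668820,
    0x5d9d49a2292d4ccb9e12535e320820, 0xad1768a67255c6c71510790ed30820,
    0x545f3a0ec67160c3ada4ba6b240820, 0x2cd51b1a84b9e4c7b86daa16980820,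
    0x3c4b3a12cdabd2c55cc35c1c890820, 0x7ccf1b36835a90c2d48674af048820]

/-- a subgroup of order 8. -/
noncomputable def P : CSub A24 := CSub.small A24 [0x752f68c2683ac8cabe4928d4668820, 0x545f3a0ec67160c3ada4ba6b240820] tab 8 (by decide +kernel)

/-- the labels. -/
noncomputable def code : QuaternionGroup 2 → ℕ := fun w =>
  QuaternionGroup.rec (fun i => nth tab i.val) (fun i => nth tab (4 + i.val)) w

theorem iso : Nonempty (P.K ≃* QuaternionGroup 2) :=
  P.iso_reg code (by decide +kernel) (by decide +kernel) (fun T hT => by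
    rcases List.mem_pair.mp hT with rfl | rfl
    · exact ⟨.a 1, by decide +kernel⟩
    · exact ⟨.xa 0, by decide +kernel⟩)
    (by rw [Nat.card_eq_fintype_card, QuaternionGroup.card]; rfl)

theorem main {K : Type*} [Group K] [Finite K] (e : K ≃* SD2.K) :
    (∀ Q : Sylow 3 K, (Q : Subgroup K).Normal ∧ Nat.card Q = 9 ∧ ∀ x ∈ (Q : Subgroup K), x ^ 3 = 1) ∧
      ∀ P : Sylow 2 K, Nonempty (P ≃* QuaternionGroup 2) := by
  have hK : Nat.card K = 72 := (Nat.card_congr e.toEquiv).trans SD2.card_eq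
  have hc : ∀ (L : CSub A24) (_ : allL L.gens SD2.test = true),
      Nonempty ((L.K.subgroupOf SD2.K).comap (e : K →* SD2.K) ≃* L.K) := fun L h =>
    ⟨((MulEquiv.subgroupCongr (Subgroup.comap_equiv_eq_map_symm e _)).trans
      (e.symm.subgroupMap _).symm).trans (Subgroup.subgroupOfEquivOfLe (SD2.le_of_test L h))⟩
  refine ⟨fun Q => ?_, fun Q => ?_⟩
  · obtain ⟨f⟩ := hc N (by decide +kernel)
    have h9 := (Nat.card_congr f.toEquiv).trans N.card_eq
    have hn : ((N.K.subgroupOf SD2.K).comap (e : K →* SD2.K)).Normal :=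
      (SD2.normal_subgroupOf N (by decide +kernel)).comap _
    let R : Sylow 3 K := Sylow.ofCard _ (h9.trans (by rw [hK]; decide +kernel))
    have hu := Sylow.unique_of_normal R hn
    obtain rfl : Q = R := Subsingleton.elim _ _
    refine ⟨hn, h9, fun x hx => e.injective (Subtype.ext ?_)⟩
    rw [map_pow, map_one]
    exact (N.pow_eq_one (by decide +kernel)).2 _ hx
  · obtain ⟨f⟩ := hc P (by decide +kernel)
    have h8 := (Nat.card_congr f.toEquiv).trans P.card_eq
    let R : Sylow 2 K := Sylow.ofCard _ (h8.trans (by rw [hK]; decide +kernel))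
    exact ⟨((Q.equiv R).trans f).trans iso.some⟩

/-- In the group of the length-24 code, the subgroup fixing a dodecad setwise and three of its points individually (a group of order 72) has a normal Sylow 3-subgroup that is elementary abelian of order 9, and its Sylow 2-subgroups are quaternion of order 8. -/
theorem result (d : Finset Cfsg.GolayPt) (hd : d ∈ Cfsg.dodecads) (p q r : Cfsg.GolayPt) (hp : p ∈ d) (hq : q ∈ d) (hr : r ∈ d) (hpq : p ≠ q) (hpr : p ≠ r) (hqr : q ≠ r) : (∀ Q : Sylow 3 ↥(MulAction.stabilizer Cfsg.M24 d ⊓ MulAction.stabilizer Cfsg.M24 p ⊓ MulAction.stabilizer Cfsg.M24 q ⊓ MulAction.stabilizer Cfsg.M24 r), (Q : Subgroup ↥(MulAction.stabilizer Cfsg.M24 d ⊓ MulAction.stabilizer Cfsg.M24 p ⊓ MulAction.stabilizer Cfsg.M24 q ⊓ MulAction.stabilizer Cfsg.M24 r)).Normal ∧ Nat.card ↥Q = 9 ∧ ∀ x ∈ (Q : Subgroup ↥(MulAction.stabilizer Cfsg.M24 d ⊓ MulAction.stabilizer Cfsg.M24 p ⊓ MulAction.stabilizer Cfsg.M24 q ⊓ MulAction.stabilizer Cfsg.M24 r)),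 x ^ 3 = 1) ∧ ∀ P : Sylow 2 ↥(MulAction.stabilizer Cfsg.M24 d ⊓ MulAction.stabilizer Cfsg.M24 p ⊓ MulAction.stabilizer Cfsg.M24 q ⊓ MulAction.stabilizer Cfsg.M24 r), Nonempty (↥P ≃* QuaternionGroup 2) := by
  obtain ⟨k, rfl, rfl, rfl, rfl⟩ := m24_dod_three hd hp hq hr hpq hpr hqr
  exact main (stabEquiv4 k d0 (some 0 : GolayPt) (some 1 : GolayPt) (some 2 : GolayPt)).symm

end Cfsg.Agent.S5619
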