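import Cfsg.Statements.S5620
import Cfsg.Agent.L1.Fix

set_option autoImplicit false
open scoped Pointwise
open Cfsg

namespace Cfsg.Agent.S5620

open Cfsg.Agent.H14 MulAction
open scoped Pointwise

/-- exchanges the two dodecads. -/
def gT : ℕ := 0x98032518f120b36c176939313aab7
/-- fixes `∞` and no point of the dodecad. -/
def uT : ℕ := 0xbcdf12b540a9d095b843b329209a04

theorem ok_g : A24.ok gT := A24_ok (by decide +kernel)
theorem ok_u : A24.ok uT := A24_ok (by decide +kernel)

theorem g_d0 : A24.el gT • d0 = d0ᶜ := by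
  rw [d0, A24_smul_set ok_g, ← gC.set_compl]
  exact congrArg _ (by decide +kernel)

theorem g_zero : A24.el gT • (some 0 : GolayPt) = none :=
  (A24_smul_pt ok_g (by decide : 0 < 24)).trans (congrArg gC.pt (by decide +kernel : _ = 23))

theorem mem_iff (x : Equiv.Perm GolayPt) :
    x ∈ Spor.M11 ↔ A24.el gT * x * (A24.el gT : Equiv.Perm GolayPt)⁻¹ ∈
      Spor.M12 ⊓ stabilizer (Equiv.Perm GolayPt) (none : GolayPt) := by
  have h1 : (A24.el gT : Equiv.Perm GolayPt) • d0 = d0ᶜ := g_d0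
  have h2 : (A24.el gT : Equiv.Perm GolayPt) • (some 0 : GolayPt) = none := g_zero
  have h3 : ∀ y : Equiv.Perm GolayPt, y ∈ stabilizer _ d0ᶜ ↔ y ∈ stabilizer _ d0 := fun y => by
    rw [mem_stabilizer_iff, mem_stabilizer_iff, smul_finset_compl, compl_inj_iff]
  rw [Spor.M11, Spor.M12, ← d0_eq, Subgroup.mem_inf, Subgroup.mem_inf, Subgroup.mem_inf,
    Subgroup.mem_inf, ← h3 (_ * _ * _), ← h1, ← h2, conj_mem_stabilizer_iff,
    conj_mem_stabilizer_iff, M24.mul_mem_cancel_right (M24.inv_mem (A24.el gT).2),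
    M24.mul_mem_cancel_left (A24.el gT).2]

/-- Inside the stabiliser of the dodecad of squares (a Mathieu group of degree 12), the stabiliser of the residue 0 (a point of the dodecad) and the stabiliser of the extra point (a point outside the dodecad) are isomorphic but not conjugate; conjugation by a suitable element of the code's group that maps the dodecad of squares onto its complement carries the first onto the second. -/
theorem result : Nonempty (↥(Cfsg.Spor.M12 ⊓ MulAction.stabilizer (Equiv.Perm Cfsg.GolayPt) (none : Cfsg.GolayPt)) ≃* ↥Cfsg.Spor.M11) ∧ (¬ ∃ k ∈ Cfsg.Spor.M12, MulAut.conj k • Cfsg.Spor.M11 = Cfsg.Spor.M12 ⊓ MulAction.stabilizer (Equiv.Perm Cfsg.GolayPt) (none : Cfsg.GolayPt)) ∧ ∃ g ∈ Cfsg.M24, g • Cfsg.Spor.squareDodecad = Finset.univ \ Cfsg.Spor.squareDodecad ∧ MulAut.conj g • Cfsg.Spor.M11 = Cfsg.Spor.M12 ⊓ MulAction.stabilizer (Equiv.Perm Cfsg.GolayPt) (none : Cfsg.GolayPt) := by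
  refine ⟨⟨(conjEquiv _ mem_iff).symm⟩, ?_, A24.el gT, (A24.el gT).2, ?_, ?_⟩
  · rintro ⟨k, hk, e⟩
    have hu : (A24.el uT : Equiv.Perm GolayPt) ∈
        Spor.M12 ⊓ stabilizer (Equiv.Perm GolayPt) (none : GolayPt) :=
      ⟨⟨(A24.el uT).2, d0_eq ▸ mem_stab_set ok_u (m := 0x05335f) (by decide +kernel)⟩,
        (A24_smul_pt ok_u (by decide : 23 < 24)).trans (congrArg gC.pt (by decide +kernel : _ = 23))⟩
    rw [← e, Subgroup.mem_pointwise_smul_iff_inv_smul_mem] at hu
    have h1 : k⁻¹ ((A24.el uT : Equiv.Perm GolayPt) (k (some 0))) = some 0 := hu.2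
    have h2 : k (some 0) ∈ fixP (A24.el uT) := mem_fixP.mpr (by
      rw [Equiv.Perm.inv_eq_iff_eq] at h1
      exact h1)
    have h3 : k (some 0) ∈ d0 :=
      smul_mem_of_stab (d0_eq ▸ hk.2 : k ∈ stabilizer _ d0) (x := some 0) (by decide)
    have h4 := Finset.mem_inter.mpr ⟨h2, h3⟩
    rw [fixP_el ok_u, d0, ← gC.set_and, show fixM uT &&& 0x05335f = 0 by decide +kernel,
      gC.set_zero] at h4
    simp at h4
  · rw [← d0_eq, ← Finset.compl_eq_univ_sdiff]
    exact g_d0
  · ext x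
    rw [Subgroup.mem_pointwise_smul_iff_inv_smul_mem, mem_iff]
    simp [mul_assoc]

end Cfsg.Agent.S5620
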