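import Cfsg.Statements.S5624
import Cfsg.Agent.L1.AG

set_option autoImplicit false
open Cfsg

namespace Cfsg.Agent.S5624

open Cfsg.Agent.H14 Finset
open scoped symmDiff

/-- Let C be a self-dual binary code of length 24 with minimum weight at least 8 (a 12-dimensional subspace of the 24-dimensional space over the field with two elements, any two of whose words have dot product zero, with no non-zero word of weight below 8 — an abstract extended binary Golay code). Then C is spanned, as a vector space over the field with two elements, by its words of weight 8. -/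
theorem result (C : Submodule (ZMod 2) (Fin 24 → ZMod 2)) (hdim : Module.finrank (ZMod 2) C = 12) (horth : ∀ v ∈ C, ∀ w ∈ C, ∑ i, v i * w i = 0) (hmin : ∀ w ∈ C, w ≠ 0 → 8 ≤ hammingNorm w) : Submodule.span (ZMod 2) {w : Fin 24 → ZMod 2 | w ∈ C ∧ hammingNorm w = 8} = C := by
  obtain ⟨e, -, he⟩ := (ag_of_code C hdim horth hmin).iso (by simp)
  refine le_antisymm (Submodule.span_le.mpr fun w hw => hw.1) fun w hw => ?_
  refine support₂_mem.mp (he (supports (Submodule.span (ZMod 2)
    {w : Fin 24 → ZMod 2 | w ∈ C ∧ hammingNorm w = 8} : Set (Fin 24 → ZMod 2)))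
    ⟨0, Submodule.zero_mem _, support₂_zero⟩ ?_ ?_ (support₂_mem.mpr hw))
  · rintro _ ⟨u, hu, rfl⟩ _ ⟨v, hv, rfl⟩
    exact ⟨u + v, Submodule.add_mem _ hu hv, support₂_add u v⟩
  · rintro _ ⟨u, hu, rfl⟩ h8
    exact ⟨u, Submodule.subset_span ⟨hu, by rw [hammingNorm_eq_card, h8]⟩, rfl⟩

end Cfsg.Agent.S5624
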