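import Cfsg.Statements.S5627
import Cfsg.Agent.L1.DesA

set_option autoImplicit false
open Cfsg

namespace Cfsg.Agent.S5627

open Cfsg.Agent.H14 Finset

/-- number of `D < 2^j` with `r` bits and `p (m ||| D)`. -/
noncomputable def cntSub (p : ℕ → Bool) (j : ℕ) : ℕ → ℕ → ℕ :=
  Nat.rec (motive := fun _ => ℕ → ℕ → ℕ)
    (fun r m => Bool.rec (Bool.rec 0 1 (p m)) 0 (Nat.ble 1 r))
    (fun i ih r m => Bool.rec (Bool.rec 0 1 (p m))
      (Nat.add (ih r m) (force (Nat.pred r) fun r' => force (Nat.lor m (two i)) fun m' => ih r' m'))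
      (Nat.ble 1 r)) j

theorem cntSub_eq (p : ℕ → Bool) (j : ℕ) : ∀ r m, cntSub p j r m =
    ∑ D ∈ range (2 ^ j), if popc j D = r ∧ p (m ||| D) = true then 1 else 0 := by
  have h0 : ∀ j m, (∑ D ∈ range (2 ^ j), if popc j D = 0 ∧ p (m ||| D) = true then 1 else 0) =
      (Bool.rec 0 1 (p m) : ℕ) := fun j m => by
    rw [sum_eq_single 0]
    · have : popc j 0 = 0 := by rw [popc_eq]; simp
      rw [this, Nat.or_zero]
      cases p m <;> simp
    · intro D hD hne
      rw [if_neg fun h => hne (eq_zero_of_popc h.1 fun i hi => Nat.testBit_eq_false_of_lt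
        (lt_of_lt_of_le (mem_range.mp hD) (Nat.pow_le_pow_right (by norm_num) hi)))]
    · intro h; exact absurd (mem_range.mpr (by positivity)) h
  induction j with
  | zero =>
    intro r m
    rcases r with _ | r
    · rw [h0]; rfl
    · have : popc 0 0 = 0 := rfl
      simp only [pow_zero, range_one, sum_singleton, this]
      rw [if_neg (by omega)]; rfl
  | succ j ih =>
    intro r m
    rcases r with _ | r
    · rw [h0]; rfl
    · have e : cntSub p (j + 1) (r + 1) m = cntSub p j (r + 1) m + force r fun r' =>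
        force (Nat.lor m (two j)) fun m' => cntSub p j r' m' := rfl
      rw [e, force_eq, force_eq, ih, ih, pow_succ, mul_two, sum_range_add]
      congr 1
      · refine sum_congr rfl fun D hD => ?_
        rw [popc_succ, Nat.testBit_eq_false_of_lt (mem_range.mp hD)]; rfl
      · refine sum_congr rfl fun D hD => ?_
        have h1 : popc (j + 1) (2 ^ j + D) = popc j D + 1 := by
          rw [popc_succ, Nat.testBit_two_pow_add_eq, Nat.testBit_eq_false_of_lt (mem_range.mp hD),
            popc_congr j (m' := D) fun i hi => Nat.testBit_two_pow_add_gt hi D]; rfl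
        have h2 : m ||| (2 ^ j + D) = Nat.lor m (two j) ||| D := by
          have := Nat.two_pow_add_eq_or_of_lt (mem_range.mp hD) 1
          rw [mul_one] at this
          rw [this, two_eq, ← Nat.or_assoc]; rfl
        simp only [h1, h2, add_left_inj]

theorem ncard_sub {α : Type*} [Fintype α] [DecidableEq α] (C : Coord α) {P : Finset α → Prop}
    {p : ℕ → Bool} (hp : ∀ m < 2 ^ C.n, p m = true ↔ P (C.set m)) (r : ℕ) :
    {S : Finset α | S.card = r ∧ P S}.ncard = cntSub p C.n r 0 := by
  rw [cntSub_eq, ← card_filter, ← Set.ncard_coe_finset, ← Set.InjOn.ncard_image (f := C.set)]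
  · congr 1
    ext S
    obtain ⟨m, hm, rfl⟩ := C.exists_mask S
    simp only [Set.mem_ofPred_eq, Nat.zero_or, coe_filter, mem_range, Set.mem_image]
    constructor
    · rintro ⟨h1, h2⟩; exact ⟨m, ⟨hm, by rw [← C.card_set, h1], (hp m hm).mpr h2⟩, rfl⟩
    · rintro ⟨m', ⟨h1, h2, h3⟩, e⟩
      rw [← e]
      exact ⟨by rw [C.card_set, h2], (hp m' h1).mp h3⟩
  · intro a ha b hb e
    exact C.set_inj (mem_range.mp (mem_filter.mp ha).1) (mem_range.mp (mem_filter.mp hb).1) e

theorem ok_iff {α : Type*} [Fintype α] [DecidableEq α] {C : Coord α} (hC : C.n = 21) {K : List ℕ}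
    {m : ℕ} (hm : m < 2 ^ C.n) : allL K (fun l => Nat.ble (pop24 (Nat.land l m)) 2) = true ↔
      ∀ l ∈ C.fam K, (l ∩ C.set m).card ≤ 2 := by
  have : ∀ l, (C.set l ∩ C.set m).card = pop24 (Nat.land l m) := fun l => by
    rw [← C.set_and, C.card_set24 (by omega) (Nat.and_lt_two_pow _ hm)]; rfl
  rw [allL_iff]
  constructor
  · rintro h _ ⟨l, hl, rfl⟩; rw [this]; exact nble_iff.mp (h l hl)
  · intro h l hl; rw [nble_iff, ← this]; exact h _ ⟨l, hl, rfl⟩

/-- In a projective plane of order 4 (a Steiner system S(2, 5, 21)), call a set of points independent when no line meets it in more than two points. There are exactly 2520 independent 4-sets and exactly 168 independent 6-sets (hyperovals), and every independent 4-set lies in exactly one hyperoval. -/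
theorem result {α : Type*} [Fintype α] [DecidableEq α] (hα : Fintype.card α = 21) (L : Set (Finset α)) (hL : Cfsg.IsSteinerSystem 2 5 L) : {S : Finset α | (S.card = 4 ∧ ∀ l ∈ L, (l ∩ S).card ≤ 2)}.ncard = 2520 ∧ {H : Finset α | (H.card = 6 ∧ ∀ l ∈ L, (l ∩ H).card ≤ 2)}.ncard = 168 ∧ ∀ S : Finset α, (S.card = 4 ∧ ∀ l ∈ L, (l ∩ S).card ≤ 2) → ∃! H : Finset α, (H.card = 6 ∧ ∀ l ∈ L, (l ∩ H).card ≤ 2) ∧ S ⊆ H := by
  have h3 : ∀ S : Finset α, (S.card = 4 ∧ ∀ l ∈ L, (l ∩ S).card ≤ 2) →
      ∃! H : Finset α, (H.card = 6 ∧ ∀ l ∈ L, (l ∩ H).card ≤ 2) ∧ S ⊆ H := by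
    intro S hS
    have e := (Fintype.equivFinOfCardEq (α := S) (by rw [Fintype.card_coe, hS.1])).symm
    have hS' : (range 4).image (fun i => (e (Fin.ofNat 4 i) : α)) = S := by
      ext x
      rw [mem_image]
      constructor
      · rintro ⟨i, -, rfl⟩; exact Subtype.prop _
      · intro hx; exact ⟨e.symm ⟨x, hx⟩, mem_range.mpr (Fin.prop _), by simp⟩
    obtain ⟨C, hC, rfl⟩ := std21q hα hL (fun i => (e (Fin.ofNat 4 i) : α)) (fun i hi j hj h => by
      have := congrArg Fin.val (e.injective (Subtype.ext h))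
      simpa [Fin.ofNat, Nat.mod_eq_of_lt hi, Nat.mod_eq_of_lt hj] using this)
      (by rw [hS']; exact hS.2)
    rw [← hS', ← hC.set_ones (by norm_num)]
    have hn := hC.1
    have hh : 6159 < 2 ^ C.n := by rw [hn]; norm_num
    have h15 : ones 4 < 2 ^ C.n := by rw [hn]; decide
    refine ⟨C.set 6159, ⟨⟨by rw [C.card_set24 (by omega) hh]; decide +kernel,
      (ok_iff hn hh).mp (by decide +kernel)⟩, (C.set_subset_iff h15).mpr (by decide)⟩, ?_⟩
    rintro H ⟨⟨h6, hH⟩, hsub⟩
    have hD : C.mask (H \ C.set (ones 4)) < 2 ^ C.n := C.mask_lt _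
    have hc : C.set (ones 4 ||| C.mask (H \ C.set (ones 4))) = H := by
      rw [C.set_or, C.set_mask, union_sdiff_of_subset hsub]
    have key := allSub_sound (a := 15) (f := fun c => bor (Nat.beq c 6159)
      (bnot (allL dL21q fun l => Nat.ble (pop24 (Nat.land l c)) 2))) 21 2 (ones 4)
      (by decide +kernel) (C.mask (H \ C.set (ones 4)))
      (fun i hi => Nat.testBit_eq_false_of_lt (lt_of_lt_of_le hD
        (Nat.pow_le_pow_right (by norm_num) (by omega)))) (fun i hi => by
        obtain ⟨h1, h2⟩ := (C.testBit_mask _ _).mp hi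
        have := (mem_sdiff.mp h2).2
        rw [C.pt_mem_set h1] at this
        exact Bool.eq_false_iff.mpr this) (by
        rw [← hn, ← C.card_set, C.set_mask, card_sdiff_of_subset hsub, h6,
          C.card_set24 (by omega) h15]
        decide +kernel)
    rw [bor_iff, nbeq_iff, bnot_iff, ok_iff hn (Nat.or_lt_two_pow h15 hD), hc] at key
    rw [← key.resolve_right (not_not.mpr hH), hc]
  have h1 : {S : Finset α | (S.card = 4 ∧ ∀ l ∈ L, (l ∩ S).card ≤ 2)}.ncard = 2520 := by
    obtain ⟨C, hC, rfl⟩ := std21 hα hL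
    rw [ncard_sub C (fun m hm => ok_iff hC hm), hC]
    decide +kernel
  refine ⟨h1, ?_, h3⟩
  classical
  have h2 := card_mul_eq_card_mul (fun S H : Finset α => S ⊆ H)
    (s := univ.filter fun S : Finset α => S.card = 4 ∧ ∀ l ∈ L, (l ∩ S).card ≤ 2)
    (t := univ.filter fun S : Finset α => S.card = 6 ∧ ∀ l ∈ L, (l ∩ S).card ≤ 2)
    (m := 1) (n := 15) (fun S hS => by
      obtain ⟨H, hH, hu⟩ := h3 S (mem_filter.mp hS).2
      refine card_eq_one.mpr ⟨H, eq_singleton_iff_unique_mem.mpr ⟨?_, fun H' h => hu H' ?_⟩⟩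
      · simpa [bipartiteAbove] using hH
      · simpa [bipartiteAbove] using h) (fun H hH => by
      have hH' := (mem_filter.mp hH).2
      have : bipartiteBelow (fun S H : Finset α => S ⊆ H)
          (univ.filter fun S : Finset α => S.card = 4 ∧ ∀ l ∈ L, (l ∩ S).card ≤ 2) H =
          powersetCard 4 H := by
        ext S
        simp only [bipartiteBelow, mem_filter, mem_univ, true_and, mem_powersetCard]
        exact ⟨fun h => ⟨h.2, h.1.1⟩, fun h => ⟨⟨h.2, fun l hl => le_trans
          (card_le_card (inter_subset_inter_left h.1)) (hH'.2 l hl)⟩, h.1⟩⟩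
      rw [this, card_powersetCard, hH'.1]; rfl)
  rw [← Set.ncard_coe_finset, ← Set.ncard_coe_finset] at h2
  simp only [coe_filter, mem_univ, true_and] at h2
  omega

end Cfsg.Agent.S5627
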