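import Cfsg.Statements.S5628
import Cfsg.Agent.L1.DesA
import Cfsg.Agent.L1.DesC

set_option autoImplicit false
open Cfsg

namespace Cfsg.Agent.S5628

open Cfsg.Agent.H14 MulAction
open scoped Pointwise

/-- In a projective plane of order 4 (a Steiner system S(2, 5, 21)), every permutation of the six points of a hyperoval (a 6-set met by no line in more than two points) is the restriction of exactly one automorphism of the plane. In particular the stabiliser of a hyperoval in the automorphism group is isomorphic to the symmetric group of degree 6 acting faithfully on the hyperoval. -/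
theorem result {α : Type*} [Fintype α] [DecidableEq α] (hα : Fintype.card α = 21) (L : Set (Finset α)) (hL : Cfsg.IsSteinerSystem 2 5 L) (H : Finset α) (hH : (H.card = 6 ∧ ∀ l ∈ L, (l ∩ H).card ≤ 2)) (σ : Equiv.Perm ↥H) : ∃! g : Equiv.Perm α, g ∈ Cfsg.setSystemAut L ∧ ∀ p : ↥H, g p = σ p := by
  have e := (Fintype.equivFinOfCardEq (α := H) (by rw [Fintype.card_coe, hH.1])).symm
  have key : ∀ τ : Equiv.Perm H, ∃ C : Coord α,
      DLab 21 6 (fun i => (τ (e (Fin.ofNat 6 i)) : α)) C ∧ L = C.fam dL21h := fun τ =>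
    std21h hα hL _ (fun i hi j hj h => by
      have := congrArg Fin.val (e.injective (τ.injective (Subtype.ext h)))
      simpa [Fin.ofNat, Nat.mod_eq_of_lt hi, Nat.mod_eq_of_lt hj] using this) fun l hl =>
      le_trans (Finset.card_le_card (Finset.inter_subset_inter_left fun x hx => by
        obtain ⟨i, -, rfl⟩ := Finset.mem_image.mp hx
        exact Subtype.prop _)) (hH.2 l hl)
  obtain ⟨C, hC, h1⟩ := key 1
  obtain ⟨C', hC', h2⟩ := key σ
  have hp : ∀ p : H, ∃ i < 6, e (Fin.ofNat 6 i) = p := fun p =>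
    ⟨e.symm p, (e.symm p).2, by simp⟩
  have hg : C.trans C' (hC.1.trans hC'.1.symm) ∈ setSystemAut L ∧
      ∀ p : H, C.trans C' (hC.1.trans hC'.1.symm) p = σ p := by
    refine ⟨mem_stabilizer_of_maps (Set.toFinite _) fun b hb => ?_, fun p => ?_⟩
    · rw [h1] at hb
      obtain ⟨m, hm, rfl⟩ := hb
      rw [h2]
      exact ⟨m, hm, (C.image_trans C' _ m).symm⟩
    · obtain ⟨i, hi, rfl⟩ := hp p
      show C'.pt (C.idx _) = _
      have := hC.2 i hi
      simp only [Equiv.Perm.coe_one, id] at this
      rw [← this, C.idx_pt i (by rw [hC.1]; omega), hC'.2 i hi]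
  refine ⟨_, hg, fun g hg' => ?_⟩
  generalize C.trans C' (hC.1.trans hC'.1.symm) = g0 at hg
  have := autfix21h hC.1 (g := g0⁻¹ * g) (by
    rw [← h1]; exact mul_mem (inv_mem hg.1) hg'.1) fun i hi => by
      rw [Equiv.Perm.mul_apply, Equiv.Perm.inv_eq_iff_eq, hC.2 i hi, hg'.2, hg.2]
  exact (inv_mul_eq_one.mp this).symm

end Cfsg.Agent.S5628
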