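import Cfsg.Statements.S5632
import Cfsg.Agent.H26.NM3
-- import your own Cfsg.Agent.* helpers here

set_option autoImplicit false
open Cfsg

namespace Cfsg.Agent.S5632

/-- For a finite field F and subspaces 0 < W < U of F^n with dim W + dim U = n, the elements of SL_n(F) stabilising both W and U form a subgroup that is not maximal in SL_n(F): some subgroup lies strictly between it and SL_n(F). -/
theorem result {F : Type*} [Field F] [Fintype F] (n : ℕ) (W U : Submodule F (Fin n → F)) (hW0 : W ≠ ⊥) (hWU : W < U) (hdim : Module.finrank F W + Module.finrank F U = n) : ∃ K : Subgroup (Matrix.GeneralLinearGroup (Fin n) F), Cfsg.Geo.subspaceStabilizer W ⊓ Cfsg.Geo.subspaceStabilizer U ⊓ Cfsg.Geo.specialLinear (Fin n) F < K ∧ K < Cfsg.Geo.specialLinear (Fin n) F := by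
  obtain ⟨u, hu, hu'⟩ := SetLike.exists_of_lt hWU
  have h1 : U ≠ ⊤ := by
    rintro rfl
    rw [finrank_top, Module.finrank_fin_fun] at hdim
    exact hW0 (Submodule.finrank_eq_zero.1 (by omega))
  obtain ⟨x, -, hx⟩ := SetLike.exists_of_lt h1.lt_top
  refine H26.sl_two_stab hW0 (ne_top_of_lt hWU) hu hx fun h => ?_
  obtain ⟨a, ha, b, hb, rfl⟩ := Submodule.mem_sup.1 h
  obtain ⟨c, rfl⟩ := Submodule.mem_span_singleton.1 hb
  have hc : c ≠ 0 := by rintro rfl; exact hu' (by simpa using ha)
  exact hx ((U.smul_mem_iff hc).1 ((U.add_mem_iff_right (hWU.le ha)).1 hu))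

end Cfsg.Agent.S5632
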