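import Cfsg.Statements.S5633
import Cfsg.Agent.H26.NM3
-- import your own Cfsg.Agent.* helpers here

set_option autoImplicit false
open Cfsg

namespace Cfsg.Agent.S5633

/-- For a finite field F and complementary non-zero subspaces W ⊕ U = F^n with dim W < dim U, the elements of SL_n(F) stabilising both W and U form a subgroup that is not maximal in SL_n(F): some subgroup lies strictly between it and SL_n(F). -/
theorem result {F : Type*} [Field F] [Fintype F] (n : ℕ) (W U : Submodule F (Fin n → F)) (hW0 : W ≠ ⊥) (hWU : W ⊓ U = ⊥) (hWU' : W ⊔ U = ⊤) (hdim : Module.finrank F W < Module.finrank F U) : ∃ K : Subgroup (Matrix.GeneralLinearGroup (Fin n) F), Cfsg.Geo.subspaceStabilizer W ⊓ Cfsg.Geo.subspaceStabilizer U ⊓ Cfsg.Geo.specialLinear (Fin n) F < K ∧ K < Cfsg.Geo.specialLinear (Fin n) F := by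
  obtain ⟨x, hx, hx0⟩ := W.ne_bot_iff.1 hW0
  obtain ⟨u, hu, hu0⟩ := U.ne_bot_iff.1 (by rintro rfl; simp at hdim)
  have h1 : ∀ y ∈ W, y ∈ U → y = 0 := fun y h h' => (Submodule.mem_bot F).1 (hWU ▸ ⟨h, h'⟩)
  refine H26.sl_two_stab hW0 (fun h => hu0 (h1 u (h ▸ trivial) hu)) hu (fun h => hx0 (h1 x hx h))
    fun h => hu0 (h1 u ((sup_le le_rfl ((Submodule.span_singleton_le_iff_mem _ _).2 hx) : _ ≤ W) h) hu)

end Cfsg.Agent.S5633
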