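import Cfsg.Statements.S5643
import Mathlib
import Cfsg.Agent.H10.Mx6

set_option autoImplicit false
open Cfsg

namespace Cfsg.Agent.S5643

/-- For a finite field F and n ≥ 13, let σ be a field automorphism of F of order two and f a non-degenerate unitary form on F^n with respect to σ. Then the elements of SL_n(F) that are similarities of f form a maximal subgroup of SL_n(F). -/
theorem result {F : Type*} [Field F] [Fintype F] (n : ℕ) (hn : 13 ≤ n) (σ : F ≃+* F) (f : (Fin n → F) → (Fin n → F) → F) (hf : Cfsg.Geo.IsUnitaryForm σ f) : Cfsg.Geo.IsMaximalIn (Cfsg.Geo.specialLinear (Fin n) F) (Cfsg.Geo.similarityGroup f ⊓ Cfsg.Geo.specialLinear (Fin n) F) := by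
  let B : (Fin n → F) →ₛₗ[(σ : F →+* F)] (Fin n → F) →ₗ[F] F :=
    LinearMap.mk₂'ₛₗ (σ : F →+* F) (RingHom.id F) (fun x y => f y x)
      (fun a b y => by rw [hf.herm y, hf.add_left, map_add, ← hf.herm, ← hf.herm])
      (fun c a y => by
        rw [hf.herm y, hf.smul_left, map_mul, ← hf.herm]; rfl)
      (fun a b y => hf.add_left _ _ _) (fun c a y => hf.smul_left _ _ _)
  have hH : H11.IsHerm B := ⟨fun hc => hf.ne_refl (RingEquiv.ext fun a => congrArg (fun t : F →+* F => t a) hc),
    hf.involutive, fun x y => (hf.herm x y).symm⟩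
  have h := H10.clHerm hH fun v hv => by
    by_contra h0
    obtain ⟨x, hx⟩ := (hf.nondegenerate v h0).1
    first | exact hx (hv x) | exact hx (by rw [hf.herm]; simpa using hv x)
  exact H10.isMaximalIn_gl H10.mem_specialLinear_iff'
    (fun g _ => H10.mem_similarityGroup_iff (f := f) (B := B) (fun _ _ => rfl) g)
    (h.max_simG (by simp; omega) (H10.IsHerm.nq hH))

end Cfsg.Agent.S5643
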