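import Cfsg.Statements.S5646
import Mathlib
import Cfsg.Agent.H10.MxB

set_option autoImplicit false
open Cfsg

namespace Cfsg.Agent.S5646

/-- For a finite field F and m ≥ 7, in the symplectic group Sp_2m(F) of the standard alternating form on F^(2m), the stabiliser of any non-zero subspace W on which the form is non-degenerate and with dim W < m is a maximal subgroup. -/
theorem result {F : Type*} [Field F] [Fintype F] (m : ℕ) (hm : 7 ≤ m) (W : Submodule F (Fin m ⊕ Fin m → F)) (hW0 : W ≠ ⊥) (hW : Cfsg.Geo.IsNondegenerateOn (Cfsg.sympForm m F) W) (hdim : Module.finrank F W < m) : Cfsg.Geo.IsMaximalIn (Cfsg.spGL m F) (Cfsg.Geo.subspaceStabilizer W ⊓ Cfsg.spGL m F) := by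
  refine H10.isMaximalIn_gl H10.mem_spGL_iff (fun g _ => H10.mem_subspaceStabilizer_iff W g) ?_
  have h := H10.clSp m F
  have hd := h.form.finrank_perp h.sep W
  simp only [Module.finrank_fintype_fun_eq_card, Fintype.card_sum, Fintype.card_fin] at hd
  exact h.max_nondeg (H10.nondegOn_of (Or.inl H10.sympForm_eq_spBilin) hW) hW0
    (h.smallOk_of_nq H10.nq_zero (Submodule.one_le_finrank_iff.mpr hW0)) (by omega)
    fun g _ => H10.not_map_le_of_lt (by omega) g

end Cfsg.Agent.S5646
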