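import Cfsg.Statements.S5647
import Mathlib
import Cfsg.Agent.H10.Mx11

set_option autoImplicit false
open Cfsg

namespace Cfsg.Agent.S5647

/-- For a finite field F with q elements and m ≥ 7, let D be a decomposition of F^(2m) into t ≥ 2 pairwise orthogonal subspaces of equal dimension k on each of which the standard alternating form is non-degenerate, spanning F^(2m). Unless k = 2 and q = 2, the elements of Sp_2m(F) permuting the members of D form a maximal subgroup of Sp_2m(F). -/
theorem result {F : Type*} [Field F] [Fintype F] (m : ℕ) (hm : 7 ≤ m) {t : ℕ} (k : ℕ) (D : Fin t → Submodule F (Fin m ⊕ Fin m → F)) (hD : Cfsg.Geo.IsNondegenerateMDecomposition (Cfsg.sympForm m F) k D) (hex : ¬ (k = 2 ∧ Fintype.card F = 2)) : Cfsg.Geo.IsMaximalIn (Cfsg.spGL m F) (Cfsg.Geo.decompositionStabilizer D ⊓ Cfsg.spGL m F) := by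
  refine H10.isMaximalIn_gl H10.mem_spGL_iff (fun g _ => H10.mem_decompositionStabilizer_iff D g) ?_
  have h := H10.clSp m F
  have nd : ∀ i, H11.NondegOn (H10.spBilin (Fin m) F) (D i) := fun i =>
    H10.nondegOn_of (Or.inl H10.sympForm_eq_spBilin) (hD.nondegenerate i)
  have alt : ∀ i, LinearMap.IsAlt ((H10.spBilin (Fin m) F).restrict (D i)) := fun i x =>
    H10.spBilin_isAlt (x : Fin m ⊕ Fin m → F)
  have nd' : ∀ i, ((H10.spBilin (Fin m) F).restrict (D i)).Nondegenerate := fun i => by
    refine (alt i).isRefl.nondegenerate_iff_separatingLeft.mpr fun x hx => Subtype.ext ?_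
    exact nd i x x.2 fun y hy => hx ⟨y, hy⟩
  obtain ⟨p, d⟩ := h.exists_dec nd
    (fun i hi => by
      have h1 := hD.decomp.finrank_eq i
      have h2 := hD.decomp.pos
      rw [hi] at h1; simp at h1; omega)
    (fun i j hij x hx y hy => by rw [H10.spBilin_eq_sympForm]; exact hD.orthogonal i j hij x hx y hy)
    hD.decomp.iSup_eq_top
    (fun i j => by
      obtain ⟨g, hg⟩ := H10.alt_isometric (nd' i) (alt i) (nd' j) (alt j)
        (by rw [hD.decomp.finrank_eq, hD.decomp.finrank_eq])
      exact ⟨g, fun x y => hg x y, fun _ => rfl⟩)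
  refine H10.max_dec_alt h d hD.decomp.two_le ?_
  by_cases hk : 3 ≤ k
  · exact Or.inl fun i => by rw [hD.decomp.finrank_eq]; exact hk
  · right
    have h0 := hD.decomp.two_le
    have h1 := H10.even_finrank_of_alt (nd' ⟨0, by omega⟩) (alt _)
    rw [hD.decomp.finrank_eq] at h1
    have h2 := hD.decomp.pos
    have hk2 : k = 2 := by obtain ⟨r, hr⟩ := h1; omega
    by_contra hc
    push Not at hc
    apply hex
    refine ⟨hk2, ?_⟩
    classical
    have : (Finset.univ : Finset F) = {0, 1} := by
      ext a; by_cases ha : a = 0 <;> simp [ha]; exact hc a ha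
    rw [← Finset.card_univ, this, Finset.card_pair zero_ne_one]

end Cfsg.Agent.S5647
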