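import Cfsg.Statements.S5649
import Mathlib
import Cfsg.Agent.H10.Mx4

set_option autoImplicit false
open Cfsg

namespace Cfsg.Agent.S5649

/-- For a finite field F of odd order and m ≥ 7, let D be a decomposition of F^(2m) into two complementary subspaces of dimension m on each of which the standard alternating form vanishes identically. Then the elements of Sp_2m(F) preserving or interchanging the two subspaces form a maximal subgroup of Sp_2m(F). -/
theorem result {F : Type*} [Field F] [Fintype F] (m : ℕ) (hm : 7 ≤ m) (hodd : Odd (Fintype.card F)) (D : Fin 2 → Submodule F (Fin m ⊕ Fin m → F)) (hD : Cfsg.Geo.IsMDecomposition m D) (hts : ∀ i, Cfsg.Geo.IsTotallySingularFor (Cfsg.sympForm m F) (D i)) : Cfsg.Geo.IsMaximalIn (Cfsg.spGL m F) (Cfsg.Geo.decompositionStabilizer D ⊓ Cfsg.spGL m F) := by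
  refine H10.isMaximalIn_gl H10.mem_spGL_iff
    (fun g _ => H10.mem_decompositionStabilizer_iff D g) ?_
  have h := H10.clSp m F
  have h1 : ∀ i, H11.TotSing (H10.spBilin (Fin m) F) (fun _ => 0) (D i) := fun i =>
    ⟨fun _ _ => rfl, fun x hx y hy => by rw [H10.spBilin_eq_sympForm]; exact hts i x hx y hy⟩
  have p : H10.SPair (H10.spBilin (Fin m) F) (fun _ => 0) (D 0) (D 1) :=
    ⟨h1 0, h1 1, H10.isCompl_of_two hD.indep hD.iSup_eq_top, by rw [hD.finrank_eq, hD.finrank_eq]⟩
  obtain ⟨s, hs, hs'⟩ := h.exists_isom_swap p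
  exact h.max_pair p (by rw [hD.finrank_eq]; omega) (fun _ => H11.two_ne_zero_of_odd_card hodd)
    ⟨s, (H10.mem_om_alt h).mpr hs.1, hs'⟩

end Cfsg.Agent.S5649
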