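import Cfsg.Statements.S5652
import Mathlib
import Cfsg.Agent.H10.Mx6

set_option autoImplicit false
open Cfsg

namespace Cfsg.Agent.S5652

/-- For a finite field F of characteristic two and m ≥ 7, let Q be a non-degenerate quadratic form on F^(2m) whose polar form is the standard alternating form. Then the elements of Sp_2m(F) that are similarities of Q (they are exactly the isometries of Q) form a maximal subgroup of Sp_2m(F). -/
theorem result {F : Type*} [Field F] [Fintype F] (m : ℕ) (hm : 7 ≤ m) (heven : ¬ Odd (Fintype.card F)) (Q : (Fin m ⊕ Fin m → F) → F) (hQ : Cfsg.Geo.IsNondegenerateQuadraticForm Q) (hpol : ∀ u v, QuadraticMap.polar Q u v = Cfsg.sympForm m F u v) : Cfsg.Geo.IsMaximalIn (Cfsg.spGL m F) (Cfsg.Geo.quadSimilarityGroup Q ⊓ Cfsg.spGL m F) := by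
  have hq : H11.IsQuad (H10.spBilin (Fin m) F) Q := H11.IsQuad.of_add_smul
    (fun x y => by rw [← H10.sympForm_eq_spBilin, ← hpol]; simp [QuadraticMap.polar])
    fun c x => by rw [hQ.smul, sq]
  have h := H10.clQuad hq H10.spBilin_nondegenerate.1
  exact H10.isMaximalIn_gl H10.mem_spGL_iff
    (fun g _ => H10.mem_quadSimilarityGroup_iff Q g)
    (H10.max_simQ_sp h (H10.two_eq_zero_iff_even_card.mpr (by rw [Nat.odd_iff] at heven; omega))
      (H10.clSp m F) (by simp; omega))

end Cfsg.Agent.S5652
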