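import Cfsg.Statements.S5655
import Mathlib
import Cfsg.Agent.H11.Im11

set_option autoImplicit false
open Cfsg

namespace Cfsg.Agent.S5655

/-- Let F be the field with q² elements and n ≥ 13. Let D be a decomposition of F^n into t ≥ 2 pairwise orthogonal subspaces of equal dimension k, each non-degenerate for the standard unitary form, spanning F^n. Unless k = 2 and q = 2, the elements of SU_n(q) permuting the members of D form a maximal subgroup of SU_n(q). -/
theorem result {F : Type*} [Field F] [Fintype F] (n q : ℕ) (hF : Fintype.card F = q ^ 2) (hn : 13 ≤ n) {t : ℕ} (k : ℕ) (D : Fin t → Submodule F (Fin n → F)) (hD : Cfsg.Geo.IsNondegenerateMDecomposition (Cfsg.hermForm n F q) k D) (hex : ¬ (k = 2 ∧ q = 2)) : Cfsg.Geo.IsMaximalIn (Cfsg.GU n F q ⊓ Cfsg.Geo.specialLinear (Fin n) F) (Cfsg.Geo.decompositionStabilizer D ⊓ (Cfsg.GU n F q ⊓ Cfsg.Geo.specialLinear (Fin n) F)) := by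
  refine H10.isMaximalIn_gl (H10.mem_SU_iff hF)
    (fun g _ => H10.mem_decompositionStabilizer_iff D g) ?_
  have h := H10.clSU hF n
  have hq := H11.qConj_conjQ hF
  have hH := hq.isHerm (Fin n)
  have e := hD.decomp.finrank_eq
  have nd := fun i => H10.nondegOn_of (Or.inr (H10.hermForm_eq hF)) (hD.nondegenerate i)
  obtain ⟨p, d⟩ := h.exists_dec nd
    (fun i hi => by
      have h1 := e i
      have h2 := hD.decomp.pos
      rw [hi] at h1; simp at h1; omega)
    (fun i j hij x hx y hy => by
      rw [← H10.hermForm_eq hF]; exact hD.orthogonal j i hij.symm y hy x hx)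
    hD.decomp.iSup_eq_top
    (fun i j => by
      obtain ⟨g, hg⟩ := (hH.pull (D i).subtype).exists_equiv (H11.nondegOn_iff.mp (nd i))
        (hH.pull (D j).subtype) (H11.nondegOn_iff.mp (nd j)) (by rw [e, e])
      exact ⟨g, fun x y => hg x y, fun x => hg x x⟩)
  exact H11.Im.max_herm hq hH h d (by simpa using hn) hD.decomp.two_le fun i => by rwa [e]

end Cfsg.Agent.S5655
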