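import Cfsg.Statements.S5657
import Mathlib
import Cfsg.Agent.H10.Mx4

set_option autoImplicit false
open Cfsg

namespace Cfsg.Agent.S5657

/-- Let F be the field with q² elements and n = 2k ≥ 13. Let D be a decomposition of F^n into two complementary subspaces of dimension k on each of which the standard unitary form vanishes identically. Then the elements of SU_n(q) preserving or interchanging the two subspaces form a maximal subgroup of SU_n(q). -/
theorem result {F : Type*} [Field F] [Fintype F] (n q : ℕ) (hF : Fintype.card F = q ^ 2) (hn : 13 ≤ n) (k : ℕ) (hk : 2 * k = n) (D : Fin 2 → Submodule F (Fin n → F)) (hD : Cfsg.Geo.IsMDecomposition k D) (hts : ∀ i, Cfsg.Geo.IsTotallySingularFor (Cfsg.hermForm n F q) (D i)) : Cfsg.Geo.IsMaximalIn (Cfsg.GU n F q ⊓ Cfsg.Geo.specialLinear (Fin n) F) (Cfsg.Geo.decompositionStabilizer D ⊓ (Cfsg.GU n F q ⊓ Cfsg.Geo.specialLinear (Fin n) F)) := by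
  refine H10.isMaximalIn_gl (H10.mem_SU_iff hF)
    (fun g _ => H10.mem_decompositionStabilizer_iff D g) ?_
  have h := H10.clSU hF n
  have h0 : ∀ i, ∀ x ∈ D i, ∀ y ∈ D i, H11.hermB (Fin n) (H11.conjQ hF) x y = 0 :=
    fun i x hx y hy => by rw [← H10.hermForm_eq hF]; exact hts i y hy x hx
  have p : H10.SPair (H11.hermB (Fin n) (H11.conjQ hF))
      (fun x => H11.hermB (Fin n) (H11.conjQ hF) x x) (D 0) (D 1) :=
    ⟨⟨fun x hx => h0 0 x hx x hx, h0 0⟩, ⟨fun x hx => h0 1 x hx x hx, h0 1⟩,
      H10.isCompl_of_two hD.indep hD.iSup_eq_top, by rw [hD.finrank_eq, hD.finrank_eq]⟩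
  have hH := (H11.qConj_conjQ hF).isHerm (Fin n)
  refine h.max_pair p (by rw [hD.finrank_eq]; omega) (fun e => ?_)
    (H10.exists_swap_herm hH h p (by rw [hD.finrank_eq]; omega))
  obtain ⟨t, ht⟩ := H11.exists_trace_eq hH.ne hH.invol (a := 1) (map_one _)
  have := DFunLike.congr_fun e t
  simp [ht] at this

end Cfsg.Agent.S5657
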