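import Cfsg.Statements.S5658
import Mathlib
import Cfsg.Agent.H10.Mx10

set_option autoImplicit false
open Cfsg

namespace Cfsg.Agent.S5658

/-- Let F be the field with q² elements, n ≥ 13, and F₀ a subfield with |F| = |F₀| ^ r for an odd prime r. Let P be an invertible matrix such that the standard unitary form takes values in F₀ on the F₀-span of the columns of P. Then the elements of SU_n(q) lying in the subfield group of P (the conjugate by P of the product of GL_n(F₀) with the scalars) form a maximal subgroup of SU_n(q). -/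
theorem result {F : Type*} [Field F] [Fintype F] (n q : ℕ) (hF : Fintype.card F = q ^ 2) (hn : 13 ≤ n) (F₀ : Subfield F) (r : ℕ) (hr : r.Prime) (hro : Odd r) (hcard : Fintype.card F = Nat.card F₀ ^ r) (P : Matrix.GeneralLinearGroup (Fin n) F) (hP : Cfsg.Geo.IsFormRationalStructure (Cfsg.hermForm n F q) F₀ 1 P) : Cfsg.Geo.IsMaximalIn (Cfsg.GU n F q ⊓ Cfsg.Geo.specialLinear (Fin n) F) (Cfsg.Geo.subfieldSubgroup F₀ P ⊓ (Cfsg.GU n F q ⊓ Cfsg.Geo.specialLinear (Fin n) F)) := by
  obtain ⟨θ, hθ, hc⟩ := H10.exists_frob F₀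
  have hq := H11.two_le_of_card_eq_sq hF
  have hcard' : Nat.card F₀ ^ r = Nat.card F := by rw [← hcard, Nat.card_eq_fintype_card]
  refine H10.isMaximalIn_subfield hθ P
    (fun g => (H10.mem_SU_iff hF g).trans ((H10.clSU hF n).mem_om_pull (H11.glEquiv _ F P) _))
    (H10.max_sub_herm hθ (by simp; omega) hr hcard' _ ((H11.qConj_conjQ hF).isHerm (Fin 0)).ne
      (hc _) ?_ fun x y => ?_)
  · by_contra ht
    push Not at ht
    have h1 : Nat.card (H26.fixF (H11.conjQ hF)) = q :=
      H26.card_pow_eq_self (Nat.card_eq_fintype_card.trans hF)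
    rcases H10.subfield_eq_or_of_prime (L := H26.fixF (H11.conjQ hF)) ht hr hcard' with h | h
    · rw [h] at h1
      rw [h1, hF] at hcard
      rw [← Nat.pow_right_injective hq hcard] at hro
      exact absurd hro (by decide)
    · rw [h, H10.card_top_subfield, Nat.card_eq_fintype_card, hF] at h1
      nlinarith
  · have := hP _ _ (fun i => (y i).2) fun i => (x i).2
    rwa [H10.hermForm_eq hF, one_mul] at this

end Cfsg.Agent.S5658
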