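import Cfsg.Statements.S5659
import Mathlib
import Cfsg.Agent.H10.Mx10

set_option autoImplicit false
open Cfsg

namespace Cfsg.Agent.S5659

/-- Let F be the field with q² elements, q odd, n ≥ 13, and F₀ the subfield with q elements. Let P be an invertible matrix such that the standard unitary form takes values in F₀ on the F₀-span of the columns of P (so it restricts to a non-degenerate symmetric bilinear form there). Then the elements of SU_n(q) lying in the subfield group of P form a maximal subgroup of SU_n(q). -/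
theorem result {F : Type*} [Field F] [Fintype F] (n q : ℕ) (hF : Fintype.card F = q ^ 2) (hn : 13 ≤ n) (hodd : Odd q) (F₀ : Subfield F) (hcard : Fintype.card F = Nat.card F₀ ^ 2) (P : Matrix.GeneralLinearGroup (Fin n) F) (hP : Cfsg.Geo.IsFormRationalStructure (Cfsg.hermForm n F q) F₀ 1 P) : Cfsg.Geo.IsMaximalIn (Cfsg.GU n F q ⊓ Cfsg.Geo.specialLinear (Fin n) F) (Cfsg.Geo.subfieldSubgroup F₀ P ⊓ (Cfsg.GU n F q ⊓ Cfsg.Geo.specialLinear (Fin n) F)) := by
  obtain ⟨θ, hθ, hc⟩ := H10.exists_frob F₀
  have hq : Nat.card F₀ = q := (Nat.pow_left_injective two_ne_zero (hF.symm.trans hcard)).symm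
  refine H10.isMaximalIn_subfield hθ P
    (fun g => (H10.mem_SU_iff hF g).trans ((H10.clSU hF n).mem_om_pull (H11.glEquiv _ F P) _))
    (H10.max_sub_herm_quad hθ (by simp; omega) (by rw [← hcard, Nat.card_eq_fintype_card]) _
      ((H11.qConj_conjQ hF).isHerm (Fin 0)).ne (hc _) rfl
      (H11.two_ne_zero_of_odd_card (hF ▸ hodd.pow))
      (fun t => by rw [H11.conjQ_apply, ← hq]; exact (H26.mem_subfield_iff_pow_card.mp t.2).symm)
      fun x y => ?_)
  have := hP _ _ (fun i => (y i).2) fun i => (x i).2
  rwa [H10.hermForm_eq hF, one_mul] at this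

end Cfsg.Agent.S5659
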