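import Cfsg.Statements.S5668
import Mathlib
import Cfsg.Agent.H10.Sw8

set_option autoImplicit false
open Cfsg

namespace Cfsg.Agent.S5668

/-- For a finite field F of odd order q and m ≥ 7, suppose the standard alternating form on F^(2m) is similar, through a change of basis P and a bijection of index sets e, to the t-fold tensor power of a non-degenerate symplectic form f₁ on F^k, with t odd, t ≥ 3 and (q, k) ≠ (3, 2). Then the elements of Sp_2m(F) in the stabiliser of this decomposition (the conjugate by P of the standard tensor-wreath subgroup transported along e) form a maximal subgroup of Sp_2m(F). -/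
theorem result {F : Type*} [Field F] [Fintype F] (m : ℕ) (hm : 7 ≤ m) (hodd : Odd (Fintype.card F)) (k t : ℕ) (ht : Odd t) (ht3 : 3 ≤ t) (hex : ¬ (Fintype.card F = 3 ∧ k = 2)) (e : (Fin m ⊕ Fin m) ≃ (Fin t → Fin k)) (P : Matrix.GeneralLinearGroup (Fin m ⊕ Fin m) F) (f₁ : (Fin k → F) → (Fin k → F) → F) (hf₁ : Cfsg.Geo.IsSymplecticForm f₁) (hT : Cfsg.Geo.IsTensorPowerFormStructure id (Cfsg.sympForm m F) f₁ e P) : Cfsg.Geo.IsMaximalIn (Cfsg.spGL m F) (Cfsg.Geo.tensorWreathSubgroup k t e P ⊓ Cfsg.spGL m F) := by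
  classical
  obtain ⟨c, hc, hT⟩ := hT
  have h2 : (2 : F) ≠ 0 := H26.two_ne_zero_iff_odd.2 hodd
  have s₁ := H19.TA.sep_of hf₁.bilinear hf₁.nondegenerate
  have a₁ : (H10.bilinOf hf₁.bilinear).IsAlt := hf₁.alternating
  obtain ⟨a', ha'⟩ := H10.even_finrank_of_alt (a₁.isRefl.nondegenerate_iff_separatingLeft.mpr s₁) a₁
  have h3 := Fintype.card_congr e
  simp only [Module.finrank_fintype_fun_eq_card, Fintype.card_fin, Fintype.card_pi, Finset.prod_const,
    Finset.card_univ, Fintype.card_sum] at ha' h3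
  have hU := H10.clAlt a₁ s₁
  have hB := fun xs ys => (H10.spBilin_eq_sympForm _ _).trans (H10.Cf.B_pten hf₁.bilinear hT xs ys)
  have h4 : k ≠ 0 := by rintro rfl; rw [zero_pow (by omega)] at h3; omega
  refine H10.Sw.sw_max (H10.clSp m F) hU hB (fun _ => rfl) H10.mem_spGL_iff (by omega) ?_ (fun _ => h2)
    (by simp; omega) (fun i u d z hz => (H10.mem_om_alt _).2 fun x y => ?_)
    (fun x hx y hy => (H10.mem_om_alt _).2 (mul_mem (mul_mem (mul_mem hx hy) (inv_mem hx)) (inv_mem hy)).1)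
    fun _ => .inl fun x hx => (H10.mem_om_alt _).2 hx.1
  · by_cases h5 : 5 ≤ k
    · exact .inl h5
    refine .inr ⟨h2, or_iff_not_imp_left.2 fun h6 => ⟨by omega, fun h7 => hex ⟨by simpa using h7, by omega⟩⟩⟩
  · simp [hz, H10.Cf.adj_fe hB i (H10.Cf.adj_wg hU u u) _, H10.alt_self hU]

end Cfsg.Agent.S5668
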