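import Cfsg.Statements.S5673
import Mathlib
import Cfsg.Agent.H26.O6

set_option autoImplicit false
set_option synthInstance.maxSize 1024
open Cfsg

namespace Cfsg.Agent.S5673

/-- Subgroup structure of the odd-dimensional orthogonal groups. Let F be a finite field of odd order and m ≥ 3, let Q be the standard quadratic form x₀² + Σ x_i y_i on F^(2m+1), and let Ω be the commutator subgroup of its isometry group, viewed inside GL_(2m+1)(F). Let H be a subgroup of Ω whose product with the scalar matrices in Ω is not all of Ω. Then either H is contained in a member of one of the geometric classes of subgroups of the isometry group (with the conditions built into InOrthogonalOddClass), or H is in the residual class: modulo scalars it is almost simple, and the perfect preimage of its socle acts absolutely irreducibly, is realisable over no proper subfield, and fixes no non-degenerate unitary form. -/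
theorem result {F : Type*} [Field F] [Fintype F] (hodd : Odd (Fintype.card F)) (m : ℕ) (hm : 3 ≤ m) (H : Subgroup (Matrix.GeneralLinearGroup (Unit ⊕ (Fin m ⊕ Fin m)) F)) (hH : H ≤ Cfsg.Geo.omegaGL (Cfsg.quadFormOdd m F)) (hproper : H ⊔ (Cfsg.Geo.scalars (Unit ⊕ (Fin m ⊕ Fin m)) F ⊓ Cfsg.Geo.omegaGL (Cfsg.quadFormOdd m F)) ≠ Cfsg.Geo.omegaGL (Cfsg.quadFormOdd m F)) : (∃ M : Subgroup (Matrix.GeneralLinearGroup (Unit ⊕ (Fin m ⊕ Fin m)) F), Cfsg.Geo.InOrthogonalOddClass m F M ∧ H ≤ M) ∨ Cfsg.Geo.InOrthogonalResidualClass H := by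
  obtain ⟨G, hQ, hd⟩ := H26.exists_qf_odd (F := F) m (H26.two_ne_zero_iff_odd.2 hodd)
  have hn : Fintype.card (Unit ⊕ (Fin m ⊕ Fin m)) = 2 * m + 1 := by simp; omega
  have ho : Odd (Fintype.card (Unit ⊕ (Fin m ⊕ Fin m))) := ⟨m, hn⟩
  have hi := hH.trans H26.omegaGL_le
  unfold Cfsg.Geo.InOrthogonalOddClass
  simp only [hQ.polar]
  rcases hQ.cases (by omega) (fun _ => hd) hH with (⟨W, h1, h2, h3, h⟩ | ⟨W, h1, h2, h3, h4, h5, h6, h7, h⟩ | ⟨v, hq, h1, h⟩ |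
    ⟨k, D, hD, hk, h1, h⟩ | ⟨t, k, D, hD, h1, h2, h3, h4, h5, h⟩ | ⟨k, D, hD, h1, hm, h⟩ |
    ⟨r, K, hr, hK, h1, h2, h3, h⟩ | ⟨K, hK, h1, h2, h3, h4, h⟩ |
    ⟨a, b, e, P, G₁, G₂, hq, h1, h2, h3, h4, h5, hT, h⟩ |
    ⟨a, b, e, P, G₁, G₂, ε₁, ε₂, h1, h2, h3, h4, h5, hT, h6, h⟩ |
    ⟨F₀, r, P, ζ, hr, hc, h1, h2, h3, h4, h⟩ | ⟨k, t, e, P, c, G₀, hq, h1, h2, h3, h4, hW, h⟩ |
    ⟨k, t, h1, h2, h3, h4⟩) | h
  · exact .inl ⟨_, .inl ⟨W, h1, h2, rfl⟩, le_inf h hi⟩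
  · exact .inl ⟨_, .inr (.inl ⟨W, h1, h2, h3, rfl⟩), le_inf h hi⟩
  · exact absurd hodd hq
  · have := hD.decomp.h26_card; omega
  · rcases (Nat.succ_le_of_lt hD.decomp.decomp.pos).eq_or_lt with rfl | h6
    · exact .inl ⟨_, .inr (.inr (.inr (.inl ⟨t, D, h1 rfl, hD, rfl⟩))), le_inf h hi⟩
    · exact .inl ⟨_, .inr (.inr (.inl ⟨t, k, D, h6, hD, rfl⟩)), le_inf h hi⟩
  · have := hD.h26_card; omega
  · exact .inl ⟨_, .inr (.inr (.inr (.inr (.inl ⟨r, K, hr, hn ▸ (h2 (ho.of_dvd_nat (H26.field_degree_dvd hK))).1, hK, h1, rfl⟩)))), le_inf h hi⟩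
  · have := H26.field_degree_dvd hK; omega
  · have h6 : Fintype.card (Unit ⊕ (Fin m ⊕ Fin m)) = a * b := (Fintype.card_congr e).trans (by simp)
    exact .inl ⟨_, .inr (.inr (.inr (.inr (.inr (.inl ⟨a, b, e, P, _, _, h1, h2.lt_of_ne fun h => Nat.not_even_iff_odd.2 ho (h6 ▸ (h3 h).mul_right b), H26.isSymmetricForm_fm (by simpa using hT.hf₁.transpose) hT.hf₁.unit, H26.isSymmetricForm_fm (by simpa using hT.hf₂.transpose) hT.hf₂.unit, hT.isTensorFormStructure, rfl⟩))))), le_inf h hi⟩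
  · have h7 : Fintype.card (Unit ⊕ (Fin m ⊕ Fin m)) = a * b := (Fintype.card_congr e).trans (by simp)
    exact absurd (h7 ▸ (Fintype.card_fin a ▸ h4.even_card' hT.hf₁.unit).mul_right b) (Nat.not_even_iff_odd.2 ho)
  · exact .inl ⟨_, .inr (.inr (.inr (.inr (.inr (.inr (.inl ⟨F₀, r, P, hr, hc, h3 ho, rfl⟩)))))), le_inf h hi⟩
  · exact .inl ⟨_, .inr (.inr (.inr (.inr (.inr (.inr (.inr (⟨k, t, e, P, _, h2, h1, h4, H26.isSymmetricForm_fm (by simpa using hW.hf.transpose) hW.hf.unit, hW.isTensorPowerFormStructure, rfl⟩))))))), le_inf h hi⟩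
  · exact absurd (h3 ▸ (Nat.even_pow.2 ⟨h1, by omega⟩)) (Nat.not_even_iff_odd.2 ho)
  · exact .inr h

end Cfsg.Agent.S5673
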