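import Cfsg.Statements.S5675
import Mathlib
import Cfsg.Agent.H10.MxB

set_option autoImplicit false
open Cfsg

namespace Cfsg.Agent.S5675

/-- Let F be a finite field of odd order q, m ≥ 6, Q the standard quadratic form on F^(2m+1) and Ω the commutator subgroup of its isometry group. Let W be a non-zero subspace of even dimension on which the polar form of Q is non-degenerate; exclude the case q = 3, dim W = 2 with Q vanishing on some line of W (a plus-type plane). Then the elements of Ω stabilising W (equivalently, stabilising its orthogonal complement, of odd dimension) form a maximal subgroup of Ω. -/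
theorem result {F : Type*} [Field F] [Fintype F] (hodd : Odd (Fintype.card F)) (m : ℕ) (hm : 6 ≤ m) (W : Submodule F (Unit ⊕ (Fin m ⊕ Fin m) → F)) (hW0 : W ≠ ⊥) (hev : Even (Module.finrank F W)) (hW : Cfsg.Geo.IsNondegenerateOn (QuadraticMap.polar (Cfsg.quadFormOdd m F)) W) (hex : ¬ (Fintype.card F = 3 ∧ Module.finrank F W = 2 ∧ Cfsg.Geo.IsPlusTypeOn (Cfsg.quadFormOdd m F) W)) : Cfsg.Geo.IsMaximalIn (Cfsg.Geo.omegaGL (Cfsg.quadFormOdd m F)) (Cfsg.Geo.subspaceStabilizer W ⊓ Cfsg.Geo.omegaGL (Cfsg.quadFormOdd m F)) := by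
  have h := H10.clQuad (H11.isQuad_odd m F) (H11.bOdd_sep m (H11.two_ne_zero_of_odd_card hodd))
  refine H10.isMaximalIn_gl (H10.mem_omegaGL_iff h (by simp; omega))
    (fun g _ => H10.mem_subspaceStabilizer_iff W g) ?_
  have hW' := H10.nondegOn_of (Or.inl (H11.isQuad_odd m F).polar_eq) hW
  have hd := h.form.finrank_perp h.sep W
  have hn : Module.finrank F (Unit ⊕ (Fin m ⊕ Fin m) → F) = 2 * m + 1 := by simp; omega
  obtain ⟨k, hk⟩ := hev
  refine H10.max_nondeg_quad h (by omega) hW' hW0 (fun e => by rw [e, finrank_top] at hk; omega)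
    (fun e => by omega) ?_
  rintro U (rfl | rfl) h2 h3 x hx hx'
  · by_contra hx0
    refine hex ⟨?_, h2, H10.isPlusTypeOn_plane (fun c x hx => h.sing_smul hx c) h2 hx hx0 hx'⟩
    rw [Nat.card_eq_fintype_card] at h3
    have := Fintype.one_lt_card (α := F)
    obtain ⟨j, hj⟩ := hodd
    omega
  · omega

end Cfsg.Agent.S5675
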