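import Cfsg.Statements.S5677
import Mathlib
import Cfsg.Agent.H11.ImB

set_option autoImplicit false
open Cfsg

namespace Cfsg.Agent.S5677

/-- Let F be a finite field of odd order q, m ≥ 6, Q the standard quadratic form on F^(2m+1) and Ω the commutator subgroup of its isometry group. Let D be a decomposition of F^(2m+1) into t ≥ 2 pairwise orthogonal, pairwise Q-isometric subspaces of equal dimension k > 1 on which the polar form is non-degenerate. Unless q = 3 and k = 3, the elements of Ω permuting the members of D form a maximal subgroup of Ω. -/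
theorem result {F : Type*} [Field F] [Fintype F] (hodd : Odd (Fintype.card F)) (m : ℕ) (hm : 6 ≤ m) {t : ℕ} (k : ℕ) (hk : 1 < k) (D : Fin t → Submodule F (Unit ⊕ (Fin m ⊕ Fin m) → F)) (hD : Cfsg.Geo.IsOrthogonalMDecomposition (Cfsg.quadFormOdd m F) k D) (hex : ¬ (Fintype.card F = 3 ∧ k = 3)) : Cfsg.Geo.IsMaximalIn (Cfsg.Geo.omegaGL (Cfsg.quadFormOdd m F)) (Cfsg.Geo.decompositionStabilizer D ⊓ Cfsg.Geo.omegaGL (Cfsg.quadFormOdd m F)) := by
  have t2 := H11.two_ne_zero_of_odd_card hodd
  have h := H10.clQuad (H11.isQuad_odd m F) (H11.bOdd_sep m t2)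
  obtain ⟨p, d⟩ := H11.Im.dec_of_orth h hD
  have e := hD.decomp.decomp.finrank_eq
  have ht := hD.decomp.decomp.two_le
  have hc := Fintype.one_lt_card (α := F)
  obtain ⟨r, hr⟩ := id hodd
  refine H11.Im.max_gl_quad h (by simp; omega) (H11.Im.max_quad3 h d (by simp; omega) ht
    (fun i => ?_) (fun i hi => ⟨t2, H11.Im.exists_sq_ne ?_⟩)
    fun i _ => Or.inl (H11.Im.exists_ne01 (by omega)))
  · have := H11.Im.finrank_eq_mul d i
    rw [e] at this ⊢
    by_contra hc
    obtain rfl : k = 2 := by omega
    simp at this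
    omega
  · rw [e] at hi
    omega

end Cfsg.Agent.S5677
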