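import Cfsg.Statements.S5679
import Mathlib
import Cfsg.Agent.H11.Im15
import Cfsg.Agent.H11.ImB

set_option autoImplicit false
open Cfsg

namespace Cfsg.Agent.S5679

/-- Let F be a field of odd prime order p, m ≥ 6, Q the standard quadratic form on F^(2m+1) and Ω the commutator subgroup of its isometry group. Let D be a decomposition of F^(2m+1) into pairwise orthogonal lines on which Q takes non-zero values lying in one square class (pairwise Q-isometric non-degenerate 1-spaces). Then the elements of Ω permuting these lines form a maximal subgroup of Ω. -/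
theorem result {F : Type*} [Field F] [Fintype F] (hodd : Odd (Fintype.card F)) (m : ℕ) (hm : 6 ≤ m) (hprime : (Fintype.card F).Prime) {t : ℕ} (D : Fin t → Submodule F (Unit ⊕ (Fin m ⊕ Fin m) → F)) (hD : Cfsg.Geo.IsOrthogonalMDecomposition (Cfsg.quadFormOdd m F) 1 D) : Cfsg.Geo.IsMaximalIn (Cfsg.Geo.omegaGL (Cfsg.quadFormOdd m F)) (Cfsg.Geo.decompositionStabilizer D ⊓ Cfsg.Geo.omegaGL (Cfsg.quadFormOdd m F)) := by
  have t2 := H11.two_ne_zero_of_odd_card hodd
  have h := H10.clQuad (H11.isQuad_odd m F) (H11.bOdd_sep m t2)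
  obtain ⟨p, d⟩ := H11.Im.dec_of_orth h hD
  have e := hD.decomp.decomp.finrank_eq
  have ht := hD.decomp.decomp.two_le
  have := H11.Im.finrank_eq_mul d ⟨0, by omega⟩
  rw [e] at this
  exact H11.Im.max_gl_quad h (by simp; omega) (H11.Im.max_frame d (fun i => (e i).le) t2 hprime
    (by simp at this; omega))

end Cfsg.Agent.S5679
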