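import Cfsg.Statements.S5680
import Mathlib
import Cfsg.Agent.H11.Fy4

set_option autoImplicit false
open Cfsg

namespace Cfsg.Agent.S5680

/-- Let F be a finite field of odd order, m ≥ 6, Q the standard quadratic form on F^(2m+1) and Ω the commutator subgroup of its isometry group. Let K be a subfield of the algebra of (2m+1) × (2m+1) matrices over F containing the scalars, of prime degree r over F with r ≠ 2m + 1, whose elements are self-adjoint for the polar form of Q. Then the elements of Ω normalising K form a maximal subgroup of Ω. -/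
theorem result {F : Type*} [Field F] [Fintype F] (hodd : Odd (Fintype.card F)) (m : ℕ) (hm : 6 ≤ m) (r : ℕ) (hr : r.Prime) (hrn : 2 * m + 1 ≠ r) (K : Subalgebra F (Matrix (Unit ⊕ (Fin m ⊕ Fin m)) (Unit ⊕ (Fin m ⊕ Fin m)) F)) (hK : Cfsg.Geo.IsFieldSubalgebra r K) (hsa : Cfsg.Geo.IsSelfAdjointFor (QuadraticMap.polar (Cfsg.quadFormOdd m F)) K) : Cfsg.Geo.IsMaximalIn (Cfsg.Geo.omegaGL (Cfsg.quadFormOdd m F)) (Cfsg.Geo.subalgebraNormalizer K ⊓ Cfsg.Geo.omegaGL (Cfsg.quadFormOdd m F)) := by
  letI := (H26.isField_of_isFieldSubalgebra hK).toField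
  have e := hK.finrank_eq
  have h1 := H26.EV.finrank_mul K.val
  have t2 := H11.two_ne_zero_of_odd_card hodd
  have h := H10.clQuad (H11.isQuad_odd m F) (H11.bOdd_sep m t2)
  have hc : Fintype.card (Unit ⊕ (Fin m ⊕ Fin m)) = 2 * m + 1 := by simp; ring
  rw [e, hc] at h1
  generalize Module.finrank K (H26.EV K.val) = d at h1
  have h2 := hr.two_le
  by_cases h3 : d = 3
  · have := H11.Fy.o3_fld_mat K.val h (e ▸ hr) t2 (by rw [e]; subst h3; omega) (by
      rw [e, hc, ← h1, h3, mul_comm])
    rw [Subalgebra.range_val] at this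
    exact this hsa
  have := H11.Fx.o_fld_mat K.val h (e ▸ hr) t2 (by
    rw [e, hc, ← h1, mul_comm 3]
    refine Nat.mul_lt_mul_of_pos_left ?_ (by omega)
    by_contra c
    have : d = 0 ∨ d = 1 ∨ d = 2 := by omega
    rcases this with rfl | rfl | rfl <;> omega)
  rw [Subalgebra.range_val] at this
  exact this hsa

end Cfsg.Agent.S5680
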