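import Cfsg.Statements.S5683
import Mathlib
import Cfsg.Agent.H10.Mx10

set_option autoImplicit false
open Cfsg

namespace Cfsg.Agent.S5683

/-- Let F be a finite field of odd order, m ≥ 6, Q the standard quadratic form on F^(2m+1) and Ω the commutator subgroup of its isometry group. Let F₀ be a subfield with |F| = |F₀| ^ r for a prime r and P an invertible matrix such that Q takes values in F₀ on the F₀-span of the columns of P. Then the elements of Ω lying in the subfield group of P (the conjugate by P of the product of GL_(2m+1)(F₀) with the scalars) form a maximal subgroup of Ω. -/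
theorem result {F : Type*} [Field F] [Fintype F] (hodd : Odd (Fintype.card F)) (m : ℕ) (hm : 6 ≤ m) (F₀ : Subfield F) (r : ℕ) (hr : r.Prime) (hcard : Fintype.card F = Nat.card F₀ ^ r) (P : Matrix.GeneralLinearGroup (Unit ⊕ (Fin m ⊕ Fin m)) F) (hP : Cfsg.Geo.IsQuadFormRationalStructure (Cfsg.quadFormOdd m F) F₀ P) : Cfsg.Geo.IsMaximalIn (Cfsg.Geo.omegaGL (Cfsg.quadFormOdd m F)) (Cfsg.Geo.subfieldSubgroup F₀ P ⊓ Cfsg.Geo.omegaGL (Cfsg.quadFormOdd m F)) := by
  obtain ⟨θ, hθ, -⟩ := H10.exists_frob F₀
  have h := H10.clQuad (H11.isQuad_odd m F) (H11.bOdd_sep m (H11.two_ne_zero_of_odd_card hodd))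
  exact H10.isMaximalIn_subfield hθ P
    (fun g => (H10.mem_omegaGL_iff h (by simp; omega) g).trans (h.mem_om_pull (H11.glEquiv _ F P) _))
    (H10.max_sub_quad hθ (by simp; omega) hr (by rw [← hcard, Nat.card_eq_fintype_card]) _
      one_ne_zero fun x => by rw [one_mul]; exact hP _ fun i => (x i).2)

end Cfsg.Agent.S5683
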