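import Cfsg.Statements.S5687
import Mathlib
import Cfsg.Agent.H10.MxB

set_option autoImplicit false
open Cfsg

namespace Cfsg.Agent.S5687

/-- Let F be a finite field with q elements, n ≥ 13 even, Q a non-degenerate quadratic form on F^n of minus type (no subspace of dimension n/2 is totally singular), and Ω the commutator subgroup of the isometry group of Q, viewed inside GL_n(F). The elements of Ω stabilising a non-zero subspace on which Q vanishes form a maximal subgroup of Ω. -/
theorem result {F : Type*} [Field F] [Fintype F] {n : ℕ} (hn : 13 ≤ n) (heven : Even n) (Q : (Fin n → F) → F) (hQ : Cfsg.Geo.IsNondegenerateQuadraticForm Q) (hminus : ¬ Cfsg.Geo.IsPlusTypeOn Q ⊤) (W : Submodule F (Fin n → F)) (hW0 : W ≠ ⊥) (hW : Cfsg.Geo.IsTotallySingularQuad Q W) : Cfsg.Geo.IsMaximalIn (Cfsg.Geo.omegaGL Q) (Cfsg.Geo.subspaceStabilizer W ⊓ Cfsg.Geo.omegaGL Q) := by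
  have h := H10.clO hQ
  refine H10.isMaximalIn_gl (H10.mem_omegaGL_iff h (by simp; omega))
    (fun g _ => H10.mem_subspaceStabilizer_iff W g) ?_
  exact h.max_totSing (by simp; omega) ((H11.IsQuad.totSing_iff h.form).mpr hW) hW0
    (Or.inr fun ⟨h1, U, h2, h3⟩ => hminus ⟨U, le_top, h2.1, by rw [h3, h1, finrank_top]⟩)

end Cfsg.Agent.S5687
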