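import Cfsg.Statements.S5697
import Mathlib
import Cfsg.Agent.H10.Mx4

set_option autoImplicit false
open Cfsg

namespace Cfsg.Agent.S5697

/-- Let F be a finite field with q elements, n ≥ 13 even, Q a non-degenerate quadratic form on F^n of plus type (some subspace of dimension n/2 is totally singular), and Ω the commutator subgroup of the isometry group of Q, viewed inside GL_n(F). Suppose n/2 is even and let D be a decomposition of F^n into two complementary subspaces of dimension n/2 on each of which Q vanishes. Then the elements of Ω preserving or interchanging the two subspaces form a maximal subgroup of Ω. -/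
theorem result {F : Type*} [Field F] [Fintype F] {n : ℕ} (hn : 13 ≤ n) (heven : Even n) (Q : (Fin n → F) → F) (hQ : Cfsg.Geo.IsNondegenerateQuadraticForm Q) (hplus : Cfsg.Geo.IsPlusTypeOn Q ⊤) (k : ℕ) (hk : 2 * k = n) (hke : Even k) (D : Fin 2 → Submodule F (Fin n → F)) (hD : Cfsg.Geo.IsMDecomposition k D) (hts : ∀ i, Cfsg.Geo.IsTotallySingularQuad Q (D i)) : Cfsg.Geo.IsMaximalIn (Cfsg.Geo.omegaGL Q) (Cfsg.Geo.decompositionStabilizer D ⊓ Cfsg.Geo.omegaGL Q) := by
  have h := H10.clO hQ
  refine H10.isMaximalIn_gl (H10.mem_omegaGL_iff h (by simp; omega))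
    (fun g _ => H10.mem_decompositionStabilizer_iff D g) ?_
  have p : H10.SPair (H10.bilinOf hQ.polar_bilinear) Q (D 0) (D 1) :=
    ⟨(H11.IsQuad.totSing_iff h.form).mpr (hts 0), (H11.IsQuad.totSing_iff h.form).mpr (hts 1),
      H10.isCompl_of_two hD.indep hD.iSup_eq_top, by rw [hD.finrank_eq, hD.finrank_eq]⟩
  refine h.max_pair p (by rw [hD.finrank_eq]; omega) (fun e => ?_)
    (H10.exists_swap_quad h p (by rw [hD.finrank_eq]; omega) (by rwa [hD.finrank_eq]))
  simpa using DFunLike.congr_fun e 1

end Cfsg.Agent.S5697
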