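import Cfsg.Statements.S5699
import Mathlib
import Cfsg.Agent.H10.Mx4

set_option autoImplicit false
open Cfsg

namespace Cfsg.Agent.S5699

/-- Let F be a finite field with q elements, n ≥ 13 even, Q a non-degenerate quadratic form on F^n (of either type), and Ω the commutator subgroup of the isometry group of Q, viewed inside GL_n(F). Let D be a decomposition of F^n into two orthogonal subspaces of odd dimension n/2 on which the polar form is non-degenerate and which are not Q-isometric to each other. Then the elements of Ω permuting (necessarily fixing) the two subspaces form a maximal subgroup of Ω. -/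
theorem result {F : Type*} [Field F] [Fintype F] {n : ℕ} (hn : 13 ≤ n) (heven : Even n) (Q : (Fin n → F) → F) (hQ : Cfsg.Geo.IsNondegenerateQuadraticForm Q) (k : ℕ) (hk : 2 * k = n) (hko : Odd k) (D : Fin 2 → Submodule F (Fin n → F)) (hD : Cfsg.Geo.IsNondegenerateMDecomposition (QuadraticMap.polar Q) k D) (hni : ¬ Cfsg.Geo.AreIsometricFor Q (D 0) (D 1)) : Cfsg.Geo.IsMaximalIn (Cfsg.Geo.omegaGL Q) (Cfsg.Geo.decompositionStabilizer D ⊓ Cfsg.Geo.omegaGL Q) := by
  have h := H10.clO hQ
  have hW : H11.NondegOn (H10.bilinOf hQ.polar_bilinear) (D 0) :=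
    H10.nondegOn_of (Or.inl fun _ _ => rfl) (hD.nondegenerate 0)
  have d0 := hD.decomp.finrank_eq 0
  have d1 := hD.decomp.finrank_eq 1
  have hd := h.form.finrank_perp h.sep (D 0)
  simp only [Module.finrank_fintype_fun_eq_card, Fintype.card_fin] at hd
  have hp : D 1 = H11.perp (H10.bilinOf hQ.polar_bilinear) (D 0) :=
    Submodule.eq_of_le_of_finrank_eq (fun y hy x hx => hD.orthogonal 0 1 (by decide) x hx y hy)
      (by omega)
  have key : ∀ g ∈ H11.Isom (H10.bilinOf hQ.polar_bilinear) Q,
      ¬ (D 0).map (g : (Fin n → F) →ₗ[F] (Fin n → F)) ≤ D 1 := fun g hg hle =>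
    hni ⟨(g.submoduleMap (D 0)).trans (LinearEquiv.ofEq _ _ (H10.map_eq_of_le' (by omega) hle)),
      fun w => hg.2 w⟩
  refine H10.isMaximalIn_gl (H10.mem_omegaGL_iff h (by simp; omega))
    (S' := H10.stabS F (D 0 : Set (Fin n → F))) (fun g hg => ?_) ?_
  · have hg' := h.om_le_isom ((H10.mem_omegaGL_iff h (by simp; omega) g).mp hg)
    rw [H10.mem_decompositionStabilizer_iff, H10.mem_dstab_two]
    constructor
    · rintro (⟨a, -⟩ | ⟨a, -⟩)
      · exact H10.mem_stabS_of_map_eq a
      · exact absurd a.le (key _ hg')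
    · intro a
      refine Or.inl ⟨H10.map_eq_of_le fun v hv => (a v).mp hv, H10.map_eq_of_le fun v hv => ?_⟩
      rw [hp] at hv ⊢
      exact (h.stab_perp hg' a v).mp hv
  · refine H10.max_nondeg_quad h (by simp; omega) hW (fun e => by rw [e, finrank_bot] at d0; omega)
      (fun e => by rw [e, finrank_top] at d0; simp at d0; omega) (fun _ => hp ▸ key) ?_
    rintro U (rfl | rfl) h2 <;> omega

end Cfsg.Agent.S5699
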