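import Cfsg.Statements.S5701
import Mathlib
import Cfsg.Agent.H11.Fx3

set_option autoImplicit false
open Cfsg

namespace Cfsg.Agent.S5701

/-- Let F be a finite field with q elements, n ≥ 13 even, Q a non-degenerate quadratic form on F^n (of either type), and Ω the commutator subgroup of the isometry group of Q, viewed inside GL_n(F). Suppose q is odd. Let K be a subfield of the algebra of n × n matrices over F containing the scalars, of prime degree r over F with n/r ≥ 3, whose elements are self-adjoint for the polar form of Q. Then the elements of Ω normalising K form a maximal subgroup of Ω. -/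
theorem result {F : Type*} [Field F] [Fintype F] {n : ℕ} (hn : 13 ≤ n) (heven : Even n) (Q : (Fin n → F) → F) (hQ : Cfsg.Geo.IsNondegenerateQuadraticForm Q) (hodd : Odd (Fintype.card F)) (r : ℕ) (hr : r.Prime) (hnr : 3 * r ≤ n) (K : Subalgebra F (Matrix (Fin n) (Fin n) F)) (hK : Cfsg.Geo.IsFieldSubalgebra r K) (hsa : Cfsg.Geo.IsSelfAdjointFor (QuadraticMap.polar Q) K) : Cfsg.Geo.IsMaximalIn (Cfsg.Geo.omegaGL Q) (Cfsg.Geo.subalgebraNormalizer K ⊓ Cfsg.Geo.omegaGL Q) := by
  haveI : Nonempty (Fin n) := ⟨⟨0, by omega⟩⟩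
  letI := (H26.isField_of_isFieldSubalgebra hK).toField
  have e := hK.finrank_eq
  have h1 := H26.EV.finrank_mul K.val
  have := H11.Fx.o_fld_mat K.val (H10.clO hQ) (e ▸ hr) (H11.two_ne_zero_of_odd_card hodd) (by
    rw [e, Fintype.card_fin]
    refine lt_of_le_of_ne hnr fun c => ?_
    rcases hr.eq_two_or_odd' with h | ⟨a, h⟩
    · omega
    · obtain ⟨b, hb⟩ := heven; omega)
  rw [Subalgebra.range_val] at this
  exact this hsa

end Cfsg.Agent.S5701
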