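import Cfsg.Statements.S5706
import Mathlib
import Cfsg.Agent.H10.Sw8

set_option autoImplicit false
open Cfsg

namespace Cfsg.Agent.S5706

/-- Let F be a finite field with q elements, n ≥ 13 even, Q a non-degenerate quadratic form on F^n of plus type (some subspace of dimension n/2 is totally singular), and Ω the commutator subgroup of the isometry group of Q, viewed inside GL_n(F). Suppose that, through a change of basis P and a bijection of index sets e, the polar form of Q is similar to the t-fold tensor power (t ≥ 2) of a non-degenerate symplectic form f₁ on F^k, that Q vanishes on the images of all pure tensors, that t is even if q is odd, that (q, k) is neither (2, 2) nor (3, 2), and that k ≥ 6 if q is even. Then the elements of Ω in the stabiliser of this decomposition form a maximal subgroup of Ω. -/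
theorem result {F : Type*} [Field F] [Fintype F] {n : ℕ} (hn : 13 ≤ n) (heven : Even n) (Q : (Fin n → F) → F) (hQ : Cfsg.Geo.IsNondegenerateQuadraticForm Q) (hplus : Cfsg.Geo.IsPlusTypeOn Q ⊤) (k t : ℕ) (ht : 2 ≤ t) (hqt : Odd (Fintype.card F) → Even t) (hex1 : ¬ (Fintype.card F = 2 ∧ k = 2)) (hex2 : ¬ (Fintype.card F = 3 ∧ k = 2)) (hex3 : ¬ Odd (Fintype.card F) → 6 ≤ k) (e : (Fin n) ≃ (Fin t → Fin k)) (P : Matrix.GeneralLinearGroup (Fin n) F) (f₁ : (Fin k → F) → (Fin k → F) → F) (hf₁ : Cfsg.Geo.IsSymplecticForm f₁) (hT : Cfsg.Geo.IsTensorPowerFormStructure id (QuadraticMap.polar Q) f₁ e P) (hpure : (∀ xs : Fin t → (Fin k → F), Q (Matrix.mulVec (P : Matrix (Fin n) (Fin n) F) ((fun a : Fin t → Fin k => ∏ i, xs i (a i)) ∘ e)) = 0)) : Cfsg.Geo.IsMaximalIn (Cfsg.Geo.omegaGL Q) (Cfsg.Geo.tensorWreathSubgroup k t e P ⊓ Cfsg.Geo.omegaGL Q) := by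
  classical
  obtain ⟨c, hc, hT⟩ := hT
  have s₁ := H19.TA.sep_of hf₁.bilinear hf₁.nondegenerate
  have a₁ : (H10.bilinOf hf₁.bilinear).IsAlt := hf₁.alternating
  obtain ⟨a', ha'⟩ := H10.even_finrank_of_alt (a₁.isRefl.nondegenerate_iff_separatingLeft.mpr s₁) a₁
  have h3 := Fintype.card_congr e
  simp only [Module.finrank_fintype_fun_eq_card, Fintype.card_fin, Fintype.card_pi, Finset.prod_const,
    Finset.card_univ] at ha' h3
  have hU := H10.clAlt a₁ s₁
  have hV := H10.clO hQ
  have hB : ∀ xs ys, H10.bilinOf hQ.polar_bilinear (H10.Cf.pten e P xs) (H10.Cf.pten e P ys) =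
      c * ∏ i, H10.bilinOf hf₁.bilinear (xs i) (ys i) := H10.Cf.B_pten hf₁.bilinear hT
  replace hpure : ∀ xs, Q (H10.Cf.pten e P xs) = 0 := hpure
  have h6 := H10.mem_omegaGL_iff hV (by simp; omega)
  generalize H10.bilinOf hQ.polar_bilinear = B at hV hB h6
  generalize H10.bilinOf hf₁.bilinear = g at hU hB
  have h4 : k ≠ 0 := by rintro rfl; rw [zero_pow (by omega)] at h3; omega
  have h7 : ∀ x ∈ H11.Isom B Q, ∀ y ∈ H11.Isom B Q, x * y * x⁻¹ * y⁻¹ ∈ hV.Om := fun x hx y hy => by
    have := (H10.mem_om_quad hV (by simp; omega) _).2 (Subgroup.commutator_mem_commutator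
      (Subgroup.mem_top (⟨x, hx⟩ : H11.Isom B Q)) (Subgroup.mem_top (⟨y, hy⟩ : H11.Isom B Q)))
    exact this
  refine H10.Sw.sw_max hV hU hB hpure h6 ht ?_ (fun h => absurd (DFunLike.congr_fun h 1) (by simp)) (by simpa)
    (fun i u d z hz => ?_) h7
    fun h2 => .inr (by rintro rfl; exact absurd (hqt (H26.two_ne_zero_iff_odd.1 h2)) (by decide))
  swap
  · exact H19.TA.mem_om_ts hV (H10.Sw.q_xs hV hU hB hpure i u) _
      (d • H19.TW.fe e P i (H19.TW.r1 u (g u))) rfl
      (fun v => Submodule.smul_mem _ _ (H19.TW.ir_mem _ _ _ _))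
      (fun v => by simp [H10.Sw.nil_alt hV hU hB hpure rfl ht i u v]) z hz
  by_cases h5 : 5 ≤ k
  · exact .inl h5
  have h2 : Odd (Fintype.card F) := by_contra fun h => h5 (by have := hex3 h; omega)
  exact .inr ⟨H26.two_ne_zero_iff_odd.2 h2, or_iff_not_imp_left.2 fun h6 =>
    ⟨by omega, fun h7 => hex2 ⟨by simpa using h7, by omega⟩⟩⟩

end Cfsg.Agent.S5706
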