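import Cfsg.Statements.S5707
import Mathlib
import Cfsg.Agent.H10.Ag22

set_option autoImplicit false
open Cfsg

namespace Cfsg.Agent.S5707

/-- Let F be a finite field with q elements, n ≥ 13 even, Q a non-degenerate quadratic form on F^n of plus type (some subspace of dimension n/2 is totally singular), and Ω the commutator subgroup of the isometry group of Q, viewed inside GL_n(F). Suppose q is even and that, through P and e, the polar form of Q is similar to the t-fold tensor power (t ≥ 2) of a non-degenerate symplectic form f₁ on F^k with k ≤ 4 and (q, k) ≠ (2, 2), Q vanishing on the images of all pure tensors. Then the elements of Ω in the stabiliser of this decomposition form a subgroup that is not maximal: some subgroup lies strictly between it and Ω. -/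
theorem result {F : Type*} [Field F] [Fintype F] {n : ℕ} (hn : 13 ≤ n) (heven : Even n) (Q : (Fin n → F) → F) (hQ : Cfsg.Geo.IsNondegenerateQuadraticForm Q) (hplus : Cfsg.Geo.IsPlusTypeOn Q ⊤) (hchar : ¬ Odd (Fintype.card F)) (k t : ℕ) (ht : 2 ≤ t) (hk : k ≤ 4) (hex1 : ¬ (Fintype.card F = 2 ∧ k = 2)) (e : (Fin n) ≃ (Fin t → Fin k)) (P : Matrix.GeneralLinearGroup (Fin n) F) (f₁ : (Fin k → F) → (Fin k → F) → F) (hf₁ : Cfsg.Geo.IsSymplecticForm f₁) (hT : Cfsg.Geo.IsTensorPowerFormStructure id (QuadraticMap.polar Q) f₁ e P) (hpure : (∀ xs : Fin t → (Fin k → F), Q (Matrix.mulVec (P : Matrix (Fin n) (Fin n) F) ((fun a : Fin t → Fin k => ∏ i, xs i (a i)) ∘ e)) = 0)) : ∃ K : Subgroup (Matrix.GeneralLinearGroup (Fin n) F), Cfsg.Geo.tensorWreathSubgroup k t e P ⊓ Cfsg.Geo.omegaGL Q < K ∧ K < Cfsg.Geo.omegaGL Q := by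
  classical
  obtain ⟨c, hc, hT⟩ := hT
  have h2 : (2 : F) = 0 := by_contra fun h => hchar (H26.two_ne_zero_iff_odd.1 h)
  have s₁ := H19.TA.sep_of hf₁.bilinear hf₁.nondegenerate
  have a₁ : (H10.bilinOf hf₁.bilinear).IsAlt := hf₁.alternating
  obtain ⟨a', ha'⟩ := H10.even_finrank_of_alt (a₁.isRefl.nondegenerate_iff_separatingLeft.mpr s₁) a₁
  have h3 := Fintype.card_congr e
  simp only [Module.finrank_fintype_fun_eq_card, Fintype.card_fin, Fintype.card_pi, Finset.prod_const,
    Finset.card_univ] at ha' h3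
  have h4 := fun S => H10.Cf.not_max (e := e) (P := P) (S := S) h2 (H10.clO hQ) (by simp; omega) ht
    (H10.clAlt a₁ s₁) hc (H10.Cf.B_pten hf₁.bilinear hT) hpure
  have h5 : k = 0 ∨ k = 2 ∨ k = 4 := by omega
  rcases h5 with rfl | rfl | rfl
  · rw [zero_pow (by omega)] at h3; omega
  · refine h4 _ (H10.Cf.gs2 h2 (H10.clAlt a₁ s₁) ?_)
    by_contra h5
    rw [show t = 2 by omega] at h3; omega
  · exact h4 _ (H10.Cf.gs4 (H10.clAlt a₁ s₁) _)

end Cfsg.Agent.S5707
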