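import Cfsg.Statements.S5775
import Cfsg.Agent.H26.Cs1
-- import your own Cfsg.Agent.* helpers here

set_option autoImplicit false
open Cfsg

namespace Cfsg.Agent.S5775

/-- Every maximal subgroup of SL_3(q) is of one of the listed geometric types or lies in the residual class. Let F be a finite field with q elements and H a maximal subgroup of SL_3(F) (viewed inside GL_3(F)). Then H is the intersection with SL_3(F) of one of: the stabiliser of a proper non-zero subspace; for q ≥ 5, the stabiliser of a decomposition of F^3 into three independent lines; for q ≠ 4, the normaliser of a degree-3 subfield of the matrix algebra; a subfield group for a subfield F₀ with |F| = |F₀|^r, r prime; for q = p ≡ 1 mod 3 prime, the normaliser of an absolutely irreducible 3-subgroup R of exponent 3 with centre of order 3, all of whose characteristic abelian subgroups are cyclic, of order 3^(1+2m) for some m ≥ 1, with F the smallest field of characteristic p containing the cube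 roots of unity (so R is extraspecial of order 27); for q odd, the similarity group of a non-degenerate quadratic form; the similarity group of a non-degenerate unitary form — or else H lies in the residual class of the linear case (modulo scalars H is almost simple, with absolutely irreducible perfect socle preimage realisable over no proper subfield and fixing no non-degenerate quadratic, symplectic or unitary form). -/
theorem result {F : Type*} [Field F] [Fintype F] (H : Subgroup (Matrix.GeneralLinearGroup (Fin 3) F)) (hH : Cfsg.Geo.IsMaximalIn (Cfsg.Geo.specialLinear (Fin 3) F) H) :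
    (∃ W : Submodule F (Fin 3 → F), W ≠ ⊥ ∧ W ≠ ⊤ ∧ H = Cfsg.Geo.subspaceStabilizer W ⊓ Cfsg.Geo.specialLinear (Fin 3) F) ∨
    (5 ≤ Fintype.card F ∧ ∃ D : Fin 3 → Submodule F (Fin 3 → F), Cfsg.Geo.IsMDecomposition 1 D ∧ H = Cfsg.Geo.decompositionStabilizer D ⊓ Cfsg.Geo.specialLinear (Fin 3) F) ∨
    (Fintype.card F ≠ 4 ∧ ∃ K : Subalgebra F (Matrix (Fin 3) (Fin 3) F), Cfsg.Geo.IsFieldSubalgebra 3 K ∧ H = Cfsg.Geo.subalgebraNormalizer K ⊓ Cfsg.Geo.specialLinear (Fin 3) F) ∨
    (∃ (F₀ : Subfield F) (r : ℕ) (P : Matrix.GeneralLinearGroup (Fin 3) F), r.Prime ∧ Fintype.card F = Nat.card F₀ ^ r ∧ H = Cfsg.Geo.subfieldSubgroup F₀ P ⊓ Cfsg.Geo.specialLinear (Fin 3) F) ∨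
    (∃ (p : ℕ) (R : Subgroup (Matrix.GeneralLinearGroup (Fin 3) F)), p.Prime ∧ Fintype.card F = p ∧ p % 3 = 1 ∧ Cfsg.Geo.IsLinearSymplecticTypeData 3 R ∧ H = Cfsg.Geo.subgroupNormalizer R ⊓ Cfsg.Geo.specialLinear (Fin 3) F) ∨
    (Odd (Fintype.card F) ∧ ∃ Q : (Fin 3 → F) → F, Cfsg.Geo.IsNondegenerateQuadraticForm Q ∧ H = Cfsg.Geo.quadSimilarityGroup Q ⊓ Cfsg.Geo.specialLinear (Fin 3) F) ∨
    (∃ (σ : F ≃+* F) (f : (Fin 3 → F) → (Fin 3 → F) → F), Cfsg.Geo.IsUnitaryForm σ f ∧ H = Cfsg.Geo.similarityGroup f ⊓ Cfsg.Geo.specialLinear (Fin 3) F) ∨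
    Cfsg.Geo.InLinearResidualClass H := by
  rcases H26.sl_max (by norm_num) (by norm_num) hH with (⟨W, h1, h2, h⟩ | ⟨t, m, D, hD, h1, h2, h⟩ |
    ⟨r, K, hr, hK, h⟩ | ⟨a, b, e, P, h1, h2, h3, h⟩ | ⟨F₀, r, P, hr, hc, h⟩ | ⟨r, R, hR, hd, h⟩ |
    ⟨m, t, e, P, h1, h2, h⟩ | ⟨f, hf, h1, h⟩ | ⟨σ, f, hf, h⟩ | ⟨Q, hQ, hq, h⟩) | h
  · exact .inl ⟨W, h1, h2, h⟩
  · obtain ⟨h3, h4⟩ := H26.dec_numerics hD
    have h5 : m < 3 := by nlinarith
    have h6 : (m = 1 ∧ t = 3) := by interval_cases m <;> omega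
    rcases h6 with ⟨rfl, rfl⟩
    · exact .inr (.inl ⟨h1 rfl, D, hD, h⟩)
  · have h1 := H26.fld_numerics hK
    obtain rfl := (Nat.prime_dvd_prime_iff_eq hr Nat.prime_three).1 h1
    by_cases hq : Fintype.card F = 4
    · obtain ⟨F₀, P, h2, h3⟩ := H26.singer_four' hq (by simp) hK
      exact .inr (.inr (.inr (.inl ⟨F₀, 2, P, Nat.prime_two, h2, H26.eq_inf_of_isMaximalIn hH (h ▸ h3)
        (H26.sl_not_le_subfieldSubgroup (by simp) (H26.subfield_ne_top Nat.prime_two h2) P)⟩)))
    · exact .inr (.inr (.inl ⟨hq, K, hK, h⟩))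
  · have h4 := H26.ten_numerics e
    nlinarith
  · exact .inr (.inr (.inr (.inl ⟨F₀, r, P, hr, hc, h⟩)))
  · obtain rfl := hR.eq_of_card (s := 3) (j := 1) (by norm_num) (by simp)
    obtain ⟨p, e, h1, h2, h3, h4, h5, h6, h7⟩ := H26.linData_prime hd (by norm_num)
    have h8 := Nat.le_of_dvd (by norm_num) h5
    have h9 : p % 3 < 3 := Nat.mod_lt _ (by norm_num)
    rw [Nat.odd_iff] at h4
    obtain rfl : e = 1 := by interval_cases e <;> omega
    exact .inr (.inr (.inr (.inr (.inl ⟨p, R, h1, by simpa using h3, by simpa using h6, hd, h⟩))))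
  · obtain ⟨rfl, rfl, h3⟩ := H26.wr_numerics e h1 h2 (by norm_num)
    omega
  · exact absurd h1 (by decide)
  · exact .inr (.inr (.inr (.inr (.inr (.inr (.inl ⟨σ, f, hf, h⟩))))))
  · exact .inr (.inr (.inr (.inr (.inr (.inl ⟨hq, Q, hQ, h⟩)))))
  · exact .inr (.inr (.inr (.inr (.inr (.inr (.inr (h)))))))

end Cfsg.Agent.S5775
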