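import Cfsg.Statements.S5778
import Cfsg.Agent.H26.Ex5
import Cfsg.Agent.H26.Ex9
import Cfsg.Agent.H26.Ex11
import Cfsg.Agent.H26.SUNum
-- import your own Cfsg.Agent.* helpers here

set_option autoImplicit false
set_option synthInstance.maxSize 1024
open Cfsg

namespace Cfsg.Agent.S5778

/-- Every maximal subgroup of SU_3(q), q ≥ 3, is of one of the listed geometric types or lies in the residual class. Let F be the field with q² elements, f the standard unitary form Σ u_i v_i^q on F^3, and H a maximal subgroup of SU_3(q) (the determinant-one isometries of f, inside GL_3(F)). Then H is the intersection with SU_3(q) of one of: the stabiliser of a non-zero subspace on which f vanishes; the stabiliser of a non-degenerate 1-space; for q ≠ 5, the stabiliser of a decomposition into three mutually orthogonal non-degenerate 1-spaces; for q ≠ 3, 5, the normaliser of an adjoint-closed degree-3 subfield of the matrix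 algebra; a subfield group of odd prime index whose F₀-structure carries f; for q odd, q ≥ 7, a subfield group of index 2 whose F₀-structure carries f; for q = p ≡ 2 mod 3 prime with p ≥ 11, the normaliser of an absolutely irreducible subgroup of order 27 with centre of order 3, exponent 3 and all characteristic abelian subgroups cyclic, contained in the similarity group of f — or else H lies in the residual class of the unitary case. -/
theorem result {F : Type*} [Field F] [Fintype F] (q : ℕ) (hF : Fintype.card F = q ^ 2) (hq : 3 ≤ q) (H : Subgroup (Matrix.GeneralLinearGroup (Fin 3) F)) (hH : Cfsg.Geo.IsMaximalIn (Cfsg.GU 3 F q ⊓ Cfsg.Geo.specialLinear (Fin 3) F) H) :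
    (∃ W : Submodule F (Fin 3 → F), W ≠ ⊥ ∧ Cfsg.Geo.IsTotallySingularFor (Cfsg.hermForm 3 F q) W ∧ H = Cfsg.Geo.subspaceStabilizer W ⊓ (Cfsg.GU 3 F q ⊓ Cfsg.Geo.specialLinear (Fin 3) F)) ∨
    (∃ W : Submodule F (Fin 3 → F), W ≠ ⊥ ∧ Cfsg.Geo.IsNondegenerateOn (Cfsg.hermForm 3 F q) W ∧ 2 * Module.finrank F W < 3 ∧ H = Cfsg.Geo.subspaceStabilizer W ⊓ (Cfsg.GU 3 F q ⊓ Cfsg.Geo.specialLinear (Fin 3) F)) ∨
    (q ≠ 5 ∧ ∃ D : Fin 3 → Submodule F (Fin 3 → F), Cfsg.Geo.IsNondegenerateMDecomposition (Cfsg.hermForm 3 F q) 1 D ∧ H = Cfsg.Geo.decompositionStabilizer D ⊓ (Cfsg.GU 3 F q ⊓ Cfsg.Geo.specialLinear (Fin 3) F)) ∨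
    (q ≠ 3 ∧ q ≠ 5 ∧ ∃ K : Subalgebra F (Matrix (Fin 3) (Fin 3) F), Cfsg.Geo.IsFieldSubalgebra 3 K ∧ Cfsg.Geo.IsAdjointClosedFor (Cfsg.hermForm 3 F q) K ∧ H = Cfsg.Geo.subalgebraNormalizer K ⊓ (Cfsg.GU 3 F q ⊓ Cfsg.Geo.specialLinear (Fin 3) F)) ∨
    (∃ (F₀ : Subfield F) (r : ℕ) (P : Matrix.GeneralLinearGroup (Fin 3) F), r.Prime ∧ Odd r ∧ Fintype.card F = Nat.card F₀ ^ r ∧ Cfsg.Geo.IsFormRationalStructure (Cfsg.hermForm 3 F q) F₀ 1 P ∧ H = Cfsg.Geo.subfieldSubgroup F₀ P ⊓ (Cfsg.GU 3 F q ⊓ Cfsg.Geo.specialLinear (Fin 3) F)) ∨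
    (Odd q ∧ 7 ≤ q ∧ ∃ (F₀ : Subfield F) (P : Matrix.GeneralLinearGroup (Fin 3) F), Fintype.card F = Nat.card F₀ ^ 2 ∧ Cfsg.Geo.IsFormRationalStructure (Cfsg.hermForm 3 F q) F₀ 1 P ∧ H = Cfsg.Geo.subfieldSubgroup F₀ P ⊓ (Cfsg.GU 3 F q ⊓ Cfsg.Geo.specialLinear (Fin 3) F)) ∨
    (∃ (p : ℕ) (R : Subgroup (Matrix.GeneralLinearGroup (Fin 3) F)), p.Prime ∧ q = p ∧ p % 3 = 2 ∧ 11 ≤ p ∧ Cfsg.Geo.IsSymplecticTypeGroup 3 R ∧ Cfsg.Geo.ActsAbsolutelyIrreducibly (Cfsg.Geo.matrixSet R) ∧ R ≤ Cfsg.Geo.similarityGroup (Cfsg.hermForm 3 F q) ∧ Nat.card R = 27 ∧ Nat.card (Subgroup.center R) = 3 ∧ H = Cfsg.Geo.subgroupNormalizer R ⊓ (Cfsg.GU 3 F q ⊓ Cfsg.Geo.specialLinear (Fin 3) F)) ∨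
    Cfsg.Geo.InUnitaryResidualClass H := by
  obtain ⟨σ, hσ, hne, hG, hf, hI, h⟩ := H26.su_max' hF (.inr ⟨rfl, hq⟩) hH
  rw [hf]
  rcases h with (⟨W, h1, h2, h⟩ | ⟨W, h1, h2, h3, h⟩ | ⟨t, k, D, hD, h1, h⟩ | ⟨k, D, hD, h1, h⟩ |
    ⟨r, K, hr, ho, hK, h1, h⟩ | ⟨a, b, e, P, G₁, G₂, h1, h2, h3, h4, h⟩ |
    ⟨F₀, r, P, hr, ho, hc, h1, h⟩ | ⟨F₀, P, ho, hc, h1, h⟩ | ⟨F₀, P, ζ, he, hc, h0, h1, h2, h3, h⟩ |
    ⟨r, R, p, e, hR, hR', h1, hp, hm, h2, h⟩ | ⟨k, t, e, P, c, G₀, h1, h2, h3, hW, h⟩) | h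
  · exact .inl ⟨W, h1, h2, h⟩
  · exact .inr (.inl ⟨W, h1, h2, by simpa using h3, h⟩)
  · obtain ⟨h3, h4⟩ := H26.dec_numerics hD.decomp
    have h5 : k < 3 := by nlinarith
    obtain ⟨rfl, rfl⟩ : k = 1 ∧ t = 3 := by interval_cases k <;> omega
    refine .inr (.inr (.inl ⟨?_, D, hD, h⟩))
    rintro rfl
    rw [hI] at h hH
    exact H26.not_max_of_between (h ▸ H26.nm_su35_frame hF hσ hG hne hD) hH
  · have := (H26.dec_numerics hD).1
    omega
  · have h2 := H26.fld_numerics hK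
    have h3 := Nat.le_of_dvd (by norm_num) h2
    rw [Nat.odd_iff] at ho
    obtain rfl : r = 3 := by
      interval_cases r <;> first | omega | exact absurd hr (by norm_num)
    refine .inr (.inr (.inr (.inl ⟨?_, ?_, K, hK, h1, h⟩))) <;> rintro rfl <;> rw [hI] at h hH
    · exact H26.not_max_of_between (h ▸ H26.nm_singer33 hF hσ hG hne (by simp) hK h1) hH
    · exact H26.not_max_of_between (h ▸ H26.nm_singer35 hF hσ hG hne (by simp) hK h1) hH
  · have h5 := H26.ten_numerics e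
    have h6 : a < 4 := by nlinarith
    interval_cases a <;> omega
  · exact .inr (.inr (.inr (.inr (.inl ⟨F₀, r, P, hr, ho, hc, h1, h⟩))))
  · have h2 := (Nat.odd_pow_iff two_ne_zero).1 (hF ▸ ho)
    refine .inr (.inr (.inr (.inr (.inr (.inl ⟨h2, ?_, F₀, P, hc, h1, h⟩)))))
    by_contra h3
    rw [hI] at h hH
    rw [Nat.odd_iff] at h2
    obtain rfl | rfl : q = 3 ∨ q = 5 := by omega
    · exact H26.not_max_of_between (h ▸ H26.nm_su33_orth hF hσ hG hne hc h1) hH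
    · exact H26.not_max_of_between (h ▸ H26.nm_su35_orth hF hσ hG hne hc h1) hH
  · exact absurd he (by decide)
  · obtain rfl := hR.eq_of_card (s := 3) (j := 1) (by norm_num) (by simp)
    have h3 : Nat.card (Subgroup.center R) = 3 := by
      rcases h2 with ⟨h4, h5⟩ | ⟨h4, -, h5⟩ <;> first | exact h5 | exact absurd h4 (by decide)
    have h4 := hR.card_eq (k := 1) (by simp)
    rw [h3] at h4
    have hm' := hm
    rw [h3] at hm'
    obtain ⟨d, h5, h6, h7, h8⟩ := H26.uni_numerics (by norm_num) hF hm'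
    obtain ⟨rfl, h9⟩ := (by decide : ∀ d < 3 / 2 + 1, ∀ x < 3, (0 < d ∧ x ^ (2 * d) % 3 = 1 ∧
      ∀ j < 2 * d, 0 < j → x ^ j % 3 ≠ 1) → (d = 1 ∧ (x = 2))) d h6 _ h7 h8
    obtain rfl : q = p := by simpa using h5
    refine .inr (.inr (.inr (.inr (.inr (.inr (.inl ⟨q, R, hm.1, rfl, h9, ?_,
      hR.sympl, H26.absIrr_of_spanAlg_eq_top hR.span, h1.trans (H26.isom_le_similarityGroup _ _), h4, h3, h⟩))))))
    by_contra h10
    obtain rfl | rfl : q = 5 ∨ q = 8 := by omega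
    · rw [hI] at h hH
      exact H26.not_max_of_between (h ▸ H26.nm_su35_ext hF hσ hG hne (by simp) hR' h1) hH
    · exact absurd hm.1 (by norm_num)
  · obtain ⟨rfl, rfl, h4⟩ := H26.wr_numerics e h1 h2 (by norm_num)
    omega
  · exact .inr (.inr (.inr (.inr (.inr (.inr (.inr (h)))))))

end Cfsg.Agent.S5778
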