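import Cfsg.Statements.S5781
import Cfsg.Agent.H26.Ex2
-- import your own Cfsg.Agent.* helpers here

set_option autoImplicit false
open Cfsg

namespace Cfsg.Agent.S5781

/-- Every maximal subgroup of SL_4(q) is of one of the listed geometric types or lies in the residual class. Let F be a finite field with q elements and H a maximal subgroup of SL_4(F) (inside GL_4(F)). Then H is the intersection with SL_4(F) of one of: the stabiliser of a proper non-zero subspace; for q ≥ 7, the stabiliser of a decomposition into four independent lines; for q ≥ 4, the stabiliser of a decomposition into two independent planes; the normaliser of a degree-2 subfield of the matrix algebra; a subfield group for a subfield F₀ with |F| = |F₀|^r, r prime; for q = p ≡ 1 mod 4 prime, the normaliser of an absolutely irreducible 2-subgroup R of exponent 4 with centre of order 4, all of whose characteristic abelian subgroups are cyclic, of order 2^(2+2m) for some m (here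 |R| = 64), with 4 dividing p − 1; for q odd, the similarity group of a non-degenerate quadratic form; the similarity group of a non-degenerate symplectic form; the similarity group of a non-degenerate unitary form — or else H lies in the residual class of the linear case. -/
theorem result {F : Type*} [Field F] [Fintype F] (H : Subgroup (Matrix.GeneralLinearGroup (Fin 4) F)) (hH : Cfsg.Geo.IsMaximalIn (Cfsg.Geo.specialLinear (Fin 4) F) H) :
    (∃ W : Submodule F (Fin 4 → F), W ≠ ⊥ ∧ W ≠ ⊤ ∧ H = Cfsg.Geo.subspaceStabilizer W ⊓ Cfsg.Geo.specialLinear (Fin 4) F) ∨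
    (7 ≤ Fintype.card F ∧ ∃ D : Fin 4 → Submodule F (Fin 4 → F), Cfsg.Geo.IsMDecomposition 1 D ∧ H = Cfsg.Geo.decompositionStabilizer D ⊓ Cfsg.Geo.specialLinear (Fin 4) F) ∨
    (4 ≤ Fintype.card F ∧ ∃ D : Fin 2 → Submodule F (Fin 4 → F), Cfsg.Geo.IsMDecomposition 2 D ∧ H = Cfsg.Geo.decompositionStabilizer D ⊓ Cfsg.Geo.specialLinear (Fin 4) F) ∨
    (∃ K : Subalgebra F (Matrix (Fin 4) (Fin 4) F), Cfsg.Geo.IsFieldSubalgebra 2 K ∧ H = Cfsg.Geo.subalgebraNormalizer K ⊓ Cfsg.Geo.specialLinear (Fin 4) F) ∨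
    (∃ (F₀ : Subfield F) (r : ℕ) (P : Matrix.GeneralLinearGroup (Fin 4) F), r.Prime ∧ Fintype.card F = Nat.card F₀ ^ r ∧ H = Cfsg.Geo.subfieldSubgroup F₀ P ⊓ Cfsg.Geo.specialLinear (Fin 4) F) ∨
    (∃ (p : ℕ) (R : Subgroup (Matrix.GeneralLinearGroup (Fin 4) F)), p.Prime ∧ Fintype.card F = p ∧ p % 4 = 1 ∧ Cfsg.Geo.IsLinearSymplecticTypeData 2 R ∧ H = Cfsg.Geo.subgroupNormalizer R ⊓ Cfsg.Geo.specialLinear (Fin 4) F) ∨
    (Odd (Fintype.card F) ∧ ∃ Q : (Fin 4 → F) → F, Cfsg.Geo.IsNondegenerateQuadraticForm Q ∧ H = Cfsg.Geo.quadSimilarityGroup Q ⊓ Cfsg.Geo.specialLinear (Fin 4) F) ∨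
    (∃ f : (Fin 4 → F) → (Fin 4 → F) → F, Cfsg.Geo.IsSymplecticForm f ∧ H = Cfsg.Geo.similarityGroup f ⊓ Cfsg.Geo.specialLinear (Fin 4) F) ∨
    (∃ (σ : F ≃+* F) (f : (Fin 4 → F) → (Fin 4 → F) → F), Cfsg.Geo.IsUnitaryForm σ f ∧ H = Cfsg.Geo.similarityGroup f ⊓ Cfsg.Geo.specialLinear (Fin 4) F) ∨
    Cfsg.Geo.InLinearResidualClass H := by
  rcases H26.sl_max (by norm_num) (by norm_num) hH with (⟨W, h1, h2, h⟩ | ⟨t, m, D, hD, h1, h2, h⟩ |
    ⟨r, K, hr, hK, h⟩ | ⟨a, b, e, P, h1, h2, h3, h⟩ | ⟨F₀, r, P, hr, hc, h⟩ | ⟨r, R, hR, hd, h⟩ |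
    ⟨m, t, e, P, h1, h2, h⟩ | ⟨f, hf, h1, h⟩ | ⟨σ, f, hf, h⟩ | ⟨Q, hQ, hq, h⟩) | h
  · exact .inl ⟨W, h1, h2, h⟩
  · obtain ⟨h3, h4⟩ := H26.dec_numerics hD
    have h5 : m < 4 := by nlinarith
    have h6 : (m = 1 ∧ t = 4) ∨ (m = 2 ∧ t = 2) := by interval_cases m <;> omega
    rcases h6 with ⟨rfl, rfl⟩ | ⟨rfl, rfl⟩
    · have h7 : Fintype.card F ≠ 5 := fun h7 =>
        H26.not_max_of_between (h ▸ H26.nm_sl4_lines h7 hD) hH
      have h8 : Fintype.card F ≠ 6 := fun h8 =>
        absurd (h8 ▸ Fintype.isPrimePow_card_of_field (α := F)) (by decide)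
      have := h1 rfl
      exact .inr (.inl ⟨by omega, D, hD, h⟩)
    · by_cases h7 : Fintype.card F = 3
      · obtain ⟨G, h8, h9, h10⟩ := H26.sl4_planes h7 hD
        exact .inr (.inr (.inr (.inr (.inr (.inr (.inr (.inl ⟨_, H26.isSymplecticForm_fm h8 h9,
          H26.eq_inf_of_isMaximalIn hH (h ▸ h10)
            (H26.sl_not_le_similarityGroup (by simp) h9)⟩)))))))
      · have := h2 rfl
        exact .inr (.inr (.inl ⟨by omega, D, hD, h⟩))
  · have h1 := H26.fld_numerics hK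
    have h2 := Nat.le_of_dvd (by norm_num) h1
    have h3 : r = 2 := by
      interval_cases r <;> first | omega | exact absurd hr (by norm_num)
    rcases h3 with rfl
    · exact .inr (.inr (.inr (.inl ⟨K, hK, h⟩)))
  · have h4 := H26.ten_numerics e
    have h5 : a < 4 := by nlinarith
    interval_cases a <;> omega
  · exact .inr (.inr (.inr (.inr (.inl ⟨F₀, r, P, hr, hc, h⟩))))
  · obtain rfl := hR.eq_of_card (s := 2) (j := 2) (by norm_num) (by simp)
    obtain ⟨p, h1, h2, h3⟩ := H26.linData_two hd (by simp)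
    exact .inr (.inr (.inr (.inr (.inr (.inl ⟨p, R, h1, h2, h3, hd, h⟩)))))
  · obtain ⟨rfl, rfl, h3⟩ := H26.wr_numerics e h1 h2 (by norm_num)
    omega
  · exact .inr (.inr (.inr (.inr (.inr (.inr (.inr (.inl ⟨f, hf, h⟩)))))))
  · exact .inr (.inr (.inr (.inr (.inr (.inr (.inr (.inr (.inl ⟨σ, f, hf, h⟩))))))))
  · exact .inr (.inr (.inr (.inr (.inr (.inr (.inl ⟨hq, Q, hQ, h⟩))))))
  · exact .inr (.inr (.inr (.inr (.inr (.inr (.inr (.inr (.inr (h)))))))))

end Cfsg.Agent.S5781
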