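import Cfsg.Statements.S5784
import Cfsg.Agent.H26.Ex2
import Cfsg.Agent.H26.Ex3
import Cfsg.Agent.H26.Ex5
import Cfsg.Agent.H26.SUNum
-- import your own Cfsg.Agent.* helpers here

set_option autoImplicit false
open Cfsg

namespace Cfsg.Agent.S5784

/-- Every maximal subgroup of SU_4(q) is of one of the listed geometric types or lies in the residual class. Let F be the field with q² elements, f the standard unitary form Σ u_i v_i^q on F^4, and H a maximal subgroup of SU_4(q) (inside GL_4(F)). Then H is the intersection with SU_4(q) of one of: the stabiliser of a non-zero subspace on which f vanishes; the stabiliser of a non-degenerate 1-space; for q ≠ 3, the stabiliser of a decomposition into four mutually orthogonal non-degenerate 1-spaces; for q ≥ 3, of a decomposition into two orthogonal non-degenerate 2-spaces; for q ≥ 4, of a decomposition into two totally isotropic 2-spaces; a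 subfield group of odd prime index whose F₀-structure carries f; a subfield group of index 2 whose F₀-structure carries ζ f, vanishing on pairs (u, u), for some non-zero ζ with ζ + ζ^q = 0; for q odd, a subfield group of index 2 whose F₀-structure carries f; for q = p ≡ 3 mod 4 prime, the normaliser of an absolutely irreducible symplectic-type 2-group of exponent 4, order 64 and centre of order 4 inside the similarity group of f — or else H lies in the residual class of the unitary case. -/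
theorem result {F : Type*} [Field F] [Fintype F] (q : ℕ) (hF : Fintype.card F = q ^ 2) (H : Subgroup (Matrix.GeneralLinearGroup (Fin 4) F)) (hH : Cfsg.Geo.IsMaximalIn (Cfsg.GU 4 F q ⊓ Cfsg.Geo.specialLinear (Fin 4) F) H) :
    (∃ W : Submodule F (Fin 4 → F), W ≠ ⊥ ∧ Cfsg.Geo.IsTotallySingularFor (Cfsg.hermForm 4 F q) W ∧ H = Cfsg.Geo.subspaceStabilizer W ⊓ (Cfsg.GU 4 F q ⊓ Cfsg.Geo.specialLinear (Fin 4) F)) ∨
    (∃ W : Submodule F (Fin 4 → F), W ≠ ⊥ ∧ Cfsg.Geo.IsNondegenerateOn (Cfsg.hermForm 4 F q) W ∧ 2 * Module.finrank F W < 4 ∧ H = Cfsg.Geo.subspaceStabilizer W ⊓ (Cfsg.GU 4 F q ⊓ Cfsg.Geo.specialLinear (Fin 4) F)) ∨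
    (q ≠ 3 ∧ ∃ D : Fin 4 → Submodule F (Fin 4 → F), Cfsg.Geo.IsNondegenerateMDecomposition (Cfsg.hermForm 4 F q) 1 D ∧ H = Cfsg.Geo.decompositionStabilizer D ⊓ (Cfsg.GU 4 F q ⊓ Cfsg.Geo.specialLinear (Fin 4) F)) ∨
    (3 ≤ q ∧ ∃ D : Fin 2 → Submodule F (Fin 4 → F), Cfsg.Geo.IsNondegenerateMDecomposition (Cfsg.hermForm 4 F q) 2 D ∧ H = Cfsg.Geo.decompositionStabilizer D ⊓ (Cfsg.GU 4 F q ⊓ Cfsg.Geo.specialLinear (Fin 4) F)) ∨
    (4 ≤ q ∧ ∃ D : Fin 2 → Submodule F (Fin 4 → F), Cfsg.Geo.IsMDecomposition 2 D ∧ (∀ i, Cfsg.Geo.IsTotallySingularFor (Cfsg.hermForm 4 F q) (D i)) ∧ H = Cfsg.Geo.decompositionStabilizer D ⊓ (Cfsg.GU 4 F q ⊓ Cfsg.Geo.specialLinear (Fin 4) F)) ∨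
    (∃ (F₀ : Subfield F) (r : ℕ) (P : Matrix.GeneralLinearGroup (Fin 4) F), r.Prime ∧ Odd r ∧ Fintype.card F = Nat.card F₀ ^ r ∧ Cfsg.Geo.IsFormRationalStructure (Cfsg.hermForm 4 F q) F₀ 1 P ∧ H = Cfsg.Geo.subfieldSubgroup F₀ P ⊓ (Cfsg.GU 4 F q ⊓ Cfsg.Geo.specialLinear (Fin 4) F)) ∨
    (∃ (F₀ : Subfield F) (P : Matrix.GeneralLinearGroup (Fin 4) F) (ζ : F), Fintype.card F = Nat.card F₀ ^ 2 ∧ ζ ≠ 0 ∧ ζ + ζ ^ q = 0 ∧ Cfsg.Geo.IsFormRationalStructure (Cfsg.hermForm 4 F q) F₀ ζ P ∧ (∀ u : Fin 4 → F, (∀ i, u i ∈ F₀) → (Cfsg.hermForm 4 F q) (Matrix.mulVec (P : Matrix (Fin 4) (Fin 4) F) u) (Matrix.mulVec (P : Matrix (Fin 4) (Fin 4) F) u) = 0) ∧ H = Cfsg.Geo.subfieldSubgroup F₀ P ⊓ (Cfsg.GU 4 F q ⊓ Cfsg.Geo.specialLinear (Fin 4) F)) ∨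
    (Odd q ∧ ∃ (F₀ : Subfield F) (P : Matrix.GeneralLinearGroup (Fin 4) F), Fintype.card F = Nat.card F₀ ^ 2 ∧ Cfsg.Geo.IsFormRationalStructure (Cfsg.hermForm 4 F q) F₀ 1 P ∧ H = Cfsg.Geo.subfieldSubgroup F₀ P ⊓ (Cfsg.GU 4 F q ⊓ Cfsg.Geo.specialLinear (Fin 4) F)) ∨
    (∃ (p : ℕ) (R : Subgroup (Matrix.GeneralLinearGroup (Fin 4) F)), p.Prime ∧ q = p ∧ p % 4 = 3 ∧ Cfsg.Geo.IsSymplecticTypeGroup 2 R ∧ Cfsg.Geo.ActsAbsolutelyIrreducibly (Cfsg.Geo.matrixSet R) ∧ R ≤ Cfsg.Geo.similarityGroup (Cfsg.hermForm 4 F q) ∧ Nat.card R = 64 ∧ Nat.card (Subgroup.center R) = 4 ∧ H = Cfsg.Geo.subgroupNormalizer R ⊓ (Cfsg.GU 4 F q ⊓ Cfsg.Geo.specialLinear (Fin 4) F)) ∨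
    Cfsg.Geo.InUnitaryResidualClass H := by
  obtain ⟨σ, hσ, hne, hG, hf, hI, h⟩ := H26.su_max' hF (.inl rfl) hH
  have hq : Fintype.card F ≠ 4 → 3 ≤ q := fun h => by
    have : 1 < Fintype.card F := Fintype.one_lt_card
    by_contra h1
    interval_cases q <;> omega
  rw [hf]
  rcases h with (⟨W, h1, h2, h⟩ | ⟨W, h1, h2, h3, h⟩ | ⟨t, k, D, hD, h1, h⟩ | ⟨k, D, hD, h1, h⟩ |
    ⟨r, K, hr, ho, hK, h1, h⟩ | ⟨a, b, e, P, G₁, G₂, h1, h2, h3, h4, h⟩ |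
    ⟨F₀, r, P, hr, ho, hc, h1, h⟩ | ⟨F₀, P, ho, hc, h1, h⟩ | ⟨F₀, P, ζ, he, hc, h0, h1, h2, h3, h⟩ |
    ⟨r, R, p, e, hR, hR', h1, hp, hm, h2, h⟩ | ⟨k, t, e, P, c, G₀, h1, h2, h3, hW, h⟩) | h
  · exact .inl ⟨W, h1, h2, h⟩
  · exact .inr (.inl ⟨W, h1, h2, by simpa using h3, h⟩)
  · obtain ⟨h3, h4⟩ := H26.dec_numerics hD.decomp
    have h5 : k < 4 := by nlinarith
    have h6 : (k = 1 ∧ t = 4) ∨ (k = 2 ∧ t = 2) := by interval_cases k <;> omega
    rcases h6 with ⟨rfl, rfl⟩ | ⟨rfl, rfl⟩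
    · refine .inr (.inr (.inl ⟨?_, D, hD, h⟩))
      rintro rfl
      rw [hI] at h hH
      exact H26.not_max_of_between (h ▸ H26.nm_su4_frame hF hσ hG hne hD) hH
    · exact .inr (.inr (.inr (.inl ⟨hq (h1 rfl), D, hD, h⟩)))
  · obtain rfl : k = 2 := by have := (H26.dec_numerics hD).1; omega
    refine .inr (.inr (.inr (.inr (.inl ⟨?_, D, hD, h1, h⟩))))
    by_contra h2
    rw [hI] at h hH
    exact H26.not_max_of_between (h ▸ H26.nm_su4_pair (by omega) hσ hG hne hD h1) hH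
  · have h2 := H26.fld_numerics hK
    have h3 := Nat.le_of_dvd (by norm_num) h2
    rw [Nat.odd_iff] at ho
    interval_cases r <;> first | omega | exact absurd hr (by norm_num)
  · have h5 := H26.ten_numerics e
    have h6 : a < 4 := by nlinarith
    interval_cases a <;> omega
  · exact .inr (.inr (.inr (.inr (.inr (.inl ⟨F₀, r, P, hr, ho, hc, h1, h⟩)))))
  · exact .inr (.inr (.inr (.inr (.inr (.inr (.inr (.inl ⟨(Nat.odd_pow_iff two_ne_zero).1 (hF ▸ ho), F₀, P, hc, h1, h⟩)))))))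
  · exact .inr (.inr (.inr (.inr (.inr (.inr (.inl ⟨F₀, P, ζ, hc, h0, by rw [← h1, ← hσ], h2, h3, h⟩))))))
  · obtain rfl := hR.eq_of_card (s := 2) (j := 2) (by norm_num) (by simp)
    have h3 : Nat.card (Subgroup.center R) = 4 := by
      rcases h2 with ⟨h4, h5⟩ | ⟨h4, -, h5⟩ <;> first | exact h5 | exact absurd h4 (by decide)
    have h4 := hR.card_eq (k := 2) (by simp)
    rw [h3] at h4
    have hm' := hm
    rw [h3] at hm'
    obtain ⟨d, h5, h6, h7, h8⟩ := H26.uni_numerics (by norm_num) hF hm'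
    have h9 := (by decide : ∀ d < 4 / 2 + 1, ∀ x < 4, (0 < d ∧ x ^ (2 * d) % 4 = 1 ∧
      ∀ j < 2 * d, 0 < j → x ^ j % 4 ≠ 1) → (d = 1 ∧ (x = 3))) d h6 _ h7 h8
    obtain ⟨rfl, h9⟩ := h9
    exact .inr (.inr (.inr (.inr (.inr (.inr (.inr (.inr (.inl ⟨p, R, hm.1, by simpa using h5, h9,
      hR.sympl, H26.absIrr_of_spanAlg_eq_top hR.span, h1.trans (H26.isom_le_similarityGroup _ _), h4, h3, h⟩))))))))
  · obtain ⟨rfl, rfl, h4⟩ := H26.wr_numerics e h1 h2 (by norm_num)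
    omega
  · exact .inr (.inr (.inr (.inr (.inr (.inr (.inr (.inr (.inr (h)))))))))

end Cfsg.Agent.S5784
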