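import Cfsg.Statements.S5787
import Cfsg.Agent.H26.Ex3
import Cfsg.Agent.H26.Ex4
import Cfsg.Agent.H26.SpNum
-- import your own Cfsg.Agent.* helpers here

set_option autoImplicit false
open Cfsg

namespace Cfsg.Agent.S5787

/-- Every maximal subgroup of Sp_4(q), q odd, is of one of the listed geometric types or lies in the residual class. Let F be a finite field of odd order q, f the standard alternating form on F^4 (coordinates Fin 2 ⊕ Fin 2), and H a maximal subgroup of the isometry group Sp_4(F) (inside GL_4(F)). Then H is the intersection with Sp_4(F) of one of: the stabiliser of a non-zero totally isotropic subspace; the stabiliser of a decomposition into two orthogonal non-degenerate 2-spaces; for q ≥ 5, of a decomposition into two totally isotropic 2-spaces; the normaliser of a degree-2 subfield K of the matrix algebra, self-adjoint with f(k v, v) = 0; for q ≥ 5, the normaliser of a degree-2 subfield closed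 under adjoints but not self-adjoint; a subfield group whose F₀-structure carries a non-zero multiple of f, |F| = |F₀|^r with r prime; for q = p prime, the normaliser of an absolutely irreducible symplectic-type 2-group of exponent 4, order 32, centre of order 2 and minus type inside the similarity group of f — or else H lies in the residual class of the symplectic case. -/
theorem result {F : Type*} [Field F] [Fintype F] (hodd : Odd (Fintype.card F)) (H : Subgroup (Matrix.GeneralLinearGroup (Fin 2 ⊕ Fin 2) F)) (hH : Cfsg.Geo.IsMaximalIn (Cfsg.spGL 2 F) H) :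
    (∃ W : Submodule F (Fin 2 ⊕ Fin 2 → F), W ≠ ⊥ ∧ Cfsg.Geo.IsTotallySingularFor (Cfsg.sympForm 2 F) W ∧ H = Cfsg.Geo.subspaceStabilizer W ⊓ Cfsg.spGL 2 F) ∨
    (∃ D : Fin 2 → Submodule F (Fin 2 ⊕ Fin 2 → F), Cfsg.Geo.IsNondegenerateMDecomposition (Cfsg.sympForm 2 F) 2 D ∧ H = Cfsg.Geo.decompositionStabilizer D ⊓ Cfsg.spGL 2 F) ∨
    (5 ≤ Fintype.card F ∧ ∃ D : Fin 2 → Submodule F (Fin 2 ⊕ Fin 2 → F), Cfsg.Geo.IsMDecomposition 2 D ∧ (∀ i, Cfsg.Geo.IsTotallySingularFor (Cfsg.sympForm 2 F) (D i)) ∧ H = Cfsg.Geo.decompositionStabilizer D ⊓ Cfsg.spGL 2 F) ∨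
    (∃ K : Subalgebra F (Matrix (Fin 2 ⊕ Fin 2) (Fin 2 ⊕ Fin 2) F), Cfsg.Geo.IsFieldSubalgebra 2 K ∧ Cfsg.Geo.IsSelfAdjointFor (Cfsg.sympForm 2 F) K ∧ (∀ k ∈ K, ∀ v : (Fin 2 ⊕ Fin 2 → F), (Cfsg.sympForm 2 F) (Matrix.mulVec k v) v = 0) ∧ H = Cfsg.Geo.subalgebraNormalizer K ⊓ Cfsg.spGL 2 F) ∨
    (5 ≤ Fintype.card F ∧ ∃ K : Subalgebra F (Matrix (Fin 2 ⊕ Fin 2) (Fin 2 ⊕ Fin 2) F), Cfsg.Geo.IsFieldSubalgebra 2 K ∧ Cfsg.Geo.IsAdjointClosedFor (Cfsg.sympForm 2 F) K ∧ ¬ Cfsg.Geo.IsSelfAdjointFor (Cfsg.sympForm 2 F) K ∧ H = Cfsg.Geo.subalgebraNormalizer K ⊓ Cfsg.spGL 2 F) ∨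
    (∃ (F₀ : Subfield F) (r : ℕ) (P : Matrix.GeneralLinearGroup (Fin 2 ⊕ Fin 2) F) (ζ : F), r.Prime ∧ Fintype.card F = Nat.card F₀ ^ r ∧ ζ ≠ 0 ∧ Cfsg.Geo.IsFormRationalStructure (Cfsg.sympForm 2 F) F₀ ζ P ∧ H = Cfsg.Geo.subfieldSubgroup F₀ P ⊓ Cfsg.spGL 2 F) ∨
    (∃ (p : ℕ) (R : Subgroup (Matrix.GeneralLinearGroup (Fin 2 ⊕ Fin 2) F)), p.Prime ∧ Fintype.card F = p ∧ Cfsg.Geo.IsSymplecticTypeGroup 2 R ∧ Cfsg.Geo.ActsAbsolutelyIrreducibly (Cfsg.Geo.matrixSet R) ∧ R ≤ Cfsg.Geo.similarityGroup (Cfsg.sympForm 2 F) ∧ Nat.card R = 32 ∧ Nat.card (Subgroup.center R) = 2 ∧ Cfsg.Geo.IsOfMinusType 2 R ∧ H = Cfsg.Geo.subgroupNormalizer R ⊓ Cfsg.spGL 2 F) ∨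
    Cfsg.Geo.InSymplecticResidualClass H := by
  have h0 : Fintype.card F ≠ 3 → 5 ≤ Fintype.card F := fun h => by
    have : 1 < Fintype.card F := Fintype.one_lt_card
    obtain ⟨k, hk⟩ := hodd
    omega
  rcases H26.sp_max (by norm_num) (by norm_num) hH with (⟨W, h1, h2, h⟩ | ⟨W, h1, h2, h3, h⟩ |
    ⟨t, k, D, hD, hk, h1, h⟩ | ⟨k, D, hq, hD, h1, h⟩ | ⟨r, K, hr, hK, h1, h2, h⟩ |
    ⟨K, hq, hK, h1, h2, h⟩ | ⟨a, b, e, P, G₁, G₂, hq, h1, h2, h3, h4, h5, h⟩ |
    ⟨F₀, r, P, ζ, hr, hc, h1, h2, h⟩ | ⟨R, k, hR, hR', h1, hp, hq, hk, h⟩ |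
    ⟨k, t, e, P, c, G₀, hq, h1, h2, h3, h4, h5, hW, h⟩ | ⟨Q, hq, hQ, h⟩) | h
  · exact .inl ⟨W, h1, h2, h⟩
  · obtain ⟨s, hs⟩ := (H26.alt_J 2).even_finrank (H26.isUnit_J 2) h2
    have := Submodule.finrank_eq_zero.not.2 h1
    simp at h3; omega
  · have h3 := hD.decomp.h26_card
    have h4 := hD.decomp.two_le
    rw [Nat.even_iff] at hk
    simp only [Fintype.card_sum, Fintype.card_fin] at h3
    have h5 : k < 4 := by nlinarith
    have h6 : (k = 2 ∧ t = 2) := by interval_cases k <;> omega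
    rcases h6 with ⟨rfl, rfl⟩
    · exact .inr (.inl ⟨D, hD, h⟩)
  · obtain rfl : k = 2 := by have := hD.h26_card; simp at this; omega
    exact .inr (.inr (.inl ⟨h0 fun h3 => H26.not_max_of_between
      (h ▸ H26.nm_sp4_pair h3 (H26.alt_J 2) (H26.isUnit_J 2) hD h1) hH, D, hD, h1, h⟩))
  · have h3 := H26.sp_field_dvd (H26.hf_alt (H26.alt_J 2) (H26.isUnit_J 2)) hK h1 h2
    simp only [Fintype.card_sum, Fintype.card_fin] at h3
    have h4 := Nat.le_of_dvd (by norm_num) h3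
    have h5 : r ≤ 2 := by omega
    have h6 : r = 2 := by
      interval_cases r <;> first | omega | exact absurd hr (by norm_num)
    rcases h6 with rfl
    · exact .inr (.inr (.inr (.inl ⟨K, hK, h1, h2, h⟩)))
  · exact .inr (.inr (.inr (.inr (.inl ⟨h0 fun h3 => H26.not_max_of_between
      (h ▸ H26.nm_sp4_ufld h3 (by simp) (H26.alt_J 2) (H26.isUnit_J 2) hK h1 h2) hH,
      K, hK, h1, h2, h⟩))))
  · have h6 : 4 = a * b := by simpa using Fintype.card_congr e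
    have h7 := h4.even_card' h5.hf₁.unit
    rw [Fintype.card_fin, Nat.even_iff] at h7
    have h8 : a < 5 := by nlinarith
    interval_cases a <;> omega
  · exact .inr (.inr (.inr (.inr (.inr (.inl ⟨F₀, r, P, ζ, hr, hc, h1, h2, h⟩)))))
  · obtain rfl : k = 2 := Nat.pow_right_injective le_rfl (by simpa using hk.symm)
    have h2 := (hR.two_of_isom (H26.isUnit_J 2) h1).2
    have h3 := hR.card_eq hk
    rw [h2] at h3
    exact .inr (.inr (.inr (.inr (.inr (.inr (.inl ⟨_, R, hp, rfl, hR.sympl,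
      H26.absIrr_of_spanAlg_eq_top hR.span, h1.trans (H26.isom_le_similarityGroup _ _), h3, h2,
      hR.isOfMinusType (H26.alt_J 2) (H26.isUnit_J 2) h1 hk, h⟩))))))
  · have h6 : 4 = k ^ t := by simpa using Fintype.card_congr e
    have h7 : k ^ 3 ≤ k ^ t := Nat.pow_le_pow_right (by omega) h2
    have := Nat.pow_le_pow_left h3 3
    omega
  · exact absurd hodd hq
  · exact .inr (.inr (.inr (.inr (.inr (.inr (.inr (h)))))))

end Cfsg.Agent.S5787
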