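import Cfsg.Statements.S5790
import Mathlib
import Cfsg.Agent.H26.SpNum

set_option autoImplicit false
open Cfsg

namespace Cfsg.Agent.S5790

/-- Every maximal subgroup of Sp_4(q), q ≥ 4 even, is of one of the listed geometric types or lies in the residual class. Let F be a finite field of even order q ≥ 4, f the standard alternating form on F^4 (coordinates Fin 2 ⊕ Fin 2), and H a maximal subgroup of Sp_4(F) (inside GL_4(F)). Then H is the intersection with Sp_4(F) of one of: the stabiliser of a non-zero totally isotropic subspace; the stabiliser of a decomposition into two orthogonal non-degenerate 2-spaces; the normaliser of a degree-2 subfield K of the matrix algebra, self-adjoint with f(k v, v) = 0; a subfield group whose F₀-structure carries a non-zero multiple of f, |F| = |F₀|^r with r prime; the similarity group of a non-degenerate quadratic form whose polar form is f — or else H lies in the residual class of the symplectic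 case. -/
theorem result {F : Type*} [Field F] [Fintype F] (heven : ¬ Odd (Fintype.card F)) (h4 : 4 ≤ Fintype.card F) (H : Subgroup (Matrix.GeneralLinearGroup (Fin 2 ⊕ Fin 2) F)) (hH : Cfsg.Geo.IsMaximalIn (Cfsg.spGL 2 F) H) :
    (∃ W : Submodule F (Fin 2 ⊕ Fin 2 → F), W ≠ ⊥ ∧ Cfsg.Geo.IsTotallySingularFor (Cfsg.sympForm 2 F) W ∧ H = Cfsg.Geo.subspaceStabilizer W ⊓ Cfsg.spGL 2 F) ∨
    (∃ D : Fin 2 → Submodule F (Fin 2 ⊕ Fin 2 → F), Cfsg.Geo.IsNondegenerateMDecomposition (Cfsg.sympForm 2 F) 2 D ∧ H = Cfsg.Geo.decompositionStabilizer D ⊓ Cfsg.spGL 2 F) ∨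
    (∃ K : Subalgebra F (Matrix (Fin 2 ⊕ Fin 2) (Fin 2 ⊕ Fin 2) F), Cfsg.Geo.IsFieldSubalgebra 2 K ∧ Cfsg.Geo.IsSelfAdjointFor (Cfsg.sympForm 2 F) K ∧ (∀ k ∈ K, ∀ v : (Fin 2 ⊕ Fin 2 → F), (Cfsg.sympForm 2 F) (Matrix.mulVec k v) v = 0) ∧ H = Cfsg.Geo.subalgebraNormalizer K ⊓ Cfsg.spGL 2 F) ∨
    (∃ (F₀ : Subfield F) (r : ℕ) (P : Matrix.GeneralLinearGroup (Fin 2 ⊕ Fin 2) F) (ζ : F), r.Prime ∧ Fintype.card F = Nat.card F₀ ^ r ∧ ζ ≠ 0 ∧ Cfsg.Geo.IsFormRationalStructure (Cfsg.sympForm 2 F) F₀ ζ P ∧ H = Cfsg.Geo.subfieldSubgroup F₀ P ⊓ Cfsg.spGL 2 F) ∨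
    (∃ Q : (Fin 2 ⊕ Fin 2 → F) → F, Cfsg.Geo.IsNondegenerateQuadraticForm Q ∧ (∀ u v : (Fin 2 ⊕ Fin 2 → F), QuadraticMap.polar Q u v = (Cfsg.sympForm 2 F) u v) ∧ H = Cfsg.Geo.quadSimilarityGroup Q ⊓ Cfsg.spGL 2 F) ∨
    Cfsg.Geo.InSymplecticResidualClass H := by
  rcases H26.sp_max (by norm_num) (by norm_num) hH with (⟨W, h1, h2, h⟩ | ⟨W, h1, h2, h3, h⟩ |
    ⟨t, k, D, hD, hk, h1, h⟩ | ⟨k, D, hq, hD, h1, h⟩ | ⟨r, K, hr, hK, h1, h2, h⟩ |
    ⟨K, hq, hK, h1, h2, h⟩ | ⟨a, b, e, P, G₁, G₂, hq, h1, h2, h3, h4, h5, h⟩ |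
    ⟨F₀, r, P, ζ, hr, hc, h1, h2, h⟩ | ⟨R, k, hR, hR', h1, hp, hq, hk, h⟩ |
    ⟨k, t, e, P, c, G₀, hq, h1, h2, h3, h4, h5, hW, h⟩ | ⟨Q, hq, hQ, h⟩) | h
  · exact .inl ⟨W, h1, h2, h⟩
  · obtain ⟨s, hs⟩ := (H26.alt_J 2).even_finrank (H26.isUnit_J 2) h2
    have := Submodule.finrank_eq_zero.not.2 h1
    simp at h3; omega
  · have h3 := hD.decomp.h26_card
    have h4 := hD.decomp.two_le
    rw [Nat.even_iff] at hk
    simp only [Fintype.card_sum, Fintype.card_fin] at h3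
    have h5 : k < 4 := by nlinarith
    have h6 : (k = 2 ∧ t = 2) := by interval_cases k <;> omega
    rcases h6 with ⟨rfl, rfl⟩
    · exact .inr (.inl ⟨D, hD, h⟩)
  · exact absurd hq heven
  · have h3 := H26.sp_field_dvd (H26.hf_alt (H26.alt_J 2) (H26.isUnit_J 2)) hK h1 h2
    simp only [Fintype.card_sum, Fintype.card_fin] at h3
    have h4 := Nat.le_of_dvd (by norm_num) h3
    have h5 : r ≤ 2 := by omega
    have h6 : r = 2 := by
      interval_cases r <;> first | omega | exact absurd hr (by norm_num)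
    rcases h6 with rfl
    · exact .inr (.inr (.inl ⟨K, hK, h1, h2, h⟩))
  · exact absurd hq heven
  · have h6 : 4 = a * b := by simpa using Fintype.card_congr e
    have h7 := h4.even_card' h5.hf₁.unit
    rw [Fintype.card_fin, Nat.even_iff] at h7
    have h8 : a < 5 := by nlinarith
    interval_cases a <;> omega
  · exact .inr (.inr (.inr (.inl ⟨F₀, r, P, ζ, hr, hc, h1, h2, h⟩)))
  · exact absurd hq heven
  · have h6 : 4 = k ^ t := by simpa using Fintype.card_congr e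
    have h7 : k ^ 3 ≤ k ^ t := Nat.pow_le_pow_right (by omega) h2
    obtain rfl : k = 2 := by
      by_contra h8
      have := Nat.pow_le_pow_left (show 3 ≤ k by omega) 3
      omega
    have h8 : t < 4 := (Nat.pow_lt_pow_iff_right (a := 2) (by norm_num)).1 (by omega)
    obtain rfl : t = 3 := by omega
    omega
  · exact .inr (.inr (.inr (.inr (.inl ⟨Q, hQ.nondeg, fun u v => congrFun₂ hQ.polar u v, h⟩))))
  · exact .inr (.inr (.inr (.inr (.inr (h)))))

end Cfsg.Agent.S5790
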