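import Cfsg.Statements.S5796
import Cfsg.Agent.H26.Ex9
import Cfsg.Agent.H26.SUNum
-- import your own Cfsg.Agent.* helpers here

set_option autoImplicit false
set_option synthInstance.maxSize 1024
open Cfsg

namespace Cfsg.Agent.S5796

/-- Every maximal subgroup of SU_5(q) is of one of the listed geometric types or lies in the residual class. Let F be the field with q² elements (characteristic p), f the standard unitary form Σ u_i v_i^q on F^5, and H a maximal subgroup of SU_5(q) (inside GL_5(F)). Then H is the intersection with SU_5(q) of one of: the stabiliser of a non-zero totally isotropic subspace; the stabiliser of a non-degenerate 1-space or 2-space; the stabiliser of a decomposition into five mutually orthogonal non-degenerate 1-spaces; for q ≥ 3, the normaliser of an adjoint-closed degree-5 subfield of the matrix algebra; a subfield group of odd prime index whose F₀-structure carries f; for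 q odd, a subfield group of index 2 whose F₀-structure carries f; for q = p ≡ 4 mod 5 or q = p² with p ≡ 2, 3 mod 5, the normaliser of an absolutely irreducible 5-group of exponent 5, order 125 and centre of order 5 with all characteristic abelian subgroups cyclic inside the similarity group of f — or else H lies in the residual class of the unitary case. -/
theorem result {F : Type*} [Field F] [Fintype F] (q : ℕ) (hF : Fintype.card F = q ^ 2) (H : Subgroup (Matrix.GeneralLinearGroup (Fin 5) F)) (hH : Cfsg.Geo.IsMaximalIn (Cfsg.GU 5 F q ⊓ Cfsg.Geo.specialLinear (Fin 5) F) H) :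
    (∃ W : Submodule F (Fin 5 → F), W ≠ ⊥ ∧ Cfsg.Geo.IsTotallySingularFor (Cfsg.hermForm 5 F q) W ∧ H = Cfsg.Geo.subspaceStabilizer W ⊓ (Cfsg.GU 5 F q ⊓ Cfsg.Geo.specialLinear (Fin 5) F)) ∨
    (∃ W : Submodule F (Fin 5 → F), W ≠ ⊥ ∧ Cfsg.Geo.IsNondegenerateOn (Cfsg.hermForm 5 F q) W ∧ 2 * Module.finrank F W < 5 ∧ H = Cfsg.Geo.subspaceStabilizer W ⊓ (Cfsg.GU 5 F q ⊓ Cfsg.Geo.specialLinear (Fin 5) F)) ∨
    (∃ D : Fin 5 → Submodule F (Fin 5 → F), Cfsg.Geo.IsNondegenerateMDecomposition (Cfsg.hermForm 5 F q) 1 D ∧ H = Cfsg.Geo.decompositionStabilizer D ⊓ (Cfsg.GU 5 F q ⊓ Cfsg.Geo.specialLinear (Fin 5) F)) ∨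
    (3 ≤ q ∧ ∃ K : Subalgebra F (Matrix (Fin 5) (Fin 5) F), Cfsg.Geo.IsFieldSubalgebra 5 K ∧ Cfsg.Geo.IsAdjointClosedFor (Cfsg.hermForm 5 F q) K ∧ H = Cfsg.Geo.subalgebraNormalizer K ⊓ (Cfsg.GU 5 F q ⊓ Cfsg.Geo.specialLinear (Fin 5) F)) ∨
    (∃ (F₀ : Subfield F) (r : ℕ) (P : Matrix.GeneralLinearGroup (Fin 5) F), r.Prime ∧ Odd r ∧ Fintype.card F = Nat.card F₀ ^ r ∧ Cfsg.Geo.IsFormRationalStructure (Cfsg.hermForm 5 F q) F₀ 1 P ∧ H = Cfsg.Geo.subfieldSubgroup F₀ P ⊓ (Cfsg.GU 5 F q ⊓ Cfsg.Geo.specialLinear (Fin 5) F)) ∨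
    (Odd q ∧ ∃ (F₀ : Subfield F) (P : Matrix.GeneralLinearGroup (Fin 5) F), Fintype.card F = Nat.card F₀ ^ 2 ∧ Cfsg.Geo.IsFormRationalStructure (Cfsg.hermForm 5 F q) F₀ 1 P ∧ H = Cfsg.Geo.subfieldSubgroup F₀ P ⊓ (Cfsg.GU 5 F q ⊓ Cfsg.Geo.specialLinear (Fin 5) F)) ∨
    (∃ (p : ℕ) (R : Subgroup (Matrix.GeneralLinearGroup (Fin 5) F)), p.Prime ∧ CharP F p ∧ ((q = p ∧ p % 5 = 4) ∨ (q = p ^ 2 ∧ (p % 5 = 2 ∨ p % 5 = 3))) ∧ Cfsg.Geo.IsSymplecticTypeGroup 5 R ∧ Cfsg.Geo.ActsAbsolutelyIrreducibly (Cfsg.Geo.matrixSet R) ∧ R ≤ Cfsg.Geo.similarityGroup (Cfsg.hermForm 5 F q) ∧ Nat.card R = 125 ∧ Nat.card (Subgroup.center R) = 5 ∧ H = Cfsg.Geo.subgroupNormalizer R ⊓ (Cfsg.GU 5 F q ⊓ Cfsg.Geo.specialLinear (Fin 5) F)) ∨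
    Cfsg.Geo.InUnitaryResidualClass H := by
  obtain ⟨σ, hσ, hf, hI, h⟩ := H26.su_max hF (by norm_num) (by norm_num) hH
  obtain ⟨σ', hσ', hne, hG, -⟩ := H26.exists_std_unitary hF 5
  obtain rfl : σ = σ' := RingHom.ext fun x => (congrFun hσ x).symm.trans (congrFun hσ' x)
  have hq : Fintype.card F ≠ 4 → 3 ≤ q := fun h => by
    have : 1 < Fintype.card F := Fintype.one_lt_card
    by_contra h1
    interval_cases q <;> omega
  rw [hf]
  rcases h with (⟨W, h1, h2, h⟩ | ⟨W, h1, h2, h3, h⟩ | ⟨t, k, D, hD, h1, h⟩ | ⟨k, D, hD, h1, h⟩ |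
    ⟨r, K, hr, ho, hK, h1, h⟩ | ⟨a, b, e, P, G₁, G₂, h1, h2, h3, h4, h⟩ |
    ⟨F₀, r, P, hr, ho, hc, h1, h⟩ | ⟨F₀, P, ho, hc, h1, h⟩ | ⟨F₀, P, ζ, he, hc, h0, h1, h2, h3, h⟩ |
    ⟨r, R, p, e, hR, hR', h1, hp, hm, h2, h⟩ | ⟨k, t, e, P, c, G₀, h1, h2, h3, hW, h⟩) | h
  · exact .inl ⟨W, h1, h2, h⟩
  · exact .inr (.inl ⟨W, h1, h2, by simpa using h3, h⟩)
  · obtain ⟨h3, h4⟩ := H26.dec_numerics hD.decomp
    have h5 : k < 5 := by nlinarith
    have h6 : (k = 1 ∧ t = 5) := by interval_cases k <;> omega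
    rcases h6 with ⟨rfl, rfl⟩
    · exact .inr (.inr (.inl ⟨D, hD, h⟩))
  · have := (H26.dec_numerics hD).1
    omega
  · have h2 := H26.fld_numerics hK
    have h3 := Nat.le_of_dvd (by norm_num) h2
    rw [Nat.odd_iff] at ho
    obtain rfl : r = 5 := by
      interval_cases r <;> first | omega | exact absurd hr (by norm_num)
    refine .inr (.inr (.inr (.inl ⟨hq fun h7 => ?_, K, hK, h1, h⟩)))
    obtain rfl : q = 2 := Nat.pow_left_injective two_ne_zero (hF.symm.trans h7)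
    rw [hI] at h hH
    exact H26.not_max_of_between (h ▸ H26.nm_singer52 h7 hσ hG hne (by simp) hK h1) hH
  · have h5 := H26.ten_numerics e
    have h6 : a < 4 := by nlinarith
    interval_cases a <;> omega
  · exact .inr (.inr (.inr (.inr (.inl ⟨F₀, r, P, hr, ho, hc, h1, h⟩))))
  · exact .inr (.inr (.inr (.inr (.inr (.inl ⟨(Nat.odd_pow_iff two_ne_zero).1 (hF ▸ ho), F₀, P, hc, h1, h⟩)))))
  · exact absurd he (by decide)
  · obtain rfl := hR.eq_of_card (s := 5) (j := 1) (by norm_num) (by simp)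
    have h3 : Nat.card (Subgroup.center R) = 5 := by
      rcases h2 with ⟨h4, h5⟩ | ⟨h4, -, h5⟩ <;> first | exact h5 | exact absurd h4 (by decide)
    have h4 := hR.card_eq (k := 1) (by simp)
    rw [h3] at h4
    have hm' := hm
    rw [h3] at hm'
    obtain ⟨d, h5, h6, h7, h8⟩ := H26.uni_numerics (by norm_num) hF hm'
    have h9 := (by decide : ∀ d < 5 / 2 + 1, ∀ x < 5, (0 < d ∧ x ^ (2 * d) % 5 = 1 ∧
      ∀ j < 2 * d, 0 < j → x ^ j % 5 ≠ 1) → (d = 1 ∧ (x = 4)) ∨ (d = 2 ∧ (x = 2 ∨ x = 3))) d h6 _ h7 h8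
    refine .inr (.inr (.inr (.inr (.inr (.inr (.inl ⟨p, R, hm.1, hm.2.1, ?_,
      hR.sympl, H26.absIrr_of_spanAlg_eq_top hR.span, h1.trans (H26.isom_le_similarityGroup _ _), h4, h3, h⟩))))))
    rcases h9 with ⟨rfl, h9⟩ | ⟨rfl, h9⟩
    · exact .inl ⟨by simpa using h5, h9⟩
    · exact .inr ⟨h5, h9⟩
  · obtain ⟨rfl, rfl, h4⟩ := H26.wr_numerics e h1 h2 (by norm_num)
    omega
  · exact .inr (.inr (.inr (.inr (.inr (.inr (.inr (h)))))))

end Cfsg.Agent.S5796
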