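import Cfsg.Statements.S5802
import Cfsg.Agent.H26.Ex2
import Cfsg.Agent.H26.Ex6
import Cfsg.Agent.H26.SUNum
-- import your own Cfsg.Agent.* helpers here

set_option autoImplicit false
open Cfsg

namespace Cfsg.Agent.S5802

/-- Every maximal subgroup of SU_6(q) is of one of the listed geometric types or lies in the residual class. Let F be the field with q² elements, f the standard unitary form Σ u_i v_i^q on F^6, and H a maximal subgroup of SU_6(q) (inside GL_6(F)). Then H is the intersection with SU_6(q) of one of: the stabiliser of a non-zero totally isotropic subspace; the stabiliser of a non-degenerate 1- or 2-space; for q ≥ 3, the stabiliser of a decomposition into six mutually orthogonal non-degenerate 1-spaces; for q ≥ 3, of a decomposition into three mutually orthogonal non-degenerate 2-spaces; of a decomposition into two orthogonal non-degenerate 3-spaces; of a decomposition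 into two totally isotropic 3-spaces; for q ≥ 3, the normaliser of an adjoint-closed degree-3 subfield of the matrix algebra; for q ≥ 3, the stabiliser of a tensor decomposition of f into unitary forms on F^2 and F^3; a subfield group of odd prime index whose F₀-structure carries f; a subfield group of index 2 and symplectic type; for q odd, a subfield group of index 2 and orthogonal type — or else H lies in the residual class of the unitary case. -/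
theorem result {F : Type*} [Field F] [Fintype F] (q : ℕ) (hF : Fintype.card F = q ^ 2) (H : Subgroup (Matrix.GeneralLinearGroup (Fin 6) F)) (hH : Cfsg.Geo.IsMaximalIn (Cfsg.GU 6 F q ⊓ Cfsg.Geo.specialLinear (Fin 6) F) H) :
    (∃ W : Submodule F (Fin 6 → F), W ≠ ⊥ ∧ Cfsg.Geo.IsTotallySingularFor (Cfsg.hermForm 6 F q) W ∧ H = Cfsg.Geo.subspaceStabilizer W ⊓ (Cfsg.GU 6 F q ⊓ Cfsg.Geo.specialLinear (Fin 6) F)) ∨
    (∃ W : Submodule F (Fin 6 → F), W ≠ ⊥ ∧ Cfsg.Geo.IsNondegenerateOn (Cfsg.hermForm 6 F q) W ∧ 2 * Module.finrank F W < 6 ∧ H = Cfsg.Geo.subspaceStabilizer W ⊓ (Cfsg.GU 6 F q ⊓ Cfsg.Geo.specialLinear (Fin 6) F)) ∨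
    (3 ≤ q ∧ ∃ D : Fin 6 → Submodule F (Fin 6 → F), Cfsg.Geo.IsNondegenerateMDecomposition (Cfsg.hermForm 6 F q) 1 D ∧ H = Cfsg.Geo.decompositionStabilizer D ⊓ (Cfsg.GU 6 F q ⊓ Cfsg.Geo.specialLinear (Fin 6) F)) ∨
    (3 ≤ q ∧ ∃ D : Fin 3 → Submodule F (Fin 6 → F), Cfsg.Geo.IsNondegenerateMDecomposition (Cfsg.hermForm 6 F q) 2 D ∧ H = Cfsg.Geo.decompositionStabilizer D ⊓ (Cfsg.GU 6 F q ⊓ Cfsg.Geo.specialLinear (Fin 6) F)) ∨
    (∃ D : Fin 2 → Submodule F (Fin 6 → F), Cfsg.Geo.IsNondegenerateMDecomposition (Cfsg.hermForm 6 F q) 3 D ∧ H = Cfsg.Geo.decompositionStabilizer D ⊓ (Cfsg.GU 6 F q ⊓ Cfsg.Geo.specialLinear (Fin 6) F)) ∨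
    (∃ D : Fin 2 → Submodule F (Fin 6 → F), Cfsg.Geo.IsMDecomposition 3 D ∧ (∀ i, Cfsg.Geo.IsTotallySingularFor (Cfsg.hermForm 6 F q) (D i)) ∧ H = Cfsg.Geo.decompositionStabilizer D ⊓ (Cfsg.GU 6 F q ⊓ Cfsg.Geo.specialLinear (Fin 6) F)) ∨
    (3 ≤ q ∧ ∃ K : Subalgebra F (Matrix (Fin 6) (Fin 6) F), Cfsg.Geo.IsFieldSubalgebra 3 K ∧ Cfsg.Geo.IsAdjointClosedFor (Cfsg.hermForm 6 F q) K ∧ H = Cfsg.Geo.subalgebraNormalizer K ⊓ (Cfsg.GU 6 F q ⊓ Cfsg.Geo.specialLinear (Fin 6) F)) ∨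
    (3 ≤ q ∧ ∃ (e : Fin 6 ≃ Fin 2 × Fin 3) (P : Matrix.GeneralLinearGroup (Fin 6) F) (f₁ : (Fin 2 → F) → (Fin 2 → F) → F) (f₂ : (Fin 3 → F) → (Fin 3 → F) → F), Cfsg.Geo.IsUnitaryFormPow q f₁ ∧ Cfsg.Geo.IsUnitaryFormPow q f₂ ∧ Cfsg.Geo.IsTensorFormStructure (fun x : F => x ^ q) (Cfsg.hermForm 6 F q) f₁ f₂ e P ∧ H = Cfsg.Geo.tensorProductSubgroup 2 3 e P ⊓ (Cfsg.GU 6 F q ⊓ Cfsg.Geo.specialLinear (Fin 6) F)) ∨
    (∃ (F₀ : Subfield F) (r : ℕ) (P : Matrix.GeneralLinearGroup (Fin 6) F), r.Prime ∧ Odd r ∧ Fintype.card F = Nat.card F₀ ^ r ∧ Cfsg.Geo.IsFormRationalStructure (Cfsg.hermForm 6 F q) F₀ 1 P ∧ H = Cfsg.Geo.subfieldSubgroup F₀ P ⊓ (Cfsg.GU 6 F q ⊓ Cfsg.Geo.specialLinear (Fin 6) F)) ∨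
    (∃ (F₀ : Subfield F) (P : Matrix.GeneralLinearGroup (Fin 6) F) (ζ : F), Fintype.card F = Nat.card F₀ ^ 2 ∧ ζ ≠ 0 ∧ ζ + ζ ^ q = 0 ∧ Cfsg.Geo.IsFormRationalStructure (Cfsg.hermForm 6 F q) F₀ ζ P ∧ (∀ u : Fin 6 → F, (∀ i, u i ∈ F₀) → (Cfsg.hermForm 6 F q) (Matrix.mulVec (P : Matrix (Fin 6) (Fin 6) F) u) (Matrix.mulVec (P : Matrix (Fin 6) (Fin 6) F) u) = 0) ∧ H = Cfsg.Geo.subfieldSubgroup F₀ P ⊓ (Cfsg.GU 6 F q ⊓ Cfsg.Geo.specialLinear (Fin 6) F)) ∨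
    (Odd q ∧ ∃ (F₀ : Subfield F) (P : Matrix.GeneralLinearGroup (Fin 6) F), Fintype.card F = Nat.card F₀ ^ 2 ∧ Cfsg.Geo.IsFormRationalStructure (Cfsg.hermForm 6 F q) F₀ 1 P ∧ H = Cfsg.Geo.subfieldSubgroup F₀ P ⊓ (Cfsg.GU 6 F q ⊓ Cfsg.Geo.specialLinear (Fin 6) F)) ∨
    Cfsg.Geo.InUnitaryResidualClass H := by
  obtain ⟨σ, hσ, hf, hI, h⟩ := H26.su_max hF (by norm_num) (by norm_num) hH
  obtain ⟨σ', hσ', hne, hG, -⟩ := H26.exists_std_unitary hF 6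
  obtain rfl : σ = σ' := RingHom.ext fun x => (congrFun hσ x).symm.trans (congrFun hσ' x)
  have hq : Fintype.card F ≠ 4 → 3 ≤ q := fun h => by
    have : 1 < Fintype.card F := Fintype.one_lt_card
    by_contra h1
    interval_cases q <;> omega
  rw [hf]
  rcases h with (⟨W, h1, h2, h⟩ | ⟨W, h1, h2, h3, h⟩ | ⟨t, k, D, hD, h1, h⟩ | ⟨k, D, hD, h1, h⟩ |
    ⟨r, K, hr, ho, hK, h1, h⟩ | ⟨a, b, e, P, G₁, G₂, h1, h2, h3, h4, h⟩ |
    ⟨F₀, r, P, hr, ho, hc, h1, h⟩ | ⟨F₀, P, ho, hc, h1, h⟩ | ⟨F₀, P, ζ, he, hc, h0, h1, h2, h3, h⟩ |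
    ⟨r, R, p, e, hR, hR', h1, hp, hm, h2, h⟩ | ⟨k, t, e, P, c, G₀, h1, h2, h3, hW, h⟩) | h
  · exact .inl ⟨W, h1, h2, h⟩
  · exact .inr (.inl ⟨W, h1, h2, by simpa using h3, h⟩)
  · obtain ⟨h3, h4⟩ := H26.dec_numerics hD.decomp
    have h5 : k < 6 := by nlinarith
    have h6 : (k = 1 ∧ t = 6) ∨ (k = 2 ∧ t = 3) ∨ (k = 3 ∧ t = 2) := by interval_cases k <;> omega
    rcases h6 with ⟨rfl, rfl⟩ | ⟨rfl, rfl⟩ | ⟨rfl, rfl⟩
    · refine .inr (.inr (.inl ⟨hq fun h7 => ?_, D, hD, h⟩))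
      obtain rfl : q = 2 := Nat.pow_left_injective two_ne_zero (hF.symm.trans h7)
      rw [hI] at h hH
      exact H26.not_max_of_between (h ▸ H26.nm_su6_frame h7 hσ hG hne hD) hH
    · exact .inr (.inr (.inr (.inl ⟨hq (h1 rfl), D, hD, h⟩)))
    · exact .inr (.inr (.inr (.inr (.inl ⟨D, hD, h⟩))))
  · obtain rfl : k = 3 := by have := (H26.dec_numerics hD).1; omega
    exact .inr (.inr (.inr (.inr (.inr (.inl ⟨D, hD, h1, h⟩)))))
  · have h2 := H26.fld_numerics hK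
    have h3 := Nat.le_of_dvd (by norm_num) h2
    rw [Nat.odd_iff] at ho
    obtain rfl : r = 3 := by
      interval_cases r <;> first | omega | exact absurd hr (by norm_num)
    refine .inr (.inr (.inr (.inr (.inr (.inr (.inl ⟨hq fun h7 => ?_, K, hK, h1, h⟩))))))
    rw [hI] at h hH
    exact H26.not_max_of_between (h ▸ H26.nm_su6_fld h7 hG hne (by simp) hK h1) hH
  · have h5 := H26.ten_numerics e
    have h6 : a < 4 := by nlinarith
    have h7 : (a = 2 ∧ b = 3) := by interval_cases a <;> omega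
    rcases h7 with ⟨rfl, rfl⟩
    · exact .inr (.inr (.inr (.inr (.inr (.inr (.inr (.inl ⟨hq (h3 rfl), e, P, _, _, h4.hf₁.isUnitaryFormPow hσ,
        h4.hf₂.isUnitaryFormPow hσ, hσ ▸ h4.isTensorFormStructure, h⟩)))))))
  · exact .inr (.inr (.inr (.inr (.inr (.inr (.inr (.inr (.inl ⟨F₀, r, P, hr, ho, hc, h1, h⟩))))))))
  · exact .inr (.inr (.inr (.inr (.inr (.inr (.inr (.inr (.inr (.inr (.inl ⟨(Nat.odd_pow_iff two_ne_zero).1 (hF ▸ ho), F₀, P, hc, h1, h⟩))))))))))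
  · exact .inr (.inr (.inr (.inr (.inr (.inr (.inr (.inr (.inr (.inl ⟨F₀, P, ζ, hc, h0, by rw [← h1, ← hσ], h2, h3, h⟩)))))))))
  · exact (hR.not_of_card (s := 2) (s' := 3) (by norm_num) (by norm_num) (by norm_num)
      (by simp) (by simp)).elim
  · obtain ⟨rfl, rfl, h4⟩ := H26.wr_numerics e h1 h2 (by norm_num)
    omega
  · exact .inr (.inr (.inr (.inr (.inr (.inr (.inr (.inr (.inr (.inr (.inr (h)))))))))))

end Cfsg.Agent.S5802
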