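import Cfsg.Statements.S5805
import Mathlib
import Cfsg.Agent.H26.SpNum

set_option autoImplicit false
open Cfsg

namespace Cfsg.Agent.S5805

/-- Every maximal subgroup of Sp_6(q) is of one of the listed geometric types or lies in the residual class. Let F be a finite field with q elements, f the standard alternating form on F^6 (coordinates Fin 3 ⊕ Fin 3), and H a maximal subgroup of Sp_6(F) (inside GL_6(F)). Then H is the intersection with Sp_6(F) of one of: the stabiliser of a non-zero totally isotropic subspace; the stabiliser of a non-degenerate 2-space; for q ≥ 3, the stabiliser of a decomposition into three mutually orthogonal non-degenerate 2-spaces; for q odd, of a decomposition into two totally isotropic 3-spaces; the normaliser of a degree-3 subfield K of the matrix algebra, self-adjoint with f(k v, v) = 0; for q odd, the normaliser of a degree-2 subfield closed under adjoints but not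 self-adjoint; for q odd, q ≥ 5, the stabiliser of a tensor decomposition of f into an alternating form on F^2 and a symmetric form on F^3; a subfield group (|F| = |F₀|^r, r prime) whose F₀-structure carries a non-zero multiple of f; for q even, the similarity group of a non-degenerate quadratic form polarising to f — or else H lies in the residual class of the symplectic case. -/
theorem result {F : Type*} [Field F] [Fintype F] (H : Subgroup (Matrix.GeneralLinearGroup (Fin 3 ⊕ Fin 3) F)) (hH : Cfsg.Geo.IsMaximalIn (Cfsg.spGL 3 F) H) :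
    (∃ W : Submodule F (Fin 3 ⊕ Fin 3 → F), W ≠ ⊥ ∧ Cfsg.Geo.IsTotallySingularFor (Cfsg.sympForm 3 F) W ∧ H = Cfsg.Geo.subspaceStabilizer W ⊓ Cfsg.spGL 3 F) ∨
    (∃ W : Submodule F (Fin 3 ⊕ Fin 3 → F), W ≠ ⊥ ∧ Cfsg.Geo.IsNondegenerateOn (Cfsg.sympForm 3 F) W ∧ Module.finrank F W < 3 ∧ H = Cfsg.Geo.subspaceStabilizer W ⊓ Cfsg.spGL 3 F) ∨
    (3 ≤ Fintype.card F ∧ ∃ D : Fin 3 → Submodule F (Fin 3 ⊕ Fin 3 → F), Cfsg.Geo.IsNondegenerateMDecomposition (Cfsg.sympForm 3 F) 2 D ∧ H = Cfsg.Geo.decompositionStabilizer D ⊓ Cfsg.spGL 3 F) ∨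
    (Odd (Fintype.card F) ∧ ∃ D : Fin 2 → Submodule F (Fin 3 ⊕ Fin 3 → F), Cfsg.Geo.IsMDecomposition 3 D ∧ (∀ i, Cfsg.Geo.IsTotallySingularFor (Cfsg.sympForm 3 F) (D i)) ∧ H = Cfsg.Geo.decompositionStabilizer D ⊓ Cfsg.spGL 3 F) ∨
    (∃ K : Subalgebra F (Matrix (Fin 3 ⊕ Fin 3) (Fin 3 ⊕ Fin 3) F), Cfsg.Geo.IsFieldSubalgebra 3 K ∧ Cfsg.Geo.IsSelfAdjointFor (Cfsg.sympForm 3 F) K ∧ (∀ k ∈ K, ∀ v : (Fin 3 ⊕ Fin 3 → F), (Cfsg.sympForm 3 F) (Matrix.mulVec k v) v = 0) ∧ H = Cfsg.Geo.subalgebraNormalizer K ⊓ Cfsg.spGL 3 F) ∨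
    (Odd (Fintype.card F) ∧ ∃ K : Subalgebra F (Matrix (Fin 3 ⊕ Fin 3) (Fin 3 ⊕ Fin 3) F), Cfsg.Geo.IsFieldSubalgebra 2 K ∧ Cfsg.Geo.IsAdjointClosedFor (Cfsg.sympForm 3 F) K ∧ ¬ Cfsg.Geo.IsSelfAdjointFor (Cfsg.sympForm 3 F) K ∧ H = Cfsg.Geo.subalgebraNormalizer K ⊓ Cfsg.spGL 3 F) ∨
    (Odd (Fintype.card F) ∧ 5 ≤ Fintype.card F ∧ ∃ (e : (Fin 3 ⊕ Fin 3) ≃ Fin 2 × Fin 3) (P : Matrix.GeneralLinearGroup (Fin 3 ⊕ Fin 3) F) (f₁ : (Fin 2 → F) → (Fin 2 → F) → F) (f₂ : (Fin 3 → F) → (Fin 3 → F) → F), Cfsg.Geo.IsSymplecticForm f₁ ∧ Cfsg.Geo.IsSymmetricForm f₂ ∧ Cfsg.Geo.IsTensorFormStructure id (Cfsg.sympForm 3 F) f₁ f₂ e P ∧ H = Cfsg.Geo.tensorProductSubgroup 2 3 e P ⊓ Cfsg.spGL 3 F) ∨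
    (∃ (F₀ : Subfield F) (r : ℕ) (P : Matrix.GeneralLinearGroup (Fin 3 ⊕ Fin 3) F) (ζ : F), r.Prime ∧ Fintype.card F = Nat.card F₀ ^ r ∧ ζ ≠ 0 ∧ Cfsg.Geo.IsFormRationalStructure (Cfsg.sympForm 3 F) F₀ ζ P ∧ H = Cfsg.Geo.subfieldSubgroup F₀ P ⊓ Cfsg.spGL 3 F) ∨
    (¬ Odd (Fintype.card F) ∧ ∃ Q : (Fin 3 ⊕ Fin 3 → F) → F, Cfsg.Geo.IsNondegenerateQuadraticForm Q ∧ (∀ u v : (Fin 3 ⊕ Fin 3 → F), QuadraticMap.polar Q u v = (Cfsg.sympForm 3 F) u v) ∧ H = Cfsg.Geo.quadSimilarityGroup Q ⊓ Cfsg.spGL 3 F) ∨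
    Cfsg.Geo.InSymplecticResidualClass H := by
  rcases H26.sp_max (by norm_num) (by norm_num) hH with (⟨W, h1, h2, h⟩ | ⟨W, h1, h2, h3, h⟩ |
    ⟨t, k, D, hD, hk, h1, h⟩ | ⟨k, D, hq, hD, h1, h⟩ | ⟨r, K, hr, hK, h1, h2, h⟩ |
    ⟨K, hq, hK, h1, h2, h⟩ | ⟨a, b, e, P, G₁, G₂, hq, h1, h2, h3, h4, h5, h⟩ |
    ⟨F₀, r, P, ζ, hr, hc, h1, h2, h⟩ | ⟨R, k, hR, hR', h1, hp, hq, hk, h⟩ |
    ⟨k, t, e, P, c, G₀, hq, h1, h2, h3, h4, h5, hW, h⟩ | ⟨Q, hq, hQ, h⟩) | h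
  · exact .inl ⟨W, h1, h2, h⟩
  · exact .inr (.inl ⟨W, h1, h2, by simp at h3; omega, h⟩)
  · have h3 := hD.decomp.h26_card
    have h4 := hD.decomp.two_le
    rw [Nat.even_iff] at hk
    simp only [Fintype.card_sum, Fintype.card_fin] at h3
    have h5 : k < 6 := by nlinarith
    have h6 : (k = 2 ∧ t = 3) := by interval_cases k <;> omega
    rcases h6 with ⟨rfl, rfl⟩
    · exact .inr (.inr (.inl ⟨h1 rfl, D, hD, h⟩))
  · obtain rfl : k = 3 := by have := hD.h26_card; simp at this; omega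
    exact .inr (.inr (.inr (.inl ⟨hq, D, hD, h1, h⟩)))
  · have h3 := H26.sp_field_dvd (H26.hf_alt (H26.alt_J 3) (H26.isUnit_J 3)) hK h1 h2
    simp only [Fintype.card_sum, Fintype.card_fin] at h3
    have h4 := Nat.le_of_dvd (by norm_num) h3
    have h5 : r ≤ 3 := by omega
    have h6 : r = 3 := by
      interval_cases r <;> first | omega | exact absurd hr (by norm_num)
    rcases h6 with rfl
    · exact .inr (.inr (.inr (.inr (.inl ⟨K, hK, h1, h2, h⟩))))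
  · exact .inr (.inr (.inr (.inr (.inr (.inl ⟨hq, K, hK, h1, h2, h⟩)))))
  · have h6 : 6 = a * b := by simpa using Fintype.card_congr e
    have h7 := h4.even_card' h5.hf₁.unit
    rw [Fintype.card_fin, Nat.even_iff] at h7
    have h8 : a < 5 := by nlinarith
    have h9 : (a = 2 ∧ b = 3) := by interval_cases a <;> omega
    have h10 := H26.isSymplecticForm_fm h4 h5.hf₁.unit
    have h11 := H26.isSymmetricForm_fm (by simpa using h5.hf₂.transpose) h5.hf₂.unit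
    rcases h9 with ⟨rfl, rfl⟩
    · exact .inr (.inr (.inr (.inr (.inr (.inr (.inl ⟨hq, h3 rfl, e, P, _, _, h10, h11, h5.isTensorFormStructure, h⟩))))))
  · exact .inr (.inr (.inr (.inr (.inr (.inr (.inr (.inl ⟨F₀, r, P, ζ, hr, hc, h1, h2, h⟩)))))))
  · exact (hR.not_of_card (s := 2) (s' := 3) (by norm_num) (by norm_num) (by norm_num)
      (by simp) (by simp)).elim
  · have h6 : 6 = k ^ t := by simpa using Fintype.card_congr e
    have h7 : k ^ 3 ≤ k ^ t := Nat.pow_le_pow_right (by omega) h2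
    obtain rfl : k = 2 := by
      by_contra h8
      have := Nat.pow_le_pow_left (show 3 ≤ k by omega) 3
      omega
    have h8 : t < 4 := (Nat.pow_lt_pow_iff_right (a := 2) (by norm_num)).1 (by omega)
    obtain rfl : t = 3 := by omega
    omega
  · exact .inr (.inr (.inr (.inr (.inr (.inr (.inr (.inr (.inl ⟨hq, Q, hQ.nondeg, fun u v => congrFun₂ hQ.polar u v, h⟩))))))))
  · exact .inr (.inr (.inr (.inr (.inr (.inr (.inr (.inr (.inr (h)))))))))

end Cfsg.Agent.S5805
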