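import Cfsg.Statements.S5808
import Mathlib
import Cfsg.Agent.H26.SLMax

set_option autoImplicit false
open Cfsg

namespace Cfsg.Agent.S5808

/-- Every maximal subgroup of SL_7(q) is of one of the listed geometric types or lies in the residual class. Let F be a finite field with q elements (p its characteristic) and H a maximal subgroup of SL_7(F) (inside GL_7(F)). Then H is the intersection with SL_7(F) of one of: the stabiliser of a proper non-zero subspace; for q ≥ 5, the stabiliser of a decomposition into 7 independent 1-spaces; the normaliser of a degree-7 subfield of the matrix algebra; a subfield group for a subfield F₀ with |F| = |F₀|^r, r prime; for q = p prime with p ≡ 1 mod 7, or q = p³ with p ≡ 2 or 4 mod 7, the normaliser of an absolutely irreducible 7-subgroup R of exponent 7 and order 7^(1+2m) with centre of order 7, all of whose characteristic abelian subgroups are cyclic, F being the smallest field of characteristic p containing the seventh roots of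 unity (here R is extraspecial of order 343); for q odd, the similarity group of a non-degenerate quadratic form; the similarity group of a non-degenerate unitary form — or else H lies in the residual class of the linear case (modulo scalars H is almost simple, with absolutely irreducible perfect socle preimage realisable over no proper subfield and fixing no non-degenerate quadratic, symplectic or unitary form). -/
theorem result {F : Type*} [Field F] [Fintype F] (H : Subgroup (Matrix.GeneralLinearGroup (Fin 7) F)) (hH : Cfsg.Geo.IsMaximalIn (Cfsg.Geo.specialLinear (Fin 7) F) H) :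
    (∃ W : Submodule F (Fin 7 → F), W ≠ ⊥ ∧ W ≠ ⊤ ∧ H = Cfsg.Geo.subspaceStabilizer W ⊓ Cfsg.Geo.specialLinear (Fin 7) F) ∨
    (5 ≤ Fintype.card F ∧ ∃ D : Fin 7 → Submodule F (Fin 7 → F), Cfsg.Geo.IsMDecomposition 1 D ∧ H = Cfsg.Geo.decompositionStabilizer D ⊓ Cfsg.Geo.specialLinear (Fin 7) F) ∨
    (∃ K : Subalgebra F (Matrix (Fin 7) (Fin 7) F), Cfsg.Geo.IsFieldSubalgebra 7 K ∧ H = Cfsg.Geo.subalgebraNormalizer K ⊓ Cfsg.Geo.specialLinear (Fin 7) F) ∨
    (∃ (F₀ : Subfield F) (r : ℕ) (P : Matrix.GeneralLinearGroup (Fin 7) F), r.Prime ∧ Fintype.card F = Nat.card F₀ ^ r ∧ H = Cfsg.Geo.subfieldSubgroup F₀ P ⊓ Cfsg.Geo.specialLinear (Fin 7) F) ∨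
    ((∃ p : ℕ, p.Prime ∧ CharP F p ∧ ((Fintype.card F = p ∧ p % 7 = 1) ∨ (Fintype.card F = p ^ 3 ∧ (p % 7 = 2 ∨ p % 7 = 4)))) ∧ ∃ R : Subgroup (Matrix.GeneralLinearGroup (Fin 7) F), Cfsg.Geo.IsLinearSymplecticTypeData 7 R ∧ H = Cfsg.Geo.subgroupNormalizer R ⊓ Cfsg.Geo.specialLinear (Fin 7) F) ∨
    (Odd (Fintype.card F) ∧ ∃ Q : (Fin 7 → F) → F, Cfsg.Geo.IsNondegenerateQuadraticForm Q ∧ H = Cfsg.Geo.quadSimilarityGroup Q ⊓ Cfsg.Geo.specialLinear (Fin 7) F) ∨
    (∃ (σ : F ≃+* F) (f : (Fin 7 → F) → (Fin 7 → F) → F), Cfsg.Geo.IsUnitaryForm σ f ∧ H = Cfsg.Geo.similarityGroup f ⊓ Cfsg.Geo.specialLinear (Fin 7) F) ∨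
    Cfsg.Geo.InLinearResidualClass H := by
  rcases H26.sl_max (by norm_num) (by norm_num) hH with (⟨W, h1, h2, h⟩ | ⟨t, m, D, hD, h1, h2, h⟩ |
    ⟨r, K, hr, hK, h⟩ | ⟨a, b, e, P, h1, h2, h3, h⟩ | ⟨F₀, r, P, hr, hc, h⟩ | ⟨r, R, hR, hd, h⟩ |
    ⟨m, t, e, P, h1, h2, h⟩ | ⟨f, hf, h1, h⟩ | ⟨σ, f, hf, h⟩ | ⟨Q, hQ, hq, h⟩) | h
  · exact .inl ⟨W, h1, h2, h⟩
  · obtain ⟨h3, h4⟩ := H26.dec_numerics hD
    have h5 : m < 7 := by nlinarith
    have h6 : (m = 1 ∧ t = 7) := by interval_cases m <;> omega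
    rcases h6 with ⟨rfl, rfl⟩
    · exact .inr (.inl ⟨h1 rfl, D, hD, h⟩)
  · have h1 := H26.fld_numerics hK
    have h2 := Nat.le_of_dvd (by norm_num) h1
    have h3 : r = 7 := by
      interval_cases r <;> first | omega | exact absurd hr (by norm_num)
    rcases h3 with rfl
    · exact .inr (.inr (.inl ⟨K, hK, h⟩))
  · have h4 := H26.ten_numerics e
    have h5 : a < 4 := by nlinarith
    interval_cases a <;> omega
  · exact .inr (.inr (.inr (.inl ⟨F₀, r, P, hr, hc, h⟩)))
  · obtain rfl := hR.eq_of_card (s := 7) (j := 1) (by norm_num) (by simp)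
    obtain ⟨p, e, h1, h2, h3, h4, h5, h6, h7⟩ := H26.linData_prime hd (by norm_num)
    have h8 := Nat.le_of_dvd (by norm_num) h5
    have h9 : p % 7 < 7 := Nat.mod_lt _ (by norm_num)
    rw [Nat.odd_iff] at h4
    refine .inr (.inr (.inr (.inr (.inl ⟨⟨p, h1, h2, ?_⟩, R, hd, h⟩))))
    rcases (by interval_cases e <;> omega : e = 1 ∨ e = 3) with rfl | rfl
    · exact .inl ⟨by simpa using h3, by simpa using h6⟩
    · refine .inr ⟨h3, ?_⟩
      have := h7 (by norm_num)
      interval_cases p % 7 <;> simp_all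
  · obtain ⟨rfl, rfl, h3⟩ := H26.wr_numerics e h1 h2 (by norm_num)
    omega
  · exact absurd h1 (by decide)
  · exact .inr (.inr (.inr (.inr (.inr (.inr (.inl ⟨σ, f, hf, h⟩))))))
  · exact .inr (.inr (.inr (.inr (.inr (.inl ⟨hq, Q, hQ, h⟩)))))
  · exact .inr (.inr (.inr (.inr (.inr (.inr (.inr (h)))))))

end Cfsg.Agent.S5808
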