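import Cfsg.Statements.S5826
import Mathlib
import Cfsg.Agent.H26.O6

set_option autoImplicit false
set_option synthInstance.maxSize 1024
open Cfsg

namespace Cfsg.Agent.S5826

/-- Every maximal subgroup of Ω_8^-(q) is of one of the listed geometric types or lies in the residual class. Let F be a finite field with q elements, Q a non-degenerate quadratic form on F^8 of minus type (no totally singular 4-space), Ω the commutator subgroup of its isometry group, and H a maximal subgroup of Ω (inside GL_8(F)). Then H is the intersection with Ω of one of: the stabiliser of a non-zero totally singular subspace; for q odd, the stabiliser of a non-degenerate subspace of odd dimension; the stabiliser of a non-degenerate 2-space of minus type; for q ≥ 4, the stabiliser of a non-degenerate 2-space of plus type; the stabiliser of a non-degenerate 4-space; for q even, the stabiliser of the span of a non-singular vector; the normaliser of a degree-2 subfield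 of the matrix algebra; a subfield group of odd prime index whose F₀-structure carries a non-zero multiple of Q — or else H lies in the residual class of the orthogonal case (modulo scalars H is almost simple, with absolutely irreducible perfect socle preimage realisable over no proper subfield and fixing no non-degenerate unitary form). -/
theorem result {F : Type*} [Field F] [Fintype F] (Q : (Fin 8 → F) → F) (hQ : Cfsg.Geo.IsNondegenerateQuadraticForm Q) (hminus : ¬ Cfsg.Geo.IsPlusTypeOn Q ⊤) (H : Subgroup (Matrix.GeneralLinearGroup (Fin 8) F)) (hH : Cfsg.Geo.IsMaximalIn (Cfsg.Geo.omegaGL Q) H) :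
    (∃ W : Submodule F (Fin 8 → F), W ≠ ⊥ ∧ Cfsg.Geo.IsTotallySingularQuad Q W ∧ H = Cfsg.Geo.subspaceStabilizer W ⊓ Cfsg.Geo.omegaGL Q) ∨
    (Odd (Fintype.card F) ∧ ∃ W : Submodule F (Fin 8 → F), W ≠ ⊥ ∧ W ≠ ⊤ ∧ Odd (Module.finrank F W) ∧ Cfsg.Geo.IsNondegenerateOn (QuadraticMap.polar Q) W ∧ H = Cfsg.Geo.subspaceStabilizer W ⊓ Cfsg.Geo.omegaGL Q) ∨
    (∃ W : Submodule F (Fin 8 → F), Module.finrank F W = 2 ∧ Cfsg.Geo.IsNondegenerateOn (QuadraticMap.polar Q) W ∧ ¬ Cfsg.Geo.IsPlusTypeOn Q W ∧ H = Cfsg.Geo.subspaceStabilizer W ⊓ Cfsg.Geo.omegaGL Q) ∨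
    (4 ≤ Fintype.card F ∧ ∃ W : Submodule F (Fin 8 → F), Module.finrank F W = 2 ∧ Cfsg.Geo.IsNondegenerateOn (QuadraticMap.polar Q) W ∧ Cfsg.Geo.IsPlusTypeOn Q W ∧ H = Cfsg.Geo.subspaceStabilizer W ⊓ Cfsg.Geo.omegaGL Q) ∨
    (∃ W : Submodule F (Fin 8 → F), Module.finrank F W = 4 ∧ Cfsg.Geo.IsNondegenerateOn (QuadraticMap.polar Q) W ∧ H = Cfsg.Geo.subspaceStabilizer W ⊓ Cfsg.Geo.omegaGL Q) ∨
    (¬ Odd (Fintype.card F) ∧ ∃ v : (Fin 8 → F), Q v ≠ 0 ∧ H = Cfsg.Geo.subspaceStabilizer (Submodule.span F {v}) ⊓ Cfsg.Geo.omegaGL Q) ∨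
    (∃ K : Subalgebra F (Matrix (Fin 8) (Fin 8) F), Cfsg.Geo.IsFieldSubalgebra 2 K ∧ H = Cfsg.Geo.subalgebraNormalizer K ⊓ Cfsg.Geo.omegaGL Q) ∨
    (∃ (F₀ : Subfield F) (r : ℕ) (P : Matrix.GeneralLinearGroup (Fin 8) F) (ζ : F), r.Prime ∧ Odd r ∧ Fintype.card F = Nat.card F₀ ^ r ∧ ζ ≠ 0 ∧ Cfsg.Geo.IsQuadFormRationalStructure (fun v : Fin 8 → F => ζ * Q v) F₀ P ∧ H = Cfsg.Geo.subfieldSubgroup F₀ P ⊓ Cfsg.Geo.omegaGL Q) ∨
    Cfsg.Geo.InOrthogonalResidualClass H := by
  obtain ⟨G, hQ⟩ := H26.exists_qf hQ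
  have hn : Fintype.card (Fin 8) = 8 := by simp
  have hq1 : 1 < Fintype.card F := Fintype.one_lt_card
  rw [hQ.polar]
  rcases hQ.max (by omega) (by omega) (fun h => absurd (hn ▸ h) (by decide)) hH with (⟨W, h1, h2, h3, h⟩ | ⟨W, h1, h2, h3, h4, h5, h6, h7, h⟩ | ⟨v, hq, h1, h⟩ |
    ⟨k, D, hD, hk, h1, h⟩ | ⟨t, k, D, hD, h1, h2, h3, h4, h5, h⟩ | ⟨k, D, hD, h1, hm, h⟩ |
    ⟨r, K, hr, hK, h1, h2, h3, h⟩ | ⟨K, hK, h1, h2, h3, h4, h⟩ |
    ⟨a, b, e, P, G₁, G₂, hq, h1, h2, h3, h4, h5, hT, h⟩ |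
    ⟨a, b, e, P, G₁, G₂, ε₁, ε₂, h1, h2, h3, h4, h5, hT, h6, h⟩ |
    ⟨F₀, r, P, ζ, hr, hc, h1, h2, h3, h4, h⟩ | ⟨k, t, e, P, c, G₀, hq, h1, h2, h3, h4, hW, h⟩ |
    ⟨k, t, h1, h2, h3, h4⟩) | h
  · exact .inl ⟨W, h1, h2, h⟩
  · have h8 := h5 (hn ▸ by decide)
    have h9 := Submodule.finrank_eq_zero.not.2 h1
    rw [hn] at h6 h8
    by_cases h10 : Odd (Module.finrank F W)
    · exact .inr (.inl ⟨hQ.odd_of_nondeg h3 h10, W, h1, h2, h10, h3, h⟩)
    rw [Nat.odd_iff] at h10
    rcases (by omega : Module.finrank F W = 2 ∨ Module.finrank F W = 4) with h11 | h11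
    · by_cases h12 : Cfsg.Geo.IsPlusTypeOn Q W
      · exact .inr (.inr (.inr (.inl ⟨h7 h11 h12, W, h11, h3, h12, h⟩)))
      · exact .inr (.inr (.inl ⟨W, h11, h3, h12, h⟩))
    · exact .inr (.inr (.inr (.inr (.inl ⟨W, h11, h3, h⟩))))
  · exact .inr (.inr (.inr (.inr (.inr (.inl ⟨hq, v, h1, h⟩)))))
  · have h2 := hD.decomp.h26_card.trans hn
    obtain rfl : k = 4 := by omega
    exact absurd hk (by decide)
  · have h6 := hD.decomp.decomp.h26_card.trans hn
    have h7 := hD.decomp.decomp.two_le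
    have h8 : k < 8 := by nlinarith
    have h9 : (k = 1 ∧ t = 8) ∨ (k = 2 ∧ t = 4) ∨ (k = 4 ∧ t = 2) := by interval_cases k <;> omega
    rcases h9 with ⟨rfl, rfl⟩ | ⟨rfl, rfl⟩ | ⟨rfl, rfl⟩
    · have h10 := hQ.odd_of_nondeg ((hQ.nondegDec hD).nondegenerate 0) (by rw [hD.decomp.decomp.finrank_eq]; decide)
      have h11 := hQ.plus_odec_iff (m := 4) (H26.two_ne_zero_iff_odd.2 h10) hD (by decide) hn
      have h12 := Nat.odd_iff.1 h10
      exfalso
      rcases (by omega : Fintype.card F % 4 = 1 ∨ Fintype.card F % 4 = 3) with h13 | h13 <;>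
        simp_all [Nat.pow_mod]
    · have h10 := hQ.plus_dec_iff hD (by decide)
      exact absurd ((h10 0).2 (.inl (by decide))) hminus
    · have h10 := hQ.plus_dec_iff hD (by decide)
      exact absurd ((h10 0).2 (.inl (by decide))) hminus
  · exact absurd (H26.QF.plus_of_pair hD h1) hminus
  · have h4 := hn ▸ H26.field_degree_dvd hK
    have h5 := Nat.le_of_dvd (by norm_num) h4
    rw [hn, Nat.odd_iff] at h2
    have h6 : r = 2 := by
      interval_cases r <;> first | omega | exact absurd hr (by norm_num)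
    rcases h6 with rfl
    · exact .inr (.inr (.inr (.inr (.inr (.inr (.inl ⟨K, hK, h⟩))))))
  · exact .inr (.inr (.inr (.inr (.inr (.inr (.inl ⟨K, hK, h⟩))))))
  · have h6 : 8 = a * b := by simpa using Fintype.card_congr e
    have h7 : a < 4 := by nlinarith
    obtain rfl : a = 3 := by omega
    omega
  · have h7 : 8 = a * b := by simpa using Fintype.card_congr e
    have h8 := Nat.even_iff.1 (Fintype.card_fin a ▸ h4.even_card' hT.hf₁.unit)
    have h9 := Nat.even_iff.1 (Fintype.card_fin b ▸ h5.even_card' hT.hf₂.unit)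
    have h10 : a < 4 := by nlinarith
    obtain rfl : a = 2 := by omega
    exact absurd (H26.plus_of_pure h6) hminus
  · exact .inr (.inr (.inr (.inr (.inr (.inr (.inr (.inl ⟨F₀, r, P, ζ, hr, h4 (hn ▸ by decide) hminus, hc, h1, h2, h⟩)))))))
  · have h6 : 8 = k ^ t := by simpa using Fintype.card_congr e
    exact absurd (h6 ▸ h3.pow) (by decide)
  · have h5 : 0 < k := Nat.pos_of_ne_zero (by rintro rfl; rw [hn, zero_pow (by omega)] at h3; omega)
    have h7 : k ^ 2 ≤ k ^ t := Nat.pow_le_pow_right (by omega) h2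
    have h8 : k < 4 := by nlinarith
    obtain rfl : k = 2 := by rw [Nat.even_iff] at h1; omega
    exact absurd (h4 rfl) hminus
  · exact .inr (.inr (.inr (.inr (.inr (.inr (.inr (.inr (h))))))))

end Cfsg.Agent.S5826
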