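import Cfsg.Statements.S5859
import Mathlib
import Cfsg.Agent.H26.O6

set_option autoImplicit false
set_option synthInstance.maxSize 1024
open Cfsg

namespace Cfsg.Agent.S5859

/-- Every maximal subgroup of Ω_11(q), q odd, is of one of the listed geometric types or lies in the residual class. Let F be a finite field of odd order q, Q the standard quadratic form x₀² + Σ x_i y_i on F^11 (coordinates Unit ⊕ (Fin 5 ⊕ Fin 5)), Ω the commutator subgroup of its isometry group, and H a maximal subgroup of Ω (inside GL_11(F)). Then H is the intersection with Ω of one of: the stabiliser of a non-zero totally singular subspace; the stabiliser of a non-zero non-degenerate subspace of even dimension (not a plus-type plane when q = 3); for q prime, the stabiliser of a decomposition into eleven pairwise orthogonal, pairwise isometric non-degenerate 1-spaces; a subfield group (|F| = |F₀|^r, r prime) whose F₀-structure carries Q — or else H lies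 in the residual class of the orthogonal case (modulo scalars H is almost simple, with absolutely irreducible perfect socle preimage realisable over no proper subfield and fixing no non-degenerate unitary form). -/
theorem result {F : Type*} [Field F] [Fintype F] (hodd : Odd (Fintype.card F)) (H : Subgroup (Matrix.GeneralLinearGroup (Unit ⊕ (Fin 5 ⊕ Fin 5)) F)) (hH : Cfsg.Geo.IsMaximalIn (Cfsg.Geo.omegaGL (Cfsg.quadFormOdd 5 F)) H) :
    (∃ W : Submodule F (Unit ⊕ (Fin 5 ⊕ Fin 5) → F), W ≠ ⊥ ∧ Cfsg.Geo.IsTotallySingularQuad (Cfsg.quadFormOdd 5 F) W ∧ H = Cfsg.Geo.subspaceStabilizer W ⊓ Cfsg.Geo.omegaGL (Cfsg.quadFormOdd 5 F)) ∨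
    (∃ W : Submodule F (Unit ⊕ (Fin 5 ⊕ Fin 5) → F), W ≠ ⊥ ∧ Even (Module.finrank F W) ∧ Cfsg.Geo.IsNondegenerateOn (QuadraticMap.polar (Cfsg.quadFormOdd 5 F)) W ∧ ¬ (Fintype.card F = 3 ∧ Module.finrank F W = 2 ∧ Cfsg.Geo.IsPlusTypeOn (Cfsg.quadFormOdd 5 F) W) ∧ H = Cfsg.Geo.subspaceStabilizer W ⊓ Cfsg.Geo.omegaGL (Cfsg.quadFormOdd 5 F)) ∨
    ((Fintype.card F).Prime ∧ ∃ D : Fin 11 → Submodule F (Unit ⊕ (Fin 5 ⊕ Fin 5) → F), Cfsg.Geo.IsOrthogonalMDecomposition (Cfsg.quadFormOdd 5 F) 1 D ∧ H = Cfsg.Geo.decompositionStabilizer D ⊓ Cfsg.Geo.omegaGL (Cfsg.quadFormOdd 5 F)) ∨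
    (∃ (F₀ : Subfield F) (r : ℕ) (P : Matrix.GeneralLinearGroup (Unit ⊕ (Fin 5 ⊕ Fin 5)) F), r.Prime ∧ Fintype.card F = Nat.card F₀ ^ r ∧ Cfsg.Geo.IsQuadFormRationalStructure (Cfsg.quadFormOdd 5 F) F₀ P ∧ H = Cfsg.Geo.subfieldSubgroup F₀ P ⊓ Cfsg.Geo.omegaGL (Cfsg.quadFormOdd 5 F)) ∨
    Cfsg.Geo.InOrthogonalResidualClass H := by
  obtain ⟨G, hQ, hd⟩ := H26.exists_qf_odd (F := F) 5 (H26.two_ne_zero_iff_odd.2 hodd)
  have hn : Fintype.card (Unit ⊕ (Fin 5 ⊕ Fin 5)) = 11 := by simp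
  have hq1 : 1 < Fintype.card F := Fintype.one_lt_card
  have hq2 := Nat.odd_iff.1 hodd
  rw [hQ.polar]
  rcases hQ.max (by omega) (by omega) (fun _ => hd) hH with (⟨W, h1, h2, h3, h⟩ | ⟨W, h1, h2, h3, h4, h5, h6, h7, h⟩ | ⟨v, hq, h1, h⟩ |
    ⟨k, D, hD, hk, h1, h⟩ | ⟨t, k, D, hD, h1, h2, h3, h4, h5, h⟩ | ⟨k, D, hD, h1, hm, h⟩ |
    ⟨r, K, hr, hK, h1, h2, h3, h⟩ | ⟨K, hK, h1, h2, h3, h4, h⟩ |
    ⟨a, b, e, P, G₁, G₂, hq, h1, h2, h3, h4, h5, hT, h⟩ |
    ⟨a, b, e, P, G₁, G₂, ε₁, ε₂, h1, h2, h3, h4, h5, hT, h6, h⟩ |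
    ⟨F₀, r, P, ζ, hr, hc, h1, h2, h3, h4, h⟩ | ⟨k, t, e, P, c, G₀, hq, h1, h2, h3, h4, hW, h⟩ |
    ⟨k, t, h1, h2, h3, h4⟩) | h
  · exact .inl ⟨W, h1, h2, h⟩
  · exact .inr (.inl ⟨W, h1, h4 (hn ▸ by decide), h3, fun ⟨a, b, c⟩ => by have := h7 b c; omega, h⟩)
  · exact absurd hodd hq
  · have := hD.decomp.h26_card; omega
  · have h6 := hD.decomp.decomp.h26_card.trans hn
    have h7 := hD.decomp.decomp.two_le
    have h8 : k < 11 := by nlinarith
    have h9 : (k = 1 ∧ t = 11) := by interval_cases k <;> omega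
    rcases h9 with ⟨rfl, rfl⟩
    · exact .inr (.inr (.inl ⟨h1 rfl, D, hD, h⟩))
  · have := hD.h26_card; omega
  · have h4 := hn ▸ H26.field_degree_dvd hK
    have h5 := Nat.le_of_dvd (by norm_num) h4
    rw [hn, Nat.odd_iff] at h2
    exfalso
    interval_cases r <;> first | omega | exact absurd hr (by norm_num)
  · have := H26.field_degree_dvd hK; omega
  · have h6 : 11 = a * b := by simpa using Fintype.card_congr e
    rw [Nat.even_iff] at h3
    have h7 : a < 4 := by nlinarith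
    interval_cases a; omega
  · have h7 : 11 = a * b := by simpa using Fintype.card_congr e
    exact absurd (h7 ▸ (Fintype.card_fin a ▸ h4.even_card' hT.hf₁.unit).mul_right b) (by decide)
  · exact .inr (.inr (.inr (.inl ⟨F₀, r, P, hr, hc, h3 (hn ▸ by decide), h⟩)))
  · have h6 : 11 = k ^ t := by simpa using Fintype.card_congr e
    have h7 : k ^ 2 ≤ k ^ t := Nat.pow_le_pow_right (by omega) h1
    obtain rfl : k = 3 := by nlinarith
    have h8 : t < 3 := (Nat.pow_lt_pow_iff_right (a := 3) (by norm_num)).1 (by omega)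
    obtain rfl : t = 2 := by omega
    omega
  · exact absurd (hn ▸ h3 ▸ (Nat.even_pow.2 ⟨h1, by omega⟩)) (by decide)
  · exact .inr (.inr (.inr (.inr (h))))

end Cfsg.Agent.S5859
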