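import Cfsg.Statements.S5876
import Mathlib
import Cfsg.Agent.FT.BG02

set_option autoImplicit false
open Cfsg

namespace Cfsg.Agent.S5876

open Cfsg.Agent.FT Cfsg.Agent.H28 Subgroup Module
open scoped commutatorElement
set_option linter.style.haveILetI false
set_option linter.unusedSectionVars false

section
variable {G : Type*} [Group G] [Finite G] {k : Type*} [Field k] {V : Type*} [AddCommGroup V] [Module k V]

theorem exists_cls2 (hs : Sol (⊤ : Subgroup G)) :
    ∃ K : Subgroup G, K ⊴ ⊤ ∧ ⁅K, K⁆ ≤ C(K) ∧ C(K) ≤ K := by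
  obtain ⟨K, -, ⟨h1, h2⟩, hmax⟩ := exists_max (fun K : Subgroup G => K ⊴ ⊤ ∧ ⁅K, K⁆ ≤ C(K)) (A := ⊥)
    ⟨⟨bot_le, norms_bot _⟩, by simp⟩
  refine ⟨K, h1, h2, by_contra fun hne => ?_⟩
  obtain ⟨L, hL, ⟨h3, h4⟩, hmin⟩ := exists_min (fun L : Subgroup G => L ⊴ ⊤ ∧ ¬ L ≤ K) (A := C(K))
    ⟨⟨le_top, norms_cent h1.nrm⟩, hne⟩
  have hd : ⁅L, L⁆ ≤ K := by_contra fun h5 =>
    ((hs.mono le_top).der_lt (fun e => h4 (e.le.trans bot_le))).ne (hmin _ ⟨⟨le_top, norms_der h3.nrm⟩, h5⟩ (der_le L))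
  have := hmax (K ⊔ L) ⟨h1.sup h3, by
    rw [(⟨hL, rfl⟩ : CP K L (K ⊔ L)).der]
    exact sup_le (centsY h2 ((der_le K).trans (centsC hL))) (centsY ((der_le L).trans hL) (hd.trans (centsC hL)))⟩
    le_sup_left
  exact h4 (le_sup_right.trans this.le)

theorem indep_rfix (ρ : Representation k G V) {A : Subgroup G} (hA : Ab A) {ι : Type*} [Fintype ι]
    (B : ι → Subgroup G) (hB : ∀ i, B i ≤ A) (h : ∀ i j, i ≠ j → rfix ρ (B i) ⊓ rfix ρ (B j) = ⊥) :
    iSupIndep fun i => rfix ρ (B i) := by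
  classical
  have inv : ∀ i, RInv ρ A (rfix ρ (B i)) := fun i => rInv_rfix ρ (cents_norm (hA.cents (hB i) le_rfl))
  have key : ∀ i (s : Finset ι), i ∉ s → RInv ρ A (⨆ j ∈ s, rfix ρ (B j)) ∧
      Disjoint (rfix ρ (B i)) (⨆ j ∈ s, rfix ρ (B j)) := fun i s => by
    induction s using Finset.induction_on with
    | empty => intro _; simpa using rInv_bot ρ A
    | insert j s hj ih =>
      intro hi
      rw [Finset.mem_insert, not_or] at hi
      obtain ⟨i1, i2⟩ := ih hi.2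
      rw [Finset.iSup_insert]
      refine ⟨fun g hg v hv => ?_, Submodule.disjoint_def.2 fun v hv hv' => ?_⟩
      · obtain ⟨u, hu, w, hw, rfl⟩ := Submodule.mem_sup.1 hv
        rw [map_add]
        exact Submodule.add_mem_sup (inv j g hg u hu) (i1 g hg w hw)
      · obtain ⟨u, hu, w, hw, rfl⟩ := Submodule.mem_sup.1 hv'
        refine (Submodule.eq_bot_iff _).1 (h i j hi.1) _ ⟨hv, fun b hb => sub_eq_zero.1 ?_⟩
        refine Submodule.disjoint_def.1 i2 _ (sub_mem (inv i b (hB j hb) _ hv) hv) ?_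
        rw [map_add, hu b hb, add_sub_add_left_eq_sub]
        exact sub_mem (i1 b (hB j hb) w hw) hw
  intro i
  simpa using (key i (Finset.univ.erase i) (by simp)).2

theorem map_rfix (ρ : Representation k G V) (g : G) (B : Subgroup G) : (rfix ρ B).map (ρ g) = rfix ρ (cj g B) := by
  have key : ∀ (g : G) (B : Subgroup G), ∀ v ∈ rfix ρ B, ρ g v ∈ rfix ρ (cj g B) := fun g B v hv x hx => by
    rw [← Module.End.mul_apply, ← map_mul, show x * g = g * (g⁻¹ * x * g) by group, map_mul, Module.End.mul_apply,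
      hv _ (mem_cj.1 hx)]
  refine le_antisymm (by rintro _ ⟨v, hv, rfl⟩; exact key g B v hv) fun v hv => ⟨ρ g⁻¹ v, ?_, by simp⟩
  simpa [cj_cj, cj_one] using key g⁻¹ _ v hv

theorem finrank_rfix_cj (ρ : Representation k G V) (g : G) (B : Subgroup G) :
    finrank k (rfix ρ (cj g B)) = finrank k (rfix ρ B) := by
  rw [← map_rfix]
  exact LinearEquiv.finrank_map_eq (LinearEquiv.ofBijective (ρ g) (ρ.apply_bijective g)) _

/-- an abelian normal subgroup of a primitive linear group acts regularly -/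
theorem rfix_eq_bot [FiniteDimensional k V] (ρ : Representation k G V) (hf : Function.Injective ρ)
    (hirr : ∀ W, RInv ρ ⊤ W → W = ⊥ ∨ W = ⊤)
    (hprim : ∀ (m t : ℕ) (D : Fin t → Submodule k V), 2 ≤ t → 0 < m → (∀ i, finrank k (D i) = m) → iSupIndep D →
      iSup D = ⊤ → ¬ ∀ g, ∃ σ : Equiv.Perm (Fin t), ∀ i, (D i).map (ρ g) = D (σ i))
    {A : Subgroup G} (hA : Ab A) (hn : A ⊴ ⊤) {a : G} (ha : a ∈ A) (h1 : a ≠ 1) : rfix ρ ⟪a⟫ = ⊥ := by
  classical
  by_contra h0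
  obtain ⟨B, hB, ⟨b1, b2⟩, hmax⟩ := exists_max (fun B : Subgroup G => B ≤ A ∧ rfix ρ B ≠ ⊥) ⟨zpowers_le.2 ha, h0⟩
  have hA' : ∀ g, cj g A = A := fun g => cj_of_mem_nrm (hn.nrm (mem_top g))
  have hle : ∀ g, cj g B ≤ A := fun g => hA' g ▸ cj_mono g b1
  let S := {X : Subgroup G // ∃ g, X = cj g B}
  haveI : Fintype S := Fintype.ofFinite S
  let e := (Fintype.equivFin S).symm
  let act : G → S → S := fun g X => ⟨cj g X.1, by obtain ⟨x, hx⟩ := X.2; exact ⟨g * x, by rw [hx, cj_cj]⟩⟩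
  let pe : G → Equiv.Perm S := fun g => ⟨act g, act g⁻¹, fun X => Subtype.ext (by simp [act, cj_cj, cj_one]),
    fun X => Subtype.ext (by simp [act, cj_cj, cj_one])⟩
  have hσ : ∀ g i, (rfix ρ (e i).1).map (ρ g) = rfix ρ (e ((e.trans (pe g)).trans e.symm i)).1 := fun g i => by
    rw [map_rfix]; simp [pe, act]
  have htop : ⨆ i, rfix ρ (e i).1 = ⊤ := by
    refine (hirr _ fun g _ v hv => ?_).resolve_left fun h => b2 (eq_bot_iff.2 (h ▸ ?_))
    · refine (?_ : (⨆ i, rfix ρ (e i).1).map (ρ g) ≤ _) ⟨v, hv, rfl⟩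
      rw [Submodule.map_iSup]
      exact iSup_le fun i => hσ g i ▸ le_iSup (fun i => rfix ρ (e i).1) _
    · refine le_trans (le_of_eq ?_) (le_iSup (fun i => rfix ρ (e i).1) (e.symm ⟨B, 1, (cj_one B).symm⟩))
      simp
  refine hprim (finrank k (rfix ρ B)) _ (fun i => rfix ρ (e i).1) ?_ (Nat.pos_of_ne_zero fun h =>
    b2 (Submodule.finrank_eq_zero.1 h)) (fun i => ?_) (indep_rfix ρ hA _ (fun i => ?_) fun i j hij => ?_) htop
    fun g => ⟨_, hσ g⟩
  · by_contra hlt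
    haveI : Subsingleton S := Fintype.card_le_one_iff_subsingleton.1 (by omega)
    have : ∀ i, (e i).1 = B := fun i => congrArg Subtype.val (Subsingleton.elim _ ⟨B, 1, (cj_one B).symm⟩)
    have h2 : rfix ρ B = ⊤ := top_le_iff.1 (htop.ge.trans (iSup_le fun i => by rw [this]))
    exact h1 (hf ((rfix_eq_top_iff.1 h2 (hB (mem_zpowers a))).trans (map_one ρ).symm))
  · obtain ⟨g, hg⟩ := (e i).2
    rw [hg, finrank_rfix_cj]
  · obtain ⟨g, hg⟩ := (e i).2
    exact hg ▸ hle g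
  · obtain ⟨g, hg⟩ := (e i).2
    obtain ⟨x, hx⟩ := (e j).2
    by_contra hne
    rw [← rfix_sup, hg, hx] at hne
    have h3 := hmax (cj g⁻¹ (cj g B ⊔ cj x B)) ⟨hA' g⁻¹ ▸ cj_mono _ (sup_le (hle g) (hle x)), fun h => hne
      (Submodule.finrank_eq_zero.1 (by rw [← finrank_rfix_cj ρ g⁻¹, h, finrank_bot]))⟩
      (by rw [cj_sup, cj_cj, inv_mul_cancel, cj_one]; exact le_sup_left)
    have h4 : cj x B ≤ cj g B := by
      have := congrArg (cj g) h3
      rw [cj_cj, mul_inv_cancel, cj_one] at this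
      exact le_sup_right.trans this.le
    exact hij (e.injective (Subtype.ext (by
      rw [hg, hx]; exact (eq_of_le_of_card_ge h4 (by rw [card_cj, card_cj])).symm)))

theorem finrank_comm [FiniteDimensional k V] (ρ : Representation k G V) (g x : G) :
    2 * finrank k (rfix ρ ⟪g⟫) ≤ finrank k V + finrank k (rfix ρ ⟪⁅g, x⁆⟫) := by
  have h1 := Submodule.finrank_sup_add_finrank_inf_eq (rfix ρ ⟪g⟫) (rfix ρ (cj x ⟪g⟫))
  have h2 := Submodule.finrank_le (rfix ρ ⟪g⟫ ⊔ rfix ρ (cj x ⟪g⟫))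
  have h3 : finrank k ↥(rfix ρ ⟪g⟫ ⊓ rfix ρ (cj x ⟪g⟫)) ≤ finrank k (rfix ρ ⟪⁅g, x⁆⟫) := by
    rw [← rfix_sup]
    refine Submodule.finrank_mono (rfix_anti ρ (zpowers_le.2 ?_))
    rw [show ⁅g, x⁆ = g * (x * g * x⁻¹)⁻¹ by simp [commutatorElement_def, mul_assoc]]
    exact mul_mem (mem_sup_left (mem_zpowers g)) (inv_mem (mem_sup_right (conj_mem_cj.2 (mem_zpowers g))))
  rw [finrank_rfix_cj] at h1
  omega

theorem main [FiniteDimensional k V] (ρ : Representation k G V) (hs : Sol (⊤ : Subgroup G))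
    (h : ∀ A : Subgroup G, Ab A → A ⊴ ⊤ → ∀ a ∈ A, a ≠ 1 → rfix ρ ⟪a⟫ = ⊥) {g : G} (h1 : g ≠ 1) :
    4 * finrank k (rfix ρ ⟪g⟫) ≤ 3 * finrank k V := by
  obtain ⟨K, hK, hd, hc⟩ := exists_cls2 hs
  have ex : ∀ y : G, y ∉ C(K) → ∃ x ∈ K, ⁅y, x⁆ ≠ 1 := fun y hy => by
    by_contra hne
    push Not at hne
    exact hy (mem_cen.2 fun x hx => (commutatorElement_eq_one_iff_mul_comm.1 (hne x hx)).symm)
  have half : ∀ y ∈ K, y ≠ 1 → 2 * finrank k (rfix ρ ⟪y⟫) ≤ finrank k V := fun y hy y1 => by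
    by_cases hz : y ∈ C(K)
    · rw [h _ (ab_center K) hK.center y ⟨hy, hz⟩ y1]; simp
    · obtain ⟨x, hx, h2⟩ := ex y hz
      have h3 := commutator_mem_commutator hy hx
      have := finrank_comm ρ y x
      rwa [h _ (ab_center K) hK.center _ ⟨der_le K h3, hd h3⟩ h2, finrank_bot] at this
  by_cases hg : g ∈ K
  · have := half g hg h1; omega
  · obtain ⟨x, hx, h2⟩ := ex g fun h => hg (hc h)
    have := half _ (comm_le_right hK.nrm (commutator_mem_commutator (mem_top g) hx)) h2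
    have := finrank_comm ρ g x
    omega
end

/-- Fixed-point spaces in primitive soluble linear groups. Let F be a finite field and G a soluble subgroup of GL_n(F) that acts irreducibly on F^n and primitively (G preserves no decomposition of F^n into two or more independent subspaces of equal dimension). Then every non-identity element g of G has fixed-point space {v : g v = v} of dimension at most 3n/4. -/
theorem result {F : Type*} [Field F] [Fintype F] {n : ℕ} (G : Subgroup (Matrix.GeneralLinearGroup (Fin n) F)) (hsol : IsSolvable G) (hirr : Cfsg.Geo.ActsIrreducibly (Cfsg.Geo.matrixSet G)) (hprim : ∀ (m t : ℕ) (D : Fin t → Submodule F (Fin n → F)), 2 ≤ t → Cfsg.Geo.IsMDecomposition m D → ¬ G ≤ Cfsg.Geo.decompositionStabilizer D) (g : Matrix.GeneralLinearGroup (Fin n) F) (hg : g ∈ G) (hg1 : g ≠ 1) :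
    4 * Module.finrank F (Module.End.eigenspace (Matrix.toLin' (g : Matrix (Fin n) (Fin n) F)) 1) ≤ 3 * n := by
  haveI : Finite (Matrix.GeneralLinearGroup (Fin n) F) := inferInstance
  let ρ : Representation F G (Fin n → F) :=
    { toFun := fun x => Matrix.toLin' ((x : Matrix.GeneralLinearGroup (Fin n) F) : Matrix (Fin n) (Fin n) F)
      map_one' := by simp [Module.End.one_eq_id]
      map_mul' := fun x y => by simp [Matrix.toLin'_mul, Module.End.mul_eq_comp] }
  have hf : Function.Injective ρ := fun x y h => Subtype.ext (Units.ext (Matrix.toLin'.injective h))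
  have := main ρ (sol_top.2 hsol) (fun A hA hn a ha h1 => rfix_eq_bot ρ hf (fun W hW => hirr W (by
      rintro _ ⟨x, hx, rfl⟩ _ ⟨v, hv, rfl⟩
      exact hW ⟨x, hx⟩ trivial v hv))
    (fun m t D h2 h3 h4 h5 h6 h7 => hprim m t D h2 ⟨h2, h3, h4, h5, h6⟩ fun x hx => h7 ⟨x, hx⟩) hA hn ha h1)
    (g := ⟨g, hg⟩) (fun h => hg1 (congrArg Subtype.val h))
  have e : rfix ρ ⟪(⟨g, hg⟩ : G)⟫ = Module.End.eigenspace (Matrix.toLin' (g : Matrix (Fin n) (Fin n) F)) 1 := by
    ext v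
    rw [mem_rfix_zpowers, Module.End.mem_eigenspace_iff, one_smul]; rfl
  rw [e] at this
  simpa using this

end Cfsg.Agent.S5876
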