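import Cfsg.Statements.S5877
import Cfsg.Agent.H13.XE2

set_option autoImplicit false
open Cfsg

namespace Cfsg.Agent.S5877

/-- Eigenspaces of elements normalising an absolutely irreducible extraspecial group. Let F be a finite field, r a prime, and R ≤ GL_n(F) an absolutely irreducible extraspecial r-group (an r-group whose centre equals its derived subgroup and has order r) of exponent r or 4. Let g ∈ GL_n(F) normalise the product of R with the scalar matrices, have prime order ϖ and not be scalar, and let W be the eigenspace of g for any c ∈ F (W may be the zero subspace). Then dim W ≤ 3n/4 if ϖ = 2, dim W ≤ 2n/3 if ϖ = 3, and dim W ≤ n/2 if ϖ > 3; moreover if ϖ = 3 and 3 does not divide n then dim W ≤ n/2. -/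
theorem result {F : Type*} [Field F] [Fintype F] {n r ϖ : ℕ} (R : Subgroup (Matrix.GeneralLinearGroup (Fin n) F)) (hr : r.Prime) (hR : IsPGroup r R) (hZ : Nat.card (Subgroup.center R) = r) (hext : commutator R = Subgroup.center R) (hexp : Monoid.exponent R = r ∨ Monoid.exponent R = 4) (hirr : Cfsg.Geo.ActsAbsolutelyIrreducibly (Cfsg.Geo.matrixSet R)) (g : Matrix.GeneralLinearGroup (Fin n) F) (hg : g ∈ Cfsg.Geo.subgroupNormalizer (R ⊔ Cfsg.Geo.scalars (Fin n) F)) (hϖ : ϖ.Prime) (hord : orderOf g = ϖ) (hns : g ∉ Cfsg.Geo.scalars (Fin n) F) (c : F) :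
    (ϖ = 2 → 4 * Module.finrank F (Module.End.eigenspace (Matrix.toLin' (g : Matrix (Fin n) (Fin n) F)) c) ≤ 3 * n) ∧
    (ϖ = 3 → 3 * Module.finrank F (Module.End.eigenspace (Matrix.toLin' (g : Matrix (Fin n) (Fin n) F)) c) ≤ 2 * n) ∧
    (3 < ϖ → 2 * Module.finrank F (Module.End.eigenspace (Matrix.toLin' (g : Matrix (Fin n) (Fin n) F)) c) ≤ n) ∧
    (ϖ = 3 → ¬ 3 ∣ n → 2 * Module.finrank F (Module.End.eigenspace (Matrix.toLin' (g : Matrix (Fin n) (Fin n) F)) c) ≤ n) := by
  rcases Nat.eq_zero_or_pos n with rfl | hn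
  · have : g = 1 := Units.ext (by ext i; exact i.elim0)
    exact absurd (this ▸ Subgroup.one_mem _) hns
  haveI : Nonempty (Fin n) := ⟨⟨0, hn⟩⟩
  have hcf := (H13.XE.cf_of_extraspecial hZ hext.le hirr).sup
  obtain ⟨h1, h2, -⟩ := hcf.general hr hg hns c
  have hgo : g ^ ϖ = 1 := hord ▸ pow_orderOf_eq_one g
  have h3 := fun (h2 : ϖ ≠ 2) (h3 : ϖ = r → 5 ≤ r) => hcf.half hr hg hns hϖ h2 hgo h3 c
  rw [Fintype.card_fin] at h1 h2 h3
  rw [H13.XE.ρ_def] at h2 h3
  have hr2 := hr.two_le
  refine ⟨fun _ => by nlinarith, fun h => ?_, fun h => h3 (by omega) fun h' => ?_,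
    fun h h' => h3 (by omega) fun h'' => ?_⟩
  · by_cases hr3 : r = 3
    · subst hr3; omega
    · have := h3 (by omega) (by omega)
      omega
  · subst h'
    exact hϖ.five_le_of_ne_two_of_ne_three (by omega) (by omega)
  · exact absurd (h ▸ h'' ▸ h1) h'

end Cfsg.Agent.S5877
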