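import Cfsg.Statements.S5942
import Mathlib
import Cfsg.Agent.H10.PSL2Max2

set_option autoImplicit false
open Cfsg

namespace Cfsg.Agent.S5942

/-- Let K and F be finite fields of odd characteristic with #F = (#K)^r for an odd prime r. Then PSL_2(F) has a maximal subgroup isomorphic to PSL_2(K). -/
theorem result {F K : Type*} [Field F] [Fintype F] [Field K] [Fintype K] (q r : ℕ) (hK : Fintype.card K = q) (hF : Fintype.card F = q ^ r) (hq : Odd q) (hr : r.Prime) (hr2 : r ≠ 2) : ∃ H : Subgroup (Matrix.ProjectiveSpecialLinearGroup (Fin 2) F), IsCoatom H ∧ Nonempty (H ≃* Matrix.ProjectiveSpecialLinearGroup (Fin 2) K) := by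
  rw [← Nat.card_eq_fintype_card] at hF hK
  subst hK
  obtain ⟨L, hL, ⟨e⟩⟩ := H10.exists_subfield_equiv hF.symm
  have h2 := H10.two_le_card_field (F := K)
  have h := H10.subfield_covBy (L := L) hr (hL ▸ hF.symm) (by
    have := Nat.odd_iff.1 hq
    omega)
  rw [H10.inf_pglOf_of_odd (hL ▸ hF.symm) (hr.odd_of_ne_two hr2)] at h
  exact H10.exists_isCoatom_psl h ((H10.subPSLEquiv L).trans (H10.pslCongr e.symm))

end Cfsg.Agent.S5942
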