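import Cfsg.Statements.S5943
import Mathlib
import Cfsg.Agent.H10.PSL2Max2

set_option autoImplicit false
open Cfsg

namespace Cfsg.Agent.S5943

/-- Let K and F be finite fields of characteristic 2 with #K = q > 2 and #F = q^r for a prime r. Then PSL_2(F) has a maximal subgroup isomorphic to PSL_2(K) (which equals PGL_2(K) in characteristic 2). -/
theorem result {F K : Type*} [Field F] [Fintype F] [Field K] [Fintype K] (q r : ℕ) (hK : Fintype.card K = q) (hF : Fintype.card F = q ^ r) (hq : Even q) (hq2 : q ≠ 2) (hr : r.Prime) : ∃ H : Subgroup (Matrix.ProjectiveSpecialLinearGroup (Fin 2) F), IsCoatom H ∧ Nonempty (H ≃* Matrix.ProjectiveSpecialLinearGroup (Fin 2) K) := by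
  rw [← Nat.card_eq_fintype_card] at hF hK
  subst hK
  obtain ⟨L, hL, ⟨e⟩⟩ := H10.exists_subfield_equiv hF.symm
  have h2 := H10.two_le_card_field (F := K)
  have h := H10.subfield_covBy (L := L) hr (hL ▸ hF.symm) (by omega)
  have h3 : (2 : F) = 0 := by
    by_contra h3
    have := H10.odd_card_of_two_ne_zero h3
    rw [hF] at this
    exact Nat.not_odd_iff_even.2 hq ((Nat.odd_pow_iff hr.ne_zero).1 this)
  rw [H10.pglOf_eq_pslOf h3, inf_eq_right.2 (H10.pslOf_le L)] at h
  exact H10.exists_isCoatom_psl h ((H10.subPSLEquiv L).trans (H10.pslCongr e.symm))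

end Cfsg.Agent.S5943
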