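import Cfsg.Statements.S5944
import Mathlib
import Cfsg.Agent.H10.Sym2

set_option autoImplicit false
open Cfsg

namespace Cfsg.Agent.S5944

/-- For n ≠ 4, every proper subgroup of the symmetric group S_n other than the alternating group A_n has index at least n. -/
theorem result (n : ℕ) (hn : n ≠ 4) (H : Subgroup (Equiv.Perm (Fin n))) (hH : H ≠ ⊤) (hA : H ≠ alternatingGroup (Fin n)) : n ≤ H.index := by
  have h0 := H.index_ne_zero_of_finite
  have h1 : H.index ≠ 1 := fun h => hH (Subgroup.index_eq_one.mp h)
  have h2 : H.index ≠ 2 := fun h => hA (Equiv.Perm.eq_alternatingGroup_of_index_eq_two h)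
  by_cases h5 : n ≤ 3
  · omega
  have : Nontrivial (Fin n) := Fin.nontrivial_iff_two_le.mpr (by omega)
  have h3 := H10.card_le_index_alt (Ω := Fin n) (by simp; omega)
    (L := H.subgroupOf (alternatingGroup (Fin n))) fun h => by
      have := Subgroup.index_dvd_of_le (Subgroup.subgroupOf_eq_top.mp h)
      rw [alternatingGroup.index_eq_two] at this
      have := Nat.le_of_dvd two_pos this
      omega
  have h4 := Subgroup.relIndex_le_of_le_right (H := H) (K := alternatingGroup (Fin n)) (L := ⊤) le_top
    (by rwa [Subgroup.relIndex_top_right])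
  rw [Subgroup.relIndex_top_right] at h4
  simpa using h3.trans h4

end Cfsg.Agent.S5944
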