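import Cfsg.Statements.S5949
import Mathlib
import Cfsg.Agent.H18.El3

set_option autoImplicit false
open scoped MatrixGroups
open Cfsg

namespace Cfsg.Agent.S5949

open Cfsg.Agent.H18.El Cfsg.Agent.H10 Cfsg.Agent.H11 Cfsg.Agent.L0 Module
attribute [local instance] actSub

/-- Elements of prime order of PSL_n(q) with no fixed `m`-space. Here `T = PSL_n(F)` for a field `F` with `q = p^f` elements (`n ≥ 2`, `(n, q) ≠ (2, 2), (2, 3)`); an element of `T` of prime order `r` is represented by a matrix `x` of determinant 1 with `x^r` scalar and `x` not scalar; `i` denotes the multiplicative order of `q` modulo `r` (when `r ≠ p`), and `(a)_r` the `r`-part of `a`. Let `1 ≤ m ≤ n/2` and let `r` be a prime dividing the number of `m`-dimensional subspaces of `F^n`. Then every element of `T` of order `r` fixes some `m`-dimensional subspace (the action on `m`-spaces is `r`-elusive) if and only if `r ≠ p` and either (i) `i = 1` and (`r ∣ m`, or `(q−1)_r ≥ (n)_r` where in addition `q ≡ 1 (mod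 4)` is required when `r = 2` and `n` is even), or (ii) `2 ≤ i ≤ m` and `n mod i ≥ m mod i`. -/
theorem result {F : Type*} [Field F] [Fintype F] {p : ℕ} [Fact p.Prime] [CharP F p] {q : ℕ} (hq : Fintype.card F = q)
    (n m : ℕ) (hn : 2 ≤ n) (hT : (n, q) ≠ (2, 2) ∧ (n, q) ≠ (2, 3)) (hm : 1 ≤ m) (hmn : 2 * m ≤ n)
    (r : ℕ) [Fact r.Prime] (hrΩ : r ∣ Nat.card {W : Submodule F (Fin n → F) // Module.finrank F ↥W = m}) :
    (∀ x : Matrix.SpecialLinearGroup (Fin n) F,
      (∃ c : F, ((x ^ r : Matrix.SpecialLinearGroup (Fin n) F) : Matrix (Fin n) (Fin n) F) = c • (1 : Matrix (Fin n) (Fin n) F)) →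
      (∀ c : F, (x : Matrix (Fin n) (Fin n) F) ≠ c • (1 : Matrix (Fin n) (Fin n) F)) →
      ∃ W : Submodule F (Fin n → F), Module.finrank F ↥W = m ∧ W.map (Matrix.toLin' (x : Matrix (Fin n) (Fin n) F)) ≤ W) ↔
    (r ≠ p ∧
      ((orderOf (q : ZMod r) = 1 ∧ (r ∣ m ∨ (padicValNat r n ≤ padicValNat r (q - 1) ∧ (r = 2 → Even n → q % 4 = 1)))) ∨
       (2 ≤ orderOf (q : ZMod r) ∧ orderOf (q : ZMod r) ≤ m ∧ m % orderOf (q : ZMod r) ≤ n % orderOf (q : ZMod r)))) := by
  obtain rfl : Nat.card F = q := by rw [Nat.card_eq_fintype_card, hq]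
  have hV : finrank F (Fin n → F) = n := finrank_fin_fun F
  have hr : r.Prime := Fact.out
  have := finite_sub (F := F) (V := Fin n → F)
  simp only [iv_iff]
  rw [sl_forall r fun g => ∃ W : Submodule F (Fin n → F), finrank F W = m ∧ Iv g W]
  have hinv : ∀ (g : (Fin n → F) ≃ₗ[F] (Fin n → F)) (W : Submodule F (Fin n → F)),
      finrank F W = m → finrank F ↥(g • W) = m := fun g W h => (finrank_smul g W).trans h
  have hrp : r ≠ p := by
    rintro rfl
    obtain ⟨g, h1, h2⟩ := exists_reg r hV (by omega)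
    refine not_dvd_of_fix hinv h1 ⊥ (x₀ := LinearMap.ker ((g.toLinearMap - 1) ^ m))
      (fun W => ?_) (by simpa using hr.ne_one) hrΩ
    rw [smul_eq_iff, reg_iff h2 (show m ≤ n by omega)]
    simp [eq_comm]
  have h0 := cast_ne_zero (F := F) hrp
  rw [sl_main (Pd := fun δ => ∃ ν ≤ δ, ν.sum = m) h0 hV (by omega) rfl (fun g hg => hg.sub_iff m)
    (fun g c hc => by simp only [iv_smul hc, imp_self])
    (exists_sub_of_one (fun _ => Multiset.eq_of_mem_replicate) (by simp; omega)),
    and_iff_right hrp]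
  have hi := ord_pos hr h0
  split_ifs with h1
  · simp only [h1, true_and, Cond]
    refine ⟨fun h => .inl (h.symm.imp_left fun h => (sub_rep (by
      rw [Nat.div_mul_cancel h.1]; omega) hr.pos).mp h.2), fun h => ?_⟩
    rcases h with (h | h) | h
    · exact or_iff_not_imp_left.mpr fun h' => ⟨dvd_of_not_cond h1 h', (sub_rep (by
        rw [Nat.div_mul_cancel (dvd_of_not_cond h1 h')]; omega) hr.pos).mpr h⟩
    · exact .inl h
    · omega
  · simp only [sub_two_rep, h1, false_and, false_or]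
    rw [arith_sub hi (by omega), and_iff_right (show 2 ≤ orderOf _ by omega)]
    rintro ⟨h2, h3⟩
    refine not_dvd_gl hr h0 hV rfl hinv
      (fun U W h h' => trans_sub rfl (h.trans h'.symm)) (fun U W _ h => ?_) hrΩ
    obtain ⟨Z, h4, h5⟩ := exists_le_finrank_eq U (h ▸ h3)
    exact ⟨Z, h5, fun g hg _ => smul_eq_of_fix hg h4⟩

end Cfsg.Agent.S5949
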