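import Cfsg.Statements.S5950
import Mathlib
import Cfsg.Agent.H18.El3

set_option autoImplicit false
open scoped MatrixGroups
open Cfsg

namespace Cfsg.Agent.S5950

open Cfsg.Agent.H18.El Cfsg.Agent.H10 Cfsg.Agent.H11 Cfsg.Agent.L0 Module
attribute [local instance] actSub

/-- Elements of prime order of PSL_n(q) fixing no decomposition `F^n = U ⊕ W` with `dim U = m`. Here `T = PSL_n(F)` for a field `F` with `q = p^f` elements (`n ≥ 2`, `(n, q) ≠ (2, 2), (2, 3)`); an element of `T` of prime order `r` is represented by a matrix `x` of determinant 1 with `x^r` scalar and `x` not scalar; `i` denotes the multiplicative order of `q` modulo `r` (when `r ≠ p`), and `(a)_r` the `r`-part of `a`. Let `n ≥ 3`, `1 ≤ m < n/2`, and let `r` be a prime dividing the number of such decompositions (unordered pairs `{U, W}` of complementary subspaces with `dim U = m`; since `m ≠ n − m` these are the ordered pairs with `dim U = m`). Then every element of `T` of order `r` fixes such a pair (fixes both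 `U` and `W` for some complementary `U, W` with `dim U = m`) if and only if one of: (i) `r = p > 2` and every partition of `n` into parts of size at most `p` contains, as a sub-multiset, a partition of `m`; (ii) `r = p = 2` and `n` is odd or `m` is even; (iii) `r ≠ p`, `i = 1`, and `r ∣ m` or `(q−1)_r ≥ (n)_r` (with `q ≡ 1 (mod 4)` required when `r = 2` and `n` is even); (iv) `r ≠ p`, `2 ≤ i ≤ m` and `n mod i ≥ m mod i`. -/
theorem result {F : Type*} [Field F] [Fintype F] {p : ℕ} [Fact p.Prime] [CharP F p] {q : ℕ} (hq : Fintype.card F = q)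
    (n m : ℕ) (hn : 3 ≤ n) (hm : 1 ≤ m) (hmn : 2 * m < n)
    (r : ℕ) [Fact r.Prime]
    (hrΩ : r ∣ Nat.card {P : Submodule F (Fin n → F) × Submodule F (Fin n → F) // IsCompl P.1 P.2 ∧ Module.finrank F ↥P.1 = m}) :
    (∀ x : Matrix.SpecialLinearGroup (Fin n) F,
      (∃ c : F, ((x ^ r : Matrix.SpecialLinearGroup (Fin n) F) : Matrix (Fin n) (Fin n) F) = c • (1 : Matrix (Fin n) (Fin n) F)) →
      (∀ c : F, (x : Matrix (Fin n) (Fin n) F) ≠ c • (1 : Matrix (Fin n) (Fin n) F)) →
      ∃ U W : Submodule F (Fin n → F), IsCompl U W ∧ Module.finrank F ↥U = m ∧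
        U.map (Matrix.toLin' (x : Matrix (Fin n) (Fin n) F)) ≤ U ∧ W.map (Matrix.toLin' (x : Matrix (Fin n) (Fin n) F)) ≤ W) ↔
    ((r = p ∧ 2 < p ∧ (∀ μ : Multiset ℕ, (∀ a ∈ μ, 0 < a ∧ a ≤ p) → μ.sum = n → ∃ ν : Multiset ℕ, ν ≤ μ ∧ ν.sum = m)) ∨
     (r = p ∧ p = 2 ∧ (Odd n ∨ Even m)) ∨
     (r ≠ p ∧
      ((orderOf (q : ZMod r) = 1 ∧ (r ∣ m ∨ (padicValNat r n ≤ padicValNat r (q - 1) ∧ (r = 2 → Even n → q % 4 = 1)))) ∨
       (2 ≤ orderOf (q : ZMod r) ∧ orderOf (q : ZMod r) ≤ m ∧ m % orderOf (q : ZMod r) ≤ n % orderOf (q : ZMod r))))) := by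
  obtain rfl : Nat.card F = q := by rw [Nat.card_eq_fintype_card, hq]
  have hV : finrank F (Fin n → F) = n := finrank_fin_fun F
  have hr : r.Prime := Fact.out
  simp only [iv_iff]
  rw [sl_forall r fun g => ∃ U W : Submodule F (Fin n → F), IsCompl U W ∧ finrank F U = m ∧
    Iv g U ∧ Iv g W]
  by_cases hrp : r = p
  · subst hrp
    rw [sl_unip r hV (by omega) (fun g => compl_iff g m)
      (fun g c hc => by simp only [iv_smul hc, imp_self])
      (fun μ h1 h2 => exists_sub_of_one h1 (by omega))]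
    rcases hr.two_le.eq_or_lt with rfl | h
    · simp [part_two (show m ≤ n by omega)]
    · simp [h, h.ne']
  have h0 := cast_ne_zero (F := F) hrp
  rw [sl_main (Pd := fun δ => ∃ ν ≤ δ, ν.sum = m) h0 hV (by omega) rfl (fun g _ => compl_iff g m)
    (fun g c hc => by simp only [iv_smul hc, imp_self])
    (exists_sub_of_one (fun _ => Multiset.eq_of_mem_replicate) (by simp; omega))]
  simp only [hrp, false_and, false_or, ne_eq, not_false_eq_true, true_and]
  have hi := ord_pos hr h0
  split_ifs with h1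
  · simp only [h1, true_and, Cond]
    refine ⟨fun h => .inl (h.symm.imp_left fun h => (sub_rep (by
      rw [Nat.div_mul_cancel h.1]; omega) hr.pos).mp h.2), fun h => ?_⟩
    rcases h with (h | h) | h
    · exact or_iff_not_imp_left.mpr fun h' => ⟨dvd_of_not_cond h1 h', (sub_rep (by
        rw [Nat.div_mul_cancel (dvd_of_not_cond h1 h')]; omega) hr.pos).mpr h⟩
    · exact .inl h
    · omega
  · simp only [sub_two_rep, h1, false_and, false_or]
    rw [arith_sub hi (by omega), and_iff_right (show 2 ≤ orderOf _ by omega)]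
    rintro ⟨h2, h3⟩
    refine not_dvd_gl (X := Submodule F (Fin n → F) × Submodule F (Fin n → F)) hr h0 hV
      rfl (fun g P h => ⟨(Submodule.orderIsoMapComap g).isCompl h.1,
        (finrank_smul g _).trans h.2⟩) (fun P P' h h' => ?_) (fun U W hc h => ?_) hrΩ
    · exact (trans_compl h.1 h'.1 rfl (h.2.trans h'.2.symm)).imp fun g hg => Prod.ext hg.1 hg.2
    obtain ⟨Z, h4, h5⟩ := exists_le_finrank_eq U (h ▸ h3)
    obtain ⟨Y, h6, rfl⟩ := exists_compl_le h4
    refine ⟨(Z, Y ⊔ W), ⟨⟨h6.disjoint_sup_right_of_disjoint_sup_left hc.disjoint,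
      codisjoint_iff.mpr (by rw [← sup_assoc, hc.sup_eq_top])⟩, h5⟩, fun g hg hg' =>
      Prod.ext (smul_eq_of_fix hg h4) ?_⟩
    simp [smul_sup', hg', smul_eq_of_fix hg le_sup_right]

end Cfsg.Agent.S5950
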