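import Cfsg.Statements.S5951
import Mathlib
import Cfsg.Agent.H18.El3

set_option autoImplicit false
open scoped MatrixGroups
open Cfsg

namespace Cfsg.Agent.S5951

open Cfsg.Agent.H18.El Cfsg.Agent.H10 Cfsg.Agent.H11 Cfsg.Agent.L0 Module
attribute [local instance] actSub

/-- Elements of prime order of PSL_n(q) fixing no pair of subspaces `U < W` with `dim U = m`, `dim W = n − m`. Here `T = PSL_n(F)` for a field `F` with `q = p^f` elements (`n ≥ 2`, `(n, q) ≠ (2, 2), (2, 3)`); an element of `T` of prime order `r` is represented by a matrix `x` of determinant 1 with `x^r` scalar and `x` not scalar; `i` denotes the multiplicative order of `q` modulo `r` (when `r ≠ p`), and `(a)_r` the `r`-part of `a`. Let `1 ≤ m < n/2` and let `r` be a prime dividing the number of such pairs. Then every element of `T` of order `r` fixes such a pair (both `U` and `W`) if and only if `r ≠ p` and either (i) `i = 1` and (`r ∣ m`, or `(q−1)_r ≥ (n)_r` with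 `q ≡ 1 (mod 4)` required when `r = 2` and `n` is even), or (ii) `2 ≤ i ≤ m` and `n mod i ≥ 2 (m mod i)`. -/
theorem result {F : Type*} [Field F] [Fintype F] {p : ℕ} [Fact p.Prime] [CharP F p] {q : ℕ} (hq : Fintype.card F = q)
    (n m : ℕ) (hn : 2 ≤ n) (hT : (n, q) ≠ (2, 2) ∧ (n, q) ≠ (2, 3)) (hm : 1 ≤ m) (hmn : 2 * m < n)
    (r : ℕ) [Fact r.Prime]
    (hrΩ : r ∣ Nat.card {P : Submodule F (Fin n → F) × Submodule F (Fin n → F) //
        P.1 ≤ P.2 ∧ Module.finrank F ↥P.1 = m ∧ Module.finrank F ↥P.2 = n - m}) :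
    (∀ x : Matrix.SpecialLinearGroup (Fin n) F,
      (∃ c : F, ((x ^ r : Matrix.SpecialLinearGroup (Fin n) F) : Matrix (Fin n) (Fin n) F) = c • (1 : Matrix (Fin n) (Fin n) F)) →
      (∀ c : F, (x : Matrix (Fin n) (Fin n) F) ≠ c • (1 : Matrix (Fin n) (Fin n) F)) →
      ∃ U W : Submodule F (Fin n → F), U ≤ W ∧ Module.finrank F ↥U = m ∧ Module.finrank F ↥W = n - m ∧
        U.map (Matrix.toLin' (x : Matrix (Fin n) (Fin n) F)) ≤ U ∧ W.map (Matrix.toLin' (x : Matrix (Fin n) (Fin n) F)) ≤ W) ↔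
    (r ≠ p ∧
      ((orderOf (q : ZMod r) = 1 ∧ (r ∣ m ∨ (padicValNat r n ≤ padicValNat r (q - 1) ∧ (r = 2 → Even n → q % 4 = 1)))) ∨
       (2 ≤ orderOf (q : ZMod r) ∧ orderOf (q : ZMod r) ≤ m ∧ 2 * (m % orderOf (q : ZMod r)) ≤ n % orderOf (q : ZMod r)))) := by
  obtain rfl : Nat.card F = q := by rw [Nat.card_eq_fintype_card, hq]
  have hV : finrank F (Fin n → F) = n := finrank_fin_fun F
  have hr : r.Prime := Fact.out
  have := finite_sub (F := F) (V := Fin n → F)
  simp only [iv_iff]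
  rw [sl_forall r fun g => ∃ U W : Submodule F (Fin n → F), U ≤ W ∧ finrank F U = m ∧
    finrank F W = n - m ∧ Iv g U ∧ Iv g W]
  have hinv : ∀ (g : (Fin n → F) ≃ₗ[F] (Fin n → F))
      (P : Submodule F (Fin n → F) × Submodule F (Fin n → F)),
      (P.1 ≤ P.2 ∧ finrank F P.1 = m ∧ finrank F P.2 = n - m) →
      (g • P).1 ≤ (g • P).2 ∧ finrank F ↥(g • P).1 = m ∧ finrank F ↥(g • P).2 = n - m :=
    fun g P h => ⟨Submodule.map_mono h.1, (finrank_smul g _).trans h.2.1,
      (finrank_smul g _).trans h.2.2⟩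
  have hrp : r ≠ p := by
    rintro rfl
    obtain ⟨g, h1, h2⟩ := exists_reg r hV (by omega)
    refine not_dvd_of_fix hinv h1 ⊥ (x₀ := (LinearMap.ker ((g.toLinearMap - 1) ^ m),
      LinearMap.ker ((g.toLinearMap - 1) ^ (n - m)))) (fun W => ?_) (by simpa using hr.ne_one) hrΩ
    have h3 := reg_iff h2 (show m ≤ n by omega) W.1
    have h4 := reg_iff h2 (show n - m ≤ n by omega) W.2
    simp only [Subgroup.mem_bot, exists_eq_left, one_smul, Prod.ext_iff, Prod.smul_fst,
      Prod.smul_snd, smul_eq_iff]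
    refine ⟨fun ⟨⟨_, a, b⟩, c, d⟩ => ⟨(h3.mp ⟨a, c⟩).symm, (h4.mp ⟨b, d⟩).symm⟩, fun ⟨a, b⟩ =>
      ⟨⟨a ▸ b ▸ (LinearMap.iterateKer (g.toLinearMap - 1)).monotone (show m ≤ n - m by omega), (h3.mpr a.symm).1, (h4.mpr b.symm).1⟩,
        (h3.mpr a.symm).2, (h4.mpr b.symm).2⟩⟩
  have h0 := cast_ne_zero (F := F) hrp
  have hfl : ∀ {k r : ℕ}, 0 < r → k * r = n → ((∃ ν ν', ν ≤ ν' ∧ ν' ≤ Multiset.replicate k r ∧
      ν.sum = m ∧ ν'.sum = n - m) ↔ r ∣ m) := fun {k r} h1 h2 => by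
    refine ⟨fun ⟨ν, ν', a, b, c, _⟩ => (sub_rep (k := k) (by omega) h1).mp ⟨ν, a.trans b, c⟩, ?_⟩
    rintro ⟨j, rfl⟩
    have : 2 * j < k := Nat.lt_of_mul_lt_mul_right (a := r) (by nlinarith)
    refine ⟨.replicate j r, .replicate (k - j) r, (Multiset.replicate_le_replicate _).mpr
      (by omega), (Multiset.replicate_le_replicate _).mpr (by omega), by simp [mul_comm], ?_⟩
    simp [Nat.sub_mul, h2, mul_comm j]
  rw [sl_main (Pd := fun δ => ∃ ν ν', ν ≤ ν' ∧ ν' ≤ δ ∧ ν.sum = m ∧ ν'.sum = n - m) h0 hV (by omega)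
    rfl (fun g hg => hg.flag_iff m (n - m))
    (fun g c hc => by simp only [iv_smul hc, imp_self])
    ((hfl one_pos (mul_one n)).mpr (one_dvd _)), and_iff_right hrp]
  have hi := ord_pos hr h0
  split_ifs with h1
  · simp only [h1, true_and, Cond]
    refine ⟨fun h => .inl (h.symm.imp_left fun h => (hfl hr.pos (Nat.div_mul_cancel h.1)).mp h.2),
      fun h => ?_⟩
    rcases h with (h | h) | h
    · exact or_iff_not_imp_left.mpr fun h' => ⟨dvd_of_not_cond h1 h', (hfl hr.pos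
        (Nat.div_mul_cancel (dvd_of_not_cond h1 h'))).mpr h⟩
    · exact .inl h
    · omega
  · simp only [flag_two_rep, h1, false_and, false_or]
    rw [arith_flag hi (by omega), and_iff_right (show 2 ≤ orderOf _ by omega)]
    rintro ⟨h2, h3⟩
    refine not_dvd_gl (X := Submodule F (Fin n → F) × Submodule F (Fin n → F)) hr h0 hV
      rfl hinv (fun P P' h h' => ?_) (fun U W hc h => ?_) hrΩ
    · exact (trans_flag h.1 h'.1 (h.2.1.trans h'.2.1.symm) (h.2.2.trans h'.2.2.symm)).imp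
        fun g hg => Prod.ext hg.1 hg.2
    obtain ⟨Y, h4, h5⟩ := exists_le_finrank_eq U (k := finrank F U - m) (by omega)
    obtain ⟨Z, h6, h7⟩ := exists_le_finrank_eq Y (k := m) (by omega)
    have := Submodule.finrank_add_eq_of_isCompl hc
    refine ⟨(Z, Y ⊔ W), ⟨h6.trans le_sup_left, h7, by
      rw [finrank_sup_disj (hc.disjoint.mono_left h4)]; omega⟩, fun g hg hg' =>
      Prod.ext (smul_eq_of_fix hg (h6.trans h4)) ?_⟩
    simp [smul_sup', hg', smul_eq_of_fix hg h4]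

end Cfsg.Agent.S5951
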