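import Cfsg.Statements.S5952
import Mathlib
import Cfsg.Agent.H10.Elus15

set_option autoImplicit false
open Cfsg

namespace Cfsg.Agent.S5952

open Module H10 H18.El Polynomial

/-- Which dimensions of invariant subspaces a semisimple linear map has. Let `V` be a finite-dimensional vector space over a field `F` and `f` an invertible semisimple linear map of `V`. Suppose `V` is the internal direct sum of the fixed space `C_V(f)` (the eigenspace for 1) and subspaces `U_1, …, U_s`, each `f`-invariant of dimension `a ≥ 1` on which `f` acts irreducibly (no `f`-invariant subspaces other than 0 and `U_j`). Let `0 < m < dim V` and `ℓ = m mod a`. Then `f` leaves some `m`-dimensional subspace invariant if and only if `dim C_V(f) ≥ m`, or `a ≤ m` and `dim C_V(f) ≥ ℓ`. -/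
theorem result {F V : Type*} [Field F] [AddCommGroup V] [Module F V]
    [FiniteDimensional F V] (f : V →ₗ[F] V) (hf : Function.Bijective f) (hss : Module.End.IsSemisimple f)
    {s a : ℕ} (ha : 1 ≤ a) (U : Fin s → Submodule F V)
    (hUinv : ∀ j, (U j).map f ≤ U j) (hUdim : ∀ j, Module.finrank F ↥(U j) = a)
    (hUirr : ∀ j, ∀ W : Submodule F V, W ≤ U j → W.map f ≤ W → W = ⊥ ∨ W = U j)
    (hdec : DirectSum.IsInternal (fun o : Option (Fin s) => o.elim (Module.End.eigenspace f 1) U))
    (m : ℕ) (hm : 0 < m) (hmV : m < Module.finrank F V) :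
    (∃ W : Submodule F V, Module.finrank F ↥W = m ∧ W.map f ≤ W) ↔
    (m ≤ Module.finrank F ↥(Module.End.eigenspace f 1) ∨
      (a ≤ m ∧ m % a ≤ Module.finrank F ↥(Module.End.eigenspace f 1))) := by
  classical
  have h1 : SS f := fun W hW => by
    obtain ⟨W', a1, a2⟩ := Module.End.isSemisimple_iff.mp hss W hW
    exact ⟨W', a1, a2⟩
  choose τ hτ using fun j => (iv_iff.mp (hUinv j)).ht
  have h2 : ∀ j, (τ j).map natDegree = {a} := fun j => by
    have e := (hτ j).finrank
    rw [hUdim] at e
    obtain ⟨u, hu⟩ := Multiset.exists_mem_of_ne_zero (s := τ j) (by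
      intro c; rw [c, dg_zero] at e; omega)
    obtain ⟨t, ht⟩ := Multiset.exists_cons_of_mem hu
    obtain ⟨Z, Y, x1, x2, x3, x4⟩ := HT.split (s := {u}) (t := t) (by simpa [ht] using hτ j)
    have e2 : t = 0 := by
      rcases hUirr j Z (x2 ▸ le_sup_left) (iv_iff.mpr x3.iv) with c | c
      · exact absurd ((c ▸ x3).uniq (ht_bot f)) (by simp)
      · exact x4.uniq (x1.symm.eq_bot_of_le (c ▸ x2 ▸ le_sup_right) ▸ ht_bot f)
    simpa [ht, e2, dg] using e.symm
  have h3 : HT f (Module.End.eigenspace f 1) _ := tyOn_of_fix fun x hx => by simpa using hx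
  have h4 := hdec.submodule_iSupIndep
  have h5 : ∀ T : Finset (Option (Fin s)), HT f (T.sup fun o => o.elim (Module.End.eigenspace f 1) U)
      (∑ o ∈ T, o.elim (Multiset.replicate (finrank F (Module.End.eigenspace f 1)) (X - 1)) τ) :=
    fun T => by
      induction T using Finset.induction_on with
      | empty => simpa using ht_bot f
      | insert o T ho ih =>
        rw [Finset.sup_insert, Finset.sum_insert ho]
        refine HT.sup (by rcases o with _ | j; exacts [h3, hτ j]) ih ?_
        rw [Finset.sup_eq_iSup]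
        simpa using h4.disjoint_biSup (y := (T : Set (Option (Fin s)))) (x := o) (by simpa using ho)
  have h6 := h5 Finset.univ
  rw [Finset.sup_univ_eq_iSup, hdec.submodule_iSup_eq_top] at h6
  have h7 : dm f = Multiset.replicate (finrank F (Module.End.eigenspace f 1)) 1 +
      Multiset.replicate s a := by
    rw [dm, (ht_top f).uniq h6, Fintype.sum_option, Multiset.map_add,
      ← Multiset.coe_mapAddMonoidHom natDegree, map_sum]
    simp [h2, Multiset.nsmul_singleton, L0.natDegree_X_sub_one]
  have h8 := sum_dm f
  simp only [iv_iff]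
  rw [h1.sub_iff, h7, sub_two_rep]
  rw [h7, sum_two_rep] at h8
  generalize finrank F (Module.End.eigenspace f 1) = e at *
  constructor
  · rintro ⟨a', b1, k, -, rfl⟩
    rcases k with _ | k
    · exact .inl (by omega)
    · exact .inr ⟨by nlinarith, by rw [Nat.add_mul_mod_self_right]; exact (Nat.mod_le _ _).trans b1⟩
  · rintro (b | ⟨-, b⟩)
    · exact ⟨m, b, 0, by simp, by simp⟩
    rcases le_total (m / a) s with c | c
    · exact ⟨_, b, _, c, Nat.mod_add_div' m a⟩
    · have := (Nat.le_div_iff_mul_le ha).mp c
      exact ⟨m - s * a, by omega, s, le_rfl, by omega⟩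

end Cfsg.Agent.S5952
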