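import Cfsg.Statements.S5955
import Mathlib
import Cfsg.Agent.H10.Elus7

set_option autoImplicit false
open scoped MatrixGroups
open Cfsg

namespace Cfsg.Agent.S5955

open Module H10 H11

/-- Elements of prime order of PSp_n(q) with no fixed totally isotropic `m`-space. Here `T = PSp_n(q)` with `n = 2d ≥ 4`, `(n, q) ≠ (4, 2)`, realised through the symplectic matrices over the field `F` with `q` elements (preserving the standard alternating form); an element of `T` of prime order `r` is such a matrix `x` with `x^r` scalar and `x` not scalar. For `r ≠ p` let `i` be the multiplicative order of `q` modulo `r`, `c = i` for `i` even and `c = 2i` for `i` odd, and write `k = n mod c`, `ℓ = m mod i`, `ℓ' = m mod c`, `n' = ⌊n/i⌋`, `m' = ⌊m/i⌋`, `t = (r−1)/i`. Let `1 ≤ m ≤ n/2` and let `r` be a prime dividing the number of totally isotropic `m`-spaces. Then every element of `T` of order `r` fixes a totally isotropic `m`-space if and only if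 either (i) `r = 2 ≠ p` and (`m` is even or `q ≡ 1 (mod 4)`); or (ii) `r ≠ p`, `r > 2`, `i ≤ m`, `k ≥ 2ℓ`, and (`i` is odd or `n' − 2m' ≥ t`). -/
theorem result {F : Type*} [Field F] [Fintype F] {p : ℕ} [Fact p.Prime] [CharP F p] {q : ℕ} (hq : Fintype.card F = q)
    (d m : ℕ) (hd : 2 ≤ d) (hT : (d, q) ≠ (2, 2)) (hm : 1 ≤ m) (hmd : m ≤ d)
    (r : ℕ) [Fact r.Prime]
    (hrΩ : r ∣ Nat.card {W : Submodule F (Fin d ⊕ Fin d → F) // Module.finrank F ↥W = m ∧ (∀ u ∈ W, ∀ v ∈ W, Cfsg.sympForm d F u v = 0)})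
    (i c : ℕ) (hi : i = orderOf (q : ZMod r)) (hc : c = if Even i then i else 2 * i) :
    (∀ x : ↥(Matrix.symplecticGroup (Fin d) F),
      (∃ z : F, ((x ^ r : ↥(Matrix.symplecticGroup (Fin d) F)) : Matrix (Fin d ⊕ Fin d) (Fin d ⊕ Fin d) F) = z • (1 : Matrix (Fin d ⊕ Fin d) (Fin d ⊕ Fin d) F)) →
      (∀ z : F, (x : Matrix (Fin d ⊕ Fin d) (Fin d ⊕ Fin d) F) ≠ z • (1 : Matrix (Fin d ⊕ Fin d) (Fin d ⊕ Fin d) F)) →
      ∃ W : Submodule F (Fin d ⊕ Fin d → F), Module.finrank F ↥W = m ∧ (∀ u ∈ W, ∀ v ∈ W, Cfsg.sympForm d F u v = 0) ∧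
        W.map (Matrix.toLin' (x : Matrix (Fin d ⊕ Fin d) (Fin d ⊕ Fin d) F)) ≤ W) ↔
    ((r = 2 ∧ p ≠ 2 ∧ (Even m ∨ q % 4 = 1)) ∨
     (r ≠ p ∧ 2 < r ∧ i ≤ m ∧ 2 * (m % i) ≤ (2 * d) % c ∧ (Odd i ∨ (r - 1) / i + 2 * (m / i) ≤ (2 * d) / i))) := by
  have hA := spBilin_isAlt (l := Fin d) (F := F)
  have hB := (spBilin_nondegenerate (l := Fin d) (F := F)).1
  have h := isForm_alt hA
  have hn : finrank F (Fin d ⊕ Fin d → F) = 2 * d := by simp [two_mul]
  have : Nontrivial (Fin d ⊕ Fin d → F) := Module.nontrivial_of_finrank_pos (R := F) (by omega)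
  have e : ∀ W : Submodule F (Fin d ⊕ Fin d → F), (∀ u ∈ W, ∀ v ∈ W, Cfsg.sympForm d F u v = 0) ↔
      TotSing (σ := RingHom.id F) (spBilin (Fin d) F) (fun _ => 0) W := fun W => by
    simp [TotSing, sympForm_eq_spBilin]
  simp only [e, ← and_assoc] at hrΩ ⊢
  rw [elu_sp]
  have hr : r.Prime := Fact.out
  obtain ⟨U, -, u1, u2⟩ := (exists_totSing_le h (nondegOn_top hB) (alt_on hA (nondegOn_top hB)).2.1
    (b := m)).mpr (by simp; omega)
  have hp : r ≠ p := by
    rintro rfl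
    exact not_dvd_card_totSing h hB ⟨U, u2, u1⟩ (.inr (by
      simpa using (Fintype.one_lt_card (α := F)).ne')) hrΩ
  rcases hr.eq_two_or_odd' with rfl | h2
  · obtain ⟨h3, h4, -⟩ := (char_facts hq).2 hp.symm
    rw [elu_two hB h3, or_iff_left (by omega), ← h4]
    refine ⟨fun H => ⟨⟨rfl, hp.symm⟩, (cx_alt_totSing hA h3 (y := spIso _ F ⟨_, SymplecticGroup.J_mem _ F⟩)
      (fun v => by simp [spIso_apply, Matrix.J_squared, Matrix.neg_mulVec]) hB (by omega)).mp
        (H.2 _ trivial fun v => by simp [spIso_apply, Matrix.J_squared, Matrix.neg_mulVec])⟩,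
      fun H => ⟨fun y _ h5 _ _ => ?_, fun y _ h5 => (cx_alt_totSing hA h3 h5 hB (by omega)).mpr H.2⟩⟩
    obtain ⟨a1, a2, -, -, a3, -⟩ := invol_data h hB h3 h5
    have := Nat.even_iff.mp (alt_on hA a1).1
    exact (invol_totSing h hB h3 h5 (alt_on hA a1).2.1 (alt_on hA a2).2.1).mpr (by omega)
  have h3 : r ≠ 2 := by rintro rfl; exact absurd h2 (by decide)
  have O := od_id (F := F) hr h3 hp (Nat.card_eq_fintype_card.trans hq) hi hc
  rw [elu_odd hB h2 (by simp), O.totSing_max h hB par_alt (by omega) (fun y hy => (alt_on hA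
    (nondegOn_fixS h hB y.2 (isom_disjoint hy O.ne))).2.1) (fun k hk => adm_alt hA hB hk) hrΩ, hn]
  have := hr.two_le
  have := (c_facts hc O.pos.1).2.1
  simp only [Nat.odd_iff]
  omega

end Cfsg.Agent.S5955
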