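import Cfsg.Statements.S5956
import Mathlib
import Cfsg.Agent.H10.Elus10

set_option autoImplicit false
open scoped MatrixGroups
open Cfsg

namespace Cfsg.Agent.S5956

open Module H10 H11

/-- Elements of prime order of PSp_n(q) with no fixed nondegenerate `m`-space. Here `T = PSp_n(q)` with `n = 2d ≥ 4`, `(n, q) ≠ (4, 2)`, realised through the symplectic matrices over the field `F` with `q` elements (preserving the standard alternating form); an element of `T` of prime order `r` is such a matrix `x` with `x^r` scalar and `x` not scalar. For `r ≠ p` let `i` be the multiplicative order of `q` modulo `r`, `c = i` for `i` even and `c = 2i` for `i` odd, and write `k = n mod c`, `ℓ = m mod i`, `ℓ' = m mod c`, `n' = ⌊n/i⌋`, `m' = ⌊m/i⌋`, `t = (r−1)/i`. Let `m` be even with `2 ≤ m < n/2` and let `r` be a prime dividing the number of nondegenerate `m`-spaces. Then every element of `T` of order `r` fixes a nondegenerate `m`-space if and only if one of: (i)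 `r = p > 2` and every partition of `n` into parts of size at most `p` in which every odd part has even multiplicity contains (as a sub-multiset) a partition of `m` in which every odd part has even multiplicity; (ii) `r = p = 2` and (`n ≡ 2 (mod 4)` or `m ≡ 0 (mod 4)`); (iii) `r = 2 ≠ p`; (iv) `r ≠ p`, `r > 2`, `c ≤ m` and `k ≥ ℓ'`. -/
theorem result {F : Type*} [Field F] [Fintype F] {p : ℕ} [Fact p.Prime] [CharP F p] {q : ℕ} (hq : Fintype.card F = q)
    (d m : ℕ) (hd : 2 ≤ d) (hT : (d, q) ≠ (2, 2)) (hm : 2 ≤ m) (hme : Even m) (hmd : m < d)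
    (r : ℕ) [Fact r.Prime]
    (hrΩ : r ∣ Nat.card {W : Submodule F (Fin d ⊕ Fin d → F) // Module.finrank F ↥W = m ∧ (∀ u ∈ W, u ≠ 0 → ∃ v ∈ W, Cfsg.sympForm d F u v ≠ 0)})
    (i c : ℕ) (hi : i = orderOf (q : ZMod r)) (hc : c = if Even i then i else 2 * i) :
    (∀ x : ↥(Matrix.symplecticGroup (Fin d) F),
      (∃ z : F, ((x ^ r : ↥(Matrix.symplecticGroup (Fin d) F)) : Matrix (Fin d ⊕ Fin d) (Fin d ⊕ Fin d) F) = z • (1 : Matrix (Fin d ⊕ Fin d) (Fin d ⊕ Fin d) F)) →
      (∀ z : F, (x : Matrix (Fin d ⊕ Fin d) (Fin d ⊕ Fin d) F) ≠ z • (1 : Matrix (Fin d ⊕ Fin d) (Fin d ⊕ Fin d) F)) →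
      ∃ W : Submodule F (Fin d ⊕ Fin d → F), Module.finrank F ↥W = m ∧ (∀ u ∈ W, u ≠ 0 → ∃ v ∈ W, Cfsg.sympForm d F u v ≠ 0) ∧
        W.map (Matrix.toLin' (x : Matrix (Fin d ⊕ Fin d) (Fin d ⊕ Fin d) F)) ≤ W) ↔
    ((r = p ∧ 2 < p ∧ (∀ μ : Multiset ℕ, (∀ a ∈ μ, 0 < a ∧ a ≤ p) → (∀ a : ℕ, Odd a → Even (μ.count a)) → μ.sum = 2 * d →
        ∃ ν : Multiset ℕ, ν ≤ μ ∧ ν.sum = m ∧ ∀ a : ℕ, Odd a → Even (ν.count a))) ∨
     (r = p ∧ p = 2 ∧ ((2 * d) % 4 = 2 ∨ m % 4 = 0)) ∨
     (r = 2 ∧ p ≠ 2) ∨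
     (r ≠ p ∧ 2 < r ∧ c ≤ m ∧ m % c ≤ (2 * d) % c)) := by
  have hA := spBilin_isAlt (l := Fin d) (F := F)
  have hB := (spBilin_nondegenerate (l := Fin d) (F := F)).1
  have h := isForm_alt hA
  have hn : finrank F (Fin d ⊕ Fin d → F) = 2 * d := by simp [two_mul]
  have : Nontrivial (Fin d ⊕ Fin d → F) := Module.nontrivial_of_finrank_pos (R := F) (by omega)
  have e : ∀ W : Submodule F (Fin d ⊕ Fin d → F), (∀ u ∈ W, u ≠ 0 → ∃ v ∈ W,
      Cfsg.sympForm d F u v ≠ 0) ↔ NondegOn (σ := RingHom.id F) (spBilin (Fin d) F) W := fun W => by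
    simp only [sympForm_eq_spBilin, NondegOn]
    exact forall₂_congr fun x _ => by rw [← not_imp_not]; push Not; rfl
  simp only [e, ← and_assoc] at hrΩ ⊢
  rw [elu_sp]
  have hr : r.Prime := Fact.out
  have := hr.two_le
  rcases hr.eq_two_or_odd' with rfl | h2
  · obtain ⟨j, rfl⟩ := hme
    rw [← two_mul] at *
    by_cases hp : p = 2
    · subst hp
      rw [elu_alt_char_two hA hB hn hd (by omega)]
      simp only [lt_irrefl, and_false, false_and, false_or, true_and, ne_eq, not_true, or_false]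
      omega
    · exact iff_of_true (elu_alt_two hA hB ((char_facts hq).2 hp).1 (by omega) (by omega))
        (.inr (.inr (.inl ⟨rfl, hp⟩)))
  have h3 : r ≠ 2 := by rintro rfl; exact absurd h2 (by decide)
  rw [elu_odd hB h2 (by simp)]
  by_cases hp : r = p
  · subst hp
    rw [alt_part hA hB ((char_facts hq).2 h3).1 hme (by omega), hn]
    simp [h3, show 2 < r by omega, and_assoc]
  have O := od_id (F := F) hr h3 hp (Nat.card_eq_fintype_card.trans hq) hi hc
  have hD := (c_facts hc O.pos.1).1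
  rw [O.nondeg_plain h hB par_alt (by omega) (by omega) (fun W j b a1 a2 a3 => (alt_on hA a1).2.2 b
    ((Nat.even_add.mp (a3 ▸ hme)).mp (hD.mul_left j)) a2) (fun k hk => adm_alt hA hB hk)
    (fun U W => alt_orbit hA hB) hrΩ, hn]
  simp [hp, h3, show 2 < r by omega]

end Cfsg.Agent.S5956
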