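import Cfsg.Statements.S5964
import Mathlib
import Cfsg.Agent.H18.Li4
import Cfsg.Agent.H11.ClassifyQ

set_option autoImplicit false
open scoped MatrixGroups
open Cfsg

namespace Cfsg.Agent.S5964

open Cfsg.Agent.H18.El Cfsg.Agent.H10 Cfsg.Agent.H11 Cfsg.Agent.L0 Module

/-- Involutions of PSL_n(q) and subfield subgroups. Here `T = PSL_n(F)` for a field `F` with `q = p^f` elements (`n ≥ 2`, `(n, q) ≠ (2, 2), (2, 3)`), `F₀` is the subfield with `q₀` elements where `q = q₀^k` for a prime `k`, and `H` is the subgroup of matrices of determinant 1 lying in the subfield group of `F₀` (invertible matrices over `F₀` times scalars) — a maximal subgroup of type GL_n(q₀) (the case `n = 2`, `q₀ = 2` is excluded); Ω is the set of `T`-conjugates of `H` (cosets of `H`), so an element of `T` of prime order `r` (a matrix `x` of determinant 1 with `x^r` scalar, `x` not scalar) fixes a point of Ω when some conjugate of `x` by a matrix of determinant 1 lies in `H`. Suppose the index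 of `H` is even. Then every involution of `T` is conjugate in `T` into `H` if and only if either `q` is even, or `k = 2` and `(n)_2 ≤ (q − 1)_2`. (For `q` odd and `k` odd the index of `H` is odd, so that case does not arise.) -/
theorem result {F : Type*} [Field F] [Fintype F] {p : ℕ} [Fact p.Prime] [CharP F p] {q : ℕ} (hq : Fintype.card F = q)
    (n : ℕ) (hn : 2 ≤ n) (hT : (n, q) ≠ (2, 2) ∧ (n, q) ≠ (2, 3))
    (F₀ : Subfield F) (k q₀ : ℕ) (hk : k.Prime) (hF₀ : Nat.card ↥F₀ = q₀) (hqk : q = q₀ ^ k) (hC5 : ¬ (n = 2 ∧ q₀ = 2)) (hΩ : 2 ∣ ((Cfsg.Geo.subfieldSubgroup F₀ 1).comap (Matrix.SpecialLinearGroup.toGL : Matrix.SpecialLinearGroup (Fin n) F →* GL (Fin n) F)).index) :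
    (∀ x : Matrix.SpecialLinearGroup (Fin n) F,
      (∃ z : F, ((x ^ 2 : Matrix.SpecialLinearGroup (Fin n) F) : Matrix (Fin n) (Fin n) F) = z • (1 : Matrix (Fin n) (Fin n) F)) →
      (∀ z : F, (x : Matrix (Fin n) (Fin n) F) ≠ z • (1 : Matrix (Fin n) (Fin n) F)) →
      ∃ P : Matrix.SpecialLinearGroup (Fin n) F, P⁻¹ * x * P ∈ ((Cfsg.Geo.subfieldSubgroup F₀ 1).comap (Matrix.SpecialLinearGroup.toGL : Matrix.SpecialLinearGroup (Fin n) F →* GL (Fin n) F))) ↔
    (Odd q → (k = 2 ∧ padicValNat 2 n ≤ padicValNat 2 (q - 1))) := by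
  obtain rfl : Nat.card F = q := by rw [Nat.card_eq_fintype_card, hq]
  subst hF₀
  have : Nonempty (Fin n) := ⟨⟨0, by omega⟩⟩
  rw [idx_sl] at hΩ
  rw [el_sl, el_iff (.inr rfl)]
  by_cases hp : 2 = p
  · subst hp
    obtain ⟨f, -, hf⟩ := FiniteField.card F 2
    refine iff_of_true (ti_char 2) fun h => absurd h ?_
    rw [Nat.card_eq_fintype_card, hf, Nat.odd_pow_iff f.ne_zero]; decide
  have h0 : ((2 : ℕ) : F) ≠ 0 := cast_ne_zero hp
  have ho : Odd (Nat.card F) := Nat.not_even_iff_odd.mp fun e =>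
    not_dvd_card Nat.prime_two h0 e.two_dvd
  have ho' : Odd (Nat.card F₀) := (Nat.odd_pow_iff hk.ne_zero).mp (hqk ▸ ho)
  have h1 : ∀ {m : ℕ}, Odd m → (m : ZMod 2) = 1 := ZMod.natCast_eq_one_iff_odd.mpr
  obtain rfl : k = 2 := by_contra fun e => not_dvd_sub h0 hqk
    (by rw [h1 (hk.odd_of_ne_two e)]; exact one_ne_zero) (fun i _ => by rw [h1 ho', one_pow]) hΩ
  rw [ns_main (by have := ho.pos; obtain ⟨_, _⟩ := ho; omega) (by simp; omega)
    (TI.smul scalars_le_sub) (not_ti_ns fun w => ?_) fun g => ti_of_ord h0 (by rw [h1 ho, h1 ho'])]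
  · have : Nat.card F % 4 = 1 := by
      obtain ⟨a, ha⟩ := ho'
      rw [hqk, ha, show (2 * a + 1) ^ 2 = 4 * (a * a + a) + 1 by ring]; omega
    simp only [Cond, finrank_fin_fun, this, ho, implies_true, and_true, true_and, forall_true_left]
  · by_cases e : w = 0
    · exact ⟨0, by simp [e]⟩
    obtain ⟨d, hd⟩ := (isSquare_subfield_iff (by simpa using h0) hqk.symm e).mpr (.inl even_two)
    exact ⟨d, by rw [hd, sq]⟩

end Cfsg.Agent.S5964
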