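import Cfsg.Statements.S5965
import Mathlib
import Cfsg.Agent.H18.Li4
import Cfsg.Agent.H11.ClassifyQ

set_option autoImplicit false
open scoped MatrixGroups
open Cfsg

namespace Cfsg.Agent.S5965

open Cfsg.Agent.H18.El Cfsg.Agent.H10 Cfsg.Agent.H11 Cfsg.Agent.L0 Module

/-- Elements of odd prime order r ≠ p of PSL_n(q) and subfield subgroups. Here `T = PSL_n(F)` for a field `F` with `q = p^f` elements (`n ≥ 2`, `(n, q) ≠ (2, 2), (2, 3)`), `F₀` is the subfield with `q₀` elements where `q = q₀^k` for a prime `k`, and `H` is the subgroup of matrices of determinant 1 lying in the subfield group of `F₀` (invertible matrices over `F₀` times scalars) — a maximal subgroup of type GL_n(q₀) (the case `n = 2`, `q₀ = 2` is excluded); Ω is the set of `T`-conjugates of `H` (cosets of `H`), so an element of `T` of prime order `r` (a matrix `x` of determinant 1 with `x^r` scalar, `x` not scalar) fixes a point of Ω when some conjugate of `x` by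 a matrix of determinant 1 lies in `H`. Let `r ≠ p` be an odd prime dividing the index of `H`, with `(n, r) ≠ (6, 3)` and, when `r = k` divides `q₀ − 1`, with `(n)_r ≤ (q − 1)_r`. Then every element of `T` of order `r` is conjugate in `T` into `H` if and only if `r = k`, or `k = 2`, `r = n ∈ {3, 5}` and `(q₀ + 1)_r = r`. The two excluded cases, `(n, r) = (6, 3)` and `r = k ∣ q₀ − 1` with `(n)_r > (q − 1)_r`, are ones where this criterion can fail, so they are left out. -/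
theorem result {F : Type*} [Field F] [Fintype F] {p : ℕ} [Fact p.Prime] [CharP F p] {q : ℕ} (hq : Fintype.card F = q)
    (n : ℕ) (hn : 2 ≤ n) (hT : (n, q) ≠ (2, 2) ∧ (n, q) ≠ (2, 3))
    (F₀ : Subfield F) (k q₀ : ℕ) (hk : k.Prime) (hF₀ : Nat.card ↥F₀ = q₀) (hqk : q = q₀ ^ k) (hC5 : ¬ (n = 2 ∧ q₀ = 2)) (r : ℕ) [Fact r.Prime] (hr2 : r ≠ 2) (hrp : r ≠ p) (hgap : ¬ (n = 6 ∧ r = 3)) (hgapk : r = k → r ∣ q₀ - 1 → padicValNat r n ≤ padicValNat r (q - 1)) (hΩ : r ∣ ((Cfsg.Geo.subfieldSubgroup F₀ 1).comap (Matrix.SpecialLinearGroup.toGL : Matrix.SpecialLinearGroup (Fin n) F →* GL (Fin n) F)).index) :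
    (∀ x : Matrix.SpecialLinearGroup (Fin n) F,
      (∃ z : F, ((x ^ r : Matrix.SpecialLinearGroup (Fin n) F) : Matrix (Fin n) (Fin n) F) = z • (1 : Matrix (Fin n) (Fin n) F)) →
      (∀ z : F, (x : Matrix (Fin n) (Fin n) F) ≠ z • (1 : Matrix (Fin n) (Fin n) F)) →
      ∃ P : Matrix.SpecialLinearGroup (Fin n) F, P⁻¹ * x * P ∈ ((Cfsg.Geo.subfieldSubgroup F₀ 1).comap (Matrix.SpecialLinearGroup.toGL : Matrix.SpecialLinearGroup (Fin n) F →* GL (Fin n) F))) ↔
    (r = k ∨ (k = 2 ∧ r = n ∧ (n = 3 ∨ n = 5) ∧ padicValNat r (q₀ + 1) = 1)) := by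
  obtain rfl : Nat.card F = q := by rw [Nat.card_eq_fintype_card, hq]
  subst hF₀
  have : Nonempty (Fin n) := ⟨⟨0, by omega⟩⟩
  have hr : r.Prime := Fact.out
  have h0 : (r : F) ≠ 0 := cast_ne_zero hrp
  have hV : finrank F (Fin n → F) = n := by simp
  have hx : ((Nat.card F : ℕ) : ZMod r) = ((Nat.card F₀ : ℕ) : ZMod r) ^ k := by
    rw [hqk, Nat.cast_pow]
  have hs := TI.smul (scalars_le_sub (ι := Fin n) (K := F₀))
  rw [idx_sl] at hΩ
  rw [el_sl, el_iff (.inl h0)]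
  by_cases hrk : r = k
  · subst hrk
    rw [ZMod.pow_card] at hx
    refine iff_of_true (fun g hd hg => ?_) (.inl rfl)
    rcases pe_cases hr.ne_zero (by omega) (by simp [hd]) hg with ⟨c, e1, e2, -⟩ | ⟨z, e1, e2, e3⟩
    · exact hs g c e1 (ti_of_ord h0 (by rw [hx]) e2)
    · exact absurd ⟨hV.symm ▸ hgapk rfl ((ord_eq_one_iff Nat.card_pos).mp (hx ▸ (ord_eq_one_iff
        Nat.card_pos).mpr (dvd_of_nonpow e1 e3))), fun e => absurd e hr2⟩
        (not_cond (by omega) hd e1 e2 e3)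
  have h1 : k ∣ orderOf ((Nat.card F₀ : ℕ) : ZMod r) := by_contra fun e => not_dvd_sub h0 hqk
    (fun e => hrk ((Nat.prime_dvd_prime_iff_eq hr hk).mp ((ZMod.natCast_eq_zero_iff _ _).mp e)))
    (fun i hi => orderOf_dvd_iff_pow_eq_one.mp ((hk.coprime_iff_not_dvd.mpr e).symm.dvd_of_dvd_mul_right
      (orderOf_dvd_of_pow_eq_one hi))) hΩ
  have hK : ¬ r ∣ Nat.card F₀ - 1 := fun e => hk.not_dvd_one ((ord_eq_one_iff Nat.card_pos).mpr e ▸ h1)
  have hK' : ((Nat.card F₀ : ℕ) : ZMod r) ≠ 1 := fun e =>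
    hK ((ord_eq_one_iff Nat.card_pos).mp (by rw [e, orderOf_one]))
  rw [or_iff_right hrk]
  by_cases hq1 : r ∣ Nat.card F - 1
  swap
  · refine iff_of_false (fun H => ?_) fun ⟨e1, _, _, e2⟩ => hq1 ?_
    · obtain ⟨g, a, u, e1, e2, e3, e4, e5, e6, -, e7⟩ := exists_small (V := Fin n → F) h0 hq1
        (hV.symm ▸ ord_le h0 hΩ)
      have e8 := (H g e1 e3).ord_dvd h0 hq1 hqk e2 e4 e5 e7
      have e9 := ord_pos hr h0
      rw [e6] at e8
      rw [hx, orderOf_pow_of_dvd hk.ne_zero h1] at e8 e9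
      exact absurd (Nat.le_of_dvd e9 e8) (not_le.mpr (Nat.div_lt_self
        (Nat.pos_of_div_pos e9) hk.one_lt))
    · rw [hqk, e1, ← one_pow 2, Nat.sq_sub_sq]
      exact Dvd.dvd.mul_right ((dvd_iff_padicValNat_ne_zero (by omega)).mpr (by omega)) _
  obtain ⟨ζ, hζ⟩ := exists_root hq1
  have h2 : ¬ k = 2 → ((Nat.card F₀ : ℕ) : ZMod r) ^ 2 ≠ 1 := fun e e' =>
    e ((Nat.prime_dvd_prime_iff_eq hk Nat.prime_two).mp (h1.trans (orderOf_dvd_of_pow_eq_one e')))
  by_cases hk2 : k = 2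
  · subst hk2
    have h3 : ((Nat.card F₀ : ℕ) : ZMod r) = -1 := (mul_self_eq_one_iff.mp (by
      rw [← sq, ← hx, ← orderOf_eq_one_iff, ord_eq_one_iff Nat.card_pos]; exact hq1)).resolve_left hK'
    have h4 : ∀ {m : Multiset F} {d : F}, (∀ a ∈ m, a ^ r = 1) → d ^ r = 1 →
        (m.map (d * ·)).map (· ^ Nat.card F₀) = (m.map (d * ·)).map (·⁻¹) := fun h hd =>
      Multiset.map_congr rfl fun a ha => by
        obtain ⟨b, hb, rfl⟩ := Multiset.mem_map.mp ha
        exact pow_eq_inv (by rw [mul_pow, hd, h b hb, one_mul]) h3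
    have h5 : n ≠ 2 := by rintro rfl; exact not_dvd_sub_two hr2 hqk h3 hΩ
    rw [sym_main hr2 hq1 hV (by omega) hgap hs (not_ti_ns fun w => ?_) (fun g m hg hm H => ?_)
      fun _ g m hg hm H => ?_]
    · have := Nat.card_pos (α := F₀)
      rw [hqk, show Nat.card F₀ ^ 2 - 1 = _ from Nat.sq_sub_sq _ 1, padicValNat.mul (by omega)
        fun e => hK (by simp [e]), padicValNat.eq_zero_of_not_dvd hK]
      omega
    · obtain ⟨d, rfl⟩ := exists_pow_of hK w
      exact ⟨d, by simp⟩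
    · obtain ⟨d, e1, e2⟩ := H.frob hK hg hm
      exact sy_of (d := d) (by rintro rfl; simp [hr.ne_zero] at e1)
        (h4 ((lin_pow hm r 1).mp (by simpa using hg)) e1 ▸ e2)
    · have e0 := (lin_pow hm r 1).mp (by simpa using hg)
      obtain ⟨d, e1, e2⟩ := H.norm (hr.odd_of_ne_two hr2) e0
      have e3 : (d • g) ^ r = 1 := by rw [_root_.smul_pow, e1, hg, one_smul]
      refine hs g d (by rintro rfl; simp [hr.ne_zero] at e1) (ti_of_lifts
        (fun u hu => (irrD_of_mem h0 e3 hu).1) (fun e => ?_) ?_)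
      · simpa [e, hr.ne_zero] using congrArg LinearMap.det e3
      · rw [lin_smul hm, prod_lin_lifts, h4 e0 e1, e2]
  · refine iff_of_false (fun H => h2 hk2 ?_) fun h => hk2 h.1
    have e0 := hζ.ne_zero hr.ne_zero
    obtain ⟨y, hy⟩ := exists_diag (V := Fin n → F) (m := Multiset.replicate (n - 2) 1 + {ζ, ζ⁻¹})
      (by simp; omega)
    have e1 : ∀ a ∈ Multiset.replicate (n - 2) 1 + {ζ, ζ⁻¹}, a ^ r = 1 := fun a ha => by
      rcases Multiset.mem_add.mp ha with h | h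
      · simp [Multiset.eq_of_mem_replicate h]
      · rcases Multiset.mem_cons.mp h with rfl | h
        exacts [hζ.pow_eq_one, Multiset.mem_singleton.mp h ▸ hζ.inv.pow_eq_one]
    obtain ⟨d, e2, e3⟩ := (H y (by simp [lin_det hy, e0]) (lin_pe hy (a := ζ) (b := ζ⁻¹) (by simp)
      (by simp) (fun e => hr2 ((Nat.prime_dvd_prime_iff_eq hr Nat.prime_two).mp
        (hζ.dvd_of_pow_eq_one 2 (by rw [sq]; nth_rw 2 [e]; exact mul_inv_cancel₀ e0)))) e1)).frob hK
      (by simpa using (lin_pow hy r 1).mpr e1) hy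
    exact frob_three hr2 hζ e2 hK' e3

end Cfsg.Agent.S5965
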