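import Cfsg.Statements.S5966
import Mathlib
import Cfsg.Agent.H18.Li4
import Cfsg.Agent.H11.ClassifyQ

set_option autoImplicit false
open scoped MatrixGroups
open Cfsg

namespace Cfsg.Agent.S5966

open Cfsg.Agent.H18.El Cfsg.Agent.H10 Cfsg.Agent.H11 Cfsg.Agent.L0 Module

/-- Elements of order 3 of PSL_n(q) in characteristic 3 and subfield subgroups. Here `T = PSL_n(F)` for a field `F` with `q` elements, `q` a power of 3 (`n ≥ 2`, `(n, q) ≠ (2, 2), (2, 3)`), `F₀` is the subfield with `q₀` elements where `q = q₀^k` for a prime `k`, and `H` is the subgroup of matrices of determinant 1 lying in the subfield group of `F₀` (invertible matrices over `F₀` times scalars) — a maximal subgroup of type GL_n(q₀) (the case `n = 2`, `q₀ = 2` is excluded); Ω is the set of `T`-conjugates of `H` (cosets of `H`), so an element of `T` of prime order `r` (a matrix `x` of determinant 1 with `x^r` scalar, `x` not scalar) fixes a point of Ω when some conjugate of `x` by a matrix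 of determinant 1 lies in `H`. Suppose 3 divides the index of `H`. Then every element of `T` of order 3 is conjugate in `T` into `H` if and only if `n` is odd, or `n` is even and `k > 2`. -/
theorem result {F : Type*} [Field F] [Fintype F] [CharP F 3] {q : ℕ} (hq : Fintype.card F = q)
    (n : ℕ) (hn : 2 ≤ n) (hT : (n, q) ≠ (2, 3))
    (F₀ : Subfield F) (k q₀ : ℕ) (hk : k.Prime) (hF₀ : Nat.card ↥F₀ = q₀) (hqk : q = q₀ ^ k) (hC5 : ¬ (n = 2 ∧ q₀ = 2)) (hΩ : 3 ∣ ((Cfsg.Geo.subfieldSubgroup F₀ 1).comap (Matrix.SpecialLinearGroup.toGL : Matrix.SpecialLinearGroup (Fin n) F →* GL (Fin n) F)).index) :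
    (∀ x : Matrix.SpecialLinearGroup (Fin n) F,
      (∃ z : F, ((x ^ 3 : Matrix.SpecialLinearGroup (Fin n) F) : Matrix (Fin n) (Fin n) F) = z • (1 : Matrix (Fin n) (Fin n) F)) →
      (∀ z : F, (x : Matrix (Fin n) (Fin n) F) ≠ z • (1 : Matrix (Fin n) (Fin n) F)) →
      ∃ P : Matrix.SpecialLinearGroup (Fin n) F, P⁻¹ * x * P ∈ ((Cfsg.Geo.subfieldSubgroup F₀ 1).comap (Matrix.SpecialLinearGroup.toGL : Matrix.SpecialLinearGroup (Fin n) F →* GL (Fin n) F))) ↔
    (Odd n ∨ (Even n ∧ 2 < k)) := by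
  obtain rfl : Nat.card F = q := by rw [Nat.card_eq_fintype_card, hq]
  subst hF₀
  have : Nonempty (Fin n) := ⟨⟨0, by omega⟩⟩
  have := Fact.mk Nat.prime_three
  have hV : finrank F (Fin n → F) = n := by simp
  have h2 : (2 : F) ≠ 0 := by simpa using cast_ne_zero (F := F) (p := 3) (r := 2) (by decide)
  have key : ∀ A : Matrix (Fin n) (Fin n) F, A.det = 1 → PE 3 (Matrix.toLin' A) → FD A ∨ Even n ∧
      ∀ s : F, ∃ B, Commute A B ∧ B.det = s ^ 2 := fun A h1 h3 => by
    obtain ⟨c, h4, h5, -⟩ := pe_char 3 (by omega) (by simp [h1]) h3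
    refine or_iff_not_imp_left.mpr fun e => ?_
    have h6 : ∀ j ∈ dm (c • Matrix.toLin' A), j = 2 := fun j hj => by_contra fun e' =>
      e (fd_char 3 h4 ⟨j, hj, by have := (ty_unip 3 h5).1 j hj; omega⟩)
    refine ⟨?_, fun s => ?_⟩
    · rw [← hV, ← sum_dm (c • Matrix.toLin' A), Multiset.eq_replicate_card.mpr h6]; simp
    obtain ⟨u, hu⟩ := exists_mem_ty (by omega) (c • Matrix.toLin' A)
    have h7 := h6 _ (Multiset.mem_map_of_mem _ hu)
    rw [← map_smul] at hu
    exact (exists_commute_det_pow hu s).imp fun B hB =>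
      ⟨by simpa [h4] using hB.1.smul_left c⁻¹, h7 ▸ hB.2⟩
  rw [el_sl]
  rcases n.even_or_odd with he | ho
  swap
  · exact iff_of_true (el_of (fun A h1 h3 => (key A h1 h3).resolve_right fun h =>
      Nat.not_even_iff_odd.mpr ho h.1) (ti_char 3)) (.inl ho)
  rw [or_iff_right (Nat.not_odd_iff_even.mpr he), and_iff_right he]
  by_cases hk2 : k = 2
  · subst hk2
    refine iff_of_false (fun H => ?_) (lt_irrefl 2)
    obtain ⟨m, rfl⟩ := he
    obtain ⟨h3, h4⟩ := exists_unip (F := F) (V := Fin (m + m) → F) 3 (μ := Multiset.replicate m 2)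
      (fun a ha => by simp [Multiset.eq_of_mem_replicate ha])
    obtain ⟨g, hg⟩ := exists_tyE_eq (V := Fin (m + m) → F) h3 (by simp [natDegree_X_sub_one]; omega)
    obtain ⟨h5, h6, h7, h8⟩ := h4 g hg
    obtain ⟨y, hy, hy'⟩ := exists_unip_ex (K := F₀) 3 h5
    obtain ⟨d, hd⟩ := FiniteField.exists_nonsquare (F := F) (by rw [ringChar.eq F 3]; decide)
    have hd0 : d ≠ 0 := by rintro rfl; simp at hd
    obtain ⟨P, hP⟩ := exists_det_eq (ι := Fin (m + m)) hd0
    let J : GL (Fin (m + m)) F := Matrix.GeneralLinearGroup.map F₀.subtype y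
    have h9 : tyE (Matrix.toLin' (P * J * P⁻¹).1) = tyE g := (ty_conj P J.1).trans hy
    have h10 := pow_congr h9 (k := 3) (z := 1) (by simpa using h5)
    obtain ⟨-, -, h11, h12⟩ := h4 _ (h9.trans hg)
    have h13 := (pe_toLin' 3 _).mp (h12 ⟨2, Multiset.mem_replicate.mpr ⟨by omega, rfl⟩, by decide⟩)
    obtain ⟨t, h14, h15⟩ := H (P * J * P⁻¹) (mem_sl.mpr (by simpa using h11))
      (by rw [Units.val_pow_eq_pow_val]; exact h13.1) h13.2
    have h16 : ty (t⁻¹ * (P * J * P⁻¹) * t).1 = tyE g := by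
      rw [← h9]; have := ty_conj t⁻¹ (P * J * P⁻¹).1; rwa [inv_inv] at this
    have h17 : ∀ {A : Matrix (Fin (m + m)) (Fin (m + m)) F}, ty A = tyE g → A ^ 3 = 1 := fun h => by
      rw [mat_pow_eq_one_iff, h, ← pow_eq_one_iff_tyE, h5]
    obtain ⟨y', h18⟩ := mem_sub_unip 3 h15 (h17 h16)
    rw [h18] at h16
    obtain ⟨s, hs⟩ := isConj_iff.mp ((isConj_iff_ty y y').mpr
      (ty_of_ex 3 (h17 hy) (h17 h16) (hy.trans h16.symm)))
    rw [← hs, map_mul, map_mul, map_inv] at h18
    set S := Matrix.GeneralLinearGroup.map F₀.subtype s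
    have h19 : Commute J (P⁻¹ * t * S) := by
      rw [commute_iff_eq, mul_assoc _ S, ← inv_mul_cancel_right (S * J) S, ← h18]; group
    have h20 := isSquare_det (hy.trans (hg.trans (Multiset.map_replicate ..)))
      ((h19.map (Units.coeHom _)).map (Matrix.toLinAlgEquiv' (R := F)))
    have h21 : IsSquare S.1.det := det_map s ▸ (isSquare_subfield_iff h2 hqk.symm
      (Matrix.GeneralLinearGroup.det s).ne_zero).mpr (.inl even_two)
    erw [LinearMap.det_toLin'] at h20
    simp only [Units.coeHom_apply, Units.val_mul, Matrix.det_mul, mem_sl.mp h14, mul_one,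
      Matrix.coe_units_inv, Matrix.det_nonsing_inv, Ring.inverse_eq_inv', hP] at h20
    exact hd (isSquare_inv.mp ((isSquare_mul_iff_of_isSquare
      (Matrix.GeneralLinearGroup.det S).ne_zero h21).mp (by rwa [mul_comm] at h20)))
  refine iff_of_true (fun x h1 h3 h4 => ?_) (by have := hk.two_le; omega)
  have h5 := (pe_toLin' 3 x.1).mpr ⟨by simpa using h3, h4⟩
  obtain ⟨g, hg⟩ := (ti_char (K := F₀) 3 _ (by simpa using mem_sl.mp h1) h5).conj
  rcases key _ (mem_sl.mp h1) h5 with h | ⟨-, h⟩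
  · obtain ⟨t, h6, h7⟩ := h.conj g
    exact ⟨t, h6, h7 ▸ hg⟩
  obtain ⟨w, h6, s, h7⟩ : ∃ w : F₀, w ≠ 0 ∧ IsSquare (g.1.det * w) := by
    by_cases e : IsSquare g.1.det
    · exact ⟨1, one_ne_zero, by simpa⟩
    obtain ⟨w, hw⟩ := FiniteField.exists_nonsquare (F := F₀) (by rw [ringChar.eq F₀ 3]; decide)
    have h6 : w ≠ 0 := by rintro rfl; simp at hw
    exact ⟨w, h6, isSquare_mul_of_not_isSquare e fun e' => ((isSquare_subfield_iff h2 hqk.symm
      h6).mp e').elim (Nat.not_even_iff_odd.mpr (hk.odd_of_ne_two hk2)) hw⟩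
  have h8 : s ≠ 0 := fun e => mul_ne_zero (Matrix.GeneralLinearGroup.det g).ne_zero
    (by simpa using h6) (h7.trans (by simp [e]))
  obtain ⟨B, h9, h10⟩ := h s⁻¹
  obtain ⟨B, rfl⟩ : IsUnit B := (Matrix.isUnit_iff_isUnit_det B).mpr (by simp [h10, h8])
  obtain ⟨y, hy⟩ := exists_det_eq (ι := Fin n) h6
  refine ⟨B * g * Matrix.GeneralLinearGroup.map F₀.subtype y, mem_sl.mpr ?_, ?_⟩
  · rw [Units.val_mul, Units.val_mul, Matrix.det_mul, Matrix.det_mul, det_map, h10, hy, mul_assoc,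
      h7]
    field_simp
  · have h11 : B⁻¹ * x * B = x := by
      rw [mul_assoc, show x * B = B * x from Units.ext h9, inv_mul_cancel_left]
    convert mul_mem (mul_mem (inv_mem (map_mem_sub y)) hg) (map_mem_sub y) using 1
    conv_rhs => rw [← h11]
    group

end Cfsg.Agent.S5966
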