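import Cfsg.Statements.S5967
import Mathlib
import Cfsg.Agent.H18.Li5

set_option autoImplicit false
open scoped MatrixGroups
open Cfsg

namespace Cfsg.Agent.S5967

open Cfsg.Agent.H18.El Cfsg.Agent.H10 Cfsg.Agent.H11 Cfsg.Agent.L0 Module

/-- Involutions of PSL_n(q) and the symplectic-type subgroups. Here `T = PSL_n(F)` for a field `F` with `q` elements, `n ≥ 4` even, `f` is a nondegenerate alternating form on `F^n`, and `H` is the subgroup of matrices of determinant 1 preserving `f` up to a scalar — a maximal subgroup of type Sp_n(q); Ω is the set of `T`-conjugates of `H` (cosets of `H`), so an element of `T` of prime order `r` (a matrix `x` of determinant 1 with `x^r` scalar, `x` not scalar) fixes a point of Ω when some conjugate of `x` by a matrix of determinant 1 preserves `f` up to a scalar. Suppose the index of `H` is even. Then every involution of `T` is conjugate in `T` into `H` if and only if `(q − 1)_2 ≤ (n)_2`. -/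
theorem result {F : Type*} [Field F] [Fintype F] {p : ℕ} [Fact p.Prime] [CharP F p] {q : ℕ} (hq : Fintype.card F = q)
    (n : ℕ) (hn : 4 ≤ n) (he : Even n) (f : (Fin n → F) → (Fin n → F) → F) (hf : Cfsg.Geo.IsSymplecticForm f)
    (hΩ : 2 ∣ ((Cfsg.Geo.similarityGroup f).comap (Matrix.SpecialLinearGroup.toGL : Matrix.SpecialLinearGroup (Fin n) F →* GL (Fin n) F)).index) :
    (∀ x : Matrix.SpecialLinearGroup (Fin n) F,
      (∃ z : F, ((x ^ 2 : Matrix.SpecialLinearGroup (Fin n) F) : Matrix (Fin n) (Fin n) F) = z • (1 : Matrix (Fin n) (Fin n) F)) →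
      (∀ z : F, (x : Matrix (Fin n) (Fin n) F) ≠ z • (1 : Matrix (Fin n) (Fin n) F)) →
      ∃ P : Matrix.SpecialLinearGroup (Fin n) F, P⁻¹ * x * P ∈ ((Cfsg.Geo.similarityGroup f).comap (Matrix.SpecialLinearGroup.toGL : Matrix.SpecialLinearGroup (Fin n) F →* GL (Fin n) F))) ↔
    padicValNat 2 (q - 1) ≤ padicValNat 2 n := by
  obtain rfl : Nat.card F = q := by rw [Nat.card_eq_fintype_card, hq]
  have : Nonempty (Fin n) := ⟨⟨0, by omega⟩⟩
  have hV : finrank F (Fin n → F) = n := by simp
  have hA : (bilinOf hf.bilinear).IsAlt := hf.alternating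
  have hB : (bilinOf hf.bilinear).SeparatingLeft := fun v hv => by_contra fun e =>
    (hf.nondegenerate v e).2.elim fun x hx => hx (hv x)
  have hH := mem_sim (σ := .id F) (f := f) (B := bilinOf hf.bilinear) (.inl fun _ _ => rfl)
  classical
  rw [el_sl, el_iff (.inr rfl)]
  simp only [ti_iff_ts hH hB]
  by_cases hp : 2 = p
  · subst hp
    obtain ⟨k, -, hk⟩ := FiniteField.card F 2
    refine iff_of_true (fun g hd hg => ?_) ?_
    · obtain ⟨c, e1, e2, -⟩ := pe_char 2 (by omega) (by simp [hd]) hg
      obtain ⟨e3, e4⟩ := ty_unip 2 e2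
      refine .smul g c e1 (RealIn.ts ((real_alt_unip (fun u hu => ?_) fun j hj => ?_).alt hA hB
        (finrank_dg _).symm))
      · obtain ⟨j, h1, rfl⟩ := Multiset.mem_map.mp (e4 ▸ hu)
        exact ⟨j, (e3 j h1).1, rfl⟩
      have e5 := sum_dm (c • g)
      obtain ⟨a, b, e6⟩ := two_val (v := 1) (w := 2) (s := dm (c • g)) fun j hj => by
        have := e3 j hj; omega
      rw [e4, Multiset.count_map_eq_count' _ _ fun a b e => by
        simpa only [natDegree_X_sub_one_pow] using congrArg Polynomial.natDegree e]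
      rw [e6] at e5 ⊢
      obtain ⟨m, rfl⟩ := he
      simp [Multiset.count_replicate] at e5 ⊢
      obtain ⟨j, rfl⟩ := hj
      split_ifs <;> first | omega | exact ⟨m - b, by omega⟩ | simp
    · rw [padicValNat.eq_zero_of_not_dvd]
      · omega
      have : 2 ∣ Nat.card F := by rw [Nat.card_eq_fintype_card, hk]; exact dvd_pow_self 2 k.ne_zero
      have := Nat.card_pos (α := F)
      omega
  have h2 : (2 : F) ≠ 0 := by simpa using cast_ne_zero (F := F) hp
  refine ev_main h2 hV he (by omega) TS.smul (ts_alt_ns hA hB) (fun g a b hg hm => ?_)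
    fun g hg hm => not_ts_alt hA hB h2 (by omega) g hg (hV.symm ▸ hm)
  have key : ∀ c : F, c ^ 2 = 1 → ∀ a, Real (.id F) (-1) 0 0 (lin (.replicate (2 * a) c)) :=
    fun c hc a => by
      have := (par_alt.realD_pair (r := 2) (by simpa using h2) (irrD_lin hc) one_ne_zero).real
      rw [du_lin two_pos hc rfl, inv_eq_of_mul_eq_one_left (by rw [← sq, hc])] at this
      convert par_alt.real_nsmul this a using 1
      rw [lin, Multiset.map_replicate, nsmul_add, Multiset.nsmul_singleton, two_mul,
        Multiset.replicate_add]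
  refine RealIn.ts (Real.alt ?_ hA hB (finrank_dg _).symm)
  rw [hm, lin, Multiset.map_add]
  exact (key 1 (by simp) a).add (key (-1) (by simp) b)

end Cfsg.Agent.S5967
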