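import Cfsg.Statements.S5968
import Mathlib
import Cfsg.Agent.H18.Li5

set_option autoImplicit false
open scoped MatrixGroups
open Cfsg

namespace Cfsg.Agent.S5968

open Cfsg.Agent.H18.El Cfsg.Agent.H10 Cfsg.Agent.H11 Cfsg.Agent.L0 Module

/-- Derangements of odd prime order of PSL_n(q) on the cosets of a symplectic-type subgroup. Here `T = PSL_n(F)` for a field `F` with `q` elements, `n ≥ 4` even, `f` is a nondegenerate alternating form on `F^n`, and `H` is the subgroup of matrices of determinant 1 preserving `f` up to a scalar — a maximal subgroup of type Sp_n(q); Ω is the set of `T`-conjugates of `H` (cosets of `H`), so an element of `T` of prime order `r` (a matrix `x` of determinant 1 with `x^r` scalar, `x` not scalar) fixes a point of Ω when some conjugate of `x` by a matrix of determinant 1 preserves `f` up to a scalar. For every odd prime `r` dividing the index of `H`, with `(n, r) ≠ (6, 3)`, there is an element of `T` of order `r` with no conjugate in `H`. (For `n = 6`, `r = 3`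 this can fail: when `(q − 1)_3 = 3` every element of order 3 is conjugate into `H`.) -/
theorem result {F : Type*} [Field F] [Fintype F] {p : ℕ} [Fact p.Prime] [CharP F p] {q : ℕ} (hq : Fintype.card F = q)
    (n : ℕ) (hn : 4 ≤ n) (he : Even n) (f : (Fin n → F) → (Fin n → F) → F) (hf : Cfsg.Geo.IsSymplecticForm f)
    (r : ℕ) [Fact r.Prime] (hr2 : r ≠ 2) (hgap : ¬ (n = 6 ∧ r = 3)) (hΩ : r ∣ ((Cfsg.Geo.similarityGroup f).comap (Matrix.SpecialLinearGroup.toGL : Matrix.SpecialLinearGroup (Fin n) F →* GL (Fin n) F)).index) :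
    ∃ x : Matrix.SpecialLinearGroup (Fin n) F,
      (∃ z : F, ((x ^ r : Matrix.SpecialLinearGroup (Fin n) F) : Matrix (Fin n) (Fin n) F) = z • (1 : Matrix (Fin n) (Fin n) F)) ∧
      (∀ z : F, (x : Matrix (Fin n) (Fin n) F) ≠ z • (1 : Matrix (Fin n) (Fin n) F)) ∧
      ∀ P : Matrix.SpecialLinearGroup (Fin n) F, P⁻¹ * x * P ∉ ((Cfsg.Geo.similarityGroup f).comap (Matrix.SpecialLinearGroup.toGL : Matrix.SpecialLinearGroup (Fin n) F →* GL (Fin n) F)) := by
  obtain rfl : Nat.card F = q := by rw [Nat.card_eq_fintype_card, hq]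
  have : Nonempty (Fin n) := ⟨⟨0, by omega⟩⟩
  have hV : finrank F (Fin n → F) = n := by simp
  have hA : (bilinOf hf.bilinear).IsAlt := hf.alternating
  have hB : (bilinOf hf.bilinear).SeparatingLeft := fun v hv => by_contra fun e =>
    (hf.nondegenerate v e).2.elim fun x hx => hx (hv x)
  have hH := mem_sim (σ := .id F) (f := f) (B := bilinOf hf.bilinear) (.inl fun _ _ => rfl)
  have hr : r.Prime := Fact.out
  have ho := hr.odd_of_ne_two hr2
  by_contra H
  have K := fun g h1 h2 => (ti_iff_ts hH hB g).mp (EL.ti (el_sl.mp fun x h1 h2 =>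
    by_contra fun h3 => H ⟨x, h1, h2, fun P hP => h3 ⟨P, hP⟩⟩) g h1 h2)
  rw [idx_sl] at hΩ
  by_cases hp : r = p
  · subst hp
    obtain ⟨g, e1, e2, e3, -, e4⟩ := exists_unip_one (F := F) (V := Fin n → F) r (j := 3) (by omega)
      (by have := hr.two_le; omega) (by omega)
    obtain ⟨g', e5, e6⟩ := (K g e1 e3).isom hB (by omega) (pow_eq_one_char r) e2
    have := even_count_alt hB hA e5 (j := 3) (by decide)
    rw [e6, e4] at this
    exact absurd this (by decide)
  have h0 : (r : F) ≠ 0 := cast_ne_zero hp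
  by_cases h1 : r ∣ Nat.card F - 1
  · exact Nat.not_even_iff_odd.mpr ho (((sym_main hr2 h1 hV (by omega) hgap TS.smul
      (not_ts_ns (isForm_alt hA) hB (by omega) (root_id ho))
      (TS.sy (isForm_alt hA) hB (by omega) h0 ho fun _ _ => rfl)
      fun e => absurd (e ▸ he) (Nat.not_even_iff_odd.mpr ho)).mp K).2.1 ▸ he)
  by_cases h2 : Even (orderOf ((Nat.card F : ℕ) : ZMod r))
  swap
  · exact not_ts_small (isForm_alt hA) hB h0 h1 (hV.symm ▸ ord_le h0 hΩ) (du_ne_odd h0 hr2 h2) K
  obtain ⟨m, rfl⟩ := he.two_dvd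
  obtain ⟨e, h3⟩ := card_GL_int (F := F) (2 * m)
  refine not_dvd_isom (Q := fun _ => 0) hH (t := Nat.card F ^ m ^ 2) ?_ (odd_ne h0 h2 e m) hΩ
  rw [h3, ← isomGroup_eq, card_isom_alt (hA.isRefl.nondegenerate_iff_separatingLeft.mpr hB) hA hV,
    prod_even, ← Nat.card_eq_fintype_card]
  push_cast [Nat.cast_sub (Nat.one_le_pow _ _ Nat.card_pos)]
  ring

end Cfsg.Agent.S5968
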