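import Cfsg.Statements.S5969
import Mathlib
import Cfsg.Agent.H18.Li6

set_option autoImplicit false
open scoped MatrixGroups
open Cfsg

namespace Cfsg.Agent.S5969

open Cfsg.Agent.H18.El Cfsg.Agent.H10 Cfsg.Agent.H11 Cfsg.Agent.L0 Module

/-- Involutions of PSL_n(q) and extension-field subgroups of degree 2. Here `T = PSL_n(F)` for a field `F` with `q = p^f` elements (`n ≥ 2`, `(n, q) ≠ (2, 2), (2, 3)`), `k` is a prime dividing `n`, `K` is a subalgebra of the `n × n` matrices that is a field of degree `k` over `F` (an extension-field structure F_{q^k} on `F^n`), and `H` is the subgroup of matrices of determinant 1 normalizing `K` — a subgroup of type GL_{n/k}(q^k) (maximal except in some small cases; maximality is not assumed); Ω is the set of cosets of `H` in `T`, so an element of `T` of prime order `r` (a matrix `x` of determinant 1 with `x^r` scalar, `x` not scalar) fixes a point of Ω when some conjugate of `x` by a matrix of determinant 1 normalizes `K`. Take `k = 2` and suppose the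 index of `H` is even. Then every involution of `T` is conjugate in `T` into `H` if and only if `n = 2`, or `q` is odd and `(q − 1)_2 ≤ (n)_2`. -/
theorem result {F : Type*} [Field F] [Fintype F] {p : ℕ} [Fact p.Prime] [CharP F p] {q : ℕ} (hq : Fintype.card F = q)
    (n : ℕ) (hn : 2 ≤ n) (hT : (n, q) ≠ (2, 2) ∧ (n, q) ≠ (2, 3))
    (k : ℕ) (hk : k.Prime) (hkn : k ∣ n) (K : Subalgebra F (Matrix (Fin n) (Fin n) F)) (hK : Cfsg.Geo.IsFieldSubalgebra k K) (hk2 : k = 2) (hΩ : 2 ∣ ((Cfsg.Geo.subalgebraNormalizer K).comap (Matrix.SpecialLinearGroup.toGL : Matrix.SpecialLinearGroup (Fin n) F →* GL (Fin n) F)).index) :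
    (∀ x : Matrix.SpecialLinearGroup (Fin n) F,
      (∃ z : F, ((x ^ 2 : Matrix.SpecialLinearGroup (Fin n) F) : Matrix (Fin n) (Fin n) F) = z • (1 : Matrix (Fin n) (Fin n) F)) →
      (∀ z : F, (x : Matrix (Fin n) (Fin n) F) ≠ z • (1 : Matrix (Fin n) (Fin n) F)) →
      ∃ P : Matrix.SpecialLinearGroup (Fin n) F, P⁻¹ * x * P ∈ ((Cfsg.Geo.subalgebraNormalizer K).comap (Matrix.SpecialLinearGroup.toGL : Matrix.SpecialLinearGroup (Fin n) F →* GL (Fin n) F))) ↔
    (n = 2 ∨ (Odd q ∧ padicValNat 2 (q - 1) ≤ padicValNat 2 n)) := by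
  obtain rfl : Nat.card F = q := by rw [Nat.card_eq_fintype_card, hq]
  have : Nonempty (Fin n) := ⟨⟨0, by omega⟩⟩
  have hV : finrank F (Fin n → F) = n := by simp
  obtain ⟨E, _, _, φ, rfl, hE⟩ := exists_phi hK
  have hs := TI.smul (scalars_le_norm (K := φ.range))
  subst hk2
  rw [el_sl, el_iff (.inr rfl)]
  by_cases h2 : n = 2
  · subst h2
    refine iff_of_true (fun g hd hg => ?_) (.inl rfl)
    rcases pe_cases two_ne_zero (by omega) (by simp [hd]) hg with ⟨c, e1, e2, -⟩ | ⟨z, e1, e2, e3⟩
    · obtain ⟨y, e3, e4, h, e5, e6⟩ := exists_frob (φ := φ) (by simpa) (by simp)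
      exact hs g c e1 ⟨h, e5, e6.trans (ty_eq_two hV hV (by simpa using e3) e2 e4 (hg.smul e1).2)⟩
    · exact ti_ns hk hE g z e1 e2 e3
  rw [or_iff_right h2]
  by_cases hp : 2 = p
  · subst hp
    refine iff_of_false (fun H => ?_) fun ⟨e2, _⟩ => ?_
    · obtain ⟨g, e1, e2, e3, e4⟩ := exists_tv (F := F) (V := Fin n → F) (ι := Fin n) 2 (by omega)
      exact e2 ((H g e1 e3).eq_one hK (by simp; omega) one_lt_two e4)
    · obtain ⟨k, -, hk⟩ := FiniteField.card F 2
      rw [Nat.card_eq_fintype_card, hk, Nat.odd_pow_iff k.ne_zero] at e2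
      exact absurd e2 (by decide)
  have h0 : ((2 : ℕ) : F) ≠ 0 := cast_ne_zero hp
  obtain ⟨m, rfl⟩ := hkn
  rw [ev_main (by simpa using h0) hV (even_two_mul m) hn hs (ti_ns hk hE)
    (ti_half (by simpa using h0) hE (Fintype.card_fin _)) fun g _ e1 H => ?_]
  · simpa using fun _ => Nat.not_even_iff_odd.mp fun e => not_dvd_card Nat.prime_two h0 e.two_dvd
  have := lin_det e1
  rw [H.eq_one hK (m := 1) (by simp; omega) one_lt_two fun A h => rank_lin (h.trans e1)] at this
  exact h0 (by simp at this; push_cast; linear_combination this)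

end Cfsg.Agent.S5969
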