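import Cfsg.Statements.S5970
import Mathlib
import Cfsg.Agent.H18.Li6

set_option autoImplicit false
open scoped MatrixGroups
open Cfsg

namespace Cfsg.Agent.S5970

open Cfsg.Agent.H18.El Cfsg.Agent.H10 Cfsg.Agent.H11 Cfsg.Agent.L0 Module

/-- Elements of order `n` of PSL_n(q), `n` prime, and the normalizer of a Singer cycle. Here `T = PSL_n(F)` for a field `F` with `q = p^f` elements (`n ≥ 2`, `(n, q) ≠ (2, 2), (2, 3)`), `k` is a prime dividing `n`, `K` is a subalgebra of the `n × n` matrices that is a field of degree `k` over `F` (an extension-field structure F_{q^k} on `F^n`), and `H` is the subgroup of matrices of determinant 1 normalizing `K` — a subgroup of type GL_{n/k}(q^k) (maximal except in some small cases; maximality is not assumed); Ω is the set of cosets of `H` in `T`, so an element of `T` of prime order `r` (a matrix `x` of determinant 1 with `x^r` scalar, `x` not scalar) fixes a point of Ω when some conjugate of `x` by a matrix of determinant 1 normalizes `K`. Take `k = n > 3` prime with `n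 ≠ p` (so `H` is the normalizer of a Singer cycle), and suppose `n` divides the index of `H`. Then every element of `T` of order `n` is conjugate in `T` into `H` if and only if the multiplicative order of `q` modulo `n` is `n − 1`. -/
theorem result {F : Type*} [Field F] [Fintype F] {p : ℕ} [Fact p.Prime] [CharP F p] {q : ℕ} (hq : Fintype.card F = q)
    (n : ℕ) (hn : 2 ≤ n) (hT : (n, q) ≠ (2, 2) ∧ (n, q) ≠ (2, 3))
    (k : ℕ) (hk : k.Prime) (hkn : k ∣ n) (K : Subalgebra F (Matrix (Fin n) (Fin n) F)) (hK : Cfsg.Geo.IsFieldSubalgebra k K) (hkn' : k = n) (hn3 : 3 < n) (hnp : n ≠ p) (hΩ : n ∣ ((Cfsg.Geo.subalgebraNormalizer K).comap (Matrix.SpecialLinearGroup.toGL : Matrix.SpecialLinearGroup (Fin n) F →* GL (Fin n) F)).index) :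
    (∀ x : Matrix.SpecialLinearGroup (Fin n) F,
      (∃ z : F, ((x ^ n : Matrix.SpecialLinearGroup (Fin n) F) : Matrix (Fin n) (Fin n) F) = z • (1 : Matrix (Fin n) (Fin n) F)) →
      (∀ z : F, (x : Matrix (Fin n) (Fin n) F) ≠ z • (1 : Matrix (Fin n) (Fin n) F)) →
      ∃ P : Matrix.SpecialLinearGroup (Fin n) F, P⁻¹ * x * P ∈ ((Cfsg.Geo.subalgebraNormalizer K).comap (Matrix.SpecialLinearGroup.toGL : Matrix.SpecialLinearGroup (Fin n) F →* GL (Fin n) F))) ↔
    orderOf (q : ZMod n) = n - 1 := by
  obtain rfl : Nat.card F = q := by rw [Nat.card_eq_fintype_card, hq]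
  have : Nonempty (Fin n) := ⟨⟨0, by omega⟩⟩
  have hV : finrank F (Fin n → F) = n := by simp
  obtain ⟨E, _, _, φ, rfl, hE⟩ := exists_phi hK
  have hs := TI.smul (scalars_le_norm (K := φ.range))
  subst hkn'
  have := Fact.mk hk
  have h0 : (k : F) ≠ 0 := cast_ne_zero hnp
  have ho := hk.odd_of_ne_two (by omega)
  rw [el_sl, el_iff (.inl h0)]
  refine ⟨fun H => by_contra fun hc => ?_, fun hc => ti_pred hk (by omega) h0 hc hE (by simp)⟩
  by_cases h1 : k ∣ Nat.card F - 1
  · obtain ⟨ζ, hζ⟩ := exists_root h1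
    have e0 := hζ.ne_zero hk.ne_zero
    obtain ⟨y, hy⟩ := exists_diag (V := Fin k → F) (m := Multiset.replicate (k - 2) 1 + {ζ, ζ⁻¹})
      (by simp; omega)
    have e2 : PE k y := lin_pe hy (a := ζ) (b := 1) (by simp)
      (by simp [Multiset.mem_replicate]; omega) (hζ.ne_one hk.one_lt) fun a ha => by
        rcases Multiset.mem_add.mp ha with h | h
        · simp [Multiset.eq_of_mem_replicate h]
        · rcases Multiset.mem_cons.mp h with rfl | h
          exacts [hζ.pow_eq_one, Multiset.mem_singleton.mp h ▸ hζ.inv.pow_eq_one]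
    exact e2.2 1 (by
      simpa using (H y (by simp [lin_det hy, e0]) e2).eq_one hK (m := 2)
        (by obtain ⟨_, _⟩ := ho; simp; omega) (by omega) fun A h => rank_lin (h.trans hy))
  have h2 := orderOf_dvd_of_pow_eq_one (ZMod.pow_card_sub_one_eq_one (card_ne_zero h0))
  have h3 := Nat.le_of_dvd (by omega) h2
  obtain ⟨g, a, u, e1, -, e3, e4, e5, e6, -, e7⟩ := exists_small (V := Fin k → F) h0 h1 (by omega)
  obtain ⟨t, ht⟩ := h2
  have h4 : 2 ≤ t := by
    rcases t with _ | _ | t <;> omega
  have h5 := Nat.mul_le_mul_left (orderOf ((Nat.card F : ℕ) : ZMod k)) h4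
  exact e3.2 1 (by
    simpa using (H g e1 e3).eq_one hK (m := u.natDegree) (by simp; omega) (by omega) fun A h => by
      rw [rank_of_ty (h.trans e7) (r := k) (by simp [e4, e5])]; simp [dg])

end Cfsg.Agent.S5970
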