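import Cfsg.Statements.S5971
import Mathlib
import Cfsg.Agent.H18.Li6

set_option autoImplicit false
open scoped MatrixGroups
open Cfsg

namespace Cfsg.Agent.S5971

open Cfsg.Agent.H18.El Cfsg.Agent.H10 Cfsg.Agent.H11 Cfsg.Agent.L0 Module

/-- Elements of order 3 of PSL_3(q) and the normalizer of a Singer cycle. Here `T = PSL_n(F)` for a field `F` with `q = p^f` elements (`n ≥ 2`, `(n, q) ≠ (2, 2), (2, 3)`), `k` is a prime dividing `n`, `K` is a subalgebra of the `n × n` matrices that is a field of degree `k` over `F` (an extension-field structure F_{q^k} on `F^n`), and `H` is the subgroup of matrices of determinant 1 normalizing `K` — a subgroup of type GL_{n/k}(q^k) (maximal except in some small cases; maximality is not assumed); Ω is the set of cosets of `H` in `T`, so an element of `T` of prime order `r` (a matrix `x` of determinant 1 with `x^r` scalar, `x` not scalar) fixes a point of Ω when some conjugate of `x` by a matrix of determinant 1 normalizes `K`. Take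 `n = k = 3` and suppose 3 divides the index of `H`. Then every element of `T` of order 3 is conjugate in `T` into `H` if and only if `q ≡ 4, 7` or `8 (mod 9)`. -/
theorem result {F : Type*} [Field F] [Fintype F] {p : ℕ} [Fact p.Prime] [CharP F p] {q : ℕ} (hq : Fintype.card F = q)
    (n : ℕ) (hn : n = 3) (k : ℕ) (hk : k.Prime) (hkn : k ∣ n) (K : Subalgebra F (Matrix (Fin n) (Fin n) F)) (hK : Cfsg.Geo.IsFieldSubalgebra k K) (hk3 : k = 3) (hΩ : 3 ∣ ((Cfsg.Geo.subalgebraNormalizer K).comap (Matrix.SpecialLinearGroup.toGL : Matrix.SpecialLinearGroup (Fin n) F →* GL (Fin n) F)).index) :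
    (∀ x : Matrix.SpecialLinearGroup (Fin n) F,
      (∃ z : F, ((x ^ 3 : Matrix.SpecialLinearGroup (Fin n) F) : Matrix (Fin n) (Fin n) F) = z • (1 : Matrix (Fin n) (Fin n) F)) →
      (∀ z : F, (x : Matrix (Fin n) (Fin n) F) ≠ z • (1 : Matrix (Fin n) (Fin n) F)) →
      ∃ P : Matrix.SpecialLinearGroup (Fin n) F, P⁻¹ * x * P ∈ ((Cfsg.Geo.subalgebraNormalizer K).comap (Matrix.SpecialLinearGroup.toGL : Matrix.SpecialLinearGroup (Fin n) F →* GL (Fin n) F))) ↔
    (q % 9 = 4 ∨ q % 9 = 7 ∨ q % 9 = 8) := by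
  obtain rfl : Nat.card F = q := by rw [Nat.card_eq_fintype_card, hq]
  have : Nonempty (Fin n) := ⟨⟨0, by omega⟩⟩
  have hV : finrank F (Fin n → F) = n := by simp
  obtain ⟨E, _, _, φ, rfl, hE⟩ := exists_phi hK
  have hs := TI.smul (scalars_le_norm (K := φ.range))
  subst hn hk3
  rw [idx_sl] at hΩ
  rw [el_sl]
  by_cases hp : 3 = p
  · subst hp
    refine iff_of_false (fun H => ?_) fun h => ?_
    · obtain ⟨g, e1, e2, e3, e4⟩ := exists_tv (F := F) (V := Fin 3 → F) (ι := Fin 3) 3 (by omega)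
      exact e2 ((H.ti g e1 e3).eq_one hK (by simp) (by omega) e4)
    · obtain ⟨k, -, hk⟩ := FiniteField.card F 3
      have : 3 ∣ Nat.card F := by rw [Nat.card_eq_fintype_card, hk]; exact dvd_pow_self 3 k.ne_zero
      omega
  have h0 : ((3 : ℕ) : F) ≠ 0 := cast_ne_zero hp
  have h1 := not_dvd_card hk h0
  have h2 := Nat.card_pos (α := F)
  rw [el_iff (.inl h0)]
  obtain ⟨y, e3, e4, hy⟩ := exists_frob (φ := φ) (by simpa) (by simp)
  rw [Fintype.card_fin] at e3
  by_cases h3 : 3 ∣ Nat.card F - 1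
  swap
  · have h4 : ((Nat.card F : ℕ) : ZMod 3) = 2 := (ZMod.natCast_eq_natCast_iff' _ 2 3).mpr (by omega)
    refine iff_of_true (ti_pred hk (by omega) h0 (by
      rw [h4]; exact orderOf_eq_prime (p := 2) (by decide) (by decide)) hE (by simp)) (by_contra fun h => ?_)
    obtain ⟨w, hw⟩ : ∃ w, Nat.card F + 1 = 3 * w := ⟨(Nat.card F + 1) / 3, by omega⟩
    obtain ⟨e, h5⟩ := card_GL_int (F := F) 3
    obtain ⟨x, h6, h7⟩ := hy
    have h8 : orderOf x = 3 := orderOf_eq_prime (Units.ext (Matrix.toLin'.injective (by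
      simpa using! pow_congr h7 (k := 3) (z := 1) (by simpa using e3)))) (by
        rintro rfl; exact e4 1 (by simpa using eq_one_of_ty_one h7))
    refine not_dvd_rel (Subgroup.zpowers x).subtype Subtype.val_injective
      (fun k => (Subgroup.zpowers_le.mpr h6) k.2) (t := 1) (s := Nat.card F ^ e *
      ((Nat.card F - 1) ^ 2 * (Nat.card F ^ 3 - 1) * w)) ?_ ?_ hΩ
    · rw [Nat.card_zpowers, h8, h5]
      simp only [Finset.prod_range_succ, Finset.prod_range_zero]
      have : (Nat.card F + 1 : ℤ) = 3 * w := by exact_mod_cast hw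
      linear_combination (Nat.card F : ℤ) ^ e * (Nat.card F - 1) ^ 2 * (Nat.card F ^ 3 - 1) * this
    · push_cast
      rw [h4]
      exact mul_ne_zero (pow_ne_zero _ (by decide)) (mul_ne_zero (by decide)
        ((ZMod.natCast_eq_zero_iff w 3).not.mpr (by omega)))
  obtain ⟨ζ, hζ⟩ := exists_root h3
  have key : ∀ (g : End F (Fin 3 → F)) a b, a ≠ 0 → tyE g = lin (Multiset.replicate 2 a + {b}) →
      TI (Cfsg.Geo.subalgebraNormalizer φ.range) g → g = a • 1 := fun g a b ha hg H => by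
    rw [← (H.smul' scalars_le_norm (inv_ne_zero ha)).eq_one hK (m := 1) (by simp) (by omega)
      fun A h => rank_lin (m := {a⁻¹ * b}) (k := 2) (h.trans (by simp [lin_smul hg, ha])),
      smul_inv_smul₀ ha]
  have h4 : padicValNat 3 3 < padicValNat 3 (Nat.card F - 1) ↔ 9 ∣ Nat.card F - 1 := by
    rw [padicValNat_self]; exact (padicValNat_dvd_iff_le (by
      have := Finite.one_lt_card (α := F); omega) (n := 2)).symm
  rw [← root_pow_iff hζ (by omega)] at h4
  by_cases h5 : 9 ∣ Nat.card F - 1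
  · refine iff_of_false (fun H => ?_) (by omega)
    obtain ⟨c, hc⟩ := h4.mpr h5
    have e0 : c ≠ 0 := by rintro rfl; exact hζ.ne_zero (by omega) (by simp [← hc])
    obtain ⟨g, hg⟩ := exists_diag (V := Fin 3 → F) (m := Multiset.replicate 2 1 + {ζ⁻¹}) (by simp)
    have e1 : PE 3 (c • g) := (lin_pe hg (a := ζ⁻¹) (b := 1) (by simp) (by simp)
      (hζ.inv.ne_one (by omega)) (by simp [hζ.pow_eq_one])).smul e0
    exact e1.2 c (key _ c (c * ζ⁻¹) e0 (by simp [lin_smul hg]) (H _ (by
      simp [lin_det hg, hc, hζ.ne_zero]) e1))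
  refine iff_of_true (fun g hd hg => ?_) (by omega)
  rcases pe_cases three_ne_zero (by omega) (by simp [hd]) hg with ⟨c, e1, e2, -⟩ | ⟨z, e1, e2, e3⟩
  swap
  · exact ti_ns hk hE g z e1 e2 e3
  obtain ⟨m, hm⟩ := exists_lin h3 e2
  obtain ⟨m', hm'⟩ := exists_lin h3 e3
  have e5 := (lin_pow hm 3 1).mp (by simpa using e2)
  have e6 := (lin_pow hm' 3 1).mp (by simpa using e3)
  obtain ⟨x, h6, h7⟩ := id hy
  refine hs g c e1 ⟨x, h6, ?_⟩
  rw [h7, hm, hm', eq_roots ((lin_card hm).trans hV) e5 fun a b e => ?_,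
    eq_roots ((lin_card hm').trans hV) e6 fun a b e => e4 a (key y a b (by
      rintro rfl; simpa [e] using e6 0) (e ▸ hm') hy)]
  subst e
  have e7 := lin_det hm
  have e8 := e5 a (by simp)
  have e9 := e5 b (by simp)
  simp [hd] at e7
  obtain ⟨i, h8, e10⟩ := hζ.eq_pow_of_pow_eq_one (ξ := c ^ 3) (by
    linear_combination (exp := 1) (c ^ 6 + c ^ 3 * (a * (a * b)) + (a * (a * b)) ^ 2) * e7 +
      (a ^ 3 + 1) * b ^ 3 * e8 + e9)
  obtain rfl : i = 0 := by_contra fun e => h5 (h4.mp (by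
    obtain rfl | rfl : i = 1 ∨ i = 2 := by omega
    · exact ⟨c, by simpa using e10.symm⟩
    · exact ⟨c ^ 2, by linear_combination (-c ^ 3 - ζ ^ 2) * e10 + ζ * hζ.pow_eq_one⟩))
  obtain rfl : a = b := by linear_combination a * e10 + a * e7 + b * e8
  exact (hg.smul e1).2 a (by simpa using (lin_pow hm 1 a).mpr (by simp))

end Cfsg.Agent.S5971
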