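import Cfsg.Statements.S5972
import Mathlib
import Cfsg.Agent.H10.Elus7

set_option autoImplicit false
open scoped MatrixGroups
open Cfsg

namespace Cfsg.Agent.S5972

open Module H10 H11

/-- Elements of prime order of Ω_n(q), n = 2d+1 ≥ 7, q odd, with no fixed totally singular `m`-space. Here `T = Ω_n(q)` is realised as the commutator subgroup of the isometry group of the quadratic form `x₀² + Σ xᵢyᵢ` over the field `F` with `q` elements (it has trivial centre, so its elements of prime order `r` are used directly); let `1 ≤ m ≤ d` and let `r` be a prime dividing the number of totally singular `m`-spaces. For `r ≠ p` let `i` be the multiplicative order of `q` modulo `r`, `c = i` for `i` even and `c = 2i` for `i` odd, and write `k = n mod c`, `ℓ = m mod i`, `n' = ⌊n/i⌋`, `m' = ⌊m/i⌋`, `t = (r−1)/i`. Then every element of `T` of order `r` fixes some totally singular `m`-space if and only if either (i) `r = 2` and (`m < (n−1)/2` or `q ≡ 1 (mod 4)`); or (ii)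 `r ≠ p` is odd, `i ≤ m`, `k > 2ℓ`, and (`i` is odd or `n' − 2m' ≥ t`). -/
theorem result {F : Type*} [Field F] [Fintype F] {p : ℕ} [Fact p.Prime] [CharP F p] {q : ℕ} (hq : Fintype.card F = q) (hqodd : Odd q)
    (d m : ℕ) (hd : 3 ≤ d) (hm : 1 ≤ m) (hmd : m ≤ d)
    (r : ℕ) [Fact r.Prime]
    (hrΩ : r ∣ Nat.card {W : Submodule F (Unit ⊕ (Fin d ⊕ Fin d) → F) // Module.finrank F ↥W = m ∧ (∀ w ∈ W, Cfsg.quadFormOdd d F w = 0)})
    (i c : ℕ) (hi : i = orderOf (q : ZMod r)) (hc : c = if Even i then i else 2 * i) :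
    (∀ x : GL (Unit ⊕ (Fin d ⊕ Fin d)) F, x ∈ Cfsg.Geo.omegaGL (Cfsg.quadFormOdd d F) → orderOf x = r →
      ∃ W : Submodule F (Unit ⊕ (Fin d ⊕ Fin d) → F), Module.finrank F ↥W = m ∧ (∀ w ∈ W, Cfsg.quadFormOdd d F w = 0) ∧
        W.map (Matrix.toLin' (x : Matrix (Unit ⊕ (Fin d ⊕ Fin d)) (Unit ⊕ (Fin d ⊕ Fin d)) F)) ≤ W) ↔
    ((r = 2 ∧ (m < d ∨ q % 4 = 1)) ∨
     (r ≠ p ∧ 2 < r ∧ i ≤ m ∧ 2 * (m % i) < (2 * d + 1) % c ∧ (Odd i ∨ (r - 1) / i + 2 * (m / i) ≤ (2 * d + 1) / i))) := by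
  have h3 := two_ne_zero_of_odd_card (hq ▸ hqodd)
  have h := isQuad_odd d F
  have hB := bOdd_sep d h3
  have hn : finrank F (Unit ⊕ (Fin d ⊕ Fin d) → F) = 2 * d + 1 := by simp [two_mul, add_comm]
  simp only [← h.totSing_iff, ← and_assoc] at hrΩ ⊢
  rw [elu_omega' h]
  have hr : r.Prime := Fact.out
  have ho : ∀ W, NondegOn (bOdd d F) W → Odd (finrank F W) → WittIdx (pull (bOdd d F) W.subtype)
      (fun x => quadFormOdd d F x) (finrank F W / 2) := fun W a b => by
    simpa [Nat.not_even_iff_odd.mpr b] using wittIdx_on h a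
  obtain ⟨U, -, u1, u2⟩ := (exists_totSing_le h (nondegOn_top hB) (ho _ (nondegOn_top hB)
    (by rw [finrank_top, hn]; simp)) (b := m)).mpr (by rw [finrank_top, hn]; omega)
  have hp : r ≠ p := by
    rintro rfl
    exact not_dvd_card_totSing h hB ⟨U, u2, u1⟩ (.inl (by omega)) hrΩ
  rcases hr.eq_two_or_odd' with rfl | h2
  · obtain ⟨-, h4, -⟩ := (char_facts hq).2 hp.symm
    rw [or_iff_left (by omega), ← h4, and_iff_right rfl]
    have key : ∀ y ∈ commutator (Isom (bOdd d F) (quadFormOdd d F)), y * y = 1 → ∃ k,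
        finrank F (movS y.1) = 2 * k ∧ ((Fx y fun W => finrank F W = m ∧ TotSing _ _ W) ↔
          m < d ∨ Even k ∨ IsSquare (-1 : F)) := fun y hy h5 => by
      obtain ⟨a1, a2, -, -, a3, -⟩ := invol_data h hB h3 h5
      obtain ⟨k, k1, k2⟩ := (invol_mem_iff h hB h3 h5).mp hy
      refine ⟨k, k1, ?_⟩
      rw [invol_totSing h hB h3 h5 (wittIdx_on h a1) (ho _ a2 ⟨d - k, by omega⟩), ← k2]
      rcases Nat.eq_zero_or_pos k with rfl | k3
      · simp [k2]; omega
      by_cases e : Pl (bOdd d F) (quadFormOdd d F) (movS y.1) <;> simp [e, k1] <;> omega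
    constructor
    · intro H
      obtain ⟨W, -, w1, w2, w3⟩ := exists_type_le h hB (nondegOn_top hB) even_two two_pos
        (by rw [finrank_top]; omega) (IsSquare (-1 : F))
      obtain ⟨y, y1, rfl⟩ := exists_invol_neg h hB h3 w1
      have y2 := (invol_mem_iff h hB h3 y1).mpr ⟨1, w2, by simpa⟩
      obtain ⟨k, k1, k2⟩ := key y y2 y1
      obtain rfl : k = 1 := by omega
      simpa using k2.mp (H y y2 (sq y ▸ y1) ((invol_data h hB h3 y1).2.2.2.2.2.1.mpr (by omega)))
    · intro H y y1 y2 _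
      obtain ⟨k, -, k2⟩ := key y y1 (sq y ▸ y2)
      exact k2.mpr (by tauto)
  have h4 : r ≠ 2 := by rintro rfl; exact absurd h2 (by decide)
  have O := od_id (F := F) hr h4 hp (Nat.card_eq_fintype_card.trans hq) hi hc
  obtain ⟨hD, h6, -⟩ := c_facts hc O.pos.1
  rw [forall_omega_odd h hB (by omega) h2, O.totSing_max h hB par_quad (by omega) (fun y hy => ho _
    (nondegOn_fixS h hB y.2 (isom_disjoint hy O.ne)) (by
      obtain ⟨k, hk⟩ := O.exists_finrank_movS h hB hy
      have := finrank_movS_add y.1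
      have := Nat.even_iff.mp (hD.mul_left k)
      rw [Nat.odd_iff]; omega)) (fun k hk => adm_odd h hB h3 (by simp [hn]) hk) hrΩ, hn]
  have := hr.two_le
  have h5 : (2 * d + 1) % c % 2 = 1 := by rw [Nat.mod_mod_of_dvd _ hD.two_dvd]; omega
  simp only [Nat.odd_iff]
  omega

end Cfsg.Agent.S5972
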