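import Cfsg.Statements.S5974
import Mathlib
import Cfsg.Agent.H10.Elus8

set_option autoImplicit false
open scoped MatrixGroups
open Cfsg

namespace Cfsg.Agent.S5974

open Module H10 H11

/-- Elements of prime order of PΩ⁺_n(q), n = 2d ≥ 8, with no fixed nondegenerate hyperbolic `m`-space. Here `T = PΩ⁺_n(q)` is realised through `Ω⁺_n(q)`, the commutator subgroup of the isometry group of `Q = Σ xᵢyᵢ` over the field `F` with `q` elements; an element of `T` of prime order `r` is an element `x` of `Ω⁺_n(q)` with `x^r` scalar and `x` not scalar. A hyperbolic `m`-space is a subspace `W` of even dimension `m` on which the polar form of `Q` is nondegenerate and which contains a totally singular subspace of dimension `m/2`. Let `m` be even with `2 ≤ m < n/2`, and let `r` be a prime dividing the number of hyperbolic `m`-spaces, with `r = 2` or `r ≠ p`. For `r ≠ p` let `i` be the multiplicative order of `q` modulo `r`, `c = i` for `i` even and `c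 = 2i` for `i` odd, and write `k = n mod c`, `ℓ' = m mod c`. Then every element of `T` of order `r` fixes some hyperbolic `m`-space if and only if one of: (i) `r = 2` and (`n ≡ 2 (mod 4)`, or `m ≡ 0 (mod 4)`, or `q ≡ 1 (mod 4)`); (ii) `r ≠ p` odd, `i` odd, `c ≤ m` and `k ≥ ℓ'`; (iii) `r ≠ p` odd, `i` even, and either `k = 0` and (`n/i` odd, or `ℓ' = 0` and `m/i` even), or `i ≤ m` and (`k > ℓ' > 0`, or `k = ℓ' > 0` and `(n + m − 2k)/i` even, or `k > ℓ' = 0` and `m/i` even). -/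
theorem result {F : Type*} [Field F] [Fintype F] {p : ℕ} [Fact p.Prime] [CharP F p] {q : ℕ} (hq : Fintype.card F = q)
    (d m : ℕ) (hd : 4 ≤ d) (hm : 2 ≤ m) (hme : Even m) (hmd : m < d)
    (r : ℕ) [Fact r.Prime] (hr : r = 2 ∨ r ≠ p)
    (hrΩ : r ∣ Nat.card {W : Submodule F (Fin d ⊕ Fin d → F) // (Module.finrank F ↥W = m ∧ (∀ u ∈ W, u ≠ 0 → ∃ v ∈ W, QuadraticMap.polar (Cfsg.quadFormPlus d F) u v ≠ 0) ∧
          ∃ U : Submodule F (Fin d ⊕ Fin d → F), U ≤ W ∧ 2 * Module.finrank F ↥U = m ∧ ∀ u ∈ U, Cfsg.quadFormPlus d F u = 0)})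
    (i c : ℕ) (hi : i = orderOf (q : ZMod r)) (hc : c = if Even i then i else 2 * i) :
    (∀ x : GL (Fin d ⊕ Fin d) F, x ∈ Cfsg.Geo.omegaGL (Cfsg.quadFormPlus d F) →
      (∃ z : F, ((x ^ r : GL (Fin d ⊕ Fin d) F) : Matrix (Fin d ⊕ Fin d) (Fin d ⊕ Fin d) F) = z • (1 : Matrix (Fin d ⊕ Fin d) (Fin d ⊕ Fin d) F)) →
      (∀ z : F, (x : Matrix (Fin d ⊕ Fin d) (Fin d ⊕ Fin d) F) ≠ z • (1 : Matrix (Fin d ⊕ Fin d) (Fin d ⊕ Fin d) F)) →
      ∃ W : Submodule F (Fin d ⊕ Fin d → F), (Module.finrank F ↥W = m ∧ (∀ u ∈ W, u ≠ 0 → ∃ v ∈ W, QuadraticMap.polar (Cfsg.quadFormPlus d F) u v ≠ 0) ∧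
          ∃ U : Submodule F (Fin d ⊕ Fin d → F), U ≤ W ∧ 2 * Module.finrank F ↥U = m ∧ ∀ u ∈ U, Cfsg.quadFormPlus d F u = 0) ∧
        W.map (Matrix.toLin' (x : Matrix (Fin d ⊕ Fin d) (Fin d ⊕ Fin d) F)) ≤ W) ↔
    ((r = 2 ∧ ((2 * d) % 4 = 2 ∨ m % 4 = 0 ∨ q % 4 = 1)) ∨
     (r ≠ p ∧ 2 < r ∧ Odd i ∧ c ≤ m ∧ m % c ≤ (2 * d) % c) ∨
     (r ≠ p ∧ 2 < r ∧ Even i ∧
       (((2 * d) % c = 0 ∧ (Odd ((2 * d) / i) ∨ (m % c = 0 ∧ Even (m / i)))) ∨
        (i ≤ m ∧ ((m % c < (2 * d) % c ∧ 0 < m % c) ∨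
                  ((2 * d) % c = m % c ∧ 0 < m % c ∧ Even ((2 * d + m - 2 * ((2 * d) % c)) / i)) ∨
                  (0 < (2 * d) % c ∧ m % c = 0 ∧ Even (m / i))))))) := by
  have h := isQuad_plus d F
  have hB := bPlus_sep d F
  have hn : finrank F (Fin d ⊕ Fin d → F) = 2 * d := by simp [two_mul]
  have e : ∀ W : Submodule F (Fin d ⊕ Fin d → F), (finrank F W = m ∧
      (∀ u ∈ W, u ≠ 0 → ∃ v ∈ W, QuadraticMap.polar (quadFormPlus d F) u v ≠ 0) ∧
      ∃ U ≤ W, 2 * finrank F U = m ∧ ∀ u ∈ U, quadFormPlus d F u = 0) ↔ finrank F W = m ∧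
      NondegOn (bPlus d F) W ∧ (Pl (bPlus d F) (quadFormPlus d F) W ↔ True) := fun W => by
    refine and_congr_right fun e => ?_
    simp only [nd_iff' h, iff_true, Pl, h.totSing_iff, e, and_comm]
  simp only [e] at hrΩ ⊢
  rw [elu_omega h]
  have hr' : r.Prime := Fact.out
  rcases hr'.eq_two_or_odd' with rfl | h2
  · obtain ⟨j, rfl⟩ := hme
    obtain ⟨h0, h1⟩ := char_facts hq (p := p)
    simp only [← two_mul, lt_irrefl, false_and, and_false, or_false, true_and] at hrΩ hm hmd ⊢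
    clear hrΩ e
    by_cases hp : p = 2
    · subst hp
      obtain ⟨h3, h4⟩ := elu_type_char (p := 2) h hB hn (by omega) (j := j) (by omega) (by omega) True
      simp only [pl_plus, if_true] at h3 h4
      exact ⟨fun H => by have := h3 H; omega, fun H => h4 trivial (by omega)⟩
    obtain ⟨h3, h4, h5⟩ := h1 hp
    rw [elu_type_two h hB h3 hn (by omega) (by omega), h4, h5]
    simp only [pl_plus, Nat.even_iff, true_iff, iff_true]
    clear h1 h4 h5
    constructor <;> omega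
  have h4 : r ≠ 2 := by rintro rfl; exact absurd h2 (by decide)
  have hp := hr.resolve_left h4
  rw [elu_type_odd h hB hr' h4 hp (Nat.card_eq_fintype_card.trans hq) hi hc hn (even_two_mul d)
    (by omega) hme (by omega) (by omega) (iff_true_intro (pl_plus d)) hrΩ]
  have := hr'.two_le
  simp only [ne_eq, hp, h4, not_false_iff, true_and, show 2 < r by omega, false_and, false_or,
    iff_true, not_true, and_true, Nat.not_even_iff_odd]
  clear hrΩ e hi hc
  refine or_congr (and_congr_right fun _ => by omega) (and_congr_right fun _ => or_congr_right ?_)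
  simp only [Nat.even_iff]
  omega

end Cfsg.Agent.S5974
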