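import Cfsg.Statements.S5979
import Mathlib
import Cfsg.Agent.H18.Li6

set_option autoImplicit false
open scoped MatrixGroups
open Cfsg

namespace Cfsg.Agent.S5979

open Cfsg.Agent.H18.El Cfsg.Agent.H10 Cfsg.Agent.H11 Cfsg.Agent.L0 Module

/-- Elements of prime order of PSL_n(q) and the stabilizers of tensor decompositions with factors of different dimensions. Here `T = PSL_n(F)` for a field `F` with `q` elements and `n = a·b` with `2 ≤ a < b`; a tensor decomposition `F^n ≅ F^a ⊗ F^b` is given by a bijection `e` of index sets and a change of basis `P`, and `H` is the subgroup of matrices of determinant 1 in its stabilizer (the conjugate by `P` of the group of Kronecker products `g₁ ⊗ g₂`) — a subgroup of type GL_a(q) ⊗ GL_b(q) (maximality is not assumed); Ω is the set of cosets of `H` in `T`, so an element of `T` of prime order `r` (a matrix `x` of determinant 1 with `x^r` scalar, `x` not scalar) fixes a point of Ω exactly when some conjugate of `x` by a matrix of determinant 1 lies in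 `H`. Let `r` be a prime dividing the index of `H`. Then every element of `T` of order `r` fixes a point of Ω if and only if `r = 2`, `a = 2`, `q` is odd and `(q − 1)_2 ≤ (n)_2` (2-parts). -/
theorem result {F : Type*} [Field F] [Fintype F] {p : ℕ} [Fact p.Prime] [CharP F p] {q : ℕ} (hq : Fintype.card F = q)
    (n a b : ℕ) (hab : n = a * b) (ha : 2 ≤ a) (hlt : a < b) (e : Fin n ≃ Fin a × Fin b) (P : GL (Fin n) F)
    (r : ℕ) [Fact r.Prime]
    (hΩ : r ∣ (Cfsg.Geo.tensorProductSubgroup a b e P).relIndex (Cfsg.Geo.specialLinear (Fin n) F)) :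
    (∀ x ∈ Cfsg.Geo.specialLinear (Fin n) F, (∃ z : F, ((x ^ r : GL (Fin n) F) : Matrix (Fin n) (Fin n) F) = z • (1 : Matrix (Fin n) (Fin n) F)) →
      (∀ z : F, (x : Matrix (Fin n) (Fin n) F) ≠ z • (1 : Matrix (Fin n) (Fin n) F)) →
      ∃ g ∈ Cfsg.Geo.specialLinear (Fin n) F, g⁻¹ * x * g ∈ Cfsg.Geo.tensorProductSubgroup a b e P) ↔
    (r = 2 ∧ a = 2 ∧ Odd q ∧ padicValNat 2 (q - 1) ≤ padicValNat 2 n) := by
  have h6 : 6 ≤ n := by nlinarith
  obtain rfl : Nat.card F = q := by rw [Nat.card_eq_fintype_card, hq]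
  have : Nonempty (Fin n) := ⟨⟨0, by omega⟩⟩
  have hV : finrank F (Fin n → F) = n := by simp
  classical
  have hr : r.Prime := Fact.out
  change EL r _ ↔ _
  by_cases hp : r = p
  · subst hp
    refine iff_of_false (fun H => ?_) fun ⟨e1, _, e2, _⟩ => ?_
    · obtain ⟨g, e1, e2, e3, e4⟩ := exists_tv (F := F) (V := Fin n → F) (ι := Fin a × Fin b) r
        (by omega)
      exact e2 (((ti_iff_tk e P g).mp (H.ti g e1 e3)).eq_one hlt.le fun A h =>
        (e4 A h).trans_lt ha)
    · obtain ⟨k, -, hk⟩ := FiniteField.card F r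
      rw [Nat.card_eq_fintype_card, hk, e1, Nat.odd_pow_iff k.ne_zero] at e2
      exact absurd e2 (by decide)
  have h0 : (r : F) ≠ 0 := cast_ne_zero hp
  rw [el_iff (.inl h0)]
  simp only [ti_iff_tk]
  by_cases h1 : r ∣ Nat.card F - 1
  swap
  · exact iff_of_false (not_tk_small h0 h1 (hV.symm ▸ ord_le h0 hΩ) ha hlt) fun ⟨e1, _, e2, _⟩ =>
      h1 (e1 ▸ (Nat.Odd.sub_odd e2 odd_one).two_dvd)
  by_cases h2 : r = 2 ∧ a = 2
  · obtain ⟨rfl, rfl⟩ := h2
    rw [ev_main (by simpa using h0) hV (hab ▸ even_two_mul b) (by omega) TK.smul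
      (fun g z _ e1 e2 => ?_) (fun g x y _ e => ?_) fun g _ e1 H => ?_]
    · simpa using fun _ => Nat.not_even_iff_odd.mp fun e =>
        not_dvd_card Nat.prime_two h0 e.two_dvd
    · obtain ⟨C, hC⟩ := exists_sq_mat (β := Fin b) e2
      exact ⟨C, 1, ty_ns Nat.prime_two hC e1 e2 (by simp [hab])⟩
    · exact (exists_half (hV.trans hab) e).elim fun D hD => ⟨1, D, hD⟩
    · have := lin_det e1
      rw [H.eq_one hlt.le fun A h => (rank_lin (h.trans e1)).trans_lt (by simp)] at this
      exact h0 (by simp at this; push_cast; linear_combination this)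
  refine iff_of_false (fun H => h2 ?_) fun h => h2 ⟨h.1, h.2.1⟩
  obtain ⟨ζ, hζ⟩ := exists_root h1
  have e0 := hζ.ne_zero hr.ne_zero
  have e1 := hζ.ne_one hr.one_lt
  obtain ⟨y, hy⟩ := exists_diag (V := Fin n → F) (m := Multiset.replicate (n - 2) 1 + {ζ, ζ⁻¹})
    (by simp; omega)
  have e2 := (H y (by simp [lin_det hy, e0]) (lin_pe hy (a := ζ) (b := 1) (by simp)
    (by simp [Multiset.mem_replicate]; omega) e1 fun a ha => by
      rcases Multiset.mem_add.mp ha with h | h
      · simp [Multiset.eq_of_mem_replicate h]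
      · rcases Multiset.mem_cons.mp h with rfl | h
        exacts [hζ.pow_eq_one, Multiset.mem_singleton.mp h ▸ hζ.inv.pow_eq_one])).dvd_of_rank
    (fun A h => (rank_lin (h.trans hy)).trans_lt (by simp; omega)) (Polynomial.X - Polynomial.C ζ)
  rw [hy, lin, Multiset.count_map_eq_count' (fun a : F => Polynomial.X - Polynomial.C a) _
    fun a b e => by simpa using e] at e2
  by_cases e3 : ζ = ζ⁻¹
  · refine ⟨(Nat.prime_dvd_prime_iff_eq hr Nat.prime_two).mp (hζ.dvd_of_pow_eq_one 2 (by
      rw [sq]; nth_rw 2 [e3]; exact mul_inv_cancel₀ e0)), le_antisymm (Nat.le_of_dvd two_pos ?_) ha⟩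
    simpa [← e3, Multiset.count_replicate, e1.symm] using e2
  · simp [e3, Multiset.count_replicate, e1.symm] at e2; omega

end Cfsg.Agent.S5979
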