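import Cfsg.Statements.S5981
import Mathlib
import Cfsg.Agent.H18.Li5

set_option autoImplicit false
open scoped MatrixGroups
open Cfsg

namespace Cfsg.Agent.S5981

open Cfsg.Agent.H18.El Cfsg.Agent.H10 Cfsg.Agent.H11 Cfsg.Agent.L0 Module

/-- Elements of prime order of PSL_n(q), q odd, and the subgroups of orthogonal type. Here `T = PSL_n(F)` for a field `F` with `q` elements, `q` odd, `n ≥ 3`; `Q` is a non-degenerate quadratic form on `F^n` (of either type when `n` is even) and `H` is the subgroup of matrices of determinant 1 that preserve `Q` up to a scalar — a subgroup of type O^ε_n(q) (maximality is not assumed); Ω is the set of cosets of `H` in `T`, so an element of `T` of prime order `r` (a matrix `x` of determinant 1 with `x^r` scalar, `x` not scalar) fixes a point of Ω exactly when some conjugate of `x` by a matrix of determinant 1 preserves `Q` up to a scalar. Let `r` be a prime dividing the index of `H`, with `(n, r) ≠ (6, 3)`. Then every element of `T`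 of order `r` fixes a point of Ω if and only if `r = 2`, or `r ∈ {3, 5}`, `n = r` and `(q − 1)_r = r` (the `r`-part of `q − 1` is exactly `r`). The case `(n, r) = (6, 3)` is not covered by this statement. -/
theorem result {F : Type*} [Field F] [Fintype F] {p : ℕ} [Fact p.Prime] [CharP F p] {q : ℕ} (hq : Fintype.card F = q)
    (hodd : Odd q) (n : ℕ) (hn : 3 ≤ n) (Q : (Fin n → F) → F) (hQ : Cfsg.Geo.IsNondegenerateQuadraticForm Q)
    (r : ℕ) [Fact r.Prime] (hgap : ¬ (n = 6 ∧ r = 3))
    (hΩ : r ∣ (Cfsg.Geo.quadSimilarityGroup Q).relIndex (Cfsg.Geo.specialLinear (Fin n) F)) :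
    (∀ x ∈ Cfsg.Geo.specialLinear (Fin n) F, (∃ z : F, ((x ^ r : GL (Fin n) F) : Matrix (Fin n) (Fin n) F) = z • (1 : Matrix (Fin n) (Fin n) F)) →
      (∀ z : F, (x : Matrix (Fin n) (Fin n) F) ≠ z • (1 : Matrix (Fin n) (Fin n) F)) →
      ∃ g ∈ Cfsg.Geo.specialLinear (Fin n) F, g⁻¹ * x * g ∈ Cfsg.Geo.quadSimilarityGroup Q) ↔
    (r = 2 ∨ ((r = 3 ∨ r = 5) ∧ n = r ∧ padicValNat r (q - 1) = 1)) := by
  obtain rfl : Nat.card F = q := by rw [Nat.card_eq_fintype_card, hq]
  have : Nonempty (Fin n) := ⟨⟨0, by omega⟩⟩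
  have hV : finrank F (Fin n → F) = n := by simp
  have hr : r.Prime := Fact.out
  have hf : IsQuad _ Q := (clO hQ).form
  have hB := (clO hQ).sep
  have h2 : (2 : F) ≠ 0 := fun e => Nat.not_even_iff_odd.mpr hodd (by
    rw [Nat.card_eq_fintype_card]
    exact FiniteField.even_card_of_char_two ((CharP.ringChar_of_prime_eq_zero Nat.prime_two e))
      |> Nat.even_iff.mpr)
  have hH := mem_qsim hf h2
  change EL r _ ↔ _
  by_cases hr2 : r = 2
  · subst hr2
    exact iff_of_true ((el_iff (.inr rfl)).mpr fun g h1 h3 => (ti_iff_ts hH hB g).mpr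
      (ts_quad_two hf hB h2 (by omega) g h1 h3)) (.inl rfl)
  have ho := hr.odd_of_ne_two hr2
  rw [or_iff_right hr2]
  have h3 : ¬ r ∣ Nat.card F - 1 → ¬ ((r = 3 ∨ r = 5) ∧ n = r ∧
      padicValNat r (Nat.card F - 1) = 1) := fun h e => by
    rw [padicValNat.eq_zero_of_not_dvd h] at e; omega
  by_cases hp : r = p
  · subst hp
    refine iff_of_false (fun H => ?_) (h3 fun e => ?_)
    · obtain ⟨g, e1, e2, e3, -, e4⟩ := exists_unip_one (F := F) (V := Fin n → F) r (j := 2)
        (by omega) hr.two_le (by omega)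
      obtain ⟨g', e5, e6⟩ := ((ti_iff_ts hH hB g).mp (H.ti g e1 e3)).isom hB (by omega)
        (pow_eq_one_char r) e2
      have := even_count_symm h2 hB hf.comm e5 (j := 2) (by decide) two_pos
      rw [e6, e4] at this
      exact absurd this (by decide)
    · obtain ⟨k, -, hk⟩ := FiniteField.card F r
      exact hr.not_dvd_one ((Nat.dvd_sub_iff_right Nat.card_pos (by
        rw [Nat.card_eq_fintype_card, hk]; exact dvd_pow_self r k.ne_zero)).mp e)
  have h0 : (r : F) ≠ 0 := cast_ne_zero hp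
  rw [el_iff (.inl h0)]
  simp only [ti_iff_ts hH hB]
  by_cases h1 : r ∣ Nat.card F - 1
  · refine sym_main hr2 h1 hV hn hgap TS.smul (not_ts_ns hf hB (by omega) (root_id ho))
      (TS.sy hf hB (by omega) h0 ho fun _ _ => rfl) fun e => ts_of_sy (Q := Q) par_quad
      ⟨1, by simpa [one_add_one_eq_two]⟩ (fun s hs hd => ?_) h0 ho fun _ _ => rfl
    obtain ⟨B', Q', e1, e2, e3⟩ := hs.exists_realIn hd
    obtain ⟨c, e, -, e4, e5⟩ := IsQuad.exists_equiv_of_odd e1 e2 hf hB (by rwa [hV, e]) rfl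
    exact e3.sim e e4 e5
  refine iff_of_false (fun K => ?_) (h3 h1)
  by_cases h4 : Even (orderOf ((Nat.card F : ℕ) : ZMod r))
  swap
  · exact not_ts_small hf hB h0 h1 (hV.symm ▸ ord_le h0 hΩ) (du_ne_odd h0 hr2 h4) K
  obtain ⟨e, h5⟩ := card_GL_int (F := F) n
  rcases n.even_or_odd' with ⟨m, rfl | rfl⟩
  swap
  · obtain ⟨ν, hν⟩ := hf.exists_wittIdx
    obtain rfl : m = ν := by
      have := hf.two_mul_wittIdx_le hB hν
      have := hf.finrank_le_wittIdx' hB hν
      omega
    refine not_dvd_isom (Q := Q) hH (t := 2 * Nat.card F ^ m ^ 2) ?_ (odd_ne h0 h4 e (m + 1)) hΩ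
    rw [h5, IsQuad.card_isom_odd m hf hB hν hV, Finset.prod_range_succ, Finset.prod_range_succ,
      prod_even]
    ring
  obtain ⟨m, rfl⟩ : ∃ k, m = k + 1 := ⟨m - 1, by omega⟩
  have h6 : ∀ ε : ℤ, ε * ε = 1 → (Nat.card (Isom (σ := .id F) (bilinOf hQ.polar_bilinear) Q) : ℤ) =
      2 * (Nat.card F : ℤ) ^ ((m + 1) * m) * ((Nat.card F : ℤ) ^ (m + 1) - ε) *
      ∏ i ∈ Finset.range m, ((Nat.card F : ℤ) ^ (2 * (i + 1)) - 1) →
      ((Nat.card F : ℕ) : ZMod r) ^ (m + 1) = -ε := fun ε h7 h8 => by_contra fun h9 =>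
    not_dvd_isom (Q := Q) hH (t := 2 * Nat.card F ^ ((m + 1) * m))
      (s := (Nat.card F ^ e * ∏ i ∈ Finset.range (m + 1), ((Nat.card F : ℤ) ^ (2 * i + 1) - 1)) *
        (Nat.card F ^ (m + 1) + ε)) (by
        rw [h5, h8, prod_even, Finset.prod_range_succ _ m, Finset.prod_range_succ _ m,
          show (Nat.card F : ℤ) ^ (2 * (m + 1)) - 1 = (Nat.card F ^ (m + 1) - ε) *
            (Nat.card F ^ (m + 1) + ε) by linear_combination h7]
        ring) (by
        rw [Int.cast_mul]
        exact mul_ne_zero (odd_ne h0 h4 e _) (by simpa [add_eq_zero_iff_eq_neg] using h9)) hΩ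
  have h7 : (1 : ZMod r) ≠ -1 := fun e => hr2 ((Nat.prime_dvd_prime_iff_eq hr Nat.prime_two).mp
    ((ZMod.natCast_eq_zero_iff 2 r).mp (by push_cast; linear_combination e)))
  rcases hf.wittIdx_even_cases hB hV with h | h
  · have := h6 1 (by simp) (IsQuad.card_isom_plus m hf hB h hV)
    exact h7 (((ts_fpf hf hB h2 h0 h1 hV (by rw [pow_mul', this]; simp) K).1 h).symm.trans
      (this.trans (by simp)))
  · have := h6 (-1) (by simp) (by simpa using IsQuad.card_isom_minus m hf hB h hV)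
    exact h7 (.trans (by simp) (this.symm.trans
      ((ts_fpf hf hB h2 h0 h1 hV (by rw [pow_mul', this]; simp) K).2 h)))

end Cfsg.Agent.S5981
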