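import Cfsg.Statements.S5982
import Mathlib
import Cfsg.Agent.H18.Li5

set_option autoImplicit false
open scoped MatrixGroups
open Cfsg

namespace Cfsg.Agent.S5982

open Cfsg.Agent.H18.El Cfsg.Agent.H10 Cfsg.Agent.H11 Cfsg.Agent.L0 Module

/-- Elements of prime order of PSL_n(q), q = q₀², and the subgroups of unitary type. Here `T = PSL_n(F)` for a field `F` with `q = q₀²` elements (`n ≥ 3`), `f` is a non-degenerate unitary form on `F^n` for the involutory automorphism `x ↦ x^{q₀}`, and `H` is the subgroup of matrices of determinant 1 that preserve `f` up to a scalar — a subgroup of type GU_n(q₀) (maximality is not assumed); Ω is the set of cosets of `H` in `T`, so an element of `T` of prime order `r` (a matrix `x` of determinant 1 with `x^r` scalar, `x` not scalar) fixes a point of Ω exactly when some conjugate of `x` by a matrix of determinant 1 preserves `f` up to a scalar. Let `r` be a prime dividing the index of `H`, with `r = 2` or `r` different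 from the characteristic `p`, and with `(n, r) ≠ (6, 3)`. Then every element of `T` of order `r` fixes a point of Ω if and only if either `r = 2` and (`p = 2` or `(n)_2 ≤ (q − 1)_2`), or `r ∈ {3, 5}`, `n = r` and `(q₀ − 1)_r = r`. (Odd `r = p` and the case `(n, r) = (6, 3)` are not covered by this statement.) -/
theorem result {F : Type*} [Field F] [Fintype F] {p : ℕ} [Fact p.Prime] [CharP F p] {q : ℕ} (hq : Fintype.card F = q)
    (q₀ : ℕ) (hq₀ : q = q₀ ^ 2) (n : ℕ) (hn : 3 ≤ n) (f : (Fin n → F) → (Fin n → F) → F) (hf : Cfsg.Geo.IsUnitaryFormPow q₀ f)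
    (r : ℕ) [Fact r.Prime] (hr : r = 2 ∨ r ≠ p) (hgap : ¬ (n = 6 ∧ r = 3))
    (hΩ : r ∣ (Cfsg.Geo.similarityGroup f).relIndex (Cfsg.Geo.specialLinear (Fin n) F)) :
    (∀ x ∈ Cfsg.Geo.specialLinear (Fin n) F, (∃ z : F, ((x ^ r : GL (Fin n) F) : Matrix (Fin n) (Fin n) F) = z • (1 : Matrix (Fin n) (Fin n) F)) →
      (∀ z : F, (x : Matrix (Fin n) (Fin n) F) ≠ z • (1 : Matrix (Fin n) (Fin n) F)) →
      ∃ g ∈ Cfsg.Geo.specialLinear (Fin n) F, g⁻¹ * x * g ∈ Cfsg.Geo.similarityGroup f) ↔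
    ((r = 2 ∧ (p = 2 ∨ padicValNat 2 n ≤ padicValNat 2 (q - 1))) ∨ ((r = 3 ∨ r = 5) ∧ n = r ∧ padicValNat r (q₀ - 1) = 1)) := by
  obtain rfl : Nat.card F = q := by rw [Nat.card_eq_fintype_card, hq]
  have : Nonempty (Fin n) := ⟨⟨0, by omega⟩⟩
  have hV : finrank F (Fin n → F) = n := by simp
  have hr' : r.Prime := Fact.out
  have hc := qConj_conjQ (hq.trans hq₀)
  set σ := conjQ (hq.trans hq₀)
  have hσ : ∀ v w, f v w = σ (f w v) := hf.herm
  let B : (Fin n → F) →ₛₗ[σ] (Fin n → F) →ₗ[F] F := LinearMap.mk₂'ₛₗ σ (.id F) (fun x y => f y x)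
    (fun x y z => by rw [hσ z, hf.add_left, map_add, ← hσ, ← hσ])
    (fun c x y => by rw [hσ y, hf.smul_left, map_mul, ← hσ, smul_eq_mul])
    (fun x y z => hf.add_left y z x) fun c x y => hf.smul_left c y x
  have hh : IsHerm B := ⟨hc.ne_id, hc.invol, fun x y => (hσ x y).symm⟩
  have hB : B.SeparatingLeft := fun v hv => by_contra fun e =>
    (hf.nondegenerate v e).1.elim fun x hx => hx (hv x)
  have hH := mem_sim (B := B) (f := f) (.inr fun _ _ => rfl)
  have hG : ∃ a, a + 1 * σ a ≠ 0 := by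
    obtain ⟨a, ha⟩ := exists_ne_conj hc.ne_id
    by_contra! e
    have := e 1
    rw [map_one] at this
    exact ha (by linear_combination e a - a * this)
  have hR := fun s (h : Real σ 1 1 (trHom σ) s) => h.herm hh hB
  have h1 := hc.two_le
  have h2 : Nat.card F - 1 = (q₀ + 1) * (q₀ - 1) := by rw [← hc.card_units, card_units']
  change EL r _ ↔ _
  rw [el_iff (hr.symm.imp_left cast_ne_zero)]
  simp only [ti_iff_ts hH hB]
  by_cases hp : r = p
  · obtain rfl := hr.resolve_right (not_not.mpr hp)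
    subst hp
    refine iff_of_true (fun g hd hg => ?_) (.inl ⟨rfl, .inl rfl⟩)
    obtain ⟨c, e1, e2, -⟩ := pe_char 2 (by omega) (by simp [hd]) hg
    obtain ⟨e3, e4⟩ := ty_unip 2 e2
    refine .smul g c e1 (RealIn.ts (hR _ (real_herm_unip hc.ne_id hc.invol fun u hu => ?_)
      (finrank_dg _).symm))
    obtain ⟨j, h1, rfl⟩ := Multiset.mem_map.mp (e4 ▸ hu)
    exact ⟨j, (e3 j h1).1, rfl⟩
  have h0 : (r : F) ≠ 0 := cast_ne_zero hp
  have h3 : r ∣ q₀ - 1 → ∀ a, a ^ r = 1 → σ a = a := fun ⟨k, hk⟩ a ha => by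
    rw [hc.eq, ← Nat.sub_add_cancel (show 1 ≤ q₀ by omega), pow_succ, hk, pow_mul, ha, one_pow,
      one_mul]
  by_cases hr2 : r = 2
  · subst hr2
    obtain ⟨a, rfl⟩ : Odd q₀ := Nat.not_even_iff_odd.mp fun e => not_dvd_card Nat.prime_two h0
      (hq₀ ▸ e.two_dvd.pow two_ne_zero)
    have h4 := two_dvd_pred (F := F) (by simpa using h0)
    rw [ns_main h4 (by omega) TS.smul (not_ts_ns hh.form hB (by omega) (root_herm hc (by simp)))
      fun g hg => ?_]
    · have : Nat.card F % 4 = 1 := by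
        rw [hq₀, show (2 * a + 1) ^ 2 = 4 * (a * a + a) + 1 by ring]; omega
      simp [Cond, this, Ne.symm hp, -Nat.card_eq_fintype_card]
    obtain ⟨m, hm⟩ := exists_lin h4 hg
    exact ts_of_inv (par_herm hc.invol) hG hR h0 (h3 (by simp)) hg hm ((Multiset.map_congr rfl
      fun a ha => inv_eq_of_mul_eq_one_left (by
        rw [← sq]; exact (lin_pow hm 2 1).mp (by simpa using hg) a ha)).trans m.map_id')
  have ho := hr'.odd_of_ne_two hr2
  rw [or_iff_right fun h => hr2 h.1]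
  have h4 : ¬ ∃ j, (q₀ : ZMod r) ^ (2 * j + 1) = -1 := fun ⟨j, hj⟩ => by
    obtain ⟨e, h5⟩ := card_GL_int (F := F) n
    refine not_dvd_isom (Q := fun x => B x x) hH (t := q₀ ^ (n * (n - 1) / 2)) (s := Nat.card F ^ e *
      ∏ i ∈ Finset.range n, ((q₀ : ℤ) ^ (i + 1) + (-1) ^ (i + 1))) ?_ ?_ hΩ
    · rw [h5, hh.card_uisom hc hB hV, uOrd_cast (by omega), Fin.prod_univ_eq_prod_range
        fun i => (q₀ : ℤ) ^ (i + 1) - (-1) ^ (i + 1), mul_mul_mul_comm, ← Finset.prod_mul_distrib,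
        Finset.prod_congr rfl (g := fun i => ((q₀ : ℤ) ^ (i + 1) - (-1) ^ (i + 1)) *
          (q₀ ^ (i + 1) + (-1) ^ (i + 1))) fun i _ => by
            rw [hq₀]; push_cast
            linear_combination (by rw [← mul_pow]; simp : (-1 : ℤ) ^ (i + 1) * (-1) ^ (i + 1) = 1)]
      ring
    push_cast
    refine mul_ne_zero (pow_ne_zero _ (card_ne_zero h0)) (Finset.prod_ne_zero_iff.mpr
      fun i _ e => hr2 ((Nat.prime_dvd_prime_iff_eq hr' Nat.prime_two).mp
        ((ZMod.natCast_eq_zero_iff 2 r).mp ?_)))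
    have := congrArg (· ^ (2 * j + 1)) (add_eq_zero_iff_eq_neg.mp e)
    simp only [← pow_mul, mul_comm (i + 1), (odd_two_mul_add_one j).neg_pow] at this
    rw [pow_mul, hj, pow_mul, (odd_two_mul_add_one j).neg_one_pow] at this
    refine mul_right_cancel₀ (b := (-1) ^ (i + 1)) (by simp) ?_
    push_cast
    linear_combination this
  have h5 : ¬ r ∣ q₀ + 1 := fun e => h4 ⟨0, by
    simpa [add_eq_zero_iff_eq_neg] using (ZMod.natCast_eq_zero_iff _ r).mpr e⟩
  by_cases h6 : r ∣ q₀ - 1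
  · rw [sym_main hr2 (h2 ▸ h6.mul_left _) hV hn hgap TS.smul (not_ts_ns hh.form hB (by omega)
      (root_herm hc h6)) (TS.sy hh.form hB (by omega) h0 ho (h3 h6)) fun _ => ts_of_sy
      (par_herm hc.invol) hG hR h0 ho (h3 h6), h2, padicValNat.mul (by omega) (by omega),
      padicValNat.eq_zero_of_not_dvd h5, zero_add]
  refine iff_of_false (not_ts_small hh.form hB h0 (fun e => (hr'.dvd_mul.mp (h2 ▸ e)).elim h5 h6)
    (hV.symm ▸ ord_le h0 hΩ) fun u e => h4 ?_) fun e => by
      simp [padicValNat.eq_zero_of_not_dvd h6] at e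
  obtain ⟨k, hk⟩ := exists_eq_char_pow (hq.trans hq₀)
  rw [ringChar.eq F p] at hk
  simpa [-Nat.card_eq_fintype_card, hq₀, ← hk, ← pow_mul, ← pow_succ] using
    (du_eq_iff hc.invol (p := p) (k := k) (hk ▸ hc.eq) hr' u).mp e

end Cfsg.Agent.S5982
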