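import Cfsg.Statements.S5984
import Mathlib
import Cfsg.Agent.H10.Elus13

set_option autoImplicit false
open scoped MatrixGroups
open Cfsg

namespace Cfsg.Agent.S5984

open Module H10 H11

/-- Elements of prime order of PSU_n(q) and the stabilizers of pairs of complementary totally singular subspaces. Here `T = PSU_n(q)` is realised through `SU_n(q)`, the matrices of determinant 1 over the field `F` with `q²` elements preserving the hermitian form `Σ uᵢ vᵢ^q`, with `n ≥ 4` even; `D` is a pair of complementary subspaces of dimension `n/2` on each of which the form vanishes identically, and `H` is the subgroup of `SU_n(q)` fixing or interchanging the two members — a subgroup of type GL_{n/2}(q²).2 (maximality is not assumed). Ω is the set of cosets of `H`, so an element of `T` of prime order `r` (`x ∈ SU_n(q)` with `x^r` scalar, `x` not scalar) fixes a point of Ω exactly when some `SU_n(q)`-conjugate of `x` lies in `H`. Let `r` be a prime dividing the index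 of `H`. Then every element of `T` of order `r` fixes a point of Ω if and only if `r = 2`, `q` is odd and `(q + 1)_2 ≤ (n)_2` (2-parts). -/
theorem result {F : Type*} [Field F] [Fintype F] {p : ℕ} [Fact p.Prime] [CharP F p] {q : ℕ} (hq : Fintype.card F = q ^ 2)
    (n : ℕ) (hn : 4 ≤ n) (he : Even n) (D : Fin 2 → Submodule F (Fin n → F)) (hD : Cfsg.Geo.IsMDecomposition (n / 2) D)
    (hDs : ∀ i, Cfsg.Geo.IsTotallySingularFor (Cfsg.hermForm n F q) (D i))
    (r : ℕ) [Fact r.Prime]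
    (hΩ : r ∣ (Cfsg.Geo.decompositionStabilizer D).relIndex (Cfsg.GU n F q ⊓ Cfsg.Geo.specialLinear (Fin n) F)) :
    (∀ x ∈ Cfsg.GU n F q ⊓ Cfsg.Geo.specialLinear (Fin n) F, (∃ z : F, ((x ^ r : GL (Fin n) F) : Matrix (Fin n) (Fin n) F) = z • (1 : Matrix (Fin n) (Fin n) F)) →
      (∀ z : F, (x : Matrix (Fin n) (Fin n) F) ≠ z • (1 : Matrix (Fin n) (Fin n) F)) →
      ∃ g ∈ Cfsg.GU n F q ⊓ Cfsg.Geo.specialLinear (Fin n) F, g⁻¹ * x * g ∈ Cfsg.Geo.decompositionStabilizer D) ↔
    (r = 2 ∧ Odd q ∧ padicValNat 2 (q + 1) ≤ padicValNat 2 n) := by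
  have hq' := qConj_conjQ hq
  have hH := hq'.isHerm (Fin n)
  have hB := hermB_sep (σ := conjQ hq) (Fin n)
  obtain ⟨m, rfl⟩ := he.two_dvd
  have t : ∀ i, TotSing (hermB _ (conjQ hq)) (fun x => hermB _ (conjQ hq) x x) (D i) := fun i =>
    IsHerm.totSing_iff.mpr fun x hx y hy => (hq'.hermForm_eq y x).symm.trans (hDs i y hy x hx)
  have h1 : PrOn (hermB _ (conjQ hq)) (fun x => hermB _ (conjQ hq) x x) ⊤ (D 0) (D 1) :=
    ⟨hD.indep.pairwiseDisjoint (by simp), eq_top_iff.mpr (hD.iSup_eq_top ▸ iSup_le (by simp)), t 0, t 1⟩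
  have h2 : ∀ y : UIsom (hermB (Fin (2 * m)) (conjQ hq)), y ∈ (Geo.decompositionStabilizer D).comap
      (isoGL _ _) ↔ Stb y.1.toLinearMap (D 0) (D 1) := fun y => by
    change (∃ σ : Equiv.Perm (Fin 2), ∀ i, (D i).map (Matrix.toLin' (isoGL _ _ y).1) = D (σ i)) ↔ _
    rw [isoGL_toLin]
    refine ⟨fun ⟨σ, h⟩ => ?_, fun h => h.elim (fun h => ⟨1, by simpa using h⟩)
      fun h => ⟨Equiv.swap 0 1, by simpa using h⟩⟩
    have : σ = 1 ∨ σ = Equiv.swap 0 1 := by clear h; revert σ; decide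
    rcases this with rfl | rfl
    exacts [.inl ⟨h 0, h 1⟩, .inr ⟨h 0, h 1⟩]
  obtain ⟨a1, a2⟩ := eluP_gl (r := r) (H := Geo.decompositionStabilizer D)
    (G := SIsom (hermB (Fin (2 * m)) (conjQ hq))) (K := Cfsg.GU _ F q ⊓ Geo.specialLinear _ F)
    fun g => by
      rw [mem_SU_iff hq, mem_om_herm hH]
      exact ⟨fun h => ⟨mem_uisom.mpr h.1, mem_sisom.mpr h.2⟩,
        fun ⟨a, b⟩ => ⟨mem_uisom.mp a, mem_sisom.mp b⟩⟩
  rw [a1] at hΩ
  rw [a2, ← eluP_su_pair hq' hH hB (p := p) (by simp) (by omega) h1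
    (fun y hy => (h2 y).mpr (.inl hy)) hΩ]
  simp only [h2, ← fxP_iff_conj hq' hH hB h1 (by simp; omega)]

end Cfsg.Agent.S5984
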