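import Cfsg.Statements.S5987
import Mathlib
import Cfsg.Agent.H10.Elus8

set_option autoImplicit false
open scoped MatrixGroups
open Cfsg

namespace Cfsg.Agent.S5987

open Module H10 H11

/-- Elements of prime order of PΩ⁻_n(q) with no fixed totally singular `m`-space. Here `T = PΩ⁻_n(F)`, `n = 2d ≥ 8`, realised through `Ω⁻_n(q)`, the commutator subgroup of the isometry group of `Q = Σ_{i<d−1} xᵢyᵢ + z₁² + a z₁z₂ + b z₂²` with `z₁² + a z₁z₂ + b z₂²` anisotropic, over the field `F` with `q` elements; an element of `T` of prime order `r` is an element `x` of `Ω⁻_n(q)` with `x^r` scalar and `x` not scalar. Let `1 ≤ m ≤ d − 1` and let `r` be a prime dividing the number of totally singular `m`-spaces (subspaces of dimension `m` on which `Q` vanishes); for `r ≠ p` let `i` be the multiplicative order of `q` modulo `r`, `c = i` for `i` even and `c = 2i` for `i` odd, and write `k = n mod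 c`, `ℓ = m mod i`, `n' = ⌊n/i⌋`, `m' = ⌊m/i⌋`, `t = (r−1)/i`. Then every element of `T` of order `r` fixes some totally singular `m`-space if and only if one of: (i) `r = 2 ≠ p` and (`n ≡ 0 (mod 4)`, or `m` is even, or `q ≢ 7 (mod 8)`); (ii) `r ≠ p` odd, `i` odd, `i ≤ m` and (`k = 0` or `k > 2ℓ`); (iii) `r ≠ p` odd, `i` even, `i ≤ m`, `n' − 2m' ≥ t`, and one of: (a) `i ≥ 2ℓ`, `k = 0`, `n/i` even and `n' − 2m' > t` (all four); (b) `k ≥ 2ℓ` and `n'` odd; (c) `k > 2ℓ` and `n'` even. -/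
theorem result {F : Type*} [Field F] [Fintype F] {p : ℕ} [Fact p.Prime] [CharP F p] {q : ℕ} (hq : Fintype.card F = q)
    (d m : ℕ) (hd : 4 ≤ d) (hm : 1 ≤ m) (hmd : m + 1 ≤ d) (a b : F) (hab : ∀ x y : F, x ^ 2 + a * x * y + b * y ^ 2 = 0 → x = 0 ∧ y = 0)
    (r : ℕ) [Fact r.Prime]
    (hrΩ : r ∣ Nat.card {W : Submodule F ((Fin (d - 1) ⊕ Fin (d - 1)) ⊕ Fin 2 → F) // Module.finrank F ↥W = m ∧ Cfsg.Geo.IsTotallySingularQuad (Cfsg.quadFormMinus (d - 1) F a b) W})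
    (i c : ℕ) (hi : i = orderOf (q : ZMod r)) (hc : c = if Even i then i else 2 * i) :
    (∀ x : GL ((Fin (d - 1) ⊕ Fin (d - 1)) ⊕ Fin 2) F, x ∈ Cfsg.Geo.omegaGL (Cfsg.quadFormMinus (d - 1) F a b) →
      (∃ z : F, ((x ^ r : GL ((Fin (d - 1) ⊕ Fin (d - 1)) ⊕ Fin 2) F) : Matrix ((Fin (d - 1) ⊕ Fin (d - 1)) ⊕ Fin 2) ((Fin (d - 1) ⊕ Fin (d - 1)) ⊕ Fin 2) F) = z • (1 : Matrix ((Fin (d - 1) ⊕ Fin (d - 1)) ⊕ Fin 2) ((Fin (d - 1) ⊕ Fin (d - 1)) ⊕ Fin 2) F)) →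
      (∀ z : F, (x : Matrix ((Fin (d - 1) ⊕ Fin (d - 1)) ⊕ Fin 2) ((Fin (d - 1) ⊕ Fin (d - 1)) ⊕ Fin 2) F) ≠ z • (1 : Matrix ((Fin (d - 1) ⊕ Fin (d - 1)) ⊕ Fin 2) ((Fin (d - 1) ⊕ Fin (d - 1)) ⊕ Fin 2) F)) →
      ∃ W : Submodule F ((Fin (d - 1) ⊕ Fin (d - 1)) ⊕ Fin 2 → F), (Module.finrank F ↥W = m ∧ Cfsg.Geo.IsTotallySingularQuad (Cfsg.quadFormMinus (d - 1) F a b) W) ∧ W.map (Matrix.toLin' (x : Matrix ((Fin (d - 1) ⊕ Fin (d - 1)) ⊕ Fin 2) ((Fin (d - 1) ⊕ Fin (d - 1)) ⊕ Fin 2) F)) ≤ W) ↔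
    ((r = 2 ∧ p ≠ 2 ∧ (Even d ∨ Even m ∨ q % 8 ≠ 7)) ∨
     (r ≠ p ∧ 2 < r ∧ Odd i ∧ i ≤ m ∧ ((2 * d) % c = 0 ∨ 2 * (m % i) < (2 * d) % c)) ∨
     (r ≠ p ∧ 2 < r ∧ Even i ∧ i ≤ m ∧ (r - 1) / i + 2 * (m / i) ≤ (2 * d) / i ∧
       ((2 * (m % i) ≤ i ∧ (2 * d) % c = 0 ∧ Even ((2 * d) / i) ∧ (r - 1) / i + 2 * (m / i) < (2 * d) / i) ∨
        (2 * (m % i) ≤ (2 * d) % c ∧ Odd ((2 * d) / i)) ∨
        (2 * (m % i) < (2 * d) % c ∧ Even ((2 * d) / i))))) := by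
  have h := isQuad_minus (d - 1) F a b
  have hB := bMinus_sep (d - 1) hab
  obtain ⟨hn, hP⟩ := minus_data (d := d) (by omega) hab
  simp only [Geo.IsTotallySingularQuad, ← h.totSing_iff] at hrΩ ⊢
  rw [elu_omega h]
  have hr : r.Prime := Fact.out
  obtain ⟨W, w1, w2⟩ := wittIdx_minus (d - 1) hab
  obtain ⟨U, u1, u2⟩ := exists_le_finrank_eq W (k := m) (by omega)
  have hp : r ≠ p := by
    rintro rfl
    exact not_dvd_card_totSing h hB ⟨U, u2, w1.1.mono u1⟩ (.inl (by omega)) hrΩ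
  rcases hr.eq_two_or_odd' with rfl | h2
  · obtain ⟨h0, h1⟩ := char_facts hq (p := p)
    obtain ⟨h3, h4, h5⟩ := h1 hp.symm
    rw [elu_ts_two h hB h3 hn (by omega) hmd, h4, h5]
    simp only [hP, Nat.even_iff, false_iff, false_imp_iff, true_and, lt_irrefl, false_and, and_false,
      or_false]
    omega
  have h4 : r ≠ 2 := by rintro rfl; exact absurd h2 (by decide)
  have O := od_id (F := F) hr h4 hp (Nat.card_eq_fintype_card.trans hq) hi hc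
  obtain ⟨hD, h5, h6⟩ := c_facts hc O.pos.1
  rw [elu_ts_odd (e := 1) h hB hr h4 hp (Nat.card_eq_fintype_card.trans hq) hi hc hn
    (even_two_mul d) (by omega) (by omega) (by simp [hP]) hrΩ]
  have := hr.two_le
  have := sub_two_mod hD O.pos.2.2 (even_two_mul d) (by omega)
  have := Nat.mod_lt m O.pos.1
  have : 2 * d % c % 2 = 0 := by rw [Nat.mod_mod_of_dvd _ hD.two_dvd]; omega
  rw [or_iff_right (a := r = 2 ∧ _) (by omega)]
  simp only [ne_eq, hp, not_false_iff, true_and, show 2 < r by omega, Nat.odd_iff, Nat.even_iff,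
    Nat.one_mod, mul_one]
  refine or_congr (by omega) (and_congr_right fun _ => and_congr_right fun _ =>
    and_congr_right fun _ => or_congr (by omega) (or_congr (by omega) (by omega)))

end Cfsg.Agent.S5987
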