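import Cfsg.Statements.S5992
import Mathlib
import Cfsg.Agent.H10.Elus8

set_option autoImplicit false
open scoped MatrixGroups
open Cfsg

namespace Cfsg.Agent.S5992

open Module H10 H11

/-- Elements of prime order r ≠ p of Ω_n(q), nq odd, with no fixed hyperbolic `m`-space. Here `T = Ω_n(F)`, `n = 2d+1 ≥ 7`, `q` odd, realised as the commutator subgroup of the isometry group of `Q = x₀² + Σ xᵢyᵢ` over the field `F` with `q` elements (trivial centre, so its elements of prime order `r` are used directly); a nondegenerate `m`-space (even `m`) is a subspace on which the polar form of `Q` is nondegenerate; it is hyperbolic if it contains an `m/2`-dimensional subspace on which `Q` vanishes, elliptic otherwise. Let `m` be even with `2 ≤ m ≤ n − 1` (no restriction `m < n/2`) and let `r ≠ p` be a prime dividing the number of hyperbolic `m`-spaces; for `r ≠ p` let `i` be the multiplicative order of `q` modulo `r`, `c = i` for `i` even and `c = 2i` for `i` odd, and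 write `k = n mod c`, `ℓ' = m mod c`. Then every element of `T` of order `r` fixes some hyperbolic `m`-space if and only if `r = 2`, or `r` is odd and one of: (i) `i` odd, `c ≤ m` and either `k > ℓ' > 0` or `ℓ' = 0`; (ii) `i` even, `i ≤ m`, `k > ℓ'`, and `m/i` even whenever `ℓ' = 0`. (`r = p` is not covered by this statement.) -/
theorem result {F : Type*} [Field F] [Fintype F] {p : ℕ} [Fact p.Prime] [CharP F p] {q : ℕ} (hq : Fintype.card F = q) (hqodd : Odd q)
    (d m : ℕ) (hd : 3 ≤ d) (hm : 2 ≤ m) (hme : Even m) (hmn : m ≤ 2 * d)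
    (r : ℕ) [Fact r.Prime] (hrp : r ≠ p)
    (hrΩ : r ∣ Nat.card {W : Submodule F (Unit ⊕ (Fin d ⊕ Fin d) → F) // Module.finrank F ↥W = m ∧ Cfsg.Geo.IsNondegenerateOn (QuadraticMap.polar (Cfsg.quadFormOdd d F)) W ∧ Cfsg.Geo.IsPlusTypeOn (Cfsg.quadFormOdd d F) W})
    (i c : ℕ) (hi : i = orderOf (q : ZMod r)) (hc : c = if Even i then i else 2 * i) :
    (∀ x : GL (Unit ⊕ (Fin d ⊕ Fin d)) F, x ∈ Cfsg.Geo.omegaGL (Cfsg.quadFormOdd d F) → orderOf x = r →
      ∃ W : Submodule F (Unit ⊕ (Fin d ⊕ Fin d) → F), (Module.finrank F ↥W = m ∧ Cfsg.Geo.IsNondegenerateOn (QuadraticMap.polar (Cfsg.quadFormOdd d F)) W ∧ Cfsg.Geo.IsPlusTypeOn (Cfsg.quadFormOdd d F) W) ∧ W.map (Matrix.toLin' (x : Matrix (Unit ⊕ (Fin d ⊕ Fin d)) (Unit ⊕ (Fin d ⊕ Fin d)) F)) ≤ W) ↔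
    (r = 2 ∨
     (2 < r ∧ Odd i ∧ c ≤ m ∧ (m % c = 0 ∨ (0 < m % c ∧ m % c < (2 * d + 1) % c))) ∨
     (2 < r ∧ Even i ∧ i ≤ m ∧ m % c < (2 * d + 1) % c ∧ (0 < m % c ∨ Even (m / i)))) := by
  have h3 := two_ne_zero_of_odd_card (hq ▸ hqodd)
  have h := isQuad_odd d F
  have hB := bOdd_sep d h3
  have hn : finrank F (Unit ⊕ (Fin d ⊕ Fin d) → F) = 2 * d + 1 := by simp [two_mul, add_comm]
  simp only [nd_iff h, fun W => (plus_iff h (W := W)).trans (iff_true_right trivial).symm] at hrΩ ⊢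
  rw [elu_omega' h]
  have hr : r.Prime := Fact.out
  rcases hr.eq_two_or_odd' with rfl | h2
  · refine iff_of_true (fun y y1 y2 y3 => ?_) (.inl rfl)
    obtain ⟨k, k1, -⟩ := (invol_mem_iff h hB h3 (sq y ▸ y2)).mp y1
    have := (invol_data h hB h3 (sq y ▸ y2)).2.2.2.2.2.1.mp y3
    exact invol_fx_type h hB h3 (sq y ▸ y2) (by omega) hme (by omega) (by omega) _
  have h4 : r ≠ 2 := by rintro rfl; exact absurd h2 (by decide)
  have O := od_id (F := F) hr h4 hrp (Nat.card_eq_fintype_card.trans hq) hi hc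
  obtain ⟨hD, h5, h6⟩ := c_facts hc O.pos.1
  rw [forall_omega_odd h hB (by omega) h2, O.type_odd h hB hD h3 (by simp [hn]) hme (by omega)
    (by omega) hrΩ, hn]
  have := hr.two_le
  have e1 := Nat.mod_mod_of_dvd m hD.two_dvd
  have e2 := Nat.mod_mod_of_dvd (2 * d + 1) hD.two_dvd
  have := O.pos.1
  have : c = i → m / c = m / i := by rintro rfl; rfl
  simp only [Nat.odd_iff, Nat.even_iff, iff_true] at hme ⊢
  clear hrΩ hi hc
  constructor <;> omega

end Cfsg.Agent.S5992
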