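import Cfsg.Statements.S5993
import Mathlib
import Cfsg.Agent.H10.Elus9

set_option autoImplicit false
open scoped MatrixGroups
open Cfsg

namespace Cfsg.Agent.S5993

open Module H10 H11

/-- Elements of prime order of Ω_n(q), nq odd, with no fixed elliptic `m`-space. Here `T = Ω_n(F)`, `n = 2d+1 ≥ 7`, `q` odd, realised as the commutator subgroup of the isometry group of `Q = x₀² + Σ xᵢyᵢ` over the field `F` with `q` elements (trivial centre, so its elements of prime order `r` are used directly); a nondegenerate `m`-space (even `m`) is a subspace on which the polar form of `Q` is nondegenerate; it is hyperbolic if it contains an `m/2`-dimensional subspace on which `Q` vanishes, elliptic otherwise. Let `m` be even with `2 ≤ m ≤ n − 1` (no restriction `m < n/2`) and let `r` be a prime dividing the number of elliptic `m`-spaces; for `r ≠ p` let `i` be the multiplicative order of `q` modulo `r`, `c = i` for `i` even and `c = 2i` for `i` odd, and write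 `k = n mod c`, `ℓ' = m mod c`. Then every element of `T` of order `r` fixes some elliptic `m`-space if and only if `r = 2`, or `r ≠ p` is odd and one of: (i) `i` odd, `c ≤ m` and `k > ℓ' > 0`; (ii) `i` even, `i ≤ m`, `k > ℓ'`, and `m/i` odd whenever `ℓ' = 0`. (For `r = p` there is always an element of order `p` fixing no elliptic `m`-space.) -/
theorem result {F : Type*} [Field F] [Fintype F] {p : ℕ} [Fact p.Prime] [CharP F p] {q : ℕ} (hq : Fintype.card F = q) (hqodd : Odd q)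
    (d m : ℕ) (hd : 3 ≤ d) (hm : 2 ≤ m) (hme : Even m) (hmn : m ≤ 2 * d)
    (r : ℕ) [Fact r.Prime]
    (hrΩ : r ∣ Nat.card {W : Submodule F (Unit ⊕ (Fin d ⊕ Fin d) → F) // Module.finrank F ↥W = m ∧ Cfsg.Geo.IsNondegenerateOn (QuadraticMap.polar (Cfsg.quadFormOdd d F)) W ∧ ¬ Cfsg.Geo.IsPlusTypeOn (Cfsg.quadFormOdd d F) W})
    (i c : ℕ) (hi : i = orderOf (q : ZMod r)) (hc : c = if Even i then i else 2 * i) :
    (∀ x : GL (Unit ⊕ (Fin d ⊕ Fin d)) F, x ∈ Cfsg.Geo.omegaGL (Cfsg.quadFormOdd d F) → orderOf x = r →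
      ∃ W : Submodule F (Unit ⊕ (Fin d ⊕ Fin d) → F), (Module.finrank F ↥W = m ∧ Cfsg.Geo.IsNondegenerateOn (QuadraticMap.polar (Cfsg.quadFormOdd d F)) W ∧ ¬ Cfsg.Geo.IsPlusTypeOn (Cfsg.quadFormOdd d F) W) ∧ W.map (Matrix.toLin' (x : Matrix (Unit ⊕ (Fin d ⊕ Fin d)) (Unit ⊕ (Fin d ⊕ Fin d)) F)) ≤ W) ↔
    (r = 2 ∨
     (r ≠ p ∧ 2 < r ∧ Odd i ∧ c ≤ m ∧ 0 < m % c ∧ m % c < (2 * d + 1) % c) ∨
     (r ≠ p ∧ 2 < r ∧ Even i ∧ i ≤ m ∧ m % c < (2 * d + 1) % c ∧ (0 < m % c ∨ Odd (m / i)))) := by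
  have h3 := two_ne_zero_of_odd_card (hq ▸ hqodd)
  have h := isQuad_odd d F
  have hB := bOdd_sep d h3
  have hn : finrank F (Unit ⊕ (Fin d ⊕ Fin d) → F) = 2 * d + 1 := by simp [two_mul, add_comm]
  simp only [nd_iff h, plus_iff h, ← iff_false (Pl _ _ _)] at hrΩ ⊢
  rw [elu_omega' h]
  have hr : r.Prime := Fact.out
  rcases hr.eq_two_or_odd' with rfl | h2
  · refine iff_of_true (fun y y1 y2 y3 => ?_) (.inl rfl)
    obtain ⟨k, k1, -⟩ := (invol_mem_iff h hB h3 (sq y ▸ y2)).mp y1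
    have := (invol_data h hB h3 (sq y ▸ y2)).2.2.2.2.2.1.mp y3
    exact invol_fx_type h hB h3 (sq y ▸ y2) (by omega) hme (by omega) (by omega) _
  have h4 : r ≠ 2 := by rintro rfl; exact absurd h2 (by decide)
  rw [forall_omega_odd h hB (by omega) h2]
  have e0 := Nat.even_iff.mp hme
  by_cases hp : r = p
  · subst hp
    refine iff_of_false (fun H => ?_) (by omega)
    obtain ⟨y, y1, y2, y3⟩ := exists_wa (p := r) h hB (wittIdx_odd d h3) (Nat.mul_div_le _ 2)
    obtain ⟨W, ⟨w1, w2, w3⟩, w4⟩ := H y y3 fun e => by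
      rw [e, finrank_movS_eq_zero.mpr (by rfl)] at y2
      omega
    have e1 := h.finrank_perp hB W
    have e2 := y1.le h hB w2 w4 (wittIdx_on h w2) (wittIdx_on h (h.nondegOn_perp hB w2))
    rw [if_pos ⟨w1 ▸ hme, w3.mp⟩, if_neg (by rw [Nat.even_iff]; omega)] at e2
    obtain ⟨a, _, b, _, c, _, _⟩ := quad_part3 h h3 hB (m := m) (by omega) (fun y y1 y2 =>
      (H y y1 y2).imp fun W a => ⟨⟨a.1.1, a.1.2.1⟩, a.2⟩) (a := 1) (b := 0) (c := d - 1) (by omega)
      (by rw [Nat.even_iff]; omega) (by omega)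
    omega
  have O := od_id (F := F) hr h4 hp (Nat.card_eq_fintype_card.trans hq) hi hc
  obtain ⟨hD, h5, h6⟩ := c_facts hc O.pos.1
  rw [O.type_odd h hB hD h3 (by simp [hn]) hme (by omega) (by omega) hrΩ, hn]
  have := hr.two_le
  have e1 := Nat.mod_mod_of_dvd m hD.two_dvd
  have e2 := Nat.mod_mod_of_dvd (2 * d + 1) hD.two_dvd
  have := O.pos.1
  have : c = i → m / c = m / i := by rintro rfl; rfl
  simp only [Nat.odd_iff, Nat.even_iff, iff_false]
  clear hrΩ hi hc
  constructor <;> omega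

end Cfsg.Agent.S5993
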