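import Cfsg.Statements.S5997
import Mathlib
import Cfsg.Agent.H10.PSL2Max3

set_option autoImplicit false
open scoped MatrixGroups
open Cfsg

namespace Cfsg.Agent.S5997

open Matrix in
theorem exists_lift {F : Type*} [Field F] (h2 : (2 : F) ≠ 0) (φ : QuaternionGroup 2 →* GL (Fin 2) F)
    (hφ : Function.Injective φ) : ∃ ψ : QuaternionGroup 2 →* SpecialLinearGroup (Fin 2) F,
      (∀ q, SpecialLinearGroup.toGL (ψ q) = φ q) ∧ ψ (.a 2) = -1 := by
  have h1 : GeneralLinearGroup.det (φ (.a 2)) = 1 := by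
    rw [show (.a 2 : QuaternionGroup 2) = .a 1 * .xa 0 * (.a 1)⁻¹ * (.xa 0)⁻¹ by decide]
    simp only [map_mul, map_inv]
    rw [mul_inv_cancel_comm, mul_inv_cancel]
  have key : ∀ g : GL (Fin 2) F, GeneralLinearGroup.det g = 1 →
      ∃ s : SpecialLinearGroup (Fin 2) F, SpecialLinearGroup.toGL s = g := fun g hg => by
    have : g ∈ (SpecialLinearGroup.toGL : SpecialLinearGroup (Fin 2) F →* GL (Fin 2) F).range := by
      rw [H10.range_toGL_eq_ker_det]; exact hg
    exact this
  obtain ⟨z, hz⟩ := key _ h1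
  have h3 : z = -1 := (H10.sl2_involution h2 (SpecialLinearGroup.toGL_injective (by
    rw [map_mul, hz, ← map_mul, map_one, show (.a 2 * .a 2 : QuaternionGroup 2) = 1 by decide,
      map_one]))).resolve_left fun h => by
    rw [h, map_one, ← map_one φ] at hz
    exact absurd (hφ hz) (by decide)
  have h4 : ∀ q, GeneralLinearGroup.det (φ q) = 1 := by
    intro q
    rcases (by decide : ∀ q : QuaternionGroup 2, q = 1 ∨ q = .a 2 ∨
      (q * q = .a 2 ∧ ∃ r, q * r ≠ r * q)) q with rfl | rfl | ⟨a, r, b⟩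
    · simp
    · exact h1
    · have c : (φ q).1 * (φ q).1 = -1 := by
        rw [← Units.val_mul, ← map_mul, a, ← hz, h3]; rfl
      have c00 := congrFun (congrFun c 0) 0
      have c01 := congrFun (congrFun c 0) 1
      have c10 := congrFun (congrFun c 1) 0
      have c11 := congrFun (congrFun c 1) 1
      simp [Matrix.mul_apply] at c00 c01 c10 c11
      by_cases ht : (φ q).1 0 0 + (φ q).1 1 1 = 0
      · ext
        rw [GeneralLinearGroup.val_det_apply, det_fin_two, Units.val_one]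
        linear_combination -c00 + (φ q).1 0 0 * ht
      · exfalso
        have d1 : (φ q).1 0 1 = 0 := (mul_eq_zero.1 (by linear_combination c01)).resolve_left ht
        have d2 : (φ q).1 1 0 = 0 := (mul_eq_zero.1 (by linear_combination c10)).resolve_left ht
        have d3 : (φ q).1 0 0 - (φ q).1 1 1 = 0 :=
          (mul_eq_zero.1 (by linear_combination c00 - c11)).resolve_left ht
        refine b (hφ ?_)
        rw [map_mul, map_mul]
        ext i j
        fin_cases i <;> fin_cases j <;> simp [Matrix.mul_apply, d1, d2, sub_eq_zero.1 d3, mul_comm]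
  choose ψ hψ using fun q => key _ (h4 q)
  refine ⟨MonoidHom.mk' ψ fun a b => SpecialLinearGroup.toGL_injective ?_, hψ,
    SpecialLinearGroup.toGL_injective ?_⟩
  · rw [map_mul, hψ, hψ, hψ, map_mul]
  · rw [← h3, hz]; exact hψ _

open Matrix in
theorem exists_four {F : Type*} [Field F] (h2 : (2 : F) ≠ 0) {R : Subgroup (GL (Fin 2) F)}
    (e : R ≃* QuaternionGroup 2) : ∃ V ≤ H10.pslSub F, IsKleinFour V ∧
      ∀ g : GL (Fin 2) F, g ∈ Subgroup.normalizer (R : Set (GL (Fin 2) F)) ↔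
        ProjGenLinGroup.mk g ∈ Subgroup.normalizer (V : Set (ProjGenLinGroup (Fin 2) F)) := by
  obtain ⟨φ, hφ, rfl⟩ := H10.exists_hom_of_equiv e
  obtain ⟨ψ, h1, h3⟩ := exists_lift h2 φ hφ
  have hψ : Function.Injective ψ := fun a b h => hφ (by rw [← h1, ← h1, h])
  have key : ∀ q q', H10.slPi F (ψ q) = H10.slPi F (ψ q') ↔ q' = q ∨ q' = .a 2 * q := fun q q' => by
    rw [H10.slPi_eq_iff, ← neg_one_mul, ← h3, ← map_mul, hψ.eq_iff, hψ.eq_iff]
  have key1 : ∀ q, H10.slPi F (ψ q) = 1 ↔ 1 = q ∨ 1 = .a 2 * q := fun q => by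
    rw [← key, map_one, map_one]
  have hI : H10.InvPair (H10.slPi F (ψ (.a 1))) (H10.slPi F (ψ (.xa 0))) := by
    refine ⟨?_, ?_, ?_, ?_, ?_, ?_⟩ <;> simp only [← map_mul, ne_eq, key, key1] <;> decide
  have hV : ∀ g : GL (Fin 2) F, g ∈ φ.range ↔
      GeneralLinearGroup.det g = 1 ∧ ProjGenLinGroup.mk g ∈ hI.four := by
    intro g
    constructor
    · rintro ⟨q, rfl⟩
      rw [← h1]
      refine ⟨by simp, ?_⟩
      change H10.slPi F (ψ q) ∈ _
      simp only [hI.mem_four, ← map_mul, key, key1]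
      revert q
      decide
    · rintro ⟨a, b⟩
      obtain ⟨s, rfl⟩ : g ∈ (SpecialLinearGroup.toGL : SpecialLinearGroup (Fin 2) F →* _).range := by
        rw [H10.range_toGL_eq_ker_det]; exact a
      change H10.slPi F s ∈ _ at b
      obtain ⟨q, hq⟩ : ∃ q, H10.slPi F (ψ q) = H10.slPi F s := by
        rcases hI.mem_four.1 b with b | b | b | b
        · exact ⟨1, by rw [b, map_one, map_one]⟩
        · exact ⟨_, b.symm⟩
        · exact ⟨_, b.symm⟩
        · exact ⟨_, by rw [b, map_mul, map_mul]⟩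
      rcases H10.slPi_eq_iff.1 hq with rfl | rfl
      · exact ⟨q, (h1 q).symm⟩
      · exact ⟨.a 2 * q, by rw [← h1, map_mul, h3, neg_one_mul]⟩
  refine ⟨hI.four, hI.four_le ⟨_, rfl⟩ ⟨_, rfl⟩, hI.isKleinFour, fun g => ?_⟩
  simp only [Subgroup.mem_normalizer_iff, SetLike.mem_coe]
  constructor
  · intro h x
    have hle : hI.four ≤ H10.pslSub F := hI.four_le ⟨_, rfl⟩ ⟨_, rfl⟩
    by_cases hx : x ∈ H10.pslSub F
    · obtain ⟨s, rfl⟩ := hx
      simpa [hV] using h (SpecialLinearGroup.toGL s)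
    · exact iff_of_false (fun k => hx (hle k)) fun k => hx (by
        simpa [mul_assoc] using (H10.pslSub_normal (F := F)).conj_mem _ (hle k)
          (ProjGenLinGroup.mk g)⁻¹)
  · intro h x
    simp [hV, h (ProjGenLinGroup.mk x)]

/-- Elements of prime order of PSL_2(p) and the normalizer of a quaternion subgroup. Here `T = PSL_2(F)` for the field `F` with `p` elements, `p ≥ 5` prime; `R` is a subgroup of GL_2(F) isomorphic to the quaternion group of order 8 (an absolutely irreducible 2-group of symplectic type), and `H` is the subgroup of matrices of determinant 1 normalizing `R` — a subgroup of type 2^{1+2}.O₂⁻(2), isomorphic modulo scalars to A₄ or S₄ (maximality is not assumed). Ω is the set of cosets of `H` in `T`, so an element of `T` of prime order `r` (a matrix `x` of determinant 1 with `x^r` scalar, `x` not scalar) fixes a point of Ω exactly when some conjugate of `x` by a matrix of determinant 1 normalizes `R`. Let `r` be a prime dividing the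 index of `H`. Then every element of `T` of order `r` fixes a point of Ω if and only if `r = 2` or `r = 3`. -/
theorem result {F : Type*} [Field F] [Fintype F] {p : ℕ} [Fact p.Prime] [CharP F p] (hF : Fintype.card F = p) (hp : 5 ≤ p)
    (R : Subgroup (GL (Fin 2) F)) (hR : Nonempty (↥R ≃* QuaternionGroup 2))
    (r : ℕ) [Fact r.Prime]
    (hΩ : r ∣ (Cfsg.Geo.subgroupNormalizer R).relIndex (Cfsg.Geo.specialLinear (Fin 2) F)) :
    (∀ x ∈ Cfsg.Geo.specialLinear (Fin 2) F, (∃ z : F, ((x ^ r : GL (Fin 2) F) : Matrix (Fin 2) (Fin 2) F) = z • (1 : Matrix (Fin 2) (Fin 2) F)) →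
      (∀ z : F, (x : Matrix (Fin 2) (Fin 2) F) ≠ z • (1 : Matrix (Fin 2) (Fin 2) F)) →
      ∃ g ∈ Cfsg.Geo.specialLinear (Fin 2) F, g⁻¹ * x * g ∈ Cfsg.Geo.subgroupNormalizer R) ↔ (r = 2 ∨ r = 3) := by
  rw [← Nat.card_eq_fintype_card] at hF
  have hp' : p.Prime := Fact.out
  have hr : r.Prime := Fact.out
  have h2 : (2 : F) ≠ 0 := H10.two_ne_zero_of_charP (p := p) (by omega)
  obtain ⟨e⟩ := hR
  obtain ⟨V, hV, hV', hN⟩ := exists_four h2 e
  have hmk : ∀ x : GL (Fin 2) F, Matrix.ProjGenLinGroup.mk x = 1 ↔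
      ∃ z : F, (x : Matrix (Fin 2) (Fin 2) F) = z • (1 : Matrix (Fin 2) (Fin 2) F) := fun x => by
    rw [← map_one Matrix.ProjGenLinGroup.mk, eq_comm, H10.pgl_mk_eq_mk_iff]
    refine ⟨fun ⟨u, _, h⟩ => ⟨u, h⟩, fun ⟨u, h⟩ => ⟨u, ?_, h⟩⟩
    rintro rfl
    have := x.det_ne_zero
    simp [h] at this
  have hSL : ∀ x : GL (Fin 2) F, x ∈ Cfsg.Geo.specialLinear (Fin 2) F ↔
      x ∈ (Matrix.SpecialLinearGroup.toGL : Matrix.SpecialLinearGroup (Fin 2) F →* _).range :=
    fun x => by rw [H10.range_toGL_eq_ker_det]; rfl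
  constructor
  · intro h
    by_contra hne
    push Not at hne
    have h1 : r ∣ Nat.card (H10.pslSub F) := by
      rw [H10.dvd_card_pslSub hr hne.1, ← H10.card_SL2, Nat.card_congr H10.slEquivKerDet.toEquiv]
      exact hΩ.trans (Subgroup.index_dvd_card _)
    obtain ⟨⟨_, s, rfl⟩, hs⟩ := exists_prime_orderOf_dvd_card' r h1
    replace hs : orderOf (H10.slPi F s) = r := (Subgroup.orderOf_coe _).trans hs
    obtain ⟨g, -, hg⟩ := h _ ((hSL _).2 ⟨s, rfl⟩) ((hmk _).1 (by
      rw [map_pow, ← hs]; exact pow_orderOf_eq_one (H10.slPi F s))) (fun z hz => by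
        have : H10.slPi F s = 1 := (hmk _).2 ⟨z, hz⟩
        rw [this, orderOf_one] at hs
        exact hr.ne_one hs.symm)
    have h3 := Subgroup.orderOf_dvd_natCard _ ((hN _).1 hg)
    rw [H10.card_normalizer_kleinFour h2 hV' hV, map_mul, map_mul, map_inv, ← MulAut.conj_inv_apply,
      MulEquiv.orderOf_eq] at h3
    erw [hs] at h3
    rw [show 24 = 2 ^ 3 * 3 by rfl, hr.dvd_mul] at h3
    rcases h3 with h3 | h3
    · exact hne.1 ((Nat.prime_dvd_prime_iff_eq hr Nat.prime_two).1 (hr.dvd_of_dvd_pow h3))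
    · exact hne.2 ((Nat.prime_dvd_prime_iff_eq hr Nat.prime_three).1 h3)
  · intro h x hx h3 h4
    obtain ⟨s, rfl⟩ := (hSL x).1 hx
    have h5 : orderOf (H10.slPi F s) = r := orderOf_eq_prime (by
      rw [← (hmk _).2 h3, map_pow]; rfl) fun k => by
        obtain ⟨z, hz⟩ := (hmk _).1 k
        exact h4 z hz
    obtain ⟨eS⟩ := H10.normalizer_kleinFour_equiv h2 hV' hV
    obtain ⟨A, hA, ⟨eA⟩, -⟩ := H10.exists_A4_of_S4 eS
    obtain ⟨t, ht⟩ := exists_prime_orderOf_dvd_card' (G := A) r (by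
      rw [H10.card_of_equiv eA, H10.card_A4]; rcases h with rfl | rfl <;> norm_num)
    rw [← Subgroup.orderOf_coe] at ht
    obtain ⟨_, ⟨g, rfl⟩, hg⟩ := H10.zpowers_conj (p := p) ⟨s, rfl⟩ (H10.alternating_le_pslSub eA t.2)
      (h5.trans ht.symm) (fun k => by
        have := Nat.le_of_dvd hr.pos (h5 ▸ k)
        omega)
    refine ⟨Matrix.SpecialLinearGroup.toGL g⁻¹, (hSL _).2 ⟨_, rfl⟩, (hN _).2 ?_⟩
    refine (Subgroup.zpowers_le_of_mem t.2).trans hA (hg ▸ ⟨_, Subgroup.mem_zpowers _, ?_⟩)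
    simp

end Cfsg.Agent.S5997
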