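import Cfsg.Statements.S5998
import Cfsg.Agent.H13.XN8
-- import your own Cfsg.Agent.* helpers here

set_option autoImplicit false
open scoped MatrixGroups
open Cfsg

namespace Cfsg.Agent.S5998

open H13.XE Cfsg.Geo


/-- Elements of prime order of PSL_3(p), p ≡ 1 (mod 3), and the normalizer of an extraspecial subgroup of order 27. Here `T = PSL_3(F)` for the field `F` with `p` elements, `p` a prime with `p ≡ 1 (mod 3)`; `R` is a non-abelian subgroup of GL_3(F) of order 27 and exponent 3 (an extraspecial group 3^{1+2}, acting absolutely irreducibly), and `H` is the subgroup of matrices of determinant 1 normalizing `R` — a subgroup of type 3^{1+2}.Sp₂(3) (maximality is not assumed). Ω is the set of cosets of `H` in `T`, so an element of `T` of prime order `r` (a matrix `x` of determinant 1 with `x^r` scalar, `x` not scalar) fixes a point of Ω exactly when some conjugate of `x` by a matrix of determinant 1 normalizes `R`. Let `r` be a prime dividing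 the index of `H`. Then every element of `T` of order `r` fixes a point of Ω if and only if `r = 2`, or `r = 3` and `p ≡ 1 (mod 9)`. -/
theorem result {F : Type*} [Field F] [Fintype F] {p : ℕ} [Fact p.Prime] [CharP F p] (hF : Fintype.card F = p) (hp3 : p % 3 = 1)
    (R : Subgroup (GL (Fin 3) F)) (hR : Nat.card R = 27) (hRe : Monoid.exponent R = 3) (hRna : ¬ IsMulCommutative R)
    (r : ℕ) [Fact r.Prime]
    (hΩ : r ∣ (Cfsg.Geo.subgroupNormalizer R).relIndex (Cfsg.Geo.specialLinear (Fin 3) F)) :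
    (∀ x ∈ Cfsg.Geo.specialLinear (Fin 3) F, (∃ z : F, ((x ^ r : GL (Fin 3) F) : Matrix (Fin 3) (Fin 3) F) = z • (1 : Matrix (Fin 3) (Fin 3) F)) →
      (∀ z : F, (x : Matrix (Fin 3) (Fin 3) F) ≠ z • (1 : Matrix (Fin 3) (Fin 3) F)) →
      ∃ g ∈ Cfsg.Geo.specialLinear (Fin 3) F, g⁻¹ * x * g ∈ Cfsg.Geo.subgroupNormalizer R) ↔ (r = 2 ∨ (r = 3 ∧ p % 9 = 1)) := by
  have hp := (Fact.out : p.Prime)
  have hp2 := hp.two_le
  have h2 : (2 : F) ≠ 0 := H10.two_ne_zero_of_charP (p := p) (by omega)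
  have h3 : (3 : F) ≠ 0 := fun e => by
    have := (Nat.prime_dvd_prime_iff_eq hp Nat.prime_three).1 ((CharP.cast_eq_zero_iff F p 3).1 e)
    omega
  have hc : Fintype.card (Fin 3) = 3 := by simp
  have he : ∀ x ∈ R, x ^ 3 = 1 := fun x hx =>
    congrArg Subtype.val (hRe ▸ Monoid.pow_exponent_eq_one (⟨x, hx⟩ : R))
  have hu : Nat.card Fˣ = p - 1 := by rw [Nat.card_units, Nat.card_eq_fintype_card, hF]
  obtain ⟨ω, hω⟩ := exists_prime_orderOf_dvd_card' (G := Fˣ) 3 (by rw [hu]; omega)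
  have hω' : (ω : F) ^ 2 + ω + 1 = 0 := by
    have hω3 : (ω : F) ^ 3 = 1 := by
      rw [← Units.val_pow_eq_pow_val, ← hω, pow_orderOf_eq_one, Units.val_one]
    have hω1 : (ω : F) ≠ 1 := fun e => by
      rw [show ω = 1 from Units.ext e, orderOf_one] at hω; omega
    exact (mul_eq_zero.1 (show ((ω : F) - 1) * _ = 0 by linear_combination hω3)).resolve_left
      (sub_ne_zero.2 hω1)
  obtain ⟨hcf, hZ, a, ha, b, hb, l, hl, hab⟩ := cf27 hc h3 hω' hR he hRna
  change ELg (specialLinear (Fin 3) F) R r ↔ _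
  constructor
  · intro E
    rcases fwd3 hc hcf hR hZ le_rfl (le_sl27 hc h3 hω' hcf he) hΩ E with h | ⟨h, h81⟩
    · exact .inl h
    refine .inr ⟨h, ?_⟩
    have h1 := H10.card_SL_fin (F := F) 3 (by norm_num)
    rw [← H18.El.range_toGL, ← Nat.card_congr
      (MonoidHom.ofInjective Matrix.SpecialLinearGroup.toGL_injective).toEquiv] at h81
    obtain ⟨N, hN⟩ := h81
    obtain ⟨m, rfl⟩ : ∃ m, p = 3 * m + 1 := ⟨p / 3, by omega⟩
    rw [hN, hF, Fin.prod_univ_three] at h1
    simp only [Fin.val_zero, Fin.val_one, Fin.val_two] at h1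
    rw [show (3 * m + 1) ^ 3 - (3 * m + 1) ^ 0 = 9 * m * (3 * m ^ 2 + 3 * m + 1) from
        Nat.sub_eq_of_eq_add (by ring),
      show (3 * m + 1) ^ 3 - (3 * m + 1) ^ 1 = 3 * m * (3 * m + 1) * (3 * m + 2) from
        Nat.sub_eq_of_eq_add (by ring),
      show (3 * m + 1) ^ 3 - (3 * m + 1) ^ 2 = 3 * m * (3 * m + 1) ^ 2 from
        Nat.sub_eq_of_eq_add (by ring), Nat.add_sub_cancel] at h1
    have h4 : 3 * N = m ^ 2 * (3 * m + 1) ^ 3 * (3 * m + 2) * (3 * m ^ 2 + 3 * m + 1) :=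
      Nat.eq_of_mul_eq_mul_left (show 0 < 81 * m by omega) (by linarith)
    have h5 := congrArg (· % 3) h4
    by_contra h9
    rcases (by omega : m % 3 = 1 ∨ m % 3 = 2) with e | e <;>
      simp [Nat.mul_mod, Nat.add_mod, Nat.pow_mod, e] at h5
  · intro H x hx ⟨z, hz⟩ hns
    obtain ⟨z, rfl, hz'⟩ := unit_of_pow hz
    obtain ⟨hsx, w, -, y, y1, y2, y3, -⟩ := bwd3 hc h3 h2 hcf he ha hb hl hab
      (H18.El.mem_sl.1 hx) hns hz' (H.imp_right fun h => ⟨h.1, cube9 (by rw [hu]; omega)⟩)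
    obtain ⟨g, hg, e⟩ := conj_sl hsx (y2.smul w) y3
    exact ⟨g, hg, e ▸ mul_mem (sc_mem_norm _ _) y1⟩


end Cfsg.Agent.S5998
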