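import Cfsg.Statements.S5999
import Cfsg.Agent.H13.XN8
import Cfsg.Agent.S0278
-- import your own Cfsg.Agent.* helpers here

set_option autoImplicit false
open scoped MatrixGroups
open Cfsg

namespace Cfsg.Agent.S5999

open H13.XE Cfsg.Geo Matrix


/-- Elements of prime order of PSU_3(p), p ≡ 2 (mod 3), and the normalizer of an extraspecial subgroup of order 27. Here `T = PSU_3(p)` for a prime `p ≥ 5` with `p ≡ 2 (mod 3)`, realised through `SU_3(p)`, the matrices of determinant 1 over the field `F` with `p²` elements preserving the hermitian form `Σ uᵢvᵢ^p`; `R` is a non-abelian subgroup of order 27 and exponent 3 of the full unitary group of that form (an extraspecial group 3^{1+2}, acting absolutely irreducibly), and `H` is the subgroup of `SU_3(p)` normalizing `R` — a subgroup of type 3^{1+2}.Sp₂(3) (maximality is not assumed). Ω is the set of cosets of `H`, so an element of `T` of prime order `r` (`x ∈ SU_3(p)` with `x^r` scalar, `x`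 not scalar) fixes a point of Ω exactly when some `SU_3(p)`-conjugate of `x` normalizes `R`. Let `r` be a prime dividing the index of `H`. Then every element of `T` of order `r` fixes a point of Ω if and only if `r = 2`, or `r = 3` and `p ≡ 8 (mod 9)`. -/
theorem result {F : Type*} [Field F] [Fintype F] {p : ℕ} [Fact p.Prime] [CharP F p] (hF : Fintype.card F = p ^ 2) (hp : 5 ≤ p) (hp3 : p % 3 = 2)
    (R : Subgroup (GL (Fin 3) F)) (hRU : R ≤ Cfsg.GU 3 F p) (hR : Nat.card R = 27) (hRe : Monoid.exponent R = 3) (hRna : ¬ IsMulCommutative R)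
    (r : ℕ) [Fact r.Prime]
    (hΩ : r ∣ (Cfsg.Geo.subgroupNormalizer R).relIndex (Cfsg.GU 3 F p ⊓ Cfsg.Geo.specialLinear (Fin 3) F)) :
    (∀ x ∈ Cfsg.GU 3 F p ⊓ Cfsg.Geo.specialLinear (Fin 3) F, (∃ z : F, ((x ^ r : GL (Fin 3) F) : Matrix (Fin 3) (Fin 3) F) = z • (1 : Matrix (Fin 3) (Fin 3) F)) →
      (∀ z : F, (x : Matrix (Fin 3) (Fin 3) F) ≠ z • (1 : Matrix (Fin 3) (Fin 3) F)) →
      ∃ g ∈ Cfsg.GU 3 F p ⊓ Cfsg.Geo.specialLinear (Fin 3) F, g⁻¹ * x * g ∈ Cfsg.Geo.subgroupNormalizer R) ↔ (r = 2 ∨ (r = 3 ∧ p % 9 = 8)) := by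
  have hp := (Fact.out : p.Prime)
  have hp2 := hp.two_le
  have h2 : (2 : F) ≠ 0 := H10.two_ne_zero_of_charP (p := p) (by omega)
  have h3 : (3 : F) ≠ 0 := fun e => by
    have := (Nat.prime_dvd_prime_iff_eq hp Nat.prime_three).1 ((CharP.cast_eq_zero_iff F p 3).1 e)
    omega
  have hc : Fintype.card (Fin 3) = 3 := by simp
  have he : ∀ x ∈ R, x ^ 3 = 1 := fun x hx =>
    congrArg Subtype.val (hRe ▸ Monoid.pow_exponent_eq_one (⟨x, hx⟩ : R))
  have hq := H11.qConj_conjQ hF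
  generalize H11.conjQ hF = σ at hq
  have S := isStar_u (ι := Fin 3) σ
  have hU := fun g => mem_GU_sim (n := 3) (g := g) hq.eq
  have hRS := fun e he => (hU e).1 (hRU he)
  have hn := hq.card_normOne
  haveI := hq.finite
  obtain ⟨ω, hω⟩ := exists_prime_orderOf_dvd_card' (G := H11.normOne σ) 3 (by rw [hn]; omega)
  have hω' : (ω.1 : F) ^ 2 + ω.1 + 1 = 0 := by
    have hω3 : (ω.1 : F) ^ 3 = 1 := by
      rw [← Units.val_pow_eq_pow_val, ← Subgroup.coe_pow, ← hω, pow_orderOf_eq_one]; rfl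
    have hω1 : (ω.1 : F) ≠ 1 := fun e => by
      rw [show ω = 1 from Subtype.ext (Units.ext e), orderOf_one] at hω; omega
    exact (mul_eq_zero.1 (show ((ω.1 : F) - 1) * _ = 0 by linear_combination hω3)).resolve_left
      (sub_ne_zero.2 hω1)
  obtain ⟨hcf, hZ, a, ha, b, hb, l, hl, hab⟩ := cf27 hc h3 hω' hR he hRna
  change ELg (GU 3 F p ⊓ specialLinear (Fin 3) F) R r ↔ _
  constructor
  · intro E
    rcases fwd3 hc hcf hR hZ inf_le_right (le_inf hRU (le_sl27 hc h3 hω' hcf he)) hΩ E with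
      h | ⟨h, h81⟩
    · exact .inl h
    refine .inr ⟨h, ?_⟩
    have h1 := S0278.result hF 3 (by norm_num)
    have e : (SU 3 F p).map Matrix.SpecialLinearGroup.toGL = GU 3 F p ⊓ specialLinear (Fin 3) F := by
      rw [← H18.El.range_toGL, inf_comm, ← Subgroup.map_comap_eq]; rfl
    rw [← e, Subgroup.card_map_of_injective Matrix.SpecialLinearGroup.toGL_injective] at h81
    obtain ⟨N, hN⟩ := h81
    obtain ⟨m, rfl⟩ : ∃ m, p = 3 * m + 2 := ⟨p / 3, by omega⟩
    rw [hN] at h1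
    simp only [Finset.prod_range_succ, Finset.range_zero, Finset.prod_empty, Even.zero, if_true,
      Nat.not_even_one, if_false, even_two] at h1
    rw [show (3 * m + 2) ^ (1 + 1) - 1 = 3 * (m + 1) * (3 * m + 1) from
        Nat.sub_eq_of_eq_add (by ring)] at h1
    have h4 : 3 * N = (3 * m + 2) ^ 3 * (3 * m + 1) * (m + 1) ^ 2 * (3 * m ^ 2 + 3 * m + 1) :=
      Nat.eq_of_mul_eq_mul_left (show 0 < 81 * (m + 1) by omega) (by
        norm_num at h1; linarith)
    have h5 := congrArg (· % 3) h4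
    by_contra h9
    rcases (by omega : m % 3 = 0 ∨ m % 3 = 1) with e | e <;>
      simp [Nat.mul_mod, Nat.add_mod, Nat.pow_mod, e] at h5
  · intro H x hx ⟨z, hz⟩ hns
    obtain ⟨z, rfl, hz'⟩ := unit_of_pow hz
    have h9 : p % 9 = 8 → 9 ∣ Nat.card Fˣ := fun h => by
      rw [Nat.card_units, Nat.card_eq_fintype_card, hF]
      obtain ⟨k, rfl⟩ : ∃ k, p = 9 * k + 8 := ⟨p / 9, by omega⟩
      exact ⟨9 * k ^ 2 + 16 * k + 7, Nat.sub_eq_of_eq_add (by ring)⟩
    obtain ⟨hsx, w, hw, y, y1, y2, y3, y4⟩ := bwd3 hc h3 h2 hcf he ha hb hl hab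
      (H18.El.mem_sl.1 hx.2) hns hz' (H.imp_right fun h => ⟨h.1, cube9 (h9 h.2)⟩)
    have hl3 : (l : F) ^ 3 = 1 := by linear_combination ((l : F) - 1) * hl
    have hyU := (hU _).2 (y4 σ _ S hRS (by beta_reduce; rw [hq.eq, pow_eq_pow_mod p hl3, hp3]))
    have hw' : σ w * w = 1 := by
      rw [hq.eq, ← pow_succ, ← Units.val_pow_eq_pow_val]
      rcases hw with hw | ⟨h, hw⟩
      · rw [pow_eq_pow_mod _ hw, show (p + 1) % 3 = 0 by omega]; simp
      · rw [pow_eq_pow_mod _ hw, show (p + 1) % 9 = 0 by omega]; simp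
    obtain ⟨g, hg, e⟩ := conj_su hF (by norm_num) hx (mul_mem ((hU _).2 (hw' ▸ sim_sc S w)) hyU)
      hsx (y2.smul w) y3
    exact ⟨g, hg, e ▸ mul_mem (sc_mem_norm _ _) y1⟩


end Cfsg.Agent.S5999
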