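import Cfsg.Statements.S6000
import Cfsg.Agent.H13.XN7

set_option autoImplicit false
open scoped MatrixGroups
open Cfsg

namespace Cfsg.Agent.S6000

open H13.XE Cfsg.Geo

/-- Elements of prime order of PSL_4(p), p ≡ 1 (mod 4), and the normalizer of a 2-group of symplectic type of order 2⁶. Here `T = PSL_4(F)` for the field `F` with `p` elements, `p` a prime with `p ≡ 1 (mod 4)`; `R` is an absolutely irreducible subgroup of GL_4(F) of order 2⁶ that is a 2-group of symplectic type of exponent 4 with centre of order 4 (the central product of the scalars of order 4 with an extraspecial group 2^{1+4}), and `H` is the subgroup of matrices of determinant 1 normalizing `R` — a subgroup of type 2⁴.Sp₄(2) (maximality is not assumed). Ω is the set of cosets of `H` in `T`, so an element of `T` of prime order `r` (a matrix `x` of determinant 1 with `x^r` scalar, `x` not scalar) fixes a point of Ω exactly when some conjugate of `x` by a matrix of determinant 1 normalizes `R`. Let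 `r` be a prime dividing the index of `H`. Then every element of `T` of order `r` fixes a point of Ω if and only if `r = 2`, or `r = 3` and `p ≡ 2 (mod 3)`, or `r = 5` and `p ≡ ±2 (mod 5)` (`p` has multiplicative order 4 modulo 5). -/
theorem result {F : Type*} [Field F] [Fintype F] {p : ℕ} [Fact p.Prime] [CharP F p] (hF : Fintype.card F = p) (hp4 : p % 4 = 1)
    (R : Subgroup (GL (Fin 4) F)) (hR : Cfsg.Geo.IsLinearSymplecticTypeData 2 R) (hR6 : Nat.card R = 2 ^ 6)
    (r : ℕ) [Fact r.Prime]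
    (hΩ : r ∣ (Cfsg.Geo.subgroupNormalizer R).relIndex (Cfsg.Geo.specialLinear (Fin 4) F)) :
    (∀ x ∈ Cfsg.Geo.specialLinear (Fin 4) F, (∃ z : F, ((x ^ r : GL (Fin 4) F) : Matrix (Fin 4) (Fin 4) F) = z • (1 : Matrix (Fin 4) (Fin 4) F)) →
      (∀ z : F, (x : Matrix (Fin 4) (Fin 4) F) ≠ z • (1 : Matrix (Fin 4) (Fin 4) F)) →
      ∃ g ∈ Cfsg.Geo.specialLinear (Fin 4) F, g⁻¹ * x * g ∈ Cfsg.Geo.subgroupNormalizer R) ↔ (r = 2 ∨ (r = 3 ∧ p % 3 = 2) ∨ (r = 5 ∧ orderOf (p : ZMod 5) = 4)) := by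
  have hp := (Fact.out : p.Prime)
  have hr := (Fact.out : r.Prime)
  have hp2 := hp.two_le
  have hp5 : 5 ≤ p := by omega
  have h2 : (2 : F) ≠ 0 := H10.two_ne_zero_of_charP (p := p) (by omega)
  have hch : ∀ m : ℕ, m.Prime → m ≠ p → (m : F) ≠ 0 := fun m hm h e =>
    h ((Nat.prime_dvd_prime_iff_eq hp hm).1 ((CharP.cast_eq_zero_iff F p m).1 e)).symm
  obtain ⟨hcf, h4⟩ := cf_of_sympl hR.symplecticType hR.absIrred
  have hZ : Nat.card ↥(R ⊓ scalars (Fin 4) F) = 2 ^ 2 := by
    rw [card_inf_scalars hcf.cent]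
    obtain ⟨_, _, -, -, h | h | h⟩ := hR.field
    · exact absurd h.1 (by decide)
    · exact h.2.2.1
    · exact absurd h.2.2.1 (by simp)
  have hRc : Nat.card R = 2 ^ 2 * 16 := hR6
  have hc4 : Fintype.card (Fin 4) = 4 := by simp
  obtain ⟨i, hi, hiR⟩ := exists_i hZ
  obtain ⟨a, ha, b, hb, c, hc, d, hd, h⟩ := exists_rel_i hcf h4 hZ hRc hi hiR
  have hu : Nat.card Fˣ = p - 1 := by rw [Nat.card_units, Nat.card_eq_fintype_card, hF]
  change ELg (specialLinear (Fin 4) F) R r ↔ _
  constructor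
  · intro E
    by_cases hr2 : r = 2
    · exact .inl hr2
    have hb4 : ∀ A : GL (Fin 2) F, A.1.det = 1 → Units.map b4 A ∈ specialLinear (Fin 4) F :=
      fun A hA => H18.El.mem_sl.2 ((b4_det _).trans hA)
    rcases three_or_five hcf hR.absIrred.2 hc4 h2 hZ hRc le_rfl hr2 hΩ E with rfl | rfl
    · refine .inr (.inl ⟨rfl, ?_⟩)
      by_contra h3
      have h3' : p % 3 ≠ 0 := fun e => by
        have := (Nat.prime_dvd_prime_iff_eq Nat.prime_three hp).1 (Nat.dvd_of_mod_eq_zero e)
        omega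
      obtain ⟨ω, hω⟩ := exists_prime_orderOf_dvd_card' (G := Fˣ) 3 (by rw [hu]; omega)
      have hω3 : (ω : F) ^ 3 = 1 := by
        rw [← Units.val_pow_eq_pow_val, ← hω, pow_orderOf_eq_one, Units.val_one]
      have hω1 : (ω : F) ≠ 1 := fun e => by
        rw [show ω = 1 from Units.ext e, orderOf_one] at hω; omega
      exact no_three4 hcf hω3 hω1 (fun x _ h => H18.El.mem_sl.2 h) E
    · refine .inr (.inr ⟨rfl, ord_four_iff.2 ?_⟩)
      by_contra h5
      by_cases h0 : p % 5 = 0
      · obtain rfl : p = 5 :=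
          ((Nat.prime_dvd_prime_iff_eq Nat.prime_five hp).1 (Nat.dvd_of_mod_eq_zero h0)).symm
        have e : (1 : F) * 1 - 1 * 0 = 1 := by ring
        refine no_rank_one hcf hc4 hr hr2 (hb4 _ (m2_det e))
          (by rw [← map_pow, m2_char e (by ring) 5, map_one]) (b4_ns (m2_ne e (.inr one_ne_zero)))
          (c := 1) (u := ![1, 0, 0, 0]) (w := ![0, 1, 0, 0]) ?_ E
        ext k l; fin_cases k <;> fin_cases l <;> simp [Matrix.vecMulVec_apply, b4_def, m2]
      · obtain ⟨τ, hτ, -⟩ := exists_tau (F := F) (p := p) (by omega) (by omega)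
        have h5' : (5 : F) ≠ 0 := hch 5 Nat.prime_five (by omega)
        have e : (0 : F) * τ - (-1) * 1 = 1 := by ring
        refine no_five hcf hR.absIrred.2 hc4 h2 hZ hRc h5' (hb4 _ (m2_det e))
          (by rw [← map_pow, m2_five e (by simpa using hτ), map_one])
          (b4_ns (m2_ne e (.inr (by simp)))) hτ ((b4_trace _).trans (by simp [m2])) ?_ E
        rw [← map_inv]
        exact (b4_trace _).trans (by simp [m2])
  · intro H x hx ⟨z, hz⟩ hns
    obtain ⟨z, rfl, hz'⟩ := unit_of_pow hz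
    have hrp : (r : F) ≠ 0 := hch r hr (by
      rcases H with h | h | ⟨h, h'⟩
      · omega
      · omega
      · have := ord_four_iff.1 h'; omega)
    have hsx := ssm_of_pow hrp hz'
    suffices ∃ w : Fˣ, ∃ y ∈ Subgroup.normalizer (R : Set (GL (Fin 4) F)), SSm y ∧
        Ev (sc (Fin 4) w⁻¹ * x) = Ev y by
      obtain ⟨w, y, y1, y2, y3⟩ := this
      obtain ⟨g, hg, e⟩ := conj_sl hsx (y2.smul w) (ev_eq_smul hsx y2 y3)
      exact ⟨g, hg, e ▸ mul_mem (sc_mem_norm _ _) y1⟩
    have hne : ∀ w : Fˣ, sc (Fin 4) w⁻¹ * x ≠ 1 := fun w e => ns_smul hns w⁻¹ 1 (by rw [e]; simp)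
    rcases H with rfl | ⟨rfl, h3⟩ | ⟨rfl, h5⟩
    · obtain ⟨w, hw⟩ : ∃ w : F, w ^ 2 = z := by
        by_contra! hw
        have := (H18.El.ty_nonsplit (g := Matrix.toLin' x.1) Nat.prime_two (by
          rw [← Matrix.toLin'_pow, ← Units.val_pow_eq_pow_val, hz, map_smul, Matrix.toLin'_one]
          rfl) hw).2.2
        rw [LinearMap.det_toLin', H18.El.mem_sl.1 hx] at this
        simp at this
        rcases sq_eq_one_iff.1 this.symm with e | e
        · exact hw i (by linear_combination hi + e)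
        · exact hw 1 (by linear_combination e)
      have hw0 : w ≠ 0 := by rintro rfl; exact z.ne_zero (by rw [← hw]; simp)
      have e := split_pow (w := Units.mk0 w hw0) (hz'.trans (congrArg _ (Units.ext hw.symm)))
      obtain ⟨y, y1, y2, y3, -⟩ := two_dir hcf hc4 h2 ha hc h hi hiR
        (x := sc (Fin 4) (Units.mk0 w hw0)⁻¹ * x)
        (by rw [← Units.val_mul, ← sq, e, Units.val_one]) (ns_smul hns _)
      exact ⟨_, y, y1, y2, y3⟩
    · obtain ⟨w, rfl⟩ := H18.El.exists_pow_of_not_dvd (r := 3) (by rw [hu]; omega) z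
      have key : ∀ y : GL (Fin 4) F, y ^ 3 = 1 → (Ev y).map (· ^ 2) = Ev y := fun y hy => by
        have hs : SSm y := ⟨3, hrp, hy⟩
        conv_rhs => rw [← hs.ev_frob, hF]
        exact Multiset.map_congr rfl fun t ht => by
          rw [pow_eq_pow_mod p (hs.ev_root hy t ht), h3]
      obtain ⟨y, y1, y2, y3, -⟩ := three_dir hcf hc4 h2 ha hb hc hd h hi hiR hrp (split_pow hz')
        (hne w) (key _ (split_pow hz')) fun y hy _ => key y hy
      exact ⟨w, y, y1, y2, y3⟩
    · have h5' := ord_four_iff.1 h5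
      obtain ⟨w, rfl⟩ := H18.El.exists_pow_of_not_dvd (r := 5) (by rw [hu]; omega) z
      have key : ∀ y : GL (Fin 4) F, y ^ 5 = 1 → ∀ t ∈ Ev y, t ^ p ∈ Ev y := fun y hy t ht => by
        have hs : SSm y := ⟨5, hrp, hy⟩
        rw [← hs.ev_frob, hF]
        exact Multiset.mem_map_of_mem _ ht
      obtain ⟨y, y1, y2, y3, -⟩ := five_dir hcf hc4 h2 ha hb hc hd h hrp h5' (split_pow hz')
        (hne w) (key _ (split_pow hz')) fun y hy _ => key y hy
      exact ⟨w, y, y1, y2, y3⟩

end Cfsg.Agent.S6000
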