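import Cfsg.Statements.S6001
import Cfsg.Agent.H13.XN7

set_option autoImplicit false
open scoped MatrixGroups
open Cfsg

namespace Cfsg.Agent.S6001

open H13.XE Cfsg.Geo Matrix

theorem b4_unitary {F : Type*} [Field F] {σ : F →+* F} (hσ : ∀ a, σ (σ a) = a) {α β : F}
    (e : α * σ α - β * -σ β = 1) :
    Sim (fun A => (A.map σ)ᵀ) (Units.map b4 (m2 _ _ _ _ e)) 1 := by
  unfold Sim
  ext k l
  fin_cases k <;> fin_cases l <;> simp [Matrix.mul_apply, Fin.sum_univ_succ, b4_def, m2, hσ] <;>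
    first | ring1 | linear_combination e

/-- Elements of prime order of PSU_4(p), p ≡ 3 (mod 4), and the normalizer of a 2-group of symplectic type of order 2⁶. Here `T = PSU_4(p)` for a prime `p ≡ 3 (mod 4)`, realised through `SU_4(p)`, the matrices of determinant 1 over the field `F` with `p²` elements preserving the hermitian form `f = Σ uᵢvᵢ^p`; `R` is an absolutely irreducible subgroup of the full unitary group of `f` of order 2⁶ that is a 2-group of symplectic type of exponent 4 with centre of order 4, and `H` is the subgroup of `SU_4(p)` normalizing `R` — a subgroup of type 2⁴.Sp₄(2) (maximality is not assumed). Ω is the set of cosets of `H`, so an element of `T` of prime order `r` (`x ∈ SU_4(p)` with `x^r` scalar, `x` not scalar) fixes a point of Ω exactly when some `SU_4(p)`-conjugate of `x` normalizes `R`. Let `r` be a prime dividing the index of `H`. Then every element of `T` of order `r` fixes a point of Ω if and only if `r = 2`, or `r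 = 3` and `p ≡ 1 (mod 3)`, or `r = 5` and `p ≡ ±2 (mod 5)` (`p` has multiplicative order 4 modulo 5). -/
theorem result {F : Type*} [Field F] [Fintype F] {p : ℕ} [Fact p.Prime] [CharP F p] (hF : Fintype.card F = p ^ 2) (hp4 : p % 4 = 3)
    (R : Subgroup (GL (Fin 4) F)) (hRs : Cfsg.Geo.IsSymplecticTypeGroup 2 R) (hRi : Cfsg.Geo.ActsAbsolutelyIrreducibly (Cfsg.Geo.matrixSet R))
    (hRU : R ≤ Cfsg.GU 4 F p) (hR6 : Nat.card R = 2 ^ 6) (hRZ : Nat.card (Subgroup.center R) = 4)
    (r : ℕ) [Fact r.Prime]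
    (hΩ : r ∣ (Cfsg.Geo.subgroupNormalizer R).relIndex (Cfsg.GU 4 F p ⊓ Cfsg.Geo.specialLinear (Fin 4) F)) :
    (∀ x ∈ Cfsg.GU 4 F p ⊓ Cfsg.Geo.specialLinear (Fin 4) F, (∃ z : F, ((x ^ r : GL (Fin 4) F) : Matrix (Fin 4) (Fin 4) F) = z • (1 : Matrix (Fin 4) (Fin 4) F)) →
      (∀ z : F, (x : Matrix (Fin 4) (Fin 4) F) ≠ z • (1 : Matrix (Fin 4) (Fin 4) F)) →
      ∃ g ∈ Cfsg.GU 4 F p ⊓ Cfsg.Geo.specialLinear (Fin 4) F, g⁻¹ * x * g ∈ Cfsg.Geo.subgroupNormalizer R) ↔ (r = 2 ∨ (r = 3 ∧ p % 3 = 1) ∨ (r = 5 ∧ orderOf (p : ZMod 5) = 4)) := by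
  have hp := (Fact.out : p.Prime)
  have hr := (Fact.out : r.Prime)
  have hp2 := hp.two_le
  have hp3 : 3 ≤ p := by omega
  have h2 : (2 : F) ≠ 0 := H10.two_ne_zero_of_charP (p := p) (by omega)
  have hch : ∀ m : ℕ, m.Prime → m ≠ p → (m : F) ≠ 0 := fun m hm h e =>
    h ((Nat.prime_dvd_prime_iff_eq hp hm).1 ((CharP.cast_eq_zero_iff F p m).1 e)).symm
  obtain ⟨hcf, h4⟩ := cf_of_sympl hRs hRi
  have hZ : Nat.card ↥(R ⊓ scalars (Fin 4) F) = 2 ^ 2 := by rw [card_inf_scalars hcf.cent, hRZ]; rfl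
  have hRc : Nat.card R = 2 ^ 2 * 16 := hR6
  have hc4 : Fintype.card (Fin 4) = 4 := by simp
  obtain ⟨i, hi, hiR⟩ := exists_i hZ
  obtain ⟨a, ha, b, hb, c, hc, d, hd, h⟩ := exists_rel_i hcf h4 hZ hRc hi hiR
  have hq := H11.qConj_conjQ hF
  generalize H11.conjQ hF = σ at hq
  have S := isStar_u (ι := Fin 4) σ
  have hU := fun g => mem_GU_sim (n := 4) (g := g) hq.eq
  have hRS := fun e he => (hU e).1 (hRU he)
  have hσi : σ i = -i := by
    have : (i : F) ^ 4 = 1 := by linear_combination ((i : F) ^ 2 - 1) * hi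
    rw [hq.eq, pow_eq_pow_mod p this, hp4]
    linear_combination (i : F) * hi
  have hn := hq.card_normOne
  haveI := hq.finite
  change ELg (GU 4 F p ⊓ specialLinear (Fin 4) F) R r ↔ _
  constructor
  · intro E
    by_cases hr2 : r = 2
    · exact .inl hr2
    have hb4 : ∀ {α β : F} (e : α * σ α - β * -σ β = 1),
        Units.map b4 (m2 _ _ _ _ e) ∈ GU 4 F p ⊓ specialLinear (Fin 4) F := fun e =>
      ⟨(hU _).2 (b4_unitary hq.invol e), H18.El.mem_sl.2 ((b4_det _).trans (m2_det e))⟩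
    rcases three_or_five hcf hRi.2 hc4 h2 hZ hRc inf_le_right hr2 hΩ E with rfl | rfl
    · refine .inr (.inl ⟨rfl, ?_⟩)
      by_contra h3
      by_cases h0 : p % 3 = 0
      · obtain rfl : p = 3 :=
          ((Nat.prime_dvd_prime_iff_eq Nat.prime_three hp).1 (Nat.dvd_of_mod_eq_zero h0)).symm
        have h3' : (3 : F) = 0 := CharP.cast_eq_zero F 3
        have e1 : σ (1 + i) = 1 - i := by rw [map_add, map_one, hσi]; ring
        have e : (1 + i : F) * σ (1 + i) - (1 + i) * -σ (1 + i) = 1 := by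
          rw [e1]; linear_combination h3' - 2 * hi
        refine no_rank_one hcf hc4 hr hr2 (hb4 e)
          (by rw [← map_pow, m2_char e (by rw [e1]; ring) 3, map_one])
          (b4_ns (m2_ne e (.inr fun e => h2 (by linear_combination (1 - (i : F)) * e + hi))))
          (c := 1) (u := ![i, i - 1, 0, 0]) (w := ![1, 1 - i, 0, 0]) ?_ E
        ext k l
        fin_cases k <;> fin_cases l <;> simp [Matrix.vecMulVec_apply, b4_def, m2, hσi] <;>
          first | ring1 | linear_combination hi | linear_combination hi - (i : F) * h3'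
      · obtain ⟨ω, hω⟩ := exists_prime_orderOf_dvd_card' (G := H11.normOne σ) 3 (by rw [hn]; omega)
        have hω3 : (ω.1 : F) ^ 3 = 1 := by
          rw [← Units.val_pow_eq_pow_val, ← Subgroup.coe_pow, ← hω, pow_orderOf_eq_one]; rfl
        have hω1 : (ω.1 : F) ≠ 1 := fun e => by
          rw [show ω = 1 from Subtype.ext (Units.ext e), orderOf_one] at hω; omega
        have hωn : σ ω.1 * ω.1 = 1 := ω.2
        refine no_three4 hcf hω3 hω1 (fun x e h =>
          Subgroup.mem_inf.2 ⟨(hU _).2 ?_, H18.El.mem_sl.2 h⟩) E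
        unfold Sim
        rw [e]
        ext k l
        fin_cases k <;> fin_cases l <;> simp [Matrix.mul_apply, Fin.sum_univ_succ, hωn]
    · refine .inr (.inr ⟨rfl, ord_four_iff.2 ?_⟩)
      by_contra h5
      have h0 : p % 5 ≠ 0 := fun h0 => by
        have := (Nat.prime_dvd_prime_iff_eq Nat.prime_five hp).1 (Nat.dvd_of_mod_eq_zero h0)
        omega
      obtain ⟨τ, hτ, hτ'⟩ := exists_tau (F := F) (p := p) (by omega) (by omega)
      have h5' : (5 : F) ≠ 0 := hch 5 Nat.prime_five (by omega)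
      have e1 : σ (τ / 2) = τ / 2 := by rw [map_div₀, map_ofNat, hq.eq, hτ']
      obtain ⟨β, hβ⟩ := H11.exists_norm_eq hq.ne_id hq.invol (a := 1 - τ / 2 * (τ / 2))
        (by rw [map_sub, map_mul, e1, map_one])
      have e : τ / 2 * σ (τ / 2) - β * -σ β = 1 := by rw [e1]; linear_combination hβ
      have e2 : τ / 2 + σ (τ / 2) = τ := by rw [e1]; field_simp; ring
      refine no_five hcf hRi.2 hc4 h2 hZ hRc h5' (hb4 e)
        (by rw [← map_pow, m2_five e (by rw [e2, hτ]), map_one])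
        (b4_ns (m2_ne e (.inl (by
          rw [e2]; rintro rfl; exact h5' (by linear_combination hτ))))) hτ
        ((b4_trace _).trans (congrArg (· + 2) e2)) ?_ E
      rw [← map_inv]
      exact (b4_trace _).trans (congrArg (· + 2) ((add_comm _ _).trans e2))
  · intro H x hx ⟨z, hz⟩ hns
    obtain ⟨z, rfl, hz'⟩ := unit_of_pow hz
    have hrp : (r : F) ≠ 0 := hch r hr (by
      rcases H with h | h | ⟨h, h'⟩
      · omega
      · omega
      · have := ord_four_iff.1 h'; omega)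
    have hsx := ssm_of_pow hrp hz'
    have hsc : ∀ w : Fˣ, σ w * w = 1 → sc (Fin 4) w ∈ GU 4 F p := fun w hw =>
      (hU _).2 (hw ▸ sim_sc S w)
    have hzn : σ z * z = 1 := by
      have h1 := (hU _).1 (pow_mem hx.1 r)
      rw [hz'] at h1
      have h3 := (sim_sc S z).symm.trans h1
      simpa using congrFun (congrFun h3 0) 0
    suffices ∃ w : Fˣ, σ w * w = 1 ∧ ∃ y ∈ Subgroup.normalizer (R : Set (GL (Fin 4) F)), SSm y ∧
        Ev (sc (Fin 4) w⁻¹ * x) = Ev y ∧ y ∈ GU 4 F p by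
      obtain ⟨w, hw, y, y1, y2, y3, y4⟩ := this
      obtain ⟨g, hg, e⟩ := conj_su hF (by norm_num) hx (mul_mem (hsc w hw) y4) hsx (y2.smul w)
        (ev_eq_smul hsx y2 y3)
      exact ⟨g, hg, e ▸ mul_mem (sc_mem_norm _ _) y1⟩
    have hne : ∀ w : Fˣ, sc (Fin 4) w⁻¹ * x ≠ 1 := fun w e => ns_smul hns w⁻¹ 1 (by rw [e]; simp)
    have hx' : ∀ w : H11.normOne σ, sc (Fin 4) w.1⁻¹ * x ∈ GU 4 F p := fun w =>
      mul_mem (hsc _ w⁻¹.2) hx.1
    rcases H with rfl | ⟨rfl, h3⟩ | ⟨rfl, h5⟩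
    · obtain ⟨w, hw⟩ : IsSquare (z : F) := by
        rw [FiniteField.isSquare_iff (by rw [ringChar.eq F p]; omega) z.ne_zero, hF]
        obtain ⟨k, rfl⟩ : ∃ k, p = 4 * k + 3 := ⟨p / 4, by omega⟩
        rw [show (4 * k + 3) ^ 2 / 2 = (4 * k + 3 + 1) * (2 * k + 1) by
          rw [show (4 * k + 3) ^ 2 = 1 + 2 * ((4 * k + 3 + 1) * (2 * k + 1)) by ring]; omega,
          pow_mul, pow_succ (z : F), ← hq.eq, hzn, one_pow]
      have hw0 : w ≠ 0 := by rintro rfl; exact z.ne_zero (by rw [hw]; simp)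
      have e := split_pow (w := Units.mk0 w hw0) (hz'.trans (congrArg _ (Units.ext (hw.trans (sq w).symm))))
      have e' : (sc (Fin 4) (Units.mk0 w hw0)⁻¹ * x).1 * (sc (Fin 4) (Units.mk0 w hw0)⁻¹ * x).1 = 1 := by
        rw [← Units.val_mul, ← sq, e, Units.val_one]
      obtain ⟨y, y1, y2, y3, y4⟩ := two_dir hcf hc4 h2 ha hc h hi hiR e' (ns_smul hns _)
      refine ⟨_, ?_, y, y1, y2, y3, (hU _).2 (y4 σ _ S hRS hσi)⟩
      change σ w * w = 1
      obtain ⟨k, l, hkl, hk, hl, ht, hev⟩ := inv_four hc4 h2 e' (ns_smul hns _)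
      have hxx : x.1 = w • (sc (Fin 4) (Units.mk0 w hw0)⁻¹ * x).1 := by
        rw [coe_sc_mul]; simp [hw0]
      generalize (sc (Fin 4) (Units.mk0 w hw0)⁻¹ * x) = x' at *
      by_cases hl2 : l = 2
      · obtain rfl : k = 2 := by omega
        subst hl2
        have d1 := (ssm_of_pow' (x := x') (m := 2) h2 (by rw [sq, e'])).ev_det
        rw [hev] at d1
        have d2 : x'.1.det = 1 := φ_inj (by rw [d1]; simp)
        have d3 := H18.El.mem_sl.1 hx.2
        rw [hxx, det_smul, d2] at d3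
        simp only [Fintype.card_fin, mul_one] at d3
        rw [hq.eq, pow_eq_pow_mod p d3, hp4, ← pow_succ, d3]
      · have t1 : (x⁻¹).1 = (x.1.map σ)ᵀ :=
          Units.inv_eq_of_mul_eq_one_left (by simpa [Sim] using (hU _).1 hx.1)
        have t2 : (x⁻¹).1 = w⁻¹ • x'.1 := Units.inv_eq_of_mul_eq_one_left (by
          rw [hxx, smul_mul_smul_comm, e', inv_mul_cancel₀ hw0, one_smul])
        have t3 := congrArg trace (t1.symm.trans t2)
        rw [trace_transpose, ← AddMonoidHom.map_trace, hxx, trace_smul, trace_smul, ht,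
          smul_eq_mul, smul_eq_mul, map_mul, map_sub, map_natCast, map_natCast] at t3
        have t4 : (k : F) - l ≠ 0 := by
          rcases (by omega : (k = 1 ∧ l = 3) ∨ (k = 3 ∧ l = 1)) with ⟨rfl, rfl⟩ | ⟨rfl, rfl⟩
          · exact fun e => h2 (by push_cast at e; linear_combination -e)
          · exact fun e => h2 (by push_cast at e; linear_combination e)
        rw [mul_right_cancel₀ t4 t3, inv_mul_cancel₀ hw0]
    · obtain ⟨w, hw⟩ := H18.El.exists_pow_of_not_dvd (r := 3) (G := H11.normOne σ)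
        (by rw [hn]; omega) ⟨z, hzn⟩
      obtain rfl : w.1 ^ 3 = z := congrArg Subtype.val hw
      have key : ∀ y ∈ GU 4 F p, y ^ 3 = 1 → (Ev y).map (· ^ 2) = Ev y := fun y hU hy => by
        have hs : SSm y := ⟨3, hrp, hy⟩
        rw [← hs.ev_inv (k := 2) hy, ev_unitary hU]
        conv_rhs => rw [← Multiset.map_id (Ev y)]
        exact Multiset.map_congr rfl fun t ht => by
          rw [pow_eq_pow_mod p (hs.ev_root hy t ht), h3, pow_one]; rfl
      obtain ⟨y, y1, y2, y3, y4⟩ := three_dir hcf hc4 h2 ha hb hc hd h hi hiR hrp (split_pow hz')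
        (hne w) (key _ (hx' w) (split_pow hz')) fun y hy y4 =>
          key y ((hU _).2 (y4 σ _ S hRS trivial)) hy
      exact ⟨w, w.2, y, y1, y2, y3, (hU _).2 (y4 σ _ S hRS trivial)⟩
    · have h5' := ord_four_iff.1 h5
      obtain ⟨w, hw⟩ := H18.El.exists_pow_of_not_dvd (r := 5) (G := H11.normOne σ)
        (by rw [hn]; omega) ⟨z, hzn⟩
      obtain rfl : w.1 ^ 5 = z := congrArg Subtype.val hw
      have key : ∀ y ∈ GU 4 F p, y ^ 5 = 1 → ∀ t ∈ Ev y, t ^ (p * 4) ∈ Ev y :=
        fun y hU hy t ht => by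
        have hs : SSm y := ⟨5, hrp, hy⟩
        have h1 : t ^ p ∈ Ev y⁻¹ := by rw [ev_unitary hU]; exact Multiset.mem_map_of_mem _ ht
        rw [hs.ev_inv (k := 4) hy] at h1
        obtain ⟨u, hu, e⟩ := Multiset.mem_map.1 h1
        rwa [pow_mul, ← e, ← pow_mul, pow_eq_pow_mod _ (hs.ev_root hy u hu), pow_one]
      obtain ⟨y, y1, y2, y3, y4⟩ := five_dir hcf hc4 h2 ha hb hc hd h hrp (s := p * 4) (by omega)
        (split_pow hz') (hne w) (key _ (hx' w) (split_pow hz')) fun y hy y4 =>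
          key y ((hU _).2 (y4 σ _ S hRS trivial)) hy
      exact ⟨w, w.2, y, y1, y2, y3, (hU _).2 (y4 σ _ S hRS trivial)⟩

end Cfsg.Agent.S6001
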