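import Cfsg.Statements.S6002
import Cfsg.Agent.H13.XN7

set_option autoImplicit false
open scoped MatrixGroups
open Cfsg

namespace Cfsg.Agent.S6002

open H13.XE Cfsg.Geo Matrix

theorem no_fpf {ι : Type} [Fintype ι] [DecidableEq ι] [Nonempty ι] {F : Type*} [Field F]
    {R : Subgroup (GL ι F)} (hcf : CF 2 R) (h2 : (2 : F) ≠ 0)
    (hZ : Nat.card ↥(R ⊓ scalars ι F) = 2 ^ 1) (hR : Nat.card R = 32) (hm : IsOfMinusType 2 R)
    (hneg : (-1 : GL ι F) ∈ R) {y : GL ι F} (hy : y ∈ Subgroup.normalizer (R : Set (GL ι F)))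
    (hy3 : y ^ 3 = 1) (hfix : ∀ e ∈ R, e * y = y * e → e ∈ scalars ι F) {c : GL ι F} (hc : c ∈ R)
    (hcc : c * c = 1) (hcs : c ∉ scalars ι F) : False := by
  have hN : ∀ e ∈ R, y * e * y⁻¹ ∈ R := fun e he => (Subgroup.mem_normalizer_iff.1 hy e).1 he
  have hns : ∀ e, e ∉ scalars ι F → y * e * y⁻¹ ∉ scalars ι F := fun e he h => he (by
    simpa [mul_assoc] using (scalars_normal (ι := ι) (F := F)).conj_mem _ h y⁻¹)
  have hsq : ∀ e : GL ι F, e * e = 1 → y * e * y⁻¹ * (y * e * y⁻¹) = 1 := fun e he => by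
    rw [show y * e * y⁻¹ * (y * e * y⁻¹) = y * (e * e) * y⁻¹ by group, he]; simp
  have hne : ∀ w : GL ι F, w.1 ≠ -w.1 := fun w e => by
    have h1 : (2 : F) • w.1 = 0 := by rw [two_smul]; nth_rw 1 [e]; simp
    exact w.ne_zero ((smul_eq_zero.1 h1).resolve_left h2)
  obtain ⟨e1, he1⟩ : ∃ e1, e1 = y * c * y⁻¹ := ⟨_, rfl⟩
  obtain ⟨e2, he2⟩ : ∃ e2, e2 = y * e1 * y⁻¹ := ⟨_, rfl⟩
  have m1 : e1 ∈ R := he1 ▸ hN c hc
  have m2 : e2 ∈ R := he2 ▸ hN e1 m1
  have s1 : e1 * e1 = 1 := he1 ▸ hsq c hcc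
  have s2 : e2 * e2 = 1 := he2 ▸ hsq e1 s1
  have he3 : y * e2 * y⁻¹ = c := by
    rw [he2, he1, show y * (y * (y * c * y⁻¹) * y⁻¹) * y⁻¹ = y ^ 3 * c * (y ^ 3)⁻¹ by
      simp [pow_succ, mul_assoc], hy3]
    simp
  have hw : y * (c * (e1 * e2)) * y⁻¹ = e1 * e2 * c := by
    calc _ = (y * c * y⁻¹) * (y * e1 * y⁻¹) * (y * e2 * y⁻¹) := by group
      _ = _ := by rw [← he1, ← he2, he3]
  have mw : c * (e1 * e2) ∈ R := mul_mem hc (mul_mem m1 m2)
  have hsc : c * (e1 * e2) ∈ scalars ι F := by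
    rcases hcf.comm_or hc (mul_mem m1 m2) with e | e
    · refine hfix _ mw ?_
      have : e1 * e2 * c = c * (e1 * e2) := Units.ext e
      rw [this] at hw
      conv_lhs => rw [← hw]
      simp
    · exfalso
      have h1 : y * (c * (e1 * e2)) * y⁻¹ = -(c * (e1 * e2)) := hw.trans (Units.ext e)
      generalize c * (e1 * e2) = w at h1
      have h3 : y ^ 3 * w * (y ^ 3)⁻¹ = -w := by
        rw [show y ^ 3 * w * (y ^ 3)⁻¹ = y * (y * (y * w * y⁻¹) * y⁻¹) * y⁻¹ by
          simp [pow_succ, mul_assoc], h1, mul_neg,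
          neg_mul, h1, neg_neg, h1]
      rw [hy3] at h3
      exact hne w (by simpa using congrArg Units.val h3)
  have hw2 : c * (e1 * e2) * (c * (e1 * e2)) = 1 := by
    have := pow_card_eq_one' (x := (⟨_, mw, hsc⟩ : ↥(R ⊓ scalars ι F)))
    rw [hZ, pow_one, sq] at this
    exact congrArg Subtype.val this
  obtain ⟨t, ht⟩ := mem_scalars.1 hsc
  have h5 : c * e1 = sc ι t * e2 := by rw [ht, mul_assoc, mul_assoc, s2, mul_one]
  have h6 : c * e1 * (c * e1) = 1 := by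
    rw [h5, mul_assoc, ← mul_assoc e2, ← sc_comm, mul_assoc, s2, mul_one, ht, hw2]
  refine not_minus h2 hR hm hneg hc m1 hcc s1 ?_ hcs (he1 ▸ hns c hcs) fun h => ?_
  · calc c * e1 = (c * e1)⁻¹ := eq_inv_of_mul_eq_one_left h6
      _ = e1 * c := by
        rw [_root_.mul_inv_rev, inv_eq_of_mul_eq_one_left s1, inv_eq_of_mul_eq_one_left hcc]
  · rw [h5] at h
    exact (he2 ▸ hns e1 (he1 ▸ hns c hcs)) ((Subgroup.mul_mem_cancel_left _ (sc_mem t)).1 h)

/-- Elements of prime order of PSp_4(p), p odd, and the normalizer of an extraspecial 2-group of order 2⁵ of minus type. Here `T = PSp_4(F)` for the field `F` with `p` elements, `p` an odd prime, realised through the matrices preserving the standard alternating form `f`; `R` is an absolutely irreducible subgroup of `T` (it preserves `f`) that is a 2-group of symplectic type of exponent 4, order 2⁵ and centre of order 2, of minus type (no elementary abelian subgroup of order 2³),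 and `H` is the subgroup of `T` normalizing `R` — a subgroup of type 2^{1+4}.O₄⁻(2) (maximality is not assumed). Ω is the set of cosets of `H` in `T`, so an element of `T` of prime order `r` (`x ∈ T` with `x^r` scalar, `x` not scalar) fixes a point of Ω exactly when some `T`-conjugate of `x` normalizes `R`. Let `r` be a prime dividing the index of `H`. Then every element of `T` of order `r` fixes a point of Ω if and only if `r = 2`, or `r = 5` and `p` has multiplicative order 4 modulo 5. -/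
theorem result {F : Type*} [Field F] [Fintype F] {p : ℕ} [Fact p.Prime] [CharP F p] (hF : Fintype.card F = p) (hodd : Odd p)
    (R : Subgroup (GL (Fin 2 ⊕ Fin 2) F)) (hRs : Cfsg.Geo.IsSymplecticTypeGroup 2 R) (hRi : Cfsg.Geo.ActsAbsolutelyIrreducibly (Cfsg.Geo.matrixSet R))
    (hRf : R ≤ Cfsg.spGL 2 F) (hR5 : Nat.card R = 2 ^ 5) (hRZ : Nat.card (Subgroup.center R) = 2) (hRm : Cfsg.Geo.IsOfMinusType 2 R)
    (r : ℕ) [Fact r.Prime]
    (hΩ : r ∣ (Cfsg.Geo.subgroupNormalizer R).relIndex (Cfsg.spGL 2 F)) :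
    (∀ x ∈ Cfsg.spGL 2 F, (∃ z : F, ((x ^ r : GL (Fin 2 ⊕ Fin 2) F) : Matrix (Fin 2 ⊕ Fin 2) (Fin 2 ⊕ Fin 2) F) = z • (1 : Matrix (Fin 2 ⊕ Fin 2) (Fin 2 ⊕ Fin 2) F)) →
      (∀ z : F, (x : Matrix (Fin 2 ⊕ Fin 2) (Fin 2 ⊕ Fin 2) F) ≠ z • (1 : Matrix (Fin 2 ⊕ Fin 2) (Fin 2 ⊕ Fin 2) F)) →
      ∃ g ∈ Cfsg.spGL 2 F, g⁻¹ * x * g ∈ Cfsg.Geo.subgroupNormalizer R) ↔ (r = 2 ∨ (r = 5 ∧ orderOf (p : ZMod 5) = 4)) := by
  have hp := (Fact.out : p.Prime)
  have hr := (Fact.out : r.Prime)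
  have hp2 := hp.two_le
  have hp3 : 3 ≤ p := by have := Nat.odd_iff.1 hodd; omega
  have h2 : (2 : F) ≠ 0 := H10.two_ne_zero_of_charP (p := p) (by omega)
  have hch : ∀ m : ℕ, m.Prime → m ≠ p → (m : F) ≠ 0 := fun m hm h e =>
    h ((Nat.prime_dvd_prime_iff_eq hp hm).1 ((CharP.cast_eq_zero_iff F p m).1 e)).symm
  obtain ⟨hcf, h4⟩ := cf_of_sympl hRs hRi
  have hZ : Nat.card ↥(R ⊓ scalars (Fin 2 ⊕ Fin 2) F) = 2 ^ 1 := by
    rw [card_inf_scalars hcf.cent, hRZ]; rfl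
  have hRc : Nat.card R = 2 ^ 1 * 16 := hR5
  have hc4 : Fintype.card (Fin 2 ⊕ Fin 2) = 4 := by simp
  obtain ⟨a, ha, b, hb, c, hc, d, hd, h⟩ := exists_rel_minus hcf h4 h2 hZ hR5 hRm
  have S := isStar_sp (F := F) 2
  have hRS := fun e (he : e ∈ R) => mem_sp_sim.1 (hRf he)
  have hdet : spGL 2 F ≤ specialLinear _ F := fun x hx =>
    H18.El.mem_sl.2 (SymplecticGroup.det_eq_one (mem_spGL'.1 hx))
  have hcs := not_scalar_of_anti h2 h.dc
  change ELg (spGL 2 F) R r ↔ _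
  constructor
  · intro E
    by_cases hr2 : r = 2
    · exact .inl hr2
    have hb4 : ∀ A : GL (Fin 2) F, A.1.det = 1 → Units.map bS A ∈ spGL 2 F :=
      fun A hA => mem_spGL'.2 (bS_mem hA)
    have hrp : r ≠ p := by
      rintro rfl
      have e : (1 : F) * 1 - 1 * 0 = 1 := by ring
      refine no_rank_one hcf hc4 hr hr2 (hb4 _ (m2_det e))
        (by rw [← map_pow, m2_char e (by ring) r, map_one]) (bS_ns (m2_ne e (.inr one_ne_zero)))
        (c := 1) (u := Sum.elim ![1, 0] ![0, 0]) (w := Sum.elim ![0, 0] ![1, 0]) ?_ E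
      ext (k | k) (l | l) <;> fin_cases k <;> fin_cases l <;>
        simp [Matrix.vecMulVec_apply, bS_def, m2]
    have hr0 := hch r hr hrp
    rcases three_or_five hcf hRi.2 hc4 h2 hZ hRc hdet hr2 hΩ E with rfl | rfl
    · exfalso
      have e : (0 : F) * (-1) - (-1) * 1 = 1 := by ring
      have hx3 : Units.map bS (m2 _ _ _ _ e) ^ 3 = 1 := by
        rw [← map_pow, m2_three e (by simp), map_one]
      have hns := bS_ns (m2_ne e (.inr (by simp)))
      obtain ⟨g, -, hg⟩ := E _ (hb4 _ (m2_det e)) ⟨1, by rw [hx3]; simp⟩ hns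
      obtain ⟨a1, a2, a3, a4⟩ := conj_facts g hx3 hns
      have t1 : (Units.map bS (m2 _ _ _ _ e)).1.trace = 1 :=
        (bS_trace _).trans (by simp [m2]; norm_num)
      have t2 : (Units.map bS (m2 _ _ _ _ e))⁻¹.1.trace = 1 := by
        rw [← map_inv]
        exact (bS_trace _).trans (by simp [m2]; norm_num)
      rcases (n4 hcf hRi.2 hc4 h2 hZ hRc hg hr2 a1 a2).2.2 rfl with e' | ⟨-, e'⟩
      · rw [a3, a4, t1, t2] at e'
        exact hr0 (by push_cast; linear_combination -e')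
      · exact no_fpf hcf h2 hZ hR5 hRm (neg_one_mem ha hb h.ba) hg (by rw [a1, map_one]) e' hc
          (Units.ext h.cc) hcs
    · refine .inr ⟨rfl, ord_four_iff.2 ?_⟩
      by_contra h5
      have h0 : p % 5 ≠ 0 := fun h0 =>
        hrp ((Nat.prime_dvd_prime_iff_eq Nat.prime_five hp).1 (Nat.dvd_of_mod_eq_zero h0))
      obtain ⟨τ, hτ, -⟩ := exists_tau (F := F) (p := p) (by omega) (by omega)
      have e : (0 : F) * τ - (-1) * 1 = 1 := by ring
      refine no_five hcf hRi.2 hc4 h2 hZ hRc hr0 (hb4 _ (m2_det e))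
        (by rw [← map_pow, m2_five e (by simpa using hτ), map_one])
        (bS_ns (m2_ne e (.inr (by simp)))) hτ ((bS_trace _).trans (by simp [m2])) ?_ E
      rw [← map_inv]
      exact (bS_trace _).trans (by simp [m2])
  · intro H x hx ⟨z, hz⟩ hns
    obtain ⟨z, rfl, hz'⟩ := unit_of_pow hz
    have hrp : (r : F) ≠ 0 := hch r hr (by
      rcases H with h | ⟨h, h'⟩
      · omega
      · have := ord_four_iff.1 h'; omega)
    have hsx := ssm_of_pow hrp hz'
    have hsc : ∀ w : Fˣ, (w : F) * w = 1 → sc _ w ∈ spGL 2 F := fun w hw =>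
      mem_sp_sim.2 (hw ▸ sim_sc S w)
    have hzn : (z : F) * z = 1 := by
      have h1 := mem_sp_sim.1 (pow_mem hx r)
      rw [hz'] at h1
      have h3 := (sim_sc S z).symm.trans h1
      simpa using congrFun (congrFun h3 (.inl 0)) (.inl 0)
    suffices ∃ y ∈ Subgroup.normalizer (R : Set (GL (Fin 2 ⊕ Fin 2) F)), SSm y ∧
        x.1.charpoly = y.1.charpoly ∧ y ∈ spGL 2 F by
      obtain ⟨y, y1, y2, y3, y4⟩ := this
      obtain ⟨g, hg, e⟩ := conj_sp hx y4 hsx y2 y3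
      exact ⟨g, hg, e ▸ y1⟩
    rcases H with rfl | ⟨rfl, h5⟩
    · rw [sq, Units.val_mul] at hz
      rcases mul_self_eq_one_iff.1 hzn with e | e <;> rw [e] at hz
      · rw [one_smul] at hz
        refine ⟨c, Subgroup.le_normalizer hc, ssm_of_pow' (m := 2) h2 (by rw [sq, h.cc]),
          charpoly_eq_of_ev (inv_four_eq hc4 h2 hz hns h.cc
            (fun z e => hcs (scalar_iff.2 ⟨z, e⟩)) ?_), hRf hc⟩
        obtain ⟨k, l, hkl, hk, hl, ht, hev⟩ := inv_four hc4 h2 hz hns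
        have d1 := hsx.ev_det
        rw [hev, H18.El.mem_sl.1 (hdet hx)] at d1
        have h2' : (2 : AlgebraicClosure F) ≠ 0 := castK (m := 2) h2
        rcases (by omega : (k = 1 ∧ l = 3) ∨ (k = 3 ∧ l = 1) ∨ (k = 2 ∧ l = 2)) with
          ⟨rfl, rfl⟩ | ⟨rfl, rfl⟩ | ⟨rfl, rfl⟩
        · simp at d1; exact absurd (by linear_combination d1) h2'
        · simp at d1; exact absurd (by linear_combination d1) h2'
        · rw [ht, hcf.tr_zero hc hcs, sub_self]
      · rw [neg_one_smul] at hz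
        obtain ⟨i, hi⟩ := IsAlgClosed.exists_eq_mul_self (-1 : AlgebraicClosure F)
        refine ⟨a, Subgroup.le_normalizer ha, ⟨4, ?_, h4 a ha⟩, charpoly_eq_of_ev ?_, hRf ha⟩
        · rw [show ((4 : ℕ) : F) = 2 * 2 by norm_num]; exact mul_ne_zero h2 h2
        · rw [neg_four hc4 h2 hz (ev_sp hx) hi.symm, neg_four hc4 h2 h.aa (ev_sp (hRf ha)) hi.symm]
    · have h5' := ord_four_iff.1 h5
      have e5 : z ^ 5 = z := Units.ext (by
        rw [Units.val_pow_eq_pow_val]; linear_combination ((z : F) ^ 3 + z) * hzn)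
      rw [← e5] at hz'
      have key : ∀ y : GL (Fin 2 ⊕ Fin 2) F, y ^ 5 = 1 → ∀ t ∈ Ev y, t ^ p ∈ Ev y :=
        fun y hy t ht => by
        have hs : SSm y := ⟨5, hrp, hy⟩
        rw [← hs.ev_frob, hF]
        exact Multiset.mem_map_of_mem _ ht
      obtain ⟨y, y1, y2, y3, y4⟩ := five_dir hcf hc4 h2 ha hb hc hd h hrp h5' (split_pow hz')
        (fun e => ns_smul hns z⁻¹ 1 (by rw [e]; simp)) (key _ (split_pow hz')) fun y hy _ => key y hy
      exact ⟨_, mul_mem (sc_mem_norm _ _) y1, y2.smul z, ev_eq_smul hsx y2 y3,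
        mul_mem (hsc z hzn) (mem_sp_sim.2 (y4 _ _ S hRS trivial))⟩

end Cfsg.Agent.S6002
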